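import Cfsg.Statements.S2376
import Cfsg.Agent.Chev.TwGraph
import Cfsg.Agent.Chev.TwD4

set_option autoImplicit false
open Cfsg

namespace Cfsg.Agent.S2376

open Cfsg.Agent.Chev Cfsg.Lie Cfsg.Lie.ChevalleyDatum

/-- The word. -/
def wrd : List (Fin 4) := [1]

/-- The twisted action on lists. -/
def WL (v : List ℤ) : List ℤ :=
  chevD4.lwL (wrd.map Fin.val) ((List.range 4).map fun i => v.getD ([3, 1, 0, 2].getD i 0) 0)

/-- The certificate. -/
def tb : TorTab :=
  { V := [[-1, 1, -1, 0], [1, -1, 0, 0], [-1, 1, 0, -1], [0, -1, 0, 1], [0, 1, -1, -1]]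
    B := [[0, 0, -1, -1], [0, -1, -1, -1], [-1, -1, 0, 0], [0, -1, -1, 0]]
    G := [[0, 0, 0, -1], [-1, 0, 0, 1], [0, -1, 0, 0], [1, 0, -1, -1]]
    p := [-1, -1, 0, 1]
    g := [-1, 0, -1, 0]
    C := 2, m := 1, d := 2, a := 4, q0 := 2, q1 := 5 }

theorem ok1 : tb.OK1 chevD4.rank WL := by decide +kernel

theorem ok2 : tb.OK2 chevD4 WL := by decide +kernel

theorem grData : GrData d4Sym (fun r => grD4aEps r) 3 :=
  grData_of_trans grD4a_trans
    (by decide +kernel : ∀ (r : Fin 24) (i : Fin 4),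
      chevD4.cartan ([2, 1, 3, 0].getD i 0) (grD4aMap r) = chevD4.cartan i r)
    (by decide +kernel : ∀ i : Fin 4, grD4aEps (chevD4.simple i) = 1) (by decide) (by decide +kernel)

/-- The group ³D₄(q) contains a cyclic subgroup of order (q³ − 1)(q + 1) which is its own centralizer. -/
theorem result {K : Type*} [Field K] [Fintype K] (q : ℕ) (hq : IsPrimePow q) (hK : Fintype.card K = q ^ 3) :
    ∃ H : Subgroup ↥(Cfsg.Lie.twistedD4 K q), IsCyclic ↥H ∧ Nat.card ↥H = (q ^ 3 - 1) * (q + 1) ∧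
      Subgroup.centralizer (H : Set ↥(Cfsg.Lie.twistedD4 K q)) = H := by
  obtain ⟨f, hf⟩ := tw_exists_frob (K := K) hq (by decide) hK
  rw [← twD4_G1 hK hf]
  have h1 : 1 ≤ q ^ 3 := Nat.one_le_pow _ _ hq.pos
  have hN : (((q ^ 3 - 1) * (q + 1) : ℕ) : ℤ) = ((q : ℤ) ^ 3 - 1) * (q + 1) := by push_cast [h1]; rfl
  refine TorTab.exists_selfCent_twisted grData (stTor_injective_D4 _) (twD4 f) rfl hq hK hf wrd
    (fun u => ?_) tb ok1 ok2 hq.two_le (N := (q ^ 3 - 1) * (q + 1)) ?_ ?_ (one_mul _).symm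
    (fun _ _ => one_dvd _) fun k hk hk' => ?_
  · refine Eq.trans ?_ (chevD4.lw_toLat wrd _)
    congr 1
    exact (toLat_map 4 fun i => u.getD ([3, 1, 0, 2].getD i 0) 0).symm
  · change _ = tb.N 4 q
    rw [hN]; simp [TorTab.N, tb, sumL, List.range_succ]; ring
  · intro h
    rw [hN]
    obtain ⟨t, rfl⟩ := Nat.exists_eq_add_of_le h
    change 2 * 2 * ∑ k ∈ Finset.range 4, _ < _
    simp only [tb, Finset.sum_range_succ, Finset.sum_range_zero]
    push_cast
    rw [← sub_pos]; ring_nf; positivity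
  · have e0 : chevD4.expL tb.B q (chevD4.simple 0) = q - q ^ 2 - q ^ 3 := by
      have : ∀ k < 4, chevD4.coL tb.B (chevD4.simple 0) k = [0, 1, -1, -1].getD k 0 := by
        decide +kernel
      change sumL 4 _ = _
      simp [sumL, List.range_succ, this]; ring
    have h0 := hk' 0 (by decide)
    rw [e0] at h0
    change _ ∣ (2 : ℤ) * k at hk
    rw [← Int.natCast_dvd_natCast]
    rcases Int.even_or_odd' (q : ℤ) with ⟨c, hc | hc⟩
    · refine IsCoprime.dvd_of_dvd_mul_left ?_ hk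
      rw [hN, hc]
      exact ⟨-1, 8 * c ^ 4 + 4 * c ^ 3 - c, by ring⟩
    · have := (dvd_mul_of_dvd_right hk (-(4 * c ^ 3 + 8 * c ^ 2 + 4 * c))).sub h0
      rwa [show -(4 * c ^ 3 + 8 * c ^ 2 + 4 * c) * (2 * (k : ℤ)) - (q - q ^ 2 - q ^ 3) * k = k by
        rw [hc]; ring] at this

end Cfsg.Agent.S2376
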