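import Mathlib
import Cfsg.Statements.S2327
import Cfsg.Agent.Chev.ChevBN
import Cfsg.Agent.Chev.Good

set_option autoImplicit false
open Cfsg

namespace Cfsg.Agent.S2327

open Cfsg.Agent.Chev

/-- In a Chevalley group of type G₂, B₂, D₄, F₄, E₆, E₇ or E₈ over a finite field with q elements, the Steinberg character (the alternating sum of the permutation characters on the standard parabolic subgroups) has degree q^N, N the number of positive roots; this is the order of U and the largest power of the characteristic dividing the group order. -/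
theorem result {F : Type*} [Field F] [Fintype F] (D : Cfsg.Lie.ChevalleyDatum) (hD : D ∈ [Cfsg.Lie.chevG2, Cfsg.Lie.chevB2, Cfsg.Lie.chevD4, Cfsg.Lie.chevF4, Cfsg.Lie.chevE6, Cfsg.Lie.chevE7, Cfsg.Lie.chevE8]) :
    D.steinbergCharacter F 1 = (Fintype.card F : ℂ) ^ (D.nroots / 2) := by
  have := good_of_mem hD
  have := Fintype.ofFinite (D.group F)
  have := Fintype.ofFinite (D.bnPair F).S
  obtain ⟨n, hn⟩ := BNPair.exists_isLongest_toW (P := D.bnPair F) (Finset.univ : Finset (D.bnPair F).S)
  rw [D.steinbergCharacter_eq F, BNPair.st, BNPair.stK_one _ hn,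
    D.Bw_longest F (by simpa using hn), D.card_bnPair_B F, ← D.card_HG F, Nat.cast_mul,
    mul_div_cancel_right₀ _ (natCard_subgroup_ne_zero _), Nat.card_eq_fintype_card, Nat.cast_pow]

end Cfsg.Agent.S2327
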