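import Mathlib
import Cfsg.Statements.S2314
import Cfsg.Agent.Chev.ChevBN
import Cfsg.Agent.Chev.Good
import Cfsg.Agent.S2327

set_option autoImplicit false
open Cfsg

namespace Cfsg.Agent.S2314

open Cfsg.Agent.Chev

theorem exists_conj_mem {G : Type*} [Group G] [Finite G] {p : ℕ} [Fact p.Prime] {U L : Subgroup G}
    (hU : IsPGroup p U) (hi : ¬ p ∣ U.index) (hUL : U ≤ L) {g : G} (hg : ∃ k, orderOf g = p ^ k)
    (hgL : g ∈ L) : ∃ x ∈ L, x⁻¹ * g * x ∈ U := by
  have h1 : IsPGroup p (U.subgroupOf L) := hU.of_equiv (Subgroup.subgroupOfEquivOfLe hUL).symm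
  have h2 : ¬ p ∣ (U.subgroupOf L).index := fun h =>
    hi (h.trans (Subgroup.relIndex_dvd_index_of_le hUL))
  obtain ⟨k, hk⟩ := hg
  have h3 : IsPGroup p (Subgroup.zpowers (⟨g, hgL⟩ : L)) :=
    IsPGroup.of_card (by rw [Nat.card_zpowers, ← Subgroup.orderOf_coe]; exact hk)
  obtain ⟨Q, hQ⟩ := h3.exists_le_sylow
  obtain ⟨x, hx⟩ := MulAction.exists_smul_eq L (h1.toSylow h2) Q
  refine ⟨x, x.2, ?_⟩
  have h4 := hQ (Subgroup.mem_zpowers _)
  rw [← hx, Sylow.coe_subgroup_smul, Subgroup.mem_pointwise_smul_iff_inv_smul_mem] at h4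
  simpa [Subgroup.mem_subgroupOf] using h4

/-- Steinberg's count of unipotent elements: in a Chevalley group of type G₂, B₂, D₄, F₄, E₆, E₇ or E₈ over a finite field of characteristic p with q elements, the number of elements of p-power order is q^(2N), N the number of positive roots — the square of the order of a Sylow p-subgroup. -/
theorem result {F : Type*} [Field F] [Fintype F] (p : ℕ) [Fact p.Prime] [CharP F p] (D : Cfsg.Lie.ChevalleyDatum) (hD : D ∈ [Cfsg.Lie.chevG2, Cfsg.Lie.chevB2, Cfsg.Lie.chevD4, Cfsg.Lie.chevF4, Cfsg.Lie.chevE6, Cfsg.Lie.chevE7, Cfsg.Lie.chevE8]) :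
    Nat.card {g : ↥(D.group F) // ∃ k : ℕ, orderOf g = p ^ k} = Fintype.card F ^ (2 * (D.nroots / 2)) := by
  have := good_of_mem hD
  have := Fintype.ofFinite (D.group F)
  have := Fintype.ofFinite (D.bnPair F).S
  have h := BNPair.card_unipotent (P := D.bnPair F) {g | ∃ k : ℕ, orderOf g = p ^ k}
    (fun x g => by
      have : orderOf (x⁻¹ * g * x) = orderOf g := by
        simpa using (MulAut.conj x⁻¹).orderOf_eq g
      simp [this]) (D.UG F)
    (fun u hu => by
      obtain ⟨k, hk⟩ := (IsPGroup.iff_orderOf.1 (D.isPGroup_UG F p)) ⟨u, hu⟩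
      exact ⟨k, (Subgroup.orderOf_mk u hu).symm.trans hk⟩)
    (D.B_le_normalizer_UG F) (D.UG_le_B F)
    (fun K g hg hK => exists_conj_mem (D.isPGroup_UG F p) (D.not_dvd_index_UG F p)
      ((D.UG_le_B F).trans ((D.bnPair F).B_le_par _)) hg hK)
    fun K => ⟨_, D.isLongest_nS F K, D.Bw_sup_UG F _, fun x hx q hq => by
      have h1 := (D.mem_Bw_inf_UG F _).1 hq
      refine (D.mem_Bw_inf_UG F _).2 ?_
      rw [D.Up_nS_inv] at h1 ⊢
      simpa using RootBN.conj_P_Q (inv_mem ((D.mem_bn_par F).1 hx)) h1⟩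
  rw [← D.steinbergCharacter_eq F, S2327.result D hD, D.card_UG F, Nat.card_eq_fintype_card (α := F)]
    at h
  rw [two_mul, pow_add]
  exact_mod_cast h

end Cfsg.Agent.S2314
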