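import Mathlib
import Cfsg.Statements.S1632
import Cfsg.Agent.Spor.Theta
import Cfsg.Agent.Spor.LeechIndex
import Cfsg.Agent.Spor.LeechGen

set_option autoImplicit false
open Matrix
open Cfsg

namespace Cfsg.Agent.S1632

section
open Cfsg.Agent.Spor.Leech

open Finset Spor.Theta

/-- The Leech lattice as a self-dual code lattice. -/
def leechCode : Code GolayPt where
  d _ := 8
  pos _ := by norm_num
  H := leechLattice
  dual k := by
    have key : ∀ h : Vec, (∃ m : ℤ, ∑ i, (k i * h i : ℚ) / (8 : ℕ) = m) ↔ (8 : ℤ) ∣ dotInt k h := by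
      intro h
      refine exists_congr fun m => ?_
      rw [← sum_div, div_eq_iff (by norm_num), dotInt_def, mul_comm]; norm_cast
    simp only [key]
    exact ⟨fun hk h hh => eight_dvd_dot hk hh, fun h => mem_leech_of_dot fun v => h v v.2⟩
  even k hk := by
    obtain ⟨m, hm⟩ := sixteen_dvd_sqNorm hk
    have := sqNorm_nonneg k
    lift m to ℕ using by omega
    refine ⟨m, ?_⟩
    rw [← sum_div, div_eq_iff (by norm_num)]
    have := congrArg (Int.cast : ℤ → ℚ) hm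
    rw [sqNorm_def] at this; push_cast at this ⊢; rw [this]; ring

theorem cnt_leech (m : ℕ) : leechCode.cnt m = {x : Vec | x ∈ leechLattice ∧ sqNorm x = 16 * m}.ncard := by
  rw [Code.cnt]; congr 1; ext x
  refine and_congr_right fun _ => ?_
  change ∑ i, (x i : ℚ) ^ 2 / (8 : ℕ) = _ ↔ _
  rw [← sum_div, div_eq_iff (by norm_num), sqNorm_def, ← Int.cast_inj (α := ℚ)]
  push_cast
  rw [show (2 : ℚ) * m * 8 = 16 * m by ring]

theorem exists_code {n : ℕ} (B : Matrix (Fin n) (Fin n) ℤ) (hsymm : B.IsSymm)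
    (hpos : ∀ x : Fin n → ℤ, x ≠ 0 → 0 < x ⬝ᵥ (B *ᵥ x)) (heven : ∀ x : Fin n → ℤ, (2 : ℤ) ∣ x ⬝ᵥ (B *ᵥ x))
    (hdet : B.det = 1) : ∃ (ι : Type) (_ : Fintype ι) (C : Code ι), Fintype.card ι = n ∧
      ∀ m : ℕ, C.cnt m = {x : Fin n → ℤ | x ⬝ᵥ (B *ᵥ x) = 2 * m}.ncard := by
  let β := Matrix.toBilin' (B.map (Int.cast : ℤ → ℚ))
  let c : (Fin n → ℤ) → Fin n → ℚ := fun x i => x i
  have hβ : ∀ x y, β (c x) (c y) = (x ⬝ᵥ (B *ᵥ y) : ℤ) := by
    intro x y
    simp [β, c, Matrix.toBilin'_apply', dotProduct, Matrix.mulVec]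
  have hs : β.IsSymm := by
    rw [← LinearMap.BilinForm.isSymm_toMatrix'_iff_isSymm, LinearMap.BilinForm.toMatrix'_toBilin']
    exact hsymm.map _
  obtain ⟨v, hv⟩ := LinearMap.BilinForm.exists_orthogonal_basis (B := β) ⟨hs.eq⟩
  obtain ⟨b, hb⟩ := IsLocalization.exist_integer_multiples_of_finite (nonZeroDivisors ℤ)
    (S := ℚ) fun p : _ × Fin n => v p.1 p.2
  choose w hw using fun i j => hb (i, j)
  have hb0 : ((b : ℤ) : ℚ) ≠ 0 := by exact_mod_cast nonZeroDivisors.ne_zero b.2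
  have hw' : ∀ i, c (w i) = ((b : ℤ) : ℚ) • v i := fun i => funext fun j => by simpa using hw i j
  have hw0 : ∀ i, 0 < w i ⬝ᵥ (B *ᵥ w i) := fun i => hpos _ fun h => by
    have := hw' i
    rw [h, show c 0 = 0 from funext fun _ => Int.cast_zero, eq_comm, smul_eq_zero] at this
    exact this.elim hb0 (v.ne_zero i)
  let d := fun i => (w i ⬝ᵥ (B *ᵥ w i)).toNat
  have hd : ∀ i, (d i : ℚ) = β (c (w i)) (c (w i)) := fun i => by
    rw [hβ, ← Int.toNat_of_nonneg (hw0 i).le]; rfl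
  have hd0 : ∀ i, 0 < d i := fun i => by have := hw0 i; simp only [d]; omega
  have hd1 : ∀ i, (d i : ℚ) ≠ 0 := fun i => by exact_mod_cast (hd0 i).ne'
  have ho : ∀ i j, i ≠ j → β (c (w i)) (c (w j)) = 0 := fun i j h => by
    rw [hw', hw', map_smul, map_smul, LinearMap.smul_apply, hv h, smul_zero, smul_zero]
  have hcoef : ∀ (a : _ → ℚ) i, β (c (w i)) (∑ j, a j • c (w j)) = a i * d i := fun a i => by
    rw [map_sum, Finset.sum_eq_single i (fun j _ h => by rw [map_smul, ho i j h.symm, smul_zero])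
      (by simp), map_smul, hd, smul_eq_mul]
  have pars : ∀ x y, β x y = ∑ i, β (c (w i)) x * β (c (w i)) y / d i := by
    intro x y
    have hx : x = ∑ j, (v.repr x j / (b : ℤ)) • c (w j) := by
      conv_lhs => rw [← v.sum_repr x]
      exact sum_congr rfl fun j _ => by rw [hw', smul_smul, div_mul_cancel₀ _ hb0]
    obtain ⟨a, rfl⟩ : ∃ a : _ → ℚ, x = ∑ j, a j • c (w j) := ⟨_, hx⟩
    simp only [hcoef]
    rw [map_sum, LinearMap.sum_apply]
    refine sum_congr rfl fun i _ => ?_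
    rw [map_smul, LinearMap.smul_apply, smul_eq_mul]
    field_simp [hd1 i]
  let φ : (Fin n → ℤ) →+ (_ → ℤ) := AddMonoidHom.mk' (fun x i => w i ⬝ᵥ (B *ᵥ x)) fun x y => by
    funext i; simp only [Matrix.mulVec_add, dotProduct_add, Pi.add_apply]
  have hφ : ∀ x y, ∑ i, (φ x i * φ y i : ℚ) / d i = (x ⬝ᵥ (B *ᵥ y) : ℤ) := fun x y => by
    rw [← hβ, pars]; simp only [hβ]; rfl
  have hinj : Function.Injective φ := by
    rw [injective_iff_map_eq_zero]
    intro x hx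
    by_contra h
    have h1 := hφ x x
    have h2 := hpos x h
    simp only [hx, Pi.zero_apply, Int.cast_zero, mul_zero, zero_div, sum_const_zero] at h1
    exact h2.ne (by exact_mod_cast h1)
  refine ⟨_, inferInstance, ⟨d, hd0, φ.range, fun k => ⟨?_, fun h => ?_⟩, ?_⟩, by simp, fun m => ?_⟩
  · rintro ⟨x, rfl⟩ _ ⟨y, rfl⟩; exact ⟨_, hφ x y⟩
  · have key : ∀ j, ∃ m : ℤ, (∑ i, (k i / d i : ℚ) • c (w i)) j = m := by
      intro j
      obtain ⟨m, hm⟩ := h _ ⟨B.adjugate *ᵥ Pi.single j 1, rfl⟩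
      refine ⟨m, ?_⟩
      rw [← hm, Finset.sum_apply]
      refine sum_congr rfl fun i _ => ?_
      change _ = (k i * ((w i ⬝ᵥ (B *ᵥ (B.adjugate *ᵥ Pi.single j 1)) : ℤ) : ℚ)) / d i
      rw [Matrix.mulVec_mulVec, Matrix.mul_adjugate, hdet, one_smul, Matrix.one_mulVec,
        dotProduct_single, mul_one, Pi.smul_apply, smul_eq_mul]
      ring
    choose y hy using key
    refine ⟨y, funext fun i => ?_⟩
    have h1 := hcoef (fun i => k i / d i) i
    rw [show ∑ i, (k i / d i : ℚ) • c (w i) = c y from funext hy, hβ, div_mul_cancel₀ _ (hd1 i)] at h1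
    exact_mod_cast h1
  · rintro _ ⟨x, rfl⟩
    obtain ⟨m, hm⟩ := heven x
    have : 0 ≤ x ⬝ᵥ (B *ᵥ x) := by
      by_cases h : x = 0
      · simp [h]
      · exact (hpos x h).le
    lift m to ℕ using by omega
    exact ⟨m, by simp only [sq, hφ, hm]; push_cast; rfl⟩
  · rw [Code.cnt, ← Set.ncard_image_of_injective _ hinj]
    congr 1; ext k
    simp only [Set.mem_ofPred_eq, Set.mem_image, AddMonoidHom.mem_range]
    constructor
    · rintro ⟨⟨x, rfl⟩, h⟩
      refine ⟨x, ?_, rfl⟩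
      simp only [sq, hφ] at h; exact_mod_cast h
    · rintro ⟨x, h, rfl⟩
      exact ⟨⟨x, rfl⟩, by simp only [sq, hφ, h]; push_cast; rfl⟩

end

/-- An even unimodular lattice of rank 24 without roots has 196560, 16773120 and 398034000 vectors of norms 4, 6 and 8. -/
theorem result (B : Matrix (Fin 24) (Fin 24) ℤ) (hsymm : B.IsSymm) (hpos : ∀ x : Fin 24 → ℤ, x ≠ 0 → 0 < x ⬝ᵥ (B *ᵥ x)) (heven : ∀ x : Fin 24 → ℤ, (2 : ℤ) ∣ x ⬝ᵥ (B *ᵥ x)) (hdet : B.det = 1) (h2 : ∀ x : Fin 24 → ℤ, x ⬝ᵥ (B *ᵥ x) ≠ 2) : {x : Fin 24 → ℤ | x ⬝ᵥ (B *ᵥ x) = 4}.ncard = 196560 ∧ {x : Fin 24 → ℤ | x ⬝ᵥ (B *ᵥ x) = 6}.ncard = 16773120 ∧ {x : Fin 24 → ℤ | x ⬝ᵥ (B *ᵥ x) = 8}.ncard = 398034000 := by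
  open Cfsg.Agent.Spor.Leech in
  obtain ⟨ι, _, C, hc, h⟩ := exists_code B hsymm hpos heven hdet
  have h1 : C.cnt 1 = leechCode.cnt 1 := by
    rw [h, cnt_leech]
    refine (Set.ncard_eq_zero ?_).2 ?_ |>.trans ((Set.ncard_eq_zero ?_).2 ?_).symm
    · exact Set.finite_empty.subset fun x hx => h2 x hx
    · exact Set.eq_empty_of_forall_notMem fun x hx => h2 x hx
    · exact (finite_sqNorm_eq _).subset fun x hx => hx.2
    · refine Set.eq_empty_of_forall_notMem fun x ⟨hx, e⟩ => ?_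
      have := le_sqNorm hx (by rintro rfl; rw [sqNorm_zero] at e; omega)
      omega
  have key := fun m => (h m).symm.trans ((C.cnt_eq leechCode hc card_pt h1 m).trans (cnt_leech m))
  exact ⟨(key 2).trans ncard_32, (key 3).trans ncard_48, (key 4).trans ncard_64⟩

end Cfsg.Agent.S1632
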