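import Mathlib
import Cfsg.Statements.S0021
import Cfsg.Agent.GT.ComplementSystem
import Cfsg.Agent.S0006

set_option autoImplicit false
open Pointwise
open Cfsg

namespace Cfsg.Agent.S0021

/-- A finite group with a family of pairwise permuting Sylow subgroups, one for each prime, is solvable (this direction rests on Burnside's two-prime Theorem). -/
theorem result {G : Type*} [Group G] [Finite G]
    (S : (p : Nat.Primes) → Sylow (p : ℕ) G)
    (hS : ∀ p q : Nat.Primes, (S p : Set G) * (S q : Set G) = (S q : Set G) * (S p : Set G)) :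
    Group.IsSolvable G := by
  classical
  have key : ∀ s : Finset Nat.Primes, ∃ J : Subgroup G, (∀ p ∈ s, (S p : Subgroup G) ≤ J) ∧
      GT.IsPiNum ((↑) '' (s : Set Nat.Primes)) (Nat.card J) ∧
      ∀ r : Nat.Primes, (J : Set G) * (S r : Set G) = (S r : Set G) * J := by
    intro s
    induction s using Finset.induction_on with
    | empty => exact ⟨⊥, by simp, GT.isPiNum_card_bot _, fun r => by simp⟩
    | insert q s hq ih =>
      obtain ⟨J, h1, h2, h3⟩ := ih
      have := Fact.mk q.2
      have h4 := GT.HT.coe_sup_eq_mul_of_comm (A := J) (B := S q) (h3 q)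
      refine ⟨J ⊔ S q, fun p hp => ?_, ?_, fun r => ?_⟩
      · rcases Finset.mem_insert.mp hp with rfl | hp
        · exact le_sup_right
        · exact (h1 p hp).trans le_sup_left
      · refine GT.IsPiNum.of_dvd ?_ (Dvd.intro _ (Loc.card_sup_mul_card_inf_of_coe_eq h4))
        refine (h2.mono (Set.image_mono (by simp))).mul ((GT.isPiHall_sylow (S q)).card.mono ?_)
        rintro _ rfl
        exact ⟨q, by simp, rfl⟩
      · rw [h4, Sylow.coe_coe, mul_assoc, hS q r, ← mul_assoc, h3 r, mul_assoc]
  refine S0006.result fun p hp => ?_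
  have hfin : {q : Nat.Primes | (q : ℕ) ∣ Nat.card G ∧ (q : ℕ) ≠ p}.Finite :=
    (GT.finite_primes_dvd_card G).subset fun _ h => h.1
  obtain ⟨J, h1, h2, -⟩ := key hfin.toFinset
  refine ⟨J, (GT.isPiHall_compl_singleton_iff_index hp).mp (GT.isPiHall_iff.mpr ⟨h2.mono ?_, ?_⟩)⟩
  · rintro _ ⟨q, hq, rfl⟩
    exact (hfin.mem_toFinset.mp hq).2
  · rw [compl_compl]
    intro r hr hd
    by_contra hrp
    have := Fact.mk hr
    exact (S ⟨r, hr⟩).not_dvd_index (hd.trans (Subgroup.index_dvd_of_le
      (h1 ⟨r, hr⟩ (hfin.mem_toFinset.mpr ⟨hd.trans J.index_dvd_card, hrp⟩))))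

end Cfsg.Agent.S0021
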