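import Mathlib
import Cfsg.Statements.S0020
import Cfsg.Agent.GT.ComplementSystem

set_option autoImplicit false
open Pointwise
open Cfsg

namespace Cfsg.Agent.S0020

/-- A finite solvable group admits a Sylow system: Sylow subgroups, one for each prime, that pairwise permute as sets. -/
theorem result {G : Type*} [Group G] [Finite G] [Group.IsSolvable G] :
    ∃ S : (p : Nat.Primes) → Sylow (p : ℕ) G,
      ∀ p q : Nat.Primes, (S p : Set G) * (S q : Set G) = (S q : Set G) * (S p : Set G) := by
  obtain ⟨K, hK⟩ := GT.exists_isComplementSystem G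
  have h1 : ∀ p : Nat.Primes, ∃ P : Sylow (p : ℕ) G, (P : Subgroup G) = GT.systemHall K {(p : ℕ)} :=
    fun p => haveI := Fact.mk p.2; (hK.isPiHall_systemHall _).exists_sylow
  choose S hS using h1
  have key : ∀ p q : Nat.Primes, p ≠ q →
      (S p : Set G) * (S q : Set G) = GT.systemHall K {(p : ℕ), (q : ℕ)} := by
    intro p q hpq
    rw [← Sylow.coe_coe, ← Sylow.coe_coe, hS, hS]
    have hH := hK.isPiHall_systemHall {(p : ℕ), (q : ℕ)}
    have hp := GT.systemHall_mono K (show {(p : ℕ)} ⊆ ({(p : ℕ), (q : ℕ)} : Set ℕ) by simp)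
    have hq := GT.systemHall_mono K (show {(q : ℕ)} ⊆ ({(p : ℕ), (q : ℕ)} : Set ℕ) by simp)
    refine GT.HT.coe_mul_eq_of_coprime_relIndex hp hq (Nat.coprime_of_dvd fun r hr h1 h2 => ?_)
    rcases hH.card r hr (h1.trans (Subgroup.relIndex_dvd_card _ _)) with h | h
    · exact ((hK.isPiHall_systemHall _).isPiHallOf hp).relIndex r hr h1 h
    · exact ((hK.isPiHall_systemHall _).isPiHallOf hq).relIndex r hr h2 h
  refine ⟨S, fun p q => ?_⟩
  by_cases hpq : p = q
  · subst hpq; rfl
  · rw [key p q hpq, key q p (Ne.symm hpq), Set.pair_comm]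

end Cfsg.Agent.S0020
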