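import Mathlib
import Cfsg.Statements.S0022
import Cfsg.Agent.GT.CoprimeFixed

set_option autoImplicit false
open Cfsg

namespace Cfsg.Agent.S0022

/-- Under coprime action fixed points pass to quotients: with A normalising K, coprime orders, A or K solvable, and N an A-invariant normal subgroup of K, every coset of N in K fixed by conjugation by A contains an element centralised by A. -/
theorem result {G : Type*} [Group G] [Finite G] (A K : Subgroup G) (hAK : A ≤ Subgroup.normalizer (K : Set G))
    (hcop : (Nat.card A).Coprime (Nat.card K)) (hsolv : Group.IsSolvable A ∨ Group.IsSolvable K)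
    (N : Subgroup G) (hNK : N ≤ K) (hNnormal : K ≤ Subgroup.normalizer (N : Set G)) (hNA : A ≤ Subgroup.normalizer (N : Set G))
    (k : G) (hk : k ∈ K) (hfix : ∀ a ∈ A, a * k * a⁻¹ * k⁻¹ ∈ N) :
    ∃ c ∈ K ⊓ Subgroup.centralizer (A : Set G), k⁻¹ * c ∈ N := by
  obtain ⟨x, hx, c, hc, e⟩ := GT.CopAct.exists_eq_mul_centralizer hNA
    (GT.CopAct.coprime_mono hcop le_rfl hNK) (GT.CopAct.solvable_mono hsolv le_rfl hNK) (k := k)
    (fun a ha => by
      have := N.inv_mem (hfix a ha)
      rwa [← commutatorElement_def, commutatorElement_inv] at this)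
  have hc' : c = x⁻¹ * k := by rw [← e]; group
  refine ⟨c, ⟨hc' ▸ K.mul_mem (K.inv_mem (hNK hx)) hk, hc⟩, ?_⟩
  rw [hc', ← mul_assoc]
  exact GT.CopAct.conj_mem' hNnormal hk (N.inv_mem hx)

end Cfsg.Agent.S0022
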