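import Mathlib
import Cfsg.Statements.S0060
import Cfsg.Agent.GT.Cores
import Cfsg.Agent.GT.HallTools
import Cfsg.Agent.GT.PGroupBasic
import Cfsg.Agent.GT.MinNormal

set_option autoImplicit false
open Pointwise
open Cfsg

namespace Cfsg.Agent.S0060

/-- Brodkey's Theorem: in a finite group with abelian Sylow p-subgroups and no nontrivial normal p-subgroup, some conjugate of a Sylow p-subgroup meets it trivially. -/
theorem result {G : Type*} [Group G] [Finite G] (p : ℕ) [Fact p.Prime]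
    (S : Sylow p G) (hS : IsMulCommutative S) (hOp : Cfsg.pCore p G = ⊥) :
    ∃ g : G, (S : Subgroup G) ⊓ MulAut.conj g • (S : Subgroup G) = ⊥ := by

  obtain ⟨D, -, ⟨g, rfl⟩, hmin⟩ := GT.exists_minimal_le
    (P := fun D : Subgroup G => ∃ g : G, D = (S : Subgroup G) ⊓ MulAut.conj g • (S : Subgroup G))
    ⟨1, rfl⟩
  refine ⟨g, ?_⟩
  set T := g • S
  have hT : (T : Subgroup G) = MulAut.conj g • (S : Subgroup G) := rfl
  rw [← hT] at hmin ⊢
  set D := (S : Subgroup G) ⊓ (T : Subgroup G)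
  have hS' : IsMulCommutative (S : Subgroup G) := hS
  have hT' : IsMulCommutative (T : Subgroup G) := by
    rw [hT, GT.HT.conj_smul_eq_map]; infer_instance
  have hn : ∀ {X : Subgroup G}, IsMulCommutative X → D ≤ X → X ≤ Subgroup.normalizer (D : Set G) :=
    fun hX hle => ((GT.PG.isMulCommutative_iff_le_centralizer.1 hX).trans
      (Subgroup.centralizer_le hle)).trans (GT.PG.centralizer_le_normalizer' D)
  have hSN := hn hS' inf_le_left
  have hTN := hn hT' inf_le_right
  rw [eq_bot_iff, ← hOp, GT.pCore_eq_iInf_sylow, le_iInf_iff]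
  intro P
  obtain ⟨x, hx, h1⟩ := GT.HT.exists_conj_le_of_isPGroup
    (inf_le_right : (P : Subgroup G) ⊓ Subgroup.normalizer (D : Set G) ≤ _)
    (P.2.to_le inf_le_left) T.2 (fun h => T.not_dvd_index
      (h.trans (Subgroup.relIndex_dvd_index_of_le hTN)))
  obtain ⟨y, hy⟩ := MulAction.exists_smul_eq G S (x • P)
  have h2 : MulAut.conj y • (S : Subgroup G) = MulAut.conj x • (P : Subgroup G) :=
    congrArg (fun Q : Sylow p G => (Q : Subgroup G)) hy
  have h3 := hmin _ ⟨y, rfl⟩ (le_inf inf_le_left fun z hz => h1 (by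
    rw [GT.HT.mem_conj_smul]
    refine ⟨GT.HT.mem_conj_smul.1 (h2 ▸ hz.2), ?_⟩
    exact (Subgroup.normalizer (D : Set G)).mul_mem
      ((Subgroup.normalizer (D : Set G)).mul_mem (inv_mem hx) (hSN hz.1)) hx))
  have h4 : MulAut.conj x • D ≤ MulAut.conj x • (P : Subgroup G) := by
    rw [GT.HT.conj_smul_eq_iff.2 hx, ← h3, h2]
    exact inf_le_right
  have := GT.HT.conj_smul_mono x⁻¹ h4
  rwa [GT.HT.conj_inv_smul_conj_smul, GT.HT.conj_inv_smul_conj_smul] at this

end Cfsg.Agent.S0060
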