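import Mathlib
import Cfsg.Statements.S0067
import Cfsg.Agent.GT.Zipper

set_option autoImplicit false
open Pointwise
open Cfsg

namespace Cfsg.Agent.S0067

open Cfsg.Agent.GT

/-- If the join of a subgroup A with each of its conjugates is nilpotent, then A is subnormal in the finite group and contained in the Fitting subgroup. -/
theorem result {G : Type*} [Group G] [Finite G] (A : Subgroup G)
    (h : ∀ g : G, Group.IsNilpotent (A ⊔ MulAut.conj g • A : Subgroup G)) : A.IsSubnormal ∧ A ≤ Cfsg.fittingSubgroup G := by
  exact ⟨subnormalIn_top_iff.mp (subnormalIn_of_forall_isNilpotent le_top fun g _ => h g),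
    le_fitting_of_forall_isNilpotent h⟩

end Cfsg.Agent.S0067
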