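import Mathlib
import Cfsg.Statements.S0068
import Cfsg.Agent.GT.FrobeniusFpf

set_option autoImplicit false
open Cfsg

namespace Cfsg.Agent.S0068

/-- Frobenius complements of even order: if H complements a nontrivial normal subgroup K, each nonidentity element of H has trivial centraliser in K, and H has even order, then H contains a unique involution s, K is abelian, and s inverts every element of K. -/
theorem result {G : Type*} [Group G] [Finite G] (K H : Subgroup G) [K.Normal]
    (hc : Subgroup.IsComplement' K H) (hK : K ≠ ⊥) (hfpf : ∀ h ∈ H, h ≠ 1 → K ⊓ Subgroup.centralizer {h} = ⊥)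
    (heven : 2 ∣ Nat.card H) :
    (∃ s ∈ H, orderOf s = 2 ∧ (∀ t ∈ H, orderOf t = 2 → t = s) ∧ ∀ k ∈ K, s * k * s⁻¹ = k⁻¹) ∧ IsMulCommutative K := by
  have key : ∀ t ∈ H, orderOf t = 2 → (∀ k ∈ K, t * k * t⁻¹ = k⁻¹) ∧ IsMulCommutative K := by
    intro t ht ht2
    refine GT.Frob.conj_eq_inv_of_fpf (by simp [Subgroup.normalizer_eq_top])
      (by rw [← sq, ← ht2, pow_orderOf_eq_one]) (hfpf t ht ?_)
    rintro rfl
    simp at ht2
  obtain ⟨s, hs⟩ := exists_prime_orderOf_dvd_card' 2 heven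
  have hs' : orderOf (s : G) = 2 := by rw [Subgroup.orderOf_coe, hs]
  refine ⟨⟨s, s.2, hs', fun t ht ht2 => ?_, (key s s.2 hs').1⟩, (key s s.2 hs').2⟩
  by_contra hts
  apply hK
  rw [eq_bot_iff, ← hfpf ((s : G)⁻¹ * t) (H.mul_mem (H.inv_mem s.2) ht)
    (fun e => hts (inv_mul_eq_one.mp e).symm)]
  refine le_inf le_rfl fun k hk => Subgroup.mem_centralizer_singleton_iff.mpr ?_
  have h1 := (key t ht ht2).1 k hk
  rw [← (key s s.2 hs').1 k hk] at h1
  calc k * ((s : G)⁻¹ * t) = (s : G)⁻¹ * (s * k * (s : G)⁻¹) * t := by group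
    _ = (s : G)⁻¹ * t * k := by rw [← h1]; group

end Cfsg.Agent.S0068
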