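import Mathlib
import Cfsg.Statements.S0073
import Cfsg.Agent.GT.TransferAbelian
-- import your own Cfsg.Agent.* helpers here

set_option autoImplicit false
open Cfsg

namespace Cfsg.Agent.S0073

open Cfsg.Agent.GT.Tr

/-- For a finite non-abelian simple group, either the cube of the least prime divisor of the order divides the order, or 12 does. -/
theorem result {G : Type*} [Group G] [Finite G] [IsSimpleGroup G] (hG : ∃ x y : G, x * y ≠ y * x) : (Nat.card G).minFac ^ 3 ∣ Nat.card G ∨ 12 ∣ Nat.card G := by
  by_contra hne
  push Not at hne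
  obtain ⟨x, y, hxy⟩ := hG
  have h1 : Nat.card G ≠ 1 := fun h => by
    have := (Nat.card_eq_one_iff_unique.1 h).1
    exact hxy (Subsingleton.elim _ _)
  set p := (Nat.card G).minFac with hpdef
  have hp : p.Prime := Nat.minFac_prime h1
  have := Fact.mk hp
  let P : Sylow p G := default
  obtain ⟨n, hn⟩ := P.2.exists_card_eq
  have hPd : p ^ n ∣ Nat.card G := hn ▸ Subgroup.card_subgroup_dvd_card _
  have hn2 : n ≤ 2 := by
    by_contra h
    exact hne.1 ((pow_dvd_pow p (by omega)).trans hPd)
  have h2 : HasNormalPComplement p G := by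
    refine hasNormalPComplement_of_not_dvd_pow_sub_one P hn fun q hq hd j h3 h4 h5 => ?_
    have h6 : p ≤ q := Nat.minFac_le_of_dvd hq.two_le hd
    have h7 := hp.two_le
    have h8 : ¬ q ∣ p - 1 := fun h => by
      have := Nat.le_of_dvd (by omega) h
      omega
    obtain rfl | rfl : j = 1 ∨ j = 2 := by omega
    · exact h8 (by simpa using h5)
    · rw [show p ^ 2 - 1 = (p + 1) * (p - 1) from Nat.sq_sub_sq p 1, hq.dvd_mul] at h5
      rcases h5 with h | h
      · have h9 := Nat.le_of_dvd (by omega) h
        have h10 : q ≠ p := by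
          rintro rfl
          exact hq.one_lt.ne' (Nat.dvd_one.1 ((Nat.dvd_add_right dvd_rfl).1 h))
        obtain rfl : q = p + 1 := by omega
        have h11 : p = 2 := by
          rcases hp.eq_two_or_odd' with h | h
          · exact h
          · have := hq.even_iff.1 h.add_one
            omega
        obtain rfl : n = 2 := by omega
        rw [h11] at hPd hd
        exact hne.2 (Nat.Coprime.mul_dvd_of_dvd_of_dvd (by norm_num : Nat.Coprime (2 ^ 2) (2 + 1))
          hPd hd)
      · exact h8 h
  have : IsCyclic G := isCyclic_of_prime_card (h2.card_eq_of_isSimpleGroup (Nat.minFac_dvd _))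
  exact hxy (IsCyclic.isMulCommutative.is_comm.comm x y)

end Cfsg.Agent.S0073
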