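import Mathlib
import Cfsg.Statements.S0075
import Cfsg.Agent.GT.TransferEval
-- import your own Cfsg.Agent.* helpers here

set_option autoImplicit false
open Cfsg

namespace Cfsg.Agent.S0075

open Cfsg.Agent.GT.Tr
open scoped commutatorElement

/-- For an abelian Sylow p-subgroup T, its intersection with the subgroup generated by the elements of order prime to p is the commutator of T with its normalizer. -/
theorem result {G : Type*} [Group G] [Finite G] {p : ℕ} [Fact p.Prime] (T : Sylow p G) (hT : IsMulCommutative T) : (T : Subgroup G) ⊓ Cfsg.pResidual p G = ⁅(T : Subgroup G), Subgroup.normalizer (T : Set G)⁆ := by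
  refine le_antisymm ?_ (le_inf (Subgroup.le_normalizer_iff_commutator_le_left.1 le_rfl) ?_)
  · rw [← T.coe_coe, ← commutator_inf_sylow_eq_of_abelian T hT]
    exact le_inf (sylow_inf_pResidual_le_commutator T) inf_le_left
  · refine Subgroup.commutator_le.2 fun t ht n hn => ?_
    obtain ⟨m, hm, u, hu, rfl⟩ := exists_pResidual_mul_sylow T n
    have h1 : u * t⁻¹ * u⁻¹ = t⁻¹ := by
      rw [← (T : Subgroup G).le_centralizer hu _ (inv_mem ht), mul_inv_cancel_right]
    have h2 : ⁅t, m * u⁆ = t * m * t⁻¹ * m⁻¹ := by
      calc ⁅t, m * u⁆ = t * m * (u * t⁻¹ * u⁻¹) * m⁻¹ := by rw [commutatorElement_def]; group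
        _ = _ := by rw [h1]
    rw [h2]
    exact mul_mem ((inferInstance : (pResidual p G).Normal).conj_mem _ hm t) (inv_mem hm)

end Cfsg.Agent.S0075
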