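import Mathlib
import Cfsg.Statements.S0076
import Cfsg.Agent.GT.TransferEval
-- import your own Cfsg.Agent.* helpers here

set_option autoImplicit false
open Cfsg

namespace Cfsg.Agent.S0076

open Cfsg.Agent.GT.Tr

/-- Two P-invariant subsets of a Sylow p-subgroup P that are conjugate in G are conjugate under the normalizer of P. -/
theorem result {G : Type*} [Group G] [Finite G] {p : ℕ} [Fact p.Prime] (P : Sylow p G) (X Y : Set G) (hXP : X ⊆ P) (hYP : Y ⊆ P) (hX : ∀ x ∈ P, (fun y => x * y * x⁻¹) '' X = X) (hY : ∀ x ∈ P, (fun y => x * y * x⁻¹) '' Y = Y) (g : G) (hg : (fun y => g * y * g⁻¹) '' X = Y) : ∃ n ∈ Subgroup.normalizer (P : Set G), (fun y => n * y * n⁻¹) '' X = Y := by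
  have hXg : ∀ x, x ∈ X ↔ g * x * g⁻¹ ∈ Y := fun x => by
    rw [← hg]
    exact ⟨fun hx => ⟨x, hx, rfl⟩, fun ⟨y, hy, h⟩ => by
      have : y = x := by simpa using h
      rwa [← this]⟩
  have key : ∀ Z : Set G, (∀ x ∈ P, (fun y => x * y * x⁻¹) '' Z = Z) →
      ∀ x ∈ P, ∀ z, z ∈ Z ↔ x * z * x⁻¹ ∈ Z := fun Z hZ x hx z => by
    conv_rhs => rw [← hZ x hx]
    exact ⟨fun hz => ⟨z, hz, rfl⟩, fun ⟨y, hy, h⟩ => by
      have : y = z := by simpa using h
      rwa [← this]⟩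
  obtain ⟨c, hc, h1⟩ := (isWeaklyClosed_self (P : Subgroup G)).exists_mul_inv_mem_normalizer
    (C := Subgroup.normalizer X) (g := g) (fun x hx => key X hX x hx) (fun w hw z => by
      rw [hXg, hXg, key Y hY w hw]
      congr! 1
      group)
  refine ⟨_, h1, ?_⟩
  rw [← hg]
  ext y
  constructor
  · rintro ⟨x, hx, rfl⟩
    exact ⟨c⁻¹ * x * c⁻¹⁻¹, (Subgroup.mem_set_normalizer_iff.1 (inv_mem hc) x).1 hx, by group⟩
  · rintro ⟨x, hx, rfl⟩
    exact ⟨c * x * c⁻¹, (Subgroup.mem_set_normalizer_iff.1 hc x).1 hx, by group⟩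

end Cfsg.Agent.S0076
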