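import Mathlib
import Cfsg.Statements.S0080
import Cfsg.Agent.GT.TransferEval
-- import your own Cfsg.Agent.* helpers here

set_option autoImplicit false
open Cfsg

namespace Cfsg.Agent.S0080

open Cfsg.Agent.GT.Tr

/-- When the index of H is prime to the order of H/H', the focal subgroup of H is G' ∩ H, and H/(G' ∩ H) has a normal complement. -/
theorem result {G : Type*} [Group G] [Finite G] (H : Subgroup G) (h : Nat.Coprime H.index (⁅H, H⁆.relIndex H)) : Subgroup.focalSubgroup H = commutator G ⊓ H ∧ ∃ N : Subgroup G, N.Normal ∧ N ⊓ H = commutator G ⊓ H ∧ N ⊔ H = ⊤ := by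
  have h1 : H.index.Coprime (H.focalSubgroup.relIndex H) :=
    h.coprime_dvd_right (Subgroup.relIndex_dvd_of_le_left H H.commutator_le_focalSubgroup)
  have h2 := commutator_inf_eq_focalSubgroup_of_coprime H h1
  obtain ⟨N, hN, -, h3, h4, -⟩ := exists_normal_inf_eq_focalSubgroup H h1
  exact ⟨h2.symm, N, hN, h3.trans h2.symm, h4⟩

end Cfsg.Agent.S0080
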