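import Mathlib
import Cfsg.Statements.S0083
import Cfsg.Agent.GT.TransferEval
-- import your own Cfsg.Agent.* helpers here

set_option autoImplicit false
open Cfsg

namespace Cfsg.Agent.S0083

open Cfsg.Agent.GT.Tr

/-- For an abelian Sylow p-subgroup P, a normal p-complement exists exactly when the normalizer of P is an internal direct product of P with some subgroup. -/
theorem result {G : Type*} [Group G] [Finite G] {p : ℕ} [Fact p.Prime] (P : Sylow p G) (hP : IsMulCommutative P) : Cfsg.HasNormalPComplement p G ↔ ∃ Q : Subgroup G, Q ≤ Subgroup.centralizer (P : Set G) ∧ Q ⊓ (P : Subgroup G) = ⊥ ∧ Q ⊔ (P : Subgroup G) = Subgroup.normalizer (P : Set G) := by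
  constructor
  · intro h
    refine ⟨(pResidual p (Subgroup.normalizer (P : Set G))).map (Subgroup.subtype _), ?_, ?_, ?_⟩
    · exact map_pResidual_le_iff.2 fun g hg hc => h.mem_centralizer P.2 hg hc
    · rw [eq_bot_iff, ← (hasNormalPComplement_iff_inf_pResidual P).1 h, inf_comm]
      exact inf_le_inf_left _ (map_pResidual_le _)
    · have h1 := congrArg (Subgroup.map (Subgroup.subtype _))
        (pResidual_sup_sylow (P.subtype Subgroup.le_normalizer))
      rwa [Subgroup.map_sup, Sylow.coe_subtype,
        Subgroup.map_subgroupOf_eq_of_le Subgroup.le_normalizer, ← MonoidHom.range_eq_map,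
        Subgroup.range_subtype] at h1
  · rintro ⟨Q, h1, -, h3⟩
    refine hasNormalPComplement_of_normalizer_le_centralizer P ?_
    rw [P.coe_coe, ← h3]
    exact sup_le h1 (P : Subgroup G).le_centralizer

end Cfsg.Agent.S0083
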