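import Mathlib
import Cfsg.Statements.S0085
import Cfsg.Agent.GT.TransferAbelian
-- import your own Cfsg.Agent.* helpers here

set_option autoImplicit false
open Cfsg

namespace Cfsg.Agent.S0085

open Cfsg.Agent.GT.Tr

/-- A group whose Sylow 2-subgroups are elementary abelian of order 8 and whose order is prime to 3 and to 7 has a normal 2-complement. -/
theorem result {G : Type*} [Group G] [Finite G] (T : Sylow 2 G) (h8 : Nat.card T = 8) (he : ∀ x : T, x * x = 1) (h3 : ¬ 3 ∣ Nat.card G) (h7 : ¬ 7 ∣ Nat.card G) : Cfsg.HasNormalPComplement 2 G := by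
  refine hasNormalPComplement_of_not_dvd_pow_sub_one T (n := 3) h8
    fun q hq hd j h1 h2 h => ?_
  obtain rfl | rfl | rfl : j = 1 ∨ j = 2 ∨ j = 3 := by omega
  · exact hq.not_dvd_one h
  · exact h3 ((Nat.prime_dvd_prime_iff_eq hq Nat.prime_three).1 h ▸ hd)
  · exact h7 ((Nat.prime_dvd_prime_iff_eq hq (by norm_num : Nat.Prime 7)).1 h ▸ hd)

end Cfsg.Agent.S0085
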