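import Mathlib
import Cfsg.Statements.S0090
import Cfsg.Agent.GT.TransferAbelian
-- import your own Cfsg.Agent.* helpers here

set_option autoImplicit false
open Cfsg

namespace Cfsg.Agent.S0090

open Cfsg.Agent.GT.Tr

/-- An abelian normal Hall subgroup A splits as the internal direct product of G' ∩ A and Z(G) ∩ A, and [A, G] = G' ∩ A. -/
theorem result {G : Type*} [Group G] [Finite G] (A : Subgroup G) [A.Normal] (hc : IsMulCommutative A) (hHall : Nat.Coprime (Nat.card A) A.index) : ⁅A, (⊤ : Subgroup G)⁆ = commutator G ⊓ A ∧ (commutator G ⊓ A) ⊓ (Subgroup.center G ⊓ A) = ⊥ ∧ (commutator G ⊓ A) ⊔ (Subgroup.center G ⊓ A) = A := by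
  have hc' : (Nat.card A).Coprime (A.relIndex ⊤) := by rwa [Subgroup.relIndex_top_right]
  have h1 : ⁅A, (⊤ : Subgroup G)⁆ = commutator G ⊓ A := by
    refine le_antisymm (le_inf (Subgroup.commutator_mono le_top le_rfl)
      (Subgroup.commutator_le_left _ _)) ?_
    rw [commutator_inf_eq_focalSubgroup_of_hall A hHall, focalSubgroup_le_iff]
    intro x hx g _
    have := Subgroup.commutator_mem_commutator (inv_mem hx) (Subgroup.mem_top g)
    simpa [commutatorElement_def, mul_assoc] using this
  have h2 := commutator_sup_inf_centralizer_of_abelian hc le_top Subgroup.le_normalizer_of_normal hc'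
  have h3 := inf_commutator_inf_centralizer_eq_bot hc hc'
  rw [Subgroup.coe_top, Subgroup.centralizer_univ] at h2 h3
  refine ⟨h1, ?_, by rw [← h1, inf_comm, h2]⟩
  rw [eq_bot_iff, ← h3]
  exact fun x hx => ⟨⟨hx.1.2, hx.1.1⟩, hx.2.1⟩

end Cfsg.Agent.S0090
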