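import Mathlib
import Cfsg.Statements.S0091
import Cfsg.Agent.GT.TransferFrobenius
-- import your own Cfsg.Agent.* helpers here

set_option autoImplicit false
open Cfsg

namespace Cfsg.Agent.S0091

open Cfsg.Agent.GT.Tr

/-- If a nontrivial Sylow p-subgroup controls its own fusion then it is not contained in the derived subgroup. -/
theorem result {G : Type*} [Group G] [Finite G] {p : ℕ} [Fact p.Prime] (P : Sylow p G) (hp : p ∣ Nat.card G) (h : ∀ x ∈ P, ∀ y ∈ P, (∃ g : G, g * x * g⁻¹ = y) → ∃ z ∈ P, z * x * z⁻¹ = y) : ¬ (P : Subgroup G) ≤ commutator G := by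
  intro hle
  have h1 : HasNormalPComplement p G := hasNormalPComplement_of_fusion P fun x hx g hg =>
    let ⟨z, hz, h2⟩ := h x hx _ hg ⟨g, rfl⟩
    ⟨z, hz, h2.symm⟩
  refine P.ne_bot_of_dvd_card hp (eq_bot_of_le_commutator P.2.isNilpotent le_rfl ?_)
  have h2 : (P : Subgroup G) ≤ (P : Subgroup G).focalSubgroup := by
    rw [← Subgroup.commutator_inf_eq_focalSubgroup]
    exact le_inf hle le_rfl
  refine h2.trans (focalSubgroup_le_iff.2 fun x hx g hg => ?_)
  obtain ⟨z, hz, h3⟩ := h x hx _ hg ⟨g, rfl⟩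
  have := Subgroup.commutator_mem_commutator (inv_mem hx) hz
  rw [commutatorElement_def] at this
  rw [← h3]
  simpa [mul_assoc] using this

end Cfsg.Agent.S0091
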