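import Mathlib
import Cfsg.Agent.GT.TransferAbelian
import Cfsg.Agent.GT.HallCoprime
import Cfsg.Agent.GT.PPrimeCore
import Cfsg.Agent.GT.SchurZassenhaus
import Cfsg.Statements.S0092
-- import your own Cfsg.Agent.* helpers here

set_option autoImplicit false
open Cfsg

namespace Cfsg.Agent.S0092

open Subgroup Cfsg.Agent.GT Cfsg.Agent.GT.HT Pointwise

/-- If the Sylow p-subgroups of O^p(G) are abelian then G splits over O^p(G). -/
theorem result {G : Type*} [Group G] [Finite G] {p : ℕ} [Fact p.Prime] (h : ∀ Q : Sylow p (Cfsg.pResidual p G), IsMulCommutative Q) : ∃ K : Subgroup G, K.IsComplement' (Cfsg.pResidual p G) := by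
  have hp : p.Prime := Fact.out
  set R := pResidual p G with hR
  haveI : R.Characteristic := pResidual_characteristic
  obtain ⟨Q₀⟩ := (inferInstance : Nonempty (Sylow p R))
  have hab := h Q₀
  set Q : Subgroup G := (Q₀ : Subgroup R).map R.subtype with hQ
  have hQR : Q ≤ R := map_subtype_le _
  have hQp : IsPGroup p Q := Q₀.2.map _
  have hQab : ∀ a ∈ Q, ∀ b ∈ Q, a * b = b * a := by
    rintro _ ⟨a, ha, rfl⟩ _ ⟨b, hb, rfl⟩
    have := congrArg (fun x : (Q₀ : Subgroup R) => ((x : R) : G))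
      (hab.is_comm.comm (⟨a, ha⟩ : (Q₀ : Subgroup R)) ⟨b, hb⟩)
    simpa using this
  have hsub : Q.subgroupOf R = Q₀ := by
    rw [hQ, subgroupOf, comap_map_eq_self_of_injective R.subtype_injective]
  -- the fixed points of `N_R(Q)` on `Q` are trivial
  have hfix : ∀ z ∈ Q, (∀ n ∈ R ⊓ normalizer (Q : Set G), n * z = z * n) → z = 1 := by
    obtain ⟨N, hN, -, hc⟩ := Tr.exists_normal_complement_of_abelian_sylow Q₀ hab
    have h1 : IsPGroup p ↥((Q₀ : Subgroup R) ⊓
        centralizer (normalizer ((Q₀ : Subgroup R) : Set R) : Set R)) := Q₀.2.to_le inf_le_left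
    obtain ⟨k, hk⟩ := h1.exists_card_eq
    have h2 : N = ⊤ := by
      rw [eq_top_iff, ← pResidual_pResidual (G := G) (p := p)]
      exact pResidual_le_of_index (k := k) (by rw [hc.symm.index_eq_card, hk])
    rintro _ ⟨z, hz, rfl⟩ hcz
    have h3 : z ∈ (Q₀ : Subgroup R) ⊓
        centralizer (normalizer ((Q₀ : Subgroup R) : Set R) : Set R) := by
      refine ⟨hz, fun n hn => Subtype.ext (hcz n ⟨n.2, ?_⟩)⟩
      have := le_normalizer_map R.subtype (H := (Q₀ : Subgroup R))
      exact this ⟨n, hn, rfl⟩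
    have h4 := hc.disjoint
    rw [h2, top_disjoint] at h4
    rw [h4, mem_bot] at h3
    rw [h3]; rfl
  set M := R ⊓ normalizer (Q : Set G) with hM
  have hQM : Q ≤ M := le_inf hQR le_normalizer
  have hnd : ¬ p ∣ Q.relIndex M := by
    intro hd
    have h1 : Q.relIndex M ∣ Q.relIndex R :=
      Dvd.intro _ (relIndex_mul_relIndex Q M R hQM inf_le_left)
    have h2 : Q.relIndex R = (Q₀ : Subgroup R).index := by rw [relIndex, hsub]
    exact Q₀.not_dvd_index (h2 ▸ hd.trans h1)
  obtain ⟨j, hj⟩ := hQp.exists_card_eq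
  have hcop : (Nat.card Q).Coprime (Q.relIndex M) := by
    rw [hj]; exact ((Nat.Prime.coprime_iff_not_dvd hp).2 hnd).pow_left _
  obtain ⟨H, hHM, hsup, hinf, hcard⟩ := exists_complement_of_coprime_relIndex hQM inf_le_right hcop
  have hHN : H ≤ normalizer (Q : Set G) := hHM.trans inf_le_right
  set L := normalizer (Q : Set G) ⊓ normalizer (H : Set G) with hL
  have hRL : R ⊔ L = ⊤ := by
    have h1 := Sylow.normalizer_sup_eq_top Q₀
    rw [eq_top_iff, ← h1, sup_comm R]
    refine sup_le (fun n hn => ?_) le_sup_right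
    have hn' : n ∈ normalizer (Q : Set G) := hn
    have hnM : n ∈ normalizer (M : Set G) := by
      rw [← conj_smul_eq_iff, hM, smul_inf, conj_smul_eq_iff.2 (le_normalizer hn'),
        conj_smul_eq_iff.2 (by rw [normalizer_eq_top]; trivial)]
    have h2 : Q ⊔ H = Q ⊔ MulAut.conj n • H := by
      conv_rhs => rw [← conj_smul_eq_iff.2 hn', ← smul_sup, hsup, conj_smul_eq_iff.2 hnM]
      exact hsup
    obtain ⟨a, ha, hae⟩ := conj_of_coprime_sup_eq Q H (MulAut.conj n • H) hHN (hcard ▸ hcop)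
      (by rw [card_conj_smul, hcard]; exact hcop) h2
      (Or.inl (by have := hQp.isNilpotent; infer_instance))
    have h3 : a⁻¹ * n ∈ L := by
      refine mem_inf.2 ⟨mul_mem (inv_mem (le_normalizer ha)) hn', ?_⟩
      rw [← conj_smul_eq_iff, ← conj_smul_conj_smul, ← hae, conj_inv_smul_conj_smul]
    have : n = a * (a⁻¹ * n) := by group
    rw [this]
    exact mul_mem (mem_sup_right (hQR ha)) (mem_sup_left h3)
  have hLR : L ⊓ R ≤ H := by
    rintro x ⟨hxL, hxR⟩
    have hxM : x ∈ Q ⊔ H := by rw [hsup]; exact ⟨hxR, hxL.1⟩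
    obtain ⟨q, hq, y, hy, rfl⟩ := (mem_sup_of_le_normalizer hHN).1 hxM
    have h1 : q ∈ normalizer (H : Set G) := by
      have := mul_mem (show q * y ∈ normalizer (H : Set G) from hxL.2) (inv_mem (le_normalizer hy))
      simpa using this
    have h2 := mem_centralizer_of_conj_smul_le hHN (disjoint_iff.2 hinf) hq
      (conj_smul_eq_iff.2 h1).le
    have h3 : q = 1 := by
      refine hfix q hq fun n hn => ?_
      rw [← hsup] at hn
      obtain ⟨a, ha, b, hb, rfl⟩ := (mem_sup_of_le_normalizer hHN).1 hn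
      rw [mul_assoc, h2 b hb, ← mul_assoc, hQab a ha q hq, mul_assoc]
    rw [h3, one_mul]; exact hy
  obtain ⟨K, hKL, hKp, hKi⟩ := exists_sylow_le p L
  obtain ⟨i, hi⟩ := hKp.exists_card_eq
  have hKH : K ⊓ H = ⊥ := by
    refine inf_eq_bot_of_coprime ?_
    rw [hi, hcard]; exact ((Nat.Prime.coprime_iff_not_dvd hp).2 hnd).pow_left _
  have hdisj : Disjoint K R := by
    rw [disjoint_iff, eq_bot_iff, ← hKH]
    exact le_inf inf_le_left (le_trans (inf_le_inf_right _ hKL) hLR)
  have hKR : K ⊔ R = ⊤ := by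
    obtain ⟨k, hk⟩ := exists_index_pResidual (G := G) hp
    have h1 : (R ⊓ L).relIndex L ∣ p ^ k := by
      rw [inf_relIndex_right, ← hk]; exact relIndex_dvd_index_of_normal R L
    have h2 := sup_eq_of_coprime_relIndex hKL (inf_le_right : R ⊓ L ≤ L)
      (Nat.Coprime.coprime_dvd_right h1
        (((Nat.Prime.coprime_iff_not_dvd hp).2 hKi).symm.pow_right _))
    rw [eq_top_iff, ← hRL, ← h2]
    exact sup_le le_sup_right (sup_le le_sup_left (inf_le_left.trans le_sup_right))
  refine ⟨K, isComplement'_of_disjoint_and_mul_eq_univ hdisj ?_⟩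
  rw [← mul_normal, hKR, coe_top]

end Cfsg.Agent.S0092
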