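import Mathlib
import Cfsg.Agent.GT.PGroupExtraspecial
import Cfsg.Statements.S0098
-- import your own Cfsg.Agent.* helpers here

set_option autoImplicit false
open Cfsg

namespace Cfsg.Agent.S0098

/-- For odd p, extraspecial p-groups of exponent p are determined up to isomorphism by their order. -/
theorem result {E₁ : Type*} {E₂ : Type*} [Group E₁] [Group E₂] [Finite E₁] [Finite E₂] {p : ℕ} [Fact p.Prime] (hp : p ≠ 2) (h₁ : Cfsg.IsExtraspecial p E₁) (h₂ : Cfsg.IsExtraspecial p E₂) (he₁ : Monoid.exponent E₁ = p) (he₂ : Monoid.exponent E₂ = p) (hc : Nat.card E₁ = Nat.card E₂) : Nonempty (E₁ ≃* E₂) := by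
  exact GT.PG.nonempty_mulEquiv_of_extraspecial_exponent h₁ h₂
    (fun x => he₁ ▸ Monoid.pow_exponent_eq_one x) (fun x => he₂ ▸ Monoid.pow_exponent_eq_one x) hc

end Cfsg.Agent.S0098
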