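import Mathlib
import Cfsg.Agent.GT.PGroupExtraTwo
import Cfsg.Statements.S0099
-- import your own Cfsg.Agent.* helpers here

set_option autoImplicit false
open Cfsg

namespace Cfsg.Agent.S0099

/-- Among three extraspecial 2-groups of equal order, some two are isomorphic. -/
theorem result {E₁ : Type*} {E₂ : Type*} {E₃ : Type*} [Group E₁] [Group E₂] [Group E₃] [Finite E₁] [Finite E₂] [Finite E₃] (h₁ : Cfsg.IsExtraspecial 2 E₁) (h₂ : Cfsg.IsExtraspecial 2 E₂) (h₃ : Cfsg.IsExtraspecial 2 E₃) (h12 : Nat.card E₁ = Nat.card E₂) (h23 : Nat.card E₂ = Nat.card E₃) : Nonempty (E₁ ≃* E₂) ∨ Nonempty (E₂ ≃* E₃) ∨ Nonempty (E₁ ≃* E₃) := by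
  obtain ⟨n, -, hn⟩ := h₁.exists_card_eq
  have hn2 := h12 ▸ hn
  have hn3 := h23 ▸ hn2
  by_cases a : Cfsg.PRankLE 2 n E₁ ↔ Cfsg.PRankLE 2 n E₂
  · exact Or.inl (GT.PG.nonempty_mulEquiv_of_extraspecial_two h₁ h₂ hn hn2 a)
  by_cases b : Cfsg.PRankLE 2 n E₂ ↔ Cfsg.PRankLE 2 n E₃
  · exact Or.inr (Or.inl (GT.PG.nonempty_mulEquiv_of_extraspecial_two h₂ h₃ hn2 hn3 b))
  · exact Or.inr (Or.inr (GT.PG.nonempty_mulEquiv_of_extraspecial_two h₁ h₃ hn hn3 (by tauto)))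

end Cfsg.Agent.S0099
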