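import Mathlib
import Cfsg.Statements.S0105
import Cfsg.Agent.GT.TransferAbelian
-- import your own Cfsg.Agent.* helpers here

set_option autoImplicit false
open Cfsg

namespace Cfsg.Agent.S0105

open Cfsg.Agent.GT.Tr

/-- With an abelian Sylow p-subgroup P, some quotient of G is isomorphic to the part of P central in N_G(P). -/
theorem result {G : Type*} [Group G] [Finite G] {p : ℕ} [Fact p.Prime] (P : Sylow p G) (hP : IsMulCommutative P) : ∃ (N : Subgroup G) (hN : N.Normal), Nonempty (G ⧸ N ≃* ((P : Subgroup G) ⊓ Subgroup.centralizer (Subgroup.normalizer (P : Set G) : Set G) : Subgroup G)) := by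
  obtain ⟨N, hN, -, h⟩ := exists_normal_complement_of_abelian_sylow P hP
  exact ⟨N, hN, ⟨h.symm.QuotientMulEquiv⟩⟩

end Cfsg.Agent.S0105
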