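import Mathlib
import Cfsg.Statements.S0107
import Cfsg.Agent.GT.TransferAbelian
import Cfsg.Agent.GT.PGroupMaxTwo
-- import your own Cfsg.Agent.* helpers here

set_option autoImplicit false
open Cfsg

namespace Cfsg.Agent.S0107

open Cfsg.Agent.GT.Tr

/-- A finite group with no nontrivial 2-group quotient and dihedral Sylow 2-subgroups of order at least 8 has a single class of involutions. -/
theorem result {G : Type*} [Group G] [Finite G] (T : Sylow 2 G) (n : ℕ) (hn : 2 ≤ n) (hT : Nonempty ((T : Subgroup G) ≃* DihedralGroup (2 ^ n))) (hO : Cfsg.pResidual 2 G = ⊤) (x y : G) (hx : orderOf x = 2) (hy : orderOf y = 2) : ∃ g : G, g * x * g⁻¹ = y := by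
  obtain ⟨e⟩ := hT
  obtain ⟨a, b, -, h2, -⟩ := GT.PG.exists_generators_of_dihedral e
  have hi : (Subgroup.zpowers (a : G)).relIndex (T : Subgroup G) = 2 := by
    refine Eq.trans ?_ h2
    rw [Subgroup.relIndex, Subgroup.subgroupOf, ← Subgroup.coe_subtype,
      ← MonoidHom.map_zpowers, Subgroup.comap_map_eq_self_of_injective (Subgroup.subtype_injective _)]
  have key : ∀ u : G, orderOf u = 2 → ∃ g : G, g * u * g⁻¹ ∈ Subgroup.zpowers (a : G) := fun u hu =>
    (thompson_transfer_index_two T.not_dvd_index hi (hu ▸ pow_orderOf_eq_one u)).resolve_left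
      fun ⟨M, hM, h3, _⟩ => pResidual_eq_top_iff.1 hO M hM h3
  obtain ⟨g, hg⟩ := key x hx
  obtain ⟨k, hk⟩ := key y hy
  have h1 : ∀ u v : G, orderOf u = 2 → (v * u * v⁻¹) ^ 2 = 1 ∧ v * u * v⁻¹ ≠ 1 := fun u v hu =>
    ⟨by rw [conj_pow, ← hu, pow_orderOf_eq_one]; simp, fun h => by
      rw [conj_eq_one_iff.1 h] at hu
      simp at hu⟩
  have h3 := eq_of_sq_eq_one_of_isCyclic (⟨_, hg⟩ : Subgroup.zpowers (a : G)) ⟨_, hk⟩
    (Subtype.ext (h1 x g hx).1) (Subtype.ext (h1 y k hy).1)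
    (fun h => (h1 x g hx).2 (congrArg Subtype.val h)) fun h => (h1 y k hy).2 (congrArg Subtype.val h)
  have h4 : g * x * g⁻¹ = k * y * k⁻¹ := congrArg Subtype.val h3
  exact ⟨k⁻¹ * g, by rw [show k⁻¹ * g * x * (k⁻¹ * g)⁻¹ = k⁻¹ * (g * x * g⁻¹) * k by group, h4]; group⟩

end Cfsg.Agent.S0107
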