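import Mathlib
import Cfsg.Statements.S0109
import Cfsg.Agent.GT.ThompsonFactor
import Cfsg.Agent.GT.PStable

set_option autoImplicit false
open Cfsg

namespace Cfsg.Agent.S0109

open Subgroup Cfsg.Agent.GT
open scoped commutatorElement Pointwise

/-- The Thompson factorization Theorem for solvable groups states that, with p odd (and abelian Sylow 2-subgroups when p = 3) and no nontrivial normal subgroup of order prime to p, every element of G is a product of an element normalizing J(P) and an element centralizing the elements of order dividing p in the centre of P. -/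
theorem result {G : Type*} [Group G] [Finite G] {p : ℕ} [Fact p.Prime] (hp : p ≠ 2) (hs : Group.IsSolvable G) (h3 : p = 3 → ∀ T : Sylow 2 G, IsMulCommutative T) (hF : ∀ N : Subgroup G, N.Normal → Nat.Coprime (Nat.card N) p → N = ⊥) (P : Sylow p G) (g : G) : ∃ a ∈ Subgroup.normalizer (Cfsg.thompsonSubgroupOf p (P : Subgroup G) : Set G), ∃ c ∈ Subgroup.centralizer {x : G | x ∈ (P : Subgroup G) ∧ (∀ y ∈ (P : Subgroup G), x * y = y * x) ∧ x ^ p = 1}, g = a * c := by
  rw [thompsonSubgroupOf_eq]
  have hps : IsPSolvable p G := isPSolvable_of_isSolvable hs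
  have hc := hps.centralizer_pCore_le (pPrimeCore_eq_bot_iff.2 hF)
  have hsl : ¬ Involves (Matrix.SpecialLinearGroup (Fin 2) (ZMod p)) G := by
    by_cases h : p = 3
    · exact not_involves_sl2_of_comm_sylow hp (h3 h)
    · exact not_involves_sl2_of_isPSolvable (five_le_of_prime_ne hp h) hps
  have hJ := thJ_le_centralizer_of_stable hp (Or.inr rfl) P (thV_elem hc) thOp_thV_le
    fun a _ ha => isPStableOn_of_not_involves hp hsl _
      (CopAct.isPGroup_of_isElementaryAbelian (thV_elem hc)) a ha
  obtain ⟨c, hc, n, hn, h⟩ := th_exists_mul_of_thZ_normal P hJ g⁻¹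
  refine ⟨n⁻¹, inv_mem hn, c⁻¹, inv_mem (centralizer_le ?_ hc), by
    rw [← mul_inv_rev, ← h, inv_inv]⟩
  rintro x ⟨h1, h2, h3⟩
  exact omega_center_le_thV P (th_mem_omega_center.2 ⟨h1, fun y hy => (h2 y hy).symm, h3⟩)

end Cfsg.Agent.S0109
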