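import Mathlib
import Cfsg.Agent.GT.PGroupExtraspecial
import Cfsg.Statements.S0110
-- import your own Cfsg.Agent.* helpers here

set_option autoImplicit false
open Cfsg

namespace Cfsg.Agent.S0110

/-- In a p-group G, an extraspecial subgroup E with [G, E] ≤ Z(E) satisfies G = E C_G(E). -/
theorem result {G : Type*} [Group G] [Finite G] {p : ℕ} [Fact p.Prime] (hG : IsPGroup p G) (E : Subgroup G) (hE : Cfsg.IsExtraspecial p E) (h : ⁅(⊤ : Subgroup G), E⁆ ≤ E ⊓ Subgroup.centralizer (E : Set G)) : E ⊔ Subgroup.centralizer (E : Set G) = ⊤ := by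
  obtain ⟨z, h1, h2⟩ := GT.PG.exists_esz hE
  exact eq_top_iff.2 (h1.le_sup_centralizer h2 (h1.center_eq ▸ h))

end Cfsg.Agent.S0110
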