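import Mathlib
import Cfsg.Agent.GT.PGroupMaxClass
import Cfsg.Statements.S0115
-- import your own Cfsg.Agent.* helpers here

set_option autoImplicit false
open Cfsg

namespace Cfsg.Agent.S0115

/-- A 2-group of order 2^n, n ≥ 3, is of maximal class exactly when its commutator quotient is a Klein four-group. -/
theorem result {X : Type*} [Group X] [Finite X] (n : ℕ) (hn : 3 ≤ n) (hX : Nat.card X = 2 ^ n) : Group.nilpotencyClass X = n - 1 ↔ IsKleinFour (X ⧸ commutator X) := by
  obtain ⟨k, rfl⟩ : ∃ k, n = k + 3 := ⟨n - 3, by omega⟩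
  constructor
  · intro hc
    obtain ⟨a, b, h⟩ := GT.PG.exists_maxTwo_of_maxClass hX hc
    exact h.isKleinFour_quotient_commutator
  · intro h
    have h4 : (commutator X).index = 4 := h.card_four
    obtain ⟨m, a, b, hm⟩ := GT.PG.exists_maxTwo_of_index_commutator (IsPGroup.of_card hX) (fun hc => by
      rw [(commutator_eq_bot_iff X).2 hc, Subgroup.index_bot, hX, pow_add] at h4
      omega) h4
    have := hm.eq_of_card hX
    rw [hm.nilpotencyClass_eq]
    omega

end Cfsg.Agent.S0115
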