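import Mathlib
import Cfsg.Statements.S0118
import Cfsg.Agent.GT.ThompsonFusionZJ
import Cfsg.Agent.GT.PStable

set_option autoImplicit false
open Cfsg

namespace Cfsg.Agent.S0118

open Subgroup Cfsg.Agent.GT
open scoped commutatorElement Pointwise

/-- Glauberman's ZJ-Theorem, in the case of groups with no section isomorphic to SL(2,p), p odd: conjugation of subsets of a Sylow p-subgroup P inside P is always induced from the normalizer of Z(J(P)). -/
theorem result {G : Type*} [Group G] [Finite G] {p : ℕ} [Fact p.Prime] (hp : p ≠ 2) (hfree : ¬ ∃ (H K : Subgroup G) (hK : (K.subgroupOf H).Normal), Nonempty ((H ⧸ K.subgroupOf H) ≃* Matrix.SpecialLinearGroup (Fin 2) (ZMod p))) (P : Sylow p G) (A : Set G) (hA : A ⊆ (P : Set G)) (g : G) (hAg : (fun a => g⁻¹ * a * g) '' A ⊆ (P : Set G)) : ∃ n ∈ Subgroup.normalizer (Cfsg.centerThompsonOf p (P : Subgroup G) : Set G), ∀ a ∈ A, n⁻¹ * a * n = g⁻¹ * a * g := by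
  rw [centerThompsonOf_eq]
  have h := thCtrl_thZ_of_class hp (Or.inr rfl)
    (fun G _ => ¬ Involves (Matrix.SpecialLinearGroup (Fin 2) (ZMod p)) G)
    (fun G _ _ H h h' => h (Loc.CF.involves_trans h' (Loc.CF.involves_subgroup H)))
    (fun G _ _ N _ h h' => h (Loc.CF.involves_trans h' (Loc.CF.involves_quotient N)))
    (fun G _ _ P h _ => thStable_of_isPStableOn P.isPGroup'
      fun V _ hV => isPStableOn_of_not_involves hp h V hV) G hfree P (th_isStronglyClosed_self _)
  obtain ⟨x, hx, h1⟩ := (h.controlsStrongFusionOf hA).2 g⁻¹ (by simpa using hAg)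
  exact ⟨x⁻¹, inv_mem hx, fun a ha => by simpa using (h1 a ha).symm⟩

end Cfsg.Agent.S0118
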