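import Mathlib
import Cfsg.Statements.S0151
import Cfsg.Agent.Ch.Orthogonality

set_option autoImplicit false
open Cfsg

namespace Cfsg.Agent.S0151

/-- The irreducible complex characters of a finite group are linearly independent over ℂ as functions on the group. -/
theorem result {G : Type*} [Group G] [Finite G] : LinearIndependent ℂ (fun χ : Cfsg.IrrCharacter G => (χ : G → ℂ)) := by
  exact Ch.linearIndependent_irr

end Cfsg.Agent.S0151
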