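import Mathlib
import Cfsg.Statements.S0162
import Cfsg.Agent.Ch.FrobeniusSchur
import Cfsg.Agent.S0133
import Cfsg.Agent.S0135

set_option autoImplicit false
open Cfsg

namespace Cfsg.Agent.S0162

/-- If a finite group has odd order, its order is congruent to its number of conjugacy classes modulo 16. -/
theorem result {G : Type*} [Group G] [Finite G] (hodd : Odd (Nat.card G)) : Nat.card G ≡ Nat.card (ConjClasses G) [MOD 16] := by
  classical
  have := Fintype.ofFinite G
  rw [← S0133.result, ← Ch.sum_sq_charDegree, Nat.card_eq_fintype_card (α := IrrCharacter G)]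
  have hd : ∀ χ : IrrCharacter G, Odd (charDegree (χ : G → ℂ)) := by
    intro χ
    obtain ⟨ρ, hρ, -⟩ := χ.2.exists_rep
    have := S0135.result ρ
    simp only [Module.finrank_fin_fun] at this
    exact Odd.of_dvd_nat hodd this
  have h8 : ∀ χ : IrrCharacter G, ∃ k : ℕ, charDegree (χ : G → ℂ) ^ 2 = 8 * k + 1 := by
    intro χ
    obtain ⟨m, hm⟩ := hd χ
    obtain ⟨k, hk⟩ := Nat.even_mul_succ_self m
    exact ⟨k, by rw [hm]; nlinarith⟩
  choose k hk using h8
  have hsum : ∑ χ : IrrCharacter G, (k χ : ZMod 2) = 0 := by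
    refine Finset.sum_involution
      (fun χ _ => ⟨fun g => (starRingEnd ℂ) ((χ : G → ℂ) g), χ.2.complexConj⟩) ?_ ?_ ?_ ?_
    · intro χ _
      have e : k ⟨fun g => (starRingEnd ℂ) ((χ : G → ℂ) g), χ.2.complexConj⟩ = k χ := by
        have h1 := hk ⟨fun g => (starRingEnd ℂ) ((χ : G → ℂ) g), χ.2.complexConj⟩
        have h2 : charDegree (fun g => (starRingEnd ℂ) ((χ : G → ℂ) g)) =
            charDegree (χ : G → ℂ) := Ch.charDegree_congr χ.2.isCharacter.conj_apply_one
        have h3 := hk χ
        simp only [h2] at h1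
        omega
      rw [e, ← two_mul]
      exact mul_eq_zero_of_left rfl _
    · intro χ _ hne heq
      apply hne
      have h1 := Ch.eq_one_of_real_of_odd hodd χ.2
        (Ch.FS.real_iff.mpr (congrArg Subtype.val heq).symm)
      have h2 := hk χ
      rw [h1, Ch.charDegree_one] at h2
      have : k χ = 0 := by omega
      simp [this]
    · intro χ _; exact Finset.mem_univ _
    · intro χ _
      apply Subtype.ext
      funext g
      simp
  rw [← Nat.cast_sum, ZMod.natCast_eq_zero_iff] at hsum
  obtain ⟨r, hr⟩ := hsum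
  simp only [hk, Finset.sum_add_distrib, ← Finset.mul_sum, hr, Finset.sum_const, Finset.card_univ,
    smul_eq_mul, mul_one]
  unfold Nat.ModEq
  omega

end Cfsg.Agent.S0162
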