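import Mathlib
import Cfsg.Statements.S0163
import Cfsg.Agent.Ch.MGroup

set_option autoImplicit false
open Cfsg

namespace Cfsg.Agent.S0163

/-- Brauer's induction Theorem: every character of a finite group is a ℤ-linear combination of functions induced from linear characters (homomorphisms to ℂˣ) of elementary subgroups. -/
theorem result {G : Type*} [Group G] [Fintype G] (χ : G → ℂ) (hχ : Cfsg.IsCharacter G χ) : ∃ l : List ((E : Subgroup G) × ((E →* ℂˣ) × ℤ)), (∀ t ∈ l, ∃ p : ℕ, p.Prime ∧ Cfsg.IsElementary p t.1) ∧ χ = (l.map fun t => (t.2.2 : ℂ) • Cfsg.indFun t.1 (fun e => (t.2.1 e : ℂ))).sum := by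
  have h := Cfsg.Agent.Ch.brauer_mem_span_linear hχ.isGeneralizedCharacter
  have hset : Cfsg.Agent.Ch.linIndSet G (fun E => ∃ p : ℕ, p.Prime ∧ IsElementary p E) =
      {g | ∃ i : (E : Subgroup G) × (E →* ℂˣ), (∃ p : ℕ, p.Prime ∧ IsElementary p i.1) ∧
        g = indFun i.1 (fun e => (i.2 e : ℂ))} := by
    ext g
    constructor
    · rintro ⟨E, χ, h1, h3⟩
      exact ⟨⟨E, χ⟩, h1, h3⟩
    · rintro ⟨⟨E, χ⟩, h1, h3⟩
      exact ⟨E, χ, h1, h3⟩
  rw [hset] at h
  obtain ⟨l, hl, e⟩ := Cfsg.Agent.Ch.exists_list_of_mem_span_int _ _ h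
  refine ⟨l.map fun t => ⟨t.1.1, (t.1.2, t.2)⟩, fun t ht => ?_, ?_⟩
  · obtain ⟨s, hs, rfl⟩ := List.mem_map.mp ht
    exact hl s hs
  · rw [List.map_map]
    exact e

end Cfsg.Agent.S0163
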