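import Mathlib
import Cfsg.Statements.S0165
import Cfsg.Agent.Ch.BrauerPi

set_option autoImplicit false
open Cfsg

namespace Cfsg.Agent.S0165

/-- If p ^ n is the exact power of the prime p dividing the order of a finite group and p ^ n divides the degree of an irreducible complex representation, then its character vanishes at every element of order divisible by p. -/
theorem result {G : Type*} [Group G] [Finite G] {V : Type*} [AddCommGroup V] [Module ℂ V] [FiniteDimensional ℂ V] (ρ : Representation ℂ G V) [ρ.IsIrreducible] (p n : ℕ) (hp : p.Prime) (hn : p ^ n ∣ Nat.card G) (hn' : ¬ p ^ (n + 1) ∣ Nat.card G) (hdeg : p ^ n ∣ Module.finrank ℂ V) (x : G) (hx : p ∣ orderOf x) : ρ.character x = 0 := by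
  refine Ch.apply_eq_zero_of_defect_zero hp (Ch.isIrrCharacter_character ρ) ?_ hx
  rw [Ch.charDegree_character]
  have h0 : Nat.card G ≠ 0 := Nat.card_pos.ne'
  have h1 := (hp.pow_dvd_iff_le_factorization h0).mp hn
  have h2 : ¬ n + 1 ≤ (Nat.card G).factorization p :=
    fun h => hn' ((hp.pow_dvd_iff_le_factorization h0).mpr h)
  have h3 : (Nat.card G).factorization p = n := by omega
  rwa [h3]

end Cfsg.Agent.S0165
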