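import Mathlib
import Cfsg.Statements.S0166
import Cfsg.Agent.Ch.MGroup
import Cfsg.Agent.Ch.Table

set_option autoImplicit false
open Cfsg

namespace Cfsg.Agent.S0166

open Cfsg.Agent.Ch Module

variable {G : Type*} [Group G] {K : IntermediateField ℚ ℂ}

/-- Extension of scalars. -/
noncomputable def cx {n : ℕ} (ρ : Representation K G (Fin n → K)) : Representation ℂ G (Fin n → ℂ) :=
  (Matrix.toLinAlgEquiv' (R := ℂ)).toMonoidHom.comp ((algebraMap K ℂ).mapMatrix.toMonoidHom.comp
    ((LinearMap.toMatrixAlgEquiv' (R := K)).toMonoidHom.comp ρ))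

theorem toMatrix_cx {n : ℕ} (ρ : Representation K G (Fin n → K)) (g : G) :
    LinearMap.toMatrix' (cx ρ g) = (LinearMap.toMatrix' (ρ g)).map (algebraMap K ℂ) :=
  LinearMap.toMatrix'_toLin' _

theorem character_cx {n : ℕ} (ρ : Representation K G (Fin n → K)) (g : G) :
    (cx ρ).character g = (ρ.character g : K) := by
  rw [Representation.character, ← Matrix.toLin'_toMatrix' (cx ρ g), Matrix.trace_toLin'_eq, toMatrix_cx,
    Representation.character, ← Matrix.toLin'_toMatrix' (ρ g), Matrix.trace_toLin'_eq, LinearMap.toMatrix'_toLin']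
  exact (AddMonoidHom.map_trace (algebraMap K ℂ) _).symm

/-- Characters of representations over the subfield `K`. -/
def KC (K : IntermediateField ℚ ℂ) (θ : G → ℂ) : Prop :=
  ∃ (n : ℕ) (ρ : Representation K G (Fin n → K)), θ = fun g => ((ρ.character g : K) : ℂ)

theorem KC.of_rep {V : Type*} [AddCommGroup V] [Module K V] [FiniteDimensional K V] (ρ : Representation K G V) :
    KC K fun g => ((ρ.character g : K) : ℂ) :=
  ⟨_, repCongr ρ (finBasis K V).equivFun, by rw [character_repCongr]⟩

theorem KC.isCharacter {θ : G → ℂ} (h : KC K θ) : IsCharacter G θ := by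
  obtain ⟨n, ρ, rfl⟩ := h
  exact ⟨n, cx ρ, funext (character_cx ρ)⟩

theorem KC.zero : KC K (0 : G → ℂ) := ⟨0, 1, by ext g; simp [Representation.character]⟩

theorem KC.add {θ φ : G → ℂ} (h : KC K θ) (h' : KC K φ) : KC K (θ + φ) := by
  obtain ⟨n, ρ, rfl⟩ := h
  obtain ⟨m, σ, rfl⟩ := h'
  convert KC.of_rep (ρ.prod σ) using 1
  ext g
  simp [character_prod]

theorem KC.of_matrix {ι : Type*} [Fintype ι] [DecidableEq ι] (E : G → Matrix ι ι ℂ) (hK : ∀ g i j, E g i j ∈ K)
    (hm : ∀ g h, E (g * h) = E g * E h) : KC K fun g => (E g).trace := by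
  let X : G → Matrix ι ι K := fun g i j => ⟨_, hK g i j⟩
  have h1 : ∀ g, E g = (X g).map (algebraMap K ℂ) := fun g => rfl
  have h2 : ∀ g h, (X (g * h)).toLin' = (X g).toLin' ∘ₗ (X h).toLin' := fun g h => by
    rw [← Matrix.toLin'_mul]
    congr 1
    apply Matrix.map_injective (algebraMap K ℂ).injective
    simpa only [Matrix.map_mul, ← h1] using hm g h
  have h3 : ∀ g v, (X g).toLin' v ∈ LinearMap.range (X 1).toLin' := fun g v =>
    ⟨(X g).toLin' v, by rw [← LinearMap.comp_apply, ← h2, one_mul]⟩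
  let ρ : Representation K G (LinearMap.range (X 1).toLin') :=
    { toFun := fun g => (X g).toLin'.restrict fun v _ => h3 g v
      map_one' := by
        ext1 ⟨_, v, rfl⟩
        exact Subtype.ext ((congrArg (· v) (h2 1 1)).symm.trans (by rw [one_mul]; rfl))
      map_mul' := fun g h => by
        ext1 v
        exact Subtype.ext (congrArg (· v.1) (h2 g h)) }
  convert KC.of_rep ρ with g
  rw [h1, show ρ.character g = _ from LinearMap.trace_restrict_eq_of_forall_mem _ _ (h3 g), Matrix.trace_toLin'_eq]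
  exact (AddMonoidHom.map_trace (algebraMap K ℂ) _).symm

theorem KC.ind [Fintype G] (H : Subgroup G) (lam : H →* ℂˣ) (hK : ∀ h, (lam h : ℂ) ∈ K) :
    KC K (indFun H fun e => (lam e : ℂ)) := by
  classical
  have h0 := natCard_subgroup_cast_ne_zero H
  have h1 : ∀ a (h : H), extendByZero H (fun e => (lam e : ℂ)) (a * (h : G)⁻¹) * lam h =
      extendByZero H (fun e => (lam e : ℂ)) a := fun a h => by
    by_cases ha : a ∈ H
    · rw [extendByZero_of_mem _ _ ha, extendByZero_of_mem _ _ (H.mul_mem ha (H.inv_mem h.2)), ← Units.val_mul,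
        ← map_mul]
      congr 2
      ext; simp
    · rw [extendByZero_of_not_mem _ _ ha, extendByZero_of_not_mem _ _ fun h2 => ha (by simpa using H.mul_mem h2 h.2),
        zero_mul]
  convert KC.of_matrix (K := K) (fun g => Matrix.of fun x y : G =>
    (Nat.card H : ℂ)⁻¹ * extendByZero H (fun e => (lam e : ℂ)) (x⁻¹ * g * y)) (fun g x y => ?_) fun g h => ?_ using 1
  · ext g
    simp [indFun_apply, Matrix.trace, Finset.mul_sum]
  · refine K.mul_mem (K.inv_mem (natCast_mem K _)) ?_
    rw [extendByZero_eq_dite]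
    split_ifs
    exacts [hK _, K.zero_mem]
  · ext x y
    have h2 := sum_extendByZero_mul H (fun e => (lam e : ℂ))
      fun u => extendByZero H (fun e => (lam e : ℂ)) (x⁻¹ * (g * h) * y * u⁻¹)
    simp only [mul_comm (lam _ : ℂ), h1, Finset.sum_const, Finset.card_univ, ← Nat.card_eq_fintype_card,
      nsmul_eq_mul] at h2
    rw [Matrix.mul_apply, ← (Equiv.inv G |>.trans (Equiv.mulLeft (h * y))).sum_comp]
    simp only [Matrix.of_apply, Equiv.trans_apply, Equiv.inv_apply, Equiv.coe_mulLeft, mul_mul_mul_comm _ _ (_ : ℂ)⁻¹,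
      ← Finset.mul_sum]
    rw [mul_assoc (_ : ℂ), ← inv_mul_cancel_left₀ h0 (extendByZero _ _ _), ← h2]
    congr 2
    refine Finset.sum_congr rfl fun u _ => ?_
    rw [mul_comm]
    congr 2 <;> group

theorem KC.sub [Fintype G] (m : ℕ) : ∀ {θ φ : G → ℂ}, KC K θ → KC K φ → charDegree φ = m → IsCharacter G (θ - φ) →
    KC K (θ - φ) := by
  induction m using Nat.strong_induction_on with
  | _ m ih =>
  intro θ φ h1 h2 h3 h4
  by_cases h0 : φ = 0
  · rwa [h0, sub_zero]
  have h5 : classInner θ φ ≠ 0 := fun h => by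
    have a := h4.re_classInner_nonneg h2.isCharacter
    have b := re_classInner_self_pos h0
    rw [classInner_sub_left, h, zero_sub, Complex.neg_re] at a
    linarith
  have h6 := h2.isCharacter.conj_apply
  obtain ⟨n, ρ, rfl⟩ := h1
  obtain ⟨k, σ, rfl⟩ := h2
  have : NeZero (Nat.card G : K) := ⟨Nat.cast_ne_zero.2 Nat.card_pos.ne'⟩
  let _ := invertibleOfNonzero (NeZero.ne (Nat.card G : K))
  obtain ⟨f, hf⟩ : ∃ f : σ.IntertwiningMap ρ, f ≠ 0 := by
    by_contra! h
    have := subsingleton_of_forall_eq 0 h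
    have a := congrArg (algebraMap K ℂ) (σ.card_inv_mul_sum_char_mul_char_eq_finrank ρ)
    rw [finrank_zero_of_subsingleton] at a
    exact h5 (by simpa [classInner, h6] using a)
  obtain ⟨U, hU⟩ := exists_isCompl f.ker
  obtain ⟨W, hW⟩ := exists_isCompl f.range
  have h7 : U.toRepresentation.character = f.range.toRepresentation.character :=
    Representation.char_iso (Representation.Equiv.mk
      (f.toLinearMap.kerComplementEquivRange (isCompl_toSubmodule hU).symm) fun g => by
        ext1 v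
        exact Subtype.ext (congrArg (· v.1) (f.isIntertwining' g)))
  have h8 : ((fun g => ((ρ.character g : K) : ℂ)) - fun g => ((σ.character g : K) : ℂ)) =
      (fun g => ((W.toRepresentation.character g : K) : ℂ)) -
        fun g => ((f.ker.toRepresentation.character g : K) : ℂ) := by
    ext g
    simp [character_eq_add_of_isCompl hU, character_eq_add_of_isCompl hW, h7]
    ring
  rw [h8] at h4 ⊢
  refine ih _ ?_ (.of_rep _) (.of_rep _) rfl h4
  rw [← h3, charDegree_of_apply_one (n := finrank K f.ker.toSubmodule) (by simp),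
    charDegree_of_apply_one (n := finrank K (Fin k → K)) (by simp)]
  exact Submodule.finrank_lt fun h => hf (by ext1; exact LinearMap.ker_eq_top.1 h)

theorem KC.of_isCharacter [Fintype G] (hK : ∀ z : ℂ, z ^ Monoid.exponent G = 1 → z ∈ K) {χ : G → ℂ}
    (h : IsCharacter G χ) : KC K χ := by
  obtain ⟨θ, φ, h1, h2, rfl⟩ : ∃ θ φ, KC K θ ∧ KC K φ ∧ χ = θ - φ := by
    refine Submodule.span_induction (p := fun χ _ => ∃ θ φ, KC K θ ∧ KC K φ ∧ χ = θ - φ) ?_
      ⟨0, 0, .zero, .zero, by simp⟩ ?_ ?_ (brauer_mem_span_linear h.isGeneralizedCharacter)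
    · rintro _ ⟨E, lam, -, rfl⟩
      refine ⟨_, 0, .ind E lam fun e => hK _ ?_, .zero, (sub_zero _).symm⟩
      rw [← Units.val_pow_eq_pow_val, ← map_pow, show e ^ Monoid.exponent G = 1 from
        Subtype.ext (Monoid.pow_exponent_eq_one e.1), map_one, Units.val_one]
    · rintro _ _ - - ⟨a, b, h1, h2, rfl⟩ ⟨c, d, h3, h4, rfl⟩
      exact ⟨_, _, h1.add h3, h2.add h4, by abel⟩
    · rintro z _ - ⟨a, b, h1, h2, rfl⟩
      induction z using Int.induction_on with
      | zero => exact ⟨0, 0, .zero, .zero, by simp⟩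
      | succ i ih =>
        obtain ⟨c, d, h3, h4, h5⟩ := ih
        exact ⟨_, _, h3.add h1, h4.add h2, by rw [add_smul, h5, one_smul]; abel⟩
      | pred i ih =>
        obtain ⟨c, d, h3, h4, h5⟩ := ih
        exact ⟨_, _, h3.add h2, h4.add h1, by rw [sub_smul, h5, one_smul]; abel⟩
  exact KC.sub _ h1 h2 rfl h

/-- Brauer's splitting field Theorem: a complex representation of a finite group of exponent m is equivalent to a representation by matrices with entries in ℚ adjoined exp(2πi/m). -/
theorem result {G : Type*} [Group G] [Finite G] (n : ℕ) (ρ : Representation ℂ G (Fin n → ℂ)) : ∃ σ : Representation ℂ G (Fin n → ℂ), Nonempty (ρ.Equiv σ) ∧ ∀ g : G, ∀ i j : Fin n, LinearMap.toMatrix' (σ g) i j ∈ Algebra.adjoin ℚ ({Complex.exp (2 * Real.pi * Complex.I / (Monoid.exponent G : ℂ))} : Set ℂ) := by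
  have := Fintype.ofFinite G
  have h0 : NeZero (Monoid.exponent G) := ⟨Monoid.exponent_ne_zero_of_finite⟩
  have hζ := Complex.isPrimitiveRoot_exp _ h0.1
  obtain ⟨m, σ, h⟩ := KC.of_isCharacter
    (K := IntermediateField.adjoin ℚ {Complex.exp (2 * Real.pi * Complex.I / (Monoid.exponent G : ℂ))})
    (fun z hz => by
      obtain ⟨i, -, rfl⟩ := hζ.eq_pow_of_pow_eq_one hz
      exact pow_mem (IntermediateField.mem_adjoin_simple_self ℚ _) i) (isCharacter_character ρ)
  obtain rfl : n = m := by simpa using congrFun h 1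
  refine ⟨cx σ, nonempty_equiv_of_character_eq _ _ (h.trans (funext (character_cx σ)).symm), fun g i j => ?_⟩
  rw [toMatrix_cx, ← IntermediateField.adjoin_simple_toSubalgebra_of_isAlgebraic
    ((hζ.isIntegral h0.pos).tower_top (A := ℚ)).isAlgebraic]
  exact (LinearMap.toMatrix' (σ g) i j).2

end Cfsg.Agent.S0166
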