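import Mathlib
import Cfsg.Statements.S0177
import Cfsg.Agent.Ch.MGroup

set_option autoImplicit false
open Cfsg

namespace Cfsg.Agent.S0177

open scoped IsMulCommutative

theorem artin_one {G : Type*} [Group G] [Fintype G] :
    (fun _ : G => (Nat.card G : ℂ)) ∈ Submodule.span ℤ (Ch.indSet G fun A => IsCyclic A) := by
  classical
  have key : ∀ x : G, ∃ f ∈ Submodule.span AlgInt (Ch.indSet G fun A => IsCyclic A),
      ∀ y, f y = Nat.card {g : G // g⁻¹ * y * g = x} := by
    intro x
    obtain ⟨θ, hθ, h1, h0⟩ := Ch.exists_mem_span_indicator (MonoidHom.id (Subgroup.zpowers x))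
      ⟨x, Subgroup.mem_zpowers x⟩ (by
        rw [Subgroup.mem_center_iff]
        rintro ⟨_, j, rfl⟩
        exact Subtype.ext ((Commute.refl x).zpow_left j).eq)
    refine ⟨indFun _ θ, Ch.indFun_mem_span_indSet (𝓗 := fun A => IsCyclic A)
      (inferInstanceAs (IsCyclic (Subgroup.zpowers x))) hθ, fun y => ?_⟩
    rw [Ch.indFun_indicator (Subgroup.zpowers x) {x} (by simp) (Nat.card (Subgroup.zpowers x)) θ
      (fun e he => h1 e (Subtype.ext he)) (fun e he => h0 e fun h => he (congrArg Subtype.val h)) y,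
      inv_mul_cancel₀ (Ch.natCard_ne_zero _), one_mul]
    rfl
  choose f hf hfy using key
  refine Ch.mem_span_int_of_mem_span_algInt
    (fun f hf => (Ch.isCharacter_of_mem_indSet hf).isGeneralizedCharacter)
    (IsCharacter.natCast_const _).isGeneralizedCharacter ?_
  have : (fun _ : G => (Nat.card G : ℂ)) = ∑ x, f x := by
    funext y
    rw [Finset.sum_apply]
    simp only [hfy]
    rw [← Nat.cast_sum, ← Nat.card_sigma]
    congr 1
    exact Nat.card_congr (Equiv.sigmaFiberEquiv fun g : G => g⁻¹ * y * g).symm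
  rw [this]
  exact Submodule.sum_mem _ fun x _ => hf x

/-- The Artin induction Theorem: for a character χ of a finite group, |G| • χ is a ℤ-linear combination of functions induced from homomorphisms of cyclic subgroups into ℂˣ. -/
theorem result {G : Type*} [Group G] [Fintype G] (χ : G → ℂ) (hχ : Cfsg.IsCharacter G χ) : ∃ l : List ((A : Subgroup G) × ((A →* ℂˣ) × ℤ)), (∀ t ∈ l, IsCyclic t.1) ∧ (Nat.card G : ℂ) • χ = (l.map fun t => (t.2.2 : ℂ) • Cfsg.indFun t.1 (fun a => (t.2.1 a : ℂ))).sum := by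
  have h0 := Ch.smul_mem_span_indSet (artin_one (G := G)) hχ.isGeneralizedCharacter
  have h := Ch.span_indSet_le_span_linIndSet (𝓗 := fun A : Subgroup G => IsCyclic A)
    (fun E U hE hU => Subgroup.isCyclic_of_le hU)
    (fun E hE => by
      have := IsCyclic.isMulCommutative (α := E)
      exact CommGroup.isNilpotent) h0
  have hset : Ch.linIndSet G (fun A => IsCyclic A) =
      {g | ∃ i : (E : Subgroup G) × (E →* ℂˣ), IsCyclic i.1 ∧
        g = indFun i.1 (fun e => (i.2 e : ℂ))} := by
    ext g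
    constructor
    · rintro ⟨E, χ, h1, h3⟩
      exact ⟨⟨E, χ⟩, h1, h3⟩
    · rintro ⟨⟨E, χ⟩, h1, h3⟩
      exact ⟨E, χ, h1, h3⟩
  rw [hset] at h
  obtain ⟨l, hl, e⟩ := Ch.exists_list_of_mem_span_int _ _ h
  refine ⟨l.map fun t => ⟨t.1.1, (t.1.2, t.2)⟩, fun t ht => ?_, ?_⟩
  · obtain ⟨s, hs, rfl⟩ := List.mem_map.mp ht
    exact hl s hs
  · rw [List.map_map]
    exact e

end Cfsg.Agent.S0177
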