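import Mathlib
import Cfsg.Agent.Ch.SmallDegree
import Cfsg.Statements.S0184
-- import your own Cfsg.Agent.* helpers here

set_option autoImplicit false
open Cfsg

namespace Cfsg.Agent.S0184

/-- A finite p-group admits a faithful irreducible complex representation if and only if its centre is cyclic. -/
theorem result {G : Type*} [Group G] [Finite G] (p : ℕ) [Fact p.Prime] (hG : IsPGroup p G) : (∃ (n : ℕ) (ρ : Representation ℂ G (Fin n → ℂ)), ρ.IsIrreducible ∧ Function.Injective ρ) ↔ IsCyclic (Subgroup.center G) := by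
  constructor
  · rintro ⟨n, ρ, hirr, hinj⟩
    exact (Ch.isIrrCharacter_character ρ).isCyclic_center
      (by rw [Ch.charKer_character, MonoidHom.ker_eq_bot_iff]; exact hinj)
  · intro hZ
    obtain ⟨χ, hχ⟩ := Ch.exists_faithful_irr_of_isCyclic_center hG hZ
    obtain ⟨ρ, hρ, he⟩ := χ.2.exists_rep
    refine ⟨_, ρ, hρ, ?_⟩
    rw [← MonoidHom.ker_eq_bot_iff, ← Ch.charKer_character, he]
    exact hχ

end Cfsg.Agent.S0184
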