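import Mathlib
import Cfsg.Agent.Ch.SmallDegree
import Cfsg.Statements.S0186
-- import your own Cfsg.Agent.* helpers here

set_option autoImplicit false
open Cfsg

namespace Cfsg.Agent.S0186

/-- Let G be a finite simple group of order n and p a prime dividing n. If G has more than n / p^2 conjugacy classes, then every Sylow p-subgroup of G is abelian. -/
theorem result {G : Type*} [Group G] [Finite G] [IsSimpleGroup G] (p : ℕ) [Fact p.Prime] (hp : p ∣ Nat.card G) (hmany : Nat.card G < p ^ 2 * Nat.card (ConjClasses G)) (P : Sylow p G) (a b : G) (ha : a ∈ P) (hb : b ∈ P) : a * b = b * a := by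
  classical
  have hp := (Fact.out : p.Prime)
  by_contra hab
  -- the order of `P` is at least `p ^ 2`
  have h2 : p ^ 2 ∣ Nat.card G := by
    obtain ⟨k, hk⟩ := IsPGroup.iff_card.1 P.isPGroup'
    refine (pow_dvd_pow p ?_).trans (hk ▸ Subgroup.card_subgroup_dvd_card (P : Subgroup G))
    by_contra hk2
    have hc : IsCyclic (P : Subgroup G) := by
      rcases (by omega : k = 0 ∨ k = 1) with rfl | rfl
      · have : Subsingleton (P : Subgroup G) := (Nat.card_eq_one_iff_unique.1 (by simpa using hk)).1
        infer_instance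
      · exact isCyclic_of_prime_card (p := p) (by simpa using hk)
    have := hc.commGroup.mul_comm ⟨a, ha⟩ ⟨b, hb⟩
    exact hab (congrArg Subtype.val this)
  -- all nontrivial irreducible characters have degree at least `p`
  have h3 : ∀ χ ∈ (Finset.univ : Finset (IrrCharacter G)).erase (Ch.irrOne G),
      p ^ 2 ≤ charDegree (χ : G → ℂ) ^ 2 := by
    intro χ hχ
    refine Nat.pow_le_pow_left (not_lt.1 fun hlt => hab ?_) 2
    exact χ.isCharacter.comm_of_isPGroup (χ.2.charKer_eq_bot_of_simple fun h1 =>
      Finset.ne_of_mem_erase hχ (Subtype.ext h1)) hp hlt P.isPGroup' a ha b hb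
  have h4 := Finset.card_nsmul_le_sum _ _ _ h3
  have h5 := Ch.sum_sq_charDegree (G := G)
  rw [← Finset.add_sum_erase _ _ (Finset.mem_univ (Ch.irrOne G))] at h5
  rw [Finset.card_erase_of_mem (Finset.mem_univ _), Finset.card_univ, ← Nat.card_eq_fintype_card,
    Ch.card_irr, smul_eq_mul] at h4
  obtain ⟨m, hm⟩ := h2
  rw [hm] at hmany h5
  have h6 : m < Nat.card (ConjClasses G) := Nat.lt_of_mul_lt_mul_left hmany
  have h7 : m * p ^ 2 ≤ (Nat.card (ConjClasses G) - 1) * p ^ 2 := Nat.mul_le_mul_right _ (by omega)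
  simp only [Ch.coe_irrOne, Ch.charDegree_one] at h5
  nlinarith

end Cfsg.Agent.S0186
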