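import Mathlib
import Cfsg.Statements.S0187
import Cfsg.Agent.Ch.Linear

set_option autoImplicit false
open Cfsg

namespace Cfsg.Agent.S0187

/-- A finite group is commutative if and only if every irreducible complex character has degree 1. -/
theorem result {G : Type*} [Group G] [Finite G] : (∀ a b : G, a * b = b * a) ↔ ∀ χ : Cfsg.IrrCharacter G, (χ : G → ℂ) 1 = 1 := by
  exact Ch.comm_iff_forall_irr_linear

end Cfsg.Agent.S0187
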