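import Mathlib
import Cfsg.Agent.Ch.SmallDegree
import Cfsg.Statements.S0189
-- import your own Cfsg.Agent.* helpers here

set_option autoImplicit false
open Cfsg

namespace Cfsg.Agent.S0189

/-- If a complex character of a finite group vanishes at every non-identity element of a Sylow p-subgroup P, then |P| divides its degree. -/
theorem result {G : Type*} [Group G] [Finite G] (p : ℕ) [Fact p.Prime] (P : Sylow p G) (χ : G → ℂ) (hχ : Cfsg.IsCharacter G χ) (hvan : ∀ g : G, g ∈ P → g ≠ 1 → χ g = 0) : ∃ k : ℕ, χ 1 = (Nat.card P : ℂ) * k := by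
  obtain ⟨k, hk⟩ := hχ.card_dvd_charDegree_of_vanish (P : Subgroup G) hvan
  exact ⟨k, by rw [← hχ.coe_charDegree, hk, Nat.cast_mul]⟩

end Cfsg.Agent.S0189
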