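import Mathlib
import Cfsg.Statements.S0203
import Cfsg.Agent.Inv.Classes
import Cfsg.Agent.GT.TransferFrobenius

set_option autoImplicit false
open Cfsg

namespace Cfsg.Agent.S0203

/-- If a Sylow 2-subgroup P of a finite group G is a Klein four-group, then G has three classes of involutions if and only if P has a normal complement in G. -/
theorem result {G : Type*} [Group G] [Finite G] (P : Sylow 2 G) (hP : IsKleinFour (P : Subgroup G)) : Nat.card {C : ConjClasses G // ∃ t : G, orderOf t = 2 ∧ ConjClasses.mk t = C} = 3 ↔ ∃ N : Subgroup G, N.Normal ∧ Subgroup.IsComplement' N (P : Subgroup G) := by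
  rw [← GT.Tr.hasNormalPComplement_iff_sylow, GT.Tr.hasNormalPComplement_iff_fusion P]
  have key : (∀ x ∈ (P : Subgroup G), ∀ g : G, g * x * g⁻¹ ∈ (P : Subgroup G) → ∃ u ∈ (P : Subgroup G), g * x * g⁻¹ = u * x * u⁻¹) ↔
      ∀ a ∈ P, ∀ b ∈ P, IsConj a b → a = b := by
    constructor
    · intro h a ha b hb hab
      obtain ⟨g, rfl⟩ := isConj_iff.1 hab
      obtain ⟨u, hu, e⟩ := h a ha g hb
      rw [e, (Inv.kleinFour_commute hP hu ha).eq]; group
    · intro h x hx g hg
      exact ⟨1, one_mem _, by rw [← h x hx _ hg (Inv.isConj_conj g x)]; group⟩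
  rw [key]
  rcases Inv.kleinFour_sylow_dichotomy P hP with ⟨h1, h2⟩ | ⟨h1, h2⟩
  · refine iff_of_false (by change Inv.invClassCount G ≠ 3; omega) fun h => ?_
    obtain ⟨a, ha, b, hb, ha1, hb1, hne⟩ := Inv.kleinFour_exists_pair hP
    exact hne (h a ha b hb (h2 a b (Inv.orderOf_two_of (Inv.kleinFour_mul_self hP ha) ha1)
      (Inv.orderOf_two_of (Inv.kleinFour_mul_self hP hb) hb1)))
  · exact iff_of_true h1 h2

end Cfsg.Agent.S0203
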