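import Mathlib
import Cfsg.Statements.S0211
import Cfsg.Agent.Inv.Dihedral

set_option autoImplicit false
open Cfsg

namespace Cfsg.Agent.S0211

/-- Let x, y be involutions with xy of even order n and z = (xy)^(n/2). Then xz is conjugate to x by an element of the subgroup generated by x, y if and only if 4 divides n. -/
theorem result {G : Type*} [Group G] [Finite G] (x y : G) (hx : orderOf x = 2) (hy : orderOf y = 2) (heven : Even (orderOf (x * y))) : (∃ d ∈ Subgroup.closure ({x, y} : Set G), d * x * d⁻¹ = x * (x * y) ^ (orderOf (x * y) / 2)) ↔ 4 ∣ orderOf (x * y) := by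
  have hx2 := Inv.mul_self_of_two hx
  have hy2 := Inv.mul_self_of_two hy
  have hinv := Inv.left_inverts_mul hx2 hy2
  have hz := Inv.central_involution_of_even hx2 hy2 heven
  obtain ⟨m, hm⟩ := heven
  have hm2 : orderOf (x * y) / 2 = m := by omega
  rw [hm2] at hz ⊢
  constructor
  · rintro ⟨d, hd, h⟩
    obtain ⟨n, hn⟩ := Inv.conj_left_of_mem_closure_pair hx2 hy2 hd
    rw [h, ← hz.2.1.eq, mul_left_inj, ← zpow_natCast, zpow_eq_zpow_iff_modEq, hm] at hn
    obtain ⟨k, hk⟩ := hn.dvd
    have h2 : (2 : ℤ) ∣ (m : ℤ) := ⟨n - m * k, by push_cast at hk; linarith⟩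
    have h3 : 2 ∣ m := by exact_mod_cast h2
    omega
  · intro h4
    obtain ⟨k, hk⟩ : 2 ∣ m := by omega
    refine ⟨(x * y) ^ (k : ℤ), Inv.zpowers_mul_le_closure_pair x y (Subgroup.zpow_mem_zpowers _ _), ?_⟩
    rw [← zpow_neg, mul_assoc, ← Inv.zpow_mul_of_inverts hinv, ← mul_assoc, ← zpow_add, ← hz.2.1.eq,
      ← zpow_natCast, hk]
    congr 2
    push_cast; ring

end Cfsg.Agent.S0211
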