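import Mathlib
import Cfsg.Statements.S0212
import Cfsg.Agent.Inv.BrauerFowler

set_option autoImplicit false
open Cfsg

namespace Cfsg.Agent.S0212

/-- The Brauer–Fowler bound: if G is a finite simple group and t an involution of G whose centralizer has order n, then |G| ≤ (2n^2)!. -/
theorem result {G : Type*} [Group G] [Finite G] [IsSimpleGroup G] (t : G) (ht : orderOf t = 2) : Nat.card G ≤ Nat.factorial (2 * (Nat.card (Subgroup.centralizer ({t} : Set G))) ^ 2) := by
  classical
  have := Fintype.ofFinite G
  set n := Nat.card (Subgroup.centralizer ({t} : Set G)) with hn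
  have hn2 : 2 ≤ n := by
    have := Subgroup.orderOf_dvd_natCard (Subgroup.centralizer ({t} : Set G))
      (Subgroup.mem_centralizer_singleton_iff.2 rfl)
    rw [ht] at this
    exact Nat.le_of_dvd Nat.card_pos this
  have hgn := Inv.card_le_invCount_mul ht
  rw [← hn] at hgn
  by_cases hZ : ∃ z : G, orderOf z = 2 ∧ z ∈ Subgroup.center G
  · -- a central involution generates a nontrivial normal subgroup
    obtain ⟨z, hz, hzc⟩ := hZ
    have hnorm : (Subgroup.zpowers z).Normal := by
      refine ⟨fun x hx g => ?_⟩
      have := Subgroup.mem_center_iff.1 (Subgroup.zpowers_le_of_mem hzc hx) g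
      rw [this]; simpa using hx
    rcases hnorm.eq_bot_or_eq_top with h | h
    · exact absurd (Subgroup.zpowers_eq_bot.1 h) (Inv.ne_one_of_two hz)
    · have : Nat.card G = 2 := by rw [← hz, ← Nat.card_zpowers, h, Subgroup.card_top]
      rw [this]
      exact le_trans (by nlinarith) (Nat.self_le_factorial _)
  · push Not at hZ
    obtain ⟨H, hH, h⟩ := Inv.brauerFowler_index (Inv.even_card_of_involution ht) hZ
    refine le_trans (Nat.le_of_dvd (Nat.factorial_pos _) (Inv.card_dvd_factorial_index hH))
      (Nat.factorial_le ?_)
    rcases h with h | h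
    · rw [h]; nlinarith
    · set g := Nat.card G
      set k := Inv.invCount G
      set j := H.index
      have hg : 0 < g := Nat.card_pos
      have hk : 0 < k := by
        rcases Nat.eq_zero_or_pos k with h0 | h0
        · rw [h0] at hgn; omega
        · exact h0
      have h1 : g * (g + k) ≤ (k * n) * (k * n + k) := Nat.mul_le_mul hgn (by omega)
      have h2 : 2 * j * k * k ≤ (k * n) * (k * n + k) := by nlinarith
      have h3 : (k * k) * (2 * j) ≤ (k * k) * (n * (n + 1)) := by nlinarith
      have h4 := Nat.le_of_mul_le_mul_left h3 (Nat.mul_pos hk hk)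
      nlinarith

end Cfsg.Agent.S0212
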