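import Mathlib
import Cfsg.Statements.S0216
import Cfsg.Agent.Inv.Isolated

set_option autoImplicit false
open Cfsg

namespace Cfsg.Agent.S0216

/-- For an involution u in a Sylow 2-subgroup P of a finite group G, the following are equivalent: no G-conjugate of u other than u lies in P; every commutator of u with an element of G has odd order. -/
theorem result {G : Type*} [Group G] [Finite G] (P : Sylow 2 G) (u : G) (hu : orderOf u = 2) (huP : u ∈ P) : (∀ g : G, g * u * g⁻¹ ∈ P → g * u * g⁻¹ = u) ↔ (∀ g : G, Odd (orderOf (u * g * u⁻¹ * g⁻¹))) := by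
  constructor
  · intro hiso g
    exact (IsIsolatedInvolution.of_sylow P hu huP hiso).odd_orderOf_commutator g
  · intro h g hg
    have h1 : u⁻¹ = u := inv_eq_of_mul_eq_one_right (Cfsg.Agent.Inv.iso_mul_self_of_orderOf hu)
    have hz : IsIsolatedInvolution u := IsIsolatedInvolution.of_odd hu (fun g => by
      have := h g
      rw [h1] at this
      convert this using 2
      group)
    exact hz.eq_of_mem_pGroup P.isPGroup' huP (isConj_iff.mpr ⟨g, rfl⟩) hg

end Cfsg.Agent.S0216
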