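import Mathlib
import Cfsg.Statements.S0220
import Cfsg.Agent.GT.TransferAbelian
-- import your own Cfsg.Agent.* helpers here

set_option autoImplicit false
open Cfsg

namespace Cfsg.Agent.S0220

open Cfsg.Agent.GT.Tr

/-- If x is an involution of a finite group G and a Sylow 2-subgroup of the centralizer of x is cyclic, then G has a subgroup of index 2; in particular G is not simple unless it has order 2. -/
theorem result {G : Type*} [Group G] [Finite G] (x : G) (hx : orderOf x = 2) (S : Sylow 2 ↥(Subgroup.centralizer ({x} : Set G))) (hS : IsCyclic (S : Subgroup ↥(Subgroup.centralizer ({x} : Set G)))) : ∃ H : Subgroup G, H.index = 2 := by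
  let C := Subgroup.centralizer ({x} : Set G)
  let S' := (S : Subgroup C).map C.subtype
  have hS' : IsPGroup 2 S' := S.2.map _
  have hc : IsCyclic S' :=
    isCyclic_of_surjective (hH := hS) _ (C.subtype.subgroupMap_surjective (S : Subgroup C))
  have hi := not_dvd_relIndex_map_sylow S
  have hxC : x ∈ C := Subgroup.mem_centralizer_singleton_iff.2 rfl
  have hx2 : x ^ 2 = 1 := hx ▸ pow_orderOf_eq_one x
  have hx1 : x ≠ 1 := by
    rintro rfl
    simp at hx
  have hxS : x ∈ S' := by
    have hz : IsPGroup 2 (Subgroup.zpowers x) :=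
      IsPGroup.of_card (n := 1) ((Nat.card_zpowers x).trans hx)
    obtain ⟨c, hc, h⟩ := exists_conj_le_sylowIn hS' hi hz (Subgroup.zpowers_le.2 hxC)
    have := h x (Subgroup.mem_zpowers x)
    rwa [Subgroup.mem_centralizer_singleton_iff.1 hc, mul_inv_cancel_right] at this
  have h1 : ¬ 2 ∣ S'.index := not_dvd_index_of_normalizer_le hS' hi fun g hg _ => by
    have h2 := eq_of_sq_eq_one_of_isCyclic (⟨_, conj_mem_of_mem_normalizer hg hxS⟩ : S') ⟨x, hxS⟩
      (Subtype.ext (by simp [conj_pow, hx2])) (Subtype.ext hx2)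
      (fun h => hx1 (by simpa using congrArg Subtype.val h)) fun h => hx1 (congrArg Subtype.val h)
    exact Subgroup.mem_centralizer_singleton_iff.2
      (mul_inv_eq_iff_eq_mul.1 (congrArg Subtype.val h2))
  obtain ⟨N, -, hN⟩ := (hasNormalPComplement_two_of_isCyclic (hS'.toSylow h1) hc).exists_index_eq
    (hx ▸ orderOf_dvd_natCard x)
  exact ⟨N, hN⟩

end Cfsg.Agent.S0220
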