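import Mathlib
import Cfsg.Agent.GT.PGroupCyclicNormal
import Cfsg.Agent.GT.TransferCocycle
import Cfsg.Agent.GT.Conj
import Cfsg.Agent.Inv.Basic
import Cfsg.Agent.Inv.SylowElt
import Cfsg.Agent.GT.Cores
import Cfsg.Statements.S0221
-- import your own Cfsg.Agent.* helpers here

set_option autoImplicit false
open Cfsg

namespace Cfsg.Agent.S0221

open Subgroup Cfsg.Agent.GT

theorem elem_of_sq {G : Type*} [Group G] {E : Subgroup G} (h : ∀ e ∈ E, e ^ 2 = 1) :
    IsElementaryAbelian 2 E := by
  refine ⟨PG.isMulCommutative_iff_forall.mpr fun a ha b hb => ?_, h⟩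
  have h1 := h a ha
  have h2 := h b hb
  have h3 := h _ (mul_mem ha hb)
  rw [pow_two] at h1 h2 h3
  calc a * b = a * (a * b * (a * b)) * b * (b * b)⁻¹ * (a * b)⁻¹ * (a * b) := by
        rw [h3, h2]; group
    _ = (a * a) * (b * a) * (b * b) * (b * b)⁻¹ := by group
    _ = b * a := by rw [h1, h2]; group

/-- In a 2-group of rank at least 3 with normal four-group `U`, every involution of `C(U)` is
centralized by an elementary abelian subgroup of order 8. -/
theorem aux {P : Type*} [Group P] [Finite P] {U E : Subgroup P} [U.Normal]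
    (hU : IsElementaryAbelian 2 U) (hU4 : Nat.card U = 2 ^ 2)
    (hi : (centralizer (U : Set P)).index ≤ 2) (hE : IsElementaryAbelian 2 E)
    (hE8 : Nat.card E = 8) {x : P} (hx : x ^ 2 = 1) (hxU : x ∈ centralizer (U : Set P)) :
    ∃ F : Subgroup P, F ≤ centralizer ({x} : Set P) ∧ Nat.card F = 8 ∧ ∀ e ∈ F, e ^ 2 = 1 := by
  have key : ∀ y ∈ centralizer (U : Set P), y ^ 2 = 1 → y ∉ U → Commute x y →
      ∃ F : Subgroup P, F ≤ centralizer ({x} : Set P) ∧ Nat.card F = 8 ∧ ∀ e ∈ F, e ^ 2 = 1 := by
    intro y hy hy2 hyU hc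
    refine ⟨U ⊔ zpowers y, sup_le (le_centralizer_singleton_iff.mpr hxU)
      (zpowers_le.mpr (mem_centralizer_singleton_iff.mpr hc.eq.symm)), ?_, ?_⟩
    · rw [PG.card_sup_zpowers Nat.prime_two (centralizer_le_normalizer _ hy) hyU
        (hy2 ▸ one_mem U), hU4]
      rfl
    · exact (hU.sup_zpowers hy2 hy).2
  by_cases hxU' : x ∈ U
  · by_cases hle : E ⊓ centralizer (U : Set P) ≤ U
    · exfalso
      have h1 := PG.relIndex_mul_card_inf (centralizer (U : Set P)) E
      have h2 : (centralizer (U : Set P)).relIndex E ≤ 2 :=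
        (relIndex_le_of_le_right le_top (by rw [relIndex_top_right]; exact index_ne_zero_of_finite)).trans
          (by rw [relIndex_top_right]; exact hi)
      rw [inf_comm] at h1
      have h3 : E ⊓ centralizer (U : Set P) = U :=
        PG.eq_of_le_of_card_le hle (by rw [hU4]; nlinarith)
      have h4 : E ≤ centralizer (U : Set P) :=
        (PG.isMulCommutative_iff_le_centralizer.mp hE.1).trans
          (centralizer_anti (h3.ge.trans inf_le_left))
      rw [inf_eq_left.mpr h4] at h3
      rw [h3, hU4] at hE8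
      omega
    · obtain ⟨y, hy, hyU⟩ := SetLike.not_le_iff_exists.mp hle
      exact key y hy.2 (hE.2 y hy.1) hyU (mem_centralizer_iff.mp hy.2 x hxU')
  · exact key x hxU hx hxU' (Commute.refl x)

/-- Let G be a finite group with no subgroup of index 2 whose 2-rank is at least 3 (it contains an elementary abelian subgroup of order 8). Then the centralizer of every involution of G also contains an elementary abelian subgroup of order 8. -/
theorem result {G : Type*} [Group G] [Finite G] (hno : ∀ H : Subgroup G, H.index ≠ 2) (hrank : ∃ E : Subgroup G, Nat.card E = 8 ∧ ∀ e ∈ E, e ^ 2 = 1) (x : G) (hx : orderOf x = 2) : ∃ E : Subgroup G, E ≤ Subgroup.centralizer ({x} : Set G) ∧ Nat.card E = 8 ∧ ∀ e ∈ E, e ^ 2 = 1 := by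
  obtain ⟨E, hE8, hE⟩ := hrank
  have hEe := elem_of_sq hE
  obtain ⟨S, hES⟩ := (IsPGroup.of_card (p := 2) (n := 3) hE8).exists_le_sylow
  have hE' : IsElementaryAbelian 2 (E.subgroupOf S) := elem_of_sq fun e he => Subtype.ext (hE e he)
  have hE8' : Nat.card (E.subgroupOf S) = 8 := by
    rw [← hE8]; exact Nat.card_congr (subgroupOfEquivOfLe hES).toEquiv
  have hr : ¬ PRankLE 2 2 (S : Subgroup G) := fun h => by
    have := h.card_le hE'
    omega
  obtain ⟨U, hUn, hU, hU4⟩ : ∃ U : Subgroup (S : Subgroup G), U.Normal ∧ IsElementaryAbelian 2 U ∧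
      Nat.card U = 2 ^ 2 := by
    by_contra hcon
    push Not at hcon
    rcases PG.isCyclic_or_maxTwo_of_no_normal_elementary_sq S.2 hcon with h | ⟨-, m, a, b, h⟩
    · exact hr (PG.pRankLE_one_of_isCyclic.mono two_pos (by norm_num))
    · exact hr h.pRankLE_two
  have hi : (centralizer (U : Set (S : Subgroup G))).index ≤ 2 := by
    have h1 : (centralizer (U : Set (S : Subgroup G))).index ∣ Nat.card (MulAut U) := by
      have hk : (MulAut.conjNormal (H := U)).ker = centralizer (U : Set (S : Subgroup G)) := by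
        ext g
        rw [MonoidHom.mem_ker, mem_centralizer_iff, MulEquiv.ext_iff]
        refine ⟨fun h u hu => ?_, fun h u => Subtype.ext ?_⟩
        · exact (mul_inv_eq_iff_eq_mul.mp (congrArg Subtype.val (h ⟨u, hu⟩) :)).symm
        · exact mul_inv_eq_iff_eq_mul.mpr (h u u.2).symm
      rw [← hk, index_ker]
      exact card_subgroup_dvd_card _
    rw [PG.card_mulAut_of_elementary_sq hU.1 (fun x => Subtype.ext (hU.2 x x.2)) hU4] at h1
    obtain ⟨k, hk⟩ := S.2.index (centralizer (U : Set (S : Subgroup G)))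
    rw [hk] at h1 ⊢
    have h2 : 2 ^ k ∣ 2 := (Nat.Coprime.pow_left k (by norm_num : Nat.Coprime 2 3)).dvd_of_dvd_mul_left
      (by simpa using h1)
    exact Nat.le_of_dvd two_pos h2
  obtain ⟨g, hg⟩ : ∃ g : G, g * x * g⁻¹ ∈
      (centralizer (U : Set (S : Subgroup G))).map (S : Subgroup G).subtype := by
    by_cases h2 : (centralizer (U : Set (S : Subgroup G))).index = 2
    · rcases Tr.thompson_transfer_index_two S.not_dvd_index
        (Q := (centralizer (U : Set (S : Subgroup G))).map (S : Subgroup G).subtype)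
        (by rw [relIndex, subgroupOf_map_subtype_self, h2]) (Inv.sq_of_two hx) with ⟨M, -, hM, -⟩ | h
      · exact absurd hM (hno M)
      · exact h
    · have h0 : (centralizer (U : Set (S : Subgroup G))).index ≠ 0 := index_ne_zero_of_finite
      have h1 : centralizer (U : Set (S : Subgroup G)) = ⊤ := index_eq_one.mp (by omega)
      obtain ⟨g, hg⟩ := Inv.exists_conj_mem_sylow_two hx S
      exact ⟨g, ⟨_, hg⟩, h1 ▸ mem_top _, rfl⟩
  obtain ⟨y, hy, hyx⟩ := hg
  have hy2 : y ^ 2 = 1 := Subtype.ext (by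
    rw [coe_subtype] at hyx
    rw [SubgroupClass.coe_pow, hyx, conj_pow, Inv.sq_of_two hx]
    simp)
  obtain ⟨F, hF, hF8, hF2⟩ := aux hU hU4 hi hE' hE8' hy2 hy
  refine ⟨(F.map (S : Subgroup G).subtype).map (MulAut.conj g⁻¹).toMonoidHom, ?_, ?_, ?_⟩
  · rw [map_conj_le_iff, inv_inv, ← centralizer_singleton_conj, ← hyx]
    rintro _ ⟨f, hf, rfl⟩
    exact mem_centralizer_singleton_iff.mpr
      (congrArg Subtype.val (mem_centralizer_singleton_iff.mp (hF hf)))
  · rw [card_map_conj, card_map_of_injective (subtype_injective _), hF8]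
  · rintro _ ⟨_, ⟨f, hf, rfl⟩, rfl⟩
    rw [← map_pow, ← map_pow, hF2 f hf, map_one, map_one]

end Cfsg.Agent.S0221
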