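import Mathlib
import Cfsg.Statements.S0226
import Cfsg.Agent.Inv.Counting

set_option autoImplicit false
open Cfsg

namespace Cfsg.Agent.S0226

/-- A finite group of even order has an odd number of involutions. -/
theorem result {G : Type*} [Group G] [Finite G] (heven : Even (Nat.card G)) : Odd (Nat.card {t : G // orderOf t = 2}) := by
  classical
  have := Fintype.ofFinite G
  have h1 := Equiv.Perm.card_fixedPoints_modEq (f := ((fun x : G => x⁻¹) : Function.End G)) (p := 2) (n := 1)
    (by funext x; exact inv_inv x)
  have h2 := Inv.card_subtype_ne (fun x : G => x * x = 1) (a := 1) (by simp)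
  have h3 : Nat.card {t : G // orderOf t = 2} = Nat.card {x : G // x * x = 1 ∧ x ≠ 1} :=
    Nat.card_congr (Equiv.subtypeEquivRight fun t => Inv.orderOf_two_iff)
  have h4 : Fintype.card (Function.fixedPoints ((fun x : G => x⁻¹) : Function.End G)) = Nat.card {x : G // x * x = 1} := by
    rw [← Nat.card_eq_fintype_card]
    refine Nat.card_congr (Equiv.subtypeEquivRight fun t => ?_)
    change t⁻¹ = t ↔ _
    rw [mul_eq_one_iff_eq_inv, eq_comm]
  rw [h4, ← Nat.card_eq_fintype_card, ← h2, ← h3] at h1
  obtain ⟨k, hk⟩ := heven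
  rw [Nat.odd_iff]
  unfold Nat.ModEq at h1
  omega

end Cfsg.Agent.S0226
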