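import Mathlib
import Cfsg.Statements.S0230
import Cfsg.Agent.Inv.Counting

set_option autoImplicit false
open Cfsg

namespace Cfsg.Agent.S0230

/-- Let G be a finite group with two non-conjugate involutions, and let t be an involution whose centralizer has maximal order among centralizers of involutions. Then |G| < |C_G(t)|^3. -/
theorem result {G : Type*} [Group G] [Finite G] (s t : G) (hs : orderOf s = 2) (ht : orderOf t = 2) (hnc : ¬ IsConj s t) (hmax : ∀ u : G, orderOf u = 2 → Nat.card (Subgroup.centralizer ({u} : Set G)) ≤ Nat.card (Subgroup.centralizer ({t} : Set G))) : Nat.card G < Nat.card (Subgroup.centralizer ({t} : Set G)) ^ 3 := by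
  classical
  have := Fintype.ofFinite G
  set m := Nat.card (Subgroup.centralizer ({t} : Set G)) with hm
  have h1 := Inv.card_involutions_commute_add_one_le t
  -- each conjugate of `s` commutes with an involution of `C(t)`
  have key : ∀ y : {y : G // IsConj s y}, ∃ z : {z : G // orderOf z = 2 ∧ Commute z t}, Commute (z : G) y := by
    rintro ⟨y, hy⟩
    obtain ⟨z, -, hz, h1, h2⟩ := Inv.exists_central_involution_of_not_isConj
      (Inv.mul_self_of_two ((Inv.orderOf_eq_of_isConj hy).symm.trans hs)) (Inv.mul_self_of_two ht)
      (fun h => hnc (hy.trans h))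
    exact ⟨⟨z, hz, h2⟩, h1⟩
  choose f hf using key
  have h2 : Nat.card {y : G // IsConj s y} ≤ Nat.card {z : G // orderOf z = 2 ∧ Commute z t} * m := by
    rw [Inv.card_eq_sum_card_fiber f, Nat.card_eq_fintype_card (α := {z : G // orderOf z = 2 ∧ Commute z t}),
      ← Finset.card_univ, ← smul_eq_mul]
    refine Finset.sum_le_card_nsmul _ _ _ fun z _ => le_trans ?_ (hmax z z.2.1)
    refine Nat.card_le_card_of_injective
      (fun a => (⟨a.1.1, Subgroup.mem_centralizer_singleton_iff.2 (by have := (hf a.1).symm.eq; rwa [a.2] at this)⟩ :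
        Subgroup.centralizer ({(z : G)} : Set G))) ?_
    intro a b e
    exact Subtype.ext (Subtype.ext (by simpa using e))
  have h3 := Inv.card_class_mul_card_centralizer s
  have h4 := hmax s hs
  have h5 : 0 < m := Nat.card_pos
  rw [← hm] at h1
  calc Nat.card G = _ := h3.symm
    _ ≤ (Nat.card {z : G // orderOf z = 2 ∧ Commute z t} * m) * m := Nat.mul_le_mul h2 h4
    _ < m * m * m := by
      have : Nat.card {z : G // orderOf z = 2 ∧ Commute z t} < m := h1
      exact Nat.mul_lt_mul_of_pos_right (Nat.mul_lt_mul_of_pos_right this h5) h5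
    _ = m ^ 3 := by ring

end Cfsg.Agent.S0230
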