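import Mathlib
import Cfsg.Statements.S0231
import Cfsg.Agent.Inv.SylowElt
import Cfsg.Agent.Inv.SE

set_option autoImplicit false
open scoped Pointwise
open Cfsg

namespace Cfsg.Agent.S0231

/-- Let T be a Sylow 2-subgroup of the finite group G which is not normal and which intersects every other Sylow 2-subgroup trivially. Then G has a single conjugacy class of involutions. -/
theorem result {G : Type*} [Group G] [Finite G] (T : Sylow 2 G) (hnn : ¬ (T : Subgroup G).Normal) (hTI : ∀ g : G, MulAut.conj g • (T : Subgroup G) ≠ T → MulAut.conj g • (T : Subgroup G) ⊓ T = ⊥) (s t : G) (hs : orderOf s = 2) (ht : orderOf t = 2) : IsConj s t := by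
  have hSE : IsStronglyEmbedded (Subgroup.normalizer ((T : Subgroup G) : Set G)) := by
    rw [Inv.isStronglyEmbedded_iff]
    refine ⟨fun e => hnn (Subgroup.normalizer_eq_top_iff.1 e), ?_, ?_⟩
    · obtain ⟨g, hg⟩ := Inv.exists_conj_mem_sylow_two hs T
      exact Inv.even_card_of_involution_mem (Subgroup.le_normalizer hg) (by rw [Inv.orderOf_conj', hs])
    · intro u hu hu2 g hg
      have h1 := Inv.mem_sylow_of_mem_normalizer (k := 1) T (by rw [hu2, pow_one]) hu
      have hu3 : orderOf (g * u * g⁻¹) = 2 := by rw [Inv.orderOf_conj', hu2]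
      have h2 := Inv.mem_sylow_of_mem_normalizer (k := 1) T (by rw [hu3, pow_one]) hg
      by_contra hn
      have h3 := hTI g (fun e => hn (Sylow.smul_eq_iff_mem_normalizer.1 (Sylow.ext e)))
      have h4 : g * u * g⁻¹ ∈ MulAut.conj g • (T : Subgroup G) ⊓ T :=
        ⟨Subgroup.smul_mem_pointwise_smul u (MulAut.conj g) _ h1, h2⟩
      rw [h3] at h4
      exact Inv.ne_one_of_two hu3 h4
  exact hSE.isConj_of_involutions hs ht

end Cfsg.Agent.S0231
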