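import Mathlib
import Cfsg.Statements.S0232
import Cfsg.Agent.Inv.BrauerFowler

set_option autoImplicit false
open Cfsg

namespace Cfsg.Agent.S0232

universe u

theorem of_index_two {G : Type u} [Group G] [Finite G] (hgt : 2 < Nat.card G) (H : Subgroup G)
    (hH : H.index = 2) : ∃ H : Subgroup G, H ≠ ⊤ ∧ Nat.card G < (Nat.card H) ^ 3 := by
  refine ⟨H, by rintro rfl; simp at hH, ?_⟩
  have := H.card_mul_index
  rw [hH] at this
  have h2 : 2 ≤ Nat.card H := by omega
  rw [← this]
  nlinarith [Nat.mul_le_mul h2 h2]

theorem aux (n : ℕ) : ∀ (G : Type u) [Group G] [Finite G], Nat.card G = n → Even (Nat.card G) →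
    2 < Nat.card G → ∃ H : Subgroup G, H ≠ ⊤ ∧ Nat.card G < (Nat.card H) ^ 3 := by
  induction n using Nat.strong_induction_on with
  | _ n ih =>
  intro G _ _ hn heven hgt
  by_cases hZ : ∃ z : G, orderOf z = 2 ∧ z ∈ Subgroup.center G
  · obtain ⟨z, hz, hzc⟩ := hZ
    have hnorm : (Subgroup.zpowers z).Normal := by
      refine ⟨fun x hx g => ?_⟩
      have := Subgroup.mem_center_iff.1 (Subgroup.zpowers_le_of_mem hzc hx) g
      rw [this]; simpa using hx
    have hc : Nat.card (Subgroup.zpowers z) = 2 := by rw [Nat.card_zpowers, hz]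
    have hq := Subgroup.card_eq_card_quotient_mul_card_subgroup (Subgroup.zpowers z)
    rw [hc] at hq
    rcases Nat.even_or_odd (Nat.card (G ⧸ Subgroup.zpowers z)) with he | ho
    · by_cases h2 : Nat.card (G ⧸ Subgroup.zpowers z) = 2
      · exact of_index_two hgt _ h2
      · have h3 : 2 < Nat.card (G ⧸ Subgroup.zpowers z) := by
          obtain ⟨k, hk⟩ := he
          omega
        obtain ⟨K, hK, hlt⟩ := ih _ (by omega) (G ⧸ Subgroup.zpowers z) rfl he h3
        refine ⟨K.comap (QuotientGroup.mk' _), ?_, ?_⟩
        · intro e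
          apply hK
          rw [← Subgroup.map_comap_eq_self_of_surjective (QuotientGroup.mk'_surjective _) K, e]
          exact Subgroup.map_top_of_surjective _ (QuotientGroup.mk'_surjective _)
        · have h4 := (K.comap (QuotientGroup.mk' (Subgroup.zpowers z))).card_mul_index
          rw [Subgroup.index_comap_of_surjective _ (QuotientGroup.mk'_surjective _)] at h4
          have h5 := K.card_mul_index
          have h6 : 0 < K.index := Nat.pos_of_ne_zero Subgroup.index_ne_zero_of_finite
          have h7 : Nat.card (K.comap (QuotientGroup.mk' (Subgroup.zpowers z))) = 2 * Nat.card K := by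
            apply Nat.eq_of_mul_eq_mul_right h6
            rw [h4, hq, ← h5]; ring
          rw [h7, hq, mul_pow]
          omega
    · obtain ⟨K, hK⟩ := Subgroup.exists_right_complement'_of_coprime (N := Subgroup.zpowers z)
        (by rw [hc]; exact (Nat.coprime_two_left.2 ho))
      exact of_index_two hgt K (by rw [hK.index_eq_card, hc])
  · push Not at hZ
    obtain ⟨H, hH, h⟩ := Inv.brauerFowler_index heven hZ
    rcases h with h | h
    · exact of_index_two hgt H h
    obtain ⟨t, ht⟩ := Inv.exists_involution_of_even heven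
    have hK : Subgroup.centralizer ({t} : Set G) ≠ ⊤ := by
      intro e
      apply hZ t ht
      rw [Subgroup.mem_center_iff]
      intro y
      exact Subgroup.mem_centralizer_singleton_iff.1 (e ▸ Subgroup.mem_top y)
    obtain ⟨M, hM, hmax⟩ := Set.exists_max_image {H : Subgroup G | H ≠ ⊤} (fun H => Nat.card H)
      (Set.toFinite _) ⟨H, hH⟩
    refine ⟨M, hM, ?_⟩
    have h1 := (Inv.card_le_invCount_mul ht).trans (Nat.mul_le_mul_left _ (hmax _ hK))
    have h2 := H.card_mul_index
    have h3 := hmax H hH
    set g := Nat.card G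
    set k := Inv.invCount G
    set j := H.index
    set m := Nat.card M
    have hk : 0 < k := by
      rcases Nat.eq_zero_or_pos k with h0 | h0
      · rw [h0] at h1; omega
      · exact h0
    have hm : 0 < m := Nat.card_pos
    have h4 : g * (g + k) ≤ (k * m) * (k * m + k) := Nat.mul_le_mul h1 (by omega)
    have h5 : (k * k) * (2 * j) < (k * k) * (m * (m + 1)) := by nlinarith [Nat.zero_le (j * k)]
    have h6 := lt_of_mul_lt_mul_left h5 (Nat.zero_le _)
    have h7 : j < m * m := by nlinarith
    calc g = Nat.card H * j := h2.symm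
      _ ≤ m * j := Nat.mul_le_mul_right _ h3
      _ < m * (m * m) := Nat.mul_lt_mul_of_pos_left h7 hm
      _ = m ^ 3 := by ring

/-- A finite group G of even order greater than 2 has a proper subgroup H with |G| < |H|^3. -/
theorem result {G : Type*} [Group G] [Finite G] (heven : Even (Nat.card G)) (hgt : 2 < Nat.card G) : ∃ H : Subgroup G, H ≠ ⊤ ∧ Nat.card G < (Nat.card H) ^ 3 := by
  exact aux _ G rfl heven hgt

end Cfsg.Agent.S0232
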