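import Mathlib
import Cfsg.Statements.S0234
import Cfsg.Agent.Inv.BrauerFowler

set_option autoImplicit false
open Cfsg

namespace Cfsg.Agent.S0234

theorem card_inv_A5 : Nat.card {t : alternatingGroup (Fin 5) // orderOf t = 2} = 15 := by
  have h : Nat.card {t : alternatingGroup (Fin 5) // orderOf t = 2} =
      Nat.card {t : Equiv.Perm (Fin 5) // Equiv.Perm.sign t = 1 ∧ t * t = 1 ∧ t ≠ 1} :=
    Nat.card_congr
      { toFun := fun t => ⟨t.1.1, t.1.2, congrArg Subtype.val (Inv.mul_self_of_two t.2),
          fun e => Inv.ne_one_of_two t.2 (Subtype.ext e)⟩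
        invFun := fun t => ⟨⟨t.1, t.2.1⟩, Inv.orderOf_two_of (Subtype.ext t.2.2.1)
          fun e => t.2.2.2 (congrArg Subtype.val e)⟩
        left_inv := fun _ => rfl
        right_inv := fun _ => rfl }
  rw [h, Nat.card_eq_fintype_card]
  decide +kernel

theorem no_small_index {G : Type*} [Group G] [Finite G] [IsSimpleGroup G] (p k j : ℕ) [Fact p.Prime]
    (hd : p ^ k ∣ Nat.card G) (hj : Nat.card G = p ^ k * j) (hj1 : j ≠ 1) : Nat.card G ∣ j.factorial := by
  obtain ⟨K, hK⟩ := Sylow.exists_subgroup_card_pow_prime p hd
  have hi : K.index = j := by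
    have := K.card_mul_index
    rw [hK, hj] at this
    exact Nat.eq_of_mul_eq_mul_left (pow_pos (Nat.Prime.pos Fact.out) k) this
  rw [← hi]
  apply Inv.card_dvd_factorial_index
  rintro rfl
  simp at hi
  exact hj1 hi.symm

/-- In a finite simple group G of even order greater than 2, the number n of involutions satisfies 3n < |G|. -/
theorem result {G : Type*} [Group G] [Finite G] [IsSimpleGroup G] (heven : Even (Nat.card G)) (hgt : 2 < Nat.card G) : 3 * Nat.card {t : G // orderOf t = 2} < Nat.card G := by
  classical
  have := Fintype.ofFinite G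
  by_contra hcon
  push Not at hcon
  change Nat.card G ≤ 3 * Inv.invCount G at hcon
  have h2 : ∀ K : Subgroup G, K.index ≠ 2 := by
    intro K hK
    have := Inv.card_dvd_factorial_index (H := K) (by rintro rfl; simp at hK)
    rw [hK] at this
    have : Nat.card G ≤ 2 := Nat.le_of_dvd (by norm_num) this
    omega
  have hZ : ∀ z : G, orderOf z = 2 → z ∉ Subgroup.center G := by
    intro z hz hzc
    have hnorm : (Subgroup.zpowers z).Normal := by
      refine ⟨fun x hx g => ?_⟩
      have := Subgroup.mem_center_iff.1 (Subgroup.zpowers_le_of_mem hzc hx) g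
      rw [this]; simpa using hx
    rcases hnorm.eq_bot_or_eq_top with h | h
    · exact absurd (Subgroup.zpowers_eq_bot.1 h) (Inv.ne_one_of_two hz)
    · have : Nat.card G = 2 := by rw [← hz, ← Nat.card_zpowers, h, Subgroup.card_top]
      omega
  obtain ⟨H, hH, h⟩ := Inv.brauerFowler_index heven hZ
  have h := h.resolve_left (h2 H)
  have hj : H.index ≤ 5 := by
    by_contra hj
    push Not at hj
    set g := Nat.card G
    set k := Inv.invCount G
    have h1 : g * (g + k) ≤ (3 * k) * (3 * k + k) := Nat.mul_le_mul hcon (by omega)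
    have h3 : 2 * 6 * k * (k + 1) ≤ 2 * H.index * k * (k + 1) := by gcongr; omega
    nlinarith
  -- embed `G` into the alternating group of degree five
  have hk : H.normalCore = ⊥ := by
    rcases H.normalCore_normal.eq_bot_or_eq_top with h | h
    · exact h
    · exact absurd (top_le_iff.1 (h ▸ H.normalCore_le)) hH
  have hinj : Function.Injective (MulAction.toPermHom G (G ⧸ H)) := by
    rw [← MonoidHom.ker_eq_bot_iff, ← Subgroup.normalCore_eq_ker, hk]
  obtain ⟨ι⟩ : Nonempty ((G ⧸ H) ↪ Fin 5) := by
    apply Function.Embedding.nonempty_of_card_le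
    rw [← Nat.card_eq_fintype_card, Fintype.card_fin]
    exact hj
  let f : G →* Equiv.Perm (Fin 5) := (Equiv.Perm.viaEmbeddingHom ι).comp (MulAction.toPermHom G (G ⧸ H))
  have hf : Function.Injective f := (Equiv.Perm.viaEmbeddingHom_injective ι).comp hinj
  have hsign : ∀ g : G, f g ∈ alternatingGroup (Fin 5) := by
    rcases (Subgroup.normal_comap (H := alternatingGroup (Fin 5)) f).eq_bot_or_eq_top with h | h
    · exfalso
      have h1 := Subgroup.relIndex_dvd_index_of_normal (alternatingGroup (Fin 5)) f.range
      rw [← Subgroup.index_comap, h, Subgroup.index_bot, alternatingGroup.index_eq_two] at h1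
      have := Nat.le_of_dvd (by norm_num) h1
      omega
    · intro g
      have : g ∈ (alternatingGroup (Fin 5)).comap f := h ▸ Subgroup.mem_top g
      exact this
  let f' : G →* alternatingGroup (Fin 5) := f.codRestrict _ hsign
  have hf' : Function.Injective f' := fun a b e => hf (congrArg Subtype.val e)
  have hn : Inv.invCount G ≤ 15 := by
    rw [← card_inv_A5]
    exact Nat.card_le_card_of_injective
      (fun t => (⟨f' t.1, by rw [orderOf_injective f' hf', t.2]⟩ : {t : alternatingGroup (Fin 5) // orderOf t = 2}))
      (fun a b e => Subtype.ext (hf' (Subtype.ext_iff.1 e)))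
  have h60 : Nat.card (alternatingGroup (Fin 5)) = 60 := by
    have := two_mul_nat_card_alternatingGroup (α := Fin 5)
    rw [Nat.card_perm, Nat.card_eq_fintype_card (α := Fin 5), Fintype.card_fin] at this
    have h5 : Nat.factorial 5 = 120 := rfl
    omega
  have hdvd : Nat.card G ∣ 60 := h60 ▸ Subgroup.card_dvd_of_injective f' hf'
  have hle : Nat.card G ≤ 45 := by omega
  have : Fact (Nat.Prime 5) := ⟨by norm_num⟩
  have h30 : Nat.card G ≠ 30 := by
    intro h30
    have hi : f'.range.index = 2 := by
      have := f'.range.card_mul_index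
      rw [← Nat.card_congr (MonoidHom.ofInjective hf').toEquiv, h30, h60] at this
      omega
    have := Inv.card_dvd_factorial_index (H := f'.range) (by intro e; rw [e] at hi; simp at hi)
    rw [hi, h60] at this
    simp [Nat.factorial] at this
  have h4 := fun h => no_small_index (G := G) 2 1 2 (by rw [h]; norm_num) h (by norm_num)
  have h6 := fun h => no_small_index (G := G) 3 1 2 (by rw [h]; norm_num) h (by norm_num)
  have h10 := fun h => no_small_index (G := G) 5 1 2 (by rw [h]; norm_num) h (by norm_num)
  have h12 := fun h => no_small_index (G := G) 2 2 3 (by rw [h]; norm_num) h (by norm_num)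
  have h20 := fun h => no_small_index (G := G) 5 1 4 (by rw [h]; norm_num) h (by norm_num)
  clear h hcon hn
  generalize Nat.card G = g at *
  interval_cases g <;> revert h4 h6 h10 h12 h20 h30 hdvd heven <;> decide

end Cfsg.Agent.S0234
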