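import Mathlib
import Cfsg.Statements.S0239
import Cfsg.Agent.Inv.Counting

set_option autoImplicit false
open Cfsg

namespace Cfsg.Agent.S0239

/-- If some nontrivial element x of a finite group G is conjugate to x⁻¹, then |G| is even. -/
theorem result {G : Type*} [Group G] [Finite G] (x : G) (hx : x ≠ 1) (hreal : IsConj x x⁻¹) : Even (Nat.card G) := by
  obtain ⟨t, ⟨j, hj⟩, ht⟩ := Inv.exists_two_element_inverts hreal
  rcases j with _ | j
  · have h1 : t = 1 := orderOf_eq_one_iff.1 (by simpa using hj)
    rw [h1, one_mul, inv_one, mul_one] at ht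
    exact Inv.even_card_of_involution (Inv.orderOf_two_of (mul_eq_one_iff_eq_inv.2 ht) hx)
  · have := orderOf_dvd_natCard t
    rw [hj, pow_succ] at this
    exact even_iff_two_dvd.2 (Dvd.dvd.trans (Dvd.intro_left _ rfl) this)

end Cfsg.Agent.S0239
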