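import Mathlib
import Cfsg.Statements.S0240
import Cfsg.Agent.Inv.Counting

set_option autoImplicit false
open Cfsg

namespace Cfsg.Agent.S0240

/-- Let G be a finite group with n involutions and H a subgroup with |H|·(n+1) > |G|. Then some nontrivial h ∈ H is strongly real in G: an involution t of G satisfies t h t⁻¹ = h⁻¹. -/
theorem result {G : Type*} [Group G] [Finite G] (H : Subgroup G) (hH : Nat.card G < Nat.card H * (Nat.card {t : G // orderOf t = 2} + 1)) : ∃ h : G, h ∈ H ∧ h ≠ 1 ∧ ∃ t : G, orderOf t = 2 ∧ t * h * t⁻¹ = h⁻¹ := by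
  classical
  have hlt : Nat.card (G ⧸ H) < Nat.card (Option {t : G // orderOf t = 2}) := by
    rw [Finite.card_option]
    have := Subgroup.card_eq_card_quotient_mul_card_subgroup H
    rw [this, mul_comm] at hH
    exact lt_of_mul_lt_mul_left hH (Nat.zero_le _)
  have := Fintype.ofFinite (G ⧸ H)
  have := Fintype.ofFinite (Option {t : G // orderOf t = 2})
  rw [Nat.card_eq_fintype_card, Nat.card_eq_fintype_card] at hlt
  obtain ⟨a, b, hab, e⟩ := Fintype.exists_ne_map_eq_of_card_lt
    (fun o : Option {t : G // orderOf t = 2} =>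
      (QuotientGroup.mk (o.elim 1 Subtype.val) : G ⧸ H)) hlt
  rw [QuotientGroup.eq] at e
  rcases a with _ | ⟨a, ha⟩ <;> rcases b with _ | ⟨b, hb⟩
  · exact absurd rfl hab
  · exact ⟨b, by simpa using e, Inv.ne_one_of_two hb, b, hb, by rw [Inv.inv_of_two hb]; simp [Inv.mul_self_of_two hb]⟩
  · exact ⟨a, by simpa using e, Inv.ne_one_of_two ha, a, ha, by rw [Inv.inv_of_two ha]; simp [Inv.mul_self_of_two ha]⟩
  · simp only [Option.elim_some, Inv.inv_of_two ha] at e
    refine ⟨a * b, e, ?_, a, ha, Inv.left_inverts_mul (Inv.mul_self_of_two ha) (Inv.mul_self_of_two hb)⟩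
    intro h
    apply hab
    have := eq_inv_of_mul_eq_one_left h
    rw [Inv.inv_of_two hb] at this
    simp [this]

end Cfsg.Agent.S0240
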