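import Mathlib
import Cfsg.Statements.S0241
import Cfsg.Agent.Inv.Counting

set_option autoImplicit false
open Cfsg

namespace Cfsg.Agent.S0241

/-- If x ≠ 1 is conjugate to x⁻¹ in a finite group G and |C_G(x)| is odd, then some involution t satisfies t x t⁻¹ = x⁻¹. -/
theorem result {G : Type*} [Group G] [Finite G] (x : G) (hx : x ≠ 1) (hreal : IsConj x x⁻¹) (hodd : Odd (Nat.card (Subgroup.centralizer ({x} : Set G)))) : ∃ t : G, orderOf t = 2 ∧ t * x * t⁻¹ = x⁻¹ := by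
  obtain ⟨t, ⟨j, hj⟩, ht⟩ := Inv.exists_two_element_inverts hreal
  have hx2 : x * x ≠ 1 := fun h =>
    Inv.odd_card_iff_no_involution.1 hodd x (Subgroup.mem_centralizer_singleton_iff.2 rfl)
      (Inv.orderOf_two_of h hx)
  have ht1 : t ≠ 1 := by
    rintro rfl
    rw [one_mul, inv_one, mul_one] at ht
    exact hx2 (mul_eq_one_iff_eq_inv.2 ht)
  refine ⟨t, Inv.orderOf_two_of ?_ ht1, ht⟩
  have hc : t * t ∈ Subgroup.centralizer ({x} : Set G) := by
    rw [Subgroup.mem_centralizer_singleton_iff, ← mul_inv_eq_iff_eq_mul]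
    calc t * t * x * (t * t)⁻¹ = t * (t * x * t⁻¹) * t⁻¹ := by group
      _ = t * x⁻¹ * t⁻¹ := by rw [ht]
      _ = (t * x * t⁻¹)⁻¹ := by group
      _ = x := by rw [ht, inv_inv]
  have h1 : orderOf (t * t) ∣ 2 ^ j := by
    rw [← pow_two, ← hj]; exact orderOf_pow_dvd 2
  have h2 : Odd (orderOf (t * t)) := hodd.of_dvd_nat (Subgroup.orderOf_dvd_natCard _ hc)
  have h3 : (orderOf (t * t)).Coprime (2 ^ j) := (Nat.coprime_two_right.2 h2).pow_right j
  exact orderOf_eq_one_iff.1 (h3.eq_one_of_dvd h1)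

end Cfsg.Agent.S0241
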