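import Mathlib
import Cfsg.Statements.S0258
import Cfsg.Agent.Cl.LinearSylow

set_option autoImplicit false
open Cfsg

namespace Cfsg.Agent.S0258

/-- GL_2(q), q a power of the prime p, has exactly q + 1 Sylow p-subgroups. -/
theorem result {F : Type*} [Field F] [Fintype F] {q : ℕ} (hF : Fintype.card F = q) (p : ℕ) [Fact p.Prime] [CharP F p] : Nat.card (Sylow p (Matrix.GeneralLinearGroup (Fin 2) F)) = q + 1 := by
  obtain ⟨P⟩ : Nonempty (Sylow p (GL (Fin 2) F)) := inferInstance
  have h1 := (Subgroup.normalizer ((P : Subgroup (GL (Fin 2) F)) : Set (GL (Fin 2) F))).card_mul_index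
  have h2 := P.card_eq_index_normalizer
  change _ = (Subgroup.normalizer ((P : Subgroup (GL (Fin 2) F)) : Set (GL (Fin 2) F))).index at h2
  rw [← h2, Cl.card_normalizer_sylow_gl p P, Cl.card_gl_two, Nat.card_eq_fintype_card (α := F), hF] at h1
  have hq : 2 ≤ q := hF ▸ Fintype.one_lt_card
  obtain ⟨r, rfl⟩ : ∃ r, q = r + 1 := ⟨q - 1, by omega⟩
  have e : (r + 1) ^ 2 - 1 = r * (r + 1 + 1) := by
    apply Nat.sub_eq_of_eq_add; ring
  have hr : 0 < r := by omega
  simp only [Fintype.card_fin, Nat.add_sub_cancel, e] at h1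
  refine Nat.eq_of_mul_eq_mul_left (Nat.mul_pos (Nat.succ_pos r) (pow_pos hr 2)) ?_
  norm_num at h1
  rw [h1, Nat.succ_eq_add_one]; ring

end Cfsg.Agent.S0258
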