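import Mathlib
import Cfsg.Statements.S0259
import Cfsg.Agent.Cl.LinearSylow
import Cfsg.Agent.Cl.CharGL2Conj

set_option autoImplicit false
open Cfsg

namespace Cfsg.Agent.S0259

/-- Distinct Sylow p-subgroups of GL_2(q), p the characteristic, intersect trivially. -/
theorem result {F : Type*} [Field F] [Fintype F] (p : ℕ) [Fact p.Prime] [CharP F p] (P Q : Sylow p (Matrix.GeneralLinearGroup (Fin 2) F)) (h : P ≠ Q) : (P : Subgroup (Matrix.GeneralLinearGroup (Fin 2) F)) ⊓ (Q : Subgroup (Matrix.GeneralLinearGroup (Fin 2) F)) = ⊥ := by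
  have hb : Function.Injective (id : Fin 2 → Fin 2) := Function.injective_id
  obtain ⟨a, rfl⟩ := MulAction.exists_smul_eq (GL (Fin 2) F) (Cl.unipSylow F p hb) P
  obtain ⟨c, rfl⟩ := MulAction.exists_smul_eq (GL (Fin 2) F) (Cl.unipSylow F p hb) Q
  rw [eq_bot_iff]
  intro x hx0
  obtain ⟨h1, h2⟩ := Subgroup.mem_inf.1 hx0
  by_contra hx
  apply h
  rw [Sylow.coe_subgroup_smul, Subgroup.mem_pointwise_smul_iff_inv_smul_mem] at h1 h2
  have h1' := Cl.mem_unipRad.1 h1
  have h2' := Cl.mem_unipRad.1 h2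
  set y := (MulAut.conj a)⁻¹ • x with hy
  set z := (MulAut.conj c)⁻¹ • x with hz
  have e : y * (a⁻¹ * c) = (a⁻¹ * c) * z := by
    simp only [hy, hz, MulAut.smul_def, MulAut.conj_inv_apply]; group
  have hy1 : (y : Matrix (Fin 2) (Fin 2) F) 0 1 ≠ 0 := by
    intro h0
    apply hx
    have : y = 1 := Cl.GL2.gl_ext_iff.2 ⟨h1' 0 0 le_rfl, by simpa using h0, h1' 1 0 (by decide),
      h1' 1 1 le_rfl⟩
    rw [hy, MulAut.smul_def, map_eq_one_iff _ (MulEquiv.injective _)] at this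
    exact this
  have e2 := congrArg (fun g : GL (Fin 2) F => (g : Matrix (Fin 2) (Fin 2) F) 0 0) e
  simp only [Units.val_mul (a := y), Units.val_mul (b := z), Cl.GL2.mul00] at e2
  rw [h1' 0 0 le_rfl, h2' 0 0 le_rfl, h2' 1 0 (by decide)] at e2
  simp only [Matrix.one_apply_eq, one_mul, mul_one, ne_eq, one_ne_zero, not_false_eq_true,
    Matrix.one_apply_ne, mul_zero, add_zero, add_eq_left, mul_eq_zero, hy1, false_or] at e2
  have hm : a⁻¹ * c ∈ Cl.parab F (id : Fin 2 → Fin 2) := Cl.mem_parab.2 fun i j hij => by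
    fin_cases i <;> fin_cases j <;> first | exact absurd hij (by decide) | exact e2
  rw [← Cl.normalizer_unipRad] at hm
  have := Sylow.smul_eq_iff_mem_normalizer.2 (show a⁻¹ * c ∈ Subgroup.normalizer
    (Cl.unipSylow F p hb : Set (GL (Fin 2) F)) from hm)
  rw [mul_smul, inv_smul_eq_iff] at this
  exact this.symm

end Cfsg.Agent.S0259
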