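import Mathlib
import Cfsg.Statements.S0260
import Cfsg.Agent.Cl.LinearSylow
import Cfsg.Agent.Cl.CharGL2Conj

set_option autoImplicit false
open Cfsg

namespace Cfsg.Agent.S0260

open Matrix in
theorem aux {F : Type*} [Field F] (H : Subgroup (SpecialLinearGroup (Fin 2) F))
    (g : SpecialLinearGroup (Fin 2) F) (hg : (g : Matrix (Fin 2) (Fin 2) F) 1 0 ≠ 0)
    (h1 : ∀ c : F, SpecialLinearGroup.transvection (by decide : (0 : Fin 2) ≠ 1) c ∈ H)
    (h2 : ∀ c : F, g * SpecialLinearGroup.transvection (by decide : (0 : Fin 2) ≠ 1) c * g⁻¹ ∈ H) :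
    H = ⊤ := by
  refine Cl.sl_eq_top_of_transvection_mem H fun i j hij c => ?_
  fin_cases i <;> fin_cases j
  · exact absurd rfl hij
  · exact h1 c
  · set u := SpecialLinearGroup.transvection (by decide : (0 : Fin 2) ≠ 1)
      (-(g : Matrix (Fin 2) (Fin 2) F) 0 0 / (g : Matrix (Fin 2) (Fin 2) F) 1 0) with hu
    have hd := Cl.GL2.det_entries_sl g
    have e : SpecialLinearGroup.transvection hij c * (u * g) = (u * g) *
        SpecialLinearGroup.transvection (by decide : (0 : Fin 2) ≠ 1)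
          (-c / (g : Matrix (Fin 2) (Fin 2) F) 1 0 ^ 2) := by
      refine Cl.GL2.sl_ext_iff.2 ⟨?_, ?_, ?_, ?_⟩ <;>
        simp [hu, Cl.GL2.mul00, Cl.GL2.mul01, Cl.GL2.mul10, Cl.GL2.mul11,
          SpecialLinearGroup.transvection_coe] <;> field_simp
      all_goals first | ring1 | linear_combination (-c) * hd | simp
    have e2 : SpecialLinearGroup.transvection hij c = u * (g *
        SpecialLinearGroup.transvection (by decide : (0 : Fin 2) ≠ 1)
          (-c / (g : Matrix (Fin 2) (Fin 2) F) 1 0 ^ 2) * g⁻¹) * u⁻¹ := by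
      rw [eq_mul_inv_iff_mul_eq, ← mul_assoc, ← mul_assoc, ← e]; group
    rw [e2]
    exact H.mul_mem (H.mul_mem (h1 _) (h2 _)) (H.inv_mem (h1 _))
  · exact absurd rfl hij

/-- Any two distinct Sylow p-subgroups of SL_2(q), p the characteristic, generate SL_2(q). -/
theorem result {F : Type*} [Field F] [Fintype F] (p : ℕ) [Fact p.Prime] [CharP F p] (P Q : Sylow p (Matrix.SpecialLinearGroup (Fin 2) F)) (h : P ≠ Q) : (P : Subgroup (Matrix.SpecialLinearGroup (Fin 2) F)) ⊔ (Q : Subgroup (Matrix.SpecialLinearGroup (Fin 2) F)) = ⊤ := by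
  have hb : Function.Injective (id : Fin 2 → Fin 2) := Function.injective_id
  obtain ⟨a, rfl⟩ := MulAction.exists_smul_eq (Matrix.SpecialLinearGroup (Fin 2) F)
    (Cl.unipSylowSL F p hb) P
  obtain ⟨c, rfl⟩ := MulAction.exists_smul_eq (Matrix.SpecialLinearGroup (Fin 2) F)
    (Cl.unipSylowSL F p hb) Q
  have ht : ∀ t : F, Matrix.SpecialLinearGroup.transvection (by decide : (0 : Fin 2) ≠ 1) t ∈
      Cl.unipSylowSL F p hb := fun t => Cl.tGL_mem_unipRad _ (by decide) t
  have hg : ((a⁻¹ * c : Matrix.SpecialLinearGroup (Fin 2) F) : Matrix (Fin 2) (Fin 2) F) 1 0 ≠ 0 := by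
    intro h0
    apply h
    have hm := (Cl.mem_normalizer_unipSylowSL p hb (g := a⁻¹ * c)).2 fun i j hij => by
      fin_cases i <;> fin_cases j <;> first | exact absurd hij (by decide) | exact h0
    have := Sylow.smul_eq_iff_mem_normalizer.2 (show a⁻¹ * c ∈ Subgroup.normalizer
      (Cl.unipSylowSL F p hb : Set (Matrix.SpecialLinearGroup (Fin 2) F)) from hm)
    rw [mul_smul, inv_smul_eq_iff] at this
    exact this.symm
  have key := aux ((((a • Cl.unipSylowSL F p hb : Sylow p _) : Subgroup _) ⊔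
    ((c • Cl.unipSylowSL F p hb : Sylow p _) : Subgroup _)).comap (MulAut.conj a).toMonoidHom)
    (a⁻¹ * c) hg (fun t => Subgroup.mem_sup_left (Subgroup.smul_mem_pointwise_smul _ (MulAut.conj a) _ (ht t)))
    (fun t => Subgroup.mem_sup_right (by
      have := Subgroup.smul_mem_pointwise_smul _ (MulAut.conj c) _ (ht t)
      have e : (MulAut.conj a).toMonoidHom (a⁻¹ * c * Matrix.SpecialLinearGroup.transvection
          (by decide : (0 : Fin 2) ≠ 1) t * (a⁻¹ * c)⁻¹) = MulAut.conj c •
          Matrix.SpecialLinearGroup.transvection (by decide : (0 : Fin 2) ≠ 1) t := by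
        change a * _ * a⁻¹ = c * _ * c⁻¹
        group
      rw [e]
      exact this))
  rw [eq_top_iff]
  intro x _
  have : (MulAut.conj a).symm x ∈ (⊤ : Subgroup _) := trivial
  rw [← key] at this
  simpa [mul_assoc] using this

end Cfsg.Agent.S0260
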