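import Mathlib
import Cfsg.Statements.S0267
import Cfsg.Agent.Cl.PSL2Sub

set_option autoImplicit false
open Cfsg

namespace Cfsg.Agent.S0267

theorem smul_eq {F : Type*} [Field F] (g : Matrix.SpecialLinearGroup (Fin 2) F) (x : Cl.L2.P1 F) :
    g • x = Cl.L2.pm (g : Matrix (Fin 2) (Fin 2) F) • x := by
  rw [← Cl.L2.emb_mk, Cl.L2.emb_smul, Matrix.ProjectiveSpecialLinearGroup.smul_proj_mk]

/-- The triple `∞, 0, a`. -/
def triple {F : Type*} [Field F] (a : F) (ha : a ≠ 0) : Fin 3 ↪ Cl.L2.P1 F :=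
  ⟨![Cl.L2.inf, Cl.L2.pt 0, Cl.L2.pt a], by
    intro i j h
    fin_cases i <;> fin_cases j <;>
      simp_all [Cl.L2.pt_inj, Cl.L2.pt_ne_inf, Cl.L2.inf_ne_pt, eq_comm]⟩

/-- SL_2(q) is 3-transitive on the q+1 points of the projective line if and only if q is even. -/
theorem result {F : Type*} [Field F] [Fintype F] : MulAction.IsMultiplyPretransitive (Matrix.SpecialLinearGroup (Fin 2) F) (Projectivization F (Fin 2 → F)) 3 ↔ ringChar F = 2 := by
  constructor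
  · intro h
    by_contra h2
    obtain ⟨a, ha⟩ := FiniteField.exists_nonsquare h2
    have ha0 : a ≠ 0 := fun e => ha (e ▸ IsSquare.zero)
    obtain ⟨g, hg⟩ := MulAction.isMultiplyPretransitive_iff.1 h (triple 1 one_ne_zero) (triple a ha0)
    have hd : (g : Matrix (Fin 2) (Fin 2) F).det ≠ 0 := by rw [g.det_coe]; exact one_ne_zero
    have h0 : g • (Cl.L2.inf : Cl.L2.P1 F) = Cl.L2.inf := congrArg (fun e : Fin 3 ↪ _ => e 0) hg
    have h1 : g • Cl.L2.pt (0 : F) = Cl.L2.pt 0 := congrArg (fun e : Fin 3 ↪ _ => e 1) hg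
    have h2 : g • Cl.L2.pt (1 : F) = Cl.L2.pt a := congrArg (fun e : Fin 3 ↪ _ => e 2) hg
    rw [smul_eq, Cl.L2.pm_smul_inf_eq_inf hd] at h0
    rw [smul_eq, Cl.L2.pm_smul_pt_eq_pt hd] at h1 h2
    have h3 := g.det_coe
    rw [Matrix.det_fin_two] at h3
    apply ha
    refine ⟨(g : Matrix (Fin 2) (Fin 2) F) 0 0, ?_⟩
    have h1' : (g : Matrix (Fin 2) (Fin 2) F) 0 1 = 0 := by linear_combination h1
    rw [h0, h1'] at h2 h3
    linear_combination (-a) * h3 - (g : Matrix (Fin 2) (Fin 2) F) 0 0 * h2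
  · intro h2
    refine MulAction.isMultiplyPretransitive_iff.2 fun x y => ?_
    obtain ⟨g, h0, h1, h2'⟩ := Cl.L2.exists_smul_three (x.injective.ne (by decide : (0 : Fin 3) ≠ 1))
      (x.injective.ne (by decide : (0 : Fin 3) ≠ 2)) (x.injective.ne (by decide : (1 : Fin 3) ≠ 2))
      (y.injective.ne (by decide : (0 : Fin 3) ≠ 1))
      (y.injective.ne (by decide : (0 : Fin 3) ≠ 2)) (y.injective.ne (by decide : (1 : Fin 3) ≠ 2))
    obtain ⟨A, hA, rfl⟩ := Cl.L2.exists_pm g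
    obtain ⟨s, hs⟩ := FiniteField.isSquare_of_char_two h2 A.det
    have hs0 : s ≠ 0 := fun e => hA (by rw [hs, e, mul_zero])
    have hd : (s⁻¹ • A).det = 1 := by rw [Cl.L2.det_smul_two, hs]; field_simp
    obtain ⟨B, hB⟩ : ∃ B : Matrix.SpecialLinearGroup (Fin 2) F,
        (B : Matrix (Fin 2) (Fin 2) F) = s⁻¹ • A := ⟨⟨s⁻¹ • A, hd⟩, rfl⟩
    refine ⟨B, Function.Embedding.ext fun i => ?_⟩
    rw [Function.Embedding.smul_apply, smul_eq, hB, Cl.L2.pm_smul (inv_ne_zero hs0)]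
    fin_cases i
    exacts [h0, h1, h2']

end Cfsg.Agent.S0267
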