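import Mathlib
import Cfsg.Statements.S0268
import Cfsg.Agent.Cl.CharSL2Conj

set_option autoImplicit false
open Cfsg

namespace Cfsg.Agent.S0268

/-- For q odd, -1 is the unique involution of SL_2(q). -/
theorem result {F : Type*} [Field F] [Fintype F] (hF : Odd (Fintype.card F)) (g : Matrix.SpecialLinearGroup (Fin 2) F) (h1 : g ≠ 1) (h2 : g * g = 1) : (g : Matrix (Fin 2) (Fin 2) F) = -1 := by
  have h2' : (2 : F) ≠ 0 := Cl.GL2.two_ne_zero_of_odd hF
  have e := Cl.GL2.sl_ext_iff.1 h2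
  have hd := Cl.GL2.det_entries_sl g
  simp only [Matrix.SpecialLinearGroup.coe_mul, Cl.GL2.mul00, Cl.GL2.mul01, Cl.GL2.mul10,
    Cl.GL2.mul11, Matrix.SpecialLinearGroup.coe_one, Matrix.one_apply_eq, ne_eq, zero_ne_one,
    not_false_eq_true, Matrix.one_apply_ne, one_ne_zero] at e
  obtain ⟨e1, e2, e3, e4⟩ := e
  set a := (g : Matrix (Fin 2) (Fin 2) F) 0 0 with ha
  set b := (g : Matrix (Fin 2) (Fin 2) F) 0 1 with hb
  set c := (g : Matrix (Fin 2) (Fin 2) F) 1 0 with hc
  set d := (g : Matrix (Fin 2) (Fin 2) F) 1 1 with hd'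
  have ht : a + d ≠ 0 := by
    intro h
    apply h2'
    linear_combination a * h - e1 - hd
  have hb0 : b = 0 := (mul_eq_zero.1 (by linear_combination e2 : b * (a + d) = 0)).resolve_right ht
  have hc0 : c = 0 := (mul_eq_zero.1 (by linear_combination e3 : c * (a + d) = 0)).resolve_right ht
  have had : a = d := by
    rw [hb0] at e1 hd
    linear_combination d * e1 - a * hd
  have ha1 : (a - 1) * (a + 1) = 0 := by rw [hb0] at e1; linear_combination e1
  rcases mul_eq_zero.1 ha1 with h | h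
  · exfalso; apply h1
    refine Cl.GL2.sl_ext_iff.2 ⟨?_, ?_, ?_, ?_⟩ <;> simp [← ha, ← hb, ← hc, ← hd', hb0, hc0, ← had]
    all_goals linear_combination h
  · refine Cl.GL2.mat_ext_iff.2 ⟨?_, ?_, ?_, ?_⟩ <;> simp [← ha, ← hb, ← hc, ← hd', hb0, hc0, ← had]
    all_goals linear_combination h

end Cfsg.Agent.S0268
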