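import Mathlib
import Cfsg.Statements.S0273
import Cfsg.Agent.Cl.LinearSylow
import Cfsg.Agent.Cl.CharGL2Card
import Cfsg.Agent.Inv.Counting

set_option autoImplicit false
open Cfsg

namespace Cfsg.Agent.S0273

/-- In GL_2(q) the centraliser of a non-trivial element of a Sylow p-subgroup (p the characteristic) has order q (q-1): the Sylow subgroup times the scalars. -/
theorem result {F : Type*} [Field F] [Fintype F] {q : ℕ} (hF : Fintype.card F = q) (p : ℕ) [Fact p.Prime] [CharP F p] (P : Sylow p (Matrix.GeneralLinearGroup (Fin 2) F)) (a : Matrix.GeneralLinearGroup (Fin 2) F) (ha : a ∈ P) (ha1 : a ≠ 1) : Nat.card (Subgroup.centralizer ({a} : Set (Matrix.GeneralLinearGroup (Fin 2) F))) = q * (q - 1) := by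
  have hb : Function.Injective (id : Fin 2 → Fin 2) := Function.injective_id
  obtain ⟨g, hg⟩ := Cl.exists_conj_le_unipRad p hb P.isPGroup'
  have h1 := Cl.mem_unipRad.1 (hg a ha)
  rw [Inv.card_centralizer_eq_of_isConj (isConj_iff.2 ⟨g, rfl⟩ : IsConj a (g * a * g⁻¹)), ← hF]
  refine Cl.GL2.card_centralizer_upper_par (by rw [h1 1 0 (by decide)]; simp)
    (by rw [h1 0 0 le_rfl, h1 1 1 le_rfl]; simp) fun h0 => ha1 ?_
  have : g * a * g⁻¹ = 1 := Cl.GL2.gl_ext_iff.2 ⟨h1 0 0 le_rfl, by simpa using h0,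
    h1 1 0 (by decide), h1 1 1 le_rfl⟩
  simpa using this

end Cfsg.Agent.S0273
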