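import Mathlib
import Cfsg.Statements.S0275
import Cfsg.Agent.Cl.PSL2Lift
import Cfsg.Agent.Inv.RankOneP

set_option autoImplicit false
open Cfsg

set_option linter.unusedVariables false

namespace Cfsg.Agent.S0275

open Cfsg.Agent.Cl.L2 Matrix MulAction
open scoped MatrixGroups

/-- If p is odd and H is a subgroup of SL_2(q), q a power of p, with more than one Sylow p-subgroup, then the Sylow 2-subgroups of H are generalised quaternion. -/
theorem result {F : Type*} [Field F] [Fintype F] (p : ℕ) [Fact p.Prime] [CharP F p] (hp : p ≠ 2) (H : Subgroup (Matrix.SpecialLinearGroup (Fin 2) F)) (hH : 1 < Nat.card (Sylow p H)) (S : Sylow 2 H) : ∃ k : ℕ, 1 ≤ k ∧ Nonempty ((S : Subgroup H) ≃* QuaternionGroup (2 ^ k)) := by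
  have h2 : (2 : F) ≠ 0 := two_ne_zero_of_char p hp
  have hinv : ∀ x : H, orderOf x = 2 → (x : SL(2, F)) = -1 := fun x hx => by
    have h1 : (x : SL(2, F)) * x = 1 := by
      rw [← sq, ← Subgroup.coe_pow, orderOf_dvd_iff_pow_eq_one.1 hx.dvd, Subgroup.coe_one]
    refine (sl_mul_self_eq_one h2 h1).resolve_left fun h => ?_
    rw [show x = 1 from Subtype.ext h, orderOf_one] at hx; omega
  rcases Inv.SE.cyclic_or_quaternion_of_uniqOrd' S.2 (fun x _ y _ hx hy => by
    rw [show y = x from Subtype.ext ((hinv y hy).trans (hinv x hx).symm)]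
    exact Subgroup.mem_zpowers x) with h | ⟨n, h⟩
  · exfalso
    obtain ⟨ψ, hψ, hH'⟩ := exists_sl_prime_le_of_sylow p hp hH
    obtain ⟨Q, hQ, hQ'⟩ := exists_not_isCyclic_two (two_ne_zero_of_char (F := ZMod p) p hp)
    obtain ⟨T, hT⟩ := ((hQ.map ψ).comap_subtype (K := H)).exists_le_sylow
    have h1 : IsCyclic (T : Subgroup H) := (Sylow.equiv S T).isCyclic.1 h
    have h3 := Subgroup.isCyclic_of_le hT
    exact hQ' ((Q.equivMapOfInjective ψ hψ).isCyclic.2 ((Subgroup.subgroupOfEquivOfLe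
      ((Subgroup.map_le_range ψ Q).trans hH')).isCyclic.1 h3))
  · exact ⟨n + 1, by omega, h⟩

end Cfsg.Agent.S0275
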