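import Mathlib
import Cfsg.Statements.S0298
import Cfsg.Agent.Cl.OrthIso

set_option autoImplicit false
open Cfsg

namespace Cfsg.Agent.S0298

open Cfsg.Agent.Cl

/-- PΩ_3(q) is isomorphic to PSL_2(q) for q odd. -/
theorem result {F : Type*} [Field F] [Fintype F] (hodd : Odd (Fintype.card F)) : Nonempty (Cfsg.POmega F (Cfsg.quadFormOdd 1 F) ≃* Matrix.ProjectiveSpecialLinearGroup (Fin 2) F) := by
  have h2 := o_two_ne_zero_of_odd_card hodd
  obtain ⟨φ, -, h1, -, h3⟩ := exists_hom_SL_two_odd h2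
  obtain ⟨e⟩ := o_nonempty_pomega_equiv (quad_odd_nondeg h2) (not_oExc_of_two_ne_zero h2)
    (by simp) φ h1 h3
  exact ⟨(pomegaEquivOG (quad_odd 1 F)).trans e⟩

end Cfsg.Agent.S0298
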