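import Mathlib
import Cfsg.Statements.S0299
import Cfsg.Agent.Cl.OrthIso

set_option autoImplicit false
open Cfsg

namespace Cfsg.Agent.S0299

open Cfsg.Agent.Cl

/-- PΩ^+_4(q) is isomorphic to PSL_2(q) x PSL_2(q) for q at least 3. -/
theorem result {F : Type*} [Field F] [Fintype F] (hF : 3 ≤ Fintype.card F) : Nonempty (Cfsg.POmega F (Cfsg.quadFormPlus 2 F) ≃* Matrix.ProjectiveSpecialLinearGroup (Fin 2) F × Matrix.ProjectiveSpecialLinearGroup (Fin 2) F) := by
  rw [← Nat.card_eq_fintype_card] at hF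
  obtain ⟨φ, -, h1, -, h3⟩ := exists_hom_SL_two_prod_plus hF
  obtain ⟨e⟩ := o_nonempty_pomega_equiv quad_plus_nondeg (not_oExc_of_card (by omega))
    (by simp) φ h1 h3
  obtain ⟨e'⟩ := o_nonempty_prod_center_quot (Matrix.SpecialLinearGroup (Fin 2) F)
    (Matrix.SpecialLinearGroup (Fin 2) F)
  exact ⟨(pomegaEquivOG (quad_plus 2 F)).trans (e.trans e')⟩

end Cfsg.Agent.S0299
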