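import Mathlib
import Cfsg.Statements.S0300
import Cfsg.Agent.Cl.OrthIso

set_option autoImplicit false
open Cfsg

namespace Cfsg.Agent.S0300

open Cfsg.Agent.Cl

/-- PΩ^-_4(q) is isomorphic to PSL_2(q^2). -/
theorem result {F K : Type*} [Field F] [Fintype F] [Field K] [Fintype K] {q : ℕ} (hF : Fintype.card F = q) (hK : Fintype.card K = q ^ 2) (a b : F) (hab : ∀ z₁ z₂ : F, z₁ ^ 2 + a * z₁ * z₂ + b * z₂ ^ 2 = 0 → z₁ = 0 ∧ z₂ = 0) : Nonempty (Cfsg.POmega F (Cfsg.quadFormMinus 1 F a b) ≃* Matrix.ProjectiveSpecialLinearGroup (Fin 2) K) := by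
  obtain ⟨_, σ, -, h⟩ := exists_oQuadExt hF hK
  obtain ⟨φ, -, h1, -, h3⟩ := h.exists_hom_SL_two_minus
  obtain ⟨k, hk⟩ := h.exists_hermQ_equiv_minus hab
  have := h.finiteDimensional
  have hexc : ¬ OExc h.hermQ := by
    rintro ⟨-, -, u, v, hli, hu, hv, huv⟩
    have := quad_minus_singular_le ((quad_aniso_iff a b).1 hab)
      (U := (Submodule.span F (Set.range ![u, v])).map (k : _ →ₗ[F] _)) (by
        rintro _ ⟨x, hx, rfl⟩
        exact (hk x).trans (o_singular_span_pair hu hv huv x (by simpa [Set.pair_comm] using hx)))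
    rw [LinearEquiv.finrank_map_eq, finrank_span_eq_card hli] at this
    simp at this
  obtain ⟨e⟩ := o_nonempty_pomega_equiv h.hermQ_nondeg hexc (by rw [h.finrank_herm]; omega) φ h1 h3
  exact ⟨(pomegaEquivOG (quad_minus 1 F a b)).trans
    ((centerQuotCongr (commutatorCongr (OG.congr k hk).symm)).trans e)⟩

end Cfsg.Agent.S0300
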