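import Mathlib
import Cfsg.Statements.S0306
import Cfsg.Agent.Cl.OrthCard

set_option autoImplicit false
open Cfsg

namespace Cfsg.Agent.S0306

open Cfsg.Agent.Cl

/-- GO^-_2(q) is dihedral of order 2(q+1). -/
theorem result {F : Type*} [Field F] [Fintype F] {q : ℕ} (hF : Fintype.card F = q) (a b : F) (hab : ∀ z₁ z₂ : F, z₁ ^ 2 + a * z₁ * z₂ + b * z₂ ^ 2 = 0 → z₁ = 0 ∧ z₂ = 0) : Nonempty (Cfsg.isometryGroup F (Cfsg.quadFormMinus 0 F a b) ≃* DihedralGroup (q + 1)) := by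
  subst hF
  obtain ⟨e, he⟩ := exists_minus_eq_prod 0 a b
  obtain ⟨e', he'⟩ := exists_plus_prod_zero (obin F a b)
  obtain ⟨k⟩ := nonempty_OG_aniso_plane_equiv_dihedral
    (obin_nondeg (o_disc_ne_zero_of_anisotropic hab)) (Module.finrank_fin_fun F) (obin_aniso hab)
  exact ⟨(omatEquiv (quad_minus 0 F a b)).trans ((OG.congr e he).trans ((OG.congr e' he').trans k))⟩

end Cfsg.Agent.S0306
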