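import Mathlib
import Cfsg.Statements.S0307
import Cfsg.Agent.Cl.LinearBasic

set_option autoImplicit false
open Cfsg

namespace Cfsg.Agent.S0307

/-- PSL_n(q) is normal in PGL_n(q) with cyclic quotient of order gcd(n, q-1): the image of the natural map PSL_n → PGL_n is the kernel of a surjective homomorphism onto the cyclic group of that order. -/
theorem result {F : Type*} [Field F] [Fintype F] {q : ℕ} (hF : Fintype.card F = q) (n : ℕ) (hn : 1 ≤ n) : ∃ g : Matrix.ProjGenLinGroup (Fin n) F →* Multiplicative (ZMod (Nat.gcd n (q - 1))), Function.Surjective g ∧ g.ker = (Matrix.ProjectiveSpecialLinearGroup.toPGL : Matrix.ProjectiveSpecialLinearGroup (Fin n) F →* Matrix.ProjGenLinGroup (Fin n) F).range := by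
  have hne : Nonempty (Fin n) := ⟨⟨0, hn⟩⟩
  let N := (powMonoidHom n : Fˣ →* Fˣ).range
  have hc : Nat.card (Fˣ ⧸ N) = Nat.gcd n (q - 1) := by
    rw [← Subgroup.index_eq_card, IsCyclic.index_powMonoidHom_range, Nat.card_units,
      Nat.card_eq_fintype_card, hF, Nat.gcd_comm]
  have hcyc : IsCyclic (Fˣ ⧸ N) := isCyclic_of_surjective _ (QuotientGroup.mk'_surjective N)
  let e : (Fˣ ⧸ N) ≃* Multiplicative (ZMod (Nat.gcd n (q - 1))) :=
    mulEquivOfCyclicCardEq (by rw [hc, Nat.card_congr Multiplicative.toAdd, Nat.card_zmod])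
  let f : GL (Fin n) F →* Multiplicative (ZMod (Nat.gcd n (q - 1))) :=
    e.toMonoidHom.comp ((QuotientGroup.mk' N).comp Matrix.GeneralLinearGroup.det)
  have hf1 : ∀ g, f g = 1 ↔ Matrix.GeneralLinearGroup.det g ∈ N := fun g => by
    change e _ = 1 ↔ _
    rw [map_eq_one_iff _ e.injective]
    exact QuotientGroup.eq_one_iff _
  have hs : ∀ u : Fˣ, Matrix.GeneralLinearGroup.det (Matrix.GeneralLinearGroup.scalar (Fin n) u) =
      u ^ n := fun u => by
    ext; simp
  have hf : f.comp (Matrix.GeneralLinearGroup.scalar (Fin n)) = 1 := by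
    ext u : 1
    exact (hf1 _).2 ⟨u, (hs u).symm⟩
  refine ⟨Matrix.ProjGenLinGroup.lift f hf, fun y => ?_, ?_⟩
  · obtain ⟨g, hg⟩ := (e.surjective.comp ((QuotientGroup.mk'_surjective N).comp
      (Matrix.GeneralLinearGroup.det_surjective (n := Fin n)))) y
    exact ⟨Matrix.ProjGenLinGroup.mk g, hg⟩
  · ext x
    obtain ⟨g, rfl⟩ := Matrix.ProjGenLinGroup.mk_surjective x
    rw [MonoidHom.mem_ker, Matrix.ProjGenLinGroup.lift_mk, hf1]
    constructor
    · rintro ⟨u, hu⟩
      have h1 : g * (Matrix.GeneralLinearGroup.scalar (Fin n) u)⁻¹ ∈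
          (Matrix.GeneralLinearGroup.det : GL (Fin n) F →* Fˣ).ker := by
        rw [MonoidHom.mem_ker, map_mul, map_inv, hs, ← hu]; simp
      rw [← Cl.range_toGL] at h1
      obtain ⟨s, hs'⟩ := h1
      refine ⟨s, ?_⟩
      rw [Matrix.ProjectiveSpecialLinearGroup.toPGL_mk, hs', map_mul, map_inv,
        Matrix.ProjGenLinGroup.mk_scalar, inv_one, mul_one]
    · rintro ⟨s, hs'⟩
      obtain ⟨s, rfl⟩ := QuotientGroup.mk_surjective s
      rw [Matrix.ProjectiveSpecialLinearGroup.toPGL_mk, Matrix.ProjGenLinGroup.mk_eq_mk_iff] at hs'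
      obtain ⟨u, hu⟩ := hs'
      refine ⟨u, ?_⟩
      rw [← hu, map_mul, hs]
      simp

end Cfsg.Agent.S0307
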