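import Mathlib
import Cfsg.Statements.S0310
import Cfsg.Agent.Chev.BNParabolic

set_option autoImplicit false
open Cfsg

namespace Cfsg.Agent.S0310

/-- For a set `J` of distinguished generators, the subgroup generated by `B` and `J` is exactly the union of
the double cosets `B n B` with `n` in the subgroup generated by `J` (so `B W_J B` is a subgroup). -/
theorem result {G : Type*} [Group G] (P : Cfsg.BNPair G) {J : Set G}
    (hJ : J ⊆ P.S) (g : G) :
    g ∈ P.parabolic J ↔ ∃ n ∈ Subgroup.closure J, g ∈ DoubleCoset.doubleCoset n (P.B : Set G) P.B := by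
  constructor
  · intro hg
    rw [P.parabolic_eq_par hJ, BNPair.mem_par_iff] at hg
    obtain ⟨n, hn, hn'⟩ := BNPair.exists_mem_closure_toW hg
    rw [Subtype.image_preimage_val, Set.inter_eq_right.2 hJ] at hn
    refine ⟨n, hn, ?_⟩
    rw [← BNPair.cell_toW, hn']
    exact BNPair.mem_cell_cellOf g
  · rintro ⟨n, hn, hg⟩
    obtain ⟨b, hb, b', hb', rfl⟩ := DoubleCoset.mem_doubleCoset.1 hg
    exact mul_mem (mul_mem (P.B_le_parabolic J hb) (Subgroup.mem_sup_right hn))
      (P.B_le_parabolic J hb')

end Cfsg.Agent.S0310
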