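import Mathlib
import Cfsg.Statements.S0316
import Cfsg.Agent.Chev.BNParabolic

set_option autoImplicit false
open Cfsg

namespace Cfsg.Agent.S0316

/-- The map `J ↦ P_J` is a lattice isomorphism from the power set of the set of distinguished generators onto the
subgroups containing `B`. -/
theorem result {G : Type*} [Group G] (P : Cfsg.BNPair G) :
    ∃ e : Set P.S ≃o {M : Subgroup G // P.B ≤ M},
      ∀ J : Set P.S, ((e J : {M : Subgroup G // P.B ≤ M}) : Subgroup G) = P.parabolic (Subtype.val '' J) := by
  refine ⟨⟨⟨fun J => ⟨P.par J, P.B_le_par J⟩, fun M => {s | (s : G) ∈ M.1}, fun J => ?_,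
    fun M => Subtype.ext (BNPair.eq_par_of_le M.2).symm⟩, ?_⟩, fun J => rfl⟩
  · ext s
    exact BNPair.coe_mem_par_iff
  · intro J K
    exact BNPair.par_le_par_iff

end Cfsg.Agent.S0316
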