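import Mathlib
import Cfsg.Statements.S0321
import Cfsg.Agent.Chev.BNParabolic

set_option autoImplicit false
open Cfsg

namespace Cfsg.Agent.S0321

/-- For `n ∈ N` not in `B`, the union `B ∪ B n B` is (the underlying set of) a subgroup exactly when `n` agrees
modulo `B ⊓ N` with one of the distinguished representatives; thus the distinguished involutions are
determined by `B` and `N`. -/
theorem result {G : Type*} [Group G] (P : Cfsg.BNPair G) {n : G}
    (hn : n ∈ P.N) (hnB : n ∉ P.B) :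
    (∃ H : Subgroup G, (H : Set G) = (P.B : Set G) ∪ DoubleCoset.doubleCoset n (P.B : Set G) P.B) ↔ ∃ s ∈ P.S, s⁻¹ * n ∈ P.B := by
  rw [← BNPair.cell_toW (P := P) ⟨n, hn⟩]
  constructor
  · rintro ⟨H, hH⟩
    have hB : P.B ≤ H := fun b hb => by
      rw [← SetLike.mem_coe, hH]; exact Or.inl hb
    have hnH : n ∈ H := by
      rw [← SetLike.mem_coe, hH]; exact Or.inr (BNPair.coe_mem_cell (n := ⟨n, hn⟩) rfl)
    obtain ⟨ω, hω, hω'⟩ := P.cs.exists_isReduced (P.toW ⟨n, hn⟩)
    cases ω with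
    | nil => exact absurd (P.toW_eq_one_iff.1 (by simpa using hω')) hnB
    | cons s ω =>
      have hs := BNPair.coe_mem_of_mem_cell hB hω (BNPair.coe_mem_cell hω') hnH (s := s) (by simp)
      rw [← SetLike.mem_coe, hH] at hs
      rcases hs with hs | hs
      · exact absurd hs (P.not_mem_B s)
      · exact ⟨s, s.2, P.toW_eq_iff.1 ((BNPair.coe_mem_cell_iff (n := P.repN s)).1 hs)⟩
  · rintro ⟨s, hs, h⟩
    have h1 : P.simple ⟨s, hs⟩ = P.toW ⟨n, hn⟩ := P.toW_eq_iff.2 h
    refine ⟨P.par {⟨s, hs⟩}, ?_⟩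
    ext g
    rw [SetLike.mem_coe, BNPair.mem_par_iff, Set.mem_union, SetLike.mem_coe,
      ← BNPair.cellOf_eq_one_iff, ← BNPair.cellOf_eq_iff, ← h1, Cfsg.Agent.Chev.coxPar,
      Set.image_singleton, ← Subgroup.zpowers_eq_closure, BNPair.cs_simple]
    constructor
    · rintro ⟨k, hk⟩
      have h2 : P.simple ⟨s, hs⟩ ^ (2 : ℤ) = 1 := by rw [zpow_two]; exact P.simple_mul_self _
      simp only at hk
      rw [← hk]
      rcases Int.even_or_odd' k with ⟨m, rfl | rfl⟩
      · left; rw [zpow_mul, h2, one_zpow]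
      · right; rw [zpow_add, zpow_mul, h2, one_zpow, one_mul, zpow_one]
    · rintro (h2 | h2) <;> rw [h2]
      · exact one_mem _
      · exact Subgroup.mem_zpowers _

end Cfsg.Agent.S0321
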