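import Mathlib
import Cfsg.Statements.S0323

set_option autoImplicit false
open scoped Pointwise
open Cfsg

namespace Cfsg.Agent.S0323

/-- A doubly transitive action on a set with at least three points yields a (B,N)-pair of rank one:
`B` is the stabiliser of a point `x`, `N` the setwise stabiliser of a pair `{x, y}`. -/
theorem result {G Ω : Type*} [Group G] [MulAction G Ω]
    (h2 : MulAction.IsMultiplyPretransitive G Ω 2) {x y z : Ω} (hxy : x ≠ y) (hyz : y ≠ z) (hxz : x ≠ z) :
    ∃ P : Cfsg.BNPair G, P.B = MulAction.stabilizer G x ∧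
      P.N = MulAction.stabilizer G ({x, y} : Set Ω) ∧ P.rank = 1 := by
  rw [MulAction.is_two_pretransitive_iff] at h2
  obtain ⟨s, hsx, hsy⟩ := h2 hxy hxy.symm
  have hN : ∀ n : G, n ∈ MulAction.stabilizer G ({x, y} : Set Ω) ↔
      (n • x = x ∧ n • y = y) ∨ (n • x = y ∧ n • y = x) := by
    intro n
    rw [MulAction.mem_stabilizer_iff, Set.smul_set_insert, Set.smul_set_singleton,
      Set.pair_eq_pair_iff]
  have hdc : ∀ g n : G, n • x = y → g • x ≠ x → g ∈ DoubleCoset.doubleCoset n
      (MulAction.stabilizer G x : Set G) (MulAction.stabilizer G x) := by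
    intro g n hn hg
    obtain ⟨b, hb1, hb2⟩ := h2 hxy hg.symm
    refine DoubleCoset.mem_doubleCoset.2 ⟨b, hb1, n⁻¹ * b⁻¹ * g, ?_, by group⟩
    change _ • x = x
    rw [mul_smul, mul_smul, ← hb2, inv_smul_smul, ← hn, inv_smul_smul]
  have hdc' : ∀ g n : G, n • x = x → g • x = x → g ∈ DoubleCoset.doubleCoset n
      (MulAction.stabilizer G x : Set G) (MulAction.stabilizer G x) := by
    intro g n hn hg
    refine DoubleCoset.mem_doubleCoset.2 ⟨1, one_mem _, n⁻¹ * g, ?_, by group⟩
    exact mul_mem (inv_mem (MulAction.mem_stabilizer_iff.2 hn)) hg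
  have hsN : s ∈ MulAction.stabilizer G ({x, y} : Set Ω) := (hN s).2 (Or.inr ⟨hsx, hsy⟩)
  refine ⟨{
    B := MulAction.stabilizer G x
    N := MulAction.stabilizer G ({x, y} : Set Ω)
    S := {s}
    sup_eq_top := ?_
    conj_mem := ?_
    subset := Set.singleton_subset_iff.2 hsN
    sq_mem := ?_
    inj := ?_
    closure_sup := ?_
    mul_mem_union := ?_
    conj_ne := ?_ }, rfl, rfl, by simp [BNPair.rank]⟩
  · rw [eq_top_iff]
    intro g _
    by_cases hg : g • x = x
    · exact Subgroup.mem_sup_left hg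
    · obtain ⟨b, hb, b', hb', rfl⟩ := DoubleCoset.mem_doubleCoset.1 (hdc g s hsx hg)
      exact mul_mem (mul_mem (Subgroup.mem_sup_left hb) (Subgroup.mem_sup_right hsN))
        (Subgroup.mem_sup_left hb')
  · intro n hn t ht
    have ht1 : t • x = x := ht.1
    have ht2 : t • y = y := by
      rcases (hN t).1 ht.2 with h | h
      · exact h.2
      · exact absurd (ht1.symm.trans h.1) hxy
    rw [MulAction.mem_stabilizer_iff, mul_smul, mul_smul]
    rcases (hN n).1 hn with h | h
    · rw [inv_smul_eq_iff.2 h.1.symm, ht1, h.1]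
    · rw [inv_smul_eq_iff.2 h.2.symm, ht2, h.2]
  · rintro _ rfl
    rw [MulAction.mem_stabilizer_iff, mul_smul, hsx, hsy]
  · rintro _ rfl _ rfl _
    rfl
  · refine le_antisymm (sup_le ((Subgroup.closure_le _).2 (Set.singleton_subset_iff.2 hsN))
      inf_le_right) fun n hn => ?_
    rcases (hN n).1 hn with h | h
    · exact Subgroup.mem_sup_right ⟨h.1, hn⟩
    · rw [← mul_inv_cancel_left s n]
      refine mul_mem (Subgroup.mem_sup_left (Subgroup.subset_closure rfl))
        (Subgroup.mem_sup_right (Subgroup.mem_inf.2 ⟨?_, mul_mem (inv_mem hsN) hn⟩))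
      change _ • x = x
      rw [mul_smul, h.1, ← hsx, inv_smul_smul]
  · intro s' hs' n hn b hb
    obtain rfl : s = s' := hs'.symm
    have hb' : b • x = x := hb
    rcases (hN n).1 hn with h | h
    · left
      refine hdc _ _ (by rw [mul_smul, h.1, hsx]) ?_
      rw [mul_smul, mul_smul, h.1, hb', hsx]
      exact hxy.symm
    · by_cases hg : (s * b * n) • x = x
      · exact Or.inl (hdc' _ _ (by rw [mul_smul, h.1, hsy]) hg)
      · exact Or.inr (hdc _ _ h.1 hg)
  · intro s' hs' h
    obtain rfl : s = s' := hs'.symm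
    obtain ⟨b, hb1, hb2⟩ := h2 hxy hxz
    have h1 : s * b * s ∈ (MulAction.stabilizer G x : Set G) := h ▸ ⟨b, hb1, rfl⟩
    have h3 : (s * b * s) • x = x := h1
    rw [mul_smul, mul_smul, hsx, hb2] at h3
    exact hyz (MulAction.injective s (hsy.trans h3.symm))

end Cfsg.Agent.S0323
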