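import Mathlib
import Cfsg.Statements.S0326
-- import your own Cfsg.Agent.* helpers here

set_option autoImplicit false
open Cfsg

namespace Cfsg.Agent.S0326


/-- The Suzuki–Tits ovoid over a finite field with `q` elements has `q² + 1` points. -/
theorem result {F : Type*} [Field F] [Fintype F] (m : ℕ) :
    Nat.card (Cfsg.suzukiOvoid F m) = Fintype.card F ^ 2 + 1 := by
  have hne : ∀ x y : F, (![x * y + x ^ (2 ^ (m + 1) + 2) + y ^ (2 ^ (m + 1)), y, x, 1] : Fin 4 → F) ≠ 0 := by
    intro x y h
    simpa using congrFun h 3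
  have h0 : (![1, 0, 0, 0] : Fin 4 → F) ≠ 0 := by simp
  let f : Option (F × F) → Cfsg.suzukiOvoid F m := fun o =>
    o.elim ⟨Projectivization.mk F _ h0, _, h0, rfl, Or.inl rfl⟩
      fun p => ⟨Projectivization.mk F _ (hne p.1 p.2), _, hne p.1 p.2, rfl, Or.inr ⟨p.1, p.2, rfl⟩⟩
  have hf : Function.Bijective f := by
    constructor
    · rintro (_ | ⟨x, y⟩) (_ | ⟨x', y'⟩) h
      · rfl
      · obtain ⟨c, hc⟩ := (Projectivization.mk_eq_mk_iff' _ _ _ _ _).mp (congrArg Subtype.val h.symm)
        simpa using congrFun hc 3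
      · obtain ⟨c, hc⟩ := (Projectivization.mk_eq_mk_iff' _ _ _ _ _).mp (congrArg Subtype.val h)
        simpa using congrFun hc 3
      · obtain ⟨c, hc⟩ := (Projectivization.mk_eq_mk_iff' _ _ _ _ _).mp (congrArg Subtype.val h)
        have h3 : c = 1 := by simpa using congrFun hc 3
        subst h3
        have h1 : y' = y := by simpa using congrFun hc 1
        have h2 : x' = x := by simpa using congrFun hc 2
        rw [h1, h2]
    · rintro ⟨_, v, hv, rfl, rfl | ⟨x, y, rfl⟩⟩
      · exact ⟨none, rfl⟩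
      · exact ⟨some (x, y), rfl⟩
  rw [← Nat.card_congr (Equiv.ofBijective f hf), Finite.card_option, Nat.card_prod, sq,
    Nat.card_eq_fintype_card]

end Cfsg.Agent.S0326
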