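import Mathlib
import Cfsg.Statements.S0327
import Cfsg.Agent.Chev.SzLocal
-- import your own Cfsg.Agent.* helpers here

set_option autoImplicit false
open Cfsg

namespace Cfsg.Agent.S0327

open Cfsg.Agent.Chev.Sz

/-- The Suzuki group (`m ≥ 1`) is a Zassenhaus group on the `q² + 1` points of the Suzuki–Tits ovoid. -/
theorem result {F : Type*} [Field F] [Fintype F] {m : ℕ} (hm : 1 ≤ m)
    (hF : Fintype.card F = 2 ^ (2 * m + 1)) :
    Cfsg.IsZassenhausGroup (Cfsg.Sz F m) (Cfsg.suzukiOvoid F m) := by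
  have := SzF.of_card hm hF
  obtain ⟨k, hk⟩ := exists_units_ne_one F
  refine ⟨inferInstance, inferInstance, fun g a b c hab hbc hac ha hb hc =>
    eq_one_of_fix_three hab hbc hac ha hb hc,
    ⟨he k, by simpa using hk, inf, pt 0 0, by simp, by simp, by simp⟩, fun N hN htr => ?_⟩
  rcases hN.eq_bot_or_eq_top with rfl | rfl
  · obtain ⟨⟨g, hg⟩, h⟩ := htr.exists_smul_eq inf (pt 0 0)
    rw [Subgroup.mem_bot] at hg
    subst hg
    exact absurd ((one_smul (Cfsg.Sz F m) (inf : Ov F m)).symm.trans h) (by simp)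
  · refine ⟨inf, fun h => ?_⟩
    have : (⟨he k, Subgroup.mem_top _⟩ : (⊤ : Subgroup (Cfsg.Sz F m))) ∈
      MulAction.stabilizer (⊤ : Subgroup (Cfsg.Sz F m)) (inf : Ov F m) := he_smul_inf k
    rw [h, Subgroup.mem_bot] at this
    exact hk (he_eq_one.mp (congrArg Subtype.val this))

end Cfsg.Agent.S0327
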