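import Mathlib
import Cfsg.Statements.S0329
import Cfsg.Agent.Chev.SzLocal
-- import your own Cfsg.Agent.* helpers here

set_option autoImplicit false
open Cfsg

namespace Cfsg.Agent.S0329

open Cfsg.Agent.Chev.Sz

/-- The stabiliser in the Suzuki group of the ovoid point spanned by `(1,0,0,0)` has order `q² (q - 1)`. -/
theorem result {F : Type*} [Field F] [Fintype F] {m : ℕ} (hm : 1 ≤ m)
    (hF : Fintype.card F = 2 ^ (2 * m + 1)) :
    Nat.card (MulAction.stabilizer (Cfsg.Sz F m) (Cfsg.suzukiPointInfinity F)) =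
      (2 ^ (2 * m + 1)) ^ 2 * (2 ^ (2 * m + 1) - 1) := by
  have := SzF.of_card hm hF
  have h : MulAction.stabilizer (Cfsg.Sz F m) (Cfsg.suzukiPointInfinity F) = borel F m := by
    ext g
    rw [MulAction.mem_stabilizer_iff, MulAction.mem_stabilizer_iff, Subtype.ext_iff, coe_smul_ov, coe_inf]
    rfl
  rw [h, card_borel, card_F F]

end Cfsg.Agent.S0329
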