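import Mathlib
import Cfsg.Statements.S0335
import Cfsg.Agent.Chev.SzLocal
-- import your own Cfsg.Agent.* helpers here

set_option autoImplicit false
open Cfsg

namespace Cfsg.Agent.S0335

open Cfsg.Agent.Chev.Sz

/-- The Suzuki–Tits point set is an ovoid: any three distinct points of it are projectively independent
(no line of projective 3-space meets it in more than two points). -/
theorem result {F : Type*} [Field F] [Fintype F] {m : ℕ} (hm : 1 ≤ m)
    (hF : Fintype.card F = 2 ^ (2 * m + 1)) (p : Fin 3 ↪ Cfsg.suzukiOvoid F m) :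
    Projectivization.Independent (fun i => (p i : Projectivization F (Fin 4 → F))) := by
  have := SzF.of_card hm hF
  obtain ⟨g, h0, h1⟩ := exists_smul_pair (P := p 0) (Q := p 1) (p.injective.ne (by decide))
  obtain ⟨x, y, h2⟩ := exists_pt_of_ne (P := g⁻¹ • p 2) (fun h =>
    p.injective.ne (show (2 : Fin 3) ≠ 0 by decide) (by rw [← h0, ← h, smul_inv_smul]))
  have hxy : ¬ (x = 0 ∧ y = 0) := by
    rintro ⟨rfl, rfl⟩
    exact p.injective.ne (show (2 : Fin 3) ≠ 1 by decide) (by rw [← h1, ← h2, smul_inv_smul])
  rw [inv_smul_eq_iff] at h2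
  let v : Fin 3 → Fin 4 → F := ![![1, 0, 0, 0], ovec 0 0, ovec x y]
  have hv : LinearIndependent F v := by
    rw [Fintype.linearIndependent_iff]
    intro c hc
    have e0 := congrFun hc 0
    have e1 := congrFun hc 1
    have e2 := congrFun hc 2
    have e3 := congrFun hc 3
    simp [v, Fin.sum_univ_succ, ovec] at e0 e1 e2 e3
    have c2 : c 2 = 0 := by tauto
    intro i
    fin_cases i <;> simp_all
  let L : (Fin 4 → F) ≃ₗ[F] (Fin 4 → F) := DistribMulAction.toLinearEquiv F _
    (g : Matrix.SpecialLinearGroup (Fin 4) F)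
  have hv' := hv.map' L.toLinearMap L.ker
  have := Projectivization.Independent.mk _ (fun i => hv'.ne_zero i) hv'
  convert this using 2 with i
  fin_cases i
  · exact congrArg Subtype.val h0.symm
  · exact congrArg Subtype.val h1.symm
  · exact congrArg Subtype.val h2

end Cfsg.Agent.S0335
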