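import Cfsg.Statements.S0341
import Cfsg.Agent.Perm.ZassElem
import Cfsg.Agent.Perm.Regular
import Cfsg.Agent.FT.Wielandt

set_option autoImplicit false
open Cfsg

namespace Cfsg.Agent.S0341

open Cfsg.Agent.Perm Cfsg.Agent.Perm.Zass MulAction in

/-- If a finite group acts faithfully and doubly transitively, no non-identity element fixes three points, some
non-identity element fixes two points, and some normal subgroup acts regularly, then the number of points
is `2^p` with `p` prime. -/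
theorem result {G Ω : Type*} [Group G]
    [MulAction G Ω] [Fintype Ω] [FaithfulSMul G Ω] (h2 : MulAction.IsMultiplyPretransitive G Ω 2)
    (h3 : ∀ g : G, ∀ a b c : Ω, a ≠ b → b ≠ c → a ≠ c → g • a = a → g • b = b → g • c = c → g = 1)
    (hfix : ∃ g : G, g ≠ 1 ∧ ∃ a b : Ω, a ≠ b ∧ g • a = a ∧ g • b = b)
    (N : Subgroup G) [N.Normal] (hNt : MulAction.IsPretransitive N Ω)
    (hNr : ∀ a : Ω, MulAction.stabilizer N a = ⊥) :
    ∃ p : ℕ, p.Prime ∧ Fintype.card Ω = 2 ^ p := by
  have hT := isZT_of inferInstance h2 h3 hfix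
  have := hT.finite
  obtain ⟨g, hg1, a, b, hab, hg⟩ := hfix
  obtain ⟨r, hr, hre⟩ := Nat.exists_prime_and_dvd ((Subgroup.one_lt_card_iff_ne_bot
    (stabilizer G a ⊓ stabilizer G b)).mpr fun e => hg1 (e.le (mem_stab2.mpr hg))).ne'
  have := Fact.mk hr
  obtain ⟨⟨x, hxab⟩, hx⟩ := exists_prime_orderOf_dvd_card' r hre
  rw [Subgroup.orderOf_mk] at hx
  obtain ⟨hxa, hxb⟩ := mem_stab2.mp hxab
  have hx1 : x ≠ 1 := fun e => hr.one_lt.ne' (by rw [← hx, e, orderOf_one])
  obtain ⟨hc, p, hp, hpow⟩ := elementary_of_regular_normal h2 N (hNr a)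
  obtain ⟨m, hm⟩ := card_eq_prime_pow_of_forall_pow N hp hpow
  obtain ⟨⟨n, hn⟩, hnb⟩ := hNt.exists_smul_eq a b
  change n • a = b at hnb
  have hn1 : n ≠ 1 := fun e => hab (by rw [← hnb, e, one_smul])
  have hC : ((N ⊓ Subgroup.centralizer {x} : Subgroup G) : Set G) = {1, n} := by
    ext v
    constructor
    · rintro ⟨hv, hvx⟩
      have h1 : x • v • a = v • a := by
        rw [← mul_smul, ← Subgroup.mem_centralizer_singleton_iff.mp hvx, mul_smul, hxa]
      rcases hT.eq_or_eq hab hx1 hxa hxb h1 with e | e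
      · exact Or.inl (eq_of_smul_eq_of_semiregular (hNr a) hv N.one_mem (by rw [e, one_smul]))
      · exact Or.inr (eq_of_smul_eq_of_semiregular (hNr a) hv hn (by rw [e, hnb]))
    · rintro (rfl | rfl)
      · exact Subgroup.one_mem _
      · exact ⟨hn, Subgroup.mem_centralizer_singleton_iff.mpr (mul_inv_eq_iff_eq_mul.mp
          (conj_eq_of_regular_normal (hNr a) hxa hn hn (by rw [hnb, hxb]))).symm⟩
  have hC2 : Nat.card ↥(N ⊓ Subgroup.centralizer {x}) = 2 := by
    rw [← SetLike.coe_sort_coe, hC, Nat.card_coe_set_eq, Set.ncard_pair hn1.symm]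
  have hp2 : 2 = p := (Nat.prime_dvd_prime_iff_eq Nat.prime_two hp).mp (Nat.prime_two.dvd_of_dvd_pow
    (hm ▸ hC2 ▸ Subgroup.card_dvd_of_le inf_le_left))
  subst hp2
  have hN := card_subgroup_eq_of_regular N a (hNr a)
  have h3 := hT.three_le_card
  rw [← Nat.card_eq_fintype_card, ← hN]
  by_cases hr2 : r = 2
  · subst hr2
    have hxx := (orderOf_eq_two_iff'.mp hx).1
    have h4 : ({a, b}ᶜ : Set Ω) ⊆ fixedBy Ω (n * x) := fun c hc => by
      obtain ⟨⟨v, hv⟩, hvc⟩ := hNt.exists_smul_eq c (x • c)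
      change v • c = x • c at hvc
      have hvv : v * v = 1 := by rw [← sq, hpow v hv]
      have h5 : v • x • c = c := by rw [← hvc, ← mul_smul, hvv, one_smul]
      have h6 : v ∈ N ⊓ Subgroup.centralizer {x} := ⟨hv, Subgroup.mem_centralizer_singleton_iff.mpr
        (mul_inv_eq_iff_eq_mul.mp (eq_of_smul_eq_of_semiregular (hNr (x • c))
          (Subgroup.Normal.conj_mem inferInstance v hv x) hv (by
            rw [mul_smul, mul_smul, inv_smul_smul, hvc, ← mul_smul, hxx, one_smul, h5]))).symm⟩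
      rcases hC.le h6 with rfl | rfl
      · exact absurd (hT.eq_or_eq hab hx1 hxa hxb (by rw [← hvc, one_smul])) hc
      · rw [mem_fixedBy, mul_smul, h5]
    have h5 := hT.card_fixedBy_le (s := n * x) fun e => hab (by
      rw [← hnb, ← hxa, ← mul_smul, e, one_smul, hxa])
    have h6 := Set.ncard_le_ncard h4
    rw [Set.ncard_compl, Set.ncard_pair hab, ← Nat.card_coe_set_eq] at h6
    refine ⟨2, hr, ?_⟩
    rw [← hN, hm] at h3 h6
    rw [hm]
    rcases m with _ | _ | _ | m
    · omega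
    · omega
    · rfl
    · have := Nat.one_le_two_pow (n := m)
      rw [pow_succ, pow_succ, pow_succ] at h6
      omega
  obtain ⟨H, hH⟩ := hT.exists_isKer a
  have hle : Subgroup.zpowers x ≤ stabilizer G a ⊓ stabilizer G b := Subgroup.zpowers_le.mpr ⟨hxa, hxb⟩
  have hS : FT.Sdprod H (Subgroup.zpowers x) (H ⊔ Subgroup.zpowers x) :=
    ⟨rfl, eq_bot_iff.mpr ((inf_le_inf_left _ (hle.trans inf_le_right)).trans (hH.inf_stab hab.symm).le),
      (hle.trans inf_le_left).trans hH.le_normalizer⟩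
  have h4 := (FT.Frobenius_Wielandt_fixpoint (M := N) ⟨hS, hH.ne_bot hT, Subgroup.zpowers_ne_bot.mpr hx1,
    fun y hy hy1 => hH.inf_centralizer_of_mem hT hab.symm (hle hy).2 hy1⟩
    (by rw [Subgroup.normalizer_eq_top]; exact le_top) (by
      rw [← hS.card_eq, Nat.card_zpowers, hx, hm]
      refine Nat.Coprime.pow_left _ (Nat.coprime_two_left.mpr (Odd.mul ?_ (hr.odd_of_ne_two hr2)))
      have h5 := hH.card_add_one hT
      rw [← hN, hm] at h5 h3
      rcases m with _ | m
      · omega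
      · rw [pow_succ] at h5; exact Nat.odd_iff.mpr (by omega))
    (Group.isSolvable_of_comm hc.is_comm.comm)).2.2 (by
      obtain ⟨⟨u, hu⟩, hu1⟩ := Subgroup.ne_bot_iff_exists_ne_one.mp (hH.ne_bot hT)
      exact eq_bot_iff.mpr fun v hv => eq_of_smul_eq_of_semiregular (hNr a) hv.1 N.one_mem (by
        rw [one_smul, hH.smul_eq (hH.mem_of_commute hT hu (fun e => hu1 (Subtype.ext e))
          (hv.2 u hu).symm)]))
  rw [Nat.card_zpowers, hx, Subgroup.zpowers_eq_closure, Subgroup.centralizer_closure, hC2] at h4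
  exact ⟨r, hr, h4⟩

end Cfsg.Agent.S0341
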