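import Mathlib
import Cfsg.Statements.S0353
import Cfsg.Agent.Spor.GolayCount
-- import your own Cfsg.Agent.* helpers here

set_option autoImplicit false
open Cfsg

namespace Cfsg.Agent.S0353

/-- In an S(5, 8, 24), the symmetric difference of two blocks meeting in four points is a block. -/
theorem result {α : Type*} [Fintype α] [DecidableEq α] (hα : Fintype.card α = 24) {B : Set (Finset α)} (hB : Cfsg.IsSteinerSystem 5 8 B) {b c : Finset α} (hb : b ∈ B) (hc : c ∈ B) (h4 : (b ∩ c).card = 4) : symmDiff b c ∈ B := by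
  rw [Spor.BinCode.mem_iff_spanCode hα hB]
  refine ⟨Spor.BinCode.IsGolay.symmDiff_mem (Spor.BinCode.ind_mem_spanCode hb)
    (Spor.BinCode.ind_mem_spanCode hc), ?_⟩
  have h1 := Spor.BinCode.card_symmDiff_add b c
  rw [h4, hB.1 b hb, hB.1 c hc] at h1
  omega

end Cfsg.Agent.S0353
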