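import Mathlib
import Cfsg.Statements.S0354
import Cfsg.Agent.Spor.Steiner
-- import your own Cfsg.Agent.* helpers here

set_option autoImplicit false
open Cfsg

namespace Cfsg.Agent.S0354

/-- In an S(5, 8, 24), each block is disjoint from exactly 30 blocks. -/
theorem result {α : Type*} [Fintype α] [DecidableEq α] (hα : Fintype.card α = 24) {B : Set (Finset α)} (hB : Cfsg.IsSteinerSystem 5 8 B) {b : Finset α} (hb : b ∈ B) : {c : Finset α | c ∈ B ∧ Disjoint b c}.ncard = 30 := by
  rw [Spor.Steiner.ncard_eq_card_filter, ← (Spor.Steiner.nb_block_24 hα hB hb).1, Spor.Steiner.nb]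
  congr 1
  ext c
  simp only [Finset.mem_filter, Finset.card_eq_zero, ← Finset.disjoint_iff_inter_eq_empty,
    disjoint_comm]

end Cfsg.Agent.S0354
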