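import Mathlib
import Cfsg.Statements.S0371
import Cfsg.Agent.Spor.Golay
-- import your own Cfsg.Agent.* helpers here

set_option autoImplicit false
open Cfsg

namespace Cfsg.Agent.S0371

/-- Multiplication by a nonzero square residue modulo 23, fixing the extra point, lies in the group of the length-24 code. -/
theorem result (u : (ZMod 23)ˣ) (hu : IsSquare u) : Equiv.optionCongr (Units.mulLeft u) ∈ Cfsg.M24 := by
  obtain ⟨r, rfl⟩ := hu
  have h2 : ∀ r : ZMod 23, r ≠ 0 → r * r ∈ ([1, 2, 3, 4, 6, 8, 9, 12, 13, 16, 18] : List (ZMod 23)) := by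
    decide +kernel
  have key : ∀ s ∈ ([1, 2, 3, 4, 6, 8, 9, 12, 13, 16, 18] : List (ZMod 23)), ∀ i : Fin 12,
      ∃ m ∈ [Spor.Golay.comb (fun k => 2 ^ k) 0 0 + (List.range 24).foldl (fun a k =>
        if Spor.Golay.gb i (Option.map (fun y => s * y) (Spor.Golay.ptOf k)) = 1 then a + 2 ^ k else a) 0],
      Spor.Golay.isCode m = true ∧
        ∀ x, Spor.Golay.gb i (Option.map (fun y => s * y) x) = Spor.Golay.maskWord m x := by
    decide +kernel
  rw [Spor.Golay.mem_M24_iff_basis]
  intro i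
  have : Fact (Nat.Prime 23) := ⟨by norm_num⟩
  obtain ⟨m, -, hm, hx⟩ := key _ (h2 r r.ne_zero) i
  rw [← Spor.Golay.maskWord_mem_iff] at hm
  convert hm using 1
  funext x
  exact hx x

end Cfsg.Agent.S0371
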