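import Mathlib
import Cfsg.Statements.S0373
import Cfsg.Agent.Spor.Golay
-- import your own Cfsg.Agent.* helpers here

set_option autoImplicit false
open Cfsg

namespace Cfsg.Agent.S0373

/-- The cube-twist permutation (squares t ↦ t^3/9, non-squares t ↦ 9t^3, extra point fixed) lies in the group of the length-24 code. -/
theorem result : Cfsg.cubeTwist ∈ Cfsg.M24 := by
  rw [Spor.Golay.mem_M24_iff_basis]
  simp only [Spor.Golay.mem_golay_iff]
  change ∀ i j : Fin 12, ∑ x, Spor.Golay.gb j x * Spor.Golay.gb i (cubeTwistFun x) = 0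
  decide +kernel

end Cfsg.Agent.S0373
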