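import Mathlib
import Cfsg.Statements.S0377
import Cfsg.Agent.Spor.M24
-- import your own Cfsg.Agent.* helpers here

set_option autoImplicit false
open Cfsg

namespace Cfsg.Agent.S0377

/-- A point stabiliser in the group of the length-24 code is simple. -/
theorem result (p : Cfsg.GolayPt) : IsSimpleGroup (MulAction.stabilizer Cfsg.M24 p) := by
  obtain ⟨e⟩ := Spor.Golay.nonempty_equiv_Fix (MulAction.stabilizer M24 p) {p} (by simp)
  rw [e.isSimpleGroup_congr]
  exact Spor.Golay.simple_Fix (by simp)

end Cfsg.Agent.S0377
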