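import Mathlib
import Cfsg.Statements.S0379
import Cfsg.Agent.Spor.M24
-- import your own Cfsg.Agent.* helpers here

set_option autoImplicit false
open Cfsg

namespace Cfsg.Agent.S0379

/-- A two-point stabiliser in the group of the length-24 code is simple. -/
theorem result (p q : Cfsg.GolayPt) (hpq : p ≠ q) : IsSimpleGroup ↥(MulAction.stabilizer Cfsg.M24 p ⊓ MulAction.stabilizer Cfsg.M24 q) := by
  obtain ⟨e⟩ := Spor.Golay.nonempty_equiv_Fix
    (MulAction.stabilizer M24 p ⊓ MulAction.stabilizer M24 q) {p, q} (by simp)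
  rw [e.isSimpleGroup_congr]
  exact Spor.Golay.simple_Fix (by rw [Finset.card_pair hpq]; norm_num)

end Cfsg.Agent.S0379
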