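import Mathlib
import Cfsg.Statements.S0384
import Cfsg.Agent.Spor.Dodecad
-- import your own Cfsg.Agent.* helpers here

set_option autoImplicit false
open scoped Pointwise
open Cfsg

namespace Cfsg.Agent.S0384

/-- A dodecad stabiliser is sharply 5-transitive on the dodecad. -/
theorem result (d : Finset Cfsg.GolayPt) (hd : d ∈ Cfsg.dodecads) (x y : Fin 5 ↪ Cfsg.GolayPt) (hx : ∀ i, x i ∈ d) (hy : ∀ i, y i ∈ d) : ∃! g : MulAction.stabilizer Cfsg.M24 d, ∀ i, ((g : Cfsg.M24) : Equiv.Perm Cfsg.GolayPt) (x i) = y i := by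
  obtain ⟨g, hg, h1, h2⟩ := Spor.Dod.exists_map hd hd le_rfl x y x.injective y.injective hx hy
  refine ⟨⟨⟨g, hg⟩, h1⟩, h2, fun g' hg' => ?_⟩
  apply Subtype.ext
  apply Subtype.ext
  refine Spor.Dod.ext_five hd (g' : Cfsg.M24).2 hg (g'.2.trans h1.symm)
    (s := Finset.univ.map x) ?_ (by simp) ?_
  · intro z hz
    obtain ⟨i, -, rfl⟩ := Finset.mem_map.1 hz
    exact hx i
  · intro z hz
    obtain ⟨i, -, rfl⟩ := Finset.mem_map.1 hz
    exact (hg' i).trans (h2 i).symm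

end Cfsg.Agent.S0384
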