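import Mathlib
import Cfsg.Statements.S0386
import Cfsg.Agent.Spor.M12Mixed
-- import your own Cfsg.Agent.* helpers here

set_option autoImplicit false
open Cfsg

namespace Cfsg.Agent.S0386

open Cfsg.Agent.Spor Cfsg.Agent.Spor.MB Cfsg.Agent.Spor.Dod MulAction
open scoped Pointwise


/-- For a fixed dodecad, 132 octads meet it in 6 points, 132 in 2 points and 495 in 4 points. -/
theorem result (d : Finset Cfsg.GolayPt) (hd : d ∈ Cfsg.dodecads) : {o : Finset Cfsg.GolayPt | o ∈ Cfsg.octads ∧ (o ∩ d).card = 6}.ncard = 132 ∧ {o : Finset Cfsg.GolayPt | o ∈ Cfsg.octads ∧ (o ∩ d).card = 2}.ncard = 132 ∧ {o : Finset Cfsg.GolayPt | o ∈ Cfsg.octads ∧ (o ∩ d).card = 4}.ncard = 495 := by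
  obtain ⟨g, hg, rfl⟩ := Golay.exists_smul_dodecad_eq Dod.D0_mem hd
  have key : ∀ n, {o : Finset GolayPt | o ∈ octads ∧ (o ∩ g • D0).card = n}.ncard =
      cntL (fun m => Nat.beq (pc (Nat.land m 340831)) n) octL 0 := by
    intro n
    rw [← ncard_octads_filter (fun o => (o ∩ D0).card = n)]
    · rw [← Set.ncard_image_of_injective {o : Finset GolayPt | o ∈ octads ∧ (o ∩ D0).card = n}
        (MulAction.injective g)]
      congr 1
      ext o
      constructor
      · rintro ⟨ho, hn⟩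
        refine ⟨g⁻¹ • o, ⟨(smul_mem_octads_iff (M24.inv_mem hg)).2 ho, ?_⟩, smul_inv_smul g o⟩
        rw [← hn, ← Finset.card_smul_finset g, Finset.smul_finset_inter, smul_inv_smul]
      · rintro ⟨o, ⟨ho, hn⟩, rfl⟩
        refine ⟨(smul_mem_octads_iff hg).2 ho, ?_⟩
        rw [← hn, ← Finset.smul_finset_inter, Finset.card_smul_finset]
    · intro s _
      rw [card_eq_pc, mask_inter, mask_unmask (by norm_num), Nat.beq_eq]
  rw [key, key, key]
  decide +kernel

end Cfsg.Agent.S0386
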