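import Mathlib
import Cfsg.Statements.S0389
import Cfsg.Agent.Spor.M12Mixed
-- import your own Cfsg.Agent.* helpers here

set_option autoImplicit false
open scoped Pointwise
open Cfsg

namespace Cfsg.Agent.S0389

open Cfsg.Agent.Spor Cfsg.Agent.Spor.MB Cfsg.Agent.Spor.Dod MulAction


/-- The stabiliser of a dodecad and a point on it is 3-transitive on the complementary dodecad. -/
theorem result (d : Finset Cfsg.GolayPt) (hd : d ∈ Cfsg.dodecads) (p : Cfsg.GolayPt) (hp : p ∈ d) (x y : Fin 3 ↪ Cfsg.GolayPt) (hx : ∀ i, x i ∉ d) (hy : ∀ i, y i ∉ d) : ∃ g ∈ MulAction.stabilizer Cfsg.M24 d ⊓ MulAction.stabilizer Cfsg.M24 p, ∀ i, (g : Equiv.Perm Cfsg.GolayPt) (x i) = y i := by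
  obtain ⟨g, hg, h1, h2, h3, h4, h5⟩ := exists_map_one_three hd hd (hx 0) (hx 1) (hx 2) (hy 0) (hy 1)
    (hy 2) (x.injective.ne (by decide)) (x.injective.ne (by decide)) (x.injective.ne (by decide))
    (y.injective.ne (by decide)) (y.injective.ne (by decide)) (y.injective.ne (by decide)) hp hp
  refine ⟨⟨g, hg⟩, ⟨h1, h5⟩, fun i => ?_⟩
  fin_cases i
  exacts [h2, h3, h4]

end Cfsg.Agent.S0389
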