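import Mathlib
import Cfsg.Statements.S0405
import Cfsg.Agent.Spor.LC.HSMcL

set_option autoImplicit false
open Cfsg

namespace Cfsg.Agent.S0405

/-- Joint stabiliser of two vectors of sum of squares 48 with coordinate dot product −32 is simple of order 44352000. -/
theorem result (v w : Cfsg.leechLattice) (hv : Cfsg.sqNorm (v : Cfsg.GolayPt → ℤ) = 48) (hw : Cfsg.sqNorm (w : Cfsg.GolayPt → ℤ) = 48) (hvw : Cfsg.dotInt (v : Cfsg.GolayPt → ℤ) (w : Cfsg.GolayPt → ℤ) = -32) : Cfsg.IsHS ↥(MulAction.stabilizer Cfsg.Co0 v ⊓ MulAction.stabilizer Cfsg.Co0 w) := by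
  open Cfsg.Agent.Spor.Leech Cfsg.Agent.Spor.LC in
  have hv' : nm v = 48 := hv
  have hw' : nm w = 48 := hw
  have hvw' : ip v w = -32 := hvw
  have hb : nm (v + w) = 32 := by rw [nm_add]; omega
  have hvb : ip v (v + w) = 16 := by rw [ip_add_right, ip_self]; omega
  obtain ⟨g, e1, e2⟩ := std_UB hv' hb hvb
  obtain ⟨e⟩ := nonempty_St2_smul g vU vB
  have h : St2 (g • vU) (g • vB) = St2 v w := by
    ext a
    rw [e1, e2, mem_St2, mem_St2, smul_add]
    exact ⟨fun h => ⟨h.1, by simpa [h.1] using h.2⟩, fun h => ⟨h.1, by rw [h.1, h.2]⟩⟩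
  rw [h] at e
  have := simple_HS
  exact ⟨e.isSimpleGroup, (Nat.card_congr e.toEquiv).trans card_HS⟩

end Cfsg.Agent.S0405
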