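import Mathlib
import Cfsg.Statements.S0427
import Cfsg.Agent.Spor.SrgBasic
import Cfsg.Agent.Spor.Design22

set_option autoImplicit false
open Cfsg

namespace Cfsg.Agent.S0427

/-- The block graph (adjacent = disjoint) of an S(3, 6, 22) is strongly regular with parameters (77, 16, 0, 4). -/
theorem result {α : Type*} [Fintype α] (hα : Fintype.card α = 22) {B : Set (Finset α)} (hB : Cfsg.IsSteinerSystem 3 6 B) [Fintype B] [DecidableRel (Cfsg.blockGraph B).Adj] : (Cfsg.blockGraph B).IsSRGWith 77 16 0 4 := by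
  classical
  refine Spor.Srg.srg_mk_ncard (Spor.D22.ncount0 hα hB) (fun b => ?_) (fun b c h => ?_)
    (fun b c hne h => ?_)
  · simp only [Spor.D22.blockGraph_adj hB]
    exact Spor.D22.ncount_disj hα hB b.2
  · simp only [Spor.D22.blockGraph_adj hB] at h ⊢
    exact Spor.D22.ncount_disj_disj_zero hα hB b.2 c.2 h.symm
  · simp only [Spor.D22.blockGraph_adj hB] at h ⊢
    exact Spor.D22.ncount_disj_disj_four hα hB b.2 c.2 (fun h' => hne (Subtype.ext h'))
        (fun h' => h h'.symm)

end Cfsg.Agent.S0427
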