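import Mathlib
import Cfsg.Statements.S0442
import Cfsg.Agent.Inv.Basic

set_option autoImplicit false
open Cfsg

namespace Cfsg.Agent.S0442

/-- A standard trick for producing elements of an involution centraliser: for an involution a and an element g, let b be the conjugate g⁻¹ * a * g. If a * b has odd order 2m + 1 then g * (a * b) ^ m commutes with a; if a * b has even order 2m then (a * b) ^ m and (a * (g * a * g⁻¹)) ^ m commute with a. -/
theorem result {G : Type*} [Group G] (a g : G) (ha : orderOf a = 2) : (∀ m : ℕ, orderOf (a * (g⁻¹ * a * g)) = 2 * m + 1 → Commute (g * (a * (g⁻¹ * a * g)) ^ m) a) ∧ (∀ m : ℕ, orderOf (a * (g⁻¹ * a * g)) = 2 * m → Commute ((a * (g⁻¹ * a * g)) ^ m) a ∧ Commute ((a * (g * a * g⁻¹)) ^ m) a) := by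
  have ha2 := Inv.mul_self_of_two ha
  have hb2 : ∀ g : G, (g⁻¹ * a * g) * (g⁻¹ * a * g) = 1 := fun g =>
    Inv.mul_self_of_two (by rw [Inv.orderOf_conj_inv, ha])
  have hb2' : (g * a * g⁻¹) * (g * a * g⁻¹) = 1 := by simpa using hb2 g⁻¹
  constructor
  · intro m hm
    set c := a * (g⁻¹ * a * g) with hc
    have hinv : a * c * a⁻¹ = c⁻¹ := Inv.left_inverts_mul ha2 (hb2 g)
    have h1 : c ^ m * a = a * (c ^ m)⁻¹ := by
      rw [← Inv.conj_pow_of_inverts hinv, Inv.inv_of_mul_self ha2, ← mul_assoc, ← mul_assoc, ha2, one_mul]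
    have h2 : (c ^ m)⁻¹ = c * c ^ m := by
      apply inv_eq_of_mul_eq_one_right
      rw [← pow_succ', ← pow_add, show m + (m + 1) = 2 * m + 1 by ring, ← hm, pow_orderOf_eq_one]
    change g * c ^ m * a = a * (g * c ^ m)
    rw [mul_assoc, h1, h2, hc, ← mul_assoc a, Inv.mul_mul_cancel_of_mul_self ha2]
    group
  · intro m hm
    have h1 : (a * (g⁻¹ * a * g)) ^ m * (a * (g⁻¹ * a * g)) ^ m = 1 := by
      rw [← pow_add, ← two_mul, ← hm, pow_orderOf_eq_one]
    refine ⟨(Inv.commute_of_mem_zpowers_mul ha2 (hb2 g) h1 (Subgroup.npow_mem_zpowers _ _)).1,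
      (Inv.commute_of_mem_zpowers_mul ha2 hb2' ?_ (Subgroup.npow_mem_zpowers _ _)).1⟩
    have h2 : a * (g * a * g⁻¹) = (g * a) * (a * (g⁻¹ * a * g)) * (g * a)⁻¹ := by
      calc a * (g * a * g⁻¹) = g * (a * a) * g⁻¹ * (a * g * a * g⁻¹) := by rw [ha2]; group
        _ = _ := by rw [mul_inv_rev, Inv.inv_of_mul_self ha2]; group
    rw [← pow_add, ← two_mul, ← hm, h2, conj_pow, pow_orderOf_eq_one]
    simp

end Cfsg.Agent.S0442
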