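import Cfsg.Statements.S0458
import Cfsg.Agent.Spor.J3.Main
import Cfsg.Agent.Cl.GFSmall

set_option autoImplicit false
open Cfsg

namespace Cfsg.Agent.S0458

/-- Janko's third group exists as a transitive permutation group of degree 6156 with point stabiliser of order 8160: a simple group of order 50232960. -/
theorem result : ∃ H : Subgroup (Equiv.Perm (Fin 6156)), Cfsg.IsJ3 H ∧ MulAction.IsPretransitive H (Fin 6156) ∧ Nat.card (MulAction.stabilizer H (0 : Fin 6156)) = 8160 := by
  have := Fact.mk Cl.card_GF4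
  have := Fact.mk Cl.prim_rel_GF4
  obtain ⟨K, hK⟩ := Spor.MJ3.exists_index_6156 Cl.GF4 (Cl.TF.prim Cl.gf4)
  have hc := Spor.MJ3.card_J3 Cl.GF4 (Cl.TF.prim Cl.gf4)
  obtain ⟨H, e, h1, h2⟩ := Spor.NM.exists_perm_rep K hK (by norm_num)
  refine ⟨H, ⟨e.symm.isSimpleGroup, by rw [← Nat.card_congr e.toEquiv, hc]⟩, h1, ?_⟩
  have h3 := K.index_mul_card
  rw [hK, hc] at h3
  rw [h2, Subgroup.card_map_of_injective e.injective]
  omega

end Cfsg.Agent.S0458
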