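import Cfsg.Statements.S0459
import Cfsg.Agent.Spor.Ru.Tits
import Cfsg.Agent.Spor.Comp.Range

set_option autoImplicit false
open Cfsg

namespace Cfsg.Agent.S0459

/-- The Rudvalis group exists as a transitive permutation group of degree 4060: simple of order 145926144000, with point stabiliser of order 35942400 containing a simple subgroup of order 17971200 (the order of the Tits group). -/
theorem result : ∃ H : Subgroup (Equiv.Perm (Fin 4060)), Cfsg.IsRu H ∧ MulAction.IsPretransitive H (Fin 4060) ∧ Nat.card (MulAction.stabilizer H (0 : Fin 4060)) = 35942400 ∧ ∃ T : Subgroup (MulAction.stabilizer H (0 : Fin 4060)), Cfsg.IsTits T := by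
  obtain ⟨ψ⟩ := Spor.range_stabilizer_equiv Spor.MRu.phi_injective (x := 0) (K := Spor.MRu.H)
    (fun g => by rw [Spor.MRu.levelH.eq_stabilizer]; rfl)
  have e := Subgroup.subgroupOfEquivOfLe Spor.MRu.tits_le
  have := Spor.MRu.tits_simple
  exact ⟨Spor.MRu.phi.range, Spor.simple_range _ Spor.MRu.phi_injective ⟨Spor.MRu.simple, Spor.MRu.card⟩,
    Spor.range_pretransitive Spor.MRu.transitive, (Nat.card_congr ψ.toEquiv).symm.trans Spor.MRu.card_H,
    Spor.exists_simple_of_injective ψ.toMonoidHom ψ.injective _
      ⟨e.isSimpleGroup, (Nat.card_congr e.toEquiv).trans Spor.MRu.tits_card⟩⟩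

end Cfsg.Agent.S0459
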