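import Mathlib
import Cfsg.Statements.S0461
import Cfsg.Agent.Spor.J4.Main

set_option autoImplicit false
open Cfsg

namespace Cfsg.Agent.S0461

theorem aux {G : Type} [Group G] {n : ℕ} (h : Cfsg.IsJ4 G) {φ : G →* Spor.NM.F2.GL2 n} (hφ : Function.Injective φ) :
    ∃ H : Subgroup (GL (Fin n) (ZMod 2)), Cfsg.IsJ4 H := by
  have e := MonoidHom.ofInjective (f := (Spor.NM.F2.toGL n).toMonoidHom.comp φ) ((Spor.NM.F2.toGL n).injective.comp hφ)
  have := h.1
  exact ⟨_, e.symm.isSimpleGroup, (Nat.card_congr e.toEquiv).symm.trans h.2⟩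

/-- Janko's fourth group exists as a group of 112 × 112 matrices over the field with two elements: GL(112, 2) has a simple subgroup of order 86775571046077562880. -/
theorem result : ∃ H : Subgroup (GL (Fin 112) (ZMod 2)), Cfsg.IsJ4 H := by
  exact aux ⟨Spor.J4C.simple_J4, Spor.J4C.card_J4⟩ Spor.J4C.phi_injective

end Cfsg.Agent.S0461
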