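import Cfsg.Statements.S0462
import Cfsg.Agent.Spor.He.Sp
import Cfsg.Agent.Spor.Comp.Range

set_option autoImplicit false
open Cfsg

namespace Cfsg.Agent.S0462

/-- The Held group exists as a transitive permutation group of degree 2058: simple of order 4030387200, with point stabiliser containing, with index 2, a copy of the 4-dimensional symplectic group over the field with four elements. -/
theorem result : ∃ H : Subgroup (Equiv.Perm (Fin 2058)), Cfsg.IsHe H ∧ MulAction.IsPretransitive H (Fin 2058) ∧ ∃ (F : Type) (_ : Field F) (_ : Fintype F), Fintype.card F = 4 ∧ ∃ N : Subgroup (MulAction.stabilizer H (0 : Fin 2058)), N.index = 2 ∧ Nonempty (N ≃* Matrix.symplecticGroup (Fin 2) F) := by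
  obtain ⟨N, -, h2, h3⟩ := Spor.MHe.exists_Sp44
  obtain ⟨ψ⟩ := Spor.range_stabilizer_equiv Spor.MHe.phi_injective (x := 0) (K := Spor.MHe.H)
    (fun g => by rw [Spor.MHe.levelH.eq_stabilizer]; rfl)
  exact ⟨Spor.MHe.phi.range, Spor.simple_range _ Spor.MHe.phi_injective ⟨Spor.MHe.simple, Spor.MHe.card⟩,
    Spor.range_pretransitive Spor.MHe.transitive, Cl.GF4, inferInstance, inferInstance, Cl.card_GF4,
    Spor.exists_subgroup_of_equiv ψ h2 h3⟩

end Cfsg.Agent.S0462
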