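import Cfsg.Statements.S0463
import Cfsg.Agent.Spor.HN.A12
import Cfsg.Agent.Spor.NM.Struct

set_option autoImplicit false
open Cfsg

namespace Cfsg.Agent.S0463

/-- The Harada–Norton group exists as a transitive permutation group of degree 1140000: simple of order 273030912000000 with point stabiliser isomorphic to the alternating group of degree 12. -/
theorem result : ∃ H : Subgroup (Equiv.Perm (Fin 1140000)), Cfsg.IsHN H ∧ MulAction.IsPretransitive H (Fin 1140000) ∧ Nonempty (MulAction.stabilizer H (0 : Fin 1140000) ≃* alternatingGroup (Fin 12)) := by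
  obtain ⟨φ, hφ⟩ := Cfsg.Agent.Spor.MHN.exists_A12
  have hc := Cfsg.Agent.Spor.MHN.card
  have h0 : Nat.card φ.range = 239500800 := by
    rw [← Nat.card_congr (MonoidHom.ofInjective hφ).toEquiv, nat_card_alternatingGroup]
    simp [Nat.factorial]
  have hK : φ.range.index = 1140000 := by
    have h3 := φ.range.index_mul_card
    rw [h0, hc] at h3
    omega
  obtain ⟨H, e, h1, h2⟩ := Cfsg.Agent.Spor.NM.exists_perm_rep φ.range hK (by norm_num)
  refine ⟨H, ⟨e.symm.isSimpleGroup, by rw [← Nat.card_congr e.toEquiv, hc]⟩, h1, ?_⟩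
  rw [h2]
  exact ⟨(e.subgroupMap φ.range).symm.trans (MonoidHom.ofInjective hφ).symm⟩

end Cfsg.Agent.S0463
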