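import Cfsg.Statements.S0464
import Cfsg.Agent.Spor.Th.Main

set_option autoImplicit false
open Cfsg

namespace Cfsg.Agent.S0464

theorem aux {G H Q : Type*} [Group G] [Group H] [Group Q] [IsSimpleGroup G] {ρ : G →* Q} {ψ : H →* G}
    (h1 : Function.Injective ρ) (h2 : Function.Injective ψ) (h3 : Nat.card G = 90745943887872000)
    (h4 : ψ.range.index = 143127000) (L : Subgroup H) [IsSimpleGroup L] (h5 : Nat.card L = 211341312) :
    ∃ H : Subgroup Q, Cfsg.IsTh H ∧ ∃ K : Subgroup H, K.index = 143127000 ∧ ∃ L : Subgroup H, L ≤ K ∧ Cfsg.Is3D4 L := by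
  let f := MonoidHom.ofInjective h1
  have hi : Function.Injective (f.toMonoidHom.comp ψ) := f.injective.comp h2
  refine ⟨ρ.range, ⟨f.symm.isSimpleGroup, (Nat.card_congr f.toEquiv).symm.trans h3⟩,
    ψ.range.map f.toMonoidHom, (Subgroup.index_map_of_bijective f.bijective _).trans h4,
    L.map (f.toMonoidHom.comp ψ), ?_, (L.equivMapOfInjective _ hi).symm.isSimpleGroup, 2, Nat.prime_two.isPrimePow, ?_⟩
  · rintro _ ⟨y, -, rfl⟩
    exact ⟨_, ⟨y, rfl⟩, rfl⟩
  · rw [Subgroup.card_map_of_injective hi, h5]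
    norm_num

/-- The Thompson group exists as a group of 248 × 248 matrices over the field with three elements: a simple subgroup of GL(248, 3) of order 90745943887872000, possessing a subgroup of index 143127000 which contains a simple subgroup of the order of a triality-twisted D4 group. -/
theorem result : ∃ H : Subgroup (GL (Fin 248) (ZMod 3)), Cfsg.IsTh H ∧ ∃ K : Subgroup H, K.index = 143127000 ∧ ∃ L : Subgroup H, L ≤ K ∧ Cfsg.Is3D4 L := by
  exact aux Cfsg.Agent.Spor.MTh.rho_inj Cfsg.Agent.Spor.MTh.psi_inj Cfsg.Agent.Spor.MTh.card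
    Cfsg.Agent.Spor.MTh.index_eq Cfsg.Agent.Spor.MTh.LL Cfsg.Agent.Spor.MTh.cardL

end Cfsg.Agent.S0464
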