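import Mathlib
import Cfsg.Statements.S0465
import Cfsg.Agent.Gr.Baby2

set_option autoImplicit false
open Cfsg

namespace Cfsg.Agent.S0465

theorem aux {G : Type} [Group G] (h : IsB G) {n : ℕ} (ρ : G →* GL (Fin n) (ZMod 2))
    (hρ : Function.Injective ρ) : ∃ (F : Type) (_ : Field F) (_ : Fintype F), CharP F 2 ∧
      ∃ H : Subgroup (GL (Fin n) F), Cfsg.IsB H :=
  have := h.1
  ⟨ZMod 2, _, inferInstance, inferInstance, ρ.range,
    (MonoidHom.ofInjective hρ).symm.isSimpleGroup,
    (Nat.card_congr (MonoidHom.ofInjective hρ).toEquiv).symm.trans h.2⟩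

/-- The Baby Monster as matrices in characteristic 2: for some finite field F of characteristic 2, GL(4370, F) has a simple subgroup of order 4154781481226426191177580544000000. -/
theorem result : ∃ (F : Type) (_ : Field F) (_ : Fintype F), CharP F 2 ∧ ∃ H : Subgroup (GL (Fin 4370) F), Cfsg.IsB H := by
  obtain ⟨ρ, hρ⟩ := Gr.exists_rep_Bm
  exact aux Gr.isB_Bm ρ hρ

end Cfsg.Agent.S0465
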