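import Mathlib
import Cfsg.Statements.S0466
import Cfsg.Agent.Gr.Baby2

set_option autoImplicit false
open Cfsg

namespace Cfsg.Agent.S0466

/-- The Baby Monster as a 4-transposition group: there is a simple group of its order with a conjugacy class of 13571955000 involutions such that the product of any two of them has order at most 4, the centraliser of each having order 4 · 76532479683774853939200. -/
theorem result : ∃ (G : Type) (_ : Group G) (_ : Finite G), Cfsg.IsB G ∧ ∃ D : Set G, (∃ d ∈ D, D = conjugatesOf d) ∧ Nat.card D = 13571955000 ∧ (∀ d ∈ D, orderOf d = 2) ∧ (∀ d ∈ D, ∀ e ∈ D, orderOf (d * e) ≤ 4) ∧ ∀ d ∈ D, Nat.card (Subgroup.centralizer ({d} : Set G)) = 306129918735099415756800 := by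
  obtain ⟨s, hs, -⟩ := Gr.exists_4B
  have hd : Gr.toBm ⟨s, Gr.mem_HH hs⟩ ∈ Gr.DB := ⟨_, hs, rfl⟩
  refine ⟨Gr.Bm, _, inferInstance, Gr.isB_Bm, Gr.DB, ⟨_, hd, Gr.DB_eq hd⟩, Gr.card_DB,
    fun d => Gr.DB_order, fun d h e => Gr.DB_mul h, fun d h => ?_⟩
  have := (Subgroup.centralizer ({d} : Set Gr.Bm)).card_mul_index
  rw [← Spor.card_conjugatesOf, ← Gr.DB_eq h, Gr.card_DB, Gr.card_Bm] at this
  exact Nat.eq_of_mul_eq_mul_right (by norm_num) (this.trans (by norm_num))

end Cfsg.Agent.S0466
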