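import Mathlib
import Cfsg.Statements.S0467
import Cfsg.Agent.Gr.Monster
import Cfsg.Agent.Gr.Count

set_option autoImplicit false
open Cfsg

namespace Cfsg.Agent.S0467

theorem exists_hom {K V : Type*} [Group K] [AddCommGroup V] [Module ℝ V] [FiniteDimensional ℝ V]
    (σ : Representation ℝ K V) (hσ : ∀ g, (∀ v, σ g v = v) → g = 1) (f : V →ₗ[ℝ] ℝ) (e : V)
    (hf : f e ≠ 0) (h1 : ∀ g, σ g e = e) (h2 : ∀ g v, f (σ g v) = f v) {n : ℕ}
    (hn : Module.finrank ℝ V = n + 1) (hK : IsM K) : ∃ H : Subgroup (GL (Fin n) ℝ), IsM H := by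
  have hs : Function.Surjective f := fun x =>
    ⟨(x / f e) • e, by rw [map_smul, smul_eq_mul, div_mul_cancel₀ _ hf]⟩
  have hU : Module.finrank ℝ (LinearMap.ker f) = n := by
    have := f.finrank_range_add_finrank_ker
    rw [LinearMap.range_eq_top.2 hs, finrank_top, Module.finrank_self, hn] at this
    omega
  let τ := σ.subrepresentation (LinearMap.ker f) fun g v hv => (h2 g v).trans hv
  let b := Module.finBasisOfFinrankEq ℝ _ hU
  let ρ := ((LinearMap.toMatrixAlgEquiv b).toMulEquiv.toMonoidHom.comp τ).toHomUnits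
  have h : Function.Injective ρ := (injective_iff_map_eq_one _).2 fun g hg => hσ g fun v => by
    have h3 : τ g = 1 := (LinearMap.toMatrixAlgEquiv b).injective
      ((congrArg Units.val hg).trans (map_one _).symm)
    have h4 : v - (f v / f e) • e ∈ LinearMap.ker f := by
      rw [LinearMap.mem_ker, map_sub, map_smul, smul_eq_mul, div_mul_cancel₀ _ hf, sub_self]
    have h5 : σ g (v - (f v / f e) • e) = v - (f v / f e) • e :=
      congrArg Subtype.val (LinearMap.congr_fun h3 ⟨_, h4⟩)
    rwa [map_sub, map_smul, h1, sub_left_inj] at h5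
  have := hK.1
  exact ⟨ρ.range, (MonoidHom.ofInjective h).symm.isSimpleGroup,
    (Nat.card_congr (MonoidHom.ofInjective h).toEquiv).symm.trans hK.2⟩


/-- The Monster exists as a group of real 196883 × 196883 matrices: GL(196883, ℝ) has a simple subgroup of order 808017424794512875886459904961710757005754368000000000. -/
theorem result : ∃ H : Subgroup (GL (Fin 196883) ℝ), Cfsg.IsM H := by
  let σ : Representation ℝ Gr.K Gr.V :=
    { toFun := fun g => (g.1 : Gr.V →ₗ[ℝ] Gr.V)
      map_one' := rfl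
      map_mul' := fun _ _ => rfl }
  refine exists_hom σ (fun g h => Subtype.ext (LinearEquiv.ext h)) (Gr.bM Gr.id8) Gr.id8
    (by rw [Gr.bM_id8]; norm_num) Gr.K_id8 (fun g v => ?_) Gr.finrank_V ⟨Gr.simple_K, Gr.card_K⟩
  have := Gr.K_bM g Gr.id8 v
  rwa [Gr.K_id8] at this

end Cfsg.Agent.S0467
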