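import Cfsg.Statements.S0471
import Cfsg.Agent.Spor.Fi22.U6

set_option autoImplicit false
open Cfsg

namespace Cfsg.Agent.S0471

/-- The Fischer group of order 64561751654400 exists as a 3-transposition group: a simple group of that order generated by a conjugacy class of 3510 3-transpositions, the centraliser of each being a non-split double cover of PSU(6, 2). -/
theorem result : ∃ (G : Type) (_ : Group G) (_ : Finite G), Cfsg.IsFi22 G ∧ ∃ D : Set G, Cfsg.IsThreeTranspositionClass D ∧ Nat.card D = 3510 ∧ ∀ d ∈ D, ∃ (F : Type) (_ : Field F) (_ : Fintype F), Fintype.card F = 4 ∧ Cfsg.IsNonsplitDoubleCover (Subgroup.centralizer ({d} : Set G)) (Cfsg.PSU 6 F 2) := by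
  refine ⟨Cfsg.Spor.Fi22, inferInstance, inferInstance, ⟨Spor.MFi22.simple, Spor.MFi22.card⟩, _,
    Spor.MFi22.threeClass, Spor.MFi22.card_class, fun d hd => ?_⟩
  obtain ⟨φ⟩ := Spor.nonempty_centralizer_equiv hd
  exact ⟨Cl.GF4, inferInstance, inferInstance, Cl.card_GF4, Spor.IsNonsplitDoubleCover.of_equiv
    Spor.MFi22.nonsplit_H ((MulEquiv.subgroupCongr Spor.MFi22.centralizer_eq.symm).trans φ)⟩

end Cfsg.Agent.S0471
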