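import Mathlib
import Cfsg.Statements.S0476
import Cfsg.Agent.Spor.J4.Cz2
import Cfsg.Agent.Spor.FL.Core

set_option autoImplicit false
open Cfsg

namespace Cfsg.Agent.S0476

/-- In some simple group of the order of Janko's fourth group there is an involution whose centraliser C has a normal extraspecial subgroup Q of order 2 ^ 13, a normal subgroup N of order 3 · 2 ^ 13 containing Q, and a subgroup M of index 2 containing N as a normal subgroup with M / N simple of order 443520. -/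
theorem result : ∃ (G : Type) (_ : Group G) (_ : Finite G), Cfsg.IsJ4 G ∧ ∃ z : G, orderOf z = 2 ∧ ∃ (Q N M : Subgroup (Subgroup.centralizer ({z} : Set G))), Q.Normal ∧ N.Normal ∧ Q ≤ N ∧ N ≤ M ∧ Nat.card Q = 2 ^ 13 ∧ Cfsg.IsExtraspecial 2 Q ∧ Nat.card N = 3 * 2 ^ 13 ∧ M.index = 2 ∧ ∃ (_ : (N.subgroupOf M).Normal), Cfsg.IsM22 (M ⧸ N.subgroupOf M) := by
  have := Spor.J4C.finite_J4
  have hs := Spor.Golay.simple_Fix (s := Spor.MB.unmask 132) (by rw [Spor.J4C.card_duad]; norm_num)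
  obtain ⟨e⟩ := Spor.J4C.nonempty_quot_equiv Spor.J4C.phiC Spor.J4C.Fix_le_range
  exact ⟨Spor.J4, inferInstance, this, ⟨Spor.J4C.simple_J4, Spor.J4C.card_J4⟩, Spor.J4C.jz, Spor.J4C.orderOf_jz,
    _, _, _, Spor.J4C.normal_QZ, inferInstance, Spor.J4C.subgroupOf_le_ker, MonoidHom.ker_le_comap _ _,
    (Spor.FL.card_subgroupOf Spor.J4C.QZ_le).trans Spor.J4C.card_QZ,
    Spor.FL.isExtraspecial_subgroupOf Spor.J4C.QZ_le Spor.J4C.es2_QZ.isExtraspecial, Spor.J4C.card_ker_phiC,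
    Spor.J4C.index_comap_Fix, inferInstance, e.isSimpleGroup,
    (Nat.card_congr e.toEquiv).trans (Spor.Golay.card_Fix_two Spor.J4C.card_duad)⟩

end Cfsg.Agent.S0476
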