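import Cfsg.Statements.S0478
import Cfsg.Agent.Spor.J3.Geo
import Cfsg.Agent.Cl.GFSmall

set_option autoImplicit false
open Cfsg

namespace Cfsg.Agent.S0478

/-- A triple cover of Janko's third group inside a unitary group: for a field F with four elements, the special unitary group of dimension 9 (with respect to the form with q = 2) has a subgroup whose centre has order 3 and whose quotient by its centre is simple of order 50232960. -/
theorem result : ∃ (F : Type) (_ : Field F) (_ : Fintype F), Fintype.card F = 4 ∧ ∃ H : Subgroup (Cfsg.SU 9 F 2), Nat.card (Subgroup.center H) = 3 ∧ Cfsg.IsJ3 (H ⧸ Subgroup.center H) := by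
  have := Fact.mk Cl.card_GF4
  have := Fact.mk Cl.prim_rel_GF4
  obtain ⟨H, ⟨e⟩⟩ := Spor.MJ3.exists_SU Cl.GF4 (Cl.TF.prim Cl.gf4)
  have h := Spor.map_center_mulEquiv e
  have e2 := QuotientGroup.congr _ _ e h
  refine ⟨Cl.GF4, inferInstance, inferInstance, Cl.card_GF4, H, ?_, e2.symm.isSimpleGroup, ?_⟩
  · rw [← h, Subgroup.card_map_of_injective e.injective, Spor.MJ3.card_center]
  · rw [← Nat.card_congr e2.toEquiv, Spor.MJ3.card_J3]

end Cfsg.Agent.S0478
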