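import Cfsg.Statements.S0480
import Mathlib
import Cfsg.Agent.Spor.FFin2
import Cfsg.Agent.Spor.FiIso22
import Cfsg.Agent.Spor.FiIso23
import Cfsg.Agent.Spor.FiIso24
import Cfsg.Agent.Spor.Fi22.Main
import Cfsg.Agent.Spor.Fi23.Main
import Cfsg.Agent.S1691

set_option autoImplicit false
open Cfsg

namespace Cfsg.Agent.S0480

/-- The simple 3-transposition groups: if a finite non-abelian simple group G is generated by a conjugacy class of 3-transpositions, then G is isomorphic to a symplectic group Sp(2n, 2), or to a projective special unitary group PSU(n, 2) (defined over the field with four elements), or to the projective commutator subgroup of an orthogonal group in odd dimension over the field with three elements, or G has order 64561751654400, or G has order 4089470473293004800. -/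
theorem result {G : Type*} [Group G] [Finite G] [IsSimpleGroup G] (hna : ∃ x y : G, x * y ≠ y * x) {D : Set G} (hD : Cfsg.IsThreeTranspositionClass D) : (∃ n : ℕ, Nonempty (G ≃* Matrix.symplecticGroup (Fin n) (ZMod 2))) ∨ (∃ (F : Type) (_ : Field F) (_ : Fintype F) (n : ℕ), Fintype.card F = 4 ∧ Nonempty (G ≃* Cfsg.PSU n F 2)) ∨ (∃ m : ℕ, Nonempty (G ≃* Cfsg.POmega (ZMod 3) (Cfsg.quadFormOdd m (ZMod 3)))) ∨ Cfsg.IsFi22 G ∨ Cfsg.IsFi23 G := by
  obtain ⟨x, y, hxy⟩ := hna
  have hP : commutator G = ⊤ := by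
    refine (Subgroup.Normal.eq_bot_or_eq_top inferInstance).resolve_left fun h => hxy ?_
    exact commutatorElement_eq_one_iff_mul_comm.1 (Subgroup.mem_bot.1 (h.le
      (Subgroup.commutator_mem_commutator (Subgroup.mem_top x) (Subgroup.mem_top y))))
  have hZ : Subgroup.center G = ⊥ := by
    refine (Subgroup.Normal.eq_bot_or_eq_top inferInstance).resolve_right fun h => hxy ?_
    exact Subgroup.mem_center_iff.1 (h.ge (Subgroup.mem_top y)) x
  have h := Spor.TT.fis_of_simple_commutator hD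
    (Subgroup.topEquiv.symm.trans (MulEquiv.subgroupCongr hP.symm)).symm.isSimpleGroup
    ⟨⟨x, hP.ge (Subgroup.mem_top x)⟩, ⟨y, hP.ge (Subgroup.mem_top y)⟩,
      fun k => hxy (congrArg Subtype.val k)⟩
  have hG := hD.group
  rcases h.fs.clA with ⟨-, k⟩ | ⟨m, hm, ρ, k⟩ | ⟨n, hn, F, _, _, ρ, hF, k⟩ | ⟨n, hn, k⟩ |
    ⟨n, hn, k⟩ | ⟨n, hn, k⟩ | k | k | k
  · obtain ⟨e, -⟩ := k.exists_equiv hG hZ (by omega)
    exact absurd (Spor.TT.commutator_eq_top_congr e hP) (Spor.TT.commutator_perm_ne_top (by omega))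
  · obtain ⟨e, -⟩ := k.exists_equiv hG hZ (by omega)
    exact Or.inl ⟨m, ⟨e⟩⟩
  · obtain ⟨e, -⟩ := k.exists_equiv hF hG hZ hn
    exact Or.inr (Or.inl ⟨F, _, _, n, hF, ⟨e⟩⟩)
  · obtain ⟨e, -⟩ := k.exists_equiv hG hZ (by omega)
    exact absurd (Spor.TT.commutator_eq_top_congr e hP) (Spor.TT.commutator_perm_ne_top (by omega))
  · rcases k.exists_equiv_two hG hZ hn with ⟨m, hm, e, -⟩ | ⟨m, hm, e, -⟩
    · exact absurd (Spor.TT.commutator_eq_top_congr e hP)
        (Spor.TT.commutator_O_two_ne_top (P := Cl.quad_plus m (ZMod 2)) Cl.quad_plus_nondeg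
          (by simp; omega))
    · exact absurd (Spor.TT.commutator_eq_top_congr e hP)
        (Spor.TT.commutator_O_two_ne_top (P := Cl.quad_minus m (ZMod 2) 1 1)
          (Cl.quad_minus_nondeg (by decide)) (by simp; omega))
  · obtain ⟨Q, hQ, c, hc, e, -⟩ := k.exists_equiv_three hG hZ (by omega)
    obtain ⟨m, rfl | rfl⟩ := Nat.even_or_odd' n
    · exact absurd (Spor.TT.commutator_eq_top_congr e hP)
        (Spor.TT.commutator_refl_ne_top hQ (by omega) hc)
    · exact Or.inr (Or.inr (Or.inl ⟨m, Spor.TT.pomega_of_refl_odd hP hZ hQ (by omega) hc e⟩))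
  · obtain ⟨e, -⟩ := Spor.Fi.typeM22_iso hG h.primitive (k.isOfType hG hZ)
    exact Or.inr (Or.inr (Or.inr (Or.inl ⟨inferInstance,
      (Nat.card_congr e.toEquiv).trans Spor.MFi22.card⟩)))
  · obtain ⟨e, -⟩ := Spor.Fi.typeM23_iso hG h.primitive (k.isOfType hG hZ)
    exact Or.inr (Or.inr (Or.inr (Or.inr ⟨inferInstance,
      (Nat.card_congr e.toEquiv).trans Spor.MFi23.card⟩)))
  · obtain ⟨e, -⟩ := Spor.Fi.typeM24_iso hG h.primitive (k.isOfType hG hZ)
    have := S1691.result
    rw [Spor.TT.commutator_eq_top_congr e hP, Subgroup.index_top] at this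
    exact absurd this (by decide)

end Cfsg.Agent.S0480
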