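import Mathlib
import Cfsg.Agent.GT.TransferAbelian
import Cfsg.Agent.Inv.SimpleEmbed
import Cfsg.Statements.S0499

set_option autoImplicit false
open Cfsg

namespace Cfsg.Agent.S0499

/-- A non-abelian finite simple group of even order has order divisible by 12, 16 or 56. -/
theorem result {G : Type*} [Group G] [Finite G] [IsSimpleGroup G]
    (hG : ¬ IsMulCommutative G) (h2 : Even (Nat.card G)) :
    12 ∣ Nat.card G ∨ 16 ∣ Nat.card G ∨ 56 ∣ Nat.card G := by
  by_contra hc
  simp only [not_or] at hc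
  obtain ⟨h12, h16, h56⟩ := hc
  obtain ⟨P⟩ : Nonempty (Sylow 2 G) := inferInstance
  obtain ⟨n, hn⟩ := P.isPGroup'.exists_card_eq
  have hPd : 2 ^ n ∣ Nat.card G := hn ▸ Subgroup.card_subgroup_dvd_card _
  have hn3 : n ≤ 3 := by
    by_contra h
    exact h16 ((pow_dvd_pow 2 (show 4 ≤ n by omega)).trans hPd)
  have h3 : HasNormalPComplement 2 G := by
    refine GT.Tr.hasNormalPComplement_of_not_dvd_pow_sub_one P hn fun q hq hd j h3 h4 h5 => ?_
    have h6 : 2 ^ j ∣ Nat.card G := (pow_dvd_pow 2 h4).trans hPd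
    obtain rfl | rfl | rfl : j = 1 ∨ j = 2 ∨ j = 3 := by omega
    · exact hq.not_dvd_one h5
    · obtain rfl := (Nat.prime_dvd_prime_iff_eq hq Nat.prime_three).1 h5
      omega
    · obtain rfl := (Nat.prime_dvd_prime_iff_eq hq (by norm_num : Nat.Prime 7)).1 h5
      omega
  exact Inv.SEm.not_prime_card hG ((h3.card_eq_of_isSimpleGroup h2.two_dvd).symm ▸ Nat.prime_two)

end Cfsg.Agent.S0499
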