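import Mathlib
import Cfsg.Agent.GT.PConstrained
import Cfsg.Agent.GT.PGroupElemAb
import Cfsg.Agent.GT.CoprimeGen
import Cfsg.Agent.GT.Cores
import Cfsg.Statements.S0505
-- import your own Cfsg.Agent.* helpers here

set_option autoImplicit false
open Cfsg

namespace Cfsg.Agent.S0505

open Subgroup Cfsg.Agent.GT

/-- If all involution centralizers have characteristic 2, so do all 2-local subgroups. -/
theorem charTwo_normalizer {G : Type*} [Group G] [Finite G]
    (h : ∀ t : G, orderOf t = 2 → IsOfCharacteristicTwo (centralizer ({t} : Set G)))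
    (T : Subgroup G) (hT : IsPGroup 2 T) (h1 : T ≠ ⊥) :
    IsOfCharacteristicTwo (normalizer (T : Set G)) := by
  have : Nontrivial T := (nontrivial_iff_ne_bot _).2 h1
  have := hT.center_nontrivial
  obtain ⟨z, hz, hz1, hz2⟩ := PG.exists_mem_ne_one_pow_eq_one (hT.to_subgroup (center T))
    ((nontrivial_iff_ne_bot _).1 this)
  have hz2' : orderOf (z : G) = 2 :=
    orderOf_eq_prime (congrArg Subtype.val hz2) fun e => hz1 (Subtype.ext e)
  have hTC : T ≤ centralizer {(z : G)} := fun x hx => mem_centralizer_singleton_iff.2
    (congrArg Subtype.val (mem_center_iff.1 hz ⟨x, hx⟩))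
  have hCC : centralizer (T : Set G) ≤ centralizer {(z : G)} :=
    CopAct.centralizer_le_centralizer_singleton z.2
  have h2 := charP_centralizer (h z hz2') (P := T.subgroupOf _) hT.comap_subtype
  have h3 : centralizer ((T.subgroupOf (centralizer {(z : G)}) : Subgroup _) :
      Set (centralizer ({(z : G)} : Set G))) = (centralizer (T : Set G)).subgroupOf _ := by
    ext x
    simp only [mem_centralizer_iff, mem_subgroupOf, SetLike.mem_coe]
    constructor
    · exact fun h y hy => congrArg Subtype.val (h ⟨y, hTC hy⟩ hy)
    · exact fun h y hy => Subtype.ext (h y hy)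
  rw [h3] at h2
  have h4 := charP_iff_pCoreOf.1 (charP_of_mulEquiv (subgroupOfEquivOfLe hCC) h2)
  refine charP_iff_pCoreOf.2 ?_
  have h5 : T ≤ pCoreOf 2 (normalizer (T : Set G)) := le_pCoreOf le_normalizer le_rfl hT
  have h6 : pCoreOf 2 (centralizer (T : Set G)) ≤ pCoreOf 2 (normalizer (T : Set G)) :=
    pCoreOf_le_pCoreOf (centralizer_le_normalizer _) (CopAct.le_normalizer_centralizer le_rfl)
  refine le_trans (le_trans ?_ h4) h6
  exact le_inf (inf_le_right.trans (centralizer_le (SetLike.coe_subset_coe.2 h5)))
    (inf_le_right.trans (centralizer_le (SetLike.coe_subset_coe.2 h6)))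

/-- Let G be a finite group of even order in which the centralizer of every involution is solvable and has trivial
core (no nontrivial normal subgroup of odd order). Then G is of characteristic 2 type. -/
theorem result {G : Type*} [Group G] [Finite G]
    (h2 : Even (Nat.card G))
    (hs : ∀ t : G, orderOf t = 2 → Group.IsSolvable (Subgroup.centralizer ({t} : Set G)))
    (hc : ∀ t : G, orderOf t = 2 → Cfsg.oddCore (Subgroup.centralizer ({t} : Set G)) = ⊥) :
    Cfsg.IsCharacteristicTwoType G := by
  exact ⟨h2, charTwo_normalizer fun t ht =>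
    (Cfsg.Agent.GT.isPConstrained_of_isSolvable (hs t ht)).charP (hc t ht)⟩

end Cfsg.Agent.S0505
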