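import Mathlib
import Cfsg.Agent.GT.PGroupCyclicNormal
import Cfsg.Statements.S0519
-- import your own Cfsg.Agent.* helpers here

set_option autoImplicit false
open Cfsg

namespace Cfsg.Agent.S0519

/-- Let P be a finite p-group in which every abelian normal subgroup is cyclic, but which has a non-cyclic abelian
subgroup. Then p = 2 and P is generalized quaternion, dihedral of order at least 16, or quasi-dihedral. -/
theorem result {P : Type*} [Group P] [Finite P] (p : ℕ) [Fact p.Prime]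
    (hP : IsPGroup p P) (hn : ∀ A : Subgroup P, A.Normal → IsMulCommutative A → IsCyclic A)
    (hm : ∃ B : Subgroup P, IsMulCommutative B ∧ ¬ IsCyclic B) :
    p = 2 ∧ ((∃ n : ℕ, Nonempty (P ≃* QuaternionGroup n)) ∨ (∃ n : ℕ, 8 ≤ n ∧ Nonempty (P ≃* DihedralGroup n)) ∨
      Cfsg.IsQuasiDihedral P) := by
  rcases GT.PG.isCyclic_or_maxTwo_of_normal_abelian_isCyclic hP hn with h | ⟨rfl, m, a, b, h, hb⟩
  · obtain ⟨B, -, hB⟩ := hm
    exact absurd (Subgroup.isCyclic B) hB
  · refine ⟨rfl, ?_⟩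
    rcases h.rel with ⟨e1, e2⟩ | ⟨e1, e2⟩ | ⟨h2, e1, e2⟩
    · refine Or.inr (Or.inl ⟨2 ^ (m + 1), ?_,
        (GT.PG.exists_mulEquiv_dihedral h.orderOf_eq h.index_eq h.notMem e2 e1).nonempty⟩)
      exact Nat.pow_le_pow_right two_pos (show 3 ≤ m + 1 by have := hb e1; omega)
    · exact Or.inl ⟨2 ^ m, (GT.PG.exists_mulEquiv_quaternion (n := 2 ^ m)
        (by rw [h.orderOf_eq, pow_succ']) h.index_eq h.notMem e2 e1).nonempty⟩
    · exact Or.inr (Or.inr ⟨m + 1, by omega, h.card_eq, a, b, h.orderOf_eq,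
        orderOf_eq_prime e1 fun e => h.notMem (e ▸ one_mem _), e2⟩)

end Cfsg.Agent.S0519
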