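import Mathlib
import Cfsg.Agent.GT.PStable
import Cfsg.Agent.GT.PGroupChain
import Cfsg.Agent.GT.PGroupMaxTwo
import Cfsg.Agent.GT.PLength2
import Cfsg.Agent.GT.Conj
import Cfsg.Statements.S0521
-- import your own Cfsg.Agent.* helpers here

set_option autoImplicit false
open Cfsg

namespace Cfsg.Agent.S0521

open Subgroup Cfsg.Agent.GT

theorem exists_pow_of_lt {G : Type*} [Group G] [Finite G] {p : ℕ} [hp : Fact p.Prime]
    {K E : Subgroup G} (hE : IsPGroup p E) (hc : IsCyclic E) (hlt : K < E) {x : G} (hx : x ∈ K) :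
    ∃ y ∈ E, x = y ^ p := by
  obtain ⟨e, he⟩ := E.isCyclic_iff_exists_zpowers_eq_top.mp hc
  subst he
  obtain ⟨k, rfl⟩ := mem_zpowers_iff.mp (hlt.le hx)
  by_cases hk : (p : ℤ) ∣ k
  · obtain ⟨l, rfl⟩ := hk
    exact ⟨e ^ l, zpow_mem (mem_zpowers e) l, by rw [mul_comm, zpow_mul, zpow_natCast]⟩
  · exfalso
    obtain ⟨n, hn⟩ := IsPGroup.iff_card.mp hE
    rw [Nat.card_zpowers] at hn
    have h1 : IsCoprime k (orderOf e : ℤ) := by
      rw [hn, Nat.cast_pow]
      exact IsCoprime.pow_right
        ((Int.prime_iff_natAbs_prime.mpr (by simpa using hp.out)).coprime_iff_not_dvd.mpr hk).symm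
    exact hlt.not_ge ((PG.zpowers_pow_mul_eq_of_coprime h1).ge.trans (zpowers_le.mpr hx))

theorem le_pCore_of_charP {G : Type*} [Group G] [Finite G] {p : ℕ} [hp : Fact p.Prime] (hp2 : p ≠ 2)
    (hodd : Odd (Nat.card G)) (hc : centralizer (pCore p G : Set G) ≤ pCore p G) (S : Sylow p G)
    (hS : IsCyclic (⁅(S : Subgroup G), (S : Subgroup G)⁆ : Subgroup G)) :
    (S : Subgroup G) ≤ pCore p G := by
  intro a ha
  have hR := isPGroup_pCore (G := G) p
  have hRS := pCore_le_sylow S
  have haS : zpowers a ≤ S := zpowers_le.mpr ha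
  have hle : ⁅pCore p G, zpowers a⁆ ≤ ⁅(S : Subgroup G), (S : Subgroup G)⁆ :=
    commutator_mono hRS haS
  have hleR : ⁅pCore p G, zpowers a⁆ ≤ pCore p G := commutator_le_left _ _
  have hq : ⁅⁅pCore p G, zpowers a⁆, zpowers a⁆ ≤
      (frattini (pCore p G)).map (pCore p G).subtype := by
    by_cases h0 : ⁅pCore p G, zpowers a⁆ = ⊥
    · rw [h0, commutator_bot_left]
      exact bot_le
    have hlt := PG.commutator_lt_of_isPGroup (hR.to_le hleR) (S.2.to_le haS)
      (normalizer_commutator_ge_right _ _) h0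
    intro x hx
    obtain ⟨y, hy, rfl⟩ := exists_pow_of_lt (hR.to_le hleR)
      (isCyclic_of_injective (inclusion hle) (inclusion_injective hle)) hlt hx
    exact ⟨⟨y, hleR hy⟩ ^ p, PG.pow_mem_frattini hR _, rfl⟩
  haveI : ((frattini (pCore p G)).map (pCore p G).subtype).Normal := inferInstance
  have h1 := mem_piCoreMod_centMod_of_quadratic hp2 (not_involves_sl2_of_odd hp2 hodd) _ _
    (isElementaryAbelian_map_mk'_frattini (pCore p G) hR) hq
  have h2 := piCoreMod_mono (π := {q | q ∣ p}) (centMod_frattini_le_pCore hc) h1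
  have h3 : piCoreMod {q | q ∣ p} (pCore p G) = pCore p G := by
    rw [piCoreMod, ← pCore_eq_piCore_dvd, pCore_quotient_pCore, MonoidHom.comap_bot,
      QuotientGroup.ker_mk']
  rwa [h3] at h2

/-- Let X be a finite solvable group of odd order, p a prime and S a Sylow p-subgroup of X whose commutator subgroup is
cyclic. Then the product of the largest normal subgroup of X of order prime to p with S is a normal subgroup of X. -/
theorem result {X : Type*} [Group X] [Finite X] [Group.IsSolvable X]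
    (hX : Odd (Nat.card X)) (p : ℕ) [Fact p.Prime] (S : Sylow p X) (hS : IsCyclic (commutator (S : Subgroup X))) :
    (Cfsg.pPrimeCore p X ⊔ (S : Subgroup X)).Normal := by
  by_cases hp2 : p = 2
  · have : (S : Subgroup X) = ⊥ := (sylow_eq_bot_iff_coprime S).mpr (by
      rw [hp2]; exact Nat.coprime_two_right.mpr hX)
    rw [this, sup_bot_eq]
    infer_instance
  have hf := QuotientGroup.mk'_surjective (pPrimeCore p X)
  have h1 : IsCyclic (⁅(S : Subgroup X), (S : Subgroup X)⁆ : Subgroup X) := by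
    rw [← map_subtype_commutator]
    exact isCyclic_of_surjective _ ((S : Subgroup X).subtype.subgroupMap_surjective _)
  have h2 : IsCyclic (⁅(S.mapSurjective hf : Subgroup (X ⧸ pPrimeCore p X)),
      (S.mapSurjective hf : Subgroup (X ⧸ pPrimeCore p X))⁆ : Subgroup _) := by
    rw [Sylow.coe_mapSurjective, ← map_commutator]
    exact isCyclic_of_surjective _ ((QuotientGroup.mk' (pPrimeCore p X)).subgroupMap_surjective _)
  have h3 := le_pCore_of_charP hp2 (hX.of_dvd_nat (card_quotient_dvd_card _))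
    (isPSolvable_of_isSolvable inferInstance).charP_quotient _ h2
  have h4 : (S : Subgroup X).map (QuotientGroup.mk' (pPrimeCore p X)) = pCore p _ :=
    le_antisymm h3 (pCore_le_sylow (S.mapSurjective hf))
  rw [sup_comm, ← comap_map_mk', h4]
  infer_instance

end Cfsg.Agent.S0521
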