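import Mathlib
-- Template for statement S0522 (row 522; see /opt/grader/pristine/manifest.json for weights).
-- Copy to Cfsg/Agent/S0522.lean and replace the sorry. The statement below is byte-identical to the frozen
-- statement Cfsg.CfsgFrozen.S0522 (Cfsg/Statements/S0522.lean; the theorem Cfsg.thompson_transitivity_odd_order);
-- the grader kernel-checks Cfsg.Agent.S0522.result against that frozen type. Keep the theorem IN THIS FILE
-- (a `result` declared elsewhere and merely imported here is not credited); helpers may live anywhere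
-- under Cfsg/Agent/.
import Cfsg.Statements.S0522
import Cfsg.Agent.FT.Transit
import Cfsg.Agent.FT.BG7_5

set_option autoImplicit false
open Cfsg

namespace Cfsg.Agent.S0522

/-- Transitivity Theorem (odd-order setting). Let X be a finite group of odd order in which the normalizer of every
nontrivial p-subgroup is solvable, P a Sylow p-subgroup, and B an abelian subgroup of P, normalized by P, with
C_P(B) = B and containing an elementary abelian subgroup of order p^3. Then for every prime q ≠ p, any two q-subgroups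
that are maximal among the q-subgroups normalized by B are conjugate by an element of the centralizer of B. -/
theorem result {X : Type*} [Group X] [Finite X] (hX : Odd (Nat.card X)) (p : ℕ)
    [Fact p.Prime] (hloc : ∀ T : Subgroup X, IsPGroup p T → T ≠ ⊥ → Group.IsSolvable (Subgroup.normalizer (T : Set X)))
    (P : Sylow p X) (B : Subgroup X) (hBP : B ≤ (P : Subgroup X))
    (hBn : ∀ x ∈ (P : Subgroup X), ∀ b ∈ B, x * b * x⁻¹ ∈ B) (hBa : IsMulCommutative B)
    (hBc : (P : Subgroup X) ⊓ Subgroup.centralizer (B : Set X) = B)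
    (hB3 : ∃ E : Subgroup X, E ≤ B ∧ (∀ e ∈ E, e ^ p = 1) ∧ p ^ 3 ≤ Nat.card E)
    (q : ℕ) [Fact q.Prime] (hqp : q ≠ p) (Q₁ Q₂ : Subgroup X)
    (h₁ : IsPGroup q Q₁ ∧ B ≤ Subgroup.normalizer (Q₁ : Set X) ∧
      ∀ R : Subgroup X, IsPGroup q R → B ≤ Subgroup.normalizer (R : Set X) → Q₁ ≤ R → R = Q₁)
    (h₂ : IsPGroup q Q₂ ∧ B ≤ Subgroup.normalizer (Q₂ : Set X) ∧
      ∀ R : Subgroup X, IsPGroup q R → B ≤ Subgroup.normalizer (R : Set X) → Q₂ ≤ R → R = Q₂) :
    ∃ c ∈ Subgroup.centralizer (B : Set X), Q₂ = Q₁.map (MulAut.conj c).toMonoidHom := by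
  have hSCN : IsSCN (P : Subgroup X) B :=
    ⟨hBP, fun x hx => Subgroup.mem_normalizer_fintype fun b hb => hBn x hx b hb, hBc⟩
  obtain ⟨E, hEB, hE, hE3⟩ := hB3
  have hr : ¬ PRankLE p 2 B := fun h => by
    have h1 := hE3.trans (h.card_le_of_le hEB ⟨FT.isMulCommutative_of_le hBa hEB, hE⟩)
    exact absurd (Nat.pow_le_pow_iff_right (Fact.out : p.Prime).one_lt |>.1 h1) (by norm_num)
  obtain ⟨k, hk, e⟩ := FT.trans_max_normed_of_constrained hqp
    (fun T hT h1 => GT.isPConstrained_of_isSolvable (hloc T hT h1))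
    (fun e => absurd ((FT.B10.dvd_card_of_not_pRankLE hr).trans (Subgroup.card_subgroup_dvd_card B))
      (e ▸ hX.not_two_dvd_nat))
    (P.isPGroup'.to_le hBP) hBa hr
    (fun T hT hTp => FT.SCN_le_of_le_cent (FT.B10.syl_top P) hSCN hTp hT)
    Q₁ (FT.mem_maxInv_iff.2 h₁) Q₂ (FT.mem_maxInv_iff.2 h₂)
  exact ⟨k, GT.piCoreOf_le _ hk, e⟩

end Cfsg.Agent.S0522
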