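import Mathlib
import Cfsg.Statements.S0529
import Cfsg.Agent.GT.Supersolvable2

set_option autoImplicit false
open Cfsg

namespace Cfsg.Agent.S0529

/-- A finite supersolvable group has a chain of normal subgroups, from the trivial subgroup to the whole group, in which every step has prime index and the primes occurring are non-increasing as one goes up the chain. -/
theorem result {G : Type*} [Group G] [Finite G] (hG : Cfsg.IsSupersolvable G) : ∃ (n : ℕ) (H : Fin (n + 1) → Subgroup G), H 0 = ⊥ ∧ H (Fin.last n) = ⊤ ∧ (∀ i, (H i).Normal) ∧ (∀ i : Fin n, H i.castSucc ≤ H i.succ ∧ ((H i.castSucc).relIndex (H i.succ)).Prime) ∧ ∀ i j : Fin n, i ≤ j → (H j.castSucc).relIndex (H j.succ) ≤ (H i.castSucc).relIndex (H i.succ) := by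

  have key : ∀ N : Subgroup G, N.Normal → ∃ (n : ℕ) (H : ℕ → Subgroup G), H 0 = N ∧ H n = ⊤ ∧
      (∀ i, (H i).Normal) ∧ (∀ i < n, H i ≤ H (i + 1) ∧ ((H i).relIndex (H (i + 1))).Prime ∧
        (H i).relIndex (H (i + 1)) ∣ N.index) ∧
      ∀ i j, i ≤ j → j < n → (H j).relIndex (H (j + 1)) ≤ (H i).relIndex (H (i + 1)) := by
    intro N
    induction N using GT.SS.index_induction with
    | _ N ih =>
    intro hN
    by_cases htop : N = ⊤
    · exact ⟨0, fun _ => N, rfl, htop, fun _ => hN, fun i hi => absurd hi (Nat.not_lt_zero i),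
        fun i j _ hj => absurd hj (Nat.not_lt_zero j)⟩
    have h1 : N.index ≠ 1 := fun e => htop (Subgroup.index_eq_one.1 e)
    have h0 : N.index ≠ 0 := Subgroup.FiniteIndex.index_ne_zero
    have hne : N.index.primeFactors.Nonempty := Nat.nonempty_primeFactors.2 (by omega)
    set p := N.index.primeFactors.max' hne
    have hpm : p ∈ N.index.primeFactors := Finset.max'_mem _ _
    have hp : p.Prime := Nat.prime_of_mem_primeFactors hpm
    have hpd : p ∣ N.index := Nat.dvd_of_mem_primeFactors hpm
    have hmax : ∀ q : ℕ, q.Prime → q ∣ N.index → q ≤ p := fun q hq hd =>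
      Finset.le_max' _ _ (Nat.mem_primeFactors.2 ⟨hq, hd, h0⟩)
    obtain ⟨M, hM, hMc⟩ := GT.SS.exists_normal_card_eq_of_max (GT.SS.quotient hG N) hp hpd hmax
    have hK := hM.comap (QuotientGroup.mk' N)
    set K := M.comap (QuotientGroup.mk' N)
    have hNK : N ≤ K := (QuotientGroup.ker_mk' N).ge.trans (Subgroup.ker_le_comap _ _)
    have hrel : N.relIndex K = p := by
      rw [← GT.card_map_mk'_eq_relIndex, Subgroup.map_comap_eq_self_of_surjective
        (QuotientGroup.mk'_surjective N), hMc]
    have hlt : N < K := lt_of_le_of_ne hNK fun e => hp.ne_one (by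
      rw [← hrel, ← e, Subgroup.relIndex_self])
    obtain ⟨n, H, h0', hl, hnorm, hs, hmono⟩ := ih _ hlt hK
    have hKd : K.index ∣ N.index := Subgroup.index_dvd_of_le hNK
    refine ⟨n + 1, fun i => Nat.casesOn i N H, rfl, hl, ?_, ?_, ?_⟩
    · intro i
      cases i with
      | zero => exact hN
      | succ i => exact hnorm i
    · intro i hi
      cases i with
      | zero =>
        change N ≤ H 0 ∧ (N.relIndex (H 0)).Prime ∧ N.relIndex (H 0) ∣ N.index
        rw [h0', hrel]
        exact ⟨hNK, hp, hpd⟩
      | succ i =>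
        obtain ⟨a, b, c⟩ := hs i (by omega)
        exact ⟨a, b, c.trans hKd⟩
    · intro i j hij hj
      cases j with
      | zero =>
        obtain rfl : i = 0 := by omega
        exact le_rfl
      | succ j =>
        cases i with
        | zero =>
          change (H j).relIndex (H (j + 1)) ≤ N.relIndex (H 0)
          rw [h0', hrel]
          obtain ⟨-, b, c⟩ := hs j (by omega)
          exact hmax _ b (c.trans hKd)
        | succ i => exact hmono i j (by omega) (by omega)
  obtain ⟨n, H, h0, hl, hnorm, hs, hmono⟩ := key ⊥ inferInstance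
  exact ⟨n, fun i => H i, h0, hl, fun i => hnorm i, fun i => ⟨(hs i i.2).1, (hs i i.2).2.1⟩,
    fun i j hij => hmono i j hij j.2⟩

end Cfsg.Agent.S0529
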