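import Mathlib
import Cfsg.Statements.S0530
import Cfsg.Agent.GT.Supersolvable2
import Cfsg.Agent.GT.TransferSylow

set_option autoImplicit false
open Cfsg

namespace Cfsg.Agent.S0530

open Subgroup in
/-- A finite group with a nilpotent subgroup of index two is supersolvable. -/
theorem aux {G : Type*} [Group G] [Finite G] (P : Subgroup G) [Group.IsNilpotent P]
    (h2 : P.index = 2) : IsSupersolvable G := by
  have hPn := normal_of_index_eq_two h2
  refine GT.SS.isSupersolvable_of_forall fun N hN htop => ?_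
  by_cases hPN : P ≤ N
  · obtain ⟨g, hg⟩ : ∃ g, g ∉ N := by
      by_contra h
      push Not at h
      exact htop (eq_top_iff.2 fun x _ => h x)
    refine ⟨g, hg, ?_⟩
    have : P ⊔ zpowers g = ⊤ :=
      GT.PG.sup_zpowers_eq_top_of_index_prime Nat.prime_two h2 fun h => hg (hPN h)
    have h3 : N ⊔ zpowers g = ⊤ := eq_top_iff.2 (this ▸ sup_le_sup_right hPN _)
    rw [h3]; infer_instance
  obtain ⟨k, hk⟩ := GT.PG.exists_iterCommutator_eq_bot_of_isNilpotent (N := P) (H := P) (S := P)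
    le_rfl le_rfl
  obtain ⟨z, hzP, hzN, hz⟩ := GT.PG.exists_notMem_commutator_mem_of_iterCommutator hk
    le_normalizer hPN
  obtain ⟨t, ht⟩ : ∃ t, t ∉ P := by
    by_contra h
    push Not at h
    rw [show P = ⊤ from eq_top_iff.2 fun x _ => h x, index_top] at h2
    omega
  have hsq : t * t ∈ P := mul_self_mem_of_index_two h2 t
  have hcomm : ∀ g ∈ P, ((g * z * g⁻¹ : G) : G ⧸ N) = z := by
    intro g hg
    have h := hz g hg
    rw [← QuotientGroup.eq_one_iff, commutatorElement_def] at h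
    simp only [QuotientGroup.mk_mul, QuotientGroup.mk_inv] at h ⊢
    rw [mul_inv_eq_one, mul_inv_eq_iff_eq_mul] at h
    rw [← h]; group
  -- it suffices to find an element fixed or inverted by everything
  have main : ∀ w : G, w ∉ N → (∀ g ∈ P, ((g * w * g⁻¹ : G) : G ⧸ N) = w) →
      (((t * w * t⁻¹ : G) : G ⧸ N) = w ∨ ((t * w * t⁻¹ : G) : G ⧸ N) = (w⁻¹ : G)) →
      ∃ g, g ∉ N ∧ (N ⊔ zpowers g).Normal := by
    intro w hw h1 h3
    refine ⟨w, hw, ?_⟩
    rw [← normalizer_eq_top_iff, eq_top_iff,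
      ← GT.PG.sup_zpowers_eq_top_of_index_prime Nat.prime_two h2 ht]
    have hmem : ∀ g : G, (((g * w * g⁻¹ : G) : G ⧸ N) = w ∨
        ((g * w * g⁻¹ : G) : G ⧸ N) = (w⁻¹ : G)) → g ∈ normalizer (N ⊔ zpowers w : Subgroup G) := by
      intro g hg
      have h4 : g * w * g⁻¹ ∈ N ⊔ zpowers w := by
        rcases hg with hg | hg
        · have := QuotientGroup.eq.1 hg.symm
          rw [show g * w * g⁻¹ = w * (w⁻¹ * (g * w * g⁻¹)) by group]
          exact mul_mem (mem_sup_right (mem_zpowers w)) (mem_sup_left this)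
        · have := QuotientGroup.eq.1 hg.symm
          rw [show g * w * g⁻¹ = w⁻¹ * (w⁻¹⁻¹ * (g * w * g⁻¹)) by group]
          exact mul_mem (mem_sup_right (inv_mem (mem_zpowers w))) (mem_sup_left this)
      refine GT.Tr.mem_normalizer_of_conj_mem fun a ha => ?_
      obtain ⟨n, hn, i, rfl⟩ := (GT.PG.mem_sup_zpowers_of_mem_normalizer
        (by rw [normalizer_eq_top]; trivial)).1 ha
      rw [show g * (n * w ^ i) * g⁻¹ = (g * n * g⁻¹) * (g * w * g⁻¹) ^ i by
        rw [conj_zpow]; group]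
      exact mul_mem (mem_sup_left (hN.conj_mem n hn g)) (zpow_mem h4 i)
    exact sup_le (fun g hg => hmem g (Or.inl (h1 g hg))) (zpowers_le.2 (hmem t h3))
  by_cases hw : z * (t * z * t⁻¹) ∈ N
  · refine main z hzN hcomm (Or.inr ?_)
    rw [← QuotientGroup.eq_one_iff, QuotientGroup.mk_mul] at hw
    rw [QuotientGroup.mk_inv]
    exact (inv_eq_of_mul_eq_one_right hw).symm
  · have hc2 : ∀ g ∈ P, ((g * (t * z * t⁻¹) * g⁻¹ : G) : G ⧸ N) = (t * z * t⁻¹ : G) := by
      intro g hg
      have := hcomm (t⁻¹ * g * t) (by simpa using hPn.conj_mem g hg t⁻¹)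
      rw [show g * (t * z * t⁻¹) * g⁻¹ = t * (t⁻¹ * g * t * z * (t⁻¹ * g * t)⁻¹) * t⁻¹ by group,
        QuotientGroup.mk_mul, QuotientGroup.mk_mul, this]
      rfl
    refine main _ hw (fun g hg => ?_) (Or.inl ?_)
    · rw [show g * (z * (t * z * t⁻¹)) * g⁻¹ = (g * z * g⁻¹) * (g * (t * z * t⁻¹) * g⁻¹) by group,
        QuotientGroup.mk_mul, hcomm g hg, hc2 g hg]
      rfl
    · rw [show t * (z * (t * z * t⁻¹)) * t⁻¹ = (t * z * t⁻¹) * ((t * t) * z * (t * t)⁻¹) by group,
        QuotientGroup.mk_mul, hcomm _ hsq, ← hc2 z hzP]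
      simp only [QuotientGroup.mk_mul, QuotientGroup.mk_inv]
      group

/-- A finite group whose order is twice a prime power is supersolvable. -/
theorem result {G : Type*} [Group G] [Finite G] (p n : ℕ) (hp : p.Prime) (hG : Nat.card G = 2 * p ^ n) : Cfsg.IsSupersolvable G := by

  have := Fact.mk hp
  obtain ⟨P, hP⟩ := Sylow.exists_subgroup_card_pow_prime (G := G) p (n := n)
    (hG ▸ dvd_mul_left _ _)
  have h2 : P.index = 2 := by
    have := P.card_mul_index
    rw [hP, hG, mul_comm] at this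
    exact Nat.eq_of_mul_eq_mul_right (pow_pos hp.pos n) this
  have : Group.IsNilpotent P := (IsPGroup.of_card hP).isNilpotent
  exact aux P h2

end Cfsg.Agent.S0530
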