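import Mathlib
import Cfsg.Statements.S0532
import Cfsg.Agent.GT.Supersolvable2

set_option autoImplicit false
open Cfsg

namespace Cfsg.Agent.S0532

/-- If each subgroup of a finite group satisfies the converse of Lagrange's theorem, then a Sylow subgroup for the largest prime dividing the group order is normal. -/
theorem result {G : Type*} [Group G] [Finite G] (h : ∀ H : Subgroup G, Cfsg.HasSubgroupOfEveryOrder H) (p : ℕ) [Fact p.Prime] (hdvd : p ∣ Nat.card G) (hmax : ∀ q : ℕ, q.Prime → q ∣ Nat.card G → q ≤ p) (P : Sylow p G) : (P : Subgroup G).Normal := by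

  induction hn : Nat.card G using Nat.strong_induction_on generalizing G with
  | _ n ih =>
  have hp : p.Prime := Fact.out
  have h1 : Nat.card G ≠ 1 := fun e => hp.ne_one (Nat.dvd_one.1 (e ▸ hdvd))
  have hq := Nat.minFac_prime h1
  by_cases hpq : (Nat.card G).minFac = p
  · have : (P : Subgroup G).index = 1 := by
      by_contra hi
      obtain ⟨r, hr, hd⟩ := Nat.exists_prime_and_dvd hi
      have h2 := hmax r hr (hd.trans (Subgroup.index_dvd_card _))
      have h3 := Nat.minFac_le_of_dvd hr.two_le (hd.trans (Subgroup.index_dvd_card _))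
      have : r = p := by omega
      exact P.not_dvd_index (this ▸ hd)
    rw [Subgroup.index_eq_one.1 this]
    infer_instance
  obtain ⟨d, hd⟩ := Nat.minFac_dvd (Nat.card G)
  obtain ⟨K, hK⟩ := h ⊤ d (by rw [Subgroup.card_top]; exact Dvd.intro_left _ hd.symm)
  set L := K.map (⊤ : Subgroup G).subtype
  have hL : Nat.card L = d := by rw [GT.card_map_subtype, hK]
  have hd0 : 0 < d := hL ▸ Nat.card_pos
  have hLi : L.index = (Nat.card G).minFac := by
    have := L.card_mul_index
    rw [hL] at this
    refine Nat.eq_of_mul_eq_mul_left hd0 ?_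
    rw [this, mul_comm, ← hd]
  have hLn := Subgroup.normal_of_index_eq_minFac_card hLi
  have hPL : (P : Subgroup G) ≤ L := by
    refine GT.le_of_coprime_card_index ?_
    obtain ⟨k, hk⟩ := IsPGroup.iff_card.1 P.2
    rw [hk, hLi]
    exact ((Nat.coprime_primes hp hq).2 (Ne.symm hpq)).pow_left k
  have hlt : Nat.card L < n := hn ▸ GT.card_lt_of_ne_top fun e => hq.ne_one (by
    rw [← hLi, e, Subgroup.index_top])
  have h3 := ih _ hlt (G := L) (fun H e he => ?_)
    ((P.dvd_card_of_dvd_card hdvd).trans (Subgroup.card_dvd_of_le hPL))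
    (fun q hq hd => hmax q hq (hd.trans (Subgroup.card_subgroup_dvd_card L))) (P.subtype hPL) rfl
  · have := GT.SS.normal_map_sylow_of_normal _ h3
    rwa [Sylow.coe_subtype, Subgroup.subgroupOf_map_subtype, inf_eq_left.2 hPL] at this
  · obtain ⟨M, hM⟩ := h (H.map L.subtype) e (by rwa [GT.card_map_subtype])
    exact ⟨M.map (H.equivMapOfInjective L.subtype L.subtype_injective).symm,
      by rw [GT.card_map_equiv, hM]⟩

end Cfsg.Agent.S0532
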