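import Mathlib
import Cfsg.Statements.S0533
import Cfsg.Agent.GT.Supersolvable2
import Cfsg.Agent.GT.PGroupChain
import Cfsg.Agent.S0532

set_option autoImplicit false
open Cfsg

namespace Cfsg.Agent.S0533

open scoped commutatorElement

theorem step {G : Type*} [Group G] [Finite G]
    (h : ∀ H : Subgroup G, Cfsg.HasSubgroupOfEveryOrder H) {p : ℕ} (hp : p.Prime)
    {X K : Subgroup G} (hX : IsPGroup p X) (hK : ¬ p ∣ Nat.card K)
    (hKX : K ≤ Subgroup.normalizer (X : Set G)) (hX0 : X ≠ ⊥) :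
    ∃ Y ≤ X, Y.relIndex X = p ∧ K ≤ Subgroup.normalizer (Y : Set G) := by
  have := Fact.mk hp
  obtain ⟨a, ha⟩ := IsPGroup.iff_card.1 hX
  obtain ⟨a, rfl⟩ : ∃ b, a = b + 1 := by
    rcases a with _ | a
    · exact absurd (Subgroup.card_eq_one.1 (by simpa using ha)) hX0
    · exact ⟨a, rfl⟩
  have hcop : (Nat.card X).Coprime (Nat.card K) := by
    rw [ha]; exact ((Nat.Prime.coprime_iff_not_dvd hp).2 hK).pow_left _
  have hH : Nat.card (X ⊔ K : Subgroup G) = p ^ (a + 1) * Nat.card K := by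
    rw [GT.HT.card_sup_of_coprime hKX hcop, ha]
  obtain ⟨L', hL'⟩ := h (X ⊔ K) (p ^ a * Nat.card K) (by
    rw [hH]; exact Nat.mul_dvd_mul_right (pow_dvd_pow p a.le_succ) _)
  set L := L'.map (X ⊔ K).subtype
  have hL : Nat.card L = p ^ a * Nat.card K := by rw [GT.card_map_subtype, hL']
  have hLH : L ≤ X ⊔ K := Subgroup.map_subtype_le _
  have hHX : X ⊔ K ≤ Subgroup.normalizer (X : Set G) := sup_le Subgroup.le_normalizer hKX
  have hLi : L.relIndex (X ⊔ K) = p := by
    have := GT.card_mul_relIndex hLH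
    rw [hL, hH] at this
    refine Nat.eq_of_mul_eq_mul_left (hL ▸ Nat.card_pos : 0 < p ^ a * Nat.card K) ?_
    rw [this]; ring
  have hLX : L ⊔ X = X ⊔ K := by
    rcases GT.PG.eq_or_eq_of_relIndex_prime hp (le_sup_left : L ≤ L ⊔ X)
      (sup_le hLH le_sup_left) hLi with e | e
    · exfalso
      have h1 := Subgroup.card_dvd_of_le (sup_eq_left.1 e)
      rw [ha, hL, pow_succ] at h1
      exact hK (Nat.dvd_of_mul_dvd_mul_left (pow_pos hp.pos a) h1)
    · exact e
  have h2 := GT.card_sup_mul_card_inf_of_le_normalizer (hLH.trans hHX)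
  rw [hLX, hH, hL, ha] at h2
  have h3 : Nat.card (L ⊓ X : Subgroup G) = p ^ a := by
    refine Nat.eq_of_mul_eq_mul_left (hH ▸ Nat.card_pos : 0 < p ^ (a + 1) * Nat.card K) ?_
    rw [h2]; ring
  have h4 : (L ⊓ X).relIndex X = p := by
    have := GT.card_mul_relIndex (inf_le_right : L ⊓ X ≤ X)
    rw [h3, ha, pow_succ] at this
    exact Nat.eq_of_mul_eq_mul_left (pow_pos hp.pos a) this
  refine ⟨L ⊓ X, inf_le_right, h4, le_sup_right.trans (hLX.ge.trans (sup_le ?_ ?_))⟩
  · exact GT.PG.le_normalizer_inf Subgroup.le_normalizer (hLH.trans hHX)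
  · exact GT.PG.le_normalizer_of_relIndex_prime hX inf_le_right h4

/-- If every subgroup of a finite group has subgroups of all orders dividing its order, then the group is supersolvable. -/
theorem result {G : Type*} [Group G] [Finite G] (h : ∀ H : Subgroup G, Cfsg.HasSubgroupOfEveryOrder H) : Cfsg.IsSupersolvable G := by

  induction hn : Nat.card G using Nat.strong_induction_on generalizing G with
  | _ n ih =>
  rcases subsingleton_or_nontrivial G with hs | hs
  · exact GT.SS.of_subsingleton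
  have h1 : 1 < Nat.card G := Finite.one_lt_card
  have hne : (Nat.card G).primeFactors.Nonempty := Nat.nonempty_primeFactors.2 h1
  set p := (Nat.card G).primeFactors.max' hne
  have hpm : p ∈ (Nat.card G).primeFactors := Finset.max'_mem _ _
  have hp : p.Prime := Nat.prime_of_mem_primeFactors hpm
  have hpd : p ∣ Nat.card G := Nat.dvd_of_mem_primeFactors hpm
  have hmax : ∀ q : ℕ, q.Prime → q ∣ Nat.card G → q ≤ p := fun q hq hd =>
    Finset.le_max' _ _ (Nat.mem_primeFactors.2 ⟨hq, hd, by omega⟩)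
  have := Fact.mk hp
  obtain ⟨P⟩ : Nonempty (Sylow p G) := inferInstance
  have hPn := S0532.result h p hpd hmax P
  obtain ⟨K, hK⟩ := Subgroup.exists_right_complement'_of_coprime (N := (P : Subgroup G))
    P.card_coprime_index
  have hKi : Nat.card K = (P : Subgroup G).index := hK.symm.index_eq_card.symm
  have hKp : ¬ p ∣ Nat.card K := hKi ▸ P.not_dvd_index
  have hKlt : Nat.card K < n := hn ▸ GT.card_lt_of_ne_top fun e => hKp (by
    rwa [e, Subgroup.card_top])
  have hKs : IsSupersolvable K := ih _ hKlt (G := K) (fun H e he => by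
    obtain ⟨M, hM⟩ := h (H.map K.subtype) e (by rwa [GT.card_map_subtype])
    exact ⟨M.map (H.equivMapOfInjective K.subtype K.subtype_injective).symm,
      by rw [GT.card_map_equiv, hM]⟩) rfl
  refine GT.SS.of_quotient_of_steps (P : Subgroup G)
    (GT.SS.of_mulEquiv hKs hK.symm.QuotientMulEquiv.symm) fun M hM hPM => ?_
  have hMn : ∀ H : Subgroup G, H ≤ Subgroup.normalizer (M : Set G) := fun H => by
    rw [Subgroup.normalizer_eq_top]; exact le_top
  -- the elements of `P` central modulo `M`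
  let X₀ : Subgroup G := (P : Subgroup G) ⊓ (Subgroup.centralizer
    (((P : Subgroup G).map (QuotientGroup.mk' M) : Subgroup (G ⧸ M)) : Set (G ⧸ M))).comap
      (QuotientGroup.mk' M)
  have hPq := hPn.map _ (QuotientGroup.mk'_surjective M)
  have hX₀n : X₀.Normal := inferInstance
  have hX₀ : ∀ x, x ∈ X₀ ↔ x ∈ (P : Subgroup G) ∧ ∀ g ∈ (P : Subgroup G), ⁅x, g⁆ ∈ M := by
    intro x
    refine and_congr_right fun _ => ⟨fun hx g hg => ?_, fun hx => ?_⟩
    · rw [← QuotientGroup.eq_one_iff, ← QuotientGroup.mk'_apply, map_commutatorElement,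
        commutatorElement_eq_one_iff_mul_comm]
      exact (hx _ (Subgroup.mem_map_of_mem _ hg)).symm
    · rintro _ ⟨g, hg, rfl⟩
      have := hx g hg
      rw [← QuotientGroup.eq_one_iff, ← QuotientGroup.mk'_apply, map_commutatorElement,
        commutatorElement_eq_one_iff_mul_comm] at this
      exact this.symm
  obtain ⟨k, hk⟩ := GT.PG.exists_iterCommutator_eq_bot_of_isPGroup P.2 P.2
    Subgroup.le_normalizer
  obtain ⟨z, hzP, hzN, hz⟩ := GT.PG.exists_notMem_commutator_mem_of_iterCommutator hk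
    Subgroup.le_normalizer hPM
  have key : ∀ X : Subgroup G, X ≤ X₀ → K ≤ Subgroup.normalizer (X : Set G) → ¬ X ≤ M →
      ∃ g, g ∉ M ∧ (M ⊔ Subgroup.zpowers g).Normal := by
    intro X
    induction X using GT.SS.card_induction with
    | _ X ihX =>
    intro hX hKX hXM
    have hXp : IsPGroup p X := P.2.to_le (hX.trans inf_le_left)
    obtain ⟨Y, hYX, hYi, hKY⟩ := step h hp hXp hKp hKX (fun e => hXM (e ▸ bot_le))
    by_cases hYM : Y ≤ M
    swap
    · exact ihX Y (lt_of_le_of_ne hYX fun e => hp.ne_one (by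
        rw [← hYi, e, Subgroup.relIndex_self])) (hYX.trans hX) hKY hYM
    obtain ⟨g, hgX, hgM⟩ := SetLike.not_le_iff_exists.1 hXM
    refine ⟨g, hgM, ?_⟩
    have h2 := GT.PG.sup_zpowers_eq_of_relIndex_prime hp hYX hYi hgX fun h => hgM (hYM h)
    have h3 : M ⊔ Subgroup.zpowers g = M ⊔ X := by
      rw [← h2, ← sup_assoc, sup_eq_left.2 hYM]
    rw [← Subgroup.normalizer_eq_top_iff, eq_top_iff, ← hK.sup_eq_top]
    refine sup_le (GT.PG.le_normalizer_sup_zpowers (hMn _) (hMn ⊤ trivial)
      ((hX₀ g).1 (hX hgX)).2) ?_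
    rw [h3]
    exact GT.PG.le_normalizer_sup (hMn _) hKX
  exact key X₀ le_rfl (by rw [Subgroup.normalizer_eq_top]; exact le_top)
    fun e => hzN (e ((hX₀ z).2 ⟨hzP, hz⟩))

end Cfsg.Agent.S0533
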