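import Mathlib
import Cfsg.Statements.S0534
import Cfsg.Agent.GT.Hall
import Cfsg.Agent.GT.Supersolvable2

set_option autoImplicit false
open Cfsg

namespace Cfsg.Agent.S0534

/-- Let G be a finite solvable group and A a finite abelian group such that every prime dividing the order of A divides the order of G and, for each prime p dividing the order of G, the exponent of p in the order of A is one less than its exponent in the order of G. Then G × A has a subgroup of every order dividing its order. -/
theorem result {G A : Type*} [Group G] [CommGroup A] [Finite G] [Finite A] [Group.IsSolvable G] (hA : ∀ p : ℕ, p.Prime → p ∣ Nat.card A → p ∣ Nat.card G) (hexp : ∀ p : ℕ, p.Prime → p ∣ Nat.card G → (Nat.card A).factorization p + 1 = (Nat.card G).factorization p) : Cfsg.HasSubgroupOfEveryOrder (G × A) := by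

  intro d hd
  rw [Nat.card_prod] at hd
  have hG0 : Nat.card G ≠ 0 := Nat.card_pos.ne'
  have hA0 : Nat.card A ≠ 0 := Nat.card_pos.ne'
  have hd0 : d ≠ 0 := fun e => by
    rw [e, zero_dvd_iff] at hd; exact mul_ne_zero hG0 hA0 hd
  obtain ⟨H, hH⟩ := GT.exists_isPiHall {p | (Nat.card G).factorization p ≤ d.factorization p} G
  have hH0 : Nat.card H ≠ 0 := Nat.card_pos.ne'
  have hI0 : H.index ≠ 0 := Subgroup.index_ne_zero_of_finite
  have hf : ∀ p, (Nat.card G).factorization p =
      (Nat.card H).factorization p + H.index.factorization p := fun p => by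
    rw [← H.card_mul_index, Nat.factorization_mul hH0 hI0]; rfl
  have h1 : ∀ p, p.Prime → (Nat.card G).factorization p ≤ d.factorization p →
      (Nat.card H).factorization p = (Nat.card G).factorization p := fun p hp h => by
    rw [hf, Nat.factorization_eq_zero_of_not_dvd (hH.2 p hp h), add_zero]
  have h2 : ∀ p, p.Prime → ¬ (Nat.card G).factorization p ≤ d.factorization p →
      (Nat.card H).factorization p = 0 := fun p hp h =>
    Nat.factorization_eq_zero_of_not_dvd fun hh => h (hH.1 p hp hh)
  have h3 : Nat.card H ∣ d := by
    rw [← Nat.factorization_prime_le_iff_dvd hH0 hd0]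
    intro p hp
    by_cases h : (Nat.card G).factorization p ≤ d.factorization p
    · rw [h1 p hp h]; exact h
    · rw [h2 p hp h]; exact Nat.zero_le _
  obtain ⟨e, rfl⟩ := h3
  have he0 : e ≠ 0 := right_ne_zero_of_mul hd0
  have h4 : e ∣ Nat.card A := by
    rw [← Nat.factorization_prime_le_iff_dvd he0 hA0]
    intro p hp
    have h5 := (Nat.factorization_prime_le_iff_dvd hd0 (mul_ne_zero hG0 hA0)).2 hd p hp
    have h6 := h1 p hp
    have h7 := h2 p hp
    rw [Nat.factorization_mul hH0 he0, Finsupp.add_apply] at h5 h6 h7
    rw [Nat.factorization_mul hG0 hA0, Finsupp.add_apply] at h5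
    by_cases h : (Nat.card G).factorization p ≤ (Nat.card H).factorization p + e.factorization p
    · have := h6 h; omega
    · have := h7 h
      have hpG : p ∣ Nat.card G := by
        by_contra hh
        rw [Nat.factorization_eq_zero_of_not_dvd hh] at h
        omega
      have := hexp p hp hpG
      omega
  obtain ⟨B, hB⟩ := GT.SS.hasSubgroupOfEveryOrder (GT.SS.of_isNilpotent (G := A)) e h4
  refine ⟨H.prod B, ?_⟩
  rw [← hB, ← Nat.card_prod]
  exact Nat.card_congr (Subgroup.prodEquiv H B).toEquiv

end Cfsg.Agent.S0534
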