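import Mathlib
import Cfsg.Statements.S0535
import Cfsg.Agent.S0006
import Cfsg.Agent.GT.Supersolvable

set_option autoImplicit false
open Cfsg

namespace Cfsg.Agent.S0535

/-- Suppose that for every nontrivial subgroup H of a finite group and every prime p dividing the order of H there is a proper subgroup of H whose index in H is a power of p. Then the group is solvable. -/
theorem result {G : Type*} [Group G] [Finite G] (h : ∀ H : Subgroup G, H ≠ ⊥ → ∀ p : ℕ, p.Prime → p ∣ Nat.card H → ∃ K : Subgroup H, K ≠ ⊤ ∧ ∃ k : ℕ, K.index = p ^ k) : Group.IsSolvable G := by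

  refine S0006.result fun p hp => ?_
  have key : ∀ H : Subgroup G, (∃ k, H.index = p ^ k) →
      ∃ K : Subgroup G, K.index = p ^ (Nat.card G).factorization p := by
    intro H
    induction H using GT.SS.card_induction with
    | _ H ih =>
    rintro ⟨k, hk⟩
    by_cases hd : p ∣ Nat.card H
    · obtain ⟨K, hK, j, hj⟩ := h H (fun e => hp.ne_one (Nat.dvd_one.1 (by
        rwa [e, Subgroup.card_bot] at hd))) p hp hd
      refine ih (K.map H.subtype) (lt_of_le_of_ne (Subgroup.map_subtype_le _) fun e => hK ?_)
        ⟨j + k, by rw [Subgroup.index_map_subtype, hj, hk, pow_add]⟩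
      apply Subgroup.map_injective H.subtype_injective
      rw [e, ← MonoidHom.range_eq_map, Subgroup.range_subtype]
    · refine ⟨H, ?_⟩
      rw [← H.card_mul_index, hk, Nat.factorization_mul Nat.card_pos.ne' (pow_pos hp.pos k).ne']
      simp [Nat.factorization_eq_zero_of_not_dvd hd, hp.factorization]
  exact key ⊤ ⟨0, by simp⟩

end Cfsg.Agent.S0535
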