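import Mathlib
import Cfsg.Statements.S0537
import Cfsg.Agent.GT.Schmidt
import Cfsg.Agent.GT.CoprimeAbelian
import Cfsg.Agent.GT.PGroupElemAb

set_option autoImplicit false
open Cfsg

namespace Cfsg.Agent.S0537

/-- A finite non-abelian group in which every proper subgroup is abelian is either of prime-power order, or is generated by a cyclic Sylow p-subgroup and a normal Sylow q-subgroup that is elementary abelian, for distinct primes p and q. -/
theorem result {G : Type*} [Group G] [Finite G] (hna : ¬ IsMulCommutative G) (h : ∀ H : Subgroup G, H ≠ ⊤ → IsMulCommutative H) : (∃ p : ℕ, p.Prime ∧ IsPGroup p G) ∨ ∃ p q : ℕ, p.Prime ∧ q.Prime ∧ p ≠ q ∧ ∃ (P : Sylow p G) (Q : Sylow q G), IsCyclic P ∧ (Q : Subgroup G).Normal ∧ Cfsg.IsElementaryAbelian q (Q : Subgroup G) ∧ (P : Subgroup G) ⊔ Q = ⊤ := by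

  by_cases hp : ∃ p : ℕ, p.Prime ∧ IsPGroup p G
  · exact Or.inl hp
  push Not at hp
  have hG := GT.Schmidt.isMinimalNonNilpotent_of_minimal_nonabelian hna h hp
  obtain ⟨p, q, hp', hq, hpq, P, Q, h1, h2, h3, h4⟩ := GT.Schmidt.exists_sylow hG
  refine Or.inr ⟨p, q, hp', hq, hpq, P, Q, h1, h2, ?_, h3⟩
  have := Fact.mk hp'
  have := Fact.mk hq
  have hQc : IsMulCommutative (Q : Subgroup G) := h _ fun e =>
    hp q hq ((e ▸ Q.2 : IsPGroup q (⊤ : Subgroup G)).of_equiv Subgroup.topEquiv)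
  refine ⟨hQc, ?_⟩
  have cQ := GT.PG.isMulCommutative_iff_forall.1 hQc
  let W : Subgroup G :=
    { carrier := {x | x ∈ (Q : Subgroup G) ∧ x ^ q = 1}
      mul_mem' := fun {a b} ha hb => ⟨mul_mem ha.1 hb.1, by
        rw [Commute.mul_pow (cQ a ha.1 b hb.1), ha.2, hb.2, one_mul]⟩
      one_mem' := ⟨one_mem _, one_pow q⟩
      inv_mem' := fun {a} ha => ⟨inv_mem ha.1, by rw [inv_pow, ha.2, inv_one]⟩ }
  have hW : W.Normal := ⟨fun a ha g => ⟨h2.conj_mem a ha.1 g, by rw [conj_pow, ha.2]; simp⟩⟩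
  have hcop : (Nat.card (P : Subgroup G)).Coprime (Nat.card (Q : Subgroup G)) :=
    IsPGroup.coprime_card_of_ne p q hpq _ _ P.2 Q.2
  by_cases ht : W ⊔ (P : Subgroup G) = ⊤
  · have := GT.HT.sup_inf_eq_of_le (N := W) (H := (P : Subgroup G)) (M := (Q : Subgroup G))
      (by rw [Subgroup.normalizer_eq_top]; exact le_top) (fun x hx => hx.1) (ht ▸ le_top)
    rw [(Subgroup.disjoint_of_coprime_natCard hcop).eq_bot, sup_bot_eq] at this
    intro a ha
    exact (this ▸ ha : a ∈ W).2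
  · exfalso
    apply h4
    have hc := GT.PG.isMulCommutative_iff_forall.1 (h _ ht)
    have h5 : (P : Subgroup G) ≤ Subgroup.centralizer ((Q : Subgroup G) : Set G) := by
      refine GT.CopAct.le_centralizer_of_pow_prime_eq_one (p := q) hQc Q.2
        (by rw [Subgroup.normalizer_eq_top]; exact le_top) ?_ fun v hv hv' x hx => ?_
      · obtain ⟨k, hk⟩ := IsPGroup.iff_card.1 P.2
        rw [hk]
        exact ((Nat.coprime_primes hp' hq).2 hpq).pow_left k
      · exact hc x (Subgroup.mem_sup_right hx) v (Subgroup.mem_sup_left ⟨hv, hv'⟩)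
    rw [← Subgroup.normalizer_eq_top_iff, eq_top_iff, ← h3]
    exact sup_le Subgroup.le_normalizer
      ((Subgroup.le_centralizer_iff.1 h5).trans (GT.PG.centralizer_le_normalizer' _))

end Cfsg.Agent.S0537
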