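import Mathlib
import Cfsg.Statements.S0539
import Cfsg.Agent.GT.Zipper

set_option autoImplicit false
open Pointwise
open Cfsg

namespace Cfsg.Agent.S0539

open Cfsg.Agent.GT

/-- Let S be a family of subnormal subgroups of a finite group that is closed under conjugation, and S₀ a proper subfamily. Then some member of S not in S₀ normalizes the join of S₀. -/
theorem result {G : Type*} [Group G] [Finite G] (S S₀ : Set (Subgroup G)) (hS : ∀ U ∈ S, U.IsSubnormal) (hconj : ∀ U ∈ S, ∀ g : G, MulAut.conj g • U ∈ S) (h₀ : S₀ ⊂ S) : ∃ X ∈ S, X ∉ S₀ ∧ X ≤ Subgroup.normalizer ((sSup S₀ : Subgroup G) : Set G) := by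
  exact exists_mem_le_normalizer_sSup (L := ⊤) (fun U hU => subnormalIn_top_iff.mpr (hS U hU))
    (fun U hU g _ => hconj U hU g) h₀

end Cfsg.Agent.S0539
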