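import Mathlib
import Cfsg.Statements.S0541
import Cfsg.Agent.GT.Subnormal2
import Cfsg.Agent.GT.CoprimeNilp

set_option autoImplicit false
open Pointwise
open Cfsg

namespace Cfsg.Agent.S0541

open Cfsg.Agent.GT

open Subgroup in

/-- Let Z and Y be subgroups of a finite group G and p a prime. Suppose that for every g in G the subgroup generated by the conjugates of g Z g⁻¹ under Y is a p-group. Then there is a Sylow p-subgroup P of G such that Y normalizes the subgroup generated by all conjugates of Z contained in P. -/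
theorem result {G : Type*} [Group G] [Finite G] (p : ℕ) [Fact p.Prime] (Z Y : Subgroup G) (h : ∀ g : G, IsPGroup p ↥(⨆ y ∈ Y, MulAut.conj (y * g) • Z)) : ∃ P : Sylow p G, Y ≤ Subgroup.normalizer ((⨆ g ∈ {g : G | MulAut.conj g • Z ≤ (P : Subgroup G)}, MulAut.conj g • Z : Subgroup G) : Set G) := by
    have hsup : ∀ P : Subgroup G, (⨆ g ∈ {g : G | MulAut.conj g • Z ≤ P}, MulAut.conj g • Z) =
        sSup {U | (∃ g : G, U = Z.map (MulAut.conj g).toMonoidHom) ∧ U ≤ P} := fun P => by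
      refine le_antisymm (iSup₂_le fun g hg => le_sSup ⟨⟨g, rfl⟩, hg⟩) (sSup_le ?_)
      rintro _ ⟨⟨g, rfl⟩, hg⟩
      exact le_iSup₂_of_le (f := fun g (_ : g ∈ {g : G | MulAut.conj g • Z ≤ P}) =>
        MulAut.conj g • Z) g hg le_rfl
    obtain ⟨Q, -, ⟨hQp, hQY, hQ⟩, hmax⟩ := exists_maximal_ge
      (P := fun Q : Subgroup G => IsPGroup p Q ∧ Y ≤ normalizer (Q : Set G) ∧
        Q ≤ sSup {U | (∃ g : G, U = Z.map (MulAut.conj g).toMonoidHom) ∧ U ≤ Q})
      (H := ⊥) ⟨IsPGroup.of_bot, le_normalizer_of_normal, bot_le⟩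
    have hQe : sSup {U | (∃ g : G, U = Z.map (MulAut.conj g).toMonoidHom) ∧ U ≤ Q} = Q :=
      le_antisymm (sSup_le fun U hU => hU.2) hQ
    obtain ⟨P, hP⟩ := hQp.exists_le_sylow
    refine ⟨P, ?_⟩
    rw [hsup]
    have hsub : {U | (∃ g : G, U = Z.map (MulAut.conj g).toMonoidHom) ∧ U ≤ Q} ⊆
        {U | (∃ g : G, U = Z.map (MulAut.conj g).toMonoidHom) ∧ U ≤ P} :=
      fun U hU => ⟨hU.1, hU.2.trans hP⟩
    rcases hsub.eq_or_ssubset with e | hss
    · rwa [← e, hQe]
    exfalso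
    obtain ⟨X, ⟨⟨g, rfl⟩, hXP⟩, hX, hXn⟩ := exists_mem_le_normalizer_sSup (L := P)
      (fun U hU => subnormalIn_of_isPGroup P.isPGroup' hU.2) (by
        rintro _ ⟨⟨g, rfl⟩, hU⟩ x hx
        exact ⟨⟨x * g, map_conj_map_conj _ _ _⟩, map_conj_le_of_mem hU hx⟩) hss
    rw [hQe] at hXn
    set R : Subgroup G := ⨆ y ∈ Y, MulAut.conj (y * g) • Z with hR
    have hle : ∀ y ∈ Y, Z.map (MulAut.conj (y * g)).toMonoidHom ≤ R := fun y hy =>
      le_iSup₂_of_le (f := fun y (_ : y ∈ Y) => MulAut.conj (y * g) • Z) y hy le_rfl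
    have hRQ : R ≤ normalizer (Q : Set G) := iSup₂_le fun y hy => by
      rw [conj_smul_eq_map_conj, map_conj_mul, ← map_conj_eq_of_mem_normalizer (hQY hy),
        normalizer_map_conj]
      exact map_mono hXn
    have hYR : Y ≤ normalizer (R : Set G) := fun y hy => mem_normalizer_of_map_conj_le (by
      rw [hR, map_le_iff_le_comap]
      refine iSup₂_le fun z hz => map_le_iff_le_comap.mp ?_
      rw [conj_smul_eq_map_conj, map_conj_map_conj, ← mul_assoc]
      exact hle _ (Y.mul_mem hy hz))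
    have := hmax (Q ⊔ R) ⟨CopAct.isPGroup_sup_of_le_normalizer hQp (h g) hRQ,
      CopAct.le_normalizer_sup hQY hYR, sup_le (hQ.trans (sSup_le_sSup fun U hU =>
        ⟨hU.1, hU.2.trans le_sup_left⟩)) (iSup₂_le fun y hy =>
          le_sSup ⟨⟨y * g, rfl⟩, (hle y hy).trans le_sup_right⟩)⟩ le_sup_left
    refine hX ⟨⟨g, rfl⟩, ?_⟩
    have h1 := hle 1 Y.one_mem
    rw [one_mul] at h1
    exact h1.trans (le_sup_right.trans this.le)

end Cfsg.Agent.S0541
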