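import Mathlib
import Cfsg.Statements.S0546
import Cfsg.Agent.GT.Carter

set_option autoImplicit false
open Cfsg

namespace Cfsg.Agent.S0546

/-- The normal closure of a system normalizer of a finite solvable group is the whole group. -/
theorem result {G : Type*} [Group G] [Finite G] [Group.IsSolvable G] (K : Nat.Primes → Subgroup G) (hK : Cfsg.IsComplementSystem K) : Subgroup.normalClosure ((Cfsg.systemNormalizer K : Subgroup G) : Set G) = ⊤ := by
  by_contra hne
  obtain ⟨M, hM, hle⟩ := GT.exists_isChiefFactor_below (U := ⊤) (lt_top_iff_ne_top.mpr hne)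
  have := hM.2.2.1
  have h1 := hK.le_sup_systemNormalizer hM.elementary.1
  exact hM.1.not_ge (h1.trans (sup_le le_rfl (Subgroup.le_normalClosure.trans hle)))

end Cfsg.Agent.S0546
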