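import Mathlib
import Cfsg.Statements.S0547
import Cfsg.Agent.GT.MinNormal
import Cfsg.Agent.Perm.Regular

set_option autoImplicit false
open Cfsg

namespace Cfsg.Agent.S0547

/-- Let a finite solvable group G act faithfully and primitively on a set, and let M be a minimal normal subgroup of G. Then M is transitive with trivial point stabilizers, and the number of points equals the order of M, which is a prime power p ^ d with d ≥ 1. -/
theorem result {G : Type*} [Group G] [Finite G] [Group.IsSolvable G] {Ω : Type*} [Nonempty Ω] [MulAction G Ω] [FaithfulSMul G Ω] (hprim : MulAction.IsPreprimitive G Ω) (M : Subgroup G) [M.Normal] (hM : M ≠ ⊥) (hmin : ∀ K : Subgroup G, K.Normal → K ≤ M → K = ⊥ ∨ K = M) : MulAction.IsPretransitive M Ω ∧ (∀ ω : Ω, MulAction.stabilizer M ω = ⊥) ∧ ∃ p d : ℕ, p.Prime ∧ 0 < d ∧ Nat.card Ω = p ^ d ∧ Nat.card M = p ^ d := by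

  have hMm : GT.IsMinNormal M := ⟨inferInstance, hM, hmin⟩
  obtain ⟨p, hp, hpM, hc⟩ := hMm.exists_isPGroup
  haveI := Fact.mk hp
  haveI hT := Perm.isPretransitive_of_normal_ne_bot hprim M hM
  have hs : ∀ ω : Ω, MulAction.stabilizer M ω = ⊥ := Perm.stabilizer_eq_bot_of_comm M hc
  refine ⟨hT, hs, ?_⟩
  obtain ⟨d, hd⟩ := IsPGroup.iff_card.1 hpM
  obtain ⟨ω⟩ := (inferInstance : Nonempty Ω)
  refine ⟨p, d, hp, ?_, (Perm.card_subgroup_eq_of_regular M ω (hs ω)).symm.trans hd, hd⟩
  rcases Nat.eq_zero_or_pos d with rfl | h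
  · exact absurd (Subgroup.card_eq_one.1 (by simpa using hd)) hM
  · exact h

end Cfsg.Agent.S0547
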