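import Mathlib
import Cfsg.Statements.S0548
import Cfsg.Agent.GT.MinNormal
import Cfsg.Agent.GT.Conj
import Cfsg.Agent.Perm.Regular

set_option autoImplicit false
open Cfsg

namespace Cfsg.Agent.S0548

/-- Let a finite solvable group G act faithfully and primitively on a set, let M be a minimal normal subgroup and H the stabilizer of a point. Then H is a complement to M, no non-identity element of H centralizes M, and the only subgroups of M normalized by H are the trivial subgroup and M. -/
theorem result {G : Type*} [Group G] [Finite G] [Group.IsSolvable G] {Ω : Type*} [MulAction G Ω] [FaithfulSMul G Ω] (hprim : MulAction.IsPreprimitive G Ω) (M : Subgroup G) [M.Normal] (hM : M ≠ ⊥) (hmin : ∀ K : Subgroup G, K.Normal → K ≤ M → K = ⊥ ∨ K = M) (ω : Ω) : Subgroup.IsComplement' M (MulAction.stabilizer G ω) ∧ MulAction.stabilizer G ω ⊓ Subgroup.centralizer (M : Set G) = ⊥ ∧ ∀ K : Subgroup G, K ≤ M → MulAction.stabilizer G ω ≤ Subgroup.normalizer (K : Set G) → K = ⊥ ∨ K = M := by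

  have hMm : GT.IsMinNormal M := ⟨inferInstance, hM, hmin⟩
  obtain ⟨p, hp, hpM, hc⟩ := hMm.exists_isPGroup
  haveI hT := Perm.isPretransitive_of_normal_ne_bot hprim M hM
  have hs := (Perm.stabilizer_subgroup_eq_bot_iff M ω).1 (Perm.stabilizer_eq_bot_of_comm M hc ω)
  have hsup := Perm.sup_stabilizer_eq_top M ω
  refine ⟨GT.isComplement'_iff_of_normal.2 ⟨?_, hsup⟩, ?_, fun K hK hN => hmin K ?_ hK⟩
  · exact eq_bot_iff.2 fun x hx => hs x hx.1 hx.2
  · exact eq_bot_iff.2 fun x hx => Perm.eq_one_of_commute_of_fix M (fun h hh => hx.2 h hh) hx.1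
  · refine GT.normal_of_top_le_normalizer ?_
    rw [← hsup]
    exact sup_le (GT.le_normalizer_of_le_of_comm hK) hN

end Cfsg.Agent.S0548
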