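import Mathlib
import Cfsg.Statements.S0549
import Cfsg.Agent.GT.HallTools
import Cfsg.Agent.GT.PGroupBasic

set_option autoImplicit false
open Cfsg

namespace Cfsg.Agent.S0549

/-- Let U be a maximal subgroup of a finite group G whose normal core is trivial, and N a nontrivial normal subgroup with centralizer C. Then C ∩ U = 1, and either C = 1 or C is a minimal normal subgroup of G. -/
theorem result {G : Type*} [Group G] [Finite G] (U : Subgroup G) (hU : IsCoatom U) (hcore : U.normalCore = ⊥) (N : Subgroup G) [N.Normal] (hN : N ≠ ⊥) : Subgroup.centralizer (N : Set G) ⊓ U = ⊥ ∧ (Subgroup.centralizer (N : Set G) = ⊥ ∨ (Subgroup.centralizer (N : Set G) ≠ ⊥ ∧ ∀ K : Subgroup G, K.Normal → K ≤ Subgroup.centralizer (N : Set G) → K = ⊥ ∨ K = Subgroup.centralizer (N : Set G))) := by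

  have hsup : ∀ K : Subgroup G, K.Normal → K ≠ ⊥ → K ⊔ U = ⊤ := fun K hK hK0 =>
    hU.2 _ (lt_of_le_of_ne le_sup_right fun e => hK0 (eq_bot_iff.2
      (hcore ▸ Subgroup.normal_le_normalCore.2 (e ▸ le_sup_left))))
  have h1 : Subgroup.centralizer (N : Set G) ⊓ U = ⊥ := by
    have : (Subgroup.centralizer (N : Set G) ⊓ U).Normal := by
      rw [← Subgroup.normalizer_eq_top_iff, eq_top_iff, ← hsup N inferInstance hN]
      refine sup_le ?_ (GT.PG.le_normalizer_inf (by simp [Subgroup.normalizer_eq_top])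
        Subgroup.le_normalizer)
      exact (Subgroup.le_centralizer_iff.1 inf_le_left).trans (GT.PG.centralizer_le_normalizer' _)
    exact eq_bot_iff.2 (hcore ▸ Subgroup.normal_le_normalCore.2 inf_le_right)
  refine ⟨h1, ?_⟩
  by_cases h0 : Subgroup.centralizer (N : Set G) = ⊥
  · exact Or.inl h0
  refine Or.inr ⟨h0, fun K hK hle => ?_⟩
  by_cases hK0 : K = ⊥
  · exact Or.inl hK0
  have := GT.HT.sup_inf_eq_of_le (N := K) (H := U) (by simp [Subgroup.normalizer_eq_top]) hle
    (hsup K hK hK0 ▸ le_top)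
  rw [inf_comm, h1, sup_bot_eq] at this
  exact Or.inr this

end Cfsg.Agent.S0549
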