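import Mathlib
import Cfsg.Statements.S0550
import Cfsg.Agent.GT.MinNormal
import Cfsg.Agent.GT.Conj
import Cfsg.Agent.GT.HallTools
import Cfsg.Agent.S0549

set_option autoImplicit false
open Cfsg

namespace Cfsg.Agent.S0550

theorem equiv_of_compl {G : Type*} [Group G] {H K : Subgroup G} (N : Subgroup G) [N.Normal]
    (h1 : H ⊓ N = ⊥) (h2 : K ⊓ N = ⊥) (h : H ⊔ N = K ⊔ N) : Nonempty (H ≃* K) := by
  have key : ∀ H : Subgroup G, H ⊓ N = ⊥ → Nonempty (H ≃* H.map (QuotientGroup.mk' N)) := by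
    intro H hH
    have inj : Function.Injective ((QuotientGroup.mk' N).comp H.subtype) := by
      rw [injective_iff_map_eq_one]
      intro a ha
      have : (a : G) ∈ H ⊓ N := ⟨a.2, (QuotientGroup.eq_one_iff _).1 ha⟩
      rw [hH] at this
      exact Subtype.ext this
    exact ⟨(MonoidHom.ofInjective inj).trans (MulEquiv.subgroupCongr (by
      rw [MonoidHom.range_comp, Subgroup.range_subtype]))⟩
  have e : H.map (QuotientGroup.mk' N) = K.map (QuotientGroup.mk' N) := by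
    rw [← GT.map_mk'_sup H, h, GT.map_mk'_sup]
  exact ⟨(key H h1).some.trans ((MulEquiv.subgroupCongr e).trans (key K h2).some.symm)⟩

/-- Let U be a maximal subgroup with trivial normal core in a finite group G, and A ≠ B two minimal normal subgroups. Then A is the centralizer of B and B that of A, U complements each of them, A and B are non-abelian, and A, B and (A ⊔ B) ∩ U are pairwise isomorphic. -/
theorem result {G : Type*} [Group G] [Finite G] (U : Subgroup G) (hU : IsCoatom U) (hcore : U.normalCore = ⊥) (A B : Subgroup G) [A.Normal] [B.Normal] (hA : A ≠ ⊥) (hB : B ≠ ⊥) (hAmin : ∀ K : Subgroup G, K.Normal → K ≤ A → K = ⊥ ∨ K = A) (hBmin : ∀ K : Subgroup G, K.Normal → K ≤ B → K = ⊥ ∨ K = B) (hAB : A ≠ B) : Subgroup.centralizer (B : Set G) = A ∧ Subgroup.centralizer (A : Set G) = B ∧ Subgroup.IsComplement' A U ∧ Subgroup.IsComplement' B U ∧ ¬ IsMulCommutative A ∧ Nonempty (A ≃* B) ∧ Nonempty (A ≃* ↥((A ⊔ B) ⊓ U)) := by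

  have hAm : GT.IsMinNormal A := ⟨inferInstance, hA, hAmin⟩
  have hBm : GT.IsMinNormal B := ⟨inferInstance, hB, hBmin⟩
  have hsup : ∀ K : Subgroup G, K.Normal → K ≠ ⊥ → K ⊔ U = ⊤ := fun K hK hK0 =>
    hU.2 _ (lt_of_le_of_ne le_sup_right fun e => hK0 (eq_bot_iff.2
      (hcore ▸ Subgroup.normal_le_normalCore.2 (e ▸ le_sup_left))))
  have key : ∀ A B : Subgroup G, GT.IsMinNormal A → GT.IsMinNormal B → A ≠ B →
      Subgroup.centralizer (B : Set G) = A ∧ A ⊓ U = ⊥ := by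
    intro A B hA hB hAB
    have := hB.normal
    obtain ⟨h1, h2⟩ := S0549.result U hU hcore B hB.ne_bot
    have hle := hA.le_centralizer hB hAB
    have h3 : Subgroup.centralizer (B : Set G) = A := by
      rcases h2 with h2 | ⟨-, h2⟩
      · exact absurd (eq_bot_iff.2 (h2 ▸ hle)) hA.ne_bot
      · exact ((h2 A hA.normal hle).resolve_left hA.ne_bot).symm
    exact ⟨h3, h3 ▸ h1⟩
  obtain ⟨h1, h2⟩ := key A B hAm hBm hAB
  obtain ⟨h3, h4⟩ := key B A hBm hAm hAB.symm
  have hi := hAm.inf_eq_bot hBm hAB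
  have hD : ∀ N : Subgroup G, N.Normal → N ≠ ⊥ → N ≤ A ⊔ B → N ⊔ ((A ⊔ B) ⊓ U) = A ⊔ B := by
    intro N hN hN0 hle
    rw [inf_comm]
    exact GT.HT.sup_inf_eq_of_le (by simp [Subgroup.normalizer_eq_top]) hle
      (hsup N hN hN0 ▸ le_top)
  have e1 : Nonempty (A ≃* ↥((A ⊔ B) ⊓ U)) := by
    refine equiv_of_compl B hi (eq_bot_iff.2 fun x hx => h4.le ⟨hx.2, hx.1.2⟩) ?_
    rw [sup_comm (_ ⊓ _) B, hD B inferInstance hB le_sup_right]
  have e2 : Nonempty (B ≃* ↥((A ⊔ B) ⊓ U)) := by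
    refine equiv_of_compl A (inf_comm A B ▸ hi)
      (eq_bot_iff.2 fun x hx => h2.le ⟨hx.2, hx.1.2⟩) ?_
    rw [sup_comm (_ ⊓ _) A, hD A inferInstance hA le_sup_left, sup_comm]
  refine ⟨h1, h3, GT.isComplement'_iff_of_normal.2 ⟨h2, hsup A inferInstance hA⟩,
    GT.isComplement'_iff_of_normal.2 ⟨h4, hsup B inferInstance hB⟩, fun hc => hA ?_,
    ⟨e1.some.trans e2.some.symm⟩, e1⟩
  have : A ≤ B := h3 ▸ Subgroup.le_centralizer A
  rw [← hi, inf_eq_left.2 this]

end Cfsg.Agent.S0550
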