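import Mathlib
import Cfsg.Statements.S0551
import Cfsg.Agent.GT.MinNormal
import Cfsg.Agent.GT.Conj
import Cfsg.Agent.GT.HallTools
import Cfsg.Agent.GT.Frattini
import Cfsg.Agent.GT.SchurZassenhaus
import Cfsg.Agent.GT.PGroupBasic

set_option autoImplicit false
open Pointwise
open Cfsg

namespace Cfsg.Agent.S0551

/-- In a finite solvable group all core-free maximal subgroups are conjugate. -/
theorem result {G : Type*} [Group G] [Finite G] [Group.IsSolvable G] (U V : Subgroup G) (hU : IsCoatom U) (hV : IsCoatom V) (hUc : U.normalCore = ⊥) (hVc : V.normalCore = ⊥) : ∃ g : G, MulAut.conj g • U = V := by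

  have : Nontrivial G := by
    by_contra h
    rw [not_nontrivial_iff_subsingleton] at h
    exact hU.1 (Subsingleton.elim _ _)
  obtain ⟨N, hN⟩ := GT.exists_isMinNormal G
  have := hN.normal
  obtain ⟨p, hp, hpN, hc⟩ := hN.exists_isPGroup
  have := Fact.mk hp
  have hcompl : ∀ U : Subgroup G, IsCoatom U → U.normalCore = ⊥ → N ⊓ U = ⊥ ∧ N ⊔ U = ⊤ :=
    fun U hU hUc => GT.isComplement'_iff_of_normal.1 (hN.isComplement'_of_isCoatom hU fun h =>
      hN.ne_bot (eq_bot_iff.2 (hUc ▸ Subgroup.normal_le_normalCore.2 h)))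
  by_cases hNt : N = ⊤
  · have h1 := (hcompl U hU hUc).1
    have h2 := (hcompl V hV hVc).1
    rw [hNt, top_inf_eq] at h1 h2
    exact ⟨1, by rw [h1, h2, GT.HT.conj_one_smul]⟩
  obtain ⟨L, hL, -⟩ := GT.exists_isChiefFactor_above (U := ⊤) (W := N) (lt_top_iff_ne_top.2 hNt)
  obtain ⟨-, q, hq, -, k, hk, hqk⟩ := hL.elementary
  have hLn : L.Normal := hL.2.1
  have hNL : N < L := hL.1
  have hpq : p ≠ q := by
    rintro rfl
    obtain ⟨d, hd⟩ := IsPGroup.iff_card.1 hpN
    have hLp : IsPGroup p L := IsPGroup.iff_card.2 ⟨d + k, by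
      rw [← GT.HT.card_mul_relIndex hNL.le, hd, hqk, pow_add]⟩
    have := hLp.isNilpotent
    have h1 := hN.le_centralizer_of_isNilpotent L
    rw [hN.centralizer_eq_of_normalCore_eq_bot hU hUc] at h1
    exact hNL.not_ge h1
  have key : ∀ U : Subgroup G, IsCoatom U → U.normalCore = ⊥ →
      N ⊔ U ⊓ L = L ∧ (Nat.card N).Coprime (Nat.card ↥(U ⊓ L)) ∧
        Subgroup.normalizer ((U ⊓ L : Subgroup G) : Set G) = U := by
    intro U hU hUc
    obtain ⟨h1, h2⟩ := hcompl U hU hUc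
    have h3 : N ⊔ U ⊓ L = L := GT.HT.sup_inf_eq_of_le (by simp [Subgroup.normalizer_eq_top])
      hNL.le (h2 ▸ le_top)
    refine ⟨h3, ?_, ?_⟩
    · have h4 := GT.HT.card_sup_of_disjoint (N := N) (H := U ⊓ L)
        (by simp [Subgroup.normalizer_eq_top])
        (disjoint_iff.2 (eq_bot_iff.2 (h1 ▸ inf_le_inf_left _ inf_le_left)))
      rw [h3, ← GT.HT.card_mul_relIndex hNL.le, hqk] at h4
      obtain ⟨d, hd⟩ := IsPGroup.iff_card.1 hpN
      rw [← Nat.eq_of_mul_eq_mul_left Nat.card_pos h4, hd]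
      exact Nat.coprime_pow_primes _ _ hp hq hpq
    · have h4 : U ≤ Subgroup.normalizer ((U ⊓ L : Subgroup G) : Set G) :=
        GT.PG.le_normalizer_inf Subgroup.le_normalizer (by simp [Subgroup.normalizer_eq_top])
      refine ((hU.le_iff.1 h4).resolve_left fun h => ?_)
      have h5 : (U ⊓ L).Normal := Subgroup.normalizer_eq_top_iff.1 h
      have h6 : U ⊓ L = ⊥ := eq_bot_iff.2 (hUc ▸ Subgroup.normal_le_normalCore.2 inf_le_left)
      rw [h6, sup_bot_eq] at h3
      exact hNL.ne h3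
  obtain ⟨a1, a2, a3⟩ := key U hU hUc
  obtain ⟨b1, b2, b3⟩ := key V hV hVc
  obtain ⟨g, -, hg⟩ := GT.conj_of_coprime_sup_eq_of_normal N _ _ a2 b2 (a1.trans b1.symm)
    (Or.inl inferInstance)
  exact ⟨g, by rw [← a3, ← GT.HT.normalizer_conj_smul, hg, b3]⟩

end Cfsg.Agent.S0551
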