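import Mathlib
import Cfsg.Statements.S0553
import Cfsg.Agent.GT.MinNormal
import Cfsg.Agent.GT.Conj
import Cfsg.Agent.GT.Hall
import Cfsg.Agent.GT.Supersolvable2

set_option autoImplicit false
open Cfsg

namespace Cfsg.Agent.S0553

universe u in
theorem aux (G : Type u) [Group G] [Finite G] : Group.IsSolvable G → Nontrivial G →
    (∀ M : Subgroup G, IsCoatom M → (Nat.card M).Coprime M.index) →
    ∃ p : ℕ, p.Prime ∧ ∃ P : Subgroup G, P.Normal ∧ P ≠ ⊥ ∧ IsPiHall {p} P := by
  refine GT.card_induction (P := fun G _ _ => Group.IsSolvable G → Nontrivial G →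
    (∀ M : Subgroup G, IsCoatom M → (Nat.card M).Coprime M.index) →
    ∃ p : ℕ, p.Prime ∧ ∃ P : Subgroup G, P.Normal ∧ P ≠ ⊥ ∧ IsPiHall {p} P)
    (fun G _ _ ih => ?_) G
  intro _ _ h
  obtain ⟨N, hN⟩ := GT.exists_isMinNormal G
  have := hN.normal
  obtain ⟨p, hp, hpN, hc⟩ := hN.exists_isPGroup
  have hNp : GT.IsPiNum {p} (Nat.card N) := (GT.isPGroup_iff_isPiNum hp).1 hpN
  by_cases hd : ¬ p ∣ N.index
  · exact ⟨p, hp, N, inferInstance, hN.ne_bot, GT.isPiHall_iff.2 ⟨hNp,
      (GT.isPiNum_compl_singleton_iff_not_dvd hp).2 hd⟩⟩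
  rw [not_not] at hd
  have hnt : Nontrivial (G ⧸ N) := by
    rw [← Finite.one_lt_card_iff_nontrivial]
    exact hp.one_lt.trans_le (Nat.le_of_dvd Nat.card_pos hd)
  obtain ⟨q, hq, Q, hQn, hQ0, hQ⟩ := ih (G ⧸ N) (GT.card_quotient_lt hN.ne_bot) inferInstance hnt
    (fun M hM => by
      have h1 := h _ (GT.SS.isCoatom_comap_of_surjective (QuotientGroup.mk'_surjective N) hM)
      rw [Subgroup.index_comap_of_surjective _ (QuotientGroup.mk'_surjective N),
        GT.card_comap_mk'] at h1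
      exact h1.coprime_mul_right)
  set L := Q.comap (QuotientGroup.mk' N) with hL
  have hNL : N ≤ L := GT.le_comap_mk' Q
  have hLi : L.index = Q.index := Subgroup.index_comap_of_surjective _ (QuotientGroup.mk'_surjective N)
  have hLc : Nat.card L = Nat.card Q * Nat.card N := GT.card_comap_mk' N Q
  by_cases hqp : q = p
  · subst hqp
    refine ⟨q, hq, L, inferInstance, fun e => hN.ne_bot (eq_bot_iff.2 (e ▸ hNL)),
      hQ.comap_of_surjective (QuotientGroup.mk'_surjective N) ?_⟩
    rwa [QuotientGroup.ker_mk']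
  obtain ⟨R, hR⟩ := GT.exists_isPiHallOf {q} (M := L) inferInstance
  have hrel : N.relIndex L = Nat.card Q := by
    have := GT.card_mul_relIndex hNL
    rw [hLc, mul_comm] at this
    exact Nat.eq_of_mul_eq_mul_right Nat.card_pos this
  have h1 : N ⊔ R = L := GT.HT.sup_eq_of_coprime_relIndex hNL hR.le
    (by rw [hrel]; exact hQ.card.coprime hR.relIndex)
  have h2 : N ⊔ Subgroup.normalizer (R : Set G) = ⊤ := by
    rw [← hR.sup_normalizer inferInstance, ← h1, sup_assoc, sup_eq_right.2 Subgroup.le_normalizer]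
  by_cases h3 : Subgroup.normalizer (R : Set G) = ⊤
  · refine ⟨q, hq, R, Subgroup.normalizer_eq_top_iff.1 h3, fun e => hQ0 ?_,
      hR.isPiHall (hLi ▸ hQ.index)⟩
    rw [e, sup_bot_eq] at h1
    rw [← Subgroup.card_eq_one, ← hrel, ← h1, Subgroup.relIndex_self]
  obtain ⟨M, hM, hle⟩ := GT.exists_isCoatom_ge h3
  have h4 : M ⊔ N = ⊤ := by rw [eq_top_iff, ← h2]; exact sup_le le_sup_right (hle.trans le_sup_left)
  have h5 : M.index ∣ Nat.card N := by
    rw [GT.index_eq_relIndex_of_sup_eq_top h4]; exact Subgroup.relIndex_dvd_card _ _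
  have h6 : N.index ∣ Nat.card M := by
    rw [← Subgroup.relIndex_top_right, ← h4, Subgroup.relIndex_sup_right]
    exact Subgroup.relIndex_dvd_card _ _
  obtain ⟨r, hr, hrd⟩ := Nat.exists_prime_and_dvd (fun e => hM.1 (Subgroup.index_eq_one.1 e))
  have hrp : r = p := hNp r hr (hrd.trans h5)
  subst hrp
  exact absurd (Nat.eq_one_of_dvd_coprimes (h M hM) (hd.trans h6) hrd) hr.one_lt.ne'

/-- Let G be a nontrivial finite solvable group in which every maximal subgroup has order coprime to its index. Then for some prime p dividing the order of G the Sylow p-subgroups of G are normal. -/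
theorem result {G : Type*} [Group G] [Finite G] [Group.IsSolvable G] [Nontrivial G] (h : ∀ M : Subgroup G, IsCoatom M → (Nat.card M).Coprime M.index) : ∃ p : ℕ, p.Prime ∧ p ∣ Nat.card G ∧ ∀ P : Sylow p G, (P : Subgroup G).Normal := by

  obtain ⟨p, hp, P, hPn, hP0, hP⟩ := aux G inferInstance inferInstance h
  have := Fact.mk hp
  obtain ⟨S, rfl⟩ := hP.exists_sylow
  refine ⟨p, hp, ?_, fun Q => ?_⟩
  · obtain ⟨q, hq, hqd⟩ := GT.exists_prime_dvd_card_of_ne_bot hP0
    have : q = p := hP.card q hq hqd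
    exact (this ▸ hqd).trans (Subgroup.card_subgroup_dvd_card _)
  · have := Sylow.unique_of_normal S hPn
    rw [Subsingleton.elim Q S]
    exact hPn

end Cfsg.Agent.S0553
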