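import Mathlib
import Cfsg.Statements.S0554
import Cfsg.Agent.GT.ComplementSystem

set_option autoImplicit false
open Cfsg

namespace Cfsg.Agent.S0554

theorem absorb {G : Type*} [Group G] (U V : Subgroup G) [hU : U.Normal] [hV : V.Normal] (t : ℕ) :
    ∀ (S : Fin t → Subgroup G) (i : Fin t), U ≤ V ⊔ S i → ∀ u ∈ U, ∀ s : Fin t → G,
      (∀ j, s j ∈ S j) → ∃ v ∈ V, ∃ s' : Fin t → G, (∀ j, s' j ∈ S j) ∧
        u * (List.ofFn s).prod = v * (List.ofFn s').prod := by
  induction t with
  | zero => intro S i; exact i.elim0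
  | succ t ih =>
    intro S i hi u hu s hs
    induction i using Fin.cases with
    | zero =>
      obtain ⟨v, hv, x, hx, rfl⟩ := GT.HT.mem_sup_of_normal.mp (hi hu)
      refine ⟨v, hv, Fin.cons (x * s 0) (fun j => s j.succ), fun j => ?_, ?_⟩
      · induction j using Fin.cases with
        | zero => exact (S 0).mul_mem hx (hs 0)
        | succ j => exact hs j.succ
      · simp [List.ofFn_succ, mul_assoc]
    | succ i =>
      obtain ⟨v, hv, s', hs', h⟩ := ih (fun j => S j.succ) i hi ((s 0)⁻¹ * u * (s 0)⁻¹⁻¹)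
        (hU.conj_mem u hu _) (fun j => s j.succ) (fun j => hs j.succ)
      refine ⟨s 0 * v * (s 0)⁻¹, hV.conj_mem v hv _, Fin.cons (s 0) s', fun j => ?_, ?_⟩
      · induction j using Fin.cases with
        | zero => exact hs 0
        | succ j => exact hs' j
      · simp only [List.ofFn_succ, List.prod_cons, Fin.cons_zero, Fin.cons_succ]
        rw [mul_assoc (s 0 * v), inv_mul_cancel_left, mul_assoc (s 0), ← h]
        group


/-- Let G be a finite solvable group and let S assign to each of t distinct primes, including every prime divisor of the order of G, a Sylow subgroup of G. Then every element of G is a product s_0 s_1 ⋯ s_(t-1) with s_i in S i, the factors taken in the given order. -/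
theorem result {G : Type*} [Group G] [Finite G] [Group.IsSolvable G] (t : ℕ) (p : Fin t → ℕ) (hp : ∀ i, (p i).Prime) (hinj : Function.Injective p) (hall : ∀ q : ℕ, q.Prime → q ∣ Nat.card G → ∃ i, p i = q) (S : (i : Fin t) → Sylow (p i) G) : ∀ g : G, ∃ s : (i : Fin t) → G, (∀ i, s i ∈ (S i : Subgroup G)) ∧ g = (List.ofFn s).prod := by
  have key : ∀ g : G, ∃ v ∈ (⊥ : Subgroup G), ∃ s : Fin t → G,
      (∀ i, s i ∈ (S i : Subgroup G)) ∧ g = v * (List.ofFn s).prod := by
    refine GT.chief_induction_down (W := ⊤) (P := fun V => ∀ g : G, ∃ v ∈ V, ∃ s : Fin t → G,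
      (∀ i, s i ∈ (S i : Subgroup G)) ∧ g = v * (List.ofFn s).prod) ?_ ?_ ⊥ bot_le
    · intro g
      exact ⟨g, trivial, fun _ => 1, fun i => Subgroup.one_mem _, by simp⟩
    · intro U V hUV _ ih g
      obtain ⟨u, hu, s, hs, rfl⟩ := ih g
      have := hUV.2.1
      have := hUV.2.2.1
      obtain ⟨-, q, hq, -, k, hk, hUk⟩ := hUV.elementary
      obtain ⟨i, rfl⟩ := hall q hq ((dvd_pow_self q hk.ne').trans (hUk ▸
        (Subgroup.relIndex_dvd_card V U).trans U.card_subgroup_dvd_card))
      have := Fact.mk hq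
      have hf := QuotientGroup.mk'_surjective V
      have := Subgroup.Normal.map ‹U.Normal› _ hf
      have h1 : U.map (QuotientGroup.mk' V) ≤ (S i : Subgroup G).map (QuotientGroup.mk' V) :=
        ((GT.isPiHall_sylow (S i)).map_of_surjective hf).normal_le (by
          rw [GT.card_map_mk'_eq_relIndex, hUk]
          exact GT.isPiNum_prime_pow hq (Set.mem_singleton _) k)
      rw [Subgroup.map_le_iff_le_comap, Subgroup.comap_map_eq, QuotientGroup.ker_mk',
        sup_comm] at h1
      exact absorb U V t (fun i => (S i : Subgroup G)) i h1 u hu s hs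
  intro g
  obtain ⟨v, hv, s, hs, h⟩ := key g
  rw [Subgroup.mem_bot.mp hv, one_mul] at h
  exact ⟨s, hs, h⟩

end Cfsg.Agent.S0554
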