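import Mathlib
import Cfsg.Statements.S0555
import Cfsg.Agent.GT.Supersolvable2

set_option autoImplicit false
open Cfsg

namespace Cfsg.Agent.S0555

/-- Let i ≥ 1. If in the derived series of a group the quotient of the i-th term by the (i+1)-st and the quotient of the (i+1)-st by the (i+2)-nd are both cyclic, then the (i+1)-st and (i+2)-nd terms coincide. -/
theorem result {G : Type*} [Group G] (i : ℕ) (hi : 1 ≤ i) (h₁ : IsCyclic (↥(derivedSeries G i) ⧸ (derivedSeries G (i + 1)).subgroupOf (derivedSeries G i))) (h₂ : IsCyclic (↥(derivedSeries G (i + 1)) ⧸ (derivedSeries G (i + 2)).subgroupOf (derivedSeries G (i + 1)))) : derivedSeries G (i + 1) = derivedSeries G (i + 2) := by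

  obtain ⟨i, rfl⟩ : ∃ j, i = j + 1 := ⟨i - 1, by omega⟩
  have hn := derivedSeries_normal G (i + 1 + 2)
  have hn1 := derivedSeries_normal G (i + 1 + 1)
  have hn0 := derivedSeries_normal G (i + 1)
  set W := derivedSeries G (i + 1 + 2) with hW
  set C := derivedSeries G (i + 1 + 1) with hC
  set D := derivedSeries G (i + 1) with hD
  have hCD : C ≤ D := derivedSeries_antitone G (Nat.le_succ _)
  let f := QuotientGroup.mk' W
  have hf := QuotientGroup.mk'_surjective W
  have hCn := hn1.map f hf
  have hcyc : IsCyclic (C.map f) :=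
    isCyclic_of_surjective _ (QuotientGroup.quotientKerEquivOfSurjective _
      (f.subgroupMap_surjective C)).surjective (hH := by
        have : (f.subgroupMap C).ker = W.subgroupOf C := by
          ext x
          rw [MonoidHom.mem_ker, Subtype.ext_iff]
          exact QuotientGroup.eq_one_iff (x : G)
        exact isCyclic_of_surjective _ (QuotientGroup.quotientMulEquivOfEq this.symm).surjective)
  have h3 : D.map f ≤ Subgroup.centralizer ((C.map f : Subgroup _) : Set (G ⧸ W)) := by
    refine le_trans ?_ (GT.SS.commutator_le_centralizer_of_isCyclic (C.map f))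
    rw [hD, derivedSeries_succ, Subgroup.map_commutator]
    exact Subgroup.commutator_mono le_top le_top
  -- `D / W` is abelian
  let φ : D →* D ⧸ C.subgroupOf D := QuotientGroup.mk' _
  obtain ⟨g, hg⟩ := h₁.exists_zpow_surjective
  obtain ⟨g, rfl⟩ := QuotientGroup.mk'_surjective _ g
  have hdec : ∀ x ∈ D, ∃ c ∈ C, ∃ k : ℤ, x = (g : G) ^ k * c := by
    intro x hx
    obtain ⟨k, hk⟩ := hg (φ ⟨x, hx⟩)
    have h4 : (g ^ k)⁻¹ * ⟨x, hx⟩ ∈ C.subgroupOf D := by
      rw [← QuotientGroup.eq, QuotientGroup.mk_zpow]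
      exact hk
    exact ⟨_, h4, k, by simp⟩
  refine le_antisymm ?_ (derivedSeries_antitone G (Nat.le_succ _))
  rw [hC, derivedSeries_succ, ← hD, Subgroup.commutator_le]
  intro x hx y hy
  rw [← QuotientGroup.eq_one_iff, ← QuotientGroup.mk'_apply, map_commutatorElement,
    commutatorElement_eq_one_iff_commute]
  obtain ⟨c, hc, k, rfl⟩ := hdec x hx
  have h5 : ∀ c ∈ C, ∀ d ∈ D, Commute (f c) (f d) := fun c hc d hd =>
    h3 (Subgroup.mem_map_of_mem f hd) _ (Subgroup.mem_map_of_mem f hc)
  rw [map_mul]
  refine Commute.mul_left ?_ (h5 c hc y hy)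
  obtain ⟨c', hc', k', rfl⟩ := hdec y hy
  rw [map_mul, map_zpow, map_zpow]
  exact ((Commute.refl _).zpow_zpow k k').mul_right ((h5 c' hc' g g.2).symm.zpow_left k)

end Cfsg.Agent.S0555
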