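import Mathlib
import Cfsg.Statements.S0557
import Cfsg.Agent.GT.TransferAbelian
-- import your own Cfsg.Agent.* helpers here

set_option autoImplicit false
open Cfsg

namespace Cfsg.Agent.S0557

open Cfsg.Agent.GT.Tr

/-- Let H be a subgroup of a finite group G with order coprime to its index. If iterating the focal-subgroup construction starting from H reaches the trivial subgroup after finitely many steps, then H has a normal complement in G. -/
theorem result {G : Type*} [Group G] [Finite G] (H : Subgroup G) (hHall : (Nat.card H).Coprime H.index) (n : ℕ) (hfoc : (fun K : Subgroup G => Subgroup.focalSubgroup K)^[n] H = ⊥) : ∃ N : Subgroup G, N.Normal ∧ Subgroup.IsComplement' N H := by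
  refine exists_normal_complement_of_forall_prime H hHall fun q hq hd => ?_
  have := Fact.mk hq
  obtain ⟨P, hP⟩ := exists_sylow_le_of_not_dvd_index (p := q) (H := H)
    fun h1 => hq.ne_one (Nat.eq_one_of_dvd_coprimes hHall hd h1)
  have key : ∀ k, (P : Subgroup G) ⊓ pResidual q G ≤
      (fun K : Subgroup G => Subgroup.focalSubgroup K)^[k] H := by
    intro k
    induction k with
    | zero => exact inf_le_left.trans hP
    | succ k ih =>
      rw [Function.iterate_succ_apply']
      refine sylow_inf_pResidual_le_of_fusion P fun x hx g _ hg => ?_
      exact inv_mul_conj_mem_focalSubgroup (ih hx)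
        (ih ⟨hg, (inferInstance : (pResidual q G).Normal).conj_mem _ hx.2 g⟩)
  exact (hasNormalPComplement_iff_inf_pResidual P).2 (eq_bot_iff.2 (hfoc ▸ key n))

end Cfsg.Agent.S0557
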