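import Mathlib
import Cfsg.Statements.S0558
import Cfsg.Agent.GT.TransferAbelian
-- import your own Cfsg.Agent.* helpers here

set_option autoImplicit false
open Cfsg

namespace Cfsg.Agent.S0558

open Cfsg.Agent.GT.Tr

/-- Let H be a subgroup of a finite group G that is not a Sylow subgroup of G for any prime, and suppose that for every prime p dividing the order of H and every Sylow p-subgroup P of H the normalizer of P in G is exactly H. Then some normal subgroup of G is a complement to H. -/
theorem result {G : Type*} [Group G] [Finite G] (H : Subgroup G) (hnot : ∀ p : ℕ, p.Prime → ∀ P : Sylow p G, (P : Subgroup G) ≠ H) (hnorm : ∀ p : ℕ, p.Prime → p ∣ Nat.card H → ∀ P : Sylow p H, Subgroup.normalizer (((P : Subgroup H).map H.subtype : Subgroup G) : Set G) = H) : ∃ N : Subgroup G, N.Normal ∧ Subgroup.IsComplement' N H := by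
  have hnil : Group.IsNilpotent H := by
    refine ((Group.isNilpotent_of_finite_tfae (G := H)).out 3 0).1 fun p hp P => ?_
    haveI := hp
    by_cases hd : p ∣ Nat.card H
    · have h1 := (Subgroup.normal_subgroupOf_iff_le_normalizer
        (Subgroup.map_subtype_le _)).2 (hnorm p hp.out hd P).ge
      rwa [Subgroup.subgroupOf, Subgroup.comap_map_eq_self_of_injective H.subtype_injective] at h1
    · have h1 := inf_eq_bot_of_isPGroup_of_not_dvd (N := ⊤) P.2 (by rwa [Subgroup.card_top])
      rw [inf_top_eq] at h1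
      rw [h1]
      infer_instance
  have hsyl : ∀ p : ℕ, p.Prime → p ∣ Nat.card H → ∃ P : Sylow p G, (P : Subgroup G) ≤ H ∧
      Subgroup.normalizer ((P : Subgroup G) : Set G) = H := by
    intro p hp hd
    have := Fact.mk hp
    let P : Sylow p H := default
    have h1 : IsPGroup p ((P : Subgroup H).map H.subtype) := P.2.map _
    exact ⟨h1.toSylow (not_dvd_index_of_normalizer_le h1 (not_dvd_relIndex_map_sylow P)
      fun g hg _ => hnorm p hp hd P ▸ hg), Subgroup.map_subtype_le _, hnorm p hp hd P⟩
  refine exists_normal_complement_of_forall_prime H ?_ fun p hp hd => ?_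
  · refine Nat.coprime_of_dvd fun p hp h1 h2 => ?_
    have := Fact.mk hp
    obtain ⟨P, hP, -⟩ := hsyl p hp h1
    exact P.not_dvd_index (h2.trans (Subgroup.index_dvd_of_le hP))
  have := Fact.mk hp
  obtain ⟨P, hP, hPN⟩ := hsyl p hp hd
  have h1 : (P : Subgroup G).relIndex H ≠ 1 := fun h =>
    hnot p hp P (le_antisymm hP (Subgroup.relIndex_eq_one.1 h))
  obtain ⟨q, hq, hqd⟩ := Nat.exists_prime_and_dvd h1
  have := Fact.mk hq
  have hqp : q ≠ p := by
    rintro rfl
    exact P.not_dvd_index (hqd.trans (Subgroup.relIndex_dvd_index_of_le hP))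
  obtain ⟨Q, hQ, hQN⟩ := hsyl q hq (hqd.trans (Subgroup.relIndex_dvd_card _ _))
  have hPQ : (P : Subgroup G) ≤ Subgroup.centralizer ((Q : Subgroup G) : Set G) := by
    rw [← Subgroup.commutator_eq_bot_iff_le_centralizer, eq_bot_iff,
      ← disjoint_iff.1 (IsPGroup.disjoint_of_ne p q hqp.symm _ _ P.2 Q.2)]
    exact le_inf (Subgroup.le_normalizer_iff_commutator_le_left.1 (hQ.trans hPN.ge))
      (Subgroup.le_normalizer_iff_commutator_le_right.1 (hP.trans hQN.ge))
  refine hasNormalPComplement_of_controls_fusion P hP (hasNormalPComplement_of_isNilpotent hnil)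
    fun x hx g hg => ?_
  obtain ⟨u, hu, h2⟩ := (isWeaklyClosed_self (Q : Subgroup G)).exists_conj_eq (A := {x}) (g := g)
    (fun a ha => by rw [ha]; exact hPQ hx) (fun a ha => by rw [ha]; exact hPQ hg)
  exact ⟨u, hQN ▸ hu, (h2 x rfl).symm⟩

end Cfsg.Agent.S0558
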