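import Mathlib
import Cfsg.Statements.S0560
import Cfsg.Agent.GT.Factorized

set_option autoImplicit false
open Pointwise
open Cfsg

namespace Cfsg.Agent.S0560

/-- Let the finite group G be the product HK of two subgroups and p a prime. Then there are Sylow p-subgroups P of H and Q of K and a Sylow p-subgroup R of G whose underlying set is the product set of P and Q. -/
theorem result {G : Type*} [Group G] [Finite G] (H K : Subgroup G) (hHK : ∀ g : G, ∃ h ∈ H, ∃ k ∈ K, g = h * k) (p : ℕ) [Fact p.Prime] : ∃ (P : Sylow p H) (Q : Sylow p K) (R : Sylow p G), ((R : Subgroup G) : Set G) = (((P : Subgroup H).map H.subtype : Subgroup G) : Set G) * (((Q : Subgroup K).map K.subtype : Subgroup G) : Set G) := by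

  have hp : p.Prime := Fact.out
  have h := GT.Fac.isProd_top_iff.2 hHK
  obtain ⟨P⟩ : Nonempty (Sylow p H) := inferInstance
  obtain ⟨Q⟩ : Nonempty (Sylow p K) := inferInstance
  obtain ⟨R⟩ : Nonempty (Sylow p G) := inferInstance
  have hR : ¬ p ∣ (R : Subgroup G).relIndex ⊤ := by simpa using R.not_dvd_index
  obtain ⟨x, hx, h1⟩ := GT.HT.exists_conj_le_of_isPGroup le_top (P.2.map H.subtype) R.2 hR
  obtain ⟨y, hy, h2⟩ := GT.HT.exists_conj_le_of_isPGroup le_top (Q.2.map K.subtype) R.2 hR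
  obtain ⟨a, ha, b, hb, g, -, h3, -⟩ := h.exists_isPiHallOf_of_conj_le
    (GT.isPiHall_sylow P).map_subtype (GT.isPiHall_sylow Q).map_subtype
    (GT.isPiHall_sylow R).card le_top hx hy h1 h2
  refine ⟨(⟨a, ha⟩ : H) • P, (⟨b, hb⟩ : K) • Q, g • R, ?_⟩
  rw [Sylow.coe_subgroup_smul, Sylow.coe_subgroup_smul, Sylow.coe_subgroup_smul,
    GT.HT.map_conj_smul, GT.HT.map_conj_smul]
  exact GT.Fac.isProd_iff_coe_eq.1 h3

end Cfsg.Agent.S0560
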