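import Mathlib
import Cfsg.Statements.S0561
import Cfsg.Agent.GT.ComplementSystem

set_option autoImplicit false
open Pointwise
open Cfsg

namespace Cfsg.Agent.S0561

/-- Let the finite solvable group G be the product HK of subgroups, and let A be normal in H and B normal in K, where A and B are Hall subgroups of G (order coprime to index). Then for all x, y the product set of xAx⁻¹ and yBy⁻¹ is a subgroup of G. -/
theorem result {G : Type*} [Group G] [Finite G] [Group.IsSolvable G] (H K A B : Subgroup G) (hHK : ∀ g : G, ∃ h ∈ H, ∃ k ∈ K, g = h * k) (hA : A ≤ H) (hAn : (A.subgroupOf H).Normal) (hB : B ≤ K) (hBn : (B.subgroupOf K).Normal) (hAh : (Nat.card A).Coprime A.index) (hBh : (Nat.card B).Coprime B.index) (x y : G) : ∃ S : Subgroup G, (S : Set G) = ((MulAut.conj x • A : Subgroup G) : Set G) * ((MulAut.conj y • B : Subgroup G) : Set G) := by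
  set π : Set ℕ := {p | p ∣ Nat.card A} ∪ {p | p ∣ Nat.card B} with hπ
  have hA' := GT.isPiHall_of_coprime hAh
  have hB' := GT.isPiHall_of_coprime hBh
  obtain ⟨L, hL, hAL⟩ := GT.exists_isPiHall_ge (π := π) (hA'.card.mono Set.subset_union_left)
  obtain ⟨g, hg⟩ := hL.exists_conj_le (hB'.card.mono Set.subset_union_right)
  have h1 : (A : Set G) * (MulAut.conj g • B : Subgroup G) = L := by
    refine GT.HT.coe_mul_eq_of_coprime_relIndex hAL hg (Nat.coprime_of_dvd fun r hr h1 h2 => ?_)
    rcases hL.card r hr (h1.trans (Subgroup.relIndex_dvd_card _ _)) with h | h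
    · exact (hA'.isPiHallOf hAL).relIndex r hr h1 h
    · exact ((hB'.conj_smul g).isPiHallOf hg).relIndex r hr h2 h
  have hHA := (Subgroup.normal_subgroupOf_iff_le_normalizer hA).mp hAn
  have hKB := (Subgroup.normal_subgroupOf_iff_le_normalizer hB).mp hBn
  have key : ∀ x y : G, ∃ z : G, MulAut.conj x • A = MulAut.conj z • A ∧
      MulAut.conj y • B = MulAut.conj z • B := by
    intro x y
    obtain ⟨h, hh, k, hk, e⟩ := hHK (x⁻¹ * y)
    refine ⟨x * h, ?_, ?_⟩
    · rw [← GT.HT.conj_smul_conj_smul, GT.HT.conj_smul_eq_iff.mpr (hHA hh)]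
    · have : y = x * h * k := by rw [mul_assoc, ← e]; group
      rw [this, ← GT.HT.conj_smul_conj_smul _ k, GT.HT.conj_smul_eq_iff.mpr (hKB hk)]
  obtain ⟨z, hz1, hz2⟩ := key x y
  obtain ⟨w, hw1, hw2⟩ := key 1 g
  rw [GT.HT.conj_one_smul] at hw1
  refine ⟨MulAut.conj (z * w⁻¹) • L, ?_⟩
  rw [Subgroup.coe_pointwise_smul, ← h1, smul_mul', hw2, hz1, hz2]
  conv_lhs => rw [hw1]
  rw [← Subgroup.coe_pointwise_smul, ← Subgroup.coe_pointwise_smul, GT.HT.conj_smul_conj_smul,
    GT.HT.conj_smul_conj_smul, inv_mul_cancel_right]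

end Cfsg.Agent.S0561
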