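import Mathlib
import Cfsg.Statements.S0563
import Cfsg.Agent.GT.KegelWielandt

set_option autoImplicit false
open Pointwise
open Cfsg

namespace Cfsg.Agent.S0563

/-- If a finite group G is the product AB of two nilpotent subgroups of coprime orders, then G is solvable, and for every Sylow p-subgroup P of A and Sylow q-subgroup Q of B the product set PQ is a subgroup. -/
theorem result {G : Type*} [Group G] [Finite G] (A B : Subgroup G) (hA : Group.IsNilpotent A) (hB : Group.IsNilpotent B) (hcop : (Nat.card A).Coprime (Nat.card B)) (hAB : ∀ g : G, ∃ a ∈ A, ∃ b ∈ B, g = a * b) : Group.IsSolvable G ∧ ∀ (p q : ℕ) [Fact p.Prime] [Fact q.Prime] (P : Sylow p A) (Q : Sylow q B), ∃ S : Subgroup G, (S : Set G) = (((P : Subgroup A).map A.subtype : Subgroup G) : Set G) * (((Q : Subgroup B).map B.subtype : Subgroup G) : Set G) := by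

  have h := GT.Fac.isProd_top_iff.2 hAB
  refine ⟨GT.Fac.kegelWielandt_top G A B h hA hB, fun p q hp hq P Q => ?_⟩
  have key : ∀ (A B : Subgroup G) [Group.IsNilpotent A], (Nat.card A).Coprime (Nat.card B) →
      ∀ (p q : ℕ) [Fact p.Prime] (P : Sylow p A), (P : Subgroup A).map A.subtype =
        piCoreOf ({r | r = p ∧ r ∣ Nat.card A} ∪ {r | r = q ∧ r ∣ Nat.card B}) A := by
    intro A B _ hcop p q hp P
    rw [← GT.pCore_eq_sylow_of_isNilpotent P]
    change pCoreOf p A = _
    rw [GT.pCoreOf_eq_piCoreOf hp.out]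
    refine le_antisymm (GT.le_piCoreOf_of_isNilpotent (GT.piCoreOf_le A) fun r hr hd => Or.inl
      ⟨GT.isPiNum_piCoreOf _ _ r hr hd, hd.trans (Subgroup.card_dvd_of_le (GT.piCoreOf_le A))⟩)
      (GT.le_piCoreOf_of_isNilpotent (GT.piCoreOf_le A) fun r hr hd => ?_)
    rcases GT.isPiNum_piCoreOf _ _ r hr hd with h1 | h1
    · exact h1.1
    · exact absurd (Nat.eq_one_of_dvd_coprimes hcop
        (hd.trans (Subgroup.card_dvd_of_le (GT.piCoreOf_le A))) h1.2) hr.one_lt.ne'
  rw [key A B hcop p q P, key B A hcop.symm q p Q, Set.union_comm {r | r = q ∧ r ∣ Nat.card B}]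
  exact ⟨_, GT.Fac.isProd_iff_coe_eq.1 (h.isProd_piCoreOf h.isSolvable _).1⟩

end Cfsg.Agent.S0563
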