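import Mathlib
import Cfsg.Statements.S0565
import Cfsg.Agent.GT.KegelWielandt

set_option autoImplicit false
open Cfsg

namespace Cfsg.Agent.S0565

universe u in
theorem aux (G : Type u) [Group G] [Finite G] : ∀ A B : Subgroup G, GT.Fac.IsProd ⊤ A B →
    Group.IsNilpotent A → Group.IsNilpotent B → A ≠ ⊤ ∨ B ≠ ⊤ →
    ∃ N : Subgroup G, N.Normal ∧ N ≠ ⊤ ∧ (A ≤ N ∨ B ≤ N) := by
  refine GT.card_induction (P := fun G _ _ => ∀ A B : Subgroup G, GT.Fac.IsProd ⊤ A B →
    Group.IsNilpotent A → Group.IsNilpotent B → A ≠ ⊤ ∨ B ≠ ⊤ →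
    ∃ N : Subgroup G, N.Normal ∧ N ≠ ⊤ ∧ (A ≤ N ∨ B ≤ N)) (fun G _ _ ih A B h _ _ hne => ?_) G
  have := GT.Fac.kegelWielandt_top G A B h inferInstance inferInstance
  have h0 : ∀ A B : Subgroup G, Group.IsNilpotent A → A = ⊤ → B ≠ ⊤ →
      ∃ N : Subgroup G, N.Normal ∧ N ≠ ⊤ ∧ B ≤ N := by
    rintro _ B hA rfl hB
    have : Group.IsNilpotent G := Group.nilpotent_of_mulEquiv Subgroup.topEquiv
    obtain ⟨M, hM, hle⟩ := GT.exists_isCoatom_ge hB
    exact ⟨M, GT.isNilpotent_iff_coatom_normal.1 this M hM, hM.1, hle⟩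
  by_cases hA : A = ⊤
  · obtain ⟨N, h1, h2, h3⟩ := h0 A B inferInstance hA (hne.resolve_left (not_not.2 hA))
    exact ⟨N, h1, h2, Or.inr h3⟩
  by_cases hB : B = ⊤
  · obtain ⟨N, h1, h2, h3⟩ := h0 B A inferInstance hB hA
    exact ⟨N, h1, h2, Or.inl h3⟩
  by_cases hall : ∃ N : Subgroup G, N.Normal ∧ N ≠ ⊥ ∧ (A ⊔ N ≠ ⊤ ∨ B ⊔ N ≠ ⊤)
  · obtain ⟨N, hN, hN0, hne⟩ := hall
    obtain ⟨K, hK, hK1, hle⟩ := ih (G ⧸ N) (GT.card_quotient_lt hN0) _ _
      (h.map_top (QuotientGroup.mk'_surjective N)) (GT.isNilpotent_map _ _)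
      (GT.isNilpotent_map _ _) (by simpa only [ne_eq, GT.map_mk'_eq_top_iff] using hne)
    refine ⟨K.comap (QuotientGroup.mk' N), inferInstance, fun e => hK1 ?_,
      hle.imp Subgroup.map_le_iff_le_comap.1 Subgroup.map_le_iff_le_comap.1⟩
    rw [← GT.map_comap_mk' K, e, Subgroup.map_top_of_surjective _ (QuotientGroup.mk'_surjective N)]
  push Not at hall
  have : Nontrivial G := by
    by_contra hh
    rw [not_nontrivial_iff_subsingleton] at hh
    exact hA (Subsingleton.elim _ _)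
  obtain ⟨N, hN⟩ := GT.exists_isMinNormal G
  have := hN.normal
  obtain ⟨p, hp, hpN, hc⟩ := hN.exists_isPGroup
  have := Fact.mk hp
  have key : ∀ A : Subgroup G, Group.IsNilpotent A → A ≠ ⊤ →
      (∀ N : Subgroup G, N.Normal → N ≠ ⊥ → A ⊔ N = ⊤) → ¬ p ∣ Nat.card A := by
    intro A _ hA hall hd
    have h1 := hall N inferInstance hN.ne_bot
    have h2 : (pCoreOf p A ⊔ N).Normal := GT.normal_of_top_le_normalizer (h1 ▸ sup_le
      (GT.PG.le_normalizer_sup (GT.le_normalizer_pCoreOf A) (by simp [Subgroup.normalizer_eq_top]))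
      (le_sup_right.trans Subgroup.le_normalizer))
    have := (GT.PG.isPGroup_sup_of_le_normalizer (GT.isPGroup_pCoreOf p A) hpN
      (by simp [Subgroup.normalizer_eq_top])).isNilpotent
    have h3 := le_sup_left.trans (hN.le_centralizer_of_isNilpotent (pCoreOf p A ⊔ N))
    have h4 : (pCoreOf p A).Normal := GT.normal_of_top_le_normalizer (h1 ▸ sup_le
      (GT.le_normalizer_pCoreOf A)
      ((Subgroup.le_centralizer_iff.1 h3).trans (GT.PG.centralizer_le_normalizer' _)))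
    have h5 := hall _ h4 (GT.NM.pCoreOf_ne_bot hp hd)
    rw [sup_eq_left.2 (GT.pCoreOf_le A)] at h5
    exact hA h5
  obtain ⟨r, hr, hrd⟩ := GT.exists_prime_dvd_card_of_ne_bot hN.ne_bot
  have : r = p := (GT.isPGroup_iff_isPiNum hp).1 hpN r hr hrd
  subst this
  exact ((hp.dvd_mul.1 ((hrd.trans (Subgroup.card_dvd_of_le le_top)).trans h.card_dvd)).elim
    (key A inferInstance hA fun N h1 h2 => (hall N h1 h2).1)
    (key B inferInstance hB fun N h1 h2 => (hall N h1 h2).2)).elim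

/-- Let the finite group G be the product AB of nilpotent subgroups A and B, not both equal to G. Then there is a proper normal subgroup of G containing A or containing B. -/
theorem result {G : Type*} [Group G] [Finite G] (A B : Subgroup G) (hA : Group.IsNilpotent A) (hB : Group.IsNilpotent B) (hAB : ∀ g : G, ∃ a ∈ A, ∃ b ∈ B, g = a * b) (hproper : A ≠ ⊤ ∨ B ≠ ⊤) : ∃ N : Subgroup G, N.Normal ∧ N ≠ ⊤ ∧ (A ≤ N ∨ B ≤ N) := by

  exact aux G A B (GT.Fac.isProd_top_iff.2 hAB) hA hB hproper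

end Cfsg.Agent.S0565
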