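import Mathlib
import Cfsg.Statements.S0566
import Cfsg.Agent.GT.Factorized

set_option autoImplicit false
open Pointwise
open Cfsg

namespace Cfsg.Agent.S0566

/-- Let A and B be nontrivial subgroups of a finite group G such that for every x the product set of A and xBx⁻¹ is a proper subgroup of G. Then there is a proper normal subgroup of G containing A or containing B. -/
theorem result {G : Type*} [Group G] [Finite G] (A B : Subgroup G) (hA : A ≠ ⊥) (hB : B ≠ ⊥) (h : ∀ x : G, ∃ S : Subgroup G, S ≠ ⊤ ∧ (S : Set G) = (A : Set G) * ((MulAut.conj x • B : Subgroup G) : Set G)) : ∃ N : Subgroup G, N.Normal ∧ N ≠ ⊤ ∧ (A ≤ N ∨ B ≤ N) := by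

  have h1 : ∀ x : G, GT.Fac.IsProd (A ⊔ MulAut.conj x • B) A (MulAut.conj x • B) := by
    intro x
    obtain ⟨S, -, hS⟩ := h x
    exact (GT.Fac.isProd_iff_coe_eq.2 hS).sup
  have h2 : A ⊔ B ≠ ⊤ := by
    obtain ⟨S, hS, hS'⟩ := h 1
    have := (GT.Fac.isProd_iff_coe_eq.2 hS').sup_eq
    rw [GT.HT.conj_one_smul] at this
    rwa [this]
  rcases GT.Fac.kegel h1 h2 with h3 | h3
  · exact ⟨_, inferInstance, h3, Or.inl Subgroup.le_normalClosure⟩
  · exact ⟨_, inferInstance, h3, Or.inr Subgroup.le_normalClosure⟩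

end Cfsg.Agent.S0566
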