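import Mathlib
import Cfsg.Statements.S0570
import Cfsg.Agent.GT.Carter

set_option autoImplicit false
open Cfsg

namespace Cfsg.Agent.S0570

/-- Let G be a finite group with a nilpotent normal subgroup F such that G modulo F is nilpotent (nilpotent length at most two). Then a subgroup of G is a Carter subgroup if and only if it is the system normalizer of some Hall complement system. -/
theorem result {G : Type*} [Group G] [Finite G] (F : Subgroup G) [F.Normal] (hF : Group.IsNilpotent F) (hGF : Group.IsNilpotent (G ⧸ F)) (C : Subgroup G) : Cfsg.IsCarterSubgroup C ↔ ∃ K : Nat.Primes → Subgroup G, Cfsg.IsComplementSystem K ∧ C = Cfsg.systemNormalizer K := by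
  have hsol : Group.IsSolvable G :=
    Group.isSolvable_of_ker_le_range F.subtype (QuotientGroup.mk' F) (by simp)
  have key : ∀ C : Subgroup G, IsCarterSubgroup C → ∃ K : Nat.Primes → Subgroup G,
      IsComplementSystem K ∧ C = systemNormalizer K := fun C hC => by
    obtain ⟨K, hK, hred⟩ := GT.exists_isComplementSystem_reduces C
    refine ⟨K, hK, le_antisymm (fun x hx => GT.mem_systemNormalizer.mpr fun p => ?_)
      (hC.systemNormalizer_le hK hred)⟩
    have hf := QuotientGroup.mk'_surjective F
    have h1 : C.map (QuotientGroup.mk' F) = ⊤ := (hC.map_mk' F).eq_of_le le_top inferInstance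
    have h2 : (K p ⊓ C).map (QuotientGroup.mk' F) = (K p).map (QuotientGroup.mk' F) := by
      have h3 := (hred p).map (QuotientGroup.mk' F)
      rw [h1, GT.isPiHallOf_top_iff] at h3
      exact h3.eq_of_le ((hK.isPiHall p).map_of_surjective hf).card (Subgroup.map_mono inf_le_left)
    have h3 : K p ≤ F ⊔ K p ⊓ C := by
      have := Subgroup.map_le_iff_le_comap.mp h2.ge
      rwa [Subgroup.comap_map_eq, QuotientGroup.ker_mk', sup_comm] at this
    have h4 : K p ⊓ F = piCoreOf {(p : ℕ)}ᶜ F :=
      (GT.piCoreOf_eq_of_isPiHallOf ((hK.isPiHall p).inf_normal F)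
        (((hK.isPiHall p).inf_normal F).le_normalizer_of_isNilpotent hF)).symm
    have h5 : (K p ⊓ F).Normal := h4 ▸ GT.piCoreOf_normal F
    have h6 : K p = K p ⊓ F ⊔ K p ⊓ C := by
      refine le_antisymm (fun y hy => ?_) (sup_le inf_le_left inf_le_left)
      obtain ⟨a, ha, b, hb, rfl⟩ := GT.HT.mem_sup_of_normal.mp (h3 hy)
      exact Subgroup.mul_mem_sup ⟨(Subgroup.mul_mem_cancel_right _ hb.1).mp hy, ha⟩ hb
    rw [h6, ← GT.HT.conj_smul_eq_iff, Subgroup.smul_sup, Subgroup.Normal.conj_smul_eq_self,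
      GT.HT.conj_smul_eq_iff.mpr ((hred p).le_normalizer_of_isNilpotent hC.1 hx)]
  refine ⟨key C, ?_⟩
  rintro ⟨K, hK, rfl⟩
  obtain ⟨D, hD⟩ := GT.exists_isCarterSubgroup G
  obtain ⟨L, hL, rfl⟩ := key D hD
  obtain ⟨g, hg⟩ := hL.exists_conj_eq hK
  rw [← funext hg, GT.systemNormalizer_conj_smul]
  exact hD.conj_smul g

end Cfsg.Agent.S0570
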