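import Mathlib
import Cfsg.Statements.S0571
import Cfsg.Agent.GT.Ito
import Cfsg.Agent.GT.Supersolvable

set_option autoImplicit false
open Cfsg

namespace Cfsg.Agent.S0571

/-- If a finite group G is the product AB of two cyclic subgroups (every element is a product ab), then G is supersolvable. -/
theorem result {G : Type*} [Group G] [Finite G] (A B : Subgroup G) [IsCyclic A] [IsCyclic B] (hAB : ∀ g : G, ∃ a ∈ A, ∃ b ∈ B, g = a * b) : Cfsg.IsSupersolvable G := by

  induction hn : Nat.card G using Nat.strong_induction_on generalizing G with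
  | _ n ih =>
  rcases subsingleton_or_nontrivial G with hs | hs
  · exact GT.SS.of_subsingleton
  have h := GT.Fac.isProd_top_iff.2 hAB
  obtain ⟨N, hN, hN0, hle⟩ := GT.Fac.exists_normal_le_of_isProd h inferInstance inferInstance
  have : IsCyclic N := by
    rcases hle with hle | hle
    · exact Subgroup.isCyclic_of_le hle
    · exact Subgroup.isCyclic_of_le hle
  have h1 : IsCyclic (A.map (QuotientGroup.mk' N)) :=
    isCyclic_of_surjective _ ((QuotientGroup.mk' N).subgroupMap_surjective A)
  have h2 : IsCyclic (B.map (QuotientGroup.mk' N)) :=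
    isCyclic_of_surjective _ ((QuotientGroup.mk' N).subgroupMap_surjective B)
  exact GT.SS.of_cyclic_normal N (ih _ (hn ▸ GT.card_quotient_lt hN0) _ _
    (GT.Fac.isProd_top_iff.1 (h.map_top (QuotientGroup.mk'_surjective N))) rfl)

end Cfsg.Agent.S0571
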