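import Mathlib
import Cfsg.Statements.S0573
import Cfsg.Agent.GT.Ito

set_option autoImplicit false
open Cfsg

namespace Cfsg.Agent.S0573

/-- If a nontrivial finite group G is the product AB of abelian subgroups A and B, then some nontrivial normal subgroup of G is contained in A or in B. -/
theorem result {G : Type*} [Group G] [Finite G] [Nontrivial G] (A B : Subgroup G) [IsMulCommutative A] [IsMulCommutative B] (hAB : ∀ g : G, ∃ a ∈ A, ∃ b ∈ B, g = a * b) : ∃ N : Subgroup G, N.Normal ∧ N ≠ ⊥ ∧ (N ≤ A ∨ N ≤ B) := by
  exact GT.Fac.exists_normal_le_of_isProd (GT.Fac.isProd_top_iff.2 hAB) inferInstance inferInstance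

end Cfsg.Agent.S0573
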