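import Mathlib
import Cfsg.Statements.S0574
import Cfsg.Agent.GT.KegelWielandt
import Cfsg.Agent.GT.Ito

set_option autoImplicit false
open Cfsg

namespace Cfsg.Agent.S0574

universe u in
theorem aux1 (G : Type u) [Group G] [Finite G] : ∀ A B : Subgroup G, GT.Fac.IsProd ⊤ A B →
    IsMulCommutative A → Group.IsNilpotent B → A ⊔ ⁅B, B⁆ = ⊤ → A = ⊤ := by
  refine GT.card_induction (P := fun G _ _ => ∀ A B : Subgroup G, GT.Fac.IsProd ⊤ A B →
    IsMulCommutative A → Group.IsNilpotent B → A ⊔ ⁅B, B⁆ = ⊤ → A = ⊤)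
    (fun G _ _ ih A B h hA _ hsup => ?_) G
  rcases subsingleton_or_nontrivial G with _ | _
  · exact Subsingleton.elim _ _
  have : Group.IsNilpotent A := GT.isNilpotent_of_isMulCommutative
  have := GT.Fac.kegelWielandt_top G A B h inferInstance inferInstance
  obtain ⟨N, hN⟩ := GT.exists_isMinNormal G
  have := hN.normal
  obtain ⟨p, hp, hpN, hc⟩ := hN.exists_isPGroup
  have := Fact.mk hp
  have h1 : A ⊔ N = ⊤ := GT.map_mk'_eq_top_iff.1 (ih (G ⧸ N) (GT.card_quotient_lt hN.ne_bot) _ _
    (h.map_top (QuotientGroup.mk'_surjective N)) inferInstance (GT.isNilpotent_map _ _) (by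
      rw [← Subgroup.map_commutator, ← Subgroup.map_sup, hsup,
        Subgroup.map_top_of_surjective _ (QuotientGroup.mk'_surjective N)]))
  have hAA : ⁅A, A⁆ = ⊥ := Subgroup.commutator_eq_bot_iff_le_centralizer.2 A.le_centralizer
  have hG : ⁅(⊤ : Subgroup G), (⊤ : Subgroup G)⁆ ≤ N := by
    rw [GT.commutator_le_iff_map_mk', ← h1, GT.map_mk'_sup, ← Subgroup.map_commutator, hAA,
      Subgroup.map_bot]
  have h2 : (piCoreOf {p} A ⊔ N).Normal := GT.normal_of_top_le_normalizer (h1 ▸ sup_le
    (GT.PG.le_normalizer_sup (GT.le_normalizer_piCoreOf A) (by simp [Subgroup.normalizer_eq_top]))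
    (le_sup_right.trans Subgroup.le_normalizer))
  have := (GT.PG.isPGroup_sup_of_le_normalizer ((GT.isPGroup_iff_isPiNum hp).2
    (GT.isPiNum_piCoreOf {p} A)) hpN (by simp [Subgroup.normalizer_eq_top])).isNilpotent
  have h3 := le_sup_left.trans (hN.le_centralizer_of_isNilpotent (piCoreOf {p} A ⊔ N))
  have h4 : IsMulCommutative (piCoreOf {p} A ⊔ N : Subgroup G) := GT.PG.isMulCommutative_sup
    (GT.PG.isMulCommutative_of_le (GT.piCoreOf_le A) hA) hc (Subgroup.le_centralizer_iff.1 h3)
  have h5 : GT.IsPiNum {p}ᶜ (piCoreOf {p} A ⊔ N).index := by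
    have : A ⊔ (piCoreOf {p} A ⊔ N) = ⊤ :=
      eq_top_iff.2 (h1.ge.trans (sup_le_sup_left le_sup_right _))
    rw [← Subgroup.relIndex_top_right, ← this, Subgroup.relIndex_sup_right]
    exact (GT.isPiHallOf_piCoreOf {p} A).relIndex.of_dvd
      (Subgroup.relIndex_dvd_of_le_left _ le_sup_left)
  have h6 : IsMulCommutative (piCoreOf {p} B) :=
    GT.PG.isMulCommutative_of_le ((GT.isPiNum_piCoreOf {p} B).le_of_index h5) h4
  have h7 : IsMulCommutative (piCoreOf {p}ᶜ B) := by
    rw [GT.PG.isMulCommutative_iff_le_centralizer, ← Subgroup.commutator_eq_bot_iff_le_centralizer,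
      eq_bot_iff, ← ((GT.isPGroup_iff_isPiNum hp).1 hpN).inf_eq_bot (GT.isPiNum_piCoreOf {p}ᶜ B)]
    exact le_inf ((Subgroup.commutator_mono le_top le_top).trans hG)
      (GT.CopAct.commutator_le_of_le_normalizer Subgroup.le_normalizer)
  have h8 := GT.PG.isMulCommutative_sup h6 h7
    (Subgroup.le_centralizer_iff.1 (GT.piCoreOf_le_centralizer_piCoreOf_compl {p} B))
  rw [GT.piCoreOf_sup_piCoreOf_compl] at h8
  rwa [Subgroup.commutator_eq_bot_iff_le_centralizer.2 B.le_centralizer, sup_bot_eq] at hsup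

universe u in
theorem aux2 (n : ℕ) : ∀ (G : Type u) [Group G] [Finite G] (A B : Subgroup G),
    GT.Fac.IsProd ⊤ A B → IsMulCommutative A → Group.IsNilpotent B →
    (Nat.card (⁅B, B⁆ : Subgroup G)).primeFactorsList.length ≤ n →
    derivedSeries G (2 * (1 + n)) = ⊥ := by
  induction n using Nat.strong_induction_on with | _ n ih => ?_
  intro G _ _ A B h hA _ hn
  by_cases hB : ⁅B, B⁆ = ⊥
  · have := GT.Fac.ito_derivedSeries h hA (GT.PG.isMulCommutative_iff_le_centralizer.2
      (Subgroup.commutator_eq_bot_iff_le_centralizer.1 hB))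
    exact eq_bot_iff.2 (this ▸ derivedSeries_antitone G (by omega))
  set L := A ⊔ ⁅B, B⁆ with hL
  have h1 : GT.Fac.IsProd L A (B ⊓ L) := h.of_left_le le_sup_left le_top
  have : Group.IsNilpotent (B ⊓ L : Subgroup G) := GT.isNilpotent_of_le inf_le_left
  have hcomm : IsMulCommutative (A.subgroupOf L) := inferInstance
  have h2 : ⁅B ⊓ L, B ⊓ L⁆ < ⁅B, B⁆ := by
    refine lt_of_le_of_ne (Subgroup.commutator_mono inf_le_left inf_le_left) fun e => hB ?_
    have h3 := aux1 L _ _ h1.subgroupOf hcomm (GT.isNilpotent_subgroupOf _ _) (by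
      rw [GT.commutator_subgroupOf inf_le_right inf_le_right, e,
        ← Subgroup.subgroupOf_sup le_sup_left le_sup_right, Subgroup.subgroupOf_self])
    have h4 : B ⊓ L ≤ A := inf_le_right.trans (Subgroup.subgroupOf_eq_top.1 h3)
    rw [← e, eq_bot_iff, ← Subgroup.commutator_eq_bot_iff_le_centralizer.2 A.le_centralizer]
    exact Subgroup.commutator_mono h4 h4
  have h3 : (Nat.card (⁅B ⊓ L, B ⊓ L⁆ : Subgroup G)).primeFactorsList.length <
      (Nat.card (⁅B, B⁆ : Subgroup G)).primeFactorsList.length := by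
    obtain ⟨k, hk⟩ := Subgroup.card_dvd_of_le h2.le
    have hk0 : k ≠ 0 := by rintro rfl; exact Nat.card_pos.ne' hk
    have hk1 : k ≠ 1 := by rintro rfl; exact (GT.card_lt_of_lt h2).ne' (by simpa using hk)
    rw [hk, (Nat.perm_primeFactorsList_mul Nat.card_pos.ne' hk0).length_eq, List.length_append]
    have : k.primeFactorsList ≠ [] := by
      rw [Ne, Nat.primeFactorsList_eq_nil]; omega
    have := List.length_pos_iff.2 this
    omega
  obtain ⟨m, rfl⟩ : ∃ m, n = m + 1 := ⟨n - 1, by omega⟩
  have hle : ⁅B ⊓ L, B ⊓ L⁆ ≤ L := h2.le.trans le_sup_right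
  have h4 := ih m (by omega) L _ _ h1.subgroupOf hcomm (GT.isNilpotent_subgroupOf _ _) (by
    rw [GT.commutator_subgroupOf inf_le_right inf_le_right, GT.card_subgroupOf_of_le hle]; omega)
  have h5 : derivedSeries G 2 ≤ L := by
    set K := Subgroup.normalClosure ((⁅B, B⁆ : Subgroup G) : Set G)
    have h6 := GT.Fac.ito_derivedSeries (h.map_top (QuotientGroup.mk'_surjective K)) inferInstance
      (GT.PG.isMulCommutative_iff_le_centralizer.2 (Subgroup.commutator_eq_bot_iff_le_centralizer.1
        (GT.commutator_le_iff_map_mk'.1 Subgroup.le_normalClosure)))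
    rw [← map_derivedSeries_eq (QuotientGroup.mk'_surjective K), GT.map_mk'_eq_bot_iff] at h6
    exact h6.trans (h.normalClosure_le
      (GT.le_normalizer_commutator Subgroup.le_normalizer Subgroup.le_normalizer)
      le_sup_left le_sup_right)
  have h6 : ∀ k, derivedSeries G (k + 2) ≤ (derivedSeries L k).map L.subtype := by
    intro k
    induction k with
    | zero => simpa [← MonoidHom.range_eq_map] using h5
    | succ k ihk =>
      rw [derivedSeries_succ L, Subgroup.map_commutator]
      exact Subgroup.commutator_mono ihk ihk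
  have h7 := h6 (2 * (1 + m))
  rw [h4, Subgroup.map_bot] at h7
  exact eq_bot_iff.2 h7

/-- Let the finite group G be the product AB of an abelian subgroup A and a subgroup B of nilpotency class at most two, and let Ω be the number of prime factors, with multiplicity, of the order of the commutator subgroup of B. Then the term of index 2(1 + Ω) of the derived series of G is trivial. -/
theorem result {G : Type*} [Group G] [Finite G] (A B : Subgroup G) [IsMulCommutative A] (hB : commutator ↥B ≤ Subgroup.center ↥B) (hAB : ∀ g : G, ∃ a ∈ A, ∃ b ∈ B, g = a * b) : derivedSeries G (2 * (1 + (Nat.card ↥(commutator ↥B)).primeFactorsList.length)) = ⊥ := by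

  have : Group.IsNilpotent B := by
    refine Subgroup.nilpotent_iff_lowerCentralSeries.2 ⟨2, ?_⟩
    change ⁅⁅(⊤ : Subgroup B), ⊤⁆, (⊤ : Subgroup B)⁆ = ⊥
    rw [Subgroup.commutator_eq_bot_iff_le_centralizer, GT.centralizer_top]
    exact hB
  refine aux2 _ G A B (GT.Fac.isProd_top_iff.2 hAB) inferInstance this ?_
  rw [← Subgroup.map_subtype_commutator, GT.card_map_subtype]

end Cfsg.Agent.S0574
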