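import Mathlib
import Cfsg.Statements.S0576
import Cfsg.Agent.GT.Frattini

set_option autoImplicit false
open Cfsg

namespace Cfsg.Agent.S0576

/-- Let H be a normal subgroup of a finite group G with H contained in the Frattini subgroup of G. Then the group of inner automorphisms of H is contained in the Frattini subgroup of the automorphism group of H. -/
theorem result {G : Type*} [Group G] [Finite G] (H : Subgroup G) [H.Normal] (hH : H ≤ frattini G) : (MulAut.conj : ↥H →* MulAut ↥H).range ≤ frattini (MulAut ↥H) := by
  let f : G →* MulAut H := MulAut.conjNormal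
  have hn : (MulAut.conj : H →* MulAut H).range.Normal := by
    refine ⟨?_⟩
    rintro _ ⟨x, rfl⟩ e
    refine ⟨e x, ?_⟩
    ext y
    simp
  refine GT.le_frattini_of_le_map_frattini (H := f.range) ?_
  rintro _ ⟨x, rfl⟩
  refine ⟨f.rangeRestrict x, GT.map_frattini_le_of_surjective f.rangeRestrict_surjective
    ⟨x, hH x.2, rfl⟩, ?_⟩
  ext y
  rfl

end Cfsg.Agent.S0576
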