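import Mathlib
import Cfsg.Statements.S0577
import Cfsg.Agent.GT.Schmidt

set_option autoImplicit false
open Cfsg

namespace Cfsg.Agent.S0577

/-- Let G be a finite minimal non-nilpotent group and Q a normal Sylow q-subgroup of G, and let D be the commutator subgroup of Q regarded in G (a normal subgroup). Then G modulo D is non-abelian and all its proper subgroups are abelian. -/
theorem result {G : Type*} [Group G] [Finite G] (hG : Cfsg.IsMinimalNonNilpotent G) (q : ℕ) [Fact q.Prime] (hq : q ∣ Nat.card G) (Q : Sylow q G) (hQ : (Q : Subgroup G).Normal) (D : Subgroup G) [D.Normal] (hD : D = (commutator ↥(Q : Subgroup G)).map (Q : Subgroup G).subtype) : ¬ IsMulCommutative (G ⧸ D) ∧ ∀ K : Subgroup (G ⧸ D), K ≠ ⊤ → IsMulCommutative K := by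

  obtain ⟨p, r, hp, hr, hpr, P, R, h1, h2, h3, h4⟩ := GT.Schmidt.exists_sylow hG
  have hq' : q.Prime := Fact.out
  have := Fact.mk hp
  have := Fact.mk hr
  have hD' : D = ⁅(Q : Subgroup G), (Q : Subgroup G)⁆ := by
    rw [hD, Subgroup.map_subtype_commutator]
  have hqp : q ≠ p := by
    rintro rfl
    have := Sylow.unique_of_normal Q hQ
    exact h4 (Subsingleton.elim Q P ▸ hQ)
  obtain rfl : q = r := by
    by_contra hqr
    have h5 := GT.card_sup_dvd (P : Subgroup G) R
    rw [h3, Subgroup.card_top] at h5
    obtain ⟨a, ha⟩ := IsPGroup.iff_card.1 P.2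
    obtain ⟨b, hb⟩ := IsPGroup.iff_card.1 R.2
    rw [ha, hb] at h5
    rcases (Nat.Prime.dvd_mul hq').1 (hq.trans h5) with h | h
    · exact hqp ((Nat.prime_dvd_prime_iff_eq hq' hp).1 (hq'.dvd_of_dvd_pow h))
    · exact hqr ((Nat.prime_dvd_prime_iff_eq hq' hr).1 (hq'.dvd_of_dvd_pow h))
  obtain rfl : Q = R := by
    have := Sylow.unique_of_normal Q hQ
    exact Subsingleton.elim _ _
  have hcop : (Nat.card (P : Subgroup G)).Coprime (Nat.card (Q : Subgroup G)) :=
    IsPGroup.coprime_card_of_ne p q hpr _ _ P.2 Q.2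
  have hsurj := QuotientGroup.mk'_surjective D
  have hQs : Group.IsSolvable (Q : Subgroup G) := by
    have := Q.2.isNilpotent
    infer_instance
  have hDQ : D < Q := hD' ▸ GT.commutator_lt_of_isSolvable (Q.ne_bot_of_dvd_card hq)
  refine ⟨fun hc => h4 ?_, fun K hK => ?_⟩
  · have hn : (D ⊔ (P : Subgroup G)).Normal := by
      refine Subgroup.Normal.of_commutator_le G (le_trans ?_ le_sup_left)
      exact Subgroup.Normal.quotient_commutative_iff_commutator_le.1 hc
    have ht : D ⊔ (P : Subgroup G) ≠ ⊤ := by
      intro ht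
      have := GT.HT.sup_inf_eq_of_le (N := D) (H := (P : Subgroup G)) (M := (Q : Subgroup G))
        (by rw [Subgroup.normalizer_eq_top]; exact le_top) hDQ.le (ht ▸ le_top)
      rw [(Subgroup.disjoint_of_coprime_natCard hcop).eq_bot, sup_bot_eq] at this
      exact hDQ.ne this
    have := hG.2 _ ht
    have := GT.SS.normal_map_sylow_of_normal
      (P.subtype (le_sup_right : (P : Subgroup G) ≤ D ⊔ P)) inferInstance
    rwa [Sylow.coe_subtype, Subgroup.subgroupOf_map_subtype, inf_eq_left.2 le_sup_right] at this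
  · set L := K.comap (QuotientGroup.mk' D)
    have hL : L ≠ ⊤ := fun e => hK (by
      rw [← Subgroup.map_comap_eq_self_of_surjective hsurj K]
      change L.map _ = ⊤
      rw [e, ← MonoidHom.range_eq_map, MonoidHom.range_eq_top.2 hsurj])
    have := hG.2 L hL
    have : Group.IsNilpotent K := by
      rw [← Subgroup.map_comap_eq_self_of_surjective hsurj K]
      exact GT.isNilpotent_map _ _
    refine GT.Schmidt.isMulCommutative_of_isNilpotent fun s hs S => ?_
    have := Fact.mk hs
    -- `S` embeds into a Sylow subgroup of `G ⧸ D`, all of which are abelian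
    obtain ⟨T, hT⟩ := (S.2.map K.subtype).exists_le_sylow
    have hTc : IsMulCommutative (T : Subgroup (G ⧸ D)) := by
      obtain ⟨U, rfl⟩ := Sylow.mapSurjective_surjective hsurj s T
      rw [Sylow.coe_mapSurjective]
      by_cases e : s = q
      · subst e
        have := Sylow.unique_of_normal Q hQ
        rw [Subsingleton.elim U Q, ← Subgroup.commutator_self_eq_bot_iff,
          ← Subgroup.map_commutator, ← hD', Subgroup.map_eq_bot_iff, QuotientGroup.ker_mk']
      by_cases e' : s = p
      · subst e'
        obtain ⟨g, rfl⟩ := MulAction.exists_smul_eq G P U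
        have : IsCyclic (P : Subgroup G) := h1
        rw [Sylow.coe_subgroup_smul, GT.HT.conj_smul_eq_map]
        infer_instance
      · have h5 := GT.card_sup_dvd (P : Subgroup G) Q
        rw [h3, Subgroup.card_top] at h5
        obtain ⟨a, ha⟩ := IsPGroup.iff_card.1 P.2
        obtain ⟨b, hb⟩ := IsPGroup.iff_card.1 Q.2
        obtain ⟨c, hc⟩ := IsPGroup.iff_card.1 U.2
        have h6 := (Subgroup.card_subgroup_dvd_card (U : Subgroup G)).trans h5
        rw [ha, hb, hc] at h6
        have h7 : (s ^ c).Coprime (p ^ a * q ^ b) :=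
          (((Nat.coprime_primes hs hp).2 e').pow c a).mul_right
            (((Nat.coprime_primes hs hq').2 e).pow c b)
        rw [Subgroup.card_eq_one.1 (hc.trans (h7.eq_one_of_dvd h6)),
          Subgroup.map_bot]
        infer_instance
    have h8 := GT.PG.isMulCommutative_of_le hT hTc
    rw [GT.PG.isMulCommutative_iff_forall] at h8 ⊢
    intro a ha b hb
    exact Subtype.ext (h8 _ (Subgroup.mem_map_of_mem _ ha) _ (Subgroup.mem_map_of_mem _ hb))

end Cfsg.Agent.S0577
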