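import Mathlib
import Cfsg.Statements.S0578
import Cfsg.Agent.GT.Schmidt

set_option autoImplicit false
open Cfsg

namespace Cfsg.Agent.S0578

/-- If in a finite group the normalizer of each abelian subgroup coincides with its centralizer, then the group is abelian. -/
theorem result {G : Type*} [Group G] [Finite G] (h : ∀ A : Subgroup G, IsMulCommutative A → Subgroup.normalizer (A : Set G) = Subgroup.centralizer (A : Set G)) : IsMulCommutative G := by

  by_contra hG
  obtain ⟨H, -, hH, hmin⟩ := GT.exists_minimal_le
    (P := fun H : Subgroup G => ¬ IsMulCommutative H) (H := ⊤)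
    (by rwa [GT.PG.isMulCommutative_top_iff])
  have hlt : ∀ L : Subgroup H, L ≠ ⊤ → IsMulCommutative (L.map H.subtype) := by
    intro L hL
    by_contra hn
    have := hmin _ hn (Subgroup.map_subtype_le L)
    apply hL
    apply Subgroup.map_injective H.subtype_injective
    rw [this, ← MonoidHom.range_eq_map, Subgroup.range_subtype]
  have : Group.IsSolvable H := GT.Schmidt.isSolvable_of_forall_proper fun L hL => by
    have := hlt L hL
    have := GT.isNilpotent_of_isMulCommutative (G := L.map H.subtype)
    exact GT.isNilpotent_of_map_of_injective H.subtype_injective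
  have : Nontrivial H := by
    rcases subsingleton_or_nontrivial H with h | h
    · exact absurd ⟨⟨fun a b => Subsingleton.elim _ _⟩⟩ hH
    · exact h
  obtain ⟨N, hN, hp⟩ := GT.HT.exists_normal_index_prime H
  have hNt : N ≠ ⊤ := fun e => hp.ne_one (by rw [e, Subgroup.index_top])
  have h1 := GT.le_normalizer_map_subtype H N
  rw [h _ (hlt N hNt)] at h1
  have := Fact.mk hp
  have : IsCyclic (H ⧸ N) := isCyclic_of_prime_card (p := N.index) rfl
  apply hH
  refine ⟨⟨(commutative_of_cyclic_center_quotient (QuotientGroup.mk' N) fun x hx => ?_)⟩⟩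
  rw [QuotientGroup.ker_mk'] at hx
  rw [Subgroup.mem_center_iff]
  intro y
  exact Subtype.ext (h1 y.2 _ (Subgroup.mem_map_of_mem _ hx)).symm

end Cfsg.Agent.S0578
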