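import Mathlib
import Cfsg.Agent.GT.Supersolvable2
import Cfsg.Agent.GT.Hall
import Cfsg.Agent.GT.HallTools
import Cfsg.Agent.GT.Conj
import Cfsg.Agent.GT.MinNormal
import Cfsg.Agent.GT.Cores
import Cfsg.Statements.S0582
-- import your own Cfsg.Agent.* helpers here

set_option autoImplicit false
open Pointwise
open Cfsg

namespace Cfsg.Agent.S0582

open Subgroup Cfsg.Agent.GT

/-- A supersolvable Hall subgroup normalizes a Sylow subgroup of the whole group for the largest
prime dividing its order. -/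
theorem exists_sylow {G : Type*} [Group G] [Finite G] {H : Subgroup G} (hH : IsSupersolvable H)
    {p : ℕ} [Fact p.Prime] (hi : ¬ p ∣ H.index)
    (hmax : ∀ q : ℕ, q.Prime → q ∣ Nat.card H → q ≤ p) :
    ∃ P : Subgroup G, IsPGroup p P ∧ ¬ p ∣ P.index ∧ P ≤ H ∧ H ≤ normalizer (P : Set G) := by
  obtain ⟨P⟩ : Nonempty (Sylow p H) := inferInstance
  have := SS.sylow_normal_of_max hH hmax P
  refine ⟨(P : Subgroup H).map H.subtype, P.2.map _, ?_, map_subtype_le _,
    le_normalizer_map_subtype H P⟩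
  rw [index_map_subtype]
  exact fun h => ((Fact.out : p.Prime).dvd_mul.mp h).elim P.not_dvd_index hi

universe u

theorem aux (π : Set ℕ) (G : Type u) [Group G] [Finite G] : ∀ H K : Subgroup G,
    IsSupersolvable H → IsSupersolvable K → IsPiHall π H → IsPiHall π K →
      ∃ x : G, MulAut.conj x • H = K := by
  refine subgroup_quotient_induction (P := fun G _ _ => ∀ H K : Subgroup G,
    IsSupersolvable H → IsSupersolvable K → IsPiHall π H → IsPiHall π K →
      ∃ x : G, MulAut.conj x • H = K) (fun G _ _ ih1 ih2 H K hH hK hH' hK' => ?_) G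
  have hcard := hH'.card_eq hK'
  by_cases h1 : H = ⊥
  · refine ⟨1, ?_⟩
    rw [HT.conj_one_smul, h1, eq_comm, ← card_eq_one, ← hcard, h1, card_bot]
  have hne : (Nat.card H).primeFactors.Nonempty :=
    Nat.nonempty_primeFactors.mpr ((one_lt_card_iff_ne_bot H).mpr h1)
  set p := (Nat.card H).primeFactors.max' hne
  have hp := Nat.mem_primeFactors.mp ((Nat.card H).primeFactors.max'_mem hne)
  haveI : Fact p.Prime := ⟨hp.1⟩
  have hmax : ∀ q : ℕ, q.Prime → q ∣ Nat.card H → q ≤ p := fun q hq hq' =>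
    Finset.le_max' _ _ (Nat.mem_primeFactors.mpr ⟨hq, hq', hp.2.2⟩)
  have hpπ : p ∈ π := hH'.card p hp.1 hp.2.1
  obtain ⟨P, hP, hPi, hPH, hHP⟩ := exists_sylow hH (fun h => hH'.index p hp.1 h hpπ) hmax
  obtain ⟨Q, hQ, hQi, hQK, hKQ⟩ := exists_sylow hK (fun h => hK'.index p hp.1 h hpπ)
    (hcard ▸ hmax)
  obtain ⟨g, -, hg⟩ := HT.exists_conj_le_of_isPGroup (L := ⊤) le_top hP hQ
    (by rwa [relIndex_top_right])
  have hQ1 : Q ≠ ⊥ := fun e => hQi (by
    rw [e, index_bot]; exact hp.2.1.trans (card_subgroup_dvd_card H))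
  have hPQ : MulAut.conj g • P = Q := by
    have hP' : IsPGroup p (MulAut.conj g • P : Subgroup G) := hP.map _
    have h2 : IsPiHall {p} (MulAut.conj g • P) := isPiHall_iff.mpr
      ⟨(isPGroup_iff_isPiNum hp.1).mp hP', fun q hq hq' e => hPi (by
        rw [HT.index_conj_smul] at hq'; exact Set.mem_singleton_iff.mp e ▸ hq')⟩
    exact h2.eq_of_le ((isPGroup_iff_isPiNum hp.1).mp hQ) hg
  suffices h : ∃ x : G, MulAut.conj x • MulAut.conj g • H = K by
    obtain ⟨x, hx⟩ := h
    exact ⟨x * g, by rw [← HT.conj_smul_conj_smul, hx]⟩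
  have hH₁ : IsSupersolvable (MulAut.conj g • H : Subgroup G) := SS.of_mulEquiv hH (conjEquiv H g)
  have hH₁' := hH'.conj_smul g
  have hQH : Q ≤ MulAut.conj g • H := hPQ ▸ HT.conj_smul_mono g hPH
  have hHQ : MulAut.conj g • H ≤ normalizer (Q : Set G) := by
    rw [← hPQ, HT.normalizer_conj_smul]
    exact HT.conj_smul_mono g hHP
  generalize MulAut.conj g • H = H₁ at hH₁ hH₁' hQH hHQ
  by_cases hN : normalizer (Q : Set G) = ⊤
  · haveI := normalizer_eq_top_iff.mp hN
    have hf := QuotientGroup.mk'_surjective Q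
    obtain ⟨x, hx⟩ := ih2 Q hQ1 (H₁.map (QuotientGroup.mk' Q)) (K.map (QuotientGroup.mk' Q))
      (SS.of_surjective hH₁ _ ((QuotientGroup.mk' Q).subgroupMap_surjective _))
      (SS.of_surjective hK _ ((QuotientGroup.mk' Q).subgroupMap_surjective _))
      (hH₁'.map_of_surjective hf) (hK'.map_of_surjective hf)
    obtain ⟨x, rfl⟩ := hf x
    have h2 := HT.conj_smul_sup_eq_of_map _ hx
    rw [QuotientGroup.ker_mk', sup_eq_right.mpr hQK, sup_eq_right.mpr] at h2
    · exact ⟨x, h2⟩
    · rw [← HT.conj_smul_eq_iff.mpr (hN ▸ mem_top x : x ∈ normalizer (Q : Set G))]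
      exact HT.conj_smul_mono x hQH
  · obtain ⟨x, hx⟩ := ih1 _ hN (H₁.subgroupOf _) (K.subgroupOf _)
      (SS.of_mulEquiv hH₁ (subgroupOfEquivOfLe hHQ).symm)
      (SS.of_mulEquiv hK (subgroupOfEquivOfLe hKQ).symm)
      (hH₁'.isPiHallOf hHQ).subgroupOf (hK'.isPiHallOf hKQ).subgroupOf
    exact ⟨x, HT.conj_smul_eq_of_subgroupOf hHQ hKQ hx⟩

/-- Let H and K be supersolvable subgroups of a finite group G of the same order, that order being coprime to their index. Then H and K are conjugate in G. -/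
theorem result {G : Type*} [Group G] [Finite G] (H K : Subgroup G) (hH : Cfsg.IsSupersolvable H) (hK : Cfsg.IsSupersolvable K) (hcard : Nat.card H = Nat.card K) (hHall : (Nat.card H).Coprime H.index) : ∃ x : G, MulAut.conj x • H = K := by
  exact aux _ G H K hH hK (isPiHall_of_coprime hHall)
    ((isPiHall_of_coprime hHall).of_card_eq hcard.symm)

end Cfsg.Agent.S0582
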