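import Mathlib
import Cfsg.Statements.S0587
import Cfsg.Agent.GT.Frattini

set_option autoImplicit false
open Cfsg

namespace Cfsg.Agent.S0587

/-- Let G be a finite group whose largest normal p-subgroup L is nontrivial, and M a maximal subgroup of G with trivial normal core. Then L is elementary abelian, M is a complement to L, L is a minimal normal subgroup of G, the centralizer of L is L, and for every prime q such that the largest normal q-subgroup of M is nontrivial, the order of L is congruent to 1 modulo q and q ≠ p. -/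
theorem result {G : Type*} [Group G] [Finite G] (p : ℕ) [Fact p.Prime] (hL : Cfsg.pCore p G ≠ ⊥) (M : Subgroup G) (hM : IsCoatom M) (hcore : M.normalCore = ⊥) : Cfsg.IsElementaryAbelian p (Cfsg.pCore p G) ∧ Subgroup.IsComplement' (Cfsg.pCore p G) M ∧ (∀ K : Subgroup G, K.Normal → K ≤ Cfsg.pCore p G → K = ⊥ ∨ K = Cfsg.pCore p G) ∧ Subgroup.centralizer ((Cfsg.pCore p G : Subgroup G) : Set G) = Cfsg.pCore p G ∧ ∀ (q : ℕ) [Fact q.Prime], Cfsg.pCore q ↥M ≠ ⊥ → Nat.card (Cfsg.pCore p G) % q = 1 % q ∧ q ≠ p := by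
  have hp : p.Prime := Fact.out
  obtain ⟨N, hN, hle⟩ := GT.exists_isMinNormal_le hL
  have hE := hN.elementary_of_isPGroup hp ((GT.isPGroup_pCore p).to_le hle)
  have := hE.1
  have := hN.normal
  have hNL : pCore p G = N :=
    le_antisymm ((GT.pCore_le_fitting hp).trans (hN.fitting_eq_of_normalCore_eq_bot hM hcore).le) hle
  have hnM : ¬ N ≤ M := fun h =>
    hN.ne_bot (eq_bot_iff.mpr (hcore ▸ Subgroup.normal_le_normalCore.mpr h))
  have hc := hN.isComplement'_of_isCoatom hM hnM
  have hC := hN.centralizer_eq_of_normalCore_eq_bot hM hcore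
  rw [hNL]
  refine ⟨hE, hc, hN.2.2, hC, fun q hq hQ => ?_⟩
  have hD : (N ⊓ Subgroup.centralizer (pCoreOf q M : Set G)).Normal :=
    GT.normal_of_sup_eq_top hc.sup_eq_top (GT.le_normalizer_of_le_of_comm inf_le_left)
      (GT.PG.le_normalizer_inf Subgroup.le_normalizer_of_normal
        (GT.PG.le_normalizer_centralizer (GT.le_normalizer_pCoreOf M)))
  have h1 : N ⊓ Subgroup.centralizer (pCoreOf q M : Set G) = ⊥ := by
    refine (hN.eq_bot_or_eq inf_le_left).resolve_right fun e => hQ ?_
    rw [← GT.pCoreOf_eq_bot_iff, eq_bot_iff, ← hc.disjoint.eq_bot]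
    exact le_inf (hC ▸ Subgroup.le_centralizer_iff.mp (inf_eq_left.mp e)) (GT.pCoreOf_le M)
  have h2 := GT.card_modEq_card_inf_centralizer (L := N) (GT.isPGroup_pCoreOf q M)
    Subgroup.le_normalizer_of_normal
  rw [h1, Subgroup.card_bot] at h2
  refine ⟨h2, ?_⟩
  rintro rfl
  rcases (GT.isPGroup_of_forall_pow_eq_one hE.2).card_eq_or_dvd with h | h
  · exact hN.ne_bot (Subgroup.card_eq_one.mp h)
  · exact hp.one_lt.ne' (Nat.dvd_one.mp ((h2.dvd_iff dvd_rfl).mp h))

end Cfsg.Agent.S0587
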