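import Mathlib
import Cfsg.Statements.S0591
import Cfsg.Agent.GT.ElemAbRep
-- import your own Cfsg.Agent.* helpers here

set_option autoImplicit false
open Cfsg

namespace Cfsg.Agent.S0591

/-- For a quadratically acting element a on an elementary abelian p-group V, the fixed points C_V(a) have order at least the square root of the order of V. -/
theorem result {G : Type*} [Group G] [Finite G] {p : ℕ} [Fact p.Prime] (V : Subgroup G) (hV : Cfsg.IsElementaryAbelian p V) (a : G) (ha : a ∈ Subgroup.normalizer (V : Set G)) (hq : ⁅⁅V, Subgroup.zpowers a⁆, Subgroup.zpowers a⁆ = ⊥) : Nat.card V ≤ Nat.card ↥(V ⊓ Subgroup.centralizer (Subgroup.zpowers a : Set G)) ^ 2 := by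
  have hHV : Subgroup.zpowers a ≤ Subgroup.normalizer (V : Set G) := Subgroup.zpowers_le.2 ha
  set T := GT.eaRep hV hHV ⟨a, Subgroup.mem_zpowers a⟩ - 1 with hT
  have h0 : T * T = 0 := GT.eaRep_quadratic hq (Subgroup.mem_zpowers a) (Subgroup.mem_zpowers a)
  have hk : LinearMap.ker T = GT.EAV.sub hV (V ⊓ Subgroup.centralizer (Subgroup.zpowers a : Set G)) := by
    ext x
    rw [LinearMap.mem_ker, hT, LinearMap.sub_apply, sub_eq_zero, Module.End.one_apply,
      GT.eaRep_apply_eq_iff, GT.EAV.mem_sub, Subgroup.mem_inf, Subgroup.mem_centralizer_iff]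
    refine ⟨fun h => ⟨x.val_mem, ?_⟩, fun h => h.2 a (Subgroup.mem_zpowers a)⟩
    rintro _ ⟨k, rfl⟩
    exact (Commute.zpow_left (a := a) h k).eq
  have h1 : Nat.card (LinearMap.range T) ≤ Nat.card (LinearMap.ker T) :=
    Nat.card_le_card_of_injective _
      (Submodule.inclusion_injective (LinearMap.range_le_ker_iff.2 h0))
  rw [← GT.EAV.card_sub (hV := hV) inf_le_left, ← hk, ← GT.EAV.card_eq (hV := hV), pow_two,
    Submodule.card_eq_card_quotient_mul_card (LinearMap.ker T),
    Nat.card_congr T.quotKerEquivRange.toEquiv]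
  exact Nat.mul_le_mul_left _ h1

end Cfsg.Agent.S0591
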