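import Mathlib
import Mathlib
import Cfsg.Statements.S0592
import Cfsg.Agent.GT.QuadSL2

set_option autoImplicit false
open Cfsg

namespace Cfsg.Agent.S0592

/-- Two quadratically acting generators of a linear group that is not a p-group, with the p'-part of the order of their product dividing q - 1, give a homomorphism onto a subgroup of SL(2, q) that is not a p-group. -/
theorem result {K : Type*} [Field K] [Fintype K] {p : ℕ} [Fact p.Prime] [CharP K p] {W : Type*} [AddCommGroup W] [Module K W] [FiniteDimensional K W] [Finite W] [Nontrivial W] (H : Subgroup (W ≃ₗ[K] W)) (a b : W ≃ₗ[K] W) (hH : H = Subgroup.closure {a, b}) (ha : ∀ w : W, a (a w - w) = a w - w) (hb : ∀ w : W, b (b w - w) = b w - w) (hnp : ¬ IsPGroup p H) (hk : ∃ e k : ℕ, orderOf (a * b) = p ^ e * k ∧ k ∣ Fintype.card K - 1) : ∃ φ : H →* Matrix.SpecialLinearGroup (Fin 2) K, ¬ IsPGroup p φ.range := by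
  classical
  have haH : a ∈ H := hH ▸ Subgroup.subset_closure (by simp)
  have hbH : b ∈ H := hH ▸ Subgroup.subset_closure (by simp)
  let ρ : Representation K H W :=
    { toFun := fun g => ((g : W ≃ₗ[K] W) : W →ₗ[K] W)
      map_one' := rfl
      map_mul' := fun _ _ => rfl }
  have hρ : ∀ (g : H) (w : W), ρ g w = (g : W ≃ₗ[K] W) w := fun _ _ => rfl
  have hgen : Subgroup.closure {(⟨a, haH⟩ : H), ⟨b, hbH⟩} = ⊤ := by
    apply Subgroup.map_injective H.subtype_injective
    rw [MonoidHom.map_closure, ← MonoidHom.range_eq_map, Subgroup.range_subtype]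
    simp only [Set.image_insert_eq, Set.image_singleton, Subgroup.subtype_apply]
    exact hH.symm
  obtain ⟨e, k, hek, hk⟩ := hk
  have hq : Fintype.card K - 1 ≠ 0 := by
    have := Fintype.one_lt_card (α := K); omega
  let f : Polynomial K := (Polynomial.X ^ Fintype.card K - Polynomial.X) ^ (p ^ e)
  have hf0 : f ≠ 0 := pow_ne_zero _ (FiniteField.X_pow_card_sub_X_ne_zero K Fintype.one_lt_card)
  have hfs : f.Splits := by
    apply Polynomial.Splits.pow
    rw [Polynomial.splits_iff_card_roots, FiniteField.roots_X_pow_card_sub_X,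
      FiniteField.X_pow_card_sub_X_natDegree_eq K Fintype.one_lt_card]
    rfl
  have hab : Polynomial.aeval (ρ (⟨a, haH⟩ * ⟨b, hbH⟩)) f = 0 := by
    set c : H := ⟨a, haH⟩ * ⟨b, hbH⟩ with hc
    have hc1 : c ^ (p ^ e * (Fintype.card K - 1)) = 1 := by
      apply Subtype.ext
      rw [Subgroup.coe_pow, Subgroup.coe_one, ← orderOf_dvd_iff_pow_eq_one]
      change orderOf (a * b) ∣ _
      rw [hek]
      exact Nat.mul_dvd_mul_left _ hk
    have hfe : f = Polynomial.X ^ (p ^ e) *
        (Polynomial.X ^ (p ^ e * (Fintype.card K - 1)) - 1) := by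
      simp only [f]
      rw [sub_pow_char_pow, mul_sub, mul_one, ← pow_add, ← pow_mul]
      congr 2
      obtain ⟨m, hm⟩ : ∃ m, Fintype.card K = m + 1 := ⟨Fintype.card K - 1, by omega⟩
      rw [hm]; simp only [Nat.add_sub_cancel]; ring
    rw [hfe]
    simp only [map_mul, map_sub, map_pow, Polynomial.aeval_X, map_one]
    rw [← map_pow ρ c (p ^ e * _), hc1, map_one, sub_self, mul_zero]
  obtain ⟨l, φ, hl, h1, h2, -⟩ := GT.exists_sl2_hom_of_quadratic_pair (p := p) hgen hf0 hfs ρ
    (by ext w; simpa [hρ, sub_eq_zero] using ha w) (by ext w; simpa [hρ, sub_eq_zero] using hb w)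
    hab (by
      intro h
      apply hnp
      intro g
      obtain ⟨k, hk⟩ := h g
      refine ⟨k, ?_⟩
      rw [← map_pow] at hk
      apply Subtype.ext
      ext w
      exact LinearMap.congr_fun hk w)
  exact ⟨φ, GT.not_isPGroup_of_slUp_slLo_mem one_ne_zero hl ⟨_, h1⟩ ⟨_, h2⟩⟩

end Cfsg.Agent.S0592
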