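import Mathlib
import Cfsg.Statements.S0593
import Cfsg.Agent.GT.PStable
-- import your own Cfsg.Agent.* helpers here

set_option autoImplicit false
open Cfsg

namespace Cfsg.Agent.S0593

/-- For odd p, a faithful group on an elementary abelian p-group generated by two quadratically acting elements is a p-group or has non-abelian Sylow 2-subgroups. -/
theorem result {G : Type*} [Group G] [Finite G] {p : ℕ} [Fact p.Prime] (hp : p ≠ 2) (V H : Subgroup G) (hV : Cfsg.IsElementaryAbelian p V) (hHV : H ≤ Subgroup.normalizer (V : Set G)) (hf : H ⊓ Subgroup.centralizer (V : Set G) = ⊥) (a b : G) (hab : H = Subgroup.closure {a, b}) (ha : ⁅⁅V, Subgroup.zpowers a⁆, Subgroup.zpowers a⁆ = ⊥) (hb : ⁅⁅V, Subgroup.zpowers b⁆, Subgroup.zpowers b⁆ = ⊥) (hnp : ¬ IsPGroup p H) (T : Sylow 2 H) : ¬ IsMulCommutative T := by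
  intro hT
  subst hab
  refine GT.not_involves_sl2_of_comm_sylow hp (GT.isMulCommutative_sylow_of_sylow hT)
    (GT.involves_sl2_of_quadratic_gens hp (GT.eaRep hV hHV) (GT.closure_pair_subtype_eq_top a b)
      (GT.eaRep_quadratic ha (Subgroup.mem_zpowers a) (Subgroup.mem_zpowers a))
      (GT.eaRep_quadratic hb (Subgroup.mem_zpowers b) (Subgroup.mem_zpowers b))
      fun h => hnp fun g => (h g).imp fun k hk => ?_)
  rw [← map_pow] at hk
  exact GT.eaRep_injective hf (hk.trans (map_one _).symm)

end Cfsg.Agent.S0593
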