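import Mathlib
import Cfsg.Statements.S0594
import Cfsg.Agent.GT.PStable
import Cfsg.Agent.S0590
-- import your own Cfsg.Agent.* helpers here

set_option autoImplicit false
open Cfsg

namespace Cfsg.Agent.S0594

/-- For odd p, two quadratic generators of a faithful group that is not a p-group, one of which acts nontrivially on a normal subgroup of order prime to p, force p = 3 and a section isomorphic to SL(2,3). -/
theorem result {G : Type*} [Group G] [Finite G] {p : ℕ} [Fact p.Prime] (hp : p ≠ 2) (V H : Subgroup G) (hV : Cfsg.IsElementaryAbelian p V) (hHV : H ≤ Subgroup.normalizer (V : Set G)) (hf : H ⊓ Subgroup.centralizer (V : Set G) = ⊥) (a b : G) (hab : H = Subgroup.closure {a, b}) (ha : ⁅⁅V, Subgroup.zpowers a⁆, Subgroup.zpowers a⁆ = ⊥) (hb : ⁅⁅V, Subgroup.zpowers b⁆, Subgroup.zpowers b⁆ = ⊥) (hnp : ¬ IsPGroup p H) (Q : Subgroup G) (hQH : Q ≤ H) (hQn : H ≤ Subgroup.normalizer (Q : Set G)) (hQ : (Nat.card Q).Coprime p) (hQa : ⁅Q, Subgroup.zpowers a⁆ ≠ ⊥)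 : p = 3 ∧ ∃ (K L : Subgroup G) (hL : (L.subgroupOf K).Normal), K ≤ H ∧ Nonempty ((K ⧸ L.subgroupOf K) ≃* Matrix.SpecialLinearGroup (Fin 2) (ZMod 3)) := by
  have haH : a ∈ H := hab ▸ Subgroup.subset_closure (by simp)
  have hA : Subgroup.zpowers a ≤ H := Subgroup.zpowers_le.2 haH
  have hap : a ^ p = 1 := by
    have := (S0590.result V _ hV (hA.trans hHV) ha).2 a (Subgroup.mem_zpowers a)
    exact Subgroup.mem_bot.1 (hf ▸ Subgroup.mem_inf.2 ⟨pow_mem haH p, this⟩)
  have hle : Subgroup.zpowers a ⊔ Q ≤ H := sup_le hA hQH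
  have hsol : IsPSolvable p ↥(Subgroup.zpowers a ⊔ Q) :=
    IsPSolvable.sup_of_le_normalizer
      (GT.isPSolvable_of_isPGroup (IsElementaryAbelian.zpowers hap).isPGroup)
      (GT.isPSolvable_of_coprime hQ) (hA.trans hQn)
  have hinv := GT.involves_sl2_of_not_mem_pCoreOf hp hV (hle.trans hHV)
    (le_bot_iff.1 ((inf_le_inf_right _ hle).trans hf.le))
    (Subgroup.mem_sup_left (Subgroup.mem_zpowers a)) ha (fun h => hQa (by
      rw [GT.CopAct.commutator_eq_bot_iff]
      refine (Subgroup.zpowers_le.2 h).trans (GT.le_centralizer_of_le_normalizer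
        ((GT.pCoreOf_le _).trans (hle.trans hQn))
        (le_sup_right.trans (GT.le_normalizer_pCoreOf _)) ?_)
      exact GT.CopAct.inf_eq_bot_of_coprime
        (GT.coprime_card_of_isPGroup Fact.out (GT.isPGroup_pCoreOf p _) hQ)))
  obtain rfl : p = 3 := by
    by_contra h3
    exact GT.not_involves_sl2_of_isPSolvable (GT.five_le_of_prime_ne hp h3) hsol hinv
  obtain ⟨K, L, hL, hK, h⟩ := GT.exists_section_of_involves hinv
  exact ⟨rfl, K, L, hL, hK.trans hle, h⟩

end Cfsg.Agent.S0594
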