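import Mathlib
import Cfsg.Statements.S0597
import Cfsg.Agent.GT.CoprimeNilp
import Cfsg.Agent.GT.Subnormal
import Cfsg.Agent.GT.FStar
import Cfsg.Agent.GT.PConstrained
import Cfsg.Agent.GT.PGroupElemAb
-- import your own Cfsg.Agent.* helpers here

set_option autoImplicit false
open Cfsg

namespace Cfsg.Agent.S0597

/-- If two subnormal subgroups of a faithful group on an elementary abelian p-group satisfy [V, E₁, E₂] = 1, then their commutator lies in the largest normal p-subgroup. -/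
theorem result {G : Type*} [Group G] [Finite G] {p : ℕ} [Fact p.Prime] (V H : Subgroup G) (hV : Cfsg.IsElementaryAbelian p V) (hHV : H ≤ Subgroup.normalizer (V : Set G)) (hf : H ⊓ Subgroup.centralizer (V : Set G) = ⊥) (E₁ E₂ : Subgroup G) (h₁ : E₁ ≤ H) (h₂ : E₂ ≤ H) (hs₁ : (E₁.subgroupOf H).IsSubnormal) (hs₂ : (E₂.subgroupOf H).IsSubnormal) (hc : ⁅⁅V, E₁⁆, E₂⁆ = ⊥) : ⁅E₁, E₂⁆ ≤ (Cfsg.pCore p H).map H.subtype := by
  have hL : GT.SubnormalIn (E₁ ⊔ E₂) H := GT.SubnormalIn.sup ⟨h₁, hs₁⟩ ⟨h₂, hs₂⟩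
  have hV₁ : E₁ ≤ Subgroup.normalizer ((⁅V, E₁⁆ : Subgroup G) : Set G) :=
    GT.CopAct.le_normalizer_commutator (h₁.trans hHV) Subgroup.le_normalizer
  have hle₁ : ⁅V, E₁⁆ ≤ V := GT.CopAct.commutator_le_of_le_normalizer (h₁.trans hHV)
  have hc₂ : E₂ ≤ Subgroup.centralizer ((⁅V, E₁⁆ : Subgroup G) : Set G) :=
    GT.CopAct.commutator_eq_bot_iff.1 hc
  have hD : ⁅E₁, E₂⁆ ≤ E₁ ⊔ E₂ := Subgroup.commutator_le_sup _ _
  -- the commutator centralizes `[V, E₁]`
  have h1 : ⁅E₁, E₂⁆ ≤ Subgroup.centralizer ((⁅V, E₁⁆ : Subgroup G) : Set G) :=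
    GT.CopAct.commutator_le_centralizer_of_normalizer hV₁ hc₂
  -- and acts trivially on `V / [V, E₁]`
  have h2 : ⁅V, ⁅E₁, E₂⁆⁆ ≤ ⁅V, E₁⁆ := by
    have key : ∀ x ∈ E₁, ∀ v ∈ V, x * v * x⁻¹ * v⁻¹ ∈ ⁅V, E₁⁆ := fun x hx v hv => by
      rw [Subgroup.commutator_comm]
      exact Subgroup.commutator_mem_commutator hx hv
    let M : Subgroup G :=
      { carrier := {x | x ∈ Subgroup.normalizer ((⁅V, E₁⁆ : Subgroup G) : Set G) ∧
          x ∈ Subgroup.normalizer (V : Set G) ∧ ∀ v ∈ V, x * v * x⁻¹ * v⁻¹ ∈ ⁅V, E₁⁆}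
        one_mem' := ⟨one_mem _, one_mem _, fun v _ => by simp⟩
        mul_mem' := by
          rintro x y ⟨hx1, hx2, hx3⟩ ⟨hy1, hy2, hy3⟩
          refine ⟨mul_mem hx1 hy1, mul_mem hx2 hy2, fun v hv => ?_⟩
          have := mul_mem ((Subgroup.mem_normalizer_iff.1 hx1 _).1 (hy3 v hv)) (hx3 v hv)
          convert this using 1
          group
        inv_mem' := by
          rintro x ⟨hx1, hx2, hx3⟩
          refine ⟨inv_mem hx1, inv_mem hx2, fun v hv => ?_⟩
          have := (Subgroup.mem_normalizer_iff.1 (inv_mem hx1) _).1 (inv_mem (hx3 v hv))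
          convert this using 1
          group }
    have hM : ⁅E₁, E₂⁆ ≤ M := by
      rw [Subgroup.commutator_le]
      intro x hx y hy
      have hx' : x ∈ M := ⟨hV₁ hx, hHV (h₁ hx), key x hx⟩
      have hy1 : y ∈ Subgroup.normalizer ((⁅V, E₁⁆ : Subgroup G) : Set G) :=
        Subgroup.centralizer_le_normalizer _ (hc₂ hy)
      have hy' : y * x⁻¹ * y⁻¹ ∈ M := by
        refine ⟨mul_mem (mul_mem hy1 (inv_mem hx'.1)) (inv_mem hy1),
          mul_mem (mul_mem (hHV (h₂ hy)) (inv_mem hx'.2.1)) (inv_mem (hHV (h₂ hy))),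
          fun v hv => ?_⟩
        have := (Subgroup.mem_normalizer_iff.1 hy1 _).1 (key x⁻¹ (inv_mem hx) (y⁻¹ * v * y)
          (GT.CopAct.conj_mem' (h₂.trans hHV) hy hv))
        convert this using 1
        group
      have := mul_mem hx' hy'
      convert this using 1
      rw [commutatorElement_def]
      group
    rw [Subgroup.commutator_comm, Subgroup.commutator_le]
    exact fun x hx v hv => (hM hx).2.2 v hv
  have hp : IsPGroup p ↥⁅E₁, E₂⁆ := by
    refine GT.isPGroup_of_forall_coprime_eq_one fun x hx hc => ?_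
    have hx' : Subgroup.zpowers x ≤ ⁅E₁, E₂⁆ := Subgroup.zpowers_le.2 hx
    have : Subgroup.zpowers x ≤ Subgroup.centralizer (V : Set G) :=
      GT.CopAct.le_centralizer_of_commutator_le
        (GT.CopAct.coprime_of_isPGroup_right (by rwa [Nat.card_zpowers])
          (hV.isPGroup.to_le hle₁))
        ((Subgroup.commutator_mono le_rfl hx').trans h2) (hx'.trans h1)
    exact Subgroup.mem_bot.1 (hf ▸ Subgroup.mem_inf.2
      ⟨hL.le (hD hx), this (Subgroup.mem_zpowers x)⟩)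
  refine GT.SubnormalIn.le_pCoreOf (GT.SubnormalIn.step hD ?_ hL) hp
  exact sup_le (Subgroup.normalizer_commutator_ge_left _ _)
    (Subgroup.normalizer_commutator_ge_right _ _)

end Cfsg.Agent.S0597
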