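import Mathlib
import Cfsg.Statements.S0602
import Cfsg.Agent.GT.Thompson

set_option autoImplicit false
open Cfsg

namespace Cfsg.Agent.S0602

open Subgroup Cfsg.Agent.GT
open scoped commutatorElement Pointwise

/-- The Thompson subgroup is characteristic, and nontrivial as soon as p divides the group order. -/
theorem result {G : Type*} [Group G] [Finite G] {p : ℕ} [Fact p.Prime] : (Cfsg.thompsonSubgroup p G).Characteristic ∧ (p ∣ Nat.card G → Cfsg.thompsonSubgroup p G ≠ ⊥) := by
  rw [thompsonSubgroup_eq]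
  refine ⟨thJ_characteristic p ⊤, fun h hb => ?_⟩
  obtain ⟨x, hx⟩ := exists_prime_orderOf_dvd_card' p h
  obtain ⟨A, hA⟩ := abFam_nonempty p (⊤ : Subgroup G)
  have hA1 : A = ⊥ := le_bot_iff.1 (hb ▸ le_thJ hA)
  have := abFam_card_le hA (B := zpowers x) le_top inferInstance (by
    rintro _ ⟨k, rfl⟩
    simp only
    rw [← zpow_natCast, ← zpow_mul, mul_comm, zpow_mul, zpow_natCast, ← hx, pow_orderOf_eq_one,
      one_zpow])
  rw [hA1, Nat.card_zpowers, hx, card_bot] at this
  have := (Fact.out : p.Prime).one_lt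
  omega

end Cfsg.Agent.S0602
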