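import Mathlib
import Cfsg.Statements.S0604
import Cfsg.Agent.GT.Thompson

set_option autoImplicit false
open Cfsg

namespace Cfsg.Agent.S0604

open Subgroup Cfsg.Agent.GT
open scoped commutatorElement Pointwise

/-- The Thompson subgroup of G is the join of the Thompson subgroups of its Sylow p-subgroups. -/
theorem result {G : Type*} [Group G] [Finite G] {p : ℕ} [Fact p.Prime] : Cfsg.thompsonSubgroup p G = ⨆ S : Sylow p G, Cfsg.thompsonSubgroupOf p (S : Subgroup G) := by
  rw [thompsonSubgroup_eq]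
  simp only [thompsonSubgroupOf_eq]
  have key : ∀ A ∈ abFam p (⊤ : Subgroup G), ∃ S : Sylow p G, A ≤ S := by
    intro A hA
    have : IsPGroup p A := fun ⟨a, ha⟩ => ⟨1, Subtype.ext (by simpa using abFam_pow hA a ha)⟩
    exact this.exists_le_sylow
  apply le_antisymm
  · rw [thJ_le_iff]
    intro A hA
    obtain ⟨S, hS⟩ := key A hA
    exact le_iSup_of_le S (le_thJ (mem_abFam_of_le hA hS le_top))
  · refine iSup_le fun S => ?_
    obtain ⟨A, hA⟩ := abFam_nonempty p (⊤ : Subgroup G)
    obtain ⟨T, hT⟩ := key A hA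
    obtain ⟨g, rfl⟩ := MulAction.exists_smul_eq G T S
    have hA' := map_conj_mem_abFam (g := g) (le_normalizer (mem_top g)) hA
    refine thJ_le_thJ_of_mem hA' ?_ le_top
    rintro _ ⟨a, ha, rfl⟩
    exact ⟨a, hT ha, rfl⟩

end Cfsg.Agent.S0604
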