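import Mathlib
import Cfsg.Statements.S0609
import Cfsg.Agent.GT.ThompsonFactor

set_option autoImplicit false
open Cfsg

namespace Cfsg.Agent.S0609

open Subgroup Cfsg.Agent.GT
open scoped commutatorElement Pointwise

/-- Thompson factorizability passes to and from the quotient by the largest normal subgroup of order prime to p. -/
theorem result {G : Type*} [Group G] [Finite G] {p : ℕ} [Fact p.Prime] : Cfsg.IsThompsonFactorizable p G ↔ Cfsg.IsThompsonFactorizable p (G ⧸ Cfsg.pPrimeCore p G) := by
  set π := QuotientGroup.mk' (pPrimeCore p G)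
  have hπ : Function.Surjective π := QuotientGroup.mk'_surjective _
  have hk : (Nat.card π.ker).Coprime p := coprime_card_ker_mk'_pPrimeCore
  have key : ∀ S : Sylow p G,
      centralizer (omegaOne p ((S : Subgroup G).map π ⊓ centralizer
        (((S : Subgroup G).map π : Subgroup _) : Set (G ⧸ pPrimeCore p G))) :
          Set (G ⧸ pPrimeCore p G)) =
        (centralizer (omegaOne p ((S : Subgroup G) ⊓ centralizer ((S : Subgroup G) : Set G)) :
          Set G)).map π ∧
      normalizer (thompsonSubgroupOf p ((S : Subgroup G).map π) : Set (G ⧸ pPrimeCore p G)) =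
        (normalizer (thompsonSubgroupOf p (S : Subgroup G) : Set G)).map π := by
    intro S
    have hi := th_inf_ker_of_coprime S.isPGroup' hk
    constructor
    · rw [th_center_map _ hi le_rfl, th_omegaOne_map p _ hi inf_le_left,
        map_centralizer_of_coprime_ker hπ hk
          (S.isPGroup'.to_le ((th_omegaOne_le _ _).trans inf_le_left))]
    · rw [thompsonSubgroupOf_eq, thompsonSubgroupOf_eq, thJ_map _ hi,
        map_normalizer_of_coprime_ker hπ hk (S.isPGroup'.to_le (thJ_le _ _))]
  constructor
  · intro h T g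
    obtain ⟨S, rfl⟩ := Sylow.mapSurjective_surjective hπ p T
    obtain ⟨g, rfl⟩ := hπ g
    obtain ⟨x, hx, c, hc, n, hn, rfl⟩ := h S g
    rw [Sylow.coe_mapSurjective, (key S).1, (key S).2]
    exact ⟨π x, map_pPrimeCore_le hπ (mem_map_of_mem π hx), π c, mem_map_of_mem π hc, π n,
      mem_map_of_mem π hn, by simp⟩
  · intro h S g
    obtain ⟨x, hx, c, hc, n, hn, h1⟩ := h (S.mapSurjective hπ) (π g)
    rw [Sylow.coe_mapSurjective, (key S).1] at hc
    rw [Sylow.coe_mapSurjective, (key S).2] at hn
    obtain ⟨c, hc, rfl⟩ := hc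
    obtain ⟨n, hn, rfl⟩ := hn
    rw [pPrimeCore_quotient_pPrimeCore, mem_bot] at hx
    refine ⟨g * (c * n)⁻¹, ?_, c, hc, n, hn, by group⟩
    rw [← QuotientGroup.ker_mk' (pPrimeCore p G), MonoidHom.mem_ker, map_mul, map_inv]
    change π g * (π (c * n))⁻¹ = 1
    rw [h1, hx, one_mul, map_mul, mul_inv_cancel]

end Cfsg.Agent.S0609
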