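import Mathlib
import Cfsg.Statements.S0612
import Cfsg.Agent.Loc.FFStruct

set_option autoImplicit false
open Cfsg

namespace Cfsg.Agent.S0612

section
open Subgroup Cfsg.Agent.Loc.Am Cfsg.Agent.Loc.FF Cfsg.Agent.GT
theorem exists_indep {G : Type*} [Group G] [Finite G] {p : ℕ} [hp : Fact p.Prime] {A : Subgroup G}
    (hA : IsMulCommutative A) (S : Set (Subgroup G)) (hS : ∀ B ∈ S, B ≤ A ∧ Nat.card B = p) :
    ∃ T ⊆ S, sSupIndep T ∧ sSup T = sSup S := by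
  obtain ⟨T, ⟨hT1, hT2⟩, hmin⟩ := (Set.toFinite {T : Set (Subgroup G) | T ⊆ S ∧ sSup T = sSup S}).exists_minimal
    ⟨S, subset_rfl, rfl⟩
  refine ⟨T, hT1, fun B hB => ?_, hT2⟩
  rw [disjoint_iff]
  rcases PG.eq_or_eq_of_relIndex_prime hp.out bot_le (inf_le_left : B ⊓ sSup (T \ {B}) ≤ B)
    (by rw [relIndex_bot_left, (hS B (hT1 hB)).2]) with e | e
  · exact e
  · exfalso
    have h1 : sSup (T \ {B}) = sSup S := by
      refine le_antisymm (sSup_le_sSup (Set.sdiff_subset.trans hT1)) (hT2 ▸ sSup_le fun C hC => ?_)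
      by_cases hCB : C = B
      · exact hCB ▸ e.ge.trans inf_le_right
      · exact le_sSup ⟨hC, hCB⟩
    exact (hmin ⟨Set.sdiff_subset.trans hT1, h1⟩ Set.sdiff_subset hB).2 rfl

end

/-- In such a faithful group every nontrivial best offender decomposes as a direct product of minimal nontrivially-acting best offenders. -/
theorem result {G : Type*} [Group G] [Finite G] {p : ℕ} [Fact p.Prime] (V H : Subgroup G) (hV : Cfsg.IsElementaryAbelian p V) (hHV : H ≤ Subgroup.normalizer (V : Set G)) (hf : H ⊓ Subgroup.centralizer (V : Set G) = ⊥) (hS1 : Subgroup.centralizer (Cfsg.pPrimeCore p ↥H : Set ↥H) ≤ Cfsg.pPrimeCore p ↥H) (hS3 : H = ⨆ A : {A : Subgroup G // A ≤ H ∧ Cfsg.IsBestOffenderOn p V A}, (A : Subgroup G)) (hH1 : H ≠ ⊥) (A : Subgroup G) (hAH : A ≤ H) (hA : Cfsg.IsBestOffenderOn p V A) (hA1 : A ≠ ⊥) : ∃ (k : ℕ) (B : Fin k → Subgroup G), (∀ i, B i ≤ A ∧ Cfsg.IsBestOffenderOn p V (B i) ∧ ⁅V, B i⁆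 ≠ ⊥ ∧ ∀ C : Subgroup G, C ≤ B i → Cfsg.IsBestOffenderOn p V C → ⁅V, C⁆ ≠ ⊥ → C = B i) ∧ iSupIndep B ∧ ⨆ i, B i = A := by
  open Subgroup Cfsg.Agent.Loc.Am Cfsg.Agent.Loc.FF Cfsg.Agent.GT in
  have h := of_statement hV hHV hf hS1
  obtain ⟨T, hT, hi, hs⟩ := exists_indep (p := p) (h.isElementaryAbelian hAH hA).1
    {B | ∃ a ∈ A, IsTv p V a ∧ B = zpowers a} (by
      rintro _ ⟨a, ha, hta, rfl⟩
      exact ⟨by simpa using ha, hta.card_zpowers⟩)
  have := Fintype.ofFinite T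
  let e := (Fintype.equivFin T).symm
  refine ⟨_, fun i => e i, fun i => ?_, ((sSupIndep_iff T).mp hi).comp e.injective, ?_⟩
  · obtain ⟨a, ha, hta, k⟩ := hT (e i).2
    simp only [k]
    exact ⟨by simpa using ha, hta.minOff hV (hHV (hAH ha))⟩
  · rw [e.iSup_comp (g := fun B : T => (B : Subgroup G)), ← sSup_eq_iSup', hs]
    refine le_antisymm (sSup_le ?_) (h.le_of_isTv hAH hA fun a ha hta => ?_)
    · rintro _ ⟨a, ha, -, rfl⟩
      simpa using ha
    · exact le_sSup (s := {B | ∃ a ∈ A, IsTv p V a ∧ B = zpowers a}) ⟨a, ha, hta, rfl⟩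
        (mem_zpowers a)

end Cfsg.Agent.S0612
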