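import Mathlib
import Cfsg.Statements.S0614
import Cfsg.Agent.Loc.FFStruct

set_option autoImplicit false
open Cfsg

namespace Cfsg.Agent.S0614

section
open Subgroup Cfsg.Agent.Loc.Am Cfsg.Agent.Loc.FF Cfsg.Agent.GT
theorem not_comm {X : Type*} [Group X] (e : X ≃* Matrix.SpecialLinearGroup (Fin 2) (ZMod 3))
    (N : Subgroup X) [N.Normal] (hi : N.index = 3) : ¬ IsMulCommutative N := by
  intro hc
  let i : Matrix.SpecialLinearGroup (Fin 2) (ZMod 3) := ⟨!![0, 1; -1, 0], by decide⟩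
  let j : Matrix.SpecialLinearGroup (Fin 2) (ZMod 3) := ⟨!![1, 1; 1, -1], by decide⟩
  have h1 := N.pow_index_mem (e.symm i)
  have h2 := N.pow_index_mem (e.symm j)
  rw [hi] at h1 h2
  have h3 := congrArg (fun z : N => e z) (hc.is_comm.comm ⟨_, h1⟩ ⟨_, h2⟩)
  simp only [Subgroup.coe_mul, map_mul, map_pow, MulEquiv.apply_symm_apply] at h3
  revert h3
  decide

end

/-- The commutator of the p'-core with a minimal nontrivially-acting best offender is a 3-group (when p = 2) or a non-abelian 2-group (when p = 3). -/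
theorem result {G : Type*} [Group G] [Finite G] {p : ℕ} [Fact p.Prime] (V H : Subgroup G) (hV : Cfsg.IsElementaryAbelian p V) (hHV : H ≤ Subgroup.normalizer (V : Set G)) (hf : H ⊓ Subgroup.centralizer (V : Set G) = ⊥) (hS1 : Subgroup.centralizer (Cfsg.pPrimeCore p ↥H : Set ↥H) ≤ Cfsg.pPrimeCore p ↥H) (hS3 : H = ⨆ A : {A : Subgroup G // A ≤ H ∧ Cfsg.IsBestOffenderOn p V A}, (A : Subgroup G)) (hH1 : H ≠ ⊥) (A : Subgroup G) (hAH : A ≤ H) (hA : Cfsg.IsBestOffenderOn p V A) (hAV : ⁅V, A⁆ ≠ ⊥) (hmin : ∀ B : Subgroup G, B ≤ A → Cfsg.IsBestOffenderOn p V B → ⁅V, B⁆ ≠ ⊥ → B = A) : (p = 2 ∧ IsPGroup 3 ↥(⁅((Cfsg.pPrimeCore p ↥H).map H.subtype), A⁆)) ∨ (p = 3 ∧ IsPGroup 2 ↥(⁅((Cfsg.pPrimeCore p ↥H).map H.subtype), A⁆) ∧ ¬ IsMulCommutative ↥(⁅((Cfsg.pPrimeCore p ↥H).map H.subtype), A⁆)) := by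
  open Subgroup Cfsg.Agent.Loc.Am Cfsg.Agent.Loc.FF Cfsg.Agent.GT in
  have h := of_statement hV hHV hf hS1
  obtain ⟨a, hta, rfl⟩ := h.isTv_of_minOff hAH ⟨hA, hAV, hmin⟩
  have ha : a ∈ H := by simpa using hAH
  have d := h.tvData ha hta
  obtain ⟨q, hq, q2, q3, hpq⟩ := FF0.exists_prime_of d.h23
  have := Fact.mk hq
  have hQ := h.isPGroup_commutator ha hta hpq
  rcases d.h23 with e | e
  · exact Or.inl ⟨e, q2 e ▸ hQ⟩
  · refine Or.inr ⟨e, q3 e ▸ hQ, fun hc => ?_⟩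
    subst e
    obtain ⟨e⟩ := d.sl2
    have hn : ((tvQ 3 H a).subgroupOf (tvE 3 H a)).Normal :=
      (normal_subgroupOf_iff_le_normalizer le_sup_left).mpr
        (sup_le le_normalizer (le_normalizer_commutator_right _ _))
    refine not_comm e ((tvQ 3 H a).subgroupOf (tvE 3 H a)) ?_ ?_
    · have c := PG.relIndex_mul_card (le_sup_left : tvQ 3 H a ≤ tvE 3 H a)
      rw [d.cardQ, Nat.card_congr e.toEquiv, card_sl2_zmod] at c
      exact Nat.eq_of_mul_eq_mul_right (by norm_num) c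
    · have : IsMulCommutative (tvQ 3 H a) := hc
      infer_instance

end Cfsg.Agent.S0614
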