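import Mathlib
import Cfsg.Statements.S0617
import Cfsg.Agent.Loc.FFStruct

set_option autoImplicit false
open Cfsg

namespace Cfsg.Agent.S0617

/-- Structure Theorem for failure of factorization: a faithful group generated by best offenders, with self-centralizing p'-core, is a direct product of copies of SL(2, p) (p = 2 or 3), each acting on its own plane in V, which is the direct product of these planes and C_V(H). -/
theorem result {G : Type*} [Group G] [Finite G] {p : ℕ} [Fact p.Prime] (V H : Subgroup G) (hV : Cfsg.IsElementaryAbelian p V) (hHV : H ≤ Subgroup.normalizer (V : Set G)) (hf : H ⊓ Subgroup.centralizer (V : Set G) = ⊥) (hS1 : Subgroup.centralizer (Cfsg.pPrimeCore p ↥H : Set ↥H) ≤ Cfsg.pPrimeCore p ↥H) (hS3 : H = ⨆ A : {A : Subgroup G // A ≤ H ∧ Cfsg.IsBestOffenderOn p V A}, (A : Subgroup G)) (hH1 : H ≠ ⊥) : (p = 2 ∨ p = 3) ∧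 (∀ E : {E : Subgroup G // ∃ A : Subgroup G, A ≤ H ∧ Cfsg.IsBestOffenderOn p V A ∧ ⁅V, A⁆ ≠ ⊥ ∧ (∀ B : Subgroup G, B ≤ A → Cfsg.IsBestOffenderOn p V B → ⁅V, B⁆ ≠ ⊥ → B = A) ∧ E = ⁅((Cfsg.pPrimeCore p ↥H).map H.subtype), A⁆ ⊔ A}, H ≤ Subgroup.normalizer ((E : Subgroup G) : Set G) ∧ Nonempty (↥(E : Subgroup G) ≃* Matrix.SpecialLinearGroup (Fin 2) (ZMod p)) ∧ Nat.card ↥(⁅V, (E : Subgroup G)⁆) = p ^ 2) ∧ iSupIndep (fun E : {E : Subgroup G // ∃ A : Subgroup G, A ≤ H ∧ Cfsg.IsBestOffenderOn p V A ∧ ⁅V, A⁆ ≠ ⊥ ∧ (∀ B : Subgroup G, B ≤ A → Cfsg.IsBestOffenderOn p V B → ⁅V, B⁆ ≠ ⊥ → B = A) ∧ E = ⁅((Cfsg.pPrimeCore p ↥H).map H.subtype), A⁆ ⊔ A} => (E : Subgroup G)) ∧ (⨆ E : {E : Subgroup G // ∃ A : Subgroup G, A ≤ H ∧ Cfsg.IsBestOffenderOn p V A ∧ ⁅V, A⁆ ≠ ⊥ ∧ (∀ B : Subgroup G, B ≤ A → Cfsg.IsBestOffenderOn p V B → ⁅V, B⁆ ≠ ⊥ → B = A) ∧ E = ⁅((Cfsg.pPrimeCore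 p ↥H).map H.subtype), A⁆ ⊔ A}, (E : Subgroup G)) = H ∧ iSupIndep (fun o : Option {E : Subgroup G // ∃ A : Subgroup G, A ≤ H ∧ Cfsg.IsBestOffenderOn p V A ∧ ⁅V, A⁆ ≠ ⊥ ∧ (∀ B : Subgroup G, B ≤ A → Cfsg.IsBestOffenderOn p V B → ⁅V, B⁆ ≠ ⊥ → B = A) ∧ E = ⁅((Cfsg.pPrimeCore p ↥H).map H.subtype), A⁆ ⊔ A} => o.elim (V ⊓ Subgroup.centralizer (H : Set G)) (fun E => ⁅V, (E : Subgroup G)⁆)) ∧ (V ⊓ Subgroup.centralizer (H : Set G)) ⊔ (⨆ E : {E : Subgroup G // ∃ A : Subgroup G, A ≤ H ∧ Cfsg.IsBestOffenderOn p V A ∧ ⁅V, A⁆ ≠ ⊥ ∧ (∀ B : Subgroup G, B ≤ A → Cfsg.IsBestOffenderOn p V B → ⁅V, B⁆ ≠ ⊥ → B = A) ∧ E = ⁅((Cfsg.pPrimeCore p ↥H).map H.subtype), A⁆ ⊔ A}, ⁅V, (E : Subgroup G)⁆) = V := by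
  open Subgroup Cfsg.Agent.Loc.Am Cfsg.Agent.Loc.FF Cfsg.Agent.GT in
  have h := (of_statement hV hHV hf hS1).ff1' hS3
  have key : ∀ E : {E : Subgroup G // ∃ A : Subgroup G, A ≤ H ∧ Cfsg.IsBestOffenderOn p V A ∧ ⁅V, A⁆ ≠ ⊥ ∧ (∀ B : Subgroup G, B ≤ A → Cfsg.IsBestOffenderOn p V B → ⁅V, B⁆ ≠ ⊥ → B = A) ∧ E = ⁅((Cfsg.pPrimeCore p ↥H).map H.subtype), A⁆ ⊔ A}, ∃ a ∈ H, IsTv p V a ∧ E.1 = tvE p H a := by
    rintro ⟨E, A, h1, h2, h3, h4, h5⟩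
    obtain ⟨a, hta, rfl⟩ := h.toFF0.isTv_of_minOff h1 ⟨h2, h3, h4⟩
    exact ⟨a, by simpa using h1, hta, h5⟩
  have key' : ∀ a ∈ H, IsTv p V a → ∃ A : Subgroup G, A ≤ H ∧ Cfsg.IsBestOffenderOn p V A ∧ ⁅V, A⁆ ≠ ⊥ ∧ (∀ B : Subgroup G, B ≤ A → Cfsg.IsBestOffenderOn p V B → ⁅V, B⁆ ≠ ⊥ → B = A) ∧ tvE p H a = ⁅((Cfsg.pPrimeCore p ↥H).map H.subtype), A⁆ ⊔ A := fun a ha hta =>
    ⟨zpowers a, by simpa using ha, (hta.minOff hV (hHV ha)).1, (hta.minOff hV (hHV ha)).2.1,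
      (hta.minOff hV (hHV ha)).2.2, rfl⟩
  obtain ⟨a, ha, hta⟩ := h.exists_isTv hH1
  refine ⟨(h.toFF0.tvData ha hta).h23, fun E => ?_, fun E => ?_, ?_, fun o => ?_, ?_⟩
  · obtain ⟨b, hb, htb, e⟩ := key E
    rw [e]
    exact ⟨h.le_normalizer_tvE hb htb, (h.toFF0.tvData hb htb).sl2, (h.toFF0.tvData hb htb).cardW⟩
  · obtain ⟨b, hb, htb, e⟩ := key E
    refine Disjoint.mono_right (iSup₂_le fun F hF => ?_)
      (disjoint_iff.mpr (e ▸ h.tvE_inf_eq_bot hb htb))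
    obtain ⟨c, hc, htc, e'⟩ := key F
    exact e'.le.trans <| le_inf (tvE_le hc) (h.cases_of_ne hb htb hc htc fun k =>
      hF (Subtype.ext (e'.trans (k.symm.trans e.symm)))).1
  · refine le_antisymm (iSup_le fun E => ?_) (h.gen _ fun b hb htb => ?_)
    · obtain ⟨b, hb, htb, e⟩ := key E
      exact e ▸ tvE_le hb
    · exact (le_iSup_of_le ⟨_, key' b hb htb⟩ le_rfl : tvE p H b ≤ _)
        (mem_sup_right (mem_zpowers b))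
  · rcases o with _ | E
    · refine Disjoint.mono_right (iSup₂_le fun F hF => ?_)
        (disjoint_iff.mpr h.commutator_inf_centralizer).symm
      rcases F with _ | F
      · exact absurd rfl hF
      obtain ⟨c, hc, htc, e'⟩ := key F
      exact commutator_mono le_rfl (e' ▸ tvE_le hc)
    · obtain ⟨b, hb, htb, e⟩ := key E
      have k := disjoint_iff.mpr (h.toFF0.tvW_inf hb htb)
      rw [tvW, ← e] at k
      refine Disjoint.mono_right (iSup₂_le fun F hF => ?_) k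
      rcases F with _ | F
      · exact inf_le_inf_left _ (GT.centralizer_anti (e ▸ tvE_le hb))
      obtain ⟨c, hc, htc, e'⟩ := key F
      simp only [Option.elim, e, e']
      exact h.tvW_le_centralizer_of_ne hb htb hc htc fun k =>
        hF (congrArg some (Subtype.ext (e'.trans (k.symm.trans e.symm))))
  · have hle : ∀ E : {E : Subgroup G // ∃ A : Subgroup G, A ≤ H ∧ Cfsg.IsBestOffenderOn p V A ∧ ⁅V, A⁆ ≠ ⊥ ∧ (∀ B : Subgroup G, B ≤ A → Cfsg.IsBestOffenderOn p V B → ⁅V, B⁆ ≠ ⊥ → B = A) ∧ E = ⁅((Cfsg.pPrimeCore p ↥H).map H.subtype), A⁆ ⊔ A}, ⁅V, E.1⁆ ≤ V := fun E => by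
      obtain ⟨b, hb, htb, e⟩ := key E
      exact e ▸ h.toFF0.tvW_le hb
    refine le_antisymm (sup_le inf_le_left (iSup_le hle)) (h.commutator_sup_centralizer.ge.trans
      (sup_le (le_sup_of_le_right ?_) le_sup_left))
    exact h.commutator_le_of_forall (iSup_le hle) fun b hb htb =>
      le_iSup_of_le ⟨_, key' b hb htb⟩ le_rfl

end Cfsg.Agent.S0617
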