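import Mathlib
import Cfsg.Statements.S0619
import Cfsg.Agent.Loc.FFSep

set_option autoImplicit false
open Cfsg

namespace Cfsg.Agent.S0619

/-- For a p-separable group and a normal elementary abelian p-subgroup V with no nontrivial normal p-subgroup modulo its centralizer C, the Thompson subgroup J(G) moves Ω₁(Z(J(C))) only inside V. -/
theorem result {G : Type*} [Group G] [Finite G] {p : ℕ} [Fact p.Prime] (hsep : Cfsg.IsPSolvable p G) (V : Subgroup G) [V.Normal] (hV : Cfsg.IsElementaryAbelian p V) (hO : Cfsg.pCore p (G ⧸ Subgroup.centralizer (V : Set G)) = ⊥) : ⁅Cfsg.omegaOne p (Cfsg.centerThompsonOf p (Subgroup.centralizer (V : Set G))), Cfsg.thompsonSubgroup p G⁆ ≤ V := by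
  open Subgroup Cfsg.Agent.Loc.Am Cfsg.Agent.Loc.FF Cfsg.Agent.GT in
  have h : RF p V (thJ p ⊤) := rf_thJ hV le_top le_normalizer_of_normal
    (hsep.subgroup _) fun D _ hn _ hpow => by
      have : D.Normal := normalizer_eq_top_iff.mp (top_le_iff.mp hn)
      refine (le_thOp hpow).trans fun x hx => ?_
      rw [mem_thOp_iff, hO] at hx
      exact (QuotientGroup.eq_one_iff x).mp hx
  rw [thompsonSubgroup_eq, centerThompsonOf_eq]
  refine commutator_le_of_le_cm (thJ_le_iff.mpr fun A hA => le_cm le_normalizer_of_normal ?_)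
  have h1 := h.sup_mem_abFam hA (le_thJ hA) le_top
  have h2 := omegaOne_thZ_le_of_mem (mem_abFam_of_le h1
    (sup_le (le_centralizer_iff_isMulCommutative.mpr hV.1) inf_le_right) le_top)
  exact (commutator_mono h2 le_rfl).trans ((CopAct.commutator_le_of_le_sup_centralizer le_rfl
    (inf_le_left.trans (le_centralizer_iff_isMulCommutative.mpr (abFam_comm hA)))
    le_normalizer_of_normal).trans (commutator_le_left _ _))

end Cfsg.Agent.S0619
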