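import Mathlib
import Cfsg.Statements.S0620
import Cfsg.Agent.Loc.FFSep

set_option autoImplicit false
open Cfsg

namespace Cfsg.Agent.S0620

/-- Under coprime action of an elementary abelian q-group X on a p-separable group K with trivial p'-core, K is generated by the normalizer of J(S), the centralizer of Ω₁(Z(S)) and the fixed points of X. -/
theorem result {G : Type*} [Group G] [Finite G] {p : ℕ} [Fact p.Prime] {q : ℕ} [Fact q.Prime] (K X : Subgroup G) (hXK : X ≤ Subgroup.normalizer (K : Set G)) (hX : Cfsg.IsElementaryAbelian q X) (hq : ¬ q ∣ Nat.card K) (hsep : Cfsg.IsPSolvable p ↥K) (hO : Cfsg.pPrimeCore p ↥K = ⊥) (S : Sylow p ↥K) : (Subgroup.normalizer (Cfsg.thompsonSubgroupOf p (S : Subgroup ↥K) : Set ↥K) ⊔ Subgroup.centralizer (Cfsg.omegaOne p ((S : Subgroup ↥K) ⊓ Subgroup.centralizer ((S : Subgroup ↥K) : Set ↥K)) : Set ↥K) ⊔ (Subgroup.centralizer (X : Set G)).subgroupOf K) = ⊤ := by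
  open Subgroup Cfsg.Agent.Loc.Am Cfsg.Agent.Loc.FF Cfsg.Agent.GT in
  have h := rf_scc hsep hO
  have hS := isSylowOf_map_subtype S
  set T := (S : Subgroup K).map K.subtype with hT
  set V := sylowCenterClosure p K with hV
  have hKV : K ≤ normalizer (V : Set G) := le_normalizer_scc p K
  have hKC : K ≤ normalizer (centralizer (V : Set G) : Set G) := le_normalizer_centralizer hKV
  set Y := (normalizer (thompsonSubgroupOf p (S : Subgroup K) : Set K) ⊔ centralizer (omegaOne p ((S : Subgroup K) ⊓ centralizer ((S : Subgroup K) : Set K)) : Set K) ⊔ (centralizer (X : Set G)).subgroupOf K) with hY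
  have y1 : K ⊓ normalizer (thJ p T : Set G) ≤ Y.map K.subtype := fun g hg =>
    ⟨⟨g, hg.1⟩, mem_sup_left (mem_sup_left (by
      rw [thompsonSubgroupOf_eq, ← subgroupOf_map_subtype_self K (thJ p (S : Subgroup K)),
        ← thJ_map_of_injective _ K.subtype_injective,
        ← subgroupOf_normalizer_eq ((thJ_le p _).trans hS.le)]
      exact hg.2)), rfl⟩
  have y2 : K ⊓ centralizer (V : Set G) ≤ Y.map K.subtype := fun g hg =>
    ⟨⟨g, hg.1⟩, mem_sup_left (mem_sup_right fun z hz => Subtype.ext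
      (hg.2 z (hS.omZ_le_scc (map_omZ_subtype (S : Subgroup K) ▸ ⟨z, hz, rfl⟩)))), rfl⟩
  have y3 : K ⊓ centralizer (X : Set G) ≤ Y.map K.subtype := fun g hg =>
    ⟨⟨g, hg.1⟩, mem_sup_right hg.2, rfl⟩
  have hJ : thJ p K ≤ K := thJ_le p K
  have hN : K ≤ normalizer ((thJ p K ⊔ K ⊓ centralizer (V : Set G) : Subgroup G) : Set G) :=
    le_normalizer_sup (le_normalizer_thJ p K) (le_normalizer_inf le_normalizer hKC)
  have hS0 := hS.inf_of_normal (sup_le hJ inf_le_left) hN
  have hb := isSylowOf_bar hS0 ((sup_le hJ inf_le_left).trans hKV)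
  rw [bar_sup (hJ.trans hKV) (inf_le_left.trans hKV),
    (bar_eq_bot_iff (inf_le_left.trans hKV)).mpr inf_le_right, sup_bot_eq] at hb
  have hTY : T ≤ Y.map K.subtype := (le_inf hS.le (le_normalizer_thJ p T)).trans y1
  have k1 := h.le_of_fixed hb (inf_le_left.trans (hS.le.trans hKV)) (inf_le_left.trans hTY)
    ((inf_le_inf_right _ hJ).trans y3) hX.isPGroup hX.1
    (fun hc => hq (hc.trans (card_dvd_of_le hJ))) (hXK.trans (normalizer_le_normalizer_thJ p K))
    (hXK.trans (normalizer_le_normalizer_scc p K))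
  have k2 : thJ p K ≤ Y.map K.subtype := fun j hj => by
    obtain ⟨y, hy, c, hc, rfl⟩ := (mem_sup_of_normalizes ((map_subtype_le Y).trans hKC)).mp (k1 hj)
    exact mul_mem hy (y2 ⟨(K.mul_mem_cancel_left (map_subtype_le Y hy)).mp (hJ hj), hc⟩)
  have k3 : thJ p T ≤ thJ p K := by
    obtain ⟨A, hA⟩ := abFam_nonempty p K
    obtain ⟨g, hg, h1⟩ := hS.exists_cj_le (IsElementaryAbelian.isPGroup ⟨abFam_comm hA, abFam_pow hA⟩)
      (abFam_le hA)
    exact thJ_le_thJ_of_mem (map_conj_mem_abFam (le_normalizer hg) hA) h1 hS.le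
  refine eq_top_iff.mpr fun g _ => ?_
  obtain ⟨n, hn, h1⟩ := hS0.frattini (hN g.2)
  have h2 := normalizer_le_normalizer_thJ p _ h1
  rw [thJ_eq_of_le (le_inf (thJ_le p T) (k3.trans le_sup_left)) inf_le_left] at h2
  have h3 := mul_mem (sup_le k2 y2 hn) (y1 (mem_inf.mpr
    ⟨mul_mem (inv_mem (sup_le hJ inf_le_left hn)) g.2, h2⟩))
  rw [mul_inv_cancel_left] at h3
  obtain ⟨y, hy, e⟩ := h3
  exact Subtype.ext e ▸ hy

end Cfsg.Agent.S0620
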