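import Mathlib
import Cfsg.Statements.S0632
import Cfsg.Agent.GT.PStable
-- import your own Cfsg.Agent.* helpers here

set_option autoImplicit false
open Cfsg

namespace Cfsg.Agent.S0632

open Subgroup

variable {G : Type*} [Group G] [Finite G] {G' : Type*} [Group G'] {p : ℕ} [Fact p.Prime]

theorem key {f : G →* G'} (hf : Function.Surjective f) (hk : (Nat.card f.ker).Coprime p)
    {P : Subgroup G} (hP : IsPGroup p P) {A : Subgroup G} (hA : A ≤ normalizer (P : Set G)) :
    (A.subgroupOf (normalizer (P : Set G))).map (QuotientGroup.mk'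
      ((centralizer (P : Set G)).subgroupOf (normalizer (P : Set G)))) ≤ pCore p _ ↔
    ((A.map f).subgroupOf (normalizer ((P.map f : Subgroup G') : Set G'))).map (QuotientGroup.mk'
      ((centralizer ((P.map f : Subgroup G') : Set G')).subgroupOf
        (normalizer ((P.map f : Subgroup G') : Set G')))) ≤ pCore p _ := by
  have hN := GT.map_normalizer_of_coprime_ker hf hk hP
  let g : normalizer (P : Set G) →* normalizer ((P.map f : Subgroup G') : Set G') :=
    (f.comp (normalizer (P : Set G)).subtype).codRestrict _ fun x => hN ▸ ⟨x, x.2, rfl⟩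
  have hg : Function.Surjective g := by
    rintro ⟨y, hy⟩
    rw [← hN] at hy
    obtain ⟨x, hx, rfl⟩ := hy
    exact ⟨⟨x, hx⟩, rfl⟩
  have hker : ((QuotientGroup.mk' ((centralizer ((P.map f : Subgroup G') : Set G')).subgroupOf
      (normalizer ((P.map f : Subgroup G') : Set G')))).comp g).ker =
      (centralizer (P : Set G)).subgroupOf (normalizer (P : Set G)) := by
    ext x
    rw [MonoidHom.mem_ker, MonoidHom.comp_apply, QuotientGroup.mk'_apply,
      QuotientGroup.eq_one_iff, mem_subgroupOf, mem_subgroupOf, mem_centralizer_iff,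
      mem_centralizer_iff]
    constructor
    · intro h y hy
      have h1 : f y * f x = f x * f y := h _ ⟨y, hy, rfl⟩
      have h2 : (x : G) * y * (x : G)⁻¹ * y⁻¹ ∈ P ⊓ f.ker := by
        refine ⟨P.mul_mem ((mem_normalizer_iff.1 x.2 y).1 hy) (P.inv_mem hy), ?_⟩
        change f _ = 1
        simp only [map_mul, map_inv, ← h1]
        group
      rw [GT.CopAct.inf_eq_bot_of_coprime (GT.coprime_card_of_isPGroup Fact.out hP hk), mem_bot,
        mul_inv_eq_one, mul_inv_eq_iff_eq_mul] at h2
      exact h2.symm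
    · rintro h _ ⟨y, hy, rfl⟩
      change f y * f x = f x * f y
      rw [← map_mul, ← map_mul, h y hy]
  have h1 := GT.comap_pCore_eq_piCoreMod (p := p) (f := (QuotientGroup.mk'
    ((centralizer ((P.map f : Subgroup G') : Set G')).subgroupOf
      (normalizer ((P.map f : Subgroup G') : Set G')))).comp g)
    ((QuotientGroup.mk'_surjective _).comp hg) _ hker
  have h2 := GT.comap_pCore_eq_piCoreMod (p := p) (QuotientGroup.mk'_surjective
    ((centralizer (P : Set G)).subgroupOf (normalizer (P : Set G)))) _ (QuotientGroup.ker_mk' _)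
  have h3 : (A.map f).subgroupOf (normalizer ((P.map f : Subgroup G') : Set G')) =
      (A.subgroupOf (normalizer (P : Set G))).map g := by
    ext ⟨y, hy⟩
    constructor
    · rintro ⟨x, hx, rfl⟩
      exact ⟨⟨x, hA hx⟩, hx, rfl⟩
    · rintro ⟨x, hx, h⟩
      exact ⟨x, hx, congrArg Subtype.val h⟩
  rw [h3, Subgroup.map_map, map_le_iff_le_comap, map_le_iff_le_comap, h2]
  exact h1 ▸ Iff.rfl


/-- For a group with a nontrivial normal p-subgroup, p-stability passes to and from the quotient by the largest normal subgroup of order prime to p. -/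
theorem result {G : Type*} [Group G] [Finite G] {p : ℕ} [Fact p.Prime] (hO : Cfsg.pCore p G ≠ ⊥) : Cfsg.IsPStable p G ↔ Cfsg.IsPStable p (G ⧸ Cfsg.pPrimeCore p G) := by
  have hf := QuotientGroup.mk'_surjective (pPrimeCore p G)
  have hk := GT.coprime_card_ker_mk'_pPrimeCore (p := p) (G := G)
  have hO' : pPrimeCore p (G ⧸ pPrimeCore p G) = ⊥ := GT.pPrimeCore_quotient_pPrimeCore
  have hle : ∀ {A P : Subgroup G}, (∀ a ∈ A, ∀ x ∈ P, a * x * a⁻¹ ∈ P) →
      A ≤ normalizer (P : Set G) := fun h a ha => mem_normalizer_fintype (h a ha)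
  constructor
  · rintro ⟨h1, -, h3⟩
    refine ⟨h1, fun h => hO ?_, fun A P hA hP hAP hPle hn hq => ?_⟩
    · have := GT.map_pCore_le (p := p) hf
      rw [h, le_bot_iff, Subgroup.map_eq_bot_iff, QuotientGroup.ker_mk'] at this
      rw [← le_bot_iff, ← GT.pCore_inf_pPrimeCore (p := p)]
      exact le_inf le_rfl this
    · rw [hO', bot_sup_eq] at hn
      obtain ⟨T, hT, hTm⟩ := GT.exists_isPGroup_map_eq (QuotientGroup.mk' (pPrimeCore p G))
        (IsPGroup.to_sup_of_normal_right hA hP) (by rw [MonoidHom.range_eq_top.2 hf]; simp)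
      have hmap : ∀ B, B ≤ A ⊔ P → (T ⊓ B.comap (QuotientGroup.mk' (pPrimeCore p G))).map
          (QuotientGroup.mk' (pPrimeCore p G)) = B := by
        intro B hB
        refine le_antisymm (map_le_iff_le_comap.2 inf_le_right) fun y hy => ?_
        obtain ⟨x, hx, rfl⟩ : y ∈ T.map (QuotientGroup.mk' (pPrimeCore p G)) := hTm ▸ hB hy
        exact ⟨x, ⟨hx, hy⟩, rfl⟩
      have hPn : (P.comap (QuotientGroup.mk' (pPrimeCore p G))).Normal := hn.comap _
      have hAP' : ∀ a ∈ T ⊓ A.comap (QuotientGroup.mk' (pPrimeCore p G)),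
          ∀ x ∈ T ⊓ P.comap (QuotientGroup.mk' (pPrimeCore p G)),
          a * x * a⁻¹ ∈ T ⊓ P.comap (QuotientGroup.mk' (pPrimeCore p G)) := fun a ha x hx =>
        ⟨T.mul_mem (T.mul_mem ha.1 hx.1) (T.inv_mem ha.1), hPn.conj_mem x hx.2 a⟩
      have hsup : pPrimeCore p G ⊔ T ⊓ P.comap (QuotientGroup.mk' (pPrimeCore p G)) =
          P.comap (QuotientGroup.mk' (pPrimeCore p G)) := by
        conv_rhs => rw [← hmap P le_sup_right, comap_map_eq, QuotientGroup.ker_mk', sup_comm]
      have := (key hf hk (hT.to_le inf_le_left) (hle hAP')).1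
        (h3 _ _ (hT.to_le inf_le_left) (hT.to_le inf_le_left) hAP'
          (inf_le_right.trans (comap_mono (GT.le_pCore hP))) (hsup.symm ▸ hPn) (by
            rw [← le_bot_iff, ← GT.pPrimeCore_inf_eq_bot (p := p) hT]
            refine le_inf ?_ ?_
            · refine le_trans ?_ (QuotientGroup.ker_mk' (pPrimeCore p G)).le
              rw [← Subgroup.map_eq_bot_iff, map_commutator, map_commutator, hmap P le_sup_right,
                hmap A le_sup_left, hq]
            · exact (commutator_mono ((commutator_mono inf_le_left inf_le_left).trans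
                (commutator_le_self T)) inf_le_left).trans (commutator_le_self T)))
      rwa [hmap P le_sup_right, hmap A le_sup_left] at this
  · rintro ⟨h1, -, h3⟩
    refine ⟨h1, hO, fun A P hA hP hAP hPle hn hq => (key hf hk hP (hle hAP)).2 ?_⟩
    refine h3 _ _ (hA.map _) (hP.map _) ?_ ?_ ?_ ?_
    · rintro _ ⟨a, ha, rfl⟩ _ ⟨x, hx, rfl⟩
      exact ⟨_, hAP a ha x hx, by simp only [map_mul, map_inv]⟩
    · exact (map_le_iff_le_comap.2 hPle).trans GT.pCore_le_pPrimePCore
    · have := hn.map _ hf
      rwa [Subgroup.map_sup, (Subgroup.map_eq_bot_iff _).2 (QuotientGroup.ker_mk' _).ge,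
        ← hO'] at this
    · rw [← map_commutator, ← map_commutator, hq, Subgroup.map_bot]

end Cfsg.Agent.S0632
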