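import Mathlib
import Cfsg.Statements.S0633
import Cfsg.Agent.GT.HallHigmanB
import Cfsg.Agent.GT.PGroupBasic
-- import your own Cfsg.Agent.* helpers here

set_option autoImplicit false
open Cfsg

namespace Cfsg.Agent.S0633

/-- Theorem B of Hall and Higman on the minimal polynomial of a p-element of order p^n in a p-solvable linear group on a nonzero vector space in characteristic p with no nontrivial normal p-subgroup: its degree is p^n, except when some p^n₀ - 1 (n₀ ≤ n) is a power of a prime q for which the Sylow q-subgroups are non-abelian, in which case the degree is at least p^(n-n₀)(p^n₀ - 1). -/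
theorem result {F : Type*} [Field F] {p : ℕ} [Fact p.Prime] [CharP F p] {V : Type*} [AddCommGroup V] [Module F V] [FiniteDimensional F V] [Nontrivial V] (H : Subgroup (V ≃ₗ[F] V)) [Finite H] (hsol : Cfsg.IsPSolvable p H) (hOp : Cfsg.pCore p H = ⊥) (x : V ≃ₗ[F] V) (hx : x ∈ H) (n : ℕ) (hn : orderOf x = p ^ n) (r : ℕ) (hr : minpoly F (x : Module.End F V) = (Polynomial.X - 1) ^ r) : r = p ^ n ∨ ∃ n₀ q m : ℕ, 1 ≤ n₀ ∧ n₀ ≤ n ∧ q.Prime ∧ 1 ≤ m ∧ p ^ n₀ - 1 = q ^ m ∧ (∀ Q : Sylow q H, ¬ IsMulCommutative Q) ∧ p ^ (n - n₀) * (p ^ n₀ - 1) ≤ r := by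
  have hp : p.Prime := Fact.out
  let ρ : Representation F H V :=
    (LinearEquiv.automorphismGroup.toLinearMapMonoidHom (R := F) (M := V)).comp H.subtype
  have hρ : Function.Injective ρ := fun a b h => Subtype.ext (LinearEquiv.toLinearMap_injective h)
  have hxn : x ^ p ^ n = 1 := hn ▸ pow_orderOf_eq_one x
  have hr0 : (ρ ⟨x, hx⟩ - 1) ^ r = 0 := by
    have := minpoly.aeval F (x : Module.End F V)
    rw [hr, map_pow, map_sub, Polynomial.aeval_X, map_one] at this
    exact this
  have hle : r ≤ p ^ n := by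
    have h1 : minpoly F (x : Module.End F V) ∣ (Polynomial.X - 1) ^ p ^ n := by
      refine minpoly.dvd F _ ?_
      rw [map_pow, map_sub, Polynomial.aeval_X, map_one, GT.sub_one_pow_char_pow (K := F)]
      have : ρ (⟨x, hx⟩ ^ p ^ n) = 1 := by
        rw [show (⟨x, hx⟩ ^ p ^ n : H) = 1 from Subtype.ext hxn, map_one]
      rw [map_pow] at this
      exact sub_eq_zero.2 this
    rw [hr] at h1
    have := Polynomial.natDegree_le_of_dvd h1
      (pow_ne_zero _ (Polynomial.X_sub_C_ne_zero (1 : F)))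
    simpa [Polynomial.natDegree_pow, ← Polynomial.C_1, Polynomial.natDegree_X_sub_C,
      - map_one] using this
  rcases n with _ | n
  · rcases r with _ | r
    · exact absurd hr0 (by simp)
    · left
      simp only [pow_zero] at hle ⊢
      omega
  have ho : orderOf (⟨x, hx⟩ : H) = p ^ (n + 1) := by rw [← hn, Subgroup.orderOf_mk]
  have hy : (⟨x, hx⟩ : H) ^ p ^ n ∉ Subgroup.centralizer (pPrimeCore p H : Set H) := by
    intro h
    have h1 := orderOf_dvd_natCard (⟨_, hsol.centralizer_pPrimeCore_le hOp h⟩ : pPrimeCore p H)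
    rw [Subgroup.orderOf_mk, orderOf_pow_of_dvd (pow_ne_zero _ hp.ne_zero)
      (ho ▸ pow_dvd_pow p n.le_succ), ho, pow_succ, Nat.mul_div_cancel_left _ (pow_pos hp.pos n)]
      at h1
    exact hp.coprime_iff_not_dvd.1 (GT.coprime_card_pPrimeCore p).symm h1
  rcases GT.hallHigmanB ρ hρ (R := pPrimeCore p H) (GT.coprime_card_pPrimeCore p) (x := ⟨x, hx⟩)
    (by rw [Subgroup.normalizer_eq_top]; trivial) (n := n) (Subtype.ext hxn) hy hr0
    with h | ⟨n₀, q, m, h1, h2, hq, h3, h4, ⟨Q, -, hQ, -, h5⟩, h6⟩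
  · exact Or.inl (le_antisymm hle h)
  · refine Or.inr ⟨n₀, q, m, h1, h2, hq, h3, h4, fun S hS => h5 ?_, h6⟩
    have := Fact.mk hq
    obtain ⟨T, hT⟩ := hQ.exists_le_sylow
    refine GT.PG.isMulCommutative_of_le hT (isMulCommutative_iff.2 fun a b => ?_)
    apply (Sylow.equiv T S).injective
    rw [map_mul, map_mul, hS.is_comm.comm]

end Cfsg.Agent.S0633
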