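import Mathlib
import Cfsg.Statements.S0642
import Cfsg.Agent.FG.Regular

set_option autoImplicit false
open Cfsg

namespace Cfsg.Agent.S0642

/-- Among finite 2-groups the regular ones are exactly the abelian ones. -/
theorem result {G : Type*} [Group G] [Finite G] (hG : IsPGroup 2 G) : Cfsg.IsRegularPGroup 2 G ↔ ∀ a b : G, a * b = b * a := by
  constructor
  · intro h a b
    obtain ⟨c, hc, e⟩ := h.weakRegular a b
    set K := Subgroup.closure ({a, b} : Set G) with hK
    have ha : a ∈ K := Subgroup.subset_closure (by simp)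
    have hb : b ∈ K := Subgroup.subset_closure (by simp)
    have hN : K ≤ Subgroup.normalizer (Cfsg.powerClosure 2 1 ⁅K, K⁆ : Set G) :=
      (Subgroup.normalizer_commutator_ge_left K K).trans
        (Cfsg.Agent.GT.PG.normalizer_le_normalizer_powerClosure 1 _)
    have hcomm : a * b * a⁻¹ * b⁻¹ ∈ Cfsg.powerClosure 2 1 ⁅K, K⁆ := by
      have h1 : a * b * a⁻¹ * b⁻¹ = (a * b * b) * c⁻¹ * (a * b * b)⁻¹ := by
        have h2 : c = (a ^ 2 * b ^ 2)⁻¹ * (a * b) ^ 2 := by rw [e]; group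
        rw [h2, sq, sq, sq]; group
      rw [h1]
      exact (Subgroup.mem_normalizer_iff.1 (hN (K.mul_mem (K.mul_mem ha hb) hb)) _).1
        (Subgroup.inv_mem _ hc)
    have hle : ⁅K, K⁆ ≤ Cfsg.powerClosure 2 1 ⁅K, K⁆ :=
      Cfsg.Agent.FG.commutator_closure_pair_le (hN ha) (hN hb) hcomm
    have hbot : ⁅K, K⁆ = ⊥ := by
      by_contra hne
      obtain ⟨M, -, h2, h3, -⟩ := Cfsg.Agent.GT.PG.exists_invariant_relIndex_eq (H := ⊥)
        (hG.to_subgroup ⁅K, K⁆) (hG.to_subgroup _) bot_le bot_le (bot_lt_iff_ne_bot.2 hne)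
      have h4 : ⁅K, K⁆ ≤ M := hle.trans (Cfsg.Agent.GT.PG.powerClosure_one_le_iff.2
        fun x hx => Cfsg.Agent.GT.PG.pow_mem_of_relIndex_prime (hG.to_subgroup _) h2 h3 hx)
      rw [Subgroup.relIndex_eq_one.2 h4] at h3
      exact absurd h3 (by norm_num)
    have := Subgroup.commutator_mem_commutator ha hb
    rwa [hbot, Subgroup.mem_bot, commutatorElement_eq_one_iff_mul_comm] at this
  · intro h
    refine ⟨hG, fun a b n => ⟨1, Subgroup.one_mem _, ?_⟩⟩
    rw [Commute.mul_pow (h a b), mul_one]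

end Cfsg.Agent.S0642
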