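import Mathlib
import Cfsg.Agent.GT.PGroupCyclicMax
import Cfsg.Statements.S0645
-- import your own Cfsg.Agent.* helpers here

set_option autoImplicit false
open Cfsg

namespace Cfsg.Agent.S0645

/-- Classification of p-groups with a cyclic maximal subgroup, odd p: a non-abelian one of order p^n has generators a of order p^(n-1) and b of order p, b outside the cyclic subgroup generated by a, with b a b⁻¹ = a^(1 + p^(n-2)). -/
theorem result {G : Type*} [Group G] [Finite G] {p : ℕ} [Fact p.Prime] (hp : p ≠ 2) (n : ℕ) (hn : 3 ≤ n) (hG : Nat.card G = p ^ n) (C : Subgroup G) (hC : IsCyclic C) (hCi : C.index = p) (hna : ∃ x y : G, x * y ≠ y * x) : ∃ a b : G, orderOf a = p ^ (n - 1) ∧ orderOf b = p ∧ b ∉ Subgroup.zpowers a ∧ b * a * b⁻¹ = a ^ (1 + p ^ (n - 2)) := by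
  have hP : IsPGroup p G := IsPGroup.of_card hG
  obtain ⟨a, rfl, -⟩ := GT.PG.exists_orderOf_eq_of_isCyclic hC
  have hna' : ¬ IsMulCommutative G := fun h => by
    obtain ⟨x, y, hxy⟩ := hna
    exact hxy (h.is_comm.comm x y)
  obtain ⟨b, -, hb⟩ := SetLike.exists_of_lt (GT.PG.isCoatom_of_index_prime Fact.out hCi).lt_top
  obtain ⟨h1, h2, h3, m, hm, ha⟩ := GT.PG.exists_pair_of_cyclic_index_prime hP hCi hna' hb
  have hc := GT.PG.card_eq_index_zpowers_mul a
  rw [hCi, ha, hG, ← pow_succ'] at hc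
  obtain rfl := Nat.pow_right_injective (Fact.out : p.Prime).two_le hc
  obtain ⟨c, -, c1, c2, c3⟩ := GT.PG.exists_modular_of_odd Fact.out hp hm ha h1 h2 h3
  exact ⟨a, c, ha, orderOf_eq_prime c2 (fun e => c1 (e ▸ one_mem _)), c1, c3⟩

end Cfsg.Agent.S0645
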