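import Mathlib
import Cfsg.Agent.GT.PGroupCyclicMax
import Cfsg.Statements.S0646
-- import your own Cfsg.Agent.* helpers here

set_option autoImplicit false
open Cfsg

namespace Cfsg.Agent.S0646

/-- Classification of non-abelian 2-groups with a cyclic maximal subgroup: dihedral, generalized quaternion, and for order at least 16 the modular group and the semidihedral group, each given by generators a (of index 2) and b with the stated relations. -/
theorem result {G : Type*} [Group G] [Finite G] (n : ℕ) (hn : 3 ≤ n) (hG : Nat.card G = 2 ^ n) (C : Subgroup G) (hC : IsCyclic C) (hCi : C.index = 2) (hna : ∃ x y : G, x * y ≠ y * x) : ∃ a b : G, orderOf a = 2 ^ (n - 1) ∧ b ∉ Subgroup.zpowers a ∧ ((b ^ 2 = 1 ∧ b * a * b⁻¹ = a⁻¹) ∨ (b ^ 2 = a ^ (2 ^ (n - 2)) ∧ b * a * b⁻¹ = a⁻¹) ∨ (4 ≤ n ∧ b ^ 2 = 1 ∧ b * a * b⁻¹ = a ^ (1 + 2 ^ (n - 2))) ∨ (4 ≤ n ∧ b ^ 2 = 1 ∧ b * a * b⁻¹ = a ^ (2 ^ (n - 2) - 1))) := by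
  have hP : IsPGroup 2 G := IsPGroup.of_card hG
  obtain ⟨a, rfl, -⟩ := GT.PG.exists_orderOf_eq_of_isCyclic hC
  have hna' : ¬ IsMulCommutative G := fun h => by
    obtain ⟨x, y, hxy⟩ := hna
    exact hxy (h.is_comm.comm x y)
  obtain ⟨b, -, hb⟩ := SetLike.exists_of_lt (GT.PG.isCoatom_of_index_prime Nat.prime_two hCi).lt_top
  obtain ⟨h1, h2, h3, m, hm, ha⟩ := GT.PG.exists_pair_of_cyclic_index_prime hP hCi hna' hb
  have hc := GT.PG.card_eq_index_zpowers_mul a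
  rw [hCi, ha, hG, ← pow_succ'] at hc
  obtain rfl := Nat.pow_right_injective le_rfl hc
  obtain ⟨u, hu⟩ := GT.PG.exists_cases_of_two hm ha h1 h2 h3
  refine ⟨a, b * a ^ u, ha, GT.PG.mul_zpow_notMem hb u, ?_⟩
  rw [GT.PG.mul_zpow_conj]
  rcases hu with h | h | h | h
  · exact Or.inl h
  · exact Or.inr (Or.inl h)
  · exact Or.inr (Or.inr (Or.inl ⟨by omega, h.2⟩))
  · exact Or.inr (Or.inr (Or.inr ⟨by omega, h.2⟩))

end Cfsg.Agent.S0646
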