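import Mathlib
import Cfsg.Statements.S0658
import Cfsg.Agent.GT.ThompsonFusionZJ

set_option autoImplicit false
open Cfsg

namespace Cfsg.Agent.S0658

open Subgroup Cfsg.Agent.GT
open scoped commutatorElement Pointwise

/-- In a group of characteristic p type all of whose p-locals are p-stable (p odd), the normalizer of Z(J(P)) contains the normalizer of every nontrivial subgroup of the Sylow p-subgroup P. -/
theorem result {G : Type*} [Group G] [Finite G] {p : ℕ} [Fact p.Prime] (hp : p ≠ 2) (hloc : ∀ Q : Subgroup G, IsPGroup p Q → Q ≠ ⊥ → Cfsg.pPrimeCore p ↥(Subgroup.normalizer (Q : Set G)) = ⊥ ∧ Cfsg.IsPConstrained p ↥(Subgroup.normalizer (Q : Set G)) ∧ Cfsg.IsPStable p ↥(Subgroup.normalizer (Q : Set G))) (P : Sylow p G) (Q : Subgroup G) (hQP : Q ≤ (P : Subgroup G)) (hQ1 : Q ≠ ⊥) : Subgroup.normalizer (Q : Set G) ≤ Subgroup.normalizer (Cfsg.centerThompsonAOf ((P : Subgroup G)) : Set G) := by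
  rw [centerThompsonAOf_eq]
  set M := normalizer (thZ 0 (P : Subgroup G) : Set G) with hM
  have hPM : (P : Subgroup G) ≤ M := le_normalizer_thZ 0 _
  have hPi : ¬ p ∣ (P : Subgroup G).relIndex M := fun h =>
    P.not_dvd_index (h.trans (relIndex_dvd_index_of_le hPM))
  clear_value M
  have key : ∀ j : ℕ, ∀ Q : Subgroup G, Q ≤ P → Q ≠ ⊥ →
      Nat.card P - Nat.card ((P : Subgroup G) ⊓ normalizer (Q : Set G) : Subgroup G) < j →
      normalizer (Q : Set G) ≤ M := by
    intro j
    induction j with
    | zero => intro Q _ _ h; omega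
    | succ j ih =>
      intro Q hQ h1 hj
      set S := (P : Subgroup G) ⊓ normalizer (Q : Set G) with hS
      have hSp : IsPGroup p S := P.isPGroup'.to_le inf_le_left
      have hQS : Q ≤ S := le_inf hQ le_normalizer
      have hS1 : S ≠ ⊥ := fun hb => h1 (le_bot_iff.1 (hb ▸ hQS))
      have ih' : ∀ Q' : Subgroup G, Q' ≤ P → Q' ≠ ⊥ →
          Nat.card S < Nat.card ((P : Subgroup G) ⊓ normalizer (Q' : Set G) : Subgroup G) →
          normalizer (Q' : Set G) ≤ M := by
        intro Q' hQ' hC' hlt
        have : Nat.card ((P : Subgroup G) ⊓ normalizer (Q' : Set G) : Subgroup G) ≤ Nat.card P :=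
          card_le_of_le inf_le_left
        exact ih Q' hQ' hC' (by omega)
      by_cases hfn : p ∣ S.relIndex (normalizer (Q : Set G))
      swap
      · obtain ⟨hO, hc, hs⟩ := hloc Q (P.isPGroup'.to_le hQ) h1
        have h := map_normalizer_thZ_eq_top hp (Or.inl rfl) (Tr.sylowOfRel hSp hfn)
          (th_isStronglyClosed_self _) hc (thStable_quotient_of_isPStable hs _)
        rw [map_mk'_eq_top_iff, hO, sup_bot_eq, Tr.coe_sylowOfRel, thZ_subgroupOf inf_le_right,
          ← subgroupOf_normalizer_eq ((thZ_le _ _).trans inf_le_right), subgroupOf_eq_top] at h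
        refine h.trans ?_
        rcases (inf_le_left : S ≤ P).eq_or_lt with he | hlt
        · rw [he, hM]
        exact ih' _ ((thZ_le _ _).trans inf_le_left) (thZ_ne_bot (dvd_zero p) hSp hS1)
          ((card_lt_of_lt (Tr.lt_inf_normalizer P.isPGroup' hlt)).trans_le
            (card_le_of_le (inf_le_inf_left _ (normalizer_le_normalizer_thZ 0 _))))
      obtain ⟨T, hST, hTN, hT, hTi⟩ := Tr.exists_sylowIn_ge (p := p) (T := S) hSp inf_le_right
      have hlt : S < T := lt_of_le_of_ne hST fun he => hTi (he ▸ hfn)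
      have hSP : S < P := by
        refine lt_of_le_of_ne inf_le_left fun he => hlt.ne ?_
        rw [he] at hST ⊢
        exact (P.is_maximal' hT hST).symm
      have h2 := ih' S inf_le_left hS1 (card_lt_of_lt (Tr.lt_inf_normalizer P.isPGroup' hSP))
      have h3 := Tr.lt_inf_normalizer hT hlt
      have h8 : T ⊓ normalizer (S : Set G) ≤ M := inf_le_right.trans h2
      have h9 : IsPGroup p (T ⊓ normalizer (S : Set G) : Subgroup G) := hT.to_le inf_le_left
      obtain ⟨m, hm, h4⟩ := Tr.exists_conj_le_sylowIn P.isPGroup' hPi h9 h8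
      have h6 : (T ⊓ normalizer (S : Set G)).map (MulAut.conj m).toMonoidHom ≤ (P : Subgroup G) ⊓
          normalizer ((Q.map (MulAut.conj m).toMonoidHom : Subgroup G) : Set G) :=
        le_inf (Tr.map_conj_le_iff.2 h4) (by
            rw [Tr.normalizer_map_conj]; exact map_mono (inf_le_left.trans hTN))
      have h7 := card_le_of_le h6
      rw [Tr.card_map_conj] at h7
      have h5 := ih' (Q.map (MulAut.conj m).toMonoidHom)
        (Tr.map_conj_le_iff.2 fun a ha => h4 a (h3.le (hQS ha)))
        (fun hb => h1 ((map_eq_bot_iff_of_injective _ (MulAut.conj m).injective).1 hb))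
        ((card_lt_of_lt h3).trans_le h7)
      intro g hg
      rw [Tr.normalizer_map_conj] at h5
      have := mul_mem (mul_mem (inv_mem hm) (h5 (Tr.conj_mem_map_conj.2 hg))) hm
      simpa [mul_assoc] using this
  exact key _ Q hQP hQ1 (Nat.lt_succ_self _)

end Cfsg.Agent.S0658
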