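import Mathlib
import Cfsg.Agent.GT.PGroupMaxClass
import Cfsg.Statements.S0663
-- import your own Cfsg.Agent.* helpers here

set_option autoImplicit false
open Cfsg

namespace Cfsg.Agent.S0663

/-- A p-group acts uniserially on a p-group N of order p^n exactly when the iterated commutator chain from N has length n; in that case the chain terms are all the invariant subgroups of N and they are normal in N. -/
theorem result {L : Type*} [Group L] [Finite L] {p : ℕ} [Fact p.Prime] (N G : Subgroup L) (hN : IsPGroup p N) (hG : IsPGroup p G) (hGN : G ≤ Subgroup.normalizer (N : Set L)) (n : ℕ) (hn : Nat.card N = p ^ n) : ((∀ H : Subgroup L, H ≤ N → G ≤ Subgroup.normalizer (H : Set L) → H ≠ ⊥ → (⁅H, G⁆).relIndex H = p) ↔ Cfsg.iterCommutator N G (n - 1) ≠ ⊥ ∨ n = 0) ∧ ((∀ H : Subgroup L, H ≤ N → G ≤ Subgroup.normalizer (H : Set L) → H ≠ ⊥ → (⁅H, G⁆).relIndex H = p) → ∀ H : Subgroup L, H ≤ N → G ≤ Subgroup.normalizer (H : Set L) → (∃ i ≤ n, H = Cfsg.iterCommutator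 N G i) ∧ N ≤ Subgroup.normalizer (H : Set L)) := by
  have hp : p.Prime := Fact.out
  have key : (∀ H : Subgroup L, H ≤ N → G ≤ Subgroup.normalizer (H : Set L) → H ≠ ⊥ →
      (⁅H, G⁆).relIndex H = p) → Cfsg.iterCommutator N G (n - 1) ≠ ⊥ ∨ n = 0 := by
    intro h
    rcases Nat.eq_zero_or_pos n with h0 | h0
    · exact Or.inr h0
    refine Or.inl fun e => ?_
    have := GT.PG.card_iterCommutator_eq_of_relIndex hn hGN h (Nat.sub_le n 1)
    rw [e, Subgroup.card_bot] at this
    exact (Nat.one_lt_pow (by omega) hp.one_lt).ne this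
  have h0 : n = 0 → ∀ H : Subgroup L, H ≤ N → H = ⊥ := by
    rintro rfl H hH
    rw [pow_zero, Subgroup.card_eq_one] at hn
    exact eq_bot_iff.2 (hn ▸ hH)
  refine ⟨⟨key, ?_⟩, fun h H h1 h2 => ?_⟩
  · rintro (h | h) H h1 h2 h3
    · exact GT.PG.relIndex_commutator_of_uniserial hn hG hGN h h1 h2 h3
    · exact absurd (h0 h H h1) h3
  · rcases key h with h | h
    · obtain ⟨k, hk⟩ := GT.PG.card_eq_pow_of_isPGroup (hN.to_le h1)
      exact ⟨⟨_, Nat.sub_le _ _, (GT.PG.eq_iterCommutator_of_card hn hG hGN h h1 h2 hk).2⟩,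
        GT.PG.le_normalizer_of_uniserial hn hG hGN h h1 h2⟩
    · refine ⟨⟨0, Nat.zero_le _, ?_⟩, ?_⟩
      · rw [h0 h H h1, GT.PG.iterCommutator_zero, h0 h N le_rfl]
      · rw [h0 h N le_rfl]; exact bot_le

end Cfsg.Agent.S0663
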