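import Mathlib
import Cfsg.Agent.Perm.Intertwiner
import Cfsg.Statements.S0671

set_option autoImplicit false
open Cfsg

namespace Cfsg.Agent.S0671

/-- If the heart of the permutation module in characteristic `p` of a transitive action of degree `p ^ f` has no trivial composition factor, the action is doubly transitive. The hypothesis is phrased without composition series: no invariant subspaces `W < W'` between the constants and the sum-zero functions with trivial action on the quotient. -/
theorem result {G : Type*} [Group G] [Finite G] {K : Type*} [Field K] {p f : ℕ} [Fact p.Prime] [CharP K p] {Ω : Type*} [Fintype Ω] [MulAction G Ω] [MulAction.IsPretransitive G Ω] (hf : 1 ≤ f) (hcard : Fintype.card Ω = p ^ f) (h : ∀ W W' : Subrepresentation (Cfsg.permRep K G Ω), (Cfsg.permConstants K G Ω).toSubmodule ≤ W.toSubmodule → W.toSubmodule < W'.toSubmodule → W'.toSubmodule ≤ (Cfsg.permSumZero K G Ω).toSubmodule → ∃ g : G, ∃ v ∈ W'.toSubmodule, Cfsg.permRep K G Ω g v - v ∉ W.toSubmodule) : MulAction.IsMultiplyPretransitive G Ω 2 := by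
  refine Cfsg.Agent.Perm.two_pretransitive_of_heart (K := K) (p := p) (f := f) hf
    (by rw [Nat.card_eq_fintype_card, hcard]) ?_
  intro W W' hW hW' hc hlt hs
  refine h ⟨W, fun g v hv => hW g v hv⟩ ⟨W', fun g v hv => hW' g v hv⟩ ?_ hlt ?_
  · intro v hv
    obtain ⟨c, hc'⟩ := (Cfsg.Agent.Perm.mem_permConstants_iff (G := G) v).1 hv
    rw [show v = fun _ => c from funext hc']
    exact hc c
  · intro v hv
    exact hs v hv

end Cfsg.Agent.S0671
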