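import Mathlib
import Cfsg.Agent.Perm.PrimeDegree2
import Cfsg.Agent.S0672
import Cfsg.Statements.S0676

set_option autoImplicit false
open Cfsg

namespace Cfsg.Agent.S0676

open Cfsg.Agent.Perm MulAction

/-- A non-solvable transitive permutation group of prime degree `p` whose Sylow `p`-normaliser has even order is triply transitive. -/
theorem result {α : Type*} [Fintype α] [DecidableEq α] {p : ℕ} [Fact p.Prime] (hα : Fintype.card α = p) (G : Subgroup (Equiv.Perm α)) [MulAction.IsPretransitive G α] (hG : ¬ Group.IsSolvable G) (P : Sylow p G) (heven : Even (Nat.card (Subgroup.normalizer ((P : Subgroup G) : Set G)))) : MulAction.IsMultiplyPretransitive G α 3 := by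
  have hp : p.Prime := Fact.out
  have hcard : Nat.card α = p := by rw [Nat.card_eq_fintype_card, hα]
  obtain ⟨a⟩ : Nonempty α := (Nat.card_pos_iff.1 (hcard ▸ hp.pos)).1
  obtain ⟨τ, hτP, -, e, -, he⟩ := exists_coord_sylow hcard P a
  have hp3 : 3 < p := by
    by_contra h
    exact hG (isSolvable_of_affine (affine_of_prime_le_three (e := e) (not_lt.1 h)))
  have hp2 : p ≠ 2 := by omega
  obtain ⟨t, ht⟩ := exists_reflection hp2 he (by rw [hτP]; exact heven)
  have h2 : IsMultiplyPretransitive G α 2 :=
    (affine_or_two_pretransitive he).resolve_left fun h => hG (isSolvable_of_affine h)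
  have hirr := (affine_or_heart_irreducible he (ZMod p)).resolve_left
    fun h => hG (isSolvable_of_affine h)
  have htt : ∀ x, t • t • x = x := fun x => e.injective (by rw [ht, ht, neg_neg])
  refine Cfsg.Agent.S0672.result (K := ZMod p) (p := p) h2 (by rw [hα]) ?_ ?_
  · intro x
    obtain ⟨g, rfl⟩ := exists_smul_eq G (e.symm 0) x
    rw [← Nat.card_congr (stabilizerEquivStabilizer (g := g) rfl).toEquiv]
    have h1 : t ∈ stabilizer G (e.symm 0) := e.injective (by rw [ht]; simp)
    have h2 : orderOf (⟨t, h1⟩ : stabilizer G (e.symm 0)) = 2 := by
      haveI : Fact (Nat.Prime 2) := ⟨Nat.prime_two⟩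
      apply orderOf_eq_prime
      · apply Subtype.ext
        exact eq_of_smul_eq_smul (α := α) fun x => by
          rw [Subgroup.coe_pow, sq, mul_smul, htt]; simp
      · intro h
        have h' : t = 1 := congrArg Subtype.val h
        have := ht (e.symm 1)
        rw [h', one_smul, Equiv.apply_symm_apply] at this
        apply two_ne_zero_zmod hp2
        linear_combination this
    exact even_iff_two_dvd.2 (h2 ▸ orderOf_dvd_natCard _)
  · intro F hF
    let W : Submodule (ZMod p) (α → ZMod p) :=
      (LinearMap.ker F.toLinearMap).map (permSumZero (ZMod p) G α).toSubmodule.subtype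
    have hW : ∀ (v : (permSumZero (ZMod p) G α).toSubmodule), (v : α → ZMod p) ∈ W ↔ F v = 0 := by
      intro v
      constructor
      · rintro ⟨w, hw, hwv⟩
        rw [← Subtype.ext hwv]
        exact hw
      · intro h
        exact ⟨v, h, rfl⟩
    have hcs : (permConstants (ZMod p) G α).toSubmodule ≤ (permSumZero (ZMod p) G α).toSubmodule := by
      intro v hv
      obtain ⟨c, hc⟩ := (mem_permConstants_iff (G := G) v).1 hv
      rw [mem_permSumZero_iff]
      simp [hc, hα]
    rcases hirr W (by
        rintro g _ ⟨v, hv, rfl⟩
        refine ⟨(permSumZero (ZMod p) G α).toRepresentation g v, ?_, rfl⟩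
        change F _ = 0
        have hv' : F v = 0 := hv
        rw [F.isIntertwining, hv', map_zero])
      (fun v hv => (hW ⟨v, hcs hv⟩).2 (hF _ hv)) (by rintro _ ⟨v, -, rfl⟩; exact v.2) with h | h
    · exfalso
      have hv : (e : α → ZMod p) ∈ (permSumZero (ZMod p) G α).toSubmodule := by
        rw [mem_permSumZero_iff, e.sum_comp (fun j => j)]
        have := FiniteField.sum_pow_lt_card_sub_one (ZMod p) 1 (by rw [ZMod.card]; omega)
        simpa using this
      let v : (permSumZero (ZMod p) G α).toSubmodule := ⟨e, hv⟩
      have h1 : ∀ (n : ℕ) s, F v (τ ^ n • s) = F v s := by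
        intro n s
        have e1 : F ((permSumZero (ZMod p) G α).toRepresentation (τ ^ n)⁻¹ v - v) = 0 := by
          apply hF
          rw [mem_permConstants_iff]
          refine ⟨n, fun x => ?_⟩
          change e ((τ ^ n)⁻¹⁻¹ • x) - e x = n
          rw [inv_inv, coord_pow he]
          ring
        rw [map_sub, F.isIntertwining, sub_eq_zero] at e1
        have := congrFun e1 s
        rwa [permRep_apply, inv_inv] at this
      have h2 : ∀ s, F v (t • s) = - F v s := by
        intro s
        have e1 : (permSumZero (ZMod p) G α).toRepresentation t⁻¹ v = -v := by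
          apply Subtype.ext
          funext x
          change e (t⁻¹⁻¹ • x) = - e x
          rw [inv_inv, ht]
        have e2 := F.isIntertwining _ _ t⁻¹ v
        rw [e1, map_neg] at e2
        have := congrFun e2 s
        rw [permRep_apply, inv_inv] at this
        exact this.symm
      have h3 : F v = 0 := by
        funext s
        obtain ⟨x, y, hxy, hs⟩ := Finset.card_eq_two.1 s.2
        have e1 : t • s = τ ^ (-(e x + e y)).val • s := by
          apply Subtype.ext
          have hco : ∀ (g : G) (s : Set.powersetCard α 2),
              ((g • s : Set.powersetCard α 2) : Finset α) = (s : Finset α).image (g • ·) :=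
            fun _ _ => rfl
          rw [hco, hco, hs]
          simp only [Finset.image_insert, Finset.image_singleton]
          have a1 : t • x = τ ^ (-(e x + e y)).val • y := e.injective (by
            rw [ht, coord_pow he]; simp)
          have a2 : t • y = τ ^ (-(e x + e y)).val • x := e.injective (by
            rw [ht, coord_pow he]; simp)
          rw [a1, a2, Finset.pair_comm]
        have e2 := h2 s
        rw [e1, h1] at e2
        apply mul_left_cancel₀ (two_ne_zero_zmod hp2)
        simp only [Pi.zero_apply]
        linear_combination e2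
      have h4 := (hW v).2 h3
      rw [h, mem_permConstants_iff] at h4
      obtain ⟨c, hc⟩ := h4
      have := (hc (e.symm 0)).trans (hc (e.symm 1)).symm
      simp [v] at this
    · ext v : 2
      exact (hW v).1 (by rw [h]; exact v.2)

end Cfsg.Agent.S0676
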