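import Mathlib
import Cfsg.Agent.Perm.PrimeDegree2
import Cfsg.Statements.S0677

set_option autoImplicit false
open Cfsg

namespace Cfsg.Agent.S0677

open Cfsg.Agent.Perm MulAction
open scoped Pointwise

/-- In a transitive permutation group of prime degree `p` whose Sylow `p`-normaliser has even order, the point stabilisers are the only subgroups of index `p`. -/
theorem result {α : Type*} [Fintype α] [DecidableEq α] {p : ℕ} [Fact p.Prime] (hα : Fintype.card α = p) (G : Subgroup (Equiv.Perm α)) [MulAction.IsPretransitive G α] (P : Sylow p G) (heven : Even (Nat.card (Subgroup.normalizer ((P : Subgroup G) : Set G)))) (H : Subgroup G) (hH : H.index = p) : ∃ a : α, H = MulAction.stabilizer G a := by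
  classical
  have hp : p.Prime := Fact.out
  have hcard : Nat.card α = p := by rw [Nat.card_eq_fintype_card, hα]
  obtain ⟨a⟩ : Nonempty α := (Nat.card_pos_iff.1 (hcard ▸ hp.pos)).1
  obtain ⟨τ, hτP, hτ, e, -, he⟩ := exists_coord_sylow hcard P a
  have hHp : ¬ p ∣ Nat.card H := by
    intro h
    apply not_sq_dvd_card_of_prime_degree (G := G) hcard
    rw [← H.card_mul_index, hH, sq]
    exact Nat.mul_dvd_mul_right h p
  -- it suffices to find a fixed point
  suffices h : ∃ x : α, ∀ g ∈ H, g • x = x by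
    obtain ⟨x, hx⟩ := h
    refine ⟨x, ?_⟩
    have hle : H ≤ stabilizer G x := hx
    have hi : (stabilizer G x).index = p := by rw [index_stabilizer_of_transitive, hcard]
    apply Subgroup.eq_of_le_of_card_ge hle
    have e1 := H.card_mul_index
    have e2 := (stabilizer G x).card_mul_index
    rw [hH] at e1
    rw [hi, ← e1] at e2
    exact (Nat.eq_of_mul_eq_mul_right hp.pos e2).le
  -- an orbit of `H`
  let B : Finset α := Finset.univ.filter fun x => ∃ g ∈ H, g • a = x
  have haB : a ∈ B := by simp only [B, Finset.mem_filter]; exact ⟨by simp, 1, H.one_mem, one_smul _ _⟩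
  have hBH : ∀ g ∈ H, ∀ x, g • x ∈ B ↔ x ∈ B := by
    have : ∀ g ∈ H, ∀ x ∈ B, g • x ∈ B := by
      intro g hg x hx
      simp only [B, Finset.mem_filter, Finset.mem_univ, true_and] at hx ⊢
      obtain ⟨h, hh, rfl⟩ := hx
      exact ⟨g * h, H.mul_mem hg hh, mul_smul _ _ _⟩
    intro g hg x
    exact ⟨fun h => by simpa using this g⁻¹ (H.inv_mem hg) _ h, this g hg x⟩
  have hBdvd : B.card ∣ Nat.card H := by
    have h1 := index_stabilizer H a
    have h2 : (orbit H a) = (B : Set α) := by
      ext x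
      simp only [B, mem_orbit_iff, Finset.coe_filter, Finset.mem_univ, true_and, Set.mem_ofPred_eq]
      exact ⟨fun ⟨g, hg⟩ => ⟨g, g.2, hg⟩, fun ⟨g, hg, h⟩ => ⟨⟨g, hg⟩, h⟩⟩
    rw [h2, Set.ncard_coe_finset] at h1
    rw [← h1]
    exact Subgroup.index_dvd_card _
  have hBp : ¬ p ∣ B.card := fun h => hHp (h.trans hBdvd)
  rcases affine_or_two_pretransitive he with haff | h2
  · -- the centroid of `B` is fixed
    have hB0 : (B.card : ZMod p) ≠ 0 := by rwa [Ne, ZMod.natCast_eq_zero_iff]
    refine ⟨e.symm ((∑ x ∈ B, e x) / B.card), fun g hg => e.injective ?_⟩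
    obtain ⟨c, d, hcd⟩ := haff g
    have h1 : ∑ x ∈ B, e (g • x) = ∑ x ∈ B, e x :=
      Finset.sum_equiv (MulAction.toPerm g) (fun x => (hBH g hg x).symm) (fun x _ => rfl)
    simp only [hcd, Finset.sum_add_distrib, ← Finset.mul_sum, Finset.sum_const, nsmul_eq_mul] at h1
    rw [hcd, Equiv.apply_symm_apply]
    field_simp
    linear_combination h1
  by_cases hp2 : p = 2
  · refine ⟨a, fun g hg => ?_⟩
    have h1 : B.card ≤ p := by rw [← hα]; exact Finset.card_le_univ B
    have h2 : B.card ≠ p := fun h => hBp (h ▸ dvd_rfl)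
    have h3 : B.card ≤ 1 := by omega
    exact Finset.card_le_one.1 h3 _ ((hBH g hg a).2 haB) _ haB
  obtain ⟨t, ht⟩ := exists_reflection hp2 he (by rw [hτP]; exact heven)
  -- every element is `τ ^ k * h` with `h ∈ H`
  have hdec : ∀ g : G, ∃ k : ZMod p, ∃ h ∈ H, g = τ ^ k.val * h := by
    intro g
    have hcG : Nat.card (G ⧸ H) = p := hH
    have hτ1 : τ ^ p = 1 := by rw [← hτ, pow_orderOf_eq_one]
    have hmove : τ • ((1 : G) : G ⧸ H) ≠ ((1 : G) : G ⧸ H) := by
      intro h
      have h1 : τ ∈ H := by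
        have := QuotientGroup.eq.1 h
        simpa using this
      exact hHp (hτ ▸ H.orderOf_dvd_natCard h1)
    obtain ⟨e', he0, he'⟩ := exists_coord_of_pow_eq_one hcG hτ1 hmove
    refine ⟨e' (g : G ⧸ H), (τ ^ (e' (g : G ⧸ H)).val)⁻¹ * g, ?_, by group⟩
    rw [← QuotientGroup.eq]
    apply e'.injective
    have := coord_pow he' (e' (g : G ⧸ H)).val ((1 : G) : G ⧸ H)
    rw [he0] at this
    simpa using this
  have hshift : ∀ g : G, ∃ k : ZMod p, ∀ j : ZMod p, g⁻¹ • e.symm j ∈ B ↔ e.symm (j - k) ∈ B := by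
    intro g
    obtain ⟨k, h, hh, rfl⟩ := hdec g
    refine ⟨k, fun j => ?_⟩
    rw [mul_inv_rev, mul_smul, hBH _ (H.inv_mem hh)]
    have : (τ ^ k.val)⁻¹ • e.symm j = e.symm (j - k) := by
      rw [inv_smul_eq_iff]
      apply e.injective
      rw [coord_pow he]
      simp
    rw [this]
  -- the symmetric difference set
  obtain ⟨k₀, hk₀⟩ := hshift t⁻¹
  have n2 := two_ne_zero_zmod hp2
  let D : Finset (ZMod p) := Finset.univ.filter fun j => e.symm (j - k₀ / 2) ∈ B
  have hD : ∀ j, j ∈ D ↔ e.symm (j - k₀ / 2) ∈ B := fun j => by simp [D]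
  have hDneg : ∀ j, j ∈ D → -j ∈ D := by
    intro j hj
    rw [hD] at hj ⊢
    have h1 := hk₀ (j + k₀ / 2)
    rw [inv_inv, show t • e.symm (j + k₀ / 2) = e.symm (-j - k₀ / 2) from e.injective (by
      rw [ht]; simp; ring), show j + k₀ / 2 - k₀ = j - k₀ / 2 by field_simp; ring] at h1
    exact h1.2 hj
  let lam : ZMod p → ℕ := fun d => (Finset.univ.filter fun j => j ∈ D ∧ j + d ∈ D).card
  have hcount : ∀ d : ZMod p, Nat.card {g : G // g⁻¹ • e.symm 0 ∈ B ∧ g⁻¹ • e.symm d ∈ B}
      = lam d * Nat.card H := by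
    intro d
    have hinj : ∀ k k' : ZMod p, ∀ h ∈ H, ∀ h' ∈ H, τ ^ k.val * h = τ ^ k'.val * h' → k = k' := by
      intro k k' h hh h' hh' heq
      by_contra hne
      have h1 : τ ^ ((k.val : ℤ) - k'.val) ∈ H := by
        have : τ ^ ((k.val : ℤ) - k'.val) = h' * h⁻¹ := by
          rw [sub_eq_neg_add, zpow_add, zpow_neg, zpow_natCast, zpow_natCast,
            inv_mul_eq_iff_eq_mul, ← mul_assoc, ← heq]
          group
        rw [this]
        exact H.mul_mem hh' (H.inv_mem hh)
      have h2 : orderOf (τ ^ ((k.val : ℤ) - k'.val)) = p := by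
        apply orderOf_eq_prime
        · rw [← zpow_natCast, ← zpow_mul, mul_comm, zpow_mul, zpow_natCast,
            orderOf_dvd_iff_pow_eq_one.1 (by rw [hτ]), one_zpow]
        · intro h
          have := coord_zpow he ((k.val : ℤ) - k'.val) a
          rw [h, one_smul] at this
          apply hne
          simp at this
          linear_combination this
      exact hHp (h2 ▸ H.orderOf_dvd_natCard h1)
    have hiff : ∀ (k : ZMod p) (h : G), h ∈ H → ∀ j : ZMod p,
        (τ ^ k.val * h)⁻¹ • e.symm j ∈ B ↔ j - k + k₀ / 2 ∈ D := by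
      intro k h hh j
      rw [mul_inv_rev, mul_smul, hBH _ (H.inv_mem hh), hD]
      have : (τ ^ k.val)⁻¹ • e.symm j = e.symm (j - k) := by
        rw [inv_smul_eq_iff]
        apply e.injective
        rw [coord_pow he]
        simp
      rw [this]
      simp
    let f : {j : ZMod p // j ∈ D ∧ j + d ∈ D} × H →
        {g : G // g⁻¹ • e.symm 0 ∈ B ∧ g⁻¹ • e.symm d ∈ B} := fun z =>
      ⟨τ ^ (k₀ / 2 - z.1.1).val * z.2, by
        rw [hiff _ _ z.2.2, hiff _ _ z.2.2]
        refine ⟨by simpa using z.1.2.1, ?_⟩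
        convert z.1.2.2 using 1
        ring⟩
    have hf : Function.Bijective f := by
      constructor
      · rintro ⟨j, h⟩ ⟨j', h'⟩ heq
        have h1 : τ ^ (k₀ / 2 - j.1).val * h = τ ^ (k₀ / 2 - j'.1).val * h' :=
          congrArg Subtype.val heq
        have h2 := hinj _ _ _ h.2 _ h'.2 h1
        have h3 : j = j' := Subtype.ext (by linear_combination -h2)
        subst h3
        exact Prod.ext rfl (Subtype.ext (mul_left_cancel h1))
      · rintro ⟨g, hg⟩
        obtain ⟨k, h, hh, rfl⟩ := hdec g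
        rw [hiff _ _ hh, hiff _ _ hh] at hg
        refine ⟨⟨⟨k₀ / 2 - k, ?_, ?_⟩, ⟨h, hh⟩⟩, Subtype.ext (by simp [f])⟩
        · convert hg.1 using 1; ring
        · convert hg.2 using 1; ring
    rw [← Nat.card_eq_of_bijective f hf, Nat.card_prod, Nat.card_eq_fintype_card,
      Fintype.card_subtype]
  have hlam : ∀ d d' : ZMod p, d ≠ 0 → d' ≠ 0 → lam d = lam d' := by
    intro d d' hd hd'
    rw [is_two_pretransitive_iff] at h2
    obtain ⟨g, hg0, hg1⟩ := h2 (a := e.symm 0) (b := e.symm d) (c := e.symm 0) (d := e.symm d')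
      (e.symm.injective.ne hd.symm) (e.symm.injective.ne hd'.symm)
    apply Nat.eq_of_mul_eq_mul_right (Nat.card_pos (α := H))
    rw [← hcount, ← hcount]
    refine Nat.card_congr (Equiv.subtypeEquiv (Equiv.mulLeft g) fun x => ?_)
    simp only [Equiv.coe_mulLeft, mul_inv_rev, mul_smul]
    rw [inv_smul_eq_iff.2 hg0.symm, inv_smul_eq_iff.2 hg1.symm]
  have hpar : ∀ j : ZMod p, (Even (lam (2 * j)) ↔ j ∉ D) := by
    intro j
    let S := Finset.univ.filter fun i => i ∈ D ∧ i + 2 * j ∈ D
    have hS : Even (S.erase (-j)).card := by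
      have : ∑ _i ∈ S.erase (-j), (1 : ZMod 2) = 0 := by
        refine Finset.sum_involution (fun i _ => -i - 2 * j) (fun _ _ => by decide) ?_ ?_ ?_
        · intro i hi _ h
          apply (Finset.mem_erase.1 hi).1
          apply mul_left_cancel₀ n2
          linear_combination -h
        · intro i hi
          simp only [S, Finset.mem_erase, Finset.mem_filter, Finset.mem_univ, true_and] at hi ⊢
          refine ⟨fun h => hi.1 (by linear_combination -h), ?_, ?_⟩
          · convert hDneg _ hi.2.2 using 1; ring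
          · convert hDneg _ hi.2.1 using 1; ring
        · intro i hi
          ring
      rw [Finset.sum_const, nsmul_eq_mul, mul_one] at this
      exact (ZMod.natCast_eq_zero_iff_even).1 this
    have hmem : -j ∈ S ↔ j ∈ D := by
      simp only [S, Finset.mem_filter, Finset.mem_univ, true_and]
      rw [show -j + 2 * j = j by ring]
      exact ⟨fun h => h.2, fun h => ⟨hDneg _ h, h⟩⟩
    change Even S.card ↔ _
    by_cases hj : j ∈ D
    · rw [← Finset.card_erase_add_one (hmem.2 hj), Nat.even_add_one]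
      simp [hS, hj]
    · rw [Finset.erase_eq_of_notMem (fun h => hj (hmem.1 h))] at hS
      simp [hS, hj]
  have hall : ∀ j j' : ZMod p, j ≠ 0 → j' ≠ 0 → j ∈ D → j' ∈ D := by
    intro j j' hj hj' h
    by_contra h'
    have := (hpar j').2 h'
    rw [hlam _ (2 * j) (mul_ne_zero n2 hj') (mul_ne_zero n2 hj), hpar] at this
    exact this h
  have hBD : ∀ x, x ∈ B ↔ e x + k₀ / 2 ∈ D := fun x => by simp [hD]
  by_cases h1 : (1 : ZMod p) ∈ D
  · have h0 : (0 : ZMod p) ∉ D := by
      intro h0
      apply hBp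
      have : B = Finset.univ := by
        rw [Finset.eq_univ_iff_forall]
        intro x
        rw [hBD]
        by_cases hx : e x + k₀ / 2 = 0
        · rwa [hx]
        · exact hall 1 _ one_ne_zero hx h1
      rw [this, Finset.card_univ, hα]
    refine ⟨e.symm (-(k₀ / 2)), fun g hg => e.injective ?_⟩
    by_contra hne
    have := (hBH g hg (e.symm (-(k₀ / 2)))).1 ((hBD _).2 (hall 1 _ one_ne_zero (fun h => hne (by
      rw [Equiv.apply_symm_apply]; linear_combination h)) h1))
    rw [hBD] at this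
    simp [h0] at this
  · have hz : ∀ x ∈ B, e x + k₀ / 2 = 0 := by
      intro x hx
      by_contra hne
      exact h1 (hall _ 1 hne one_ne_zero ((hBD x).1 hx))
    refine ⟨a, fun g hg => e.injective ?_⟩
    linear_combination hz _ ((hBH g hg a).2 haB) - hz _ haB

end Cfsg.Agent.S0677
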