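import Mathlib
import Cfsg.Agent.Perm.SharpTwo
import Cfsg.Statements.S0680

set_option autoImplicit false
open Cfsg

namespace Cfsg.Agent.S0680

open Cfsg.Agent.Perm MulAction

/-- A finite sharply doubly transitive permutation group has degree a prime power `p ^ j`; a Sylow `p`-subgroup is normal, elementary abelian and regular, and consists of the identity together with the elements without fixed points. (Frobenius' Theorem is not needed.) -/
theorem result {α : Type*} [Fintype α] [DecidableEq α] (G : Subgroup (Equiv.Perm α)) [MulAction.IsMultiplyPretransitive G α 2] (hsharp : ∀ x : Fin 2 ↪ α, MulAction.stabilizer G x = ⊥) (h2 : 2 ≤ Fintype.card α) : ∃ p j : ℕ, p.Prime ∧ 1 ≤ j ∧ Fintype.card α = p ^ j ∧ ∀ (hp : Fact p.Prime) (P : Sylow p G), (P : Subgroup G).Normal ∧ IsMulCommutative (P : Subgroup G) ∧ (∀ x ∈ (P : Subgroup G), x ^ p = 1) ∧ MulAction.IsPretransitive (P : Subgroup G) α ∧ (∀ a : α, MulAction.stabilizer (P : Subgroup G) a = ⊥) ∧ ∀ g : G, g ∈ (P : Subgroup G) ↔ g = 1 ∨ ∀ a : α, g •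 a ≠ a := by
  replace hsharp := (sharp_two_iff (G := G) (Ω := α)).1 hsharp
  have hn : 2 ≤ Nat.card α := by rwa [Nat.card_eq_fintype_card]
  obtain ⟨K, p, hp, hK, hKn, hKc, hcard, hpow, htr, j, hj, hj'⟩ :=
    exists_kernel_of_sharp_two (G := G) inferInstance hsharp hn
  refine ⟨p, j, hp, hj, by rw [← hj', Nat.card_eq_fintype_card], fun _ P => ?_⟩
  have hpg : IsPGroup p K := fun g => ⟨1, Subtype.ext (by simpa using hpow g g.2)⟩
  have hind : ¬ p ∣ K.index := by
    have h1 := K.card_mul_index
    rw [card_of_sharp_two (G := G) inferInstance hsharp hn, hcard] at h1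
    rw [Nat.eq_of_mul_eq_mul_left (by omega) h1]
    intro h
    have h2 : p ∣ Nat.card α := by rw [hj']; exact dvd_pow_self p (by omega)
    have := (Nat.dvd_sub_iff_right (by omega) h2).1 h
    exact hp.one_lt.ne' (Nat.dvd_one.1 this)
  let Q : Sylow p G := hpg.toSylow hind
  haveI : (Q : Subgroup G).Normal := hKn
  haveI := Sylow.unique_of_normal Q inferInstance
  have hPQ : (P : Subgroup G) = K := by rw [Subsingleton.elim P Q]; rfl
  rw [hPQ]
  refine ⟨hKn, hKc, hpow, htr, fun a => ?_, hK⟩
  rw [eq_bot_iff]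
  intro g hg
  exact Subtype.ext (((hK g).1 g.2).resolve_right fun h => h a hg)

end Cfsg.Agent.S0680
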