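import Mathlib
import Cfsg.Agent.Perm.NearField
import Cfsg.Agent.Perm.ThreeTrans
import Cfsg.Statements.S0681

set_option autoImplicit false
open Cfsg

namespace Cfsg.Agent.S0681

open Cfsg.Agent.Perm MulAction

/-- The affine maps `x ↦ x * a + b`, `a ≠ 0`, of a near-field form a sharply doubly transitive permutation group. -/
theorem result {F : Type*} [Cfsg.NearField F] : ∃ H : Subgroup (Equiv.Perm F), (∀ σ : Equiv.Perm F, σ ∈ H ↔ ∃ a b : F, a ≠ 0 ∧ ∀ x : F, σ x = x * a + b) ∧ MulAction.IsMultiplyPretransitive H F 2 ∧ ∀ x : Fin 2 ↪ F, MulAction.stabilizer H x = ⊥ := by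
  let H : Subgroup (Equiv.Perm F) :=
    { carrier := {σ | ∃ a b : F, a ≠ 0 ∧ ∀ x : F, σ x = x * a + b}
      one_mem' := ⟨1, 0, NearField.zero_ne_one.symm, fun x => by simp⟩
      mul_mem' := by
        rintro σ τ ⟨a, b, ha, hσ⟩ ⟨c, d, hc, hτ⟩
        refine ⟨c * a, d * a + b, nf_mul_ne_zero hc ha, fun x => ?_⟩
        rw [Equiv.Perm.mul_apply, hτ, hσ, NearField.right_distrib, mul_assoc, add_assoc]
      inv_mem' := by
        rintro σ ⟨a, b, ha, hσ⟩
        obtain ⟨a', h1, h2⟩ := NearField.exists_inv a ha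
        refine ⟨a', -(b * a'), nf_inv_ne_zero h1, fun x => ?_⟩
        rw [Equiv.Perm.inv_eq_iff_eq, hσ, NearField.right_distrib, nf_neg_mul, mul_assoc, mul_assoc,
          h2, mul_one, mul_one, neg_add_cancel_right] }
  refine ⟨H, fun σ => Iff.rfl, ?_, ?_⟩
  · rw [is_two_pretransitive_iff]
    intro x y u v hxy huv
    obtain ⟨i, h1, h2⟩ := NearField.exists_inv (x - y) (sub_ne_zero.2 hxy)
    have ha : i * (u - v) ≠ 0 := nf_mul_ne_zero (nf_inv_ne_zero h1) (sub_ne_zero.2 huv)
    obtain ⟨a', h3, h4⟩ := NearField.exists_inv _ ha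
    set a := i * (u - v) with hadef
    let σ : Equiv.Perm F :=
      { toFun := fun z => z * a + (-(y * a) + v)
        invFun := fun z => (z - (-(y * a) + v)) * a'
        left_inv := fun z => by simp only [add_sub_cancel_right, mul_assoc, h3, mul_one]
        right_inv := fun z => by simp only [mul_assoc, h4, mul_one, sub_add_cancel] }
    refine ⟨⟨σ, a, -(y * a) + v, ha, fun z => rfl⟩, ?_, ?_⟩
    · change x * a + (-(y * a) + v) = u
      rw [← add_assoc, ← sub_eq_add_neg, ← nf_sub_mul, hadef, ← mul_assoc, h1, one_mul,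
        sub_add_cancel]
    · change y * a + (-(y * a) + v) = v
      rw [add_neg_cancel_left]
  · refine (sharp_two_iff (G := H) (Ω := F)).2 ?_
    rintro ⟨σ, a, b, ha, hσ⟩ x y hxy hx hy
    change σ x = x at hx
    change σ y = y at hy
    rw [hσ] at hx hy
    obtain ⟨i, h1, h2⟩ := NearField.exists_inv (x - y) (sub_ne_zero.2 hxy)
    have e1 : (x - y) * a = x - y := by
      rw [nf_sub_mul, eq_sub_of_add_eq hx, eq_sub_of_add_eq hy, sub_sub_sub_cancel_right]
    have e2 : a = 1 := by rw [← one_mul a, ← h2, mul_assoc, e1]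
    subst e2
    rw [mul_one] at hx
    have e3 : b = 0 := by simpa using hx
    apply Subtype.ext
    ext z
    simp [hσ, e3]

end Cfsg.Agent.S0681
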