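import Mathlib
import Cfsg.Agent.Perm.NearField
import Cfsg.Statements.S0682

set_option autoImplicit false
open Cfsg

namespace Cfsg.Agent.S0682

open Cfsg.Agent.Perm

/-- A finite near-field has prime-power order; its additive group is commutative of prime exponent. -/
theorem result {F : Type*} [Cfsg.NearField F] [Finite F] : ∃ p j : ℕ, p.Prime ∧ 1 ≤ j ∧ Nat.card F = p ^ j ∧ (∀ x y : F, x + y = y + x) ∧ ∀ x : F, p • x = 0 := by
  haveI : Nontrivial F := ⟨0, 1, NearField.zero_ne_one⟩
  have hn : 1 < Nat.card F := Finite.one_lt_card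
  obtain ⟨p, hp, hpd⟩ := Nat.exists_prime_and_dvd hn.ne'
  haveI : Fact p.Prime := ⟨hp⟩
  obtain ⟨y, hy⟩ := exists_prime_addOrderOf_dvd_card' p hpd
  have hy0 : y ≠ 0 := by
    rintro rfl
    rw [addOrderOf_zero] at hy
    exact hp.one_lt.ne hy
  have htr : ∀ u : F, u ≠ 0 → ∀ x : F, ∃ c : F, u * c = x := by
    intro u hu x
    obtain ⟨i, h1, -⟩ := NearField.exists_inv u hu
    exact ⟨i * x, by rw [← mul_assoc, h1, one_mul]⟩
  have hpx : ∀ x : F, p • x = 0 := by
    intro x
    obtain ⟨c, rfl⟩ := htr y hy0 x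
    have := (nfMulRight c).map_nsmul p y
    rw [← hy, addOrderOf_nsmul_eq_zero, map_zero, hy] at this
    exact this.symm
  have hpg : IsPGroup p (Multiplicative F) := fun g => ⟨1, by
    rw [pow_one]; exact hpx g.toAdd⟩
  obtain ⟨j, hj⟩ := hpg.exists_card_eq
  have hj' : Nat.card F = p ^ j := hj
  refine ⟨p, j, hp, ?_, hj', ?_, hpx⟩
  · rcases j with _ | j
    · rw [pow_zero] at hj'; omega
    · omega
  · haveI := hpg.center_nontrivial
    obtain ⟨z, hz⟩ := exists_ne (1 : Subgroup.center (Multiplicative F))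
    have hz0 : (z : Multiplicative F).toAdd ≠ 0 := fun h => hz (Subtype.ext h)
    have hzc : ∀ w : F, w + (z : Multiplicative F).toAdd = (z : Multiplicative F).toAdd + w :=
      fun w => Subgroup.mem_center_iff.1 z.2 (Multiplicative.ofAdd w)
    intro x w
    by_cases hx : x = 0
    · simp [hx]
    obtain ⟨c, rfl⟩ := htr _ hz0 x
    have hc : c ≠ 0 := by rintro rfl; exact hx (NearField.mul_zero _)
    obtain ⟨i, -, h2⟩ := NearField.exists_inv c hc
    have : w = (w * i) * c := by rw [mul_assoc, h2, mul_one]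
    rw [this, ← NearField.right_distrib, ← NearField.right_distrib, hzc]

end Cfsg.Agent.S0682
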