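import Mathlib
import Cfsg.Agent.Perm.SharpTwo
import Cfsg.Statements.S0683

set_option autoImplicit false
open Cfsg

namespace Cfsg.Agent.S0683

open Cfsg.Agent.Perm MulAction

/-- A finite sharply doubly transitive permutation group is the affine group of a near-field: the permuted set carries a near-field structure for which the group consists exactly of the maps `x ↦ x * a + b` with `a ≠ 0`. -/
theorem result {α : Type*} [Fintype α] [DecidableEq α] (H : Subgroup (Equiv.Perm α)) [MulAction.IsMultiplyPretransitive H α 2] (hsharp : ∀ x : Fin 2 ↪ α, MulAction.stabilizer H x = ⊥) (h2 : 2 ≤ Fintype.card α) : ∃ _ : Cfsg.NearField α, ∀ σ : Equiv.Perm α, σ ∈ H ↔ ∃ a b : α, a ≠ 0 ∧ ∀ x : α, σ x = x * a + b := by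
  classical
  replace hsharp := (sharp_two_iff (G := H) (Ω := α)).1 hsharp
  have hn : 2 ≤ Nat.card α := by rwa [Nat.card_eq_fintype_card]
  obtain ⟨K, p, hp, hK, hKn, hKc, hcard, hpow, htr, -⟩ :=
    exists_kernel_of_sharp_two (G := H) inferInstance hsharp hn
  haveI : Nontrivial α := Fintype.one_lt_card_iff_nontrivial.1 h2
  obtain ⟨o, u, hou⟩ := exists_pair_ne α
  have h2' : ∀ {a b c d : α}, a ≠ b → c ≠ d → ∃ g : H, g • a = c ∧ g • b = d :=
    is_two_pretransitive_iff.1 (inferInstance : IsMultiplyPretransitive H α 2)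
  have ht : ∀ b : α, ∃ t : H, t ∈ K ∧ t • o = b := fun b => by
    obtain ⟨g, hg⟩ := exists_smul_eq K o b
    exact ⟨g, g.2, hg⟩
  choose t htK ht using ht
  have htu : ∀ (g : H) (b : α), g ∈ K → g • o = b → g = t b := by
    intro g b hg hb
    have h1 : (t b)⁻¹ * g ∈ K := K.mul_mem (K.inv_mem (htK b)) hg
    rcases (hK _).1 h1 with h | h
    · exact (inv_mul_eq_one.1 h).symm
    · exact absurd (by rw [mul_smul, hb, inv_smul_eq_iff, ht]) (h o)
  have hm : ∀ a : α, ∃ m : H, a ≠ o → m • o = o ∧ m • u = a := fun a => by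
    by_cases ha : a = o
    · exact ⟨1, fun h => absurd ha h⟩
    · obtain ⟨g, hg⟩ := h2' hou (Ne.symm ha)
      exact ⟨g, fun _ => hg⟩
  choose m hm using hm
  have hmu : ∀ (g : H) (a : α), a ≠ o → g • o = o → g • u = a → g = m a := by
    intro g a ha h1 h2
    have := hsharp ((m a)⁻¹ * g) o u hou (by rw [mul_smul, h1, inv_smul_eq_iff, (hm a ha).1])
      (by rw [mul_smul, h2, inv_smul_eq_iff, (hm a ha).2])
    exact (inv_mul_eq_one.1 this).symm
  letI : Add α := ⟨fun x y => t y • x⟩
  letI : Zero α := ⟨o⟩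
  letI : Neg α := ⟨fun x => (t x)⁻¹ • o⟩
  have hadd : ∀ x y : α, x + y = t y • x := fun _ _ => rfl
  let ag : AddGroup α := AddGroup.ofLeftAxioms
    (fun x y z => by
      rw [hadd, hadd, hadd, hadd, ← mul_smul,
        htu (t z * t y) (t z • y) (K.mul_mem (htK _) (htK _)) (by rw [mul_smul, ht])])
    (fun x => ht x) (fun x => smul_inv_smul _ _)
  let mul : α → α → α := fun x a => if a = o then o else m a • x
  have hmul0 : ∀ x, mul x o = o := fun x => if_pos rfl
  have hmul : ∀ x a, a ≠ o → mul x a = m a • x := fun x a ha => if_neg ha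
  have hne : ∀ a b, a ≠ o → b ≠ o → m b • a ≠ o := fun a b ha hb h =>
    ha (MulAction.injective (m b) (h.trans (hm b hb).1.symm))
  let mo : Monoid α :=
    { mul := mul
      one := u
      mul_assoc := fun x a b => by
        change mul (mul x a) b = mul x (mul a b)
        by_cases hb : b = o
        · rw [hb, hmul0, hmul0, hmul0]
        by_cases ha : a = o
        · rw [ha, hmul0, hmul _ _ hb, (hm b hb).1, hmul0]
        rw [hmul _ _ hb, hmul _ _ ha, hmul _ _ hb, hmul _ _ (hne a b ha hb), ← mul_smul,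
          hmu (m b * m a) (m b • a) (hne a b ha hb)
            (by rw [mul_smul, (hm a ha).1, (hm b hb).1]) (by rw [mul_smul, (hm a ha).2])]
      one_mul := fun a => by
        change mul u a = a
        by_cases ha : a = o
        · rw [ha, hmul0]
        · rw [hmul _ _ ha, (hm a ha).2]
      mul_one := fun a => by
        change mul a u = a
        rw [hmul _ _ hou.symm, ← hmu 1 u hou.symm (one_smul _ _) (one_smul _ _), one_smul] }
  refine ⟨{ ag, mo with
    right_distrib := fun a b c => ?_
    mul_zero := hmul0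
    zero_ne_one := hou
    exists_inv := fun a ha => ?_ }, fun σ => ?_⟩
  · change mul (t b • a) c = t (mul b c) • (mul a c)
    by_cases hc : c = o
    · rw [hc, hmul0, hmul0, hmul0, ht]
    · rw [hmul _ _ hc, hmul _ _ hc, hmul _ _ hc, ← htu (m c * t b * (m c)⁻¹) (m c • b)
        (hKn.conj_mem _ (htK b) _) (by
          rw [mul_smul, mul_smul, inv_smul_eq_iff.2 (hm c hc).1.symm, ht]),
        mul_smul, mul_smul, inv_smul_smul]
  · have ha' : a ≠ o := ha
    have hb : (m a)⁻¹ • u ≠ o := by
      rw [Ne, inv_smul_eq_iff, (hm a ha').1]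
      exact hou.symm
    refine ⟨(m a)⁻¹ • u, ?_, ?_⟩
    · change mul a ((m a)⁻¹ • u) = u
      rw [hmul _ _ hb, ← hmu (m a)⁻¹ _ hb (inv_smul_eq_iff.2 (hm a ha').1.symm) rfl,
        inv_smul_eq_iff, (hm a ha').2]
    · change mul ((m a)⁻¹ • u) a = u
      rw [hmul _ _ ha', smul_inv_smul]
  · change σ ∈ H ↔ ∃ a b : α, a ≠ o ∧ ∀ x : α, σ x = t b • mul x a
    constructor
    · intro hσ
      let g : H := (t (σ o))⁻¹ * ⟨σ, hσ⟩
      have hgo : g • o = o := by
        rw [mul_smul, inv_smul_eq_iff, ht]; rfl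
      have hgu : g • u ≠ o := fun h => hou (MulAction.injective g (hgo.trans h.symm))
      refine ⟨g • u, σ o, hgu, fun x => ?_⟩
      rw [hmul _ _ hgu, ← hmu g _ hgu hgo rfl, mul_smul, smul_inv_smul]
      rfl
    · rintro ⟨a, b, ha, h⟩
      have : σ = (t b * m a : H) := by
        ext x
        rw [h, hmul _ _ ha, ← mul_smul]
        rfl
      rw [this]
      exact Subtype.prop _

end Cfsg.Agent.S0683
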