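import Mathlib
import Cfsg.Agent.Perm.LinRegStmt
import Cfsg.Statements.S0684

set_option autoImplicit false
open Cfsg

namespace Cfsg.Agent.S0684

/-- Point stabiliser of a sharply doubly transitive group not of semilinear type: a maximal normal abelian subgroup `A` of a linear group `H` that is regular on non-zero vectors and has no irreducible cyclic normal subgroup is cyclic and reducible, and the order of `A` divides `p ^ k - 1` for `k` the dimension of a minimal `A`-invariant subspace. -/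
theorem result {p : ℕ} [Fact p.Prime] {V : Type*} [AddCommGroup V] [Module (ZMod p) V] [Finite V] (H : Subgroup (V ≃ₗ[ZMod p] V)) (hreg : ∀ v w : V, v ≠ 0 → w ≠ 0 → ∃! h : H, (h : V ≃ₗ[ZMod p] V) v = w) (hI : ∀ A : Subgroup H, A.Normal → IsCyclic A → ∃ W : Submodule (ZMod p) V, W ≠ ⊥ ∧ W ≠ ⊤ ∧ ∀ a ∈ A, ∀ v ∈ W, ((a : H) : V ≃ₗ[ZMod p] V) v ∈ W) (A : Subgroup H) (hAn : A.Normal) (hAc : IsMulCommutative A) (hAmax : ∀ B : Subgroup H, B.Normal → IsMulCommutative B → A ≤ B → B = A) : IsCyclic A ∧ ∃ W : Submodule (ZMod p) V, W ≠ ⊥ ∧ W ≠ ⊤ ∧ (∀ a ∈ A, ∀ v ∈ W, ((a : H) : V ≃ₗ[ZMod p] V) v ∈ W) ∧ (∀ W' : Submodule (ZMod p) V, W' ≤ W → (∀ a ∈ A, ∀ v ∈ W', ((a : H) : V ≃ₗ[ZMod p] V) v ∈ W') → W' = ⊥ ∨ W' = W) ∧ Nat.card A ∣ p ^ Module.finrank (ZMod p) W - 1 := by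
  haveI := Perm.nontrivial_of_red hI
  obtain ⟨K, _, _, _, ⟨D⟩⟩ := Perm.exists_fieldData (Perm.trans_of_reg hreg) A
  obtain ⟨W0, h0, h1, hW0⟩ := hI A hAn D.isCyclic
  obtain ⟨v, hvW, hv⟩ := (Submodule.ne_bot_iff W0).1 h0
  let W : Submodule (ZMod p) V := AddSubgroup.toZModSubmodule p (K ∙ v).toAddSubgroup
  have hW : ∀ x, x ∈ W ↔ ∃ c : K, c • v = x := fun x => Submodule.mem_span_singleton
  have hle : W ≤ W0 := by
    intro x hx
    obtain ⟨c, rfl⟩ := (hW x).1 hx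
    exact D.smul_mem (W := W0.toAddSubgroup) hW0 c hvW
  refine ⟨D.isCyclic, W, ?_, fun e => h1 (top_le_iff.1 (e ▸ hle)), ?_, ?_, ?_⟩
  · exact (Submodule.ne_bot_iff W).2 ⟨v, (hW v).2 ⟨1, one_smul _ _⟩, hv⟩
  · intro a ha x hx
    obtain ⟨c, rfl⟩ := (hW x).1 hx
    exact (hW _).2 ⟨D.α ⟨a, ha⟩ * c, by rw [mul_smul, ← D.smul_eq]; rfl⟩
  · intro W' hW' hinv
    rw [or_iff_not_imp_left]
    intro hne
    obtain ⟨x, hx, hx0⟩ := (Submodule.ne_bot_iff W').1 hne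
    obtain ⟨c, rfl⟩ := (hW x).1 (hW' hx)
    have hc : c ≠ 0 := fun e => hx0 (by rw [e, zero_smul])
    refine le_antisymm hW' fun y hy => ?_
    obtain ⟨d, rfl⟩ := (hW y).1 hy
    have := D.smul_mem (W := W'.toAddSubgroup) hinv (d * c⁻¹) hx
    rwa [smul_smul, inv_mul_cancel_right₀ hc] at this
  · have e1 : Nat.card W = Nat.card K :=
      (Nat.card_congr (LinearEquiv.toSpanNonzeroSingleton K V v hv).toEquiv).symm
    have e2 := Module.natCard_eq_pow_finrank (K := ZMod p) (V := W)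
    rw [Nat.card_zmod] at e2
    rw [← e2, e1]
    exact D.card_dvd

end Cfsg.Agent.S0684
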