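import Mathlib
import Cfsg.Agent.Perm.LinRegStmt
import Cfsg.Statements.S0687

set_option autoImplicit false
open Cfsg

namespace Cfsg.Agent.S0687

/-- In a linear group over the prime field that is regular on non-zero vectors and has no irreducible cyclic normal subgroup, a normal subgroup `N` minimal among the non-abelian normal subgroups centralising a maximal normal abelian subgroup `A` is irreducible on `V`, and its centraliser is `A`. -/
theorem result {p : ℕ} [Fact p.Prime] {V : Type*} [AddCommGroup V] [Module (ZMod p) V] [Finite V] (H : Subgroup (V ≃ₗ[ZMod p] V)) (hreg : ∀ v w : V, v ≠ 0 → w ≠ 0 → ∃! h : H, (h : V ≃ₗ[ZMod p] V) v = w) (hI : ∀ A : Subgroup H, A.Normal → IsCyclic A → ∃ W : Submodule (ZMod p) V, W ≠ ⊥ ∧ W ≠ ⊤ ∧ ∀ a ∈ A, ∀ v ∈ W, ((a : H) : V ≃ₗ[ZMod p] V) v ∈ W) (A : Subgroup H) (hAn : A.Normal) (hAc : IsMulCommutative A) (hAmax : ∀ B : Subgroup H, B.Normal → IsMulCommutative B → A ≤ B → B = A) (N : Subgroup H) (hNn : N.Normal) (hNle : N ≤ Subgroup.centralizer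 (A : Set H)) (hNna : ¬ IsMulCommutative N) (hNmin : ∀ M : Subgroup H, M.Normal → M ≤ N → ¬ IsMulCommutative M → M = N) : (∀ W : Submodule (ZMod p) V, (∀ n ∈ N, ∀ v ∈ W, ((n : H) : V ≃ₗ[ZMod p] V) v ∈ W) → W = ⊥ ∨ W = ⊤) ∧ Subgroup.centralizer (N : Set H) = A := by
  haveI := Perm.nontrivial_of_red hI
  have hp : p.Prime := Fact.out
  have h : Perm.MinNonab A N := ⟨hAn, hAc, hAmax, hNn, hNle, hNna, hNmin⟩
  obtain ⟨h1, -, -, W, hW, hinv⟩ := Perm.exists_line_of_reg hp Perm.nsmul_eq_zero_of_zmod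
    (Perm.trans_of_reg hreg) (Perm.free_of_reg hreg)
    (h.quaternion_or_sl (Perm.hasFpfAction_of_reg hreg))
  constructor
  · intro U hU
    exact (Perm.irreducible_of_card_sq hp h1 (Perm.free_of_reg hreg) hNna U.toAddSubgroup hU).imp
      (fun e => Submodule.toAddSubgroup_injective e) (fun e => Submodule.toAddSubgroup_injective e)
  · refine hAmax _ inferInstance (Perm.comm_of_card_prime hp _ W hW hinv fun c _ hc => ?_)
      h.le_centralizer'
    obtain ⟨v, hv, hv0⟩ := (W.bot_or_exists_ne_zero).resolve_left fun e => by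
      rw [e, AddSubgroup.card_bot] at hW
      exact hp.one_lt.ne hW
    exact Perm.free_of_reg hreg c v hv0 (hc v hv)

end Cfsg.Agent.S0687
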