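import Mathlib
-- Template for statement S0688 (row 688; see /opt/grader/pristine/manifest.json for weights).
-- Copy to Cfsg/Agent/S0688.lean and replace the sorry. The statement below is byte-identical to the frozen
-- statement Cfsg.CfsgFrozen.S0688 (Cfsg/Statements/S0688.lean; the theorem Cfsg.sharply_two_transitive_type_two_degrees);
-- the grader kernel-checks Cfsg.Agent.S0688.result against that frozen type. Keep the theorem IN THIS FILE
-- (a `result` declared elsewhere and merely imported here is not credited); helpers may live anywhere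
-- under Cfsg/Agent/.
import Cfsg.Statements.S0688
import Cfsg.Agent.GT.NearField
-- import your own Cfsg.Agent.* helpers here

set_option autoImplicit false
open Cfsg

namespace Cfsg.Agent.S0688

/-- Degrees of the soluble exceptional sharply doubly transitive groups: if a solvable linear group over the prime field is regular on the non-zero vectors of `V` and has no irreducible cyclic normal subgroup, then `V` has 25, 49, 121 or 529 elements. -/
theorem result {p : ℕ} [Fact p.Prime] {V : Type*} [AddCommGroup V] [Module (ZMod p) V] [Finite V] (H : Subgroup (V ≃ₗ[ZMod p] V)) (hreg : ∀ v w : V, v ≠ 0 → w ≠ 0 → ∃! h : H, (h : V ≃ₗ[ZMod p] V) v = w) (hI : ∀ A : Subgroup H, A.Normal → IsCyclic A → ∃ W : Submodule (ZMod p) V, W ≠ ⊥ ∧ W ≠ ⊤ ∧ ∀ a ∈ A, ∀ v ∈ W, ((a : H) : V ≃ₗ[ZMod p] V) v ∈ W) (hsolv : Group.IsSolvable H) : Nat.card V = 25 ∨ Nat.card V = 49 ∨ Nat.card V = 121 ∨ Nat.card V = 529 := by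
  have hr : GT.Frob.RegOn H.subtype := hreg
  have hI' : ∀ A : Subgroup H, A.Normal → IsCyclic A → ¬ GT.Frob.IrrOn H.subtype A :=
    fun A h1 h2 => GT.Frob.not_irrOn_iff.mpr (hI A h1 h2)
  have := GT.Frob.nontrivial_of_not_irrOn (hI' ⊥ inferInstance inferInstance)
  obtain ⟨-, -, -, -, -, h1, h2⟩ := hr.exceptional hI'
  rcases h2 with rfl | rfl | rfl | rfl <;> simp [h1]
end Cfsg.Agent.S0688
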