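import Mathlib
-- Template for statement S0689 (row 689; see /opt/grader/pristine/manifest.json for weights).
-- Copy to Cfsg/Agent/S0689.lean and replace the sorry. The statement below is byte-identical to the frozen
-- statement Cfsg.CfsgFrozen.S0689 (Cfsg/Statements/S0689.lean; the theorem Cfsg.sharply_two_transitive_type_three_structure);
-- the grader kernel-checks Cfsg.Agent.S0689.result against that frozen type. Keep the theorem IN THIS FILE
-- (a `result` declared elsewhere and merely imported here is not credited); helpers may live anywhere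
-- under Cfsg/Agent/.
import Cfsg.Statements.S0689
import Cfsg.Agent.GT.NearField
-- import your own Cfsg.Agent.* helpers here

set_option autoImplicit false
open Cfsg

namespace Cfsg.Agent.S0689

/-- The insoluble sharply doubly transitive groups: a non-solvable linear group over the prime field that is regular on the non-zero vectors of `V` occurs only for `|V| = 11², 29², 59²`, and is `SL(2,5) × C_m` with `m = 1, 7, 29` respectively. -/
theorem result {p : ℕ} [Fact p.Prime] {V : Type*} [AddCommGroup V] [Module (ZMod p) V] [Finite V] (H : Subgroup (V ≃ₗ[ZMod p] V)) (hreg : ∀ v w : V, v ≠ 0 → w ≠ 0 → ∃! h : H, (h : V ≃ₗ[ZMod p] V) v = w) (hsolv : ¬ Group.IsSolvable H) : (Nat.card V = 121 ∧ Nonempty (H ≃* Matrix.SpecialLinearGroup (Fin 2) (ZMod 5))) ∨ (Nat.card V = 841 ∧ Nonempty (H ≃* Matrix.SpecialLinearGroup (Fin 2) (ZMod 5) × Multiplicative (ZMod 7))) ∨ (Nat.card V = 3481 ∧ Nonempty (H ≃* Matrix.SpecialLinearGroup (Fin 2) (ZMod 5) × Multiplicative (ZMod 29))) := by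
  have hr : GT.Frob.RegOn H.subtype := hreg
  rcases subsingleton_or_nontrivial V with hV | hV
  · have : Subsingleton H := ⟨fun a b => Subtype.ext (LinearEquiv.ext fun _ =>
      Subsingleton.elim _ _)⟩
    exact (hsolv inferInstance).elim
  obtain ⟨m, ⟨e⟩, ⟨h, rfl⟩ | ⟨h, rfl⟩ | ⟨h, rfl⟩⟩ := hr.nonsolvable hsolv
  · have : Unique (Multiplicative (ZMod 1)) := inferInstanceAs (Unique (Fin 1))
    exact Or.inl ⟨h, ⟨e.trans MulEquiv.prodUnique⟩⟩
  · exact Or.inr (Or.inl ⟨h, ⟨e⟩⟩)
  · exact Or.inr (Or.inr ⟨h, ⟨e⟩⟩)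
end Cfsg.Agent.S0689
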