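import Mathlib
-- Template for statement S0690 (row 690; see /opt/grader/pristine/manifest.json for weights).
-- Copy to Cfsg/Agent/S0690.lean and replace the sorry. The statement below is byte-identical to the frozen
-- statement Cfsg.CfsgFrozen.S0690 (Cfsg/Statements/S0690.lean; the theorem Cfsg.perfect_fixed_point_free_automorphism_group_is_sl_two_five);
-- the grader kernel-checks Cfsg.Agent.S0690.result against that frozen type. Keep the theorem IN THIS FILE
-- (a `result` declared elsewhere and merely imported here is not credited); helpers may live anywhere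
-- under Cfsg/Agent/.
import Cfsg.Statements.S0690
import Cfsg.Agent.GT.ZassenhausThm
-- import your own Cfsg.Agent.* helpers here

set_option autoImplicit false
open Cfsg

namespace Cfsg.Agent.S0690

/-- Zassenhaus: a perfect non-trivial group of fixed-point-free automorphisms of a finite group is isomorphic to `SL(2,5)`. -/
theorem result {K : Type*} [Group K] [Finite K] (G : Subgroup (MulAut K)) (hfpf : ∀ φ ∈ G, φ ≠ 1 → ∀ k : K, φ k = k → k = 1) (hperf : commutator G = ⊤) (hne : G ≠ ⊥) : Nonempty (G ≃* Matrix.SpecialLinearGroup (Fin 2) (ZMod 5)) := by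
  have := (Subgroup.nontrivial_iff_ne_bot G).mpr hne
  have : Group.IsPerfect G := ⟨hperf⟩
  have : Nontrivial K := by
    by_contra hK
    rw [not_nontrivial_iff_subsingleton] at hK
    exact hne (eq_bot_iff.mpr fun φ _ => MulEquiv.ext fun _ => Subsingleton.elim _ _)
  let e : Shrink.{0} K ≃* K := Shrink.mulEquiv
  have := Finite.of_equiv _ e.toEquiv.symm
  have := e.toEquiv.nontrivial
  obtain ⟨L, _, _, H, -, hH, he, -⟩ := GT.Frob.exists_isFrobeniusComplement_of_fpf
    ((MulAut.congr e.symm).toMonoidHom.comp G.subtype) fun a ha v hv => by
      have h1 : a.1 (e v) = e v := by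
        have := congrArg e hv
        simpa using this
      exact e.injective ((hfpf a a.2 (fun h => ha (Subtype.ext h)) _ h1).trans e.map_one.symm)
  exact (GT.Frob.hasFpfAction_of_exists ⟨L, _, ‹_›, H, hH, he⟩).1.nonempty_mulEquiv_sl2_five
end Cfsg.Agent.S0690
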