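import Mathlib
import Cfsg.Statements.S0694

set_option autoImplicit false
open Cfsg

namespace Cfsg.Agent.S0694

open Finset

theorem lte {t r : ℕ} (hr : r.Prime) (ht0 : t ≠ 0) (hrt : r ∣ t) (h4 : r = 2 → 4 ∣ t) (i k : ℕ) :
    r ^ k ∣ ∑ j ∈ range i, (t + 1) ^ j ↔ r ^ k ∣ i := by
  have hx : ¬ r ∣ t + 1 := fun h => hr.one_lt.ne' (Nat.dvd_one.1 ((Nat.dvd_add_right hrt).1 h))
  have hS : (t + 1) ^ i - 1 ^ i = (∑ j ∈ range i, (t + 1) ^ j) * t := by
    rw [← geom_sum_mul_add t i]; simp
  have key : emultiplicity r ((t + 1) ^ i - 1 ^ i) = emultiplicity r t + emultiplicity r i := by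
    rcases hr.eq_two_or_odd' with rfl | hodd
    · have := Int.two_pow_sub_pow' (x := (t + 1 : ℕ)) (y := 1) i
        (by simpa using Int.natCast_dvd_natCast.2 (h4 rfl)) (by exact_mod_cast hx)
      rw [← Int.natCast_emultiplicity, ← Int.natCast_emultiplicity, ← Int.natCast_emultiplicity,
        Int.ofNat_sub (Nat.pow_le_pow_left (by omega) i)]
      simpa using this
    · simpa using Nat.emultiplicity_pow_sub_pow hr hodd (x := t + 1) (y := 1) (by simpa) hx i
  rw [hS, emultiplicity_mul hr.prime, add_comm] at key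
  have hfin : emultiplicity r t ≠ ⊤ :=
    finiteMultiplicity_iff_emultiplicity_ne_top.1
      (Nat.finiteMultiplicity_iff.2 ⟨hr.ne_one, Nat.pos_of_ne_zero ht0⟩)
  rw [pow_dvd_iff_le_emultiplicity, pow_dvd_iff_le_emultiplicity,
    (WithTop.add_left_inj hfin).1 key]

theorem parity {t : ℕ} (ht : 2 ∣ t) (i : ℕ) : (∑ j ∈ range i, (t + 1) ^ j) % 2 = i % 2 := by
  induction i with
  | zero => simp
  | succ i ih =>
    rw [sum_range_succ]
    have : (t + 1) ^ i % 2 = 1 := by
      rw [Nat.pow_mod, show (t + 1) % 2 = 1 by omega]; simp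
    omega

/-- The Dickson pair condition: for a prime power `q` and `n > 1`, (every prime factor of `n` divides `q - 1`, and `4 ∣ n → 4 ∣ q - 1`) holds exactly when `q ^ n ≡ 1` modulo `n * (q - 1)` but `q ^ i` is not, for `0 < i < n`. -/
theorem result (q n : ℕ) (hq : IsPrimePow q) (hn : 1 < n) : ((∀ r : ℕ, r.Prime → r ∣ n → r ∣ q - 1) ∧ (4 ∣ n → 4 ∣ q - 1)) ↔ (q ^ n ≡ 1 [MOD n * (q - 1)] ∧ ∀ i : ℕ, 0 < i → i < n → ¬ q ^ i ≡ 1 [MOD n * (q - 1)]) := by
  obtain ⟨t, rfl⟩ : ∃ t, q = t + 1 := ⟨q - 1, by have := hq.two_le; omega⟩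
  have ht0 : t ≠ 0 := by have := hq.two_le; omega
  simp only [Nat.add_sub_cancel]
  have hmod : ∀ i, (t + 1) ^ i ≡ 1 [MOD n * t] ↔ n ∣ ∑ j ∈ range i, (t + 1) ^ j := by
    intro i
    rw [← geom_sum_mul_add t i, Nat.ModEq.comm, Nat.modEq_iff_dvd' (by omega), Nat.add_sub_cancel,
      Nat.mul_dvd_mul_iff_right (Nat.pos_of_ne_zero ht0)]
  simp only [hmod]
  constructor
  · rintro ⟨h1, h2⟩
    have key : ∀ i, n ∣ ∑ j ∈ range i, (t + 1) ^ j ↔ n ∣ i := by
      intro i
      rw [Nat.dvd_iff_prime_pow_dvd_dvd, Nat.dvd_iff_prime_pow_dvd_dvd]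
      refine forall_congr' fun r => forall_congr' fun k => forall_congr' fun hr =>
        forall_congr' fun hk => ?_
      rcases k with _ | k
      · simp
      have hrt : r ∣ t := h1 r hr ((dvd_pow_self r (by omega)).trans hk)
      by_cases h : r = 2 → 4 ∣ t
      · exact lte hr ht0 hrt h i _
      · push Not at h
        obtain ⟨rfl, h4⟩ := h
        rcases k with _ | k
        · have := parity hrt i
          simp only [zero_add, pow_one]
          omega
        · exact absurd (h2 (Dvd.dvd.trans ⟨2 ^ k, by ring⟩ hk)) h4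
    exact ⟨(key n).2 dvd_rfl, fun i h0 hi h => Nat.not_dvd_of_pos_of_lt h0 hi ((key i).1 h)⟩
  · rintro ⟨h1, h2⟩
    haveI : NeZero n := ⟨by omega⟩
    set S : ℕ → ℕ := fun i => ∑ j ∈ range i, (t + 1) ^ j with hS
    have hadd : ∀ i k, S (i + k) = S i + (t + 1) ^ i * S k := by
      intro i k
      simp only [hS, sum_range_add, pow_add, mul_sum]
    have hsucc : ∀ i, S (1 + i) = 1 + (t + 1) * S i := fun i => by
      rw [hadd]; simp [hS]
    have hcop : Nat.Coprime n (t + 1) := by
      obtain ⟨m, rfl⟩ : ∃ m, n = 1 + m := ⟨n - 1, by omega⟩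
      change 1 + m ∣ S (1 + m) at h1
      rw [hsucc] at h1
      refine Nat.Coprime.coprime_dvd_left h1 ?_
      simp
    have hinj : Function.Injective (fun i : Fin n => (S i : ZMod n)) := by
      intro i j hij
      wlog h : i ≤ j generalizing i j
      · exact (this hij.symm (le_of_not_ge h)).symm
      obtain ⟨k, hk⟩ := Nat.exists_eq_add_of_le (Fin.le_def.1 h)
      simp only at hij
      rw [hk, hadd, Nat.cast_add, left_eq_add, ZMod.natCast_eq_zero_iff] at hij
      have := (Nat.Coprime.pow_right _ hcop).dvd_of_dvd_mul_left hij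
      by_cases hk0 : k = 0
      · exact Fin.ext (by omega)
      · exact absurd this (h2 k (by omega) (by omega))
    have hsurj := (hinj.bijective_of_nat_card_le (by simp)).2
    have hres : ∀ d, d ∣ n → ∀ x : ℕ, ∃ i < n, (S i : ZMod d) = x := by
      intro d hd x
      obtain ⟨i, hi⟩ := hsurj (x : ZMod n)
      refine ⟨i, i.2, ?_⟩
      rw [ZMod.natCast_eq_natCast_iff] at hi ⊢
      exact Nat.ModEq.of_dvd hd hi
    have hr : ∀ r : ℕ, r.Prime → r ∣ n → r ∣ t := by
      intro r hr hrn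
      haveI : Fact r.Prime := ⟨hr⟩
      by_contra hrt
      have ht : (t : ZMod r) ≠ 0 := by rwa [Ne, ZMod.natCast_eq_zero_iff]
      obtain ⟨i, hi, hx⟩ := hres r hrn (-(t : ZMod r)⁻¹).val
      rw [ZMod.natCast_zmod_val] at hx
      have h3 : (S i : ZMod r) * t + 1 = (t + 1) ^ i := by
        have := congrArg (Nat.cast : ℕ → ZMod r) (geom_sum_mul_add t i)
        simpa [hS] using this
      rw [hx, neg_mul, inv_mul_cancel₀ ht, neg_add_cancel] at h3
      have h4 : ((t + 1 : ℕ) : ZMod r) = 0 := by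
        push_cast
        exact (pow_eq_zero_iff (by rintro rfl; simp at h3)).1 h3.symm
      rw [ZMod.natCast_eq_zero_iff] at h4
      exact hr.one_lt.ne' ((Nat.coprime_self _).1
        (Nat.Coprime.coprime_dvd_right h4 (Nat.Coprime.coprime_dvd_left hrn hcop)))
    refine ⟨hr, fun h4 => ?_⟩
    have h2t := hr 2 Nat.prime_two (Dvd.dvd.trans (by norm_num) h4)
    by_contra h4t
    have ht : (t : ZMod 4) = 2 := by
      rw [show (2 : ZMod 4) = (2 : ℕ) from rfl, ZMod.natCast_eq_natCast_iff]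
      unfold Nat.ModEq
      omega
    have : ∀ i, (S i : ZMod 4) = 0 ∨ (S i : ZMod 4) = 1 := by
      intro i
      induction i with
      | zero => left; simp [hS]
      | succ i ih =>
        rw [add_comm, hsucc]
        push_cast
        rw [ht]
        rcases ih with h | h <;> rw [h] <;> decide
    obtain ⟨i, -, hi⟩ := hres 4 h4 2
    rcases this i with h | h <;> rw [h] at hi <;> exact absurd hi (by decide)

end Cfsg.Agent.S0694
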