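import Cfsg.Statements.S0695
import Mathlib
import Cfsg.Agent.Perm.Multi
-- import your own Cfsg.Agent.* helpers here

set_option autoImplicit false
open Cfsg

namespace Cfsg.Agent.S0695

open MulAction Cfsg.Agent.Perm

/-- A regular normal subgroup of a doubly primitive group of finite degree at least 2 is an elementary abelian 2-group (and the degree is a power of 2), unless the degree is 3. -/
theorem result {G : Type*} [Group G] {X : Type*} [Fintype X] [MulAction G X] (hX : 2 ≤ Fintype.card X) (h2 : MulAction.IsMultiplyPreprimitive G X 2) (N : Subgroup G) [N.Normal] (htrans : MulAction.IsPretransitive N X) (hreg : ∀ x : X, MulAction.stabilizer N x = ⊥) : Fintype.card X = 3 ∨ (IsMulCommutative N ∧ (∀ n ∈ N, n ^ 2 = 1) ∧ ∃ m : ℕ, Fintype.card X = 2 ^ m) := by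
  have : Nonempty X := Fintype.card_pos_iff.1 (by omega)
  obtain ⟨a⟩ := this
  rcases regular_normal_two_prim a (h2.isPreprimitive_ofFixingSubgroup (by simp; rfl)) N (hreg a)
    with h | h
  · left; rwa [← Nat.card_eq_fintype_card]
  · right
    have := finite_of_semiregular N (hreg a)
    refine ⟨isMulCommutative_of_sq N h, h, ?_⟩
    obtain ⟨m, hm⟩ := card_eq_prime_pow_of_forall_pow N Nat.prime_two h
    exact ⟨m, by rw [← hm, card_subgroup_eq_of_regular N a (hreg a), Nat.card_eq_fintype_card]⟩

end Cfsg.Agent.S0695
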