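import Cfsg.Statements.S0696
import Mathlib
import Cfsg.Agent.Perm.Multi
-- import your own Cfsg.Agent.* helpers here

set_option autoImplicit false
open Cfsg

namespace Cfsg.Agent.S0696

open MulAction Cfsg.Agent.Perm

/-- A triply primitive group of degree at least 3 having a regular normal subgroup has degree 3 or 4. -/
theorem result {G : Type*} [Group G] {X : Type*} [Fintype X] [MulAction G X] (hX : 3 ≤ Fintype.card X) (h3 : MulAction.IsMultiplyPreprimitive G X 3) (N : Subgroup G) [N.Normal] (htrans : MulAction.IsPretransitive N X) (hreg : ∀ x : X, MulAction.stabilizer N x = ⊥) : Fintype.card X = 3 ∨ Fintype.card X = 4 := by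
  classical
  rw [← Nat.card_eq_fintype_card] at hX ⊢
  have : Nontrivial X := Finite.one_lt_card_iff_nontrivial.1 (by omega)
  obtain ⟨a, b, hab⟩ := exists_pair_ne X
  have p1 := fix_prim_of_multiply h3 hX {a} (by simp)
  have p2 := fix_prim_of_multiply h3 hX {a, b} (by rw [Finset.card_pair hab]; omega)
  rw [Finset.coe_singleton] at p1
  rw [Finset.coe_pair] at p2
  rcases regular_normal_two_prim a p1 N (hreg a) with h | h
  · exact Or.inl h
  · exact Or.inr (regular_normal_three_prim hab hX p2 N hreg h)

end Cfsg.Agent.S0696
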