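import Cfsg.Statements.S0697
import Mathlib
import Cfsg.Agent.Perm.Multi
-- import your own Cfsg.Agent.* helpers here

set_option autoImplicit false
open Cfsg

namespace Cfsg.Agent.S0697

open MulAction Cfsg.Agent.Perm

/-- In a `k`-primitive permutation group which is not the whole symmetric group, a non-trivial non-regular normal subgroup is `k`-transitive. -/
theorem result {α : Type*} [Fintype α] [DecidableEq α] (G : Subgroup (Equiv.Perm α)) {k : ℕ} (hk : 1 ≤ k) (hkn : k ≤ Fintype.card α) (hG : MulAction.IsMultiplyPreprimitive G α k) (htop : G ≠ ⊤) (H : Subgroup G) [H.Normal] (hH : H ≠ ⊥) (hnr : ∃ a : α, MulAction.stabilizer H a ≠ ⊥) : MulAction.IsMultiplyPretransitive H α k := by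
  rw [← Nat.card_eq_fintype_card] at hkn
  have hlt : k + 1 < Nat.card α := by
    by_contra hc
    apply htop
    apply Equiv.Perm.eq_top_of_isMultiplyPretransitive
    exact isMultiplyPretransitive_of_le (n := k) (by omega) hkn
  have hp : IsPreprimitive G α := by
    rw [← is_one_preprimitive_iff]
    exact isMultiplyPreprimitive_of_le G α hG hk (by
      rw [ENat.card_eq_coe_natCard]; exact_mod_cast hkn)
  apply normal_isMultiplyPretransitive H hkn (fix_prim_of_multiply hG hkn) hH hnr
    (fun j _ hj => by omega)
  intro t _ a b hab ht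
  exfalso
  apply htop
  apply Equiv.Perm.subgroup_eq_top_of_isPreprimitive_of_isSwap_mem hp t _ t.2
  exact ⟨a, b, hab, Equiv.ext ht⟩

end Cfsg.Agent.S0697
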