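import Cfsg.Statements.S0701
import Mathlib
import Cfsg.Agent.Perm.Regular
-- import your own Cfsg.Agent.* helpers here

set_option autoImplicit false
open Cfsg

namespace Cfsg.Agent.S0701

open MulAction Cfsg.Agent.Perm

/-- The centraliser in the full symmetric group of a transitive permutation group `G` is semiregular, and it is transitive if and only if `G` is regular. -/
theorem result {α : Type*} (G : Subgroup (Equiv.Perm α)) [MulAction.IsPretransitive G α] : (∀ c ∈ Subgroup.centralizer (G : Set (Equiv.Perm α)), ∀ a : α, c a = a → c = 1) ∧ (MulAction.IsPretransitive (Subgroup.centralizer (G : Set (Equiv.Perm α))) α ↔ ∀ a : α, MulAction.stabilizer G a = ⊥) := by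
  have : IsPretransitive G α := inferInstance
  refine ⟨fun c hc a ha => eq_one_of_commute_of_fix (X := α) G (fun h hh => hc h hh) ha, ?_, ?_⟩
  · intro ht a
    exact stabilizer_eq_bot_of_le_centralizer (Subgroup.centralizer (G : Set (Equiv.Perm α))) G
      (Subgroup.le_centralizer_iff.1 le_rfl) a
  · intro hreg
    rw [isPretransitive_subgroup_iff]
    intro a b
    choose f hf1 hf2 using fun x : α => exists_mem_smul_eq G a x
    choose f' hf1' hf2' using fun x : α => exists_mem_smul_eq G b x
    have key : ∀ g ∈ G, f (g • a) = g := fun g hg =>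
      eq_of_smul_eq_of_semiregular (hreg a) (hf1 _) hg (hf2 _)
    have key' : ∀ g ∈ G, f' (g • b) = g := fun g hg =>
      eq_of_smul_eq_of_semiregular (hreg b) (hf1' _) hg (hf2' _)
    refine ⟨⟨fun x => f x • b, fun x => f' x • a, fun x => ?_, fun x => ?_⟩, ?_, ?_⟩
    · simp only
      rw [key' _ (hf1 x), hf2]
    · simp only
      rw [key _ (hf1' x), hf2']
    · intro g hg
      ext x
      change g • f x • b = f (g • x) • b
      conv_rhs => rw [← hf2 x, ← mul_smul, key _ (G.mul_mem hg (hf1 x)), mul_smul]
    · change f a • b = b
      have := key 1 G.one_mem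
      rw [one_smul] at this
      rw [this, one_smul]

end Cfsg.Agent.S0701
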