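import Cfsg.Statements.S0702
import Mathlib
import Cfsg.Agent.Perm.Regular
-- import your own Cfsg.Agent.* helpers here

set_option autoImplicit false
open Cfsg

namespace Cfsg.Agent.S0702

open MulAction Cfsg.Agent.Perm

theorem mem_norm {G α : Type*} [Group G] [MulAction G α] (a : α) (n : G) :
    n ∈ Subgroup.normalizer ((stabilizer G a : Subgroup G) : Set G) ↔
      stabilizer G (n⁻¹ • a) = stabilizer G a := by
  rw [Subgroup.mem_normalizer_iff, Subgroup.ext_iff]
  refine forall_congr' fun h => ?_
  simp only [mem_stabilizer_iff, mul_smul]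
  rw [smul_eq_iff_eq_inv_smul n]
  exact Iff.comm

theorem exists_cent {α : Type*} (G : Subgroup (Equiv.Perm α)) [IsPretransitive G α] (a b : α)
    (h : stabilizer G b = stabilizer G a) :
    ∃ c ∈ Subgroup.centralizer (G : Set (Equiv.Perm α)), c a = b := by
  choose f hf using fun x : α => exists_smul_eq G a x
  choose f' hf' using fun x : α => exists_smul_eq G b x
  have key : ∀ g g' : G, g • a = g' • a ↔ g • b = g' • b := by
    intro g g'
    rw [← inv_smul_eq_iff, ← inv_smul_eq_iff (g := g') (b := b),
      ← mul_smul, ← mul_smul, ← mem_stabilizer_iff, ← mem_stabilizer_iff, h]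
  refine ⟨⟨fun x => f x • b, fun x => f' x • a, fun x => ?_, fun x => ?_⟩, ?_, ?_⟩
  · simp only
    rw [(key _ _).2 (hf' _), hf]
  · simp only
    rw [(key _ _).1 (hf _), hf']
  · intro g hg
    ext x
    change (⟨g, hg⟩ : G) • f x • b = f ((⟨g, hg⟩ : G) • x) • b
    rw [← mul_smul, ← key, mul_smul, hf, hf]
  · change f a • b = b
    have := (key (f a) 1).1 (by rw [hf, one_smul])
    rwa [one_smul] at this


/-- For a transitive permutation group `G` on a finite set, the centraliser of `G` in the symmetric group is isomorphic to `N_G(G_ω)/G_ω`, and its orbit of `ω` is the set of fixed points of `G_ω`. -/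
theorem result {α : Type*} [Finite α] (G : Subgroup (Equiv.Perm α)) [MulAction.IsPretransitive G α] (a : α) : Nonempty (Subgroup.centralizer (G : Set (Equiv.Perm α)) ≃* Subgroup.normalizer ((MulAction.stabilizer G a : Subgroup G) : Set G) ⧸ (MulAction.stabilizer G a).subgroupOf (Subgroup.normalizer ((MulAction.stabilizer G a : Subgroup G) : Set G))) ∧ MulAction.orbit (Subgroup.centralizer (G : Set (Equiv.Perm α))) a = MulAction.fixedPoints (MulAction.stabilizer G a) α := by
  constructor
  · choose f hf1 hf2 using fun n : Subgroup.normalizer ((stabilizer G a : Subgroup G) : Set G) =>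
      exists_cent G a _ ((mem_norm a (n : G)).1 n.2)
    have uniq : ∀ c ∈ Subgroup.centralizer (G : Set (Equiv.Perm α)),
        ∀ c' ∈ Subgroup.centralizer (G : Set (Equiv.Perm α)), c a = c' a → c = c' :=
      fun c hc c' hc' e => eq_of_smul_eq_of_semiregular
        (stabilizer_eq_bot_of_le_centralizer G _ le_rfl a) hc hc' e
    let φ : Subgroup.normalizer ((stabilizer G a : Subgroup G) : Set G) →*
        Subgroup.centralizer (G : Set (Equiv.Perm α)) :=
      MonoidHom.mk' (fun n => ⟨f n, hf1 n⟩) (fun m n => by
        apply Subtype.ext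
        apply uniq _ (hf1 _) _ (Subgroup.mul_mem _ (hf1 _) (hf1 _))
        have := hf1 m _ ((n : G)⁻¹).2
        rw [hf2, Equiv.Perm.mul_apply, hf2]
        have h2 := DFunLike.congr_fun this a
        simp only [Equiv.Perm.mul_apply, hf2] at h2
        rw [Subgroup.coe_mul, mul_inv_rev, mul_smul]
        exact h2)
    have hs : Function.Surjective φ := by
      rintro ⟨c, hc⟩
      obtain ⟨g, hg⟩ := exists_smul_eq G a (c a)
      have h1 : g⁻¹ ∈ Subgroup.normalizer ((stabilizer G a : Subgroup G) : Set G) := by
        rw [mem_norm, inv_inv, hg]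
        ext h
        have := DFunLike.congr_fun (hc _ h.2) a
        simp only [Equiv.Perm.mul_apply] at this
        change (h : Equiv.Perm α) (c a) = c a ↔ (h : Equiv.Perm α) a = a
        rw [this, c.apply_eq_iff_eq]
      refine ⟨⟨_, h1⟩, Subtype.ext (uniq _ (hf1 _) _ hc ?_)⟩
      rw [hf2]; simpa using hg
    have hk : φ.ker = (stabilizer G a).subgroupOf _ := by
      ext n
      rw [MonoidHom.mem_ker, Subgroup.mem_subgroupOf, mem_stabilizer_iff]
      constructor
      · intro h
        have h1 : f n = 1 := congrArg Subtype.val h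
        have := hf2 n
        rw [h1, eq_inv_smul_iff] at this
        exact this
      · intro h
        apply Subtype.ext
        apply uniq _ (hf1 _) _ (Subgroup.one_mem _)
        rw [hf2, inv_smul_eq_iff]
        exact h.symm
    exact ⟨((QuotientGroup.quotientMulEquivOfEq hk).symm.trans
      (QuotientGroup.quotientKerEquivOfSurjective φ hs)).symm⟩
  · ext b
    rw [mem_orbit_subgroup_iff]
    constructor
    · rintro ⟨c, hc, rfl⟩ ⟨h, hh⟩
      have := DFunLike.congr_fun (hc _ h.2) a
      simp only [Equiv.Perm.mul_apply] at this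
      change (h : Equiv.Perm α) (c a) = c a
      rw [this]
      exact congrArg c hh
    · intro hb
      exact exists_cent G a b (stabilizer_eq_of_le (fun g hg => hb ⟨g, hg⟩)).symm

end Cfsg.Agent.S0702
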