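import Cfsg.Statements.S0703
import Mathlib
import Cfsg.Agent.Perm.Regular
import Cfsg.Agent.GT.MinNormal
-- import your own Cfsg.Agent.* helpers here

set_option autoImplicit false
open Cfsg

namespace Cfsg.Agent.S0703

open MulAction Cfsg.Agent.Perm

theorem trans_map {α : Type*} (G : Subgroup (Equiv.Perm α)) (M : Subgroup G)
    (h : IsPretransitive M α) : IsPretransitive (M.map G.subtype) α := by
  rw [isPretransitive_subgroup_iff] at h ⊢
  intro a b
  obtain ⟨m, hm, e⟩ := h a b
  exact ⟨m, ⟨m, hm, rfl⟩, e⟩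


/-- An abelian transitive minimal normal subgroup `M` of a permutation group on a finite set is self-centralising in the symmetric group, regular, elementary abelian, and is the unique minimal normal subgroup. -/
theorem result {α : Type*} [Finite α] (G : Subgroup (Equiv.Perm α)) (M : Subgroup G) [M.Normal] (hM : M ≠ ⊥) (hmin : ∀ L : Subgroup G, L.Normal → L ≤ M → L = ⊥ ∨ L = M) (hab : IsMulCommutative M) (htrans : MulAction.IsPretransitive M α) : Subgroup.centralizer ((M.map G.subtype : Subgroup (Equiv.Perm α)) : Set (Equiv.Perm α)) = M.map G.subtype ∧ (∀ a : α, MulAction.stabilizer M a = ⊥) ∧ (∃ p : ℕ, p.Prime ∧ ∀ m ∈ M, m ^ p = 1) ∧ ∀ L : Subgroup G, L.Normal → L ≠ ⊥ → (∀ L' : Subgroup G, L'.Normal → L' ≤ L → L' = ⊥ ∨ L' = L) → L = M := by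
  have : Nontrivial α := nontrivial_of_ne_bot (X := α) hM
  have ht := trans_map G M htrans
  have hc : Subgroup.centralizer ((M.map G.subtype : Subgroup (Equiv.Perm α)) : Set (Equiv.Perm α))
      = M.map G.subtype := by
    apply centralizer_eq_of_transitive (X := α)
    rintro _ ⟨a, ha, rfl⟩ _ ⟨b, hb, rfl⟩
    rw [← map_mul, ← map_mul]
    exact congrArg _ (Subgroup.le_centralizer M ha b hb)
  have hmin' : GT.IsMinNormal M := ⟨inferInstance, hM, hmin⟩
  refine ⟨hc, stabilizer_eq_bot_of_comm M hab, ?_, fun L hL hL1 hLmin => ?_⟩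
  · have : Group.IsSolvable M := Group.isSolvable_of_comm (fun a b => hab.is_comm.comm a b)
    obtain ⟨p, hp, h1, -⟩ := hmin'.exists_isPGroup
    have := hmin'.elementary_of_isPGroup hp h1
    exact ⟨p, hp, this.2⟩
  · by_contra hne
    have h1 : L ≤ Subgroup.centralizer (M : Set G) :=
      GT.IsMinNormal.le_centralizer ⟨hL, hL1, hLmin⟩ hmin' hne
    rw [centralizer_eq_of_transitive (X := α) M M (Subgroup.le_centralizer M)] at h1
    rcases hmin L hL h1 with h | h
    · exact hL1 h
    · exact hne h

end Cfsg.Agent.S0703
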