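import Cfsg.Statements.S0704
import Mathlib
import Cfsg.Agent.Perm.Regular
-- import your own Cfsg.Agent.* helpers here

set_option autoImplicit false
open Cfsg

namespace Cfsg.Agent.S0704

open MulAction Cfsg.Agent.Perm

theorem trans_map {α : Type*} (G : Subgroup (Equiv.Perm α)) (M : Subgroup G)
    (h : IsPretransitive M α) : IsPretransitive (M.map G.subtype) α := by
  rw [isPretransitive_subgroup_iff] at h ⊢
  intro a b
  obtain ⟨m, hm, e⟩ := h a b
  exact ⟨m, ⟨m, hm, rfl⟩, e⟩

theorem le_cent {G : Type*} [Group G] (M N : Subgroup G) [M.Normal] [N.Normal] (hM : M ≠ ⊥)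
    (hMmin : ∀ L : Subgroup G, L.Normal → L ≤ M → L = ⊥ ∨ L = M)
    (hNmin : ∀ L : Subgroup G, L.Normal → L ≤ N → L = ⊥ ∨ L = N) (hMN : M ≠ N) :
    N ≤ Subgroup.centralizer (M : Set G) := by
  apply le_centralizer_of_inf_eq_bot
  rcases hMmin (M ⊓ N) inferInstance inf_le_left with h | h
  · exact h
  · rcases hNmin M inferInstance (h ▸ inf_le_right) with h' | h'
    · exact absurd h' hM
    · exact absurd h' hMN

theorem map_le {α : Type*} (G : Subgroup (Equiv.Perm α)) (M N : Subgroup G)
    (h : N ≤ Subgroup.centralizer (M : Set G)) : N.map G.subtype ≤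
      Subgroup.centralizer ((M.map G.subtype : Subgroup (Equiv.Perm α)) : Set (Equiv.Perm α)) := by
  rintro _ ⟨a, ha, rfl⟩ _ ⟨b, hb, rfl⟩
  rw [← map_mul, ← map_mul]
  exact congrArg _ (h ha b hb)


/-- Two distinct transitive minimal normal subgroups `M`, `N` of a permutation group are regular, non-abelian, isomorphic, each other's centraliser in the symmetric group, and the only minimal normal subgroups. -/
theorem result {α : Type*} (G : Subgroup (Equiv.Perm α)) (M N : Subgroup G) [M.Normal] [N.Normal] (hM : M ≠ ⊥) (hN : N ≠ ⊥) (hMmin : ∀ L : Subgroup G, L.Normal → L ≤ M → L = ⊥ ∨ L = M) (hNmin : ∀ L : Subgroup G, L.Normal → L ≤ N → L = ⊥ ∨ L = N) (hMN : M ≠ N) (hMt : MulAction.IsPretransitive M α) (hNt : MulAction.IsPretransitive N α) : (∀ a : α, MulAction.stabilizer M a = ⊥) ∧ (∀ a : α, MulAction.stabilizer N a = ⊥) ∧ ¬ IsMulCommutative M ∧ Nonempty (M ≃* N) ∧ Subgroup.centralizer ((M.map G.subtype : Subgroup (Equiv.Perm α)) : Set (Equiv.Perm α)) = N.map G.subtype ∧ Subgroup.centralizer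 ((N.map G.subtype : Subgroup (Equiv.Perm α)) : Set (Equiv.Perm α)) = M.map G.subtype ∧ ∀ L : Subgroup G, L.Normal → L ≠ ⊥ → (∀ L' : Subgroup G, L'.Normal → L' ≤ L → L' = ⊥ ∨ L' = L) → L = M ∨ L = N := by
  have : Nontrivial α := nontrivial_of_ne_bot (X := α) hM
  have h1 := le_cent M N hM hMmin hNmin hMN
  have h2 := le_cent N M hN hNmin hMmin hMN.symm
  have t1 := trans_map G M hMt
  have t2 := trans_map G N hNt
  have c1 := centralizer_eq_of_transitive (X := α) M N h1
  refine ⟨stabilizer_eq_bot_of_le_centralizer N M h2, stabilizer_eq_bot_of_le_centralizer M N h1,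
    fun hc => ?_, nonempty_mulEquiv_of_commute (X := α) M N h1,
    centralizer_eq_of_transitive (X := α) _ _ (map_le G M N h1),
    centralizer_eq_of_transitive (X := α) _ _ (map_le G N M h2), fun L hL hL1 hLmin => ?_⟩
  · apply hMN
    rw [← c1, centralizer_eq_of_transitive (X := α) M M (Subgroup.le_centralizer M)]
  · by_cases hLM : M = L
    · exact Or.inl hLM.symm
    right
    have h3 := le_cent M L hM hMmin hLmin hLM
    rw [c1] at h3
    exact (hNmin L hL h3).resolve_left hL1

end Cfsg.Agent.S0704
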