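import Cfsg.Statements.S0707
import Mathlib
import Cfsg.Agent.Perm.Regular
-- import your own Cfsg.Agent.* helpers here

set_option autoImplicit false
open Cfsg

namespace Cfsg.Agent.S0707

open MulAction Cfsg.Agent.Perm

/-- In a primitive permutation group, distinct points have distinct stabilisers unless the group is regular of prime degree. -/
theorem result {α : Type*} (G : Subgroup (Equiv.Perm α)) [MulAction.IsPreprimitive G α] (h : ¬ (Nat.card α).Prime ∨ ∃ a : α, MulAction.stabilizer G a ≠ ⊥) {a b : α} (hab : a ≠ b) : MulAction.stabilizer G a ≠ MulAction.stabilizer G b := by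
  intro he
  have hG : IsPreprimitive G α := inferInstance
  have hb := stabilizer_eq_bot_of_stabilizer_eq hG hab he
  have : Nontrivial α := ⟨⟨a, b, hab⟩⟩
  obtain ⟨-, h1, h2⟩ := prime_card_of_regular_primitive hG a (hb a)
  rcases h with h | ⟨c, hc⟩
  · exact h (h2 ▸ h1)
  · exact hc (hb c)

end Cfsg.Agent.S0707
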