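import Mathlib
import Cfsg.Statements.S0709

-- import your own Cfsg.Agent.* helpers here

set_option autoImplicit false
open Cfsg

namespace Cfsg.Agent.S0709

open MulAction

theorem double_coset {G : Type*} [Group G] (B : Subgroup G) (s : G) (h2 : s * s ∈ B)
    (h : ∀ a ∈ B, s * a * s ∈ B ∨ ∃ b ∈ B, ∃ c ∈ B, s * a * s = b * s * c) :
    ∀ g ∈ B ⊔ Subgroup.closure {s}, g ∈ B ∨ ∃ b ∈ B, ∃ c ∈ B, g = b * s * c := by
  let D : Subgroup G :=
    { carrier := {g | g ∈ B ∨ ∃ b ∈ B, ∃ c ∈ B, g = b * s * c}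
      one_mem' := Or.inl B.one_mem
      mul_mem' := by
        rintro x y (hx | ⟨b, hb, c, hc, rfl⟩) (hy | ⟨b', hb', c', hc', rfl⟩)
        · exact Or.inl (B.mul_mem hx hy)
        · exact Or.inr ⟨x * b', B.mul_mem hx hb', c', hc', by group⟩
        · exact Or.inr ⟨b, hb, c * y, B.mul_mem hc hy, by group⟩
        · rcases h (c * b') (B.mul_mem hc hb') with h1 | ⟨u, hu, v, hv, h1⟩
          · left
            have : b * s * c * (b' * s * c') = b * (s * (c * b') * s) * c' := by group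
            rw [this]
            exact B.mul_mem (B.mul_mem hb h1) hc'
          · right
            refine ⟨b * u, B.mul_mem hb hu, v * c', B.mul_mem hv hc', ?_⟩
            have : b * s * c * (b' * s * c') = b * (s * (c * b') * s) * c' := by group
            rw [this, h1]
            group
      inv_mem' := by
        rintro x (hx | ⟨b, hb, c, hc, rfl⟩)
        · exact Or.inl (B.inv_mem hx)
        · exact Or.inr ⟨c⁻¹, B.inv_mem hc, (s * s)⁻¹ * b⁻¹, B.mul_mem (B.inv_mem h2) (B.inv_mem hb),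
            by group⟩ }
  have : B ⊔ Subgroup.closure {s} ≤ D := by
    refine sup_le (fun x hx => Or.inl hx) ((Subgroup.closure_le _).2 ?_)
    rintro _ rfl
    exact Or.inr ⟨1, B.one_mem, 1, B.one_mem, by group⟩
  exact fun g hg => this hg

/-- The groups generated by `K` and `s 1, …, s k`. -/
def chain {G : Type*} [Group G] (K : Subgroup G) (s : ℕ → G) : ℕ → Subgroup G
  | 0 => K
  | k + 1 => chain K s k ⊔ Subgroup.closure {s (k + 1)}

theorem chain_succ {G : Type*} [Group G] (K : Subgroup G) (s : ℕ → G) (k : ℕ) :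
    chain K s (k + 1) = chain K s k ⊔ Subgroup.closure {s (k + 1)} := rfl

theorem chain_le_iff {G : Type*} [Group G] {K : Subgroup G} {s : ℕ → G} {L : Subgroup G} (k : ℕ) :
    chain K s k ≤ L ↔ K ≤ L ∧ ∀ i, 1 ≤ i → i ≤ k → s i ∈ L := by
  induction k with
  | zero => exact ⟨fun h => ⟨h, fun i h1 h2 => by omega⟩, fun h => h.1⟩
  | succ k ih =>
    rw [chain_succ, sup_le_iff, ih, Subgroup.closure_le, Set.singleton_subset_iff, SetLike.mem_coe]
    constructor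
    · rintro ⟨⟨h1, h2⟩, h3⟩
      refine ⟨h1, fun i h4 h5 => ?_⟩
      by_cases h : i = k + 1
      · rw [h]; exact h3
      · exact h2 i h4 (by omega)
    · rintro ⟨h1, h2⟩
      exact ⟨⟨h1, fun i h3 h4 => h2 i h3 (by omega)⟩, h2 _ (by omega) le_rfl⟩


/-- Witt's Lemma for constructing transitive extensions. Points `q 1, …, q t` (`t ≥ 2`) of a finite set are given; `G` fixes `q i` for `i ≥ 3` and is doubly transitive on the remaining points; `s 1 ∈ G` swaps `q 1, q 2`; for `2 ≤ i ≤ t-1`, `s i` swaps `q i, q (i+1)` and fixes the other `q j`; with `H` the stabiliser of `q 1, q 2` in `G`: `s i ^ 2 ∈ H`, `(s i * s (i+1)) ^ 3 ∈ H`, `(s i * s j) ^ 2 ∈ H` for `j ≥ i + 2`, and `s i` (`i ≥ 2`) normalises the stabiliser of `q 2` in `G`. Then `G` and the `s i` generate a `t`-transitive group whose pointwise stabiliser of the `q`'s is `H`. -/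
theorem result {α : Type*} [Fintype α] [DecidableEq α] (t : ℕ) (ht : 2 ≤ t) (q : ℕ → α) (hq : ∀ i j : ℕ, 1 ≤ i → i ≤ t → 1 ≤ j → j ≤ t → q i = q j → i = j) (G : Subgroup (Equiv.Perm α)) (hfix : ∀ g ∈ G, ∀ i : ℕ, 3 ≤ i → i ≤ t → g (q i) = q i) (h2 : ∀ a b c d : α, (∀ i, 3 ≤ i → i ≤ t → a ≠ q i ∧ b ≠ q i ∧ c ≠ q i ∧ d ≠ q i) → a ≠ b → c ≠ d → ∃ g ∈ G, g a = c ∧ g b = d) (s : ℕ → Equiv.Perm α) (hs1 : s 1 ∈ G) (hs1q : s 1 (q 1) = q 2 ∧ s 1 (q 2) = q 1) (hsq : ∀ i : ℕ, 2 ≤ i → i + 1 ≤ t → s i (q i) = q (i + 1) ∧ s i (q (i + 1)) = q i ∧ ∀ j : ℕ, 1 ≤ j → j ≤ t → j ≠ i → j ≠ i + 1 → s i (q j) = q j) (H : Subgroup (Equiv.Perm α)) (hH : H = G ⊓ MulAction.stabilizer (Equiv.Perm α) (q 1) ⊓ MulAction.stabilizer (Equiv.Perm α) (q 2)) (hsq2 : ∀ i : ℕ, 1 ≤ i → i + 1 ≤ t → s i ^ 2 ∈ H) (hbraid : ∀ i : ℕ, 1 ≤ i → i + 2 ≤ t → (s i * s (i + 1)) ^ 3 ∈ H) (hcomm : ∀ i j : ℕ, 1 ≤ i → i + 2 ≤ j → j + 1 ≤ t → (s i * s j) ^ 2 ∈ H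 ∧ (s j * s i) ^ 2 ∈ H) (hnorm : ∀ i : ℕ, 2 ≤ i → i + 1 ≤ t → ∀ g ∈ G ⊓ MulAction.stabilizer (Equiv.Perm α) (q 2), s i * g * (s i)⁻¹ ∈ G ⊓ MulAction.stabilizer (Equiv.Perm α) (q 2)) : MulAction.IsMultiplyPretransitive ↥(Subgroup.closure ((G : Set (Equiv.Perm α)) ∪ {x | ∃ i : ℕ, 2 ≤ i ∧ i + 1 ≤ t ∧ x = s i})) α t ∧ Subgroup.closure ((G : Set (Equiv.Perm α)) ∪ {x | ∃ i : ℕ, 2 ≤ i ∧ i + 1 ≤ t ∧ x = s i}) ⊓ fixingSubgroup (Equiv.Perm α) {x | ∃ i : ℕ, 1 ≤ i ∧ i ≤ t ∧ x = q i} = H := by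
  set K := G ⊓ stabilizer (Equiv.Perm α) (q 2) with hK
  have hHK : H ≤ K := by
    rw [hH]
    exact fun g hg => ⟨hg.1.1, hg.2⟩
  let Γ := chain K s
  have hKΓ : ∀ k, K ≤ Γ k := fun k => ((chain_le_iff k).1 le_rfl).1
  have hsΓ : ∀ k i, 1 ≤ i → i ≤ k → s i ∈ Γ k := fun k => ((chain_le_iff k).1 le_rfl).2
  have hmono : ∀ k, Γ k ≤ Γ (k + 1) := fun k => le_sup_left
  have hss : ∀ i, 1 ≤ i → i + 1 ≤ t → s i * s i ∈ K := fun i h1 h2 => by
    rw [← sq]; exact hHK (hsq2 i h1 h2)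
  have hne : ∀ i j, 1 ≤ i → i ≤ t → 1 ≤ j → j ≤ t → i ≠ j → q i ≠ q j :=
    fun i j h1 h2 h3 h4 h5 h6 => h5 (hq i j h1 h2 h3 h4 h6)
  -- `Γ k` fixes `q j` for `j ≥ k + 2`
  have hΓfix : ∀ k j, k + 2 ≤ j → j ≤ t → ∀ g ∈ Γ k, g (q j) = q j := by
    intro k j h1 h2
    have : Γ k ≤ stabilizer (Equiv.Perm α) (q j) := by
      refine (chain_le_iff k).2 ⟨fun g hg => ?_, fun i h3 h4 => ?_⟩
      · by_cases h : j = 2
        · rw [h]; exact hg.2
        · exact hfix g hg.1 j (by omega) h2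
      · by_cases h : i = 1
        · rw [h]; exact hfix _ hs1 j (by omega) h2
        · exact (hsq i (by omega) (by omega)).2.2 j (by omega) h2 (by omega) (by omega)
    exact fun g hg => this hg
  have hsw : ∀ k, k + 2 ≤ t → s (k + 1) (q (k + 2)) = q (k + 1) := by
    intro k hk
    rcases Nat.eq_zero_or_pos k with rfl | h
    · exact hs1q.2
    · exact (hsq (k + 1) (by omega) hk).2.1
  have hKtr : ∀ y, (∀ j, 2 ≤ j → j ≤ t → y ≠ q j) → ∃ a ∈ K, a (q 1) = y := by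
    intro y hy
    obtain ⟨a, ha, h3, h4⟩ := h2 (q 1) (q 2) y (q 2) (fun i h3 h4 =>
      ⟨hne 1 i le_rfl (by omega) (by omega) h4 (by omega),
        hne 2 i (by omega) ht (by omega) h4 (by omega), hy i (by omega) h4,
        hne 2 i (by omega) ht (by omega) h4 (by omega)⟩)
      (hne 1 2 le_rfl (by omega) (by omega) ht (by omega)) (hy 2 le_rfl ht)
    exact ⟨a, ⟨ha, h4⟩, h3⟩
  have hGdc : ∀ g ∈ G, g ∈ K ∨ ∃ a ∈ K, ∃ b ∈ K, g = a * s 1 * b := by
    intro g hg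
    by_cases h : g (q 2) = q 2
    · exact Or.inl ⟨hg, h⟩
    · obtain ⟨a, ha, h3⟩ := hKtr (g (q 2)) (fun j h3 h4 h5 => by
        by_cases h6 : j = 2
        · exact h (h6 ▸ h5)
        · rw [← hfix g hg j (by omega) h4] at h5
          exact hne 2 j (by omega) ht (by omega) h4 (by omega) (g.injective h5))
      refine Or.inr ⟨a, ha, (a * s 1)⁻¹ * g,
        ⟨G.mul_mem (G.inv_mem (G.mul_mem ha.1 hs1)) hg, ?_⟩, by group⟩
      change (a * s 1)⁻¹ (g (q 2)) = q 2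
      rw [Equiv.Perm.inv_eq_iff_eq, Equiv.Perm.mul_apply, hs1q.2, h3]
  have hΓ1 : Γ 1 = G := by
    apply le_antisymm
    · refine (chain_le_iff 1).2 ⟨inf_le_left, fun i h3 h4 => ?_⟩
      rw [show i = 1 by omega]; exact hs1
    · intro g hg
      rcases hGdc g hg with h | ⟨a, ha, b, hb, rfl⟩
      · exact hKΓ 1 h
      · exact (Γ 1).mul_mem ((Γ 1).mul_mem (hKΓ 1 ha) (hsΓ 1 1 le_rfl le_rfl)) (hKΓ 1 hb)
  -- `s (k + 2)` normalises `Γ k`
  have hnΓ : ∀ k, k + 3 ≤ t → ∀ a ∈ Γ k, s (k + 2) * a * (s (k + 2))⁻¹ ∈ Γ k := by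
    intro k hk
    have : Γ k ≤ (Γ k).comap (MulAut.conj (s (k + 2))).toMonoidHom := by
      refine (chain_le_iff k).2 ⟨fun g hg => hKΓ k (hnorm (k + 2) (by omega) hk g hg),
        fun i h3 h4 => ?_⟩
      have h5 := hKΓ k (hHK (hcomm i (k + 2) h3 (by omega) hk).1)
      have h6 : s (k + 2) * s i * (s (k + 2))⁻¹ =
          (s i)⁻¹ * (s i * s (k + 2)) ^ 2 * (s (k + 2) * s (k + 2))⁻¹ := by
        rw [sq]; group
      change s (k + 2) * s i * (s (k + 2))⁻¹ ∈ Γ k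
      rw [h6]
      exact (Γ k).mul_mem ((Γ k).mul_mem ((Γ k).inv_mem (hsΓ k i h3 h4)) h5)
        ((Γ k).inv_mem (hKΓ k (hss _ (by omega) hk)))
    exact fun a ha => this ha
  have hdc : ∀ k, k + 2 ≤ t → ∀ g ∈ Γ (k + 1),
      g ∈ Γ k ∨ ∃ a ∈ Γ k, ∃ b ∈ Γ k, g = a * s (k + 1) * b := by
    intro k
    induction k with
    | zero => intro _ g hg; exact hGdc g (hΓ1 ▸ hg)
    | succ k ih =>
      intro hk
      have h3 := hKΓ k (hss (k + 2) (by omega) hk)
      refine double_coset (Γ (k + 1)) (s (k + 2)) (hmono k h3) fun a ha => ?_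
      rcases ih (by omega) a ha with h | ⟨a₁, h₁, a₂, h₂, rfl⟩
      · left
        have : s (k + 2) * a * s (k + 2) =
            s (k + 2) * a * (s (k + 2))⁻¹ * (s (k + 2) * s (k + 2)) := by group
        rw [this]
        exact hmono k ((Γ k).mul_mem (hnΓ k hk a h) h3)
      · right
        have h4 := hKΓ (k + 1) (hHK (hbraid (k + 1) (by omega) hk))
        have h5 := hsΓ (k + 1) (k + 1) (by omega) le_rfl
        refine ⟨s (k + 2) * a₁ * (s (k + 2))⁻¹ * ((s (k + 1))⁻¹ * (s (k + 1) * s (k + 2)) ^ 3),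
          (Γ _).mul_mem (hmono k (hnΓ k hk _ h₁)) ((Γ _).mul_mem ((Γ _).inv_mem h5) h4),
          (s (k + 2) * s (k + 2))⁻¹ * (s (k + 1))⁻¹ * ((s (k + 2) * s (k + 2))⁻¹ *
            (s (k + 2) * a₂ * (s (k + 2))⁻¹) * (s (k + 2) * s (k + 2))),
          (Γ _).mul_mem ((Γ _).mul_mem ((Γ _).inv_mem (hmono k h3)) ((Γ _).inv_mem h5))
            (hmono k ((Γ k).mul_mem ((Γ k).mul_mem ((Γ k).inv_mem h3) (hnΓ k hk _ h₂)) h3)), ?_⟩
        rw [pow_succ, sq]
        change s (k + 2) * _ * s (k + 2) = _ * s (k + 2) * _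
        group
  have hstab : ∀ k, k + 2 ≤ t → ∀ g ∈ Γ (k + 1), g (q (k + 2)) = q (k + 2) → g ∈ Γ k := by
    intro k hk g hg h
    rcases hdc k hk g hg with h3 | ⟨a, ha, b, hb, rfl⟩
    · exact h3
    · exfalso
      rw [Equiv.Perm.mul_apply, Equiv.Perm.mul_apply, hΓfix k _ le_rfl hk b hb, hsw k hk] at h
      rw [← hΓfix k _ le_rfl hk a ha] at h
      exact hne _ _ (by omega) (by omega) (by omega) hk (by omega) (a.injective h)
  have htr1 : ∀ k, k + 1 ≤ t → ∀ y, (∀ j, k + 2 ≤ j → j ≤ t → y ≠ q j) →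
      ∃ a ∈ Γ k, a (q (k + 1)) = y := by
    intro k
    induction k with
    | zero => intro _ y hy; exact hKtr y hy
    | succ k ih =>
      intro hk y hy
      by_cases h : y = q (k + 2)
      · exact ⟨1, (Γ _).one_mem, h.symm⟩
      · obtain ⟨a, ha, h3⟩ := ih (by omega) y fun j h3 h4 => by
          by_cases h5 : j = k + 2
          · rw [h5]; exact h
          · exact hy j (by omega) h4
        exact ⟨a * s (k + 1), (Γ _).mul_mem (hmono k ha) (hsΓ _ _ (by omega) le_rfl), by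
          rw [Equiv.Perm.mul_apply, hsw k hk, h3]⟩
  have htr : ∀ k, k + 1 ≤ t → ∀ x : ℕ → α,
      (∀ i j, 1 ≤ i → i ≤ k + 1 → 1 ≤ j → j ≤ k + 1 → x i = x j → i = j) →
      (∀ i j, 1 ≤ i → i ≤ k + 1 → k + 2 ≤ j → j ≤ t → x i ≠ q j) →
      ∃ a ∈ Γ k, ∀ i, 1 ≤ i → i ≤ k + 1 → a (q i) = x i := by
    intro k
    induction k with
    | zero =>
      intro hk x _ hx
      obtain ⟨a, ha, h3⟩ := htr1 0 hk (x 1) fun j => hx 1 j le_rfl le_rfl
      exact ⟨a, ha, fun i h4 h5 => by rw [show i = 1 by omega, ← h3]⟩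
    | succ k ih =>
      intro hk x hx hx'
      obtain ⟨g, hg, h3⟩ := htr1 (k + 1) hk (x (k + 2)) fun j => hx' _ j (by omega) le_rfl
      obtain ⟨a, ha, h4⟩ := ih (by omega) (fun i => g⁻¹ (x i))
        (fun i j h5 h6 h7 h8 h9 => hx i j h5 (by omega) h7 (by omega) (g⁻¹.injective h9))
        (fun i j h5 h6 h7 h8 h9 => by
          rw [Equiv.Perm.inv_eq_iff_eq] at h9
          by_cases h10 : j = k + 2
          · rw [h10, h3] at h9
            have := hx i (k + 2) h5 (by omega) (by omega) le_rfl h9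
            omega
          · rw [hΓfix (k + 1) j (by omega) h8 g hg] at h9
            exact hx' i j h5 (by omega) (by omega) h8 h9)
      refine ⟨g * a, (Γ _).mul_mem hg (hmono k ha), fun i h5 h6 => ?_⟩
      rw [Equiv.Perm.mul_apply]
      by_cases h7 : i = k + 2
      · rw [h7, hΓfix k _ le_rfl hk a ha, h3]
      · rw [h4 i h5 (by omega)]
        simp
  obtain ⟨n, rfl⟩ : ∃ n, t = n + 2 := ⟨t - 2, by omega⟩
  have hΓt : Subgroup.closure ((G : Set (Equiv.Perm α)) ∪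
      {x | ∃ i : ℕ, 2 ≤ i ∧ i + 1 ≤ n + 2 ∧ x = s i}) = Γ (n + 1) := by
    apply le_antisymm
    · rw [Subgroup.closure_le]
      rintro x (hx | ⟨i, h3, h4, rfl⟩)
      · have : Γ 1 ≤ Γ (n + 1) :=
          (chain_le_iff 1).2 ⟨hKΓ _, fun i h3 h4 => hsΓ _ i h3 (by omega)⟩
        exact this (hΓ1 ▸ hx)
      · exact hsΓ _ i (by omega) (by omega)
    · refine (chain_le_iff _).2 ⟨fun g hg => Subgroup.subset_closure (Or.inl hg.1),
        fun i h3 h4 => Subgroup.subset_closure ?_⟩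
      by_cases h : i = 1
      · rw [h]; exact Or.inl hs1
      · exact Or.inr ⟨i, by omega, by omega, rfl⟩
  rw [hΓt]
  constructor
  · have key : ∀ x : Fin (n + 2) ↪ α, ∃ a ∈ Γ (n + 1), ∀ i : Fin (n + 2), a (q (i + 1)) = x i := by
      intro x
      obtain ⟨a, ha, h⟩ := htr (n + 1) le_rfl
        (fun i => if h : i - 1 < n + 2 then x ⟨i - 1, h⟩ else q 0)
        (fun i j h3 h4 h5 h6 h7 => by
          simp only [dif_pos (show i - 1 < n + 2 by omega),
            dif_pos (show j - 1 < n + 2 by omega)] at h7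
          have := congrArg Fin.val (x.injective h7)
          simp only at this
          omega)
        (fun i j _ _ _ _ => by omega)
      refine ⟨a, ha, fun i => ?_⟩
      rw [h (i + 1) (by omega) (by omega), dif_pos (show i + 1 - 1 < n + 2 from i.2)]
      rfl
    refine ⟨fun x y => ?_⟩
    obtain ⟨a, ha, h3⟩ := key x
    obtain ⟨b, hb, h4⟩ := key y
    refine ⟨⟨b * a⁻¹, (Γ _).mul_mem hb ((Γ _).inv_mem ha)⟩, Function.Embedding.ext fun i => ?_⟩
    change b (a⁻¹ (x i)) = y i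
    rw [← h3, ← h4]
    simp
  · ext g
    rw [Subgroup.mem_inf, mem_fixingSubgroup_iff]
    constructor
    · rintro ⟨h3, h4⟩
      have h5 : ∀ i, 1 ≤ i → i ≤ n + 2 → g (q i) = q i := fun i h5 h6 => h4 _ ⟨i, h5, h6, rfl⟩
      have h6 : ∀ k, k ≤ n + 1 → g ∈ Γ k → g ∈ K := by
        intro k
        induction k with
        | zero => exact fun _ h => h
        | succ k ih =>
          exact fun h6 h7 => ih (by omega) (hstab k (by omega) g h7 (h5 _ (by omega) (by omega)))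
      have h7 := h6 _ le_rfl h3
      rw [hH]
      exact ⟨⟨h7.1, h5 1 le_rfl (by omega)⟩, h7.2⟩
    · intro hg
      refine ⟨hKΓ _ (hHK hg), ?_⟩
      rintro _ ⟨i, h3, h4, rfl⟩
      rw [hH] at hg
      by_cases h5 : i = 1
      · rw [h5]; exact hg.1.2
      by_cases h6 : i = 2
      · rw [h6]; exact hg.2
      exact hfix g hg.1.1 i (by omega) h4

end Cfsg.Agent.S0709
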