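import Mathlib
import Cfsg.Statements.S0710
import Cfsg.Agent.Spor.SharpSimple
-- import your own Cfsg.Agent.* helpers here

set_option autoImplicit false
open Cfsg

namespace Cfsg.Agent.S0710

/-- No transitive permutation group on 13 points has order `13 * 12 * 11 * 10 * 9 * 8`. -/
theorem result {α : Type*} [Fintype α] [DecidableEq α] (hα : Fintype.card α = 13) (G : Subgroup (Equiv.Perm α)) [MulAction.IsPretransitive G α] : Nat.card G ≠ 13 * 12 * 11 * 10 * 9 * 8 := by
  rw [← Nat.card_eq_fintype_card] at hα
  exact Spor.card_ne_of_degree_thirteen hα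

end Cfsg.Agent.S0710
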