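import Cfsg.Statements.S0712
import Mathlib
import Cfsg.Agent.Perm.Basic
-- import your own Cfsg.Agent.* helpers here

set_option autoImplicit false
open Cfsg

namespace Cfsg.Agent.S0712

open MulAction Cfsg.Agent.Perm SubMulAction

/-- Jordan: a primitive group in which the pointwise stabiliser of a set `s` is doubly transitive on the complement of `s` (which has at least 2 points) is `(|s| + 2)`-transitive. -/
theorem result {α : Type*} [Fintype α] [DecidableEq α] (G : Subgroup (Equiv.Perm α)) (hG : MulAction.IsPreprimitive G α) (s : Set α) {m : ℕ} (hsm : s.ncard = m) (hm : m + 2 ≤ Fintype.card α) (h2 : MulAction.IsMultiplyPretransitive (fixingSubgroup G s) (SubMulAction.ofFixingSubgroup G s) 2) : MulAction.IsMultiplyPretransitive G α (m + 2) := by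
  have h1 : IsMultiplyPretransitive G α (m + 1) := by
    rcases m with _ | m
    · exact is_one_pretransitive_iff.2 hG.toIsPretransitive
    · have := hG.isMultiplyPreprimitive hsm (by rw [Nat.card_eq_fintype_card]; omega)
        (isPreprimitive_of_is_two_pretransitive h2)
      exact this.isMultiplyPretransitive
  have hs : s.toFinite.toFinset.card = m := by rw [← hsm, Set.ncard_eq_toFinset_card]
  obtain ⟨a, -, ha⟩ := Finset.exists_mem_notMem_of_card_lt_card (s := s.toFinite.toFinset)
    (t := Finset.univ) (by rw [hs, Finset.card_univ]; omega)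
  refine isMultiplyPretransitive_succ_of_fix h1 (insert a s.toFinite.toFinset)
    (by rw [Finset.card_insert_of_notMem ha, hs]) fun b hb c hc => ?_
  simp only [Finset.mem_insert, Set.Finite.mem_toFinset, not_or] at ha hb hc
  obtain ⟨g, h1, h2⟩ := exists_smul_eq_two h2 (a := ⟨a, ha⟩) (b := ⟨b, hb.2⟩) (c := ⟨a, ha⟩)
    (d := ⟨c, hc.2⟩) (fun e => hb.1 (congrArg Subtype.val e).symm)
    (fun e => hc.1 (congrArg Subtype.val e).symm)
  refine ⟨g, fun x hx => ?_, congrArg Subtype.val h2⟩
  simp only [Finset.mem_insert, Set.Finite.mem_toFinset] at hx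
  rcases hx with rfl | hx
  · exact congrArg Subtype.val h1
  · exact (mem_fixingSubgroup_iff G).1 g.2 x hx

end Cfsg.Agent.S0712
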