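import Mathlib
import Cfsg.Agent.Perm.PermModule
import Cfsg.Agent.Perm.Basic
import Cfsg.Statements.S0714

set_option autoImplicit false
open Cfsg

namespace Cfsg.Agent.S0714

/-- Over any field, the permutation module of the alternating group of degree at least 5 has exactly four invariant subspaces: zero, the constant functions, the functions with coordinate sum zero, and everything. -/
theorem result {α : Type*} [Fintype α] [DecidableEq α] (hα : 5 ≤ Fintype.card α) {K : Type*} [Field K] (W : Subrepresentation (Cfsg.permRep K (alternatingGroup α) α)) : W.toSubmodule = ⊥ ∨ W = Cfsg.permConstants K (alternatingGroup α) α ∨ W = Cfsg.permSumZero K (alternatingGroup α) α ∨ W.toSubmodule = ⊤ := by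
  classical
  have hcomp : ∀ ρ : Equiv.Perm α, Equiv.Perm.sign ρ = 1 → ∀ f ∈ W.toSubmodule,
      (fun x => f (ρ x)) ∈ W.toSubmodule := by
    intro ρ hρ f hf
    exact W.apply_mem_toSubmodule (⟨ρ, hρ⟩ : alternatingGroup α)⁻¹ hf
  by_cases hc : ∀ f ∈ W.toSubmodule, ∀ a b, f a = f b
  · by_cases h0 : W.toSubmodule = ⊥
    · exact Or.inl h0
    right; left
    obtain ⟨f, hf, hf0⟩ := (Submodule.ne_bot_iff _).1 h0
    obtain ⟨a, ha⟩ : ∃ a, f a ≠ 0 := Function.ne_iff.1 hf0
    apply Subrepresentation.toSubmodule_injective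
    ext g
    rw [Perm.mem_permConstants_iff]
    refine ⟨fun hg => ⟨g a, fun x => hc g hg x a⟩, ?_⟩
    rintro ⟨c, hg⟩
    have : g = (c / f a) • f := by
      ext x
      rw [hg, Pi.smul_apply, hc f hf x a, smul_eq_mul, div_mul_cancel₀ _ ha]
    rw [this]
    exact W.toSubmodule.smul_mem _ hf
  push Not at hc
  obtain ⟨f, hf, a, b, hab⟩ := hc
  have hab' : a ≠ b := fun h => hab (by rw [h])
  have ex : ∀ s : Finset α, s.card ≤ 4 → ∃ x, x ∉ s := by
    intro s hs
    by_contra h
    push Not at h
    have : s = Finset.univ := Finset.eq_univ_iff_forall.2 h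
    rw [this, Finset.card_univ] at hs
    omega
  obtain ⟨c, hc⟩ := ex {a, b} (Finset.card_le_two.trans (by norm_num))
  obtain ⟨d, hd⟩ := ex {a, b, c} (Finset.card_le_three.trans (by norm_num))
  obtain ⟨e, he⟩ := ex {a, b, c, d} Finset.card_le_four
  simp only [Finset.mem_insert, Finset.mem_singleton, not_or] at hc hd he
  obtain ⟨hca, hcb⟩ := hc
  obtain ⟨hda, hdb, hdc⟩ := hd
  obtain ⟨hea, heb, hec, hed⟩ := he
  let g : α → K := f - fun x => f ((Equiv.swap b c * Equiv.swap a b) x)
  have hg : g ∈ W.toSubmodule := W.toSubmodule.sub_mem hf (hcomp _ (by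
    simp [Equiv.Perm.sign_swap hab', Equiv.Perm.sign_swap (Ne.symm hcb)]) f hf)
  have hgb : g b ≠ 0 := by
    simp only [g, Pi.sub_apply, Equiv.Perm.mul_apply, Equiv.swap_apply_right]
    rw [Equiv.swap_apply_of_ne_of_ne hab' (Ne.symm hca)]
    exact sub_ne_zero.2 hab.symm
  have hgd : g d = 0 := by
    simp [g, Equiv.swap_apply_of_ne_of_ne, hda, hdb, hdc]
  have hge : g e = 0 := by
    simp [g, Equiv.swap_apply_of_ne_of_ne, hea, heb, hec]
  let h : α → K := g - fun x => g ((Equiv.swap b d * Equiv.swap b e) x)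
  have hh : h ∈ W.toSubmodule := W.toSubmodule.sub_mem hg (hcomp _ (by
    simp [Equiv.Perm.sign_swap (Ne.symm hdb), Equiv.Perm.sign_swap (Ne.symm heb)]) g hg)
  have hbd : (Pi.single b 1 - Pi.single d 1 : α → K) ∈ W.toSubmodule := by
    have : (Pi.single b 1 - Pi.single d 1 : α → K) = (g b)⁻¹ • h := by
      ext x
      simp only [h, Pi.sub_apply, Pi.smul_apply, Equiv.Perm.mul_apply, smul_eq_mul]
      by_cases h1 : x = b
      · subst h1
        simp [Equiv.swap_apply_of_ne_of_ne heb hed, hge, hgb, Ne.symm hdb]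
      by_cases h2 : x = d
      · subst h2
        simp [Equiv.swap_apply_of_ne_of_ne hdb (Ne.symm hed), hgd, hgb, hdb]
      by_cases h3 : x = e
      · subst h3
        simp [hgd, hge, h1, h2]
      simp [Equiv.swap_apply_of_ne_of_ne, h1, h2, h3]
    rw [this]
    exact W.toSubmodule.smul_mem _ hh
  have h2 : MulAction.IsMultiplyPretransitive (alternatingGroup α) α 2 := by
    haveI := alternatingGroup.isMultiplyPretransitive α
    refine MulAction.isMultiplyPretransitive_of_le (n := Nat.card α - 2) ?_ ?_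
    · rw [Nat.card_eq_fintype_card]; omega
    · omega
  have hxy : ∀ x y, (Pi.single x 1 - Pi.single y 1 : α → K) ∈ W.toSubmodule := by
    intro x y
    by_cases hxy : x = y
    · simp [hxy]
    obtain ⟨k, hk1, hk2⟩ := Perm.exists_smul_eq_two h2 (Ne.symm hdb) hxy
    have := W.apply_mem_toSubmodule k hbd
    rwa [map_sub, Perm.permRep_single, Perm.permRep_single, hk1, hk2] at this
  have hle : ∀ v : α → K, ∑ x, v x = 0 → v ∈ W.toSubmodule := by
    intro v hv
    have : v = ∑ x, v x • (Pi.single x 1 - Pi.single a 1 : α → K) := by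
      simp only [smul_sub, Finset.sum_sub_distrib, ← Finset.sum_smul, hv, zero_smul, sub_zero]
      ext y
      simp [Finset.sum_apply, Pi.single_apply]
    rw [this]
    exact W.toSubmodule.sum_mem fun x _ => W.toSubmodule.smul_mem _ (hxy x a)
  right; right
  by_cases hs : ∀ v ∈ W.toSubmodule, ∑ x, v x = 0
  · left
    apply Subrepresentation.toSubmodule_injective
    ext v
    rw [Perm.mem_permSumZero_iff]
    exact ⟨hs v, hle v⟩
  · right
    push Not at hs
    obtain ⟨v, hv, hv0⟩ := hs
    rw [eq_top_iff]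
    intro u _
    have : u = (u - ((∑ x, u x) / ∑ x, v x) • v) + ((∑ x, u x) / ∑ x, v x) • v := by abel
    rw [this]
    refine W.toSubmodule.add_mem (hle _ ?_) (W.toSubmodule.smul_mem _ hv)
    simp only [Pi.sub_apply, Pi.smul_apply, smul_eq_mul, Finset.sum_sub_distrib, ← Finset.mul_sum]
    rw [div_mul_cancel₀ _ hv0, sub_self]

end Cfsg.Agent.S0714
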