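import Mathlib
import Cfsg.Agent.Perm.PermChar
import Cfsg.Statements.S0715

set_option autoImplicit false
open Cfsg

namespace Cfsg.Agent.S0715

/-- If a natural number `f` divides the degree of every non-principal irreducible constituent of the permutation character of a transitive group, then `f` divides every non-trivial subdegree. -/
theorem result {G : Type*} [Group G] [Fintype G] {Ω : Type*} [Fintype Ω] [MulAction G Ω] [MulAction.IsPretransitive G Ω] (f : ℕ) (hf : ∀ χ : G → ℂ, Cfsg.IsIrrCharacter G χ → χ ≠ (fun _ => 1) → Cfsg.classInner (fun g : G => (Nat.card (MulAction.fixedBy Ω g) : ℂ)) χ ≠ 0 → ∃ m : ℕ, χ 1 = (f : ℂ) * m) (a b : Ω) (hab : b ≠ a) : f ∣ Nat.card (MulAction.orbit (MulAction.stabilizer G a) b) := by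
  classical
  haveI : Nonempty Ω := ⟨a⟩
  set k := Nat.card (MulAction.orbit (MulAction.stabilizer G a) b)
  let M : Matrix Ω Ω ℂ := Perm.orbMat G ℂ a b
  have hM : Perm.IsInvMat G M := Perm.isInvMat_orbMat ℂ a b
  obtain ⟨s, θ, hθ, hs, htr⟩ := Perm.exists_eigen_decomp (permRep ℂ G Ω) hM.toLin'_comm
  have hint : ∀ μ ∈ s, IsIntegral ℤ μ := by
    intro μ hμ
    refine Perm.isIntegral_of_hasEigenvalue_map (Perm.orbMat G ℤ a b) ?_
    rw [Perm.orbMat_map _ (map_zero _) (map_one _)]
    exact hs μ hμ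
  have hπ : Perm.permChar G Ω = ∑ μ ∈ s, θ μ := by
    funext g
    have := htr 0 g
    simp only [pow_zero, one_mul] at this
    rw [← Perm.character_permRep, Finset.sum_apply]
    exact this
  have hc : ∀ μ ∈ s, ∃ c : ℕ, θ μ 1 = classInner (θ μ) (fun _ => 1) + f * c := by
    intro μ hμ
    obtain ⟨m, hm, hθm⟩ := (hθ μ).exists_mult
    have h1 : ∀ χ : IrrCharacter G, ∃ c : ℕ, χ ≠ Ch.irrOne G → m χ • (χ : G → ℂ) 1 = f * c := by
      intro χ
      by_cases hχ : χ = Ch.irrOne G
      · exact ⟨0, fun h => absurd hχ h⟩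
      by_cases h0 : m χ = 0
      · exact ⟨0, fun _ => by simp [h0]⟩
      obtain ⟨d, hd⟩ := hf χ χ.2 (fun e => hχ (Subtype.ext e)) (by
        change classInner (Perm.permChar G Ω) χ ≠ 0
        rw [hπ, ← Finset.add_sum_erase _ _ hμ, (hθ μ).classInner_add_ne_zero_iff
          (IsCharacter.sum fun ν _ => hθ ν) χ.isCharacter, hm]
        left
        exact_mod_cast h0)
      exact ⟨m χ * d, fun _ => by rw [hd]; push_cast; ring⟩
    choose c hc using h1
    refine ⟨∑ χ ∈ Finset.univ.erase (Ch.irrOne G), c χ, ?_⟩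
    have h2 := hm (Ch.irrOne G)
    change classInner (θ μ) (fun _ => 1) = _ at h2
    rw [h2]
    conv_lhs => rw [hθm]
    rw [Finset.sum_apply, ← Finset.add_sum_erase _ _ (Finset.mem_univ (Ch.irrOne G))]
    congr 1
    · change m _ • (1 : ℂ) = _
      simp
    · push_cast
      rw [Finset.mul_sum]
      exact Finset.sum_congr rfl fun χ hχ => hc χ (Finset.ne_of_mem_erase hχ)
  choose! c hc using hc
  have h0 : ∑ μ ∈ s, μ * θ μ 1 = 0 := by
    have := htr 1 1
    simp only [pow_one, map_one, mul_one, Matrix.trace_toLin'_eq] at this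
    rw [← this]
    simp [Matrix.trace, M, Perm.orbMat_diag hab]
  have h1 : ∑ μ ∈ s, μ * classInner (θ μ) (fun _ => 1) = k := by
    have e1 := congrArg Matrix.trace
      (Perm.mul_isoMat_one (G := G) (M := M) (Perm.sum_orbMat ℂ a b))
    rw [Matrix.trace_smul, Perm.trace_isoMat, Perm.classInner_permChar_one, Perm.isoMat,
      ← LinearMap.toMatrix'_toLin' M, ← LinearMap.toMatrix'_mul, ← Matrix.trace_toLin'_eq,
      Matrix.toLin'_toMatrix', Perm.isoProj] at e1
    simp only [mul_smul_comm, Finset.mul_sum, map_smul, map_sum, map_one, one_smul, smul_eq_mul,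
      mul_one] at e1
    rw [← e1]
    simp only [Ch.classInner_one_right, Finset.mul_sum]
    rw [Finset.sum_comm]
    refine Finset.sum_congr rfl fun g _ => ?_
    have := htr 1 g
    simp only [pow_one] at this
    rw [this, Finset.mul_sum]
    exact Finset.sum_congr rfl fun μ _ => by ring
  refine Ch.integral_nat_dvd_of_eq_mul (ω := -∑ μ ∈ s, μ * c μ)
    (IsIntegral.neg (IsIntegral.sum _ fun μ hμ => (hint μ hμ).mul (Ch.integral_natCast _))) ?_
  rw [← h1, mul_neg, eq_neg_iff_add_eq_zero, ← h0, Finset.mul_sum, ← Finset.sum_add_distrib]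
  exact Finset.sum_congr rfl fun μ hμ => by rw [hc μ hμ]; ring

end Cfsg.Agent.S0715
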