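import Mathlib
import Cfsg.Agent.Perm.PermChar
import Cfsg.Agent.S0715
import Cfsg.Statements.S0716

set_option autoImplicit false
open Cfsg

namespace Cfsg.Agent.S0716

theorem card_eq_one_add_sum {H Ω : Type*} [Group H] [MulAction H Ω] [Finite Ω] {a : Ω}
    (ha : ∀ h : H, h • a = a) [Fintype (MulAction.orbitRel.Quotient H Ω)]
    [DecidableEq (MulAction.orbitRel.Quotient H Ω)] :
    Nat.card Ω = 1 + ∑ ω ∈ Finset.univ.erase (Quotient.mk'' a : MulAction.orbitRel.Quotient H Ω),
      Nat.card (MulAction.orbitRel.Quotient.orbit ω) := by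
  rw [Nat.card_congr (MulAction.selfEquivSigmaOrbits' H Ω), Nat.card_sigma,
    ← Finset.add_sum_erase _ _ (Finset.mem_univ (Quotient.mk'' a))]
  congr 1
  rw [MulAction.orbitRel.Quotient.orbit_mk]
  have : MulAction.orbit H a = {a} := by
    ext x
    exact ⟨fun ⟨h, hx⟩ => hx.symm.trans (ha h), fun hx => ⟨1, (ha 1).trans hx.symm⟩⟩
  simp [this]


/-- (a) If all non-principal irreducible constituents of the permutation character of a transitive group have the same degree `f`, the character is multiplicity-free and all non-trivial subdegrees equal `f`. (b) A transitive group of rank at most 5 has multiplicity-free permutation character. -/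
theorem result {G : Type*} [Group G] [Fintype G] {Ω : Type*} [Fintype Ω] [MulAction G Ω] [MulAction.IsPretransitive G Ω] (a : Ω) : ((f : ℕ) → (∀ χ : G → ℂ, Cfsg.IsIrrCharacter G χ → χ ≠ (fun _ => 1) → Cfsg.classInner (fun g : G => (Nat.card (MulAction.fixedBy Ω g) : ℂ)) χ ≠ 0 → χ 1 = f) → (∀ χ : G → ℂ, Cfsg.IsIrrCharacter G χ → Cfsg.classInner (fun g : G => (Nat.card (MulAction.fixedBy Ω g) : ℂ)) χ = 0 ∨ Cfsg.classInner (fun g : G => (Nat.card (MulAction.fixedBy Ω g) : ℂ)) χ = 1) ∧ ∀ b : Ω, b ≠ a → Nat.card (MulAction.orbit (MulAction.stabilizer G a) b) = f) ∧ (Nat.card (MulAction.orbitRel.Quotient (MulAction.stabilizer G a) Ω) ≤ 5 → ∀ χ : G → ℂ, Cfsg.IsIrrCharacter G χ → Cfsg.classInner (fun g : G => (Nat.card (MulAction.fixedBy Ω g) : ℂ)) χ = 0 ∨ Cfsg.classInner (fun g : G => (Nat.card (MulAction.fixedBy Ω g) : ℂ)) χ = 1) := by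
  classical
  haveI : Nonempty Ω := ⟨a⟩
  haveI : Fintype (MulAction.orbitRel.Quotient (MulAction.stabilizer G a) Ω) := Fintype.ofFinite _
  obtain ⟨m, hm, hm2, hm1⟩ := (Ch.isCharacter_permChar (G := G) Ω).exists_nat_classInner_self
  have hone : m (Ch.irrOne G) = 1 := by
    have := hm (Ch.irrOne G)
    change classInner (Perm.permChar G Ω) (fun _ => 1) = _ at this
    rw [Perm.classInner_permChar_one] at this
    exact_mod_cast this.symm
  have hrank : Nat.card (MulAction.orbitRel.Quotient (MulAction.stabilizer G a) Ω) =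
      1 + ∑ χ ∈ Finset.univ.erase (Ch.irrOne G), m χ ^ 2 := by
    have := Perm.classInner_permChar_self_eq_rank (G := G) a
    change classInner (Perm.permChar G Ω) (Perm.permChar G Ω) = _ at hm2
    rw [hm2, Nat.cast_inj, ← Finset.add_sum_erase _ _ (Finset.mem_univ (Ch.irrOne G)), hone]
      at this
    rw [← this, one_pow]
  have hmf : (∀ χ, χ ≠ Ch.irrOne G → m χ ≤ 1) → ∀ χ : G → ℂ, Cfsg.IsIrrCharacter G χ →
      classInner (Perm.permChar G Ω) χ = 0 ∨ classInner (Perm.permChar G Ω) χ = 1 := by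
    intro h χ hχ
    have h1 := hm ⟨χ, hχ⟩
    have h2 : m ⟨χ, hχ⟩ ≤ 1 := by
      by_cases e : (⟨χ, hχ⟩ : IrrCharacter G) = Ch.irrOne G
      · rw [e, hone]
      · exact h _ e
    change classInner (Perm.permChar G Ω) χ = _ at h1
    rw [h1]
    rcases Nat.le_one_iff_eq_zero_or_eq_one.1 h2 with e | e <;> simp [e]
  have parta : ∀ f : ℕ, (∀ χ : G → ℂ, Cfsg.IsIrrCharacter G χ → χ ≠ (fun _ => 1) →
      classInner (Perm.permChar G Ω) χ ≠ 0 → χ 1 = f) → (∀ χ, χ ≠ Ch.irrOne G → m χ ≤ 1) ∧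
      ∀ b : Ω, b ≠ a → Nat.card (MulAction.orbit (MulAction.stabilizer G a) b) = f := by
    intro f hf
    have hdeg : ∀ χ, χ ≠ Ch.irrOne G → m χ * charDegree (χ : G → ℂ) = m χ * f := by
      intro χ hχ
      by_cases h0 : m χ = 0
      · simp [h0]
      rw [χ.isCharacter.charDegree_eq_iff.2 (hf χ χ.2 (fun e => hχ (Subtype.ext e))
        (by rw [hm]; exact_mod_cast h0))]
    have hn : Nat.card Ω = 1 + f * ∑ χ ∈ Finset.univ.erase (Ch.irrOne G), m χ := by
      have e : charDegree (Perm.permChar G Ω) = Nat.card Ω :=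
        (Ch.isCharacter_permChar (G := G) Ω).charDegree_eq_iff.2 Perm.permChar_apply_one
      rw [← e, hm1, ← Finset.add_sum_erase _ _ (Finset.mem_univ (Ch.irrOne G)), hone,
        Finset.mul_sum]
      congr 1
      · rw [one_mul]
        exact (Ch.irrOne G).isCharacter.charDegree_eq_one_iff.2 rfl
      · exact Finset.sum_congr rfl fun χ hχ => by
          rw [hdeg χ (Finset.ne_of_mem_erase hχ), mul_comm]
    have hdvd : ∀ b : Ω, b ≠ a → f ≤ Nat.card (MulAction.orbit (MulAction.stabilizer G a) b) := by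
      intro b hb
      refine Nat.le_of_dvd ?_ (S0715.result f (fun χ h1 h2 h3 => ⟨1, by simp [hf χ h1 h2 h3]⟩)
        a b hb)
      haveI : Nonempty (MulAction.orbit (MulAction.stabilizer G a) b) :=
        ⟨⟨b, MulAction.mem_orbit_self b⟩⟩
      exact Nat.card_pos
    have hsum := card_eq_one_add_sum (H := MulAction.stabilizer G a) (a := a) (fun h => h.2)
    set T := Finset.univ.erase
      (Quotient.mk'' a : MulAction.orbitRel.Quotient (MulAction.stabilizer G a) Ω) with hT
    have hT1 : ∀ ω ∈ T, f ≤ Nat.card (MulAction.orbitRel.Quotient.orbit ω) := by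
      intro ω hω
      induction ω using Quotient.inductionOn' with
      | h b => exact hdvd b fun e => Finset.ne_of_mem_erase hω (by rw [e])
    have hTc : T.card = ∑ χ ∈ Finset.univ.erase (Ch.irrOne G), m χ ^ 2 := by
      rw [hT, Finset.card_erase_of_mem (Finset.mem_univ _), Finset.card_univ,
        ← Nat.card_eq_fintype_card, hrank]
      omega
    have hle : ∀ χ ∈ Finset.univ.erase (Ch.irrOne G), f * m χ ≤ f * m χ ^ 2 := fun χ _ =>
      Nat.mul_le_mul_left _ (Nat.le_self_pow two_ne_zero _)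
    have h1 : ∑ ω ∈ T, f ≤ ∑ ω ∈ T, Nat.card (MulAction.orbitRel.Quotient.orbit ω) := Finset.sum_le_sum hT1
    have h2 := Finset.sum_le_sum hle
    have h3 : ∑ ω ∈ T, f = ∑ χ ∈ Finset.univ.erase (Ch.irrOne G), f * m χ ^ 2 := by
      rw [Finset.sum_const, hTc, smul_eq_mul, ← Finset.mul_sum, mul_comm]
    have h4 : ∑ ω ∈ T, Nat.card (MulAction.orbitRel.Quotient.orbit ω) = ∑ χ ∈ Finset.univ.erase (Ch.irrOne G), f * m χ := by
      rw [← Finset.mul_sum]; omega
    have h5 := (Finset.sum_eq_sum_iff_of_le hle).1 (by omega)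
    have h6 := (Finset.sum_eq_sum_iff_of_le hT1).1 (by omega)
    refine ⟨fun χ hχ => ?_, fun b hb => ?_⟩
    · by_contra hlt
      have hf0 : f ≠ 0 := by
        rintro rfl
        have e1 := hdeg χ hχ
        have e2 := χ.2.charDegree_pos
        rw [mul_zero, mul_eq_zero] at e1
        omega
      have := Nat.eq_of_mul_eq_mul_left (Nat.pos_of_ne_zero hf0) (h5 χ (by simp [hχ]))
      nlinarith
    · refine (h6 (Quotient.mk'' b) ?_).symm
      simp only [hT, Finset.mem_erase, Finset.mem_univ, and_true]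
      intro e
      obtain ⟨h, hh⟩ := Quotient.exact' e
      exact hb (hh.symm.trans h.2)
  refine ⟨fun f hf => ⟨hmf (parta f hf).1, (parta f hf).2⟩, fun h5 => hmf fun χ hχ => ?_⟩
  by_contra hlt
  have h4 : 4 ≤ m χ ^ 2 := by nlinarith
  rw [hrank, ← Finset.add_sum_erase _ _ (show χ ∈ Finset.univ.erase (Ch.irrOne G) by simp [hχ])]
    at h5
  have h0 : ∑ ψ ∈ (Finset.univ.erase (Ch.irrOne G)).erase χ, m ψ ^ 2 = 0 := by omega
  refine hlt ((parta (charDegree (χ : G → ℂ)) fun ψ h1 h2 h3 => ?_).1 χ hχ)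
  by_cases e : (⟨ψ, h1⟩ : IrrCharacter G) = χ
  · rw [← e]; exact h1.coe_charDegree.symm
  · exfalso
    have := (Finset.sum_eq_zero_iff.1 h0) ⟨ψ, h1⟩ (by
      simp only [Finset.mem_erase, Finset.mem_univ, and_true]
      exact ⟨e, fun e' => h2 (congrArg Subtype.val e')⟩)
    apply h3
    have h6 := hm ⟨ψ, h1⟩
    change classInner (Perm.permChar G Ω) ψ = _ at h6
    rw [h6]
    simpa using this

end Cfsg.Agent.S0716
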