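import Mathlib
import Cfsg.Agent.Perm.PermChar
import Cfsg.Statements.S0718

set_option autoImplicit false
open Cfsg

namespace Cfsg.Agent.S0718

/-- Multiplicity-freeness of the permutation character is equivalent to commutativity of the centraliser ring, i.e. of the algebra of `G`-equivariant endomorphisms of the complex permutation module. -/
theorem result {G : Type*} [Group G] [Fintype G] {Ω : Type*} [Fintype Ω] [MulAction G Ω] : (∀ χ : G → ℂ, Cfsg.IsIrrCharacter G χ → Cfsg.classInner (fun g : G => (Nat.card (MulAction.fixedBy Ω g) : ℂ)) χ = 0 ∨ Cfsg.classInner (fun g : G => (Nat.card (MulAction.fixedBy Ω g) : ℂ)) χ = 1) ↔ ∀ S T : (Ω → ℂ) →ₗ[ℂ] (Ω → ℂ), S ∈ ((Cfsg.permRep ℂ G Ω).linHom (Cfsg.permRep ℂ G Ω)).invariants → T ∈ ((Cfsg.permRep ℂ G Ω).linHom (Cfsg.permRep ℂ G Ω)).invariants → S ∘ₗ T = T ∘ₗ S := by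
  classical
  have key : ∀ S : (Ω → ℂ) →ₗ[ℂ] (Ω → ℂ),
      S ∈ ((Cfsg.permRep ℂ G Ω).linHom (Cfsg.permRep ℂ G Ω)).invariants ↔
      ∀ g, S * permRep ℂ G Ω g = permRep ℂ G Ω g * S := by
    intro S
    rw [Perm.mem_linHom_invariants_iff_comm]
    exact ⟨fun h g => LinearMap.ext (h g), fun h g f => LinearMap.congr_fun (h g) f⟩
  simp only [key]
  constructor
  · intro h S T hS hT
    obtain ⟨c, rfl⟩ := Perm.exists_eq_sum_isoProj (permRep ℂ G Ω)
      (by rwa [Perm.character_permRep]) hS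
    change _ * T = T * _
    simp only [Finset.sum_mul, Finset.mul_sum, smul_mul_assoc, mul_smul_comm,
      Perm.isoProj_comm_of_comm _ _ hT]
  · intro h χ hχ
    have := Perm.multiplicityFree_of_comm (permRep ℂ G Ω) h hχ
    rwa [Perm.character_permRep] at this

end Cfsg.Agent.S0718
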