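import Mathlib
import Cfsg.Agent.Perm.PermChar
import Cfsg.Agent.Perm.Basic
import Cfsg.Agent.S0716
import Cfsg.Statements.S0719

set_option autoImplicit false
open Cfsg

namespace Cfsg.Agent.S0719

open MulAction Matrix in
theorem isoMat_one_apply {G : Type*} [Group G] [Fintype G] {Ω : Type*} [Fintype Ω]
    [DecidableEq Ω] [MulAction G Ω] [IsPretransitive G Ω] (x y : Ω) :
    (Fintype.card Ω : ℂ) * Perm.isoMat G Ω (fun _ => 1) x y = 1 := by
  have h : ∑ z, Perm.isoMat G Ω (fun _ => 1) z y = 1 := by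
    simp only [Perm.isoMat_apply, ← Finset.mul_sum]
    rw [Finset.sum_comm]
    simp
  rw [Finset.sum_congr rfl fun z _ => Perm.isoMat_one_apply_eq z x y] at h
  simpa using h

open MulAction Matrix in
theorem isoMat_conjTranspose {G : Type*} [Group G] [Fintype G] {Ω : Type*} [Fintype Ω]
    [DecidableEq Ω] [MulAction G Ω] {χ : G → ℂ} (hχ : IsCharacter G χ) :
    (Perm.isoMat G Ω χ)ᴴ = Perm.isoMat G Ω χ := by
  ext x y
  rw [Matrix.conjTranspose_apply, ← Matrix.transpose_apply (Perm.isoMat G Ω χ),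
    Perm.isoMat_transpose hχ, Perm.isoMat_apply, Perm.isoMat_apply]
  simp [apply_ite]

theorem arith (m k β : ℤ) (hk : 2 ≤ k) (hkm : k ≤ m - 1)
    (h : k ^ 2 + (m - 1) * (k + m * β) ^ 2 + m * (β - (k + m * β)) ^ 2 = 2 * m * k) :
    m = 2 * (m - 1 - k) ^ 2 + 2 * (m - 1 - k) + 1 := by
  have hm : 0 < m := by omega
  have hbig : ¬ (m + 1) ^ 2 ≤ (k + m * β) ^ 2 := by
    intro hh
    have h1 : (m - 1) * (m + 1) ^ 2 ≤ (m - 1) * (k + m * β) ^ 2 :=
      mul_le_mul_of_nonneg_left hh (by omega)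
    have h2 : 0 ≤ m * (β - (k + m * β)) ^ 2 := by positivity
    nlinarith
  rcases lt_trichotomy β 0 with hb | rfl | hb
  · by_cases hb1 : β = -1
    · subst hb1
      have : m * (m - (2 * (m - 1 - k) ^ 2 + 2 * (m - 1 - k) + 1)) = 0 := by linarith
      have := (mul_eq_zero.1 this).resolve_left hm.ne'
      linarith
    · exfalso
      apply hbig
      have : k + m * β ≤ -(m + 1) := by nlinarith [show β ≤ -2 by omega]
      nlinarith
  · exfalso
    have : m * k * (k - 1) = 0 := by linarith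
    have h1 : 0 < m * k * (k - 1) := mul_pos (mul_pos hm (by omega)) (by omega)
    omega
  · exfalso
    apply hbig
    have : m + 1 ≤ k + m * β := by nlinarith
    nlinarith

open MulAction in
theorem exists_suborbits {G : Type*} [Group G] {Ω : Type*} [Finite Ω] [MulAction G Ω] (a₀ : Ω)
    (hrank : Nat.card (orbitRel.Quotient (stabilizer G a₀) Ω) = 3) :
    ∃ b₁ b₂ : Ω, b₁ ≠ a₀ ∧ b₂ ≠ a₀ ∧ b₂ ∉ orbit (stabilizer G a₀) b₁ ∧
      (∀ b, b = a₀ ∨ b ∈ orbit (stabilizer G a₀) b₁ ∨ b ∈ orbit (stabilizer G a₀) b₂) ∧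
      Nat.card (orbit (stabilizer G a₀) b₁) ≤ Nat.card (orbit (stabilizer G a₀) b₂) ∧
      Nat.card Ω = 1 + (Nat.card (orbit (stabilizer G a₀) b₁) +
        Nat.card (orbit (stabilizer G a₀) b₂)) := by
  classical
  haveI : Fintype (orbitRel.Quotient (stabilizer G a₀) Ω) := Fintype.ofFinite _
  have hsum := S0716.card_eq_one_add_sum (H := stabilizer G a₀) (a := a₀) (fun h => h.2)
  have hT : (Finset.univ.erase
      (Quotient.mk'' a₀ : orbitRel.Quotient (stabilizer G a₀) Ω)).card = 2 := by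
    rw [Finset.card_erase_of_mem (Finset.mem_univ _), Finset.card_univ,
      ← Nat.card_eq_fintype_card, hrank]
  obtain ⟨x, y, hxy, hT⟩ := Finset.card_eq_two.1 hT
  wlog hle : Nat.card (orbitRel.Quotient.orbit x) ≤ Nat.card (orbitRel.Quotient.orbit y)
    generalizing x y
  · exact this y x hxy.symm (by rw [hT, Finset.pair_comm]) (le_of_not_ge hle)
  rw [hT, Finset.sum_pair hxy] at hsum
  induction x using Quotient.inductionOn' with
  | h b₁ =>
  induction y using Quotient.inductionOn' with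
  | h b₂ =>
  have h1 : (Quotient.mk'' b₁ : orbitRel.Quotient (stabilizer G a₀) Ω) ≠ Quotient.mk'' a₀ :=
    Finset.ne_of_mem_erase (by rw [hT]; simp)
  have h2 : (Quotient.mk'' b₂ : orbitRel.Quotient (stabilizer G a₀) Ω) ≠ Quotient.mk'' a₀ :=
    Finset.ne_of_mem_erase (by rw [hT]; simp)
  refine ⟨b₁, b₂, fun e => h1 (by rw [e]), fun e => h2 (by rw [e]),
    fun e => hxy (Quotient.sound' e).symm, fun b => ?_, hle, hsum⟩
  by_cases hb : (Quotient.mk'' b : orbitRel.Quotient (stabilizer G a₀) Ω) = Quotient.mk'' a₀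
  · obtain ⟨h, hh⟩ := Quotient.exact' hb
    exact Or.inl (hh.symm.trans h.2)
  · have : (Quotient.mk'' b : orbitRel.Quotient (stabilizer G a₀) Ω) ∈
        Finset.univ.erase (Quotient.mk'' a₀) := by simp [hb]
    rw [hT, Finset.mem_insert, Finset.mem_singleton] at this
    exact Or.inr (this.imp Quotient.exact' Quotient.exact')


/-- Groups of Wielandt type: if a primitive group of degree `2m` has rank 3 and permutation character `1 + χ₁ + χ₂` with irreducible `χ₁, χ₂` of degrees `m - 1` and `m`, then `m = 2a² + 2a + 1` for some positive integer `a` and the two non-trivial subdegrees are `a(2a+1)` and `(a+1)(2a+1)`. -/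
theorem result {G : Type*} [Group G] [Fintype G] {Ω : Type*} [Fintype Ω] [MulAction G Ω] (hprim : MulAction.IsPreprimitive G Ω) {m : ℕ} (hm : Fintype.card Ω = 2 * m) (a₀ : Ω) (hrank : Nat.card (MulAction.orbitRel.Quotient (MulAction.stabilizer G a₀) Ω) = 3) (χ₁ χ₂ : G → ℂ) (h₁ : Cfsg.IsIrrCharacter G χ₁) (h₂ : Cfsg.IsIrrCharacter G χ₂) (hπ : (fun g : G => (Nat.card (MulAction.fixedBy Ω g) : ℂ)) = fun g => 1 + χ₁ g + χ₂ g) (hd₁ : χ₁ 1 = (m : ℂ) - 1) (hd₂ : χ₂ 1 = m) : ∃ a : ℕ, 0 < a ∧ m = 2 * a ^ 2 + 2 * a + 1 ∧ ∀ b : Ω, b ≠ a₀ → Nat.card (MulAction.orbit (MulAction.stabilizer G a₀) b) = a * (2 * a + 1) ∨ Nat.card (MulAction.orbit (MulAction.stabilizer G a₀) b) = (a + 1) * (2 * a + 1) := by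
  classical
  haveI : Nonempty Ω := ⟨a₀⟩
  obtain ⟨b₁, b₂, hb₁, hb₂, hb₁₂, hall, hkl, hn⟩ := exists_suborbits a₀ hrank
  set k := Nat.card (MulAction.orbit (MulAction.stabilizer G a₀) b₁) with hk
  set l := Nat.card (MulAction.orbit (MulAction.stabilizer G a₀) b₂) with hl
  rw [Nat.card_eq_fintype_card, hm] at hn
  have hk2 : 2 ≤ k := by
    by_contra hlt
    have hsub : ∀ b : Ω, Nat.card (MulAction.orbit (MulAction.stabilizer G a₀) b) ≤ 1 ↔
        MulAction.stabilizer G a₀ ≤ MulAction.stabilizer G b := by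
      intro b
      rw [Finite.card_le_one_iff_subsingleton]
      constructor
      · intro h g hg
        exact congrArg Subtype.val (h.elim ⟨_, MulAction.mem_orbit b ⟨g, hg⟩⟩
          ⟨b, MulAction.mem_orbit_self b⟩)
      · intro h
        refine ⟨?_⟩
        rintro ⟨_, g, rfl⟩ ⟨_, g', rfl⟩
        exact Subtype.ext ((h g.2).trans (h g'.2).symm)
    have h1 : MulAction.stabilizer G a₀ = MulAction.stabilizer G b₁ :=
      Subgroup.eq_of_le_of_card_ge ((hsub b₁).1 (by omega)) (Perm.card_stabilizer_eq b₁ a₀).le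
    rcases Perm.prim_rel hprim (fun x y : Ω => MulAction.stabilizer G x = MulAction.stabilizer G y)
      ⟨fun _ => rfl, Eq.symm, Eq.trans⟩ (fun g x y h => by
        rw [MulAction.stabilizer_smul_eq_stabilizer_map_conj,
          MulAction.stabilizer_smul_eq_stabilizer_map_conj, h]) with h | h
    · exact hb₁ (h _ _ h1).symm
    · have := (hsub b₂).2 (h a₀ b₂).le
      haveI : Nonempty (MulAction.orbit (MulAction.stabilizer G a₀) b₁) :=
        ⟨⟨_, MulAction.mem_orbit_self _⟩⟩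
      have : 0 < k := Nat.card_pos
      omega
  have hπ' : Perm.permChar G Ω = (fun _ => 1) + χ₁ + χ₂ := hπ
  have h0 : IsIrrCharacter G (fun _ => (1 : ℂ)) := IsIrrCharacter.one
  have hmult : ∀ χ, IsIrrCharacter G χ → classInner (Perm.permChar G Ω) χ =
      (if (fun _ => 1) = χ then 1 else 0) + (if χ₁ = χ then 1 else 0) +
        (if χ₂ = χ then 1 else 0) := by
    intro χ hχ
    rw [hπ', Ch.classInner_add_left, Ch.classInner_add_left, h0.classInner_eq_ite hχ,
      h₁.classInner_eq_ite hχ, h₂.classInner_eq_ite hχ]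
  have h12 : χ₁ ≠ χ₂ := by
    intro e
    rw [e, hd₂] at hd₁
    simp [eq_sub_iff_add_eq] at hd₁
  have h01 : (fun _ => (1 : ℂ)) ≠ χ₁ ∧ (fun _ => (1 : ℂ)) ≠ χ₂ := by
    have := hmult _ h0
    rw [Perm.classInner_permChar_one] at this
    constructor <;> intro e
    · rw [if_pos rfl, if_pos e.symm, if_neg (fun e' => h12 (e.symm.trans e'.symm))] at this
      norm_num at this
    · rw [if_pos rfl, if_pos e.symm, if_neg (fun e' => h12 (e'.trans e))] at this
      norm_num at this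
  have hm0 : classInner (Perm.permChar G Ω) (fun _ => 1) = 1 := Perm.classInner_permChar_one
  have hm1 : classInner (Perm.permChar G Ω) χ₁ = 1 := by
    rw [hmult _ h₁, if_neg h01.1, if_pos rfl, if_neg h12.symm]; simp
  have hm2 : classInner (Perm.permChar G Ω) χ₂ = 1 := by
    rw [hmult _ h₂, if_neg h01.2, if_pos rfl, if_neg h12]; simp
  have hm3 : ∀ χ, IsIrrCharacter G χ → (fun _ => 1) ≠ χ → χ₁ ≠ χ → χ₂ ≠ χ →
      classInner (Perm.permChar G Ω) χ = 0 := by
    intro χ hχ e0 e1 e2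
    rw [hmult _ hχ, if_neg e0, if_neg e1, if_neg e2]; simp
  set E0 := Perm.isoMat G Ω (fun _ => 1) with hE0
  set E1 := Perm.isoMat G Ω χ₁ with hE1
  set E2 := Perm.isoMat G Ω χ₂ with hE2
  have hsum3 : ∀ c : IrrCharacter G → ℂ, ∑ χ : IrrCharacter G, c χ • Perm.isoMat G Ω χ =
      c ⟨_, h0⟩ • E0 + c ⟨_, h₁⟩ • E1 + c ⟨_, h₂⟩ • E2 := by
    intro c
    rw [← Finset.sum_subset (Finset.subset_univ {⟨_, h0⟩, ⟨_, h₁⟩, ⟨_, h₂⟩}),
      Finset.sum_insert, Finset.sum_pair, add_assoc]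
    · exact fun e => h12 (congrArg Subtype.val e)
    · simp only [Finset.mem_insert, Finset.mem_singleton, not_or]
      exact ⟨fun e => h01.1 (congrArg Subtype.val e), fun e => h01.2 (congrArg Subtype.val e)⟩
    · intro χ _ hχ
      simp only [Finset.mem_insert, Finset.mem_singleton, not_or] at hχ
      rw [Perm.isoMat_eq_zero χ.2 (hm3 _ χ.2 (fun e => hχ.1 (Subtype.ext e.symm))
        (fun e => hχ.2.1 (Subtype.ext e.symm)) (fun e => hχ.2.2 (Subtype.ext e.symm))), smul_zero]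
  have hI : E0 + E1 + E2 = 1 := by
    have := hsum3 1
    simp only [Pi.one_apply, one_smul, Perm.sum_isoMat] at this
    exact this.symm
  have t0 : E0.trace = 1 := by rw [Perm.trace_isoMat, hm0, mul_one]
  have t1 : E1.trace = m - 1 := by rw [Perm.trace_isoMat, hm1, mul_one, hd₁]
  have t2 : E2.trace = m := by rw [Perm.trace_isoMat, hm2, mul_one, hd₂]
  have n0 : E0 ≠ 0 := fun e => by simp [e] at t0
  have n1 : E1 ≠ 0 := fun e => h₁.apply_one_ne_zero (by rw [hd₁, ← t1, e, Matrix.trace_zero])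
  have n2 : E2 ≠ 0 := fun e => h₂.apply_one_ne_zero (by rw [hd₂, ← t2, e, Matrix.trace_zero])
  have p00 : E0 * E0 = E0 := Perm.isoMat_mul_self h0
  have p11 : E1 * E1 = E1 := Perm.isoMat_mul_self h₁
  have p22 : E2 * E2 = E2 := Perm.isoMat_mul_self h₂
  have p01 : E0 * E1 = 0 := Perm.isoMat_mul_of_ne h0 h₁ h01.1
  have p02 : E0 * E2 = 0 := Perm.isoMat_mul_of_ne h0 h₂ h01.2
  have p10 : E1 * E0 = 0 := Perm.isoMat_mul_of_ne h₁ h0 h01.1.symm
  have p20 : E2 * E0 = 0 := Perm.isoMat_mul_of_ne h₂ h0 h01.2.symm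
  have p12 : E1 * E2 = 0 := Perm.isoMat_mul_of_ne h₁ h₂ h12
  have p21 : E2 * E1 = 0 := Perm.isoMat_mul_of_ne h₂ h₁ h12.symm
  set A := Perm.orbMat G ℂ a₀ b₁ with hA
  obtain ⟨c, hc⟩ := (Perm.isInvMat_orbMat (G := G) ℂ a₀ b₁).exists_eq_sum_isoMat (fun χ hχ => by
    by_cases e0 : (fun _ => 1) = χ
    · exact Or.inr (e0 ▸ hm0)
    by_cases e1 : χ₁ = χ
    · exact Or.inr (e1 ▸ hm1)
    by_cases e2 : χ₂ = χ
    · exact Or.inr (e2 ▸ hm2)
    exact Or.inl (hm3 χ hχ e0 e1 e2))
  rw [hsum3, ← hA] at hc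
  generalize c ⟨_, h0⟩ = c0, c ⟨_, h₁⟩ = r, c ⟨_, h₂⟩ = s at hc
  have hc0 : c0 = k := by
    have := Perm.mul_isoMat_one (G := G) (M := A) (Perm.sum_orbMat ℂ a₀ b₁)
    rw [← hE0, hc] at this
    simp only [add_mul, smul_mul_assoc, p00, p10, p20, smul_zero, add_zero] at this
    exact smul_left_injective ℂ n0 this
  subst hc0
  have hA1 : A * E1 = r • E1 := by
    rw [hc]; simp only [add_mul, smul_mul_assoc, p01, p11, p21, smul_zero, add_zero, zero_add]
  have hA2 : A * E2 = s • E2 := by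
    rw [hc]; simp only [add_mul, smul_mul_assoc, p02, p12, p22, smul_zero, add_zero, zero_add]
  have tr1 : (k : ℂ) + r * (m - 1) + s * m = 0 := by
    have := congrArg Matrix.trace hc
    simp only [Matrix.trace_add, Matrix.trace_smul, t0, t1, t2, smul_eq_mul, mul_one] at this
    rw [← this]
    simp [Matrix.trace, hA, Perm.orbMat_diag hb₁]
  have tr2 : (k : ℂ) * k + star r * r * (m - 1) + star s * s * m = 2 * m * k := by
    have e1 : (A.conjTranspose * A).trace = 2 * m * k := by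
      rw [Matrix.trace_mul_comm]
      have : ∀ x y, A x y * star (A x y) = A x y := by
        intro x y
        simp only [hA, Perm.orbMat]
        split_ifs <;> simp
      simp only [Matrix.trace, Matrix.diag_apply, Matrix.mul_apply, Matrix.conjTranspose_apply,
        this]
      simp only [hA, Perm.sum_orbMat, Finset.sum_const, Finset.card_univ, hm]
      simp [hk]
    rw [← e1, hc]
    simp only [Matrix.conjTranspose_add, Matrix.conjTranspose_smul, hE0, hE1, hE2,
      isoMat_conjTranspose h0.isCharacter, isoMat_conjTranspose h₁.isCharacter,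
      isoMat_conjTranspose h₂.isCharacter]
    simp only [← hE0, ← hE1, ← hE2, add_mul, mul_add, smul_mul_smul_comm, p00, p01, p02, p10, p11,
      p12, p20, p21, p22, smul_zero, add_zero, zero_add, Matrix.trace_add, Matrix.trace_smul, t0,
      t1, t2, smul_eq_mul, mul_one, star_natCast]
  have hA01 : A a₀ b₁ = 1 := Perm.orbMat_of_mem ⟨1, one_smul _ _, one_smul _ _⟩
  have hA02 : A a₀ b₂ = 0 := Perm.orbMat_of_not_mem fun ⟨g, e1, e2⟩ => hb₁₂ ⟨⟨g, e1⟩, e2⟩
  obtain ⟨α, β, γ, hsq⟩ : ∃ α β γ : ℤ, A * A =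
      (α : ℂ) • (1 : Matrix Ω Ω ℂ) + (β : ℂ) • A + ((γ : ℂ) * Fintype.card Ω) • E0 := by
    let Z := Perm.orbMat G ℤ a₀ b₁ * Perm.orbMat G ℤ a₀ b₁
    have hZ : ∀ x y, (A * A) x y = Z x y := by
      intro x y
      rw [hA, ← Perm.orbMat_map (Int.castRingHom ℂ) (map_zero _) (map_one _), ← Matrix.map_mul]
      rfl
    have hZi : Perm.IsInvMat G Z := (Perm.isInvMat_orbMat ℤ _ _).mul (Perm.isInvMat_orbMat ℤ _ _)
    have hAi : Perm.IsInvMat G A := Perm.isInvMat_orbMat ℂ _ _
    refine ⟨Z a₀ a₀ - Z a₀ b₂, Z a₀ b₁ - Z a₀ b₂, Z a₀ b₂, ?_⟩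
    ext x y
    simp only [Matrix.add_apply, Matrix.smul_apply, smul_eq_mul, mul_assoc, hE0, isoMat_one_apply,
      hZ]
    obtain ⟨g, rfl⟩ := MulAction.exists_smul_eq G a₀ x
    obtain ⟨z, rfl⟩ : ∃ z, y = g • z := ⟨g⁻¹ • y, by simp⟩
    rw [hZi, hAi]
    rcases hall z with rfl | ⟨h, rfl⟩ | ⟨h, rfl⟩
    · simp [hA, Perm.orbMat_diag hb₁]
    · have e1 := hZi h a₀ b₁
      have e2 := hAi h a₀ b₁
      rw [show (h : G) • a₀ = a₀ from h.2] at e1 e2
      have e3 : g • a₀ ≠ g • h • b₁ := fun e => hb₁ (MulAction.injective (h : G)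
        ((MulAction.injective g e).symm.trans h.2.symm))
      change (Z a₀ ((h : G) • b₁) : ℂ) = _ * _ + _ * A a₀ ((h : G) • b₁) + _
      rw [e1, e2, hA01, Matrix.one_apply_ne e3]
      simp
    · have e1 := hZi h a₀ b₂
      have e2 := hAi h a₀ b₂
      rw [show (h : G) • a₀ = a₀ from h.2] at e1 e2
      have e3 : g • a₀ ≠ g • h • b₂ := fun e => hb₂ (MulAction.injective (h : G)
        ((MulAction.injective g e).symm.trans h.2.symm))
      change (Z a₀ ((h : G) • b₂) : ℂ) = _ * _ + _ * A a₀ ((h : G) • b₂) + _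
      rw [e1, e2, hA02, Matrix.one_apply_ne e3]
      simp
  have q1 : r * r = α + β * r := by
    have := congrArg (· * E1) hsq
    simp only [mul_assoc, hA1, mul_smul_comm, add_mul, smul_mul_assoc, one_mul, p01, smul_zero,
      add_zero, smul_smul, ← add_smul] at this
    exact smul_left_injective ℂ n1 this
  have q2 : s * s = α + β * s := by
    have := congrArg (· * E2) hsq
    simp only [mul_assoc, hA2, mul_smul_comm, add_mul, smul_mul_assoc, one_mul, p02, smul_zero,
      add_zero, smul_smul, ← add_smul] at this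
    exact smul_left_injective ℂ n2 this
  have hrs : r ≠ s := by
    rintro rfl
    have e : A = ((k : ℂ) - r) • E0 + r • (1 : Matrix Ω Ω ℂ) := by
      rw [hc, ← hI]; module
    have e1 := isoMat_one_apply (G := G) a₀ b₁
    have e2 := isoMat_one_apply (G := G) a₀ b₂
    have e3 : E0 a₀ b₁ = E0 a₀ b₂ := mul_left_cancel₀ (by exact_mod_cast Fintype.card_ne_zero)
      (e1.trans e2.symm)
    rw [e] at hA01 hA02
    simp only [Matrix.add_apply, Matrix.smul_apply, Matrix.one_apply_ne hb₁.symm,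
      Matrix.one_apply_ne hb₂.symm, e3] at hA01 hA02
    exact zero_ne_one (hA02.symm.trans hA01)
  have hβ : r + s = β := by
    have : (r - s) * (r + s - β) = 0 := by linear_combination q1 - q2
    exact sub_eq_zero.1 ((mul_eq_zero.1 this).resolve_left (sub_ne_zero.2 hrs))
  have hr : r = ((k + m * β : ℤ) : ℂ) := by
    push_cast
    linear_combination m * hβ - tr1
  have hs : s = ((β - (k + m * β) : ℤ) : ℂ) := by
    rw [Int.cast_sub, ← hr, ← hβ]; ring
  rw [hr, hs, star_intCast, star_intCast] at tr2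
  have key := arith m k β (by exact_mod_cast hk2) (by omega) (by
    have : (((k : ℤ) ^ 2 + ((m : ℤ) - 1) * (k + m * β) ^ 2 + m * (β - (k + m * β)) ^ 2 : ℤ) : ℂ) =
        ((2 * m * k : ℤ) : ℂ) := by
      push_cast at tr2 ⊢
      linear_combination tr2
    exact_mod_cast this)
  obtain ⟨t, ht⟩ : ∃ t : ℕ, m = k + 1 + t := ⟨m - 1 - k, by omega⟩
  have hmt : m = 2 * t ^ 2 + 2 * t + 1 := by
    have : (m : ℤ) - 1 - k = t := by omega
    rw [this] at key
    exact_mod_cast key
  have hkt : k = t * (2 * t + 1) := by nlinarith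
  have hlt : l = (t + 1) * (2 * t + 1) := by nlinarith
  refine ⟨t, Nat.pos_of_ne_zero (by rintro rfl; omega), hmt, fun b hb => ?_⟩
  rcases hall b with rfl | h | h
  · exact absurd rfl hb
  · left
    rw [← hkt, MulAction.orbit_eq_iff.2 h]
  · right
    rw [← hlt, MulAction.orbit_eq_iff.2 h]

end Cfsg.Agent.S0719
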