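import Cfsg.Statements.S0722
import Mathlib
import Cfsg.Agent.Perm.Regular
-- import your own Cfsg.Agent.* helpers here

set_option autoImplicit false
open Cfsg

namespace Cfsg.Agent.S0722

open MulAction Cfsg.Agent.Perm
open scoped Pointwise

/-- In a primitive group `H`, with `N` a minimal normal subgroup and `K` a point stabiliser, `K ⊓ N` is maximal among proper `K`-invariant subgroups of `N`. -/
theorem result {α : Type*} [Finite α] (H : Subgroup (Equiv.Perm α)) [MulAction.IsPreprimitive H α] (N : Subgroup H) [N.Normal] (hN : N ≠ ⊥) (hmin : ∀ M : Subgroup H, M.Normal → M ≤ N → M = ⊥ ∨ M = N) (a : α) (X : Subgroup H) (hX : X ≤ N) (hKX : MulAction.stabilizer H a ⊓ N ≤ X) (hinv : MulAction.stabilizer H a ≤ Subgroup.normalizer (X : Set H)) : X = MulAction.stabilizer H a ⊓ N ∨ X = N := by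
  have hp : IsPreprimitive H α := inferInstance
  rcases eq_stabilizer_or_eq_top hp a (H := stabilizer H a ⊔ X) le_sup_left with h | h
  · left
    exact le_antisymm (le_inf (h ▸ le_sup_right) hX) hKX
  · right
    refine le_antisymm hX fun n hn => ?_
    have h1 : n ∈ ((stabilizer H a ⊔ X : Subgroup H) : Set H) := h ▸ Subgroup.mem_top n
    rw [Subgroup.coe_mul_of_left_le_normalizer_right _ _ hinv] at h1
    obtain ⟨s, hs, x, hx, rfl⟩ := h1
    have : s ∈ X := hKX ⟨hs, (N.mul_mem_cancel_right (hX hx)).1 hn⟩
    exact X.mul_mem this hx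

end Cfsg.Agent.S0722
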