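import Mathlib
import Cfsg.Agent.Perm.Scott
import Cfsg.Agent.Perm.Basic
import Cfsg.Agent.S0721
import Cfsg.Agent.S0722
import Cfsg.Statements.S0723

set_option autoImplicit false
open Cfsg

namespace Cfsg.Agent.S0723

/-- The core of the O'Nan–Scott Theorem. Let `H` be a primitive permutation group on a finite set whose unique minimal normal subgroup `N` is non-abelian, and `K` a point stabiliser. Then there are a non-abelian simple group `T` and an isomorphism `N ≃* T^m` (`m ≥ 1`) under which `K ⊓ N` becomes either a product `∏ K_i` of proper subgroups `K_i < T`, or the set of functions constant on each block of a partition of the index set into blocks of one common size `k ≥ 2`. -/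
theorem result {α : Type*} [Finite α] (H : Subgroup (Equiv.Perm α)) [MulAction.IsPreprimitive H α] (N : Subgroup H) [N.Normal] (hN : N ≠ ⊥) (hmin : ∀ M : Subgroup H, M.Normal → M ≤ N → M = ⊥ ∨ M = N) (huniq : ∀ L : Subgroup H, L.Normal → L ≠ ⊥ → (∀ M : Subgroup H, M.Normal → M ≤ L → M = ⊥ ∨ M = L) → L = N) (hnab : ¬ IsMulCommutative N) (a : α) : ∃ (T : Type) (_ : Group T) (m : ℕ) (e : N ≃* (Fin m → T)), IsSimpleGroup T ∧ ¬ IsMulCommutative T ∧ 0 < m ∧ ((∃ K : Fin m → Subgroup T, (∀ i, K i ≠ ⊤) ∧ ∀ n : N, (n : H) ∈ MulAction.stabilizer H a ↔ ∀ i, e n i ∈ K i) ∨ (∃ (k : ℕ) (c : Fin m → Fin m), 2 ≤ k ∧ (∀ j : Fin m, Nat.card {i : Fin m // c i = j} = k ∨ Nat.card {i : Fin m // c i = j} = 0) ∧ ∀ n : N, (n : H) ∈ MulAction.stabilizer H a ↔ ∀ i j : Fin m, c i = c j → e n i = e n j)) := by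
  obtain ⟨T, _, m, hT, hm, ⟨e⟩⟩ := S0721.result N hN hmin
  have hc : ¬ IsMulCommutative T := fun h => hnab ⟨⟨fun x y => e.injective (by
    rw [map_mul, map_mul]
    exact funext fun i => h.is_comm.comm _ _)⟩⟩
  set K := MulAction.stabilizer H a
  haveI := Perm.isPretransitive_of_normal_ne_bot (X := α) inferInstance N hN
  let φ : K →* MulAut (Fin m → T) :=
    (MulAut.congr e).toMonoidHom.comp (MulAut.conjNormal.comp K.subtype)
  have hφ : ∀ k n, φ k (e n) = e (MulAut.conjNormal (k : H) n) := fun k n => by simp [φ]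
  let F : Subgroup (Fin m → T) → Subgroup H := fun X => (X.comap e.toMonoidHom).map N.subtype
  have hF : ∀ X (n : N), (n : H) ∈ F X ↔ e n ∈ X := fun X n => by simp [F]
  have hFN : ∀ X, F X ≤ N := fun X => Subgroup.map_subtype_le _
  have hFK : ∀ X, (∀ k, ∀ x ∈ X, φ k x ∈ X) → ∀ k ∈ K, ∀ n ∈ F X, k * n * k⁻¹ ∈ F X :=
    fun X h k hk n hn => (hF X (MulAut.conjNormal k ⟨n, hFN X hn⟩)).2
      (hφ ⟨k, hk⟩ _ ▸ h _ _ ((hF X _).1 hn))
  have hinj : ∀ X Y, F X = F Y → X = Y := fun X Y h => Subgroup.ext fun x => by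
    obtain ⟨n, rfl⟩ := e.surjective x
    rw [← hF, ← hF, h]
  have htop : F ⊤ = N := (hFN _).antisymm fun n hn => (hF ⊤ ⟨n, hn⟩).2 trivial
  let L := (K.subgroupOf N).map e.toMonoidHom
  have hL : ∀ n : N, e n ∈ L ↔ (n : H) ∈ K := fun n => by simp [L, Subgroup.mem_subgroupOf]
  have hFL : F L = K ⊓ N := Subgroup.ext fun n => ⟨fun h => ⟨(hL ⟨n, hFN _ h⟩).1 ((hF _ _).1 h),
    hFN _ h⟩, fun h => (hF _ ⟨n, h.2⟩).2 ((hL _).2 h.1)⟩
  rcases Perm.Scott.core hc φ (L := L) (fun k x hx => by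
      obtain ⟨n, rfl⟩ := e.surjective x
      exact hφ k n ▸ (hL _).2 (mul_mem (mul_mem k.2 ((hL n).1 hx)) (inv_mem k.2)))
    (fun h => hN (eq_bot_iff.2 fun n hn => Perm.eq_one_of_smul_eq (X := α) fun b => by
      obtain ⟨g, rfl⟩ := MulAction.exists_smul_eq H a b
      have h1 : (g⁻¹ * n * g⁻¹⁻¹) • a = a :=
        (hL ⟨_, ‹N.Normal›.conj_mem n hn g⁻¹⟩).1 (h.ge trivial)
      rwa [inv_inv, mul_smul, mul_smul, inv_smul_eq_iff] at h1))
    (fun M hM h => (hmin (F M) ⟨fun n hn g => by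
      obtain ⟨u, hu, s, hs, rfl⟩ := Perm.exists_mem_mul_stabilizer N a g
      have h1 := hFK M h s hs n hn
      have h2 := hM.conj_mem _ ((hF M ⟨_, hFN M h1⟩).1 h1) (e ⟨u, hu⟩)
      rw [← map_inv, ← map_mul, ← map_mul, ← hF] at h2
      simpa [mul_assoc] using h2⟩ (hFN M)).imp (fun h => eq_bot_iff.2 fun x hx => by
        obtain ⟨n, rfl⟩ := e.surjective x
        simpa using h.le ((hF M n).2 hx))
        fun h => hinj _ _ (h.trans htop.symm))
    (fun X hX h => (S0722.result H N hN hmin a (F X) (hFN X)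
      (hFL ▸ Subgroup.map_mono (Subgroup.comap_mono hX)) fun k hk =>
        Subgroup.mem_normalizer_iff.2 fun n => ⟨hFK X h k hk n, fun hn => by
          simpa [mul_assoc] using hFK X h k⁻¹ (inv_mem hk) _ hn⟩).imp
      (fun h => hinj _ _ (h.trans hFL.symm)) fun h => hinj _ _ (h.trans htop.symm)) with
    ⟨R, h1, h2⟩ | ⟨f, k, c, h1, h2, h3⟩
  · exact ⟨T, _, m, e, hT, hc, hm, Or.inl ⟨R, h1, fun n => (hL n).symm.trans (h2 _)⟩⟩
  · exact ⟨T, _, m, e.trans f, hT, hc, hm, Or.inr ⟨k, c, h1, h2, fun n => (hL n).symm.trans (h3 _)⟩⟩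

end Cfsg.Agent.S0723
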