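import Cfsg.Statements.S0724
import Mathlib
import Cfsg.Agent.Perm.Basic
-- import your own Cfsg.Agent.* helpers here

set_option autoImplicit false
open Cfsg

namespace Cfsg.Agent.S0724

open MulAction Cfsg.Agent.Perm Polynomial

theorem card_dvd_sum_pow {G X : Type*} [Group G] [Fintype G] [MulAction G X] [Finite X] (j : ℕ) :
    Fintype.card G ∣ ∑ g : G, Nat.card (fixedBy X g) ^ j := by
  classical
  have := Fintype.ofFinite X
  have h := sum_card_fixedBy_eq_card_orbits_mul_card_group G (Fin j → X)
  have key : ∀ g : G, Fintype.card (fixedBy (Fin j → X) g) = Nat.card (fixedBy X g) ^ j := by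
    intro g
    rw [← Nat.card_eq_fintype_card, show Nat.card (fixedBy X g) ^ j =
      Nat.card (Fin j → fixedBy X g) by simp [Nat.card_fun]]
    exact Nat.card_congr
      { toFun := fun f i => ⟨f.1 i, congrFun f.2 i⟩
        invFun := fun f => ⟨fun i => f i, funext fun i => (f i).2⟩
        left_inv := fun _ => rfl
        right_inv := fun _ => rfl }
  simp only [key] at h
  exact h ▸ Dvd.intro_left _ rfl

theorem card_dvd_sum_eval {G X : Type*} [Group G] [Fintype G] [MulAction G X] [Finite X]
    (f : ℤ[X]) : (Fintype.card G : ℤ) ∣ ∑ g : G, f.eval (Nat.card (fixedBy X g) : ℤ) := by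
  induction f using Polynomial.induction_on' with
  | add p q hp hq => simpa [Finset.sum_add_distrib] using dvd_add hp hq
  | monomial n a =>
    simp only [eval_monomial, ← Finset.mul_sum]
    apply Dvd.dvd.mul_left
    exact_mod_cast card_dvd_sum_pow (G := G) (X := X) n

/-- Blichfeldt's Theorem: if a finite set `L` of natural numbers contains the number of fixed points of every non-identity element of a permutation group `G` of degree `n`, then the order of `G` divides `∏ (n - l)` over `l ∈ L`. -/
theorem result {α : Type*} [Fintype α] [DecidableEq α] (G : Subgroup (Equiv.Perm α)) (L : Finset ℕ) (hL : ∀ g ∈ G, g ≠ 1 → Nat.card (MulAction.fixedBy α g) ∈ L) : Nat.card G ∣ ∏ l ∈ L, (Fintype.card α - l) := by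
  classical
  by_cases h : ∃ l ∈ L, Fintype.card α ≤ l
  · obtain ⟨l, hl, h⟩ := h
    rw [Finset.prod_eq_zero hl (by omega)]
    exact dvd_zero _
  push Not at h
  have := Fintype.ofFinite G
  have key := card_dvd_sum_eval (G := G) (X := α) (∏ l ∈ L, (X - C (l : ℤ)))
  rw [Finset.sum_eq_single 1] at key
  · rw [← Int.natCast_dvd_natCast, Nat.card_eq_fintype_card]
    convert key using 1
    rw [fixedBy_one_eq_univ, eval_prod, Nat.cast_prod]
    apply Finset.prod_congr rfl
    intro l hl
    rw [Nat.cast_sub (h l hl).le]
    simp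
  · intro g _ hg
    rw [eval_prod]
    apply Finset.prod_eq_zero (hL g g.2 (fun e => hg (Subtype.ext e)))
    rw [eval_sub, eval_X, eval_C]
    exact sub_self _
  · simp

end Cfsg.Agent.S0724
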