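import Cfsg.Statements.S0725
import Cfsg.Agent.P4n.Main

set_option autoImplicit false
open Cfsg

namespace Cfsg.Agent.S0725

/-- The Praeger–Saxl bound: a primitive permutation group of degree `n` not containing the alternating group has order at most `4 ^ n`. -/
theorem result {α : Type*} [Fintype α] [DecidableEq α] (G : Subgroup (Equiv.Perm α)) (hG : MulAction.IsPreprimitive G α) (hA : ¬ alternatingGroup α ≤ G) : Nat.card G ≤ 4 ^ Fintype.card α := by
  let e := Fintype.equivFin α
  let ψ : Equiv.Perm α ≃* Equiv.Perm (Fin (Fintype.card α)) := e.permCongrHom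
  have hψ : ∀ (g : Equiv.Perm α) (x : α), ψ g (e x) = e (g x) := fun g x => by simp [ψ]
  have h1 : MulAction.IsPreprimitive (G.map ψ.toMonoidHom) (Fin (Fintype.card α)) :=
    MulAction.IsPreprimitive.of_surjective
      (f := (⟨e, fun g x => (hψ g x).symm⟩ : α →ₑ[ψ.subgroupMap G] Fin (Fintype.card α)))
      e.surjective
  have h2 : ¬ alternatingGroup (Fin (Fintype.card α)) ≤ G.map ψ.toMonoidHom := fun h => hA fun g hg => by
    have h3 : ψ g ∈ alternatingGroup (Fin (Fintype.card α)) := by
      rw [Equiv.Perm.mem_alternatingGroup] at hg ⊢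
      rw [← hg]
      exact Equiv.Perm.sign_permCongr e g
    obtain ⟨k, hk, h4⟩ := h h3
    exact ψ.injective h4 ▸ hk
  have h := P4n.ih4_all (Fintype.card α + 1) (Fin (Fintype.card α)) _ (by simp) h1 h2
  rwa [Subgroup.card_map_of_injective ψ.injective, Fintype.card_fin] at h

end Cfsg.Agent.S0725
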