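import Cfsg.Statements.S0726
import Mathlib
import Cfsg.Agent.Perm.Regular
-- import your own Cfsg.Agent.* helpers here

set_option autoImplicit false
open Cfsg

namespace Cfsg.Agent.S0726

open MulAction Cfsg.Agent.Perm

/-- The left and right regular permutation representations of a group are each other's centralisers in the symmetric group: the centraliser of the left regular image is the right regular image, and a transitive subgroup centralising the left regular image is the whole right regular image. -/
theorem result {G : Type*} [Group G] : Subgroup.centralizer ((MulAction.toPermHom G G).range : Set (Equiv.Perm G)) = (MulAction.toPermHom Gᵐᵒᵖ G).range ∧ ∀ H : Subgroup (Equiv.Perm G), H ≤ Subgroup.centralizer ((MulAction.toPermHom G G).range : Set (Equiv.Perm G)) → MulAction.IsPretransitive H G → H = (MulAction.toPermHom Gᵐᵒᵖ G).range := by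
  have h1 : IsPretransitive (toPermHom G G).range G := isPretransitive_range_iff.2 inferInstance
  have h2 : IsPretransitive (toPermHom Gᵐᵒᵖ G).range G := isPretransitive_range_iff.2 inferInstance
  have h3 : (toPermHom Gᵐᵒᵖ G).range ≤
      Subgroup.centralizer ((toPermHom G G).range : Set (Equiv.Perm G)) := by
    rintro _ ⟨a, rfl⟩ _ ⟨b, rfl⟩
    ext x
    simp [mul_assoc]
  have h4 := centralizer_eq_of_transitive (X := G) _ _ h3
  refine ⟨h4, fun H hH ht => ?_⟩
  rw [← h4, centralizer_eq_of_transitive (X := G) _ _ hH]

end Cfsg.Agent.S0726
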