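import Cfsg.Statements.S0733
import Mathlib
import Cfsg.Agent.Perm.Basic
-- import your own Cfsg.Agent.* helpers here

set_option autoImplicit false
open Cfsg

namespace Cfsg.Agent.S0733

open MulAction Cfsg.Agent.Perm

/-- A permutation group of affine type — generated by the translations of a finite vector space `V` over `ZMod p` together with a group `G₀` of linear automorphisms — is primitive on `V` if and only if `G₀` is irreducible on `V`. -/
theorem result {p : ℕ} [Fact p.Prime] {V : Type*} [AddCommGroup V] [Module (ZMod p) V] [Finite V] [Nontrivial V] (G₀ : Subgroup (V ≃ₗ[ZMod p] V)) (G : Subgroup (Equiv.Perm V)) (hG : ∀ σ : Equiv.Perm V, σ ∈ G ↔ ∃ g ∈ G₀, ∃ b : V, ∀ x : V, σ x = (g : V ≃ₗ[ZMod p] V) x + b) : MulAction.IsPreprimitive G V ↔ ∀ W : Submodule (ZMod p) V, (∀ g ∈ G₀, ∀ v ∈ W, (g : V ≃ₗ[ZMod p] V) v ∈ W) → W = ⊥ ∨ W = ⊤ := by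
  have htr : ∀ b : V, Equiv.addRight b ∈ G := fun b =>
    (hG _).2 ⟨1, G₀.one_mem, b, fun x => rfl⟩
  have hlin : ∀ g ∈ G₀, (g : V ≃ₗ[ZMod p] V).toEquiv ∈ G := fun g hg =>
    (hG _).2 ⟨g, hg, 0, fun x => (add_zero _).symm⟩
  constructor
  · intro hP W hW
    rcases prim_rel hP (fun x y => x - y ∈ W) ⟨fun x => by simp, fun h => by
      simpa using W.neg_mem h, fun h1 h2 => by simpa using W.add_mem h1 h2⟩ (fun σ x y h => by
        obtain ⟨g, hg, b, hb⟩ := (hG _).1 σ.2
        change σ.1 x - σ.1 y ∈ W
        rw [hb, hb, add_sub_add_right_eq_sub, ← map_sub]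
        exact hW g hg _ h) with h | h
    · left
      rw [eq_bot_iff]
      intro w hw
      exact h w 0 (by simpa using hw)
    · right
      rw [eq_top_iff]
      intro w _
      simpa using h w 0
  · intro hW
    have : IsPretransitive G V := (isPretransitive_subgroup_iff G).2 fun a b =>
      ⟨_, htr (b - a), by change a + (b - a) = b; abel⟩
    apply isPreprimitive_of_rel
    intro r hr hinv
    have hadd : ∀ x y b, r x y → r (x + b) (y + b) := fun x y b h => hinv ⟨_, htr b⟩ x y h
    let A : AddSubgroup V :=
      { carrier := {x | r x 0}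
        zero_mem' := hr.refl 0
        add_mem' := fun {x y} hx hy => hr.trans (by simpa using hadd x 0 y hx) hy
        neg_mem' := fun {x} hx => hr.symm (by simpa using hadd x 0 (-x) hx) }
    rcases hW (AddSubgroup.toZModSubmodule p A) (fun g hg v hv => by
      have := hinv ⟨_, hlin g hg⟩ v 0 hv
      change r (g v) (g 0) at this
      rw [map_zero] at this
      exact this) with h | h
    · left
      intro x y hxy
      have : x - y ∈ AddSubgroup.toZModSubmodule p A := by
        change r (x - y) 0
        simpa [sub_eq_add_neg] using hadd x y (-y) hxy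
      rw [h] at this
      exact sub_eq_zero.1 this
    · right
      intro x y
      have : x - y ∈ AddSubgroup.toZModSubmodule p A := h ▸ Submodule.mem_top
      simpa using hadd (x - y) 0 y this

end Cfsg.Agent.S0733
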