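import Cfsg.Statements.S0736
import Mathlib
import Cfsg.Agent.Perm.Homog
-- import your own Cfsg.Agent.* helpers here

set_option autoImplicit false
open Cfsg

namespace Cfsg.Agent.S0736

open MulAction Cfsg.Agent.Perm

/-- A `k`-homogeneous permutation group of degree `n`, `k ≥ 2`, with `k + q - 1 ≤ n` for every prime power `q` dividing `k`, is `(k-1)`-homogeneous. -/
theorem result {α : Type*} [Fintype α] [DecidableEq α] (G : Subgroup (Equiv.Perm α)) {k : ℕ} (hk : 2 ≤ k) (hG : MulAction.IsPretransitive G (Set.powersetCard α k)) (hq : ∀ q : ℕ, IsPrimePow q → q ∣ k → k + q - 1 ≤ Fintype.card α) : MulAction.IsPretransitive G (Set.powersetCard α (k - 1)) := by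
  obtain ⟨k, rfl⟩ : ∃ j, k = j + 1 := ⟨k - 1, by omega⟩
  replace hG : Homog G α (k + 1) := homog_iff.1 hG
  refine (homog_iff (G := G) (k := k)).2 ?_
  have h : ∀ p a : ℕ, p.Prime → 0 < a → p ^ a ∣ k + 1 → k + p ^ a ≤ Fintype.card α := by
    intro p a hp ha hd
    have := hq (p ^ a) (hp.isPrimePow.pow ha.ne') hd
    omega
  obtain ⟨p, hp, hd⟩ := Nat.exists_prime_and_dvd (n := k + 1) (by omega)
  have h1 := h p 1 hp one_pos (by simpa using hd)
  have := hp.two_le
  exact hG.pred (by rw [pow_one] at h1; omega) h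

end Cfsg.Agent.S0736
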