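import Mathlib
import Cfsg.Agent.Perm.Huppert
import Cfsg.Agent.Perm.AffCoord
import Cfsg.Agent.Perm.Homog
import Cfsg.Agent.S0205
import Cfsg.Statements.S0737

set_option autoImplicit false
open Cfsg

namespace Cfsg.Agent.S0737

/-- A non-trivial 2-homogeneous permutation group that is not doubly transitive has odd order and degree `p^f ≡ 3 (mod 4)`, and is permutation-isomorphic to a group of semi-affine transformations `x ↦ a φ(x) + b` of the field with `p^f` elements containing all translations. -/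
theorem result {α : Type*} [Fintype α] [DecidableEq α] (G : Subgroup (Equiv.Perm α)) (hne : G ≠ ⊥) (h2 : MulAction.IsPretransitive G (Set.powersetCard α 2)) (hn2 : ¬ MulAction.IsMultiplyPretransitive G α 2) : Odd (Nat.card G) ∧ ∃ (p f : ℕ) (_ : Fact p.Prime), p ≠ 2 ∧ Fintype.card α = p ^ f ∧ p ^ f % 4 = 3 ∧ ∃ e : α ≃ GaloisField p f, (∀ g : G, e.symm.trans (((g : Equiv.Perm α)).trans e) ∈ Cfsg.semiaffineGroup (GaloisField p f)) ∧ ∀ b : GaloisField p f, ∃ g : G, ∀ x : α, e ((g : Equiv.Perm α) x) = e x + b := by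
  replace h2 : Perm.Homog G α 2 := Perm.homog_iff.1 h2
  have hodd : Odd (Nat.card G) := Nat.not_even_iff_odd.1 fun he => hn2 (h2.two_trans_of_even he)
  haveI : Nontrivial G := (Subgroup.nontrivial_iff_ne_bot G).2 hne
  have h3 : 3 ≤ Fintype.card α := by
    by_contra hc
    have h1 := Subgroup.card_subgroup_dvd_card G
    rw [Nat.card_perm, Nat.card_eq_fintype_card (α := α)] at h1
    have h4 : Nat.card G ∣ 2 := h1.trans (Nat.factorial_dvd_factorial (n := 2) (by omega))
    rcases (Nat.dvd_prime Nat.prime_two).1 h4 with e | e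
    · exact Finite.one_lt_card.ne' e
    · rw [e] at hodd
      exact absurd hodd (by decide)
  haveI := S0205.result hodd
  haveI : Nontrivial α := Fintype.one_lt_card_iff_nontrivial.1 (by omega)
  obtain ⟨a, b, hab⟩ := exists_pair_ne α
  have hP := h2.isPreprimitive h3
  obtain ⟨p, _, V, _, _, e, ρ, h0, hρ, ht⟩ := Perm.exists_affine_coord_of_isSolvable hP a
  haveI : Finite V := Finite.of_equiv _ e
  haveI : Nontrivial V := e.symm.nontrivial
  have h4 : Fintype.card α % 4 = 3 := by
    have e1 := Odd.of_dvd_nat hodd ⟨_, (h2.card_eq {a, b} (Finset.card_pair hab)).symm⟩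
    have e2 := Odd.of_dvd_nat hodd ⟨_, (Perm.card_mul_card_stabilizer (G := G) a).symm⟩
    rw [Nat.card_eq_fintype_card] at e2
    obtain ⟨k, hk⟩ := e2
    rw [hk, Nat.choose_two_right, Nat.add_sub_cancel, Nat.mul_div_assoc _ (dvd_mul_right 2 k),
      Nat.mul_div_cancel_left k two_pos] at e1
    obtain ⟨j, rfl⟩ := Nat.Odd.of_mul_right e1
    omega
  have hV : Nat.card V = Fintype.card α := by rw [← Nat.card_congr e, Nat.card_eq_fintype_card]
  let ν : ℤˣ →* V ≃ₗ[ZMod p] V := DistribMulAction.toModuleAut (ZMod p) V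
  let τ : G × ℤˣ →* V ≃ₗ[ZMod p] V := ρ.noncommCoprod ν fun g u => LinearEquiv.ext fun v => by
    change ρ g (u • v) = u • ρ g v
    rw [Units.smul_def, Units.smul_def, map_zsmul]
  haveI : Group.IsSolvable τ.range := Group.isSolvable_of_surjective τ.rangeRestrict_surjective
  rcases Perm.huppert (ρ := τ.range.subtype) τ.range.subtype_injective (fun v w hv hw => by
    obtain ⟨g, ⟨h5, h6⟩ | ⟨h5, h6⟩⟩ := h2.pair (a := a) (b := e.symm v) (c := a) (d := e.symm w)
      (fun h => hv (by rw [← h0, h, e.apply_symm_apply]))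
      fun h => hw (by rw [← h0, h, e.apply_symm_apply])
    · refine ⟨⟨_, (g, 1), rfl⟩, ?_⟩
      have := hρ g (e.symm v)
      rw [h5, h6, h0, add_zero, e.apply_symm_apply, e.apply_symm_apply] at this
      change ρ g ((1 : ℤˣ) • v) = w
      rw [one_smul, this]
    · refine ⟨⟨_, (g, -1), rfl⟩, ?_⟩
      have := hρ g (e.symm v)
      rw [h5, h6, h0, e.apply_symm_apply, e.apply_symm_apply] at this
      change ρ g ((-1 : ℤˣ) • v) = w
      rw [Units.neg_smul, one_smul, map_neg, neg_eq_iff_add_eq_zero, this]) with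
    ⟨A, _, _, hA⟩ | h5
  · obtain ⟨n, f, h6, hf⟩ := hA.exists_semilinear
    rw [hV] at h6
    refine ⟨hodd, p, n, inferInstance, ?_, h6, h6 ▸ h4, e.trans f.toEquiv, fun g => ?_,
      fun c => ?_⟩
    · rintro rfl
      rw [h6] at h3 h4
      rcases n with _ | n
      · omega
      · rw [pow_succ] at h4
        omega
    · obtain ⟨c, σ, hc⟩ := hf ⟨_, (g, 1), rfl⟩
      refine ⟨c, f (e (g • a)), σ, fun x => ?_⟩
      have := hc (f.symm x)
      rw [f.apply_symm_apply] at this
      rw [← this, ← map_add]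
      change f (e (g • e.symm (f.symm x))) = f (ρ g ((1 : ℤˣ) • f.symm x) + _)
      rw [hρ, one_smul, e.apply_symm_apply]
    · obtain ⟨m, hm⟩ := ht (f.symm c)
      refine ⟨m, fun x => ?_⟩
      change f (e (m • x)) = f (e x) + c
      rw [hm, map_add, f.apply_symm_apply]
  · rw [hV] at h5
    simp only [Set.mem_insert_iff, Set.mem_singleton_iff] at h5
    omega

end Cfsg.Agent.S0737
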