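import Cfsg.Statements.S0740
import Cfsg.Agent.Perm.ZassElem

set_option autoImplicit false
open Cfsg

namespace Cfsg.Agent.S0740

open Cfsg.Agent.Perm.Zass

/-- In a finite Zassenhaus group any two points `a ≠ b` are swapped by an involution; every such involution has exactly one fixed point when the degree is odd and 0 or 2 fixed points when the degree is even; and if the two-point stabiliser has even order, some such involution has exactly 2 fixed points. -/
theorem result {G Ω : Type*} [Group G] [Finite G] [MulAction G Ω] [Fintype Ω] (hZ : Cfsg.IsZassenhausGroup G Ω) {a b : Ω} (hab : a ≠ b) : (∃ s : G, orderOf s = 2 ∧ s • a = b ∧ s • b = a) ∧ (∀ s : G, orderOf s = 2 → s • a = b → s • b = a → (Odd (Fintype.card Ω) → Nat.card (MulAction.fixedBy Ω s) = 1) ∧ (Even (Fintype.card Ω) → Nat.card (MulAction.fixedBy Ω s) = 0 ∨ Nat.card (MulAction.fixedBy Ω s) = 2)) ∧ (Even (Fintype.card Ω) → Even (Nat.card ↥(MulAction.stabilizer G a ⊓ MulAction.stabilizer G b)) → ∃ s : G, orderOf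 s = 2 ∧ s • a = b ∧ s • b = a ∧ Nat.card (MulAction.fixedBy Ω s) = 2) := by
  have hT := hZ.isZT
  have hne : ∀ s : G, s • a = b → s ≠ 1 := fun s hs e => hab (by rw [← hs, e, one_smul])
  refine ⟨?_, fun s hs hsa hsb => ?_, fun he he2 => ?_⟩
  · obtain ⟨t, ht, h1, h2⟩ := hT.exists_swap hab
    exact ⟨t, orderOf_eq_two_iff'.mpr ⟨ht, hne t h1⟩, h1, h2⟩
  · rw [orderOf_eq_two_iff'] at hs
    have h1 := hT.card_fixedBy_le hs.2
    have h2 := card_fixedBy_modEq (Ω := Ω) hs.1
    rw [Nat.ModEq, Nat.card_eq_fintype_card (α := Ω)] at h2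
    constructor
    · intro h; rw [Nat.odd_iff] at h; omega
    · intro h; rw [Nat.even_iff] at h; omega
  · obtain ⟨c, hca, hcb⟩ := hT.third a b
    obtain ⟨s, hs, h1, h2, h3⟩ := hT.exists_swap_fix hab he2 hca hcb
    obtain ⟨d, hd, hsd⟩ := hT.exists_fixed_of_even (by rwa [Nat.card_eq_fintype_card]) hs h3
    exact ⟨s, orderOf_eq_two_iff'.mpr ⟨hs, hne s h1⟩, h1, h2,
      hT.card_fixedBy_eq_two (hne s h1) hd hsd h3⟩

end Cfsg.Agent.S0740
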