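import Mathlib
import Cfsg.Statements.S0748
import Cfsg.Agent.Perm.LivWag2

set_option autoImplicit false
open Cfsg

namespace Cfsg.Agent.S0748

/-- The Livingstone–Wagner Theorem: a `k`-homogeneous permutation group of degree `n` with `10 ≤ 2k ≤ n` is `k`-transitive. -/
theorem result {α : Type*} [Fintype α] [DecidableEq α] (G : Subgroup (Equiv.Perm α)) {k : ℕ} (hk : 5 ≤ k) (hkn : 2 * k ≤ Fintype.card α) (hh : MulAction.IsPretransitive G (Set.powersetCard α k)) : MulAction.IsMultiplyPretransitive G α k := by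
  obtain ⟨j, rfl⟩ : ∃ j, k = j + 1 := ⟨k - 1, by omega⟩
  by_contra hn
  have := Perm.LW.card_le (by omega) (Perm.homog_iff.mp hh)
    (Perm.LW.pred_trans G hkn (Perm.homog_iff.mp hh) j le_rfl) hn
  omega

end Cfsg.Agent.S0748
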