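import Mathlib
import Cfsg.Statements.S0752
import Cfsg.Agent.Cl.SpForm
-- import your own Cfsg.Agent.* helpers here

set_option autoImplicit false
open Cfsg

namespace Cfsg.Agent.S0752

/-- Classification of alternating forms: for an alternating bilinear form B on a finite-dimensional space over any field there is a basis indexed by (Fin m ⊕ Fin m) ⊕ Fin k such that B (e_i, f_j) = δ_ij, the e's are pairwise orthogonal, the f's are pairwise orthogonal, and the last k basis vectors are orthogonal to everything (they span the radical). -/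
theorem result {F V : Type*} [Field F] [AddCommGroup V] [Module F V] [FiniteDimensional F V] (B : LinearMap.BilinForm F V) (hA : B.IsAlt) : ∃ (m k : ℕ) (b : Module.Basis ((Fin m ⊕ Fin m) ⊕ Fin k) F V), (∀ i j : Fin m, B (b (Sum.inl (Sum.inl i))) (b (Sum.inl (Sum.inr j))) = if i = j then 1 else 0) ∧ (∀ i j : Fin m, B (b (Sum.inl (Sum.inl i))) (b (Sum.inl (Sum.inl j))) = 0) ∧ (∀ i j : Fin m, B (b (Sum.inl (Sum.inr i))) (b (Sum.inl (Sum.inr j))) = 0) ∧ (∀ (j : Fin k) (v : V), B (b (Sum.inr j)) v = 0) := by
  obtain ⟨C, hC⟩ := (LinearMap.ker B).exists_isCompl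
  have hA' : (B.restrict C).IsAlt := fun x => hA x
  have hB' : (B.restrict C).Nondegenerate := by
    refine hA'.isRefl.nondegenerate_iff_separatingLeft.2 ?_
    intro x hx
    have : (x : V) ∈ LinearMap.ker B := by
      rw [LinearMap.mem_ker]
      ext y
      obtain ⟨r, hr, c, hc, rfl⟩ := Submodule.mem_sup.1
        (hC.sup_eq_top ▸ Submodule.mem_top : y ∈ LinearMap.ker B ⊔ C)
      have h1 : B x r = 0 := by
        rw [← hA.neg_eq, LinearMap.mem_ker.1 hr]; simp
      have h2 : B x c = 0 := hx ⟨c, hc⟩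
      simp [h1, h2]
    exact Subtype.ext (Submodule.disjoint_def.1 hC.disjoint _ this x.2)
  obtain ⟨m, hm⟩ := Cl.sp_even_finrank hB' hA'
  obtain ⟨b, h1, h2, h3⟩ := Cl.sp_exists_basis hB' hA' (m := m) (by omega)
  let b' := b.reindex (Equiv.sumComm _ _)
  let r := Module.finBasis F (LinearMap.ker B)
  let e := Submodule.prodEquivOfIsCompl C (LinearMap.ker B) hC.symm
  refine ⟨m, _, (b'.prod r).map e, fun i j => ?_, fun i j => ?_, fun i j => ?_, fun j v => ?_⟩
  · simpa [e, b'] using h1 i j
  · simpa [e, b'] using h3 i j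
  · simpa [e, b'] using h2 i j
  · have : B (r j) = 0 := (r j).2
    simp [e, this]

end Cfsg.Agent.S0752
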