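import Mathlib
import Cfsg.Statements.S0756
import Cfsg.Agent.Cl.OrthForms

set_option autoImplicit false
open Cfsg

namespace Cfsg.Agent.S0756

open Cfsg.Agent.Cl

/-- Classification of symmetric bilinear forms over finite fields of odd characteristic: if B is non-degenerate symmetric on V of dimension n + 1 and α is a fixed non-square of F, there is an orthogonal basis b_0, ..., b_n with B(b_i, b_i) = 1 for i < n and B(b_n, b_n) ∈ {1, α}. -/
theorem result {F V : Type*} [Field F] [Finite F] [AddCommGroup V] [Module F V] [FiniteDimensional F V] (h2 : (2 : F) ≠ 0) (B : LinearMap.BilinForm F V) (hS : B.IsSymm) (hB : B.Nondegenerate) {n : ℕ} (hn : Module.finrank F V = n + 1) (α : F) (hα : ¬ IsSquare α) : ∃ b : Module.Basis (Fin (n + 1)) F V, (∀ i j, i ≠ j → B (b i) (b j) = 0) ∧ (∀ i, i ≠ Fin.last n → B (b i) (b i) = 1) ∧ (B (b (Fin.last n)) (b (Fin.last n)) = 1 ∨ B (b (Fin.last n)) (b (Fin.last n)) = α) := by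
  have hQ := o_toQ_nondeg h2 hS hB
  have hα0 : α ≠ 0 := by rintro rfl; exact hα IsSquare.zero
  let d : F → Fin (n + 1) → F := fun c i => if i = Fin.last n then c else 1
  have hd : ∀ c, c ≠ 0 → ∀ i, d c i ≠ 0 := fun c hc i => by
    simp only [d]; split_ifs <;> simp [hc]
  have hp : ∀ c, ∏ i, d c i = c := fun c => by simp [d]
  have hD := (quad_disc_ne_zero_iff _ (Module.finBasis F V)).2 hQ
  obtain ⟨c, hc, hc0, hc'⟩ : ∃ c, (c = 1 ∨ c = α) ∧ c ≠ 0 ∧
      IsSquare (quad_disc (LinearMap.BilinMap.toQuadraticMap B) (Module.finBasis F V) *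
        (2 ^ (n + 1) * c)) := by
    by_cases h : IsSquare (quad_disc (LinearMap.BilinMap.toQuadraticMap B) (Module.finBasis F V) *
        2 ^ (n + 1))
    · exact ⟨1, Or.inl rfl, one_ne_zero, by rwa [mul_one]⟩
    · exact ⟨α, Or.inr rfl, hα0, by rw [← mul_assoc]; exact quad_isSquare_mul_of_not h hα⟩
  obtain ⟨g, hg⟩ := (quad_equiv_iff_disc h2 hQ (o_wss_nondeg h2 (hd c hc0)) (by simp [hn])
    (Module.finBasis F V) (Pi.basisFun F _)).2 (by rwa [o_disc_wss, hp, Fintype.card_fin])
  have h1 : ∀ i, B (g.symm (Pi.single i 1)) (g.symm (Pi.single i 1)) = d c i := fun i => by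
    have := hg (g.symm (Pi.single i 1))
    rw [LinearEquiv.apply_symm_apply, o_wss_single] at this
    exact this.symm
  refine ⟨(Pi.basisFun F _).map g.symm, fun i j h => ?_, fun i h => ?_, ?_⟩
  · have := quad_polar_equiv g hg (g.symm (Pi.single i 1)) (g.symm (Pi.single j 1))
    rw [LinearEquiv.apply_symm_apply, LinearEquiv.apply_symm_apply, o_polar_wss_single _ h,
      o_polar_toQ hS] at this
    simpa [h2] using this
  · simp [h1, d, h]
  · simpa [h1, d] using hc

end Cfsg.Agent.S0756
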