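import Mathlib
import Cfsg.Statements.S0759
import Cfsg.Agent.Cl.OrthForms

set_option autoImplicit false
open Cfsg

namespace Cfsg.Agent.S0759

open Cfsg.Agent.Cl

/-- Type of the orthonormal form: over a finite field of odd order q and for m ≥ 1, the quadratic form Σ_(i<2m) x_i² on F^(2m) admits an m-dimensional subspace on which it vanishes identically if and only if it is not the case that q ≡ 3 (mod 4) and m is odd. -/
theorem result {F : Type*} [Field F] [Fintype F] (h2 : (2 : F) ≠ 0) (m : ℕ) (hm : 1 ≤ m) : (∃ W : Submodule F (Fin (2 * m) → F), Module.finrank F W = m ∧ ∀ w ∈ W, ∑ i, w i ^ 2 = 0) ↔ ¬ (Fintype.card F % 4 = 3 ∧ Odd m) := by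
  have := o_exists_max_singular_iff_disc (m := m) h2
    (o_wss_nondeg h2 (d := fun _ : Fin (2 * m) => (1 : F)) fun _ => one_ne_zero) (by simp)
    (Pi.basisFun F _)
  simp only [o_wss_apply, one_mul] at this
  have hodd := o_odd_card_of_two_ne_zero h2
  rw [this, o_disc_wss, Fintype.card_fin, Finset.prod_const_one, mul_one, mul_comm, pow_mul',
    quad_isSquare_sq_mul (pow_ne_zero _ h2), quad_isSquare_neg_one_pow_iff m hodd]
  have h4 : Fintype.card F % 4 = 1 ∨ Fintype.card F % 4 = 3 := by
    obtain ⟨k, hk⟩ := hodd; omega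
  rcases h4 with h4 | h4
  · simp [Nat.pow_mod, h4]
  · rcases Nat.even_or_odd' m with ⟨k, rfl | rfl⟩
    · simp [Nat.pow_mod, h4, pow_mul]
    · simp [Nat.pow_mod, h4, pow_mul, pow_succ, Nat.mul_mod]

end Cfsg.Agent.S0759
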