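import Mathlib
import Cfsg.Statements.S0760
import Cfsg.Agent.Cl.OrthStd

set_option autoImplicit false
open Cfsg

namespace Cfsg.Agent.S0760

open Cfsg.Agent.Cl

/-- Witt index is well defined: if Q is a quadratic form on a finite-dimensional space V over a finite field with non-degenerate polar form, and W₁, W₂ are subspaces on which Q vanishes that are maximal with this property, then W₁ and W₂ have the same dimension, and twice this dimension is at most dim V. -/
theorem result {F V : Type*} [Field F] [Finite F] [AddCommGroup V] [Module F V] [FiniteDimensional F V] (Q : QuadraticForm F V) (hQ : (QuadraticMap.polarBilin Q).Nondegenerate) (W₁ W₂ : Submodule F V) (h₁ : ∀ w ∈ W₁, Q w = 0) (h₂ : ∀ w ∈ W₂, Q w = 0) (hmax₁ : ∀ W : Submodule F V, W₁ ≤ W → (∀ w ∈ W, Q w = 0) → W = W₁) (hmax₂ : ∀ W : Submodule F V, W₂ ≤ W → (∀ w ∈ W, Q w = 0) → W = W₂) : Module.finrank F W₁ = Module.finrank F W₂ ∧ 2 * Module.finrank F W₁ ≤ Module.finrank F V := by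
  have key : ∀ W : Submodule F V, (∀ w ∈ W, Q w = 0) →
      (∀ W' : Submodule F V, W ≤ W' → (∀ w ∈ W', Q w = 0) → W' = W) →
      ∀ x, Q x = 0 → x ∈ quad_perp Q W → x ∈ W := by
    intro W hW hmax x hx hxW
    rw [← hmax (W ⊔ Submodule.span F {x}) le_sup_left]
    · exact Submodule.mem_sup_right (Submodule.mem_span_singleton_self x)
    · intro w hw
      obtain ⟨a, ha, b, hb, rfl⟩ := Submodule.mem_sup.1 hw
      obtain ⟨c, rfl⟩ := Submodule.mem_span_singleton.1 hb
      simp [oexp, hW a ha, hx, quad_mem_perp.1 hxW a ha]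
  exact ⟨le_antisymm (quad_finrank_singular_le h₁ (key W₂ h₂ hmax₂))
    (quad_finrank_singular_le h₂ (key W₁ h₁ hmax₁)), o_two_mul_finrank_le hQ h₁⟩

end Cfsg.Agent.S0760
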