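import Mathlib
import Cfsg.Statements.S0761
import Cfsg.Agent.Cl.OrthForms

set_option autoImplicit false
open Cfsg

namespace Cfsg.Agent.S0761

open Cfsg.Agent.Cl

/-- Hyperbolic partners: let B be a non-degenerate bilinear form on a finite-dimensional space, either alternating, or symmetric with 2 ≠ 0. If Z is a subspace on which B vanishes, x ∉ Z is isotropic and orthogonal to Z, then there is an isotropic y with B x y = 1 which is orthogonal to Z. -/
theorem result {F V : Type*} [Field F] [AddCommGroup V] [Module F V] [FiniteDimensional F V] (B : LinearMap.BilinForm F V) (hB : B.Nondegenerate) (hform : B.IsAlt ∨ (B.IsSymm ∧ (2 : F) ≠ 0)) (x : V) (Z : Submodule F V) (hxZ : x ∉ Z) (hx : B x x = 0) (hxz : ∀ z ∈ Z, B x z = 0) (hZ : ∀ z ∈ Z, ∀ z' ∈ Z, B z z' = 0) : ∃ y : V, B y y = 0 ∧ B x y = 1 ∧ ∀ z ∈ Z, B z y = 0 := by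
  obtain ⟨f, hfx, hf⟩ := Z.exists_dual_map_eq_bot_of_notMem hxZ inferInstance
  have hfz : ∀ z ∈ Z, f z = 0 := fun z hz => by
    rw [← Submodule.mem_bot F, ← hf]; exact ⟨z, hz, rfl⟩
  have hy := fun v => LinearMap.BilinForm.apply_toDual_symm_apply (B := B) (hB := hB) f v
  set y := (B.toDual hB).symm f
  rcases hform with h | ⟨h, h2⟩
  · refine ⟨-(f x)⁻¹ • y, h.self_eq_zero _, ?_, fun z hz => ?_⟩
    · rw [← h.neg_eq]; simp [hy, hfx]
    · rw [← h.neg_eq]; simp [hy, hfz z hz]
  · have hs : ∀ u v, B u v = B v u := fun u v => h.eq u v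
    refine ⟨(f x)⁻¹ • y - ((f x)⁻¹ ^ 2 * f y / 2) • x, ?_, ?_, fun z hz => ?_⟩
    · simp only [map_sub, map_smul, LinearMap.sub_apply, LinearMap.smul_apply, smul_eq_mul,
        hs x y, hy, hx]
      field_simp
      ring
    · simp [hs x y, hy, hx, hfx]
    · simp [hs z y, hs z x, hy, hfz z hz, hxz z hz]

end Cfsg.Agent.S0761
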