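import Mathlib
import Cfsg.Statements.S0762
import Cfsg.Agent.Cl.QuadBasic

set_option autoImplicit false
open Cfsg

namespace Cfsg.Agent.S0762

open Cfsg.Agent.Cl

/-- In characteristic two over a finite field, a quadratic form on a space of dimension at least 3 vanishes on some non-zero vector. -/
theorem result {F V : Type*} [Field F] [Finite F] [CharP F 2] [AddCommGroup V] [Module F V] [FiniteDimensional F V] (Q : QuadraticForm F V) (h3 : 3 ≤ Module.finrank F V) : ∃ v : V, v ≠ 0 ∧ Q v = 0 := by
  exact quad_exists_singular Q h3

end Cfsg.Agent.S0762
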