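import Mathlib
import Cfsg.Statements.S0763
import Cfsg.Agent.Cl.OrthForms

set_option autoImplicit false
open Cfsg

namespace Cfsg.Agent.S0763

open Cfsg.Agent.Cl

/-- Binary quadratic forms in characteristic two over a finite field: if Q is a quadratic form on a 2-dimensional space whose polar form is non-degenerate, then either there are vectors v, w with Q v = Q w = 0 and polar value 1 (Q is xy in these coordinates), or there are v, w and μ with Q v = 1, Q w = μ, polar value 1 and x² + x + μ without roots in F (Q is x² + xy + μy²). -/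
theorem result {F V : Type*} [Field F] [Finite F] [CharP F 2] [AddCommGroup V] [Module F V] (Q : QuadraticForm F V) (h2 : Module.finrank F V = 2) (hQ : (QuadraticMap.polarBilin Q).Nondegenerate) : (∃ v w : V, LinearIndependent F ![v, w] ∧ Q v = 0 ∧ Q w = 0 ∧ QuadraticMap.polar Q v w = 1) ∨ (∃ (v w : V) (μ : F), LinearIndependent F ![v, w] ∧ (∀ x : F, x ^ 2 + x + μ ≠ 0) ∧ Q v = 1 ∧ Q w = μ ∧ QuadraticMap.polar Q v w = 1) := by
  have h0 : (2 : F) = 0 := CharTwo.two_eq_zero
  have hli : ∀ v w : V, QuadraticMap.polar Q v w = 1 → LinearIndependent F ![v, w] := by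
    intro v w h
    rw [LinearIndependent.pair_iff]
    intro a b hab
    have h1 := congrArg (QuadraticMap.polar Q v) hab
    have h3 := congrArg (fun x => QuadraticMap.polar Q x w) hab
    simp only [oexp, h, h0, zero_mul, mul_zero, mul_one, zero_add,
      add_zero] at h1 h3
    exact ⟨h3, h1⟩
  by_cases h : ∃ v, v ≠ 0 ∧ Q v = 0
  · obtain ⟨v, hv0, hv⟩ := h
    obtain ⟨w, hw, hvw⟩ := o_exists_partner hQ hv hv0
    exact Or.inl ⟨v, w, hli v w hvw, hv, hw, hvw⟩
  · obtain ⟨ζ, hζ⟩ := quad_exists_aniso F
    obtain ⟨k, hk⟩ := quad_aniso_plane hQ h2 (fun v hv => by_contra fun h' => h ⟨v, h', hv⟩) hζ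
    have : QuadraticMap.polar Q (k ![1, 0]) (k ![0, 1]) = 1 := by
      simp only [QuadraticMap.polar, ← map_add, hk]; simp; ring
    exact Or.inr ⟨_, _, ζ, hli _ _ this, by simpa using hζ, by simp [hk], by simp [hk], this⟩

end Cfsg.Agent.S0763
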