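import Mathlib
import Cfsg.Statements.S0767
import Cfsg.Agent.Cl.SpTransv
-- import your own Cfsg.Agent.* helpers here

set_option autoImplicit false
open Cfsg

namespace Cfsg.Agent.S0767

/-- The root group of a point: T_v(c) T_v(d) = T_v(c + d), and for A in the symplectic group with A v = a v, the conjugate A T_v(c) A⁻¹ is again some T_v(d). -/
theorem result {F : Type*} [Field F] (m : ℕ) (v : Fin m ⊕ Fin m → F) : (∀ c d : F, Cfsg.sympTransvection m v c * Cfsg.sympTransvection m v d = Cfsg.sympTransvection m v (c + d)) ∧ ∀ (A : Matrix (Fin m ⊕ Fin m) (Fin m ⊕ Fin m) F) (a : F), A ∈ Matrix.symplecticGroup (Fin m) F → A.mulVec v = a • v → ∀ c : F, ∃ d : F, A * Cfsg.sympTransvection m v c * A⁻¹ = Cfsg.sympTransvection m v d := by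
  refine ⟨fun c d => ?_, fun A a hA hv c => ⟨a ^ 2 * c, ?_⟩⟩
  · simp only [← Cl.coe_spTM, ← Submonoid.coe_mul, Cl.spTM, ← map_mul, Cl.spT_mul]
  · have h := Cl.spT_conj Cl.spB_isAlt (Cl.spStdEquiv m F ⟨A, hA⟩) v c
    rw [Cl.spStdEquiv_apply, hv, Cl.spT_smul] at h
    have h2 := congrArg (fun g => ((Cl.spStdEquiv m F).symm g).1) h
    simp only [map_mul, map_inv, MulEquiv.symm_apply_apply, Submonoid.coe_mul,
      SymplecticGroup.coe_inv'] at h2
    simpa only [← Cl.coe_spTM, Cl.spTM] using h2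

end Cfsg.Agent.S0767
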