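import Mathlib
import Cfsg.Statements.S0770
import Cfsg.Agent.Cl.LinearMaxPar

set_option autoImplicit false
open Cfsg

namespace Cfsg.Agent.S0770

theorem mem_iff {F : Type*} [Field F] {n : ℕ} (x : GL (Fin n) F) :
    x ∈ (Units.map (Matrix.diagonalRingHom (Fin n) F).toMonoidHom).range ↔
      ∃ d : Fin n → Fˣ, x = Cl.diagGL d := by
  constructor
  · rintro ⟨u, rfl⟩
    exact ⟨MulEquiv.piUnits u, Units.ext rfl⟩
  · rintro ⟨d, rfl⟩
    exact ⟨MulEquiv.piUnits.symm d, Units.ext rfl⟩

theorem mul_eq_iff {F : Type*} [Field F] {n : ℕ} (g : GL (Fin n) F) (d e : Fin n → Fˣ) :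
    g * Cl.diagGL d * g⁻¹ = Cl.diagGL e ↔
      ∀ i j, (g : Matrix (Fin n) (Fin n) F) i j ≠ 0 → d j = e i := by
  rw [mul_inv_eq_iff_eq_mul, Units.ext_iff, ← Matrix.ext_iff]
  simp only [Units.val_mul, Cl.coe_diagGL, Matrix.mul_diagonal, Matrix.diagonal_mul]
  refine forall₂_congr fun i j => ?_
  by_cases h : (g : Matrix (Fin n) (Fin n) F) i j = 0
  · simp [h]
  · rw [mul_comm, mul_left_inj' h, Units.val_inj]; simp [h]

/-- For a field with at least 3 elements, an invertible matrix normalises the subgroup of invertible diagonal matrices of GL_n if and only if it is monomial (exactly one non-zero entry in each row). -/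
theorem result {F : Type*} [Field F] (hF : ∃ a : F, a ≠ 0 ∧ a ≠ 1) (n : ℕ) (g : Matrix.GeneralLinearGroup (Fin n) F) : g ∈ Subgroup.normalizer ((Units.map (Matrix.diagonalRingHom (Fin n) F).toMonoidHom).range : Subgroup (Matrix.GeneralLinearGroup (Fin n) F)) ↔ ∀ i : Fin n, ∃! j : Fin n, (g : Matrix (Fin n) (Fin n) F) i j ≠ 0 := by
  obtain ⟨a, ha0, ha1⟩ := hF
  constructor
  · intro hg i
    have h1 : ∃ j, (g : Matrix (Fin n) (Fin n) F) i j ≠ 0 := by
      by_contra h
      push Not at h
      exact g.det_ne_zero (Matrix.det_eq_zero_of_row_eq_zero i h)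
    obtain ⟨j, hj⟩ := h1
    refine ⟨j, hj, fun k hk => ?_⟩
    by_contra hkj
    obtain ⟨e, he⟩ := (mem_iff _).1 ((Subgroup.mem_normalizer_iff.1 hg _).1
      ((mem_iff _).2 ⟨Function.update 1 j (Units.mk0 a ha0), rfl⟩))
    have h2 := (mul_eq_iff _ _ _).1 he
    have h3 := (h2 i j hj).trans (h2 i k hk).symm
    rw [Function.update_self, Function.update_of_ne hkj] at h3
    exact ha1 (congrArg Units.val h3)
  · intro h
    choose σ hσ hσ' using h
    have hs : Function.Surjective σ := fun j => by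
      by_contra hj
      push Not at hj
      refine g.det_ne_zero (Matrix.det_eq_zero_of_column_eq_zero j fun i => ?_)
      by_contra h
      exact hj i (hσ' i j h).symm
    let e := Equiv.ofBijective σ (Finite.surjective_iff_bijective.1 hs)
    refine Subgroup.mem_normalizer_iff.2 fun x => ?_
    rw [mem_iff, mem_iff]
    constructor
    · rintro ⟨d, rfl⟩
      exact ⟨d ∘ σ, (mul_eq_iff _ _ _).2 fun i j hij => by rw [hσ' i j hij]; rfl⟩
    · rintro ⟨d, hd⟩
      refine ⟨d ∘ e.symm, ?_⟩
      have := (mul_eq_iff g (d ∘ e.symm) d).2 fun i j hij => by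
        rw [hσ' i j hij]
        exact congrArg d (e.symm_apply_apply i)
      rw [← hd] at this
      simpa using this.symm

end Cfsg.Agent.S0770
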