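import Mathlib
import Cfsg.Statements.S0773
import Cfsg.Agent.Cl.LinearMaxPar

set_option autoImplicit false
open Cfsg

namespace Cfsg.Agent.S0773

/-- The stabilisers in GL_n(F), F finite, of the coordinate subspaces of dimensions k and n − k are isomorphic groups, but when 2k ≠ n (and 0 < k < n) no element of GL_n conjugates one onto the other. -/
theorem result {F : Type*} [Field F] [Finite F] (n k : ℕ) (hk0 : 0 < k) (hkn : k < n) (h2 : 2 * k ≠ n) : Nonempty (↥(Cfsg.stabilizing (Cfsg.glToMat (Fin n) F) {v : Fin n → F | ∀ i : Fin n, k ≤ (i : ℕ) → v i = 0}) ≃* ↥(Cfsg.stabilizing (Cfsg.glToMat (Fin n) F) {v : Fin n → F | ∀ i : Fin n, n - k ≤ (i : ℕ) → v i = 0})) ∧ ∀ g : Matrix.GeneralLinearGroup (Fin n) F, (Cfsg.stabilizing (Cfsg.glToMat (Fin n) F) {v : Fin n → F | ∀ i : Fin n, k ≤ (i : ℕ) → v i = 0}).map (MulAut.conj g).toMonoidHom ≠ Cfsg.stabilizing (Cfsg.glToMat (Fin n) F) {v : Fin n → F | ∀ i : Fin n, n - k ≤ (i : ℕ) → v i = 0} := by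
  rw [Cl.stabilizing_coord_eq_parab (fun i : Fin n => k ≤ (i : ℕ)),
    Cl.stabilizing_coord_eq_parab (fun i : Fin n => n - k ≤ (i : ℕ))]
  have hlt : ∀ a b : Prop, ∀ [Decidable a] [Decidable b], decide b < decide a ↔ a ∧ ¬ b :=
    fun a b _ _ => by by_cases ha : a <;> by_cases hb : b <;> simp [ha, hb]
  constructor
  · refine ⟨Cl.subgroupEquivOfIff ((Cl.glInvTranspose (Fin n) F).trans
      (Cl.glReindexEquiv F Fin.revPerm)) _ _ fun g => ?_⟩
    rw [← Subgroup.inv_mem_iff, ← map_inv, Cl.mem_parab, Cl.mem_parab]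
    simp only [hlt, MulEquiv.trans_apply, Cl.coe_glReindexEquiv, Cl.coe_glInvTranspose, inv_inv,
      Matrix.reindex_apply, Matrix.submatrix_apply, Matrix.transpose_apply, Fin.revPerm_symm,
      Fin.revPerm_apply]
    constructor
    · intro h i j hij
      have := h j.rev i.rev (by simp only [Fin.val_rev]; omega)
      rwa [Fin.rev_rev, Fin.rev_rev] at this
    · intro h i j hij
      exact h _ _ (by simp only [Fin.val_rev]; omega)
  · intro g hg
    have hW : ∀ m, m ≤ n → Module.finrank F (Pi.spanSubset F {i : Fin n | (i : ℕ) < m}) = m := by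
      intro m hm
      rw [Pi.dim_spanSubset, Set.ncard_eq_toFinset_card', Set.toFinset_setOf,
        Fin.card_filter_val_lt, min_eq_right hm]
    have hU := Cl.finrank_map_mulVecLin g (Pi.spanSubset F {i : Fin n | (i : ℕ) < k})
    rw [hW k hkn.le] at hU
    rcases Cl.eq_spanSubset_of_invariant (fun i : Fin n => decide (n - k ≤ (i : ℕ)))
      ((Pi.spanSubset F {i : Fin n | (i : ℕ) < k}).map (Matrix.mulVecLin (g : Matrix _ _ F)))
      (by
        rintro i j h hij _ ⟨v, hv, rfl⟩
        have h1 := Cl.tGL_mem_parab (b := fun i : Fin n => decide (n - k ≤ (i : ℕ))) h hij (1 : F)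
        rw [← hg] at h1
        obtain ⟨y, hy, e⟩ := h1
        refine ⟨(y : Matrix _ _ F).mulVec v, Pi.mem_spanSubset_iff.2 fun r hr => ?_, ?_⟩
        · exact Cl.mulVec_mem_of_mem_parab hy (· = true) (by decide)
            (fun s hs => Pi.mem_spanSubset_iff.1 hv s (by simpa using hs)) r (by simpa using hr)
        · rw [← e]
          simp only [Matrix.mulVecLin_apply, Matrix.mulVec_mulVec, ← Units.val_mul]
          congr 2
          change g * y = g * y * g⁻¹ * g
          group) with h | ⟨j, h⟩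
    · rw [h, finrank_bot] at hU
      omega
    · rw [h] at hU
      by_cases hj : n - k ≤ (j : ℕ)
      · have : {i : Fin n | decide (n - k ≤ (i : ℕ)) ≤ decide (n - k ≤ (j : ℕ))} =
            {i : Fin n | (i : ℕ) < n} := by
          ext i
          rw [Set.mem_setOf_eq, Set.mem_setOf_eq, ← not_lt, hlt]
          omega
        rw [this, hW n le_rfl] at hU
        omega
      · have : {i : Fin n | decide (n - k ≤ (i : ℕ)) ≤ decide (n - k ≤ (j : ℕ))} =
            {i : Fin n | (i : ℕ) < n - k} := by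
          ext i
          rw [Set.mem_setOf_eq, Set.mem_setOf_eq, ← not_lt, hlt]
          omega
        rw [this, hW _ (by omega)] at hU
        omega

end Cfsg.Agent.S0773
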