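import Mathlib
import Cfsg.Statements.S0774
import Cfsg.Agent.Cl.SpOrder
-- import your own Cfsg.Agent.* helpers here

set_option autoImplicit false
open Cfsg

namespace Cfsg.Agent.S0774

open Module in
theorem mem_iff_of_le {F V : Type*} [Field F] [AddCommGroup V] [Module F V] [FiniteDimensional F V]
    (g : V ≃ₗ[F] V) (W : Submodule F V) (h : ∀ v ∈ W, g v ∈ W) (v : V) : v ∈ W ↔ g v ∈ W := by
  have h1 : W.map g.toLinearMap = W :=
    Submodule.eq_of_le_of_finrank_eq (by rintro _ ⟨x, hx, rfl⟩; exact h x hx)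
      (LinearEquiv.finrank_map_eq g W)
  conv_rhs => rw [← h1]
  simp

/-- Coordinate subspaces. -/
noncomputable def W (F : Type*) [Field F] (m k : ℕ) : Submodule F (Fin m ⊕ Fin m → F) :=
  Pi.spanSubset F (Sum.inl '' {i : Fin m | (i : ℕ) < k})

theorem mem_W {F : Type*} [Field F] {m k : ℕ} {v : Fin m ⊕ Fin m → F} :
    v ∈ W F m k ↔ (∀ i : Fin m, k ≤ (i : ℕ) → v (Sum.inl i) = 0) ∧ ∀ i, v (Sum.inr i) = 0 := by
  rw [W, Pi.mem_spanSubset_iff, Sum.forall]
  simp only [Sum.inl_injective.mem_set_image, Set.mem_setOf_eq, not_lt]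
  simp

theorem finrank_W {F : Type*} [Field F] {m k : ℕ} (hk : k ≤ m) : Module.finrank F (W F m k) = k := by
  rw [W, Pi.dim_spanSubset, Set.ncard_image_of_injective _ Sum.inl_injective]
  have : {i : Fin m | (i : ℕ) < k} = Set.range (Fin.castLE hk) := by
    ext i; simp
  rw [this, Set.ncard_range_of_injective (Fin.castLE_injective hk)]
  simp

theorem W_mono {F : Type*} [Field F] {m k l : ℕ} (h : k ≤ l) : W F m k ≤ W F m l := fun _ hv =>
  mem_W.2 ⟨fun i hi => (mem_W.1 hv).1 i (h.trans hi), (mem_W.1 hv).2⟩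

/-- Borel subgroup of the symplectic group: the elements of Sp_2m(q) stabilising each of the totally isotropic coordinate subspaces ⟨e_0, ..., e_k⟩ (k < m) form a subgroup of order q^(m²) (q − 1)^m. -/
theorem result {F : Type*} [Field F] [Fintype F] {q : ℕ} (hF : Fintype.card F = q) (m : ℕ) : Nat.card ↥(⨅ k : Fin m, Cfsg.stabilizing (Cfsg.spToMat m F) {v : Fin m ⊕ Fin m → F | (∀ i : Fin m, (k : ℕ) < (i : ℕ) → v (Sum.inl i) = 0) ∧ ∀ i : Fin m, v (Sum.inr i) = 0}) = q ^ (m ^ 2) * (q - 1) ^ m := by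
  classical
  have hq : Nat.card F = q := by rw [Nat.card_eq_fintype_card, hF]
  rw [← Subgroup.card_map_of_injective (f := (Cl.spStdEquiv m F).toMonoidHom)
    (Cl.spStdEquiv m F).injective]
  set H := Subgroup.map (Cl.spStdEquiv m F).toMonoidHom _ with hH
  have hmem : ∀ g, g ∈ H ↔ ∀ (k : Fin m) v, v ∈ W F m (k + 1) ↔ g.1 v ∈ W F m (k + 1) := by
    intro g
    obtain ⟨A, rfl⟩ := (Cl.spStdEquiv m F).surjective g
    refine (Subgroup.mem_map_iff_mem (Cl.spStdEquiv m F).injective).trans ?_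
    simp only [Subgroup.mem_iInf, Cl.mem_stabilizing, mem_W, Nat.succ_le_iff]
    rfl
  let e := Cl.spStdFrame m F
  have he : ∀ k : Fin m, e k ∈ (W F m (k + 1) : Set _) \ W F m k := fun k => by
    refine ⟨mem_W.2 ⟨fun i hi => ?_, fun i => by simp [e, Cl.spStdFrame]⟩, fun h => ?_⟩
    · have : i ≠ k := fun h => by subst h; omega
      simp [e, Cl.spStdFrame, this]
    · simpa [e, Cl.spStdFrame] using (mem_W.1 h).1 k le_rfl
  have hmem' : ∀ g : Cl.SpG (Cl.spB m F), (∀ k : Fin m, g.1 (e k) ∈ W F m (k + 1)) → g ∈ H := by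
    intro g hg
    rw [hmem]
    intro k
    refine mem_iff_of_le g.1 _ fun v hv => ?_
    refine Submodule.span_induction (p := fun v _ => g.1 v ∈ W F m (k + 1)) ?_ (by simp)
      (fun x y _ _ hx hy => by rw [map_add]; exact add_mem hx hy)
      (fun a x _ hx => by rw [map_smul]; exact Submodule.smul_mem _ _ hx) hv
    rintro _ ⟨_, ⟨i, hi, rfl⟩, rfl⟩
    have := W_mono (show (i : ℕ) + 1 ≤ k + 1 from hi) (hg i)
    simpa [e, Cl.spStdFrame] using this
  have h1 := Cl.sp_card_subgroup_eq_mul H e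
    (Set.univ.pi fun k : Fin m => (W F m (k + 1) : Set _) \ W F m k) fun v => by
    constructor
    · intro hv
      have hv' : ∀ k : Fin m, v k ∈ (W F m (k + 1) : Set _) \ W F m k := fun k => hv k trivial
      have hli : LinearIndependent F v := by
        rw [Fintype.linearIndependent_iff]
        intro c hc
        by_contra! hne
        obtain ⟨k, hk, hmax⟩ := Finset.exists_max_image (Finset.univ.filter fun i => c i ≠ 0) id
          (by obtain ⟨i, hi⟩ := hne; exact ⟨i, by simpa using hi⟩)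
        have hk' : c k ≠ 0 := by simpa using hk
        apply (hv' k).2
        have h2 : c k • v k = -∑ i ∈ Finset.univ.erase k, c i • v i := by
          rw [← Finset.add_sum_erase _ _ (Finset.mem_univ k)] at hc
          exact eq_neg_of_add_eq_zero_left hc
        refine (Submodule.smul_mem_iff _ hk').1 ?_
        rw [h2]
        refine neg_mem (Submodule.sum_mem _ fun i hi => ?_)
        by_cases hi0 : c i = 0
        · simp [hi0]
        · have h3 : i ≤ k := hmax i (by simpa using hi0)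
          have h4 : i ≠ k := (Finset.mem_erase.1 hi).1
          exact Submodule.smul_mem _ _ (W_mono (show (i : ℕ) + 1 ≤ k from
            lt_of_le_of_ne h3 h4) (hv' i).1)
      obtain ⟨g, -, rfl⟩ := (Cl.sp_orbit_isoTuple Cl.spB_nondegenerate Cl.spB_isAlt
        (Cl.spStdFrame_mem m) v).1 ⟨hli, fun i j => by
          simp [Cl.spB_eq_sum, (mem_W.1 (hv' i).1).2, (mem_W.1 (hv' j).1).2]⟩
      exact ⟨g, hmem' g fun k => (hv' k).1, rfl⟩
    · rintro ⟨g, hg, rfl⟩ k -
      refine ⟨((hmem g).1 hg k _).1 (he k).1, fun h => (he k).2 ?_⟩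
      rcases k with ⟨_ | k, hk⟩
      · have h0 : W F m 0 = ⊥ := Submodule.finrank_eq_zero.1 (finrank_W (Nat.zero_le m))
        have h' : g.1 (e ⟨0, hk⟩) ∈ W F m 0 := h
        simpa [h0] using h'
      · exact ((hmem g).1 hg ⟨k, by omega⟩ _).2 h
  have h2 : H ⊓ MulAction.stabilizer _ e = MulAction.stabilizer _ e :=
    inf_eq_right.2 fun g hg => hmem' g fun k => by
      rw [show g.1 (e k) = e k from congrFun hg k]; exact (he k).1
  have h3 : (Set.univ.pi fun k : Fin m =>
      (W F m (k + 1) : Set (Fin m ⊕ Fin m → F)) \ W F m k).ncard =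
      q ^ m.choose 2 * (q - 1) ^ m := by
    rw [← Nat.card_coe_set_eq, Nat.card_congr (Equiv.Set.univPi _), Nat.card_pi]
    have : ∀ k : Fin m, Nat.card ↥((W F m (k + 1) : Set (Fin m ⊕ Fin m → F)) \ W F m k) =
        q ^ (k : ℕ) * (q - 1) := fun k => by
      rw [Nat.card_coe_set_eq, Cl.sp_ncard_diff (W_mono (Nat.le_succ _)), finrank_W k.2,
        finrank_W k.2.le, hq, pow_succ, Nat.mul_sub_one]
    simp only [this, Finset.prod_mul_distrib, Finset.prod_const, Finset.card_univ, Fintype.card_fin,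
      Finset.prod_pow_eq_pow_sum]
    rw [Fin.sum_univ_eq_sum_range (fun i => i) m, Finset.sum_range_id, Nat.choose_two_right]
  rw [h1, h2, Cl.sp_card_fix_frame, h3, hq, ← mul_assoc, ← pow_add, Cl.sp_choose_add]

end Cfsg.Agent.S0774
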