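import Mathlib
import Cfsg.Statements.S0775
import Cfsg.Agent.Cl.SpOrder
-- import your own Cfsg.Agent.* helpers here

set_option autoImplicit false
open Cfsg

namespace Cfsg.Agent.S0775

/-- Maximal parabolics of the symplectic group: if W is a k-dimensional subspace of F^(2m) on which the symplectic form vanishes identically, its stabiliser in Sp_2m(q) has order q^(k(k+1)/2 + 2k(m−k)) · |Sp_(2m−2k)(q)| · |GL_k(q)|. -/
theorem result {F : Type*} [Field F] [Fintype F] {q : ℕ} (hF : Fintype.card F = q) (m k : ℕ) (hk : k ≤ m) (W : Submodule F (Fin m ⊕ Fin m → F)) (hWk : Module.finrank F W = k) (hW : ∀ u ∈ W, ∀ v ∈ W, Cfsg.sympForm m F u v = 0) : Nat.card ↥(Cfsg.stabilizing (Cfsg.spToMat m F) (W : Set (Fin m ⊕ Fin m → F))) = q ^ (k * (k + 1) / 2 + 2 * k * (m - k)) * (q ^ ((m - k) ^ 2) * ∏ i ∈ Finset.range (m - k), (q ^ (2 * (i + 1)) - 1)) * ∏ i : Fin k, (q ^ k - q ^ (i : ℕ)) := by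
  have h := Cl.sp_card_stab_iso Cl.spB_nondegenerate Cl.spB_isAlt Cl.sp_finrank_std hk W hWk
    (fun u hu v hv => by rw [Cl.spB_apply, hW u hu v hv])
    ((Cfsg.stabilizing (Cfsg.spToMat m F) (W : Set (Fin m ⊕ Fin m → F))).map
      (Cl.spStdEquiv m F).toMonoidHom) (fun g => by
      obtain ⟨A, rfl⟩ := (Cl.spStdEquiv m F).surjective g
      exact Subgroup.mem_map_iff_mem (Cl.spStdEquiv m F).injective)
  rw [Subgroup.card_map_of_injective (Cl.spStdEquiv m F).injective,
    Nat.card_eq_fintype_card (α := F), hF] at h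
  rw [h, ← mul_assoc, ← pow_add]
  congr 3
  obtain ⟨d, rfl⟩ := Nat.exists_eq_add_of_le hk
  have h1 := Cl.sp_choose_add k
  have h2 : (k + 1).choose 2 = k * (k + 1) / 2 := by
    rw [Nat.choose_two_right, Nat.add_sub_cancel, mul_comm]
  rw [Nat.add_sub_cancel_left, ← h2]
  have : (k + d) ^ 2 = k ^ 2 + 2 * k * d + d ^ 2 := by ring
  omega

end Cfsg.Agent.S0775
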