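import Mathlib
import Cfsg.Statements.S0776
import Cfsg.Agent.Cl.FormSum
-- import your own Cfsg.Agent.* helpers here

set_option autoImplicit false
open Cfsg

namespace Cfsg.Agent.S0776

/-- If W ≤ F^(2m) is a 2k-dimensional subspace on which the symplectic form is non-degenerate, then the stabiliser of W in Sp_2m(F) is isomorphic to Sp_2k(F) × Sp_(2m−2k)(F). -/
theorem result {F : Type*} [Field F] (m k : ℕ) (hk : k ≤ m) (W : Submodule F (Fin m ⊕ Fin m → F)) (hWk : Module.finrank F W = 2 * k) (hW : ∀ u ∈ W, (∀ v ∈ W, Cfsg.sympForm m F u v = 0) → u = 0) : Nonempty (↥(Cfsg.stabilizing (Cfsg.spToMat m F) (W : Set (Fin m ⊕ Fin m → F))) ≃* Matrix.symplecticGroup (Fin k) F × Matrix.symplecticGroup (Fin (m - k)) F) := by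
  have hr := (Cl.spB_isAlt (m := m) (R := F)).isRefl
  have hW' : ((Cl.spB m F).restrict W).Nondegenerate :=
    Cl.sp_restrict_nondegenerate hr fun u hu h => hW u hu fun v hv => by
      rw [← Cl.spB_apply, h v hv]
  let H := (Cfsg.stabilizing (Cfsg.spToMat m F) (W : Set (Fin m ⊕ Fin m → F))).map
      (Cl.spStdEquiv m F).toMonoidHom
  have e1 := Cl.spStabNondegEquiv hr hW' H (fun g => by
    obtain ⟨A, rfl⟩ := (Cl.spStdEquiv m F).surjective g
    refine (Subgroup.mem_map_iff_mem (Cl.spStdEquiv m F).injective).trans ?_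
    exact ⟨fun h w hw => (h w).1 hw, fun h => Cl.form_mem_iff_of_mapsTo _ W h⟩)
  obtain ⟨e2⟩ := Cl.sp_nonempty_equiv hW' (Cl.sp_restrict_isAlt Cl.spB_isAlt W) hWk
  obtain ⟨e3⟩ := Cl.sp_nonempty_equiv (m := m - k)
    (Cl.sp_orthogonal_nondegenerate Cl.spB_nondegenerate hr hW')
    (Cl.sp_restrict_isAlt Cl.spB_isAlt _) (by
      rw [LinearMap.BilinForm.finrank_orthogonal Cl.spB_nondegenerate, Cl.sp_finrank_std, hWk]
      omega)
  exact ⟨((Subgroup.equivMapOfInjective _ _ (Cl.spStdEquiv m F).injective).trans e1).trans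
    (e2.prodCongr e3)⟩

end Cfsg.Agent.S0776
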