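import Mathlib
import Cfsg.Statements.S0777
import Cfsg.Agent.Cl.SpTransv
-- import your own Cfsg.Agent.* helpers here

set_option autoImplicit false
open Cfsg

namespace Cfsg.Agent.S0777

open Matrix

variable {F : Type*} [Field F] {m : ℕ}

/-- A coordinate index from a pair index and a side. -/
def pt (i : Fin m) (b : Bool) : Fin m ⊕ Fin m := if b then Sum.inl i else Sum.inr i

/-- The sign attached to a side. -/
def sg (F : Type*) [Field F] (b : Bool) : F := if b then 1 else -1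

theorem pt_inj {i j : Fin m} {b c : Bool} : pt i b = pt j c ↔ i = j ∧ b = c := by
  cases b <;> cases c <;> simp [pt]

theorem exists_pt (k : Fin m ⊕ Fin m) : ∃ i b, k = pt i b := by
  rcases k with i | i
  · exact ⟨i, true, rfl⟩
  · exact ⟨i, false, rfl⟩

theorem spB_pt (i j : Fin m) (b c : Bool) (x y : F) :
    Cl.spB m F (Pi.single (pt i b) x) (Pi.single (pt j c) y) =
      if i = j ∧ b = !c then sg F c * (x * y) else 0 := by
  cases b <;> cases c <;> by_cases h : i = j <;>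
    simp [pt, sg, Cl.spB_single_inl, Cl.spB_single_inr, Pi.single_apply, h]

theorem sg_mul_self (b : Bool) : sg F b * sg F b = 1 := by cases b <;> simp [sg]

theorem sg_not (b : Bool) : sg F (!b) = -sg F b := by cases b <;> simp [sg]

theorem mem_of_cols (A : Matrix (Fin m ⊕ Fin m) (Fin m ⊕ Fin m) F)
    (h : ∀ i j, Cl.spB m F (A *ᵥ Pi.single i 1) (A *ᵥ Pi.single j 1) =
      Cl.spB m F (Pi.single i 1) (Pi.single j 1)) : A ∈ symplecticGroup (Fin m) F := by
  rw [Cl.sp_mem_iff]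
  have : (Cl.spB m F).compl₁₂ A.mulVecLin A.mulVecLin = Cl.spB m F :=
    LinearMap.BilinForm.ext_basis (Pi.basisFun F _) fun i j => by simpa using h i j
  intro u v
  conv_rhs => rw [← this]
  rfl

/-- The columns of a monomial symplectic matrix. -/
def col (p : (Fin m → Bool) × Equiv.Perm (Fin m) × (Fin m → Fˣ)) :
    Fin m ⊕ Fin m → Fin m ⊕ Fin m → F
  | Sum.inl i => Pi.single (pt (p.2.1 i) (p.1 i)) (p.2.2 i : F)
  | Sum.inr i => Pi.single (pt (p.2.1 i) (!p.1 i)) (sg F (p.1 i) * ((p.2.2 i)⁻¹ : Fˣ))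

/-- The monomial symplectic matrices. -/
def mono (p : (Fin m → Bool) × Equiv.Perm (Fin m) × (Fin m → Fˣ)) : symplecticGroup (Fin m) F :=
  ⟨Matrix.of fun k j => col p j k, mem_of_cols _ fun i j => by
    have h : ∀ j, (Matrix.of fun k j => col p j k) *ᵥ Pi.single j 1 = col p j := fun j => by
      ext k; simp
    rw [h, h]
    rcases i with i | i <;> rcases j with j | j <;> by_cases hij : i = j <;>
      simp [col, spB_pt, hij, Cl.spB_single_inl, Cl.spB_single_inr, Pi.single_apply, sg_not,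
        mul_left_comm, sg_mul_self, ← mul_assoc, eq_comm]
    all_goals rw [mul_right_comm, sg_mul_self]; simp⟩

theorem mono_mulVec (p : (Fin m → Bool) × Equiv.Perm (Fin m) × (Fin m → Fˣ)) (j : Fin m ⊕ Fin m) :
    (mono p).1 *ᵥ Pi.single j 1 = col p j := by
  ext k; simp [mono]

theorem single_inj {k l : Fin m ⊕ Fin m} {a b : F} (ha : a ≠ 0)
    (h : (Pi.single k a : Fin m ⊕ Fin m → F) = Pi.single l b) : k = l ∧ a = b := by
  have h1 := congrFun h k
  by_cases hkl : k = l
  · subst hkl; simpa using h1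
  · simp [hkl, ha] at h1

theorem mono_injective : Function.Injective (mono (F := F) (m := m)) := by
  rintro ⟨ε, π, a⟩ ⟨ε', π', a'⟩ h
  have h1 : ∀ i, col (ε, π, a) (Sum.inl i) = col (ε', π', a') (Sum.inl i) := fun i => by
    rw [← mono_mulVec, ← mono_mulVec, h]
  have h2 := fun i => single_inj (a i).ne_zero (h1 i)
  simp only [pt_inj, Units.val_inj] at h2
  simp only [Prod.mk.injEq]
  exact ⟨funext fun i => (h2 i).1.2, Equiv.ext fun i => (h2 i).1.1, funext fun i => (h2 i).2⟩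

/-- Monomial elements. -/
def IsMono (A : symplecticGroup (Fin m) F) : Prop :=
  ∀ j, ∃ k a, A.1 *ᵥ Pi.single j 1 = Pi.single k a

theorem mulVec_single_ne (A : symplecticGroup (Fin m) F) {j k : Fin m ⊕ Fin m} {a : F}
    (h : A.1 *ᵥ Pi.single j 1 = Pi.single k a) : a ≠ 0 := by
  rintro rfl
  have := Cl.sp_mulVec_injective A (a₁ := Pi.single j 1) (a₂ := 0) (by simpa using h)
  simp at this

theorem exists_mono {A : symplecticGroup (Fin m) F} (h : IsMono A) : ∃ p, mono p = A := by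
  have h' : ∀ j, ∃ i b a, A.1 *ᵥ Pi.single j 1 = Pi.single (pt i b) a := fun j => by
    obtain ⟨k, a, hk⟩ := h j
    obtain ⟨i, b, rfl⟩ := exists_pt k
    exact ⟨i, b, a, hk⟩
  choose π ε a h' using h'
  have ha : ∀ j, a j ≠ 0 := fun j => mulVec_single_ne A (h' j)
  have hB : ∀ i j, (if π i = π j ∧ ε i = !ε j then sg F (ε j) * (a i * a j) else 0) =
      Cl.spB m F (Pi.single i 1) (Pi.single j 1) := fun i j => by
    rw [← spB_pt, ← h', ← h', Cl.spB_mulVec]
  have hsg : ∀ b, sg F b ≠ 0 := fun b => left_ne_zero_of_mul_eq_one (sg_mul_self b)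
  have h1 : ∀ i, π (Sum.inr i) = π (Sum.inl i) ∧ ε (Sum.inr i) = (!ε (Sum.inl i)) ∧
      sg F (ε (Sum.inl i)) * (a (Sum.inr i) * a (Sum.inl i)) = 1 := fun i => by
    have := hB (Sum.inr i) (Sum.inl i)
    simp only [Cl.spB_single_inr, Pi.single_eq_same, mul_one] at this
    split_ifs at this with hc
    · exact ⟨hc.1, hc.2, this⟩
    · simp at this
  have h2 : Function.Injective fun i => π (Sum.inl i) := fun i j hij => by
    by_contra hne
    by_cases hε : ε (Sum.inl i) = ε (Sum.inl j)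
    · have := hB (Sum.inr i) (Sum.inl j)
      rw [if_pos ⟨(h1 i).1.trans hij, by rw [(h1 i).2.1, hε]⟩] at this
      simp [Cl.spB_single_inr, hne, hsg, ha] at this
    · have := hB (Sum.inl i) (Sum.inl j)
      rw [if_pos ⟨hij, by simpa [Bool.eq_not_iff] using hε⟩] at this
      simp [Cl.spB_single_inl, hsg, ha] at this
  refine ⟨(fun i => ε (Sum.inl i), Equiv.ofBijective _ h2.bijective_of_finite,
    fun i => Units.mk0 _ (ha (Sum.inl i))), Subtype.ext (Matrix.ext_of_mulVec_single fun j => ?_)⟩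
  rw [mono_mulVec, h']
  rcases j with i | i
  · rfl
  · simp only [col, Equiv.ofBijective_apply, (h1 i).1, (h1 i).2.1, Units.val_inv_eq_inv_val,
      Units.val_mk0]
    congr 1
    have h3 := (h1 i).2.2
    have h4 := sg_mul_self (F := F) (ε (Sum.inl i))
    have h5 := ha (Sum.inl i)
    field_simp
    linear_combination (-sg F (ε (Sum.inl i))) * h3 + a (Sum.inr i) * a (Sum.inl i) * h4

theorem isMono_mono (p : (Fin m → Bool) × Equiv.Perm (Fin m) × (Fin m → Fˣ)) : IsMono (mono p) := by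
  rintro (i | i) <;> exact ⟨_, _, mono_mulVec p _⟩

theorem IsMono.inv {A : symplecticGroup (Fin m) F} (h : IsMono A) : IsMono A⁻¹ := by
  choose σ a h using h
  have ha : ∀ j, a j ≠ 0 := fun j => mulVec_single_ne A (h j)
  have key : ∀ j, (A⁻¹).1 *ᵥ Pi.single (σ j) 1 = Pi.single j (a j)⁻¹ := fun j => by
    apply Cl.sp_mulVec_injective A
    have e1 : (Pi.single j (a j)⁻¹ : Fin m ⊕ Fin m → F) = (a j)⁻¹ • Pi.single j 1 := by
      rw [← Pi.single_smul', smul_eq_mul, mul_one]
    simp only [Cl.sp_mulVec_inv_mulVec, e1, mulVec_smul, h j]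
    rw [← Pi.single_smul', smul_eq_mul, inv_mul_cancel₀ (ha j)]
  have hσ : Function.Injective σ := fun i j hij => by
    have := key i
    rw [hij, key j] at this
    exact (single_inj (inv_ne_zero (ha j)) this).1.symm
  intro k
  obtain ⟨j, rfl⟩ := hσ.bijective_of_finite.2 k
  exact ⟨_, _, key j⟩

/-- Diagonal elements. -/
def IsDiag (A : symplecticGroup (Fin m) F) : Prop :=
  ∀ j, ∃ a, A.1 *ᵥ Pi.single j 1 = Pi.single j a

theorem mulVec_single (A : symplecticGroup (Fin m) F) (j : Fin m ⊕ Fin m) (c : F) :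
    A.1 *ᵥ Pi.single j c = c • A.1 *ᵥ Pi.single j 1 := by
  rw [← mulVec_smul, ← Pi.single_smul', smul_eq_mul, mul_one]

theorem mem_T_iff (A : symplecticGroup (Fin m) F) :
    A ∈ (⨅ i : Fin m ⊕ Fin m, Cfsg.stabilizing (Cfsg.spToMat m F) ((Submodule.span F
      {(Pi.single i (1 : F) : Fin m ⊕ Fin m → F)} : Submodule F (Fin m ⊕ Fin m → F)) :
        Set (Fin m ⊕ Fin m → F)) : Set (Matrix.symplecticGroup (Fin m) F)) ↔ IsDiag A := by
  simp only [Set.iInf_eq_iInter, Set.mem_iInter, SetLike.mem_coe, Cl.mem_stabilizing,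
    Submodule.mem_span_singleton]
  refine forall_congr' fun j => ⟨fun h => ?_, fun ⟨a, ha⟩ v => ⟨?_, ?_⟩⟩
  · obtain ⟨a, ha⟩ := (h (Pi.single j 1)).1 ⟨1, by simp⟩
    exact ⟨a, by rw [← Pi.single_smul', smul_eq_mul, mul_one] at ha; exact ha.symm⟩
  · rintro ⟨c, rfl⟩
    refine ⟨c * a, ?_⟩
    change _ = A.1 *ᵥ _
    rw [mulVec_smul, ha, ← Pi.single_smul', ← Pi.single_smul', smul_eq_mul, mul_one, smul_eq_mul]
  · rintro ⟨c, hc⟩
    refine ⟨c / a, Cl.sp_mulVec_injective A ?_⟩
    change _ = A.1 *ᵥ _ at hc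
    simp only [← hc, mulVec_smul, ha, ← Pi.single_smul', smul_eq_mul, mul_one]
    rw [mulVec_single, ha, ← Pi.single_smul', smul_eq_mul,
      div_mul_cancel₀ _ (mulVec_single_ne A ha)]

theorem IsMono.conj {A : symplecticGroup (Fin m) F} (h : IsMono A) {T : symplecticGroup (Fin m) F}
    (hT : IsDiag T) : IsDiag (A * T * A⁻¹) := by
  intro j
  obtain ⟨k, a, hk⟩ := h.inv j
  obtain ⟨t, ht⟩ := hT k
  refine ⟨t, ?_⟩
  have e1 : T.1 *ᵥ Pi.single k a = t • Pi.single k a := by
    rw [mulVec_single, ht, ← Pi.single_smul', ← Pi.single_smul', smul_eq_mul, smul_eq_mul, mul_comm]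
  rw [Cl.sp_mul_mulVec, Cl.sp_mul_mulVec, hk, e1, ← hk, mulVec_smul, Cl.sp_mulVec_inv_mulVec,
    ← Pi.single_smul', smul_eq_mul, mul_one]

theorem isMono_of_conj {a : F} (ha : a ≠ 0) (ha2 : a ^ 2 ≠ 1) (A : symplecticGroup (Fin m) F)
    (h : ∀ T, IsDiag T → IsDiag (A⁻¹ * T * A)) : IsMono A := by
  intro j
  set v := A.1 *ᵥ Pi.single j 1 with hv
  have hv0 : v ≠ 0 := fun h0 => mulVec_single_ne A (j := j) (k := j) (a := 0)
    (by rw [← hv, h0, Pi.single_zero]) rfl
  obtain ⟨k, hk⟩ := Function.ne_iff.1 hv0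
  refine ⟨k, v k, funext fun l => ?_⟩
  by_cases hl : l = k
  · subst hl; simp
  rw [Pi.single_eq_of_ne hl]
  by_contra hl0
  obtain ⟨i, b, rfl⟩ := exists_pt k
  let d : Fin m ⊕ Fin m → F := Sum.elim (Pi.mulSingle i a) (Pi.mulSingle i a⁻¹)
  let T : symplecticGroup (Fin m) F := ⟨Matrix.diagonal d, by
    rw [← Matrix.fromBlocks_diagonal, SymplecticGroup.fromBlocks_mem_iff]
    simp only [Matrix.mul_zero, transpose_zero, Matrix.zero_mul, diagonal_transpose,
      diagonal_mul_diagonal, sub_zero, true_and]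
    rw [← Matrix.diagonal_one]
    congr 1
    funext r
    by_cases hr : r = i
    · subst hr; simp [ha]
    · simp [hr]⟩
  obtain ⟨t, ht⟩ := h T (fun r => ⟨d r, by simp [T, Matrix.diagonal_mulVec_single]⟩) j
  have h1 : T.1 *ᵥ v = t • v := by
    have := congrArg (A.1 *ᵥ ·) ht
    simp only [Cl.sp_mul_mulVec, Cl.sp_mulVec_inv_mulVec] at this
    rw [hv, this, mulVec_single]
  have h2 : ∀ r, v r ≠ 0 → d r = t := fun r hr => by
    have := congrFun h1 r
    simp only [T, Matrix.mulVec_diagonal, Pi.smul_apply, smul_eq_mul] at this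
    exact mul_right_cancel₀ hr this
  have h3 : d l = d (pt i b) := (h2 l hl0).trans (h2 _ hk).symm
  have h4 : a ≠ 1 := fun h => ha2 (by simp [h])
  have h5 : a ≠ a⁻¹ := fun h => ha2 (by rw [sq]; nth_rw 2 [h]; exact mul_inv_cancel₀ ha)
  obtain ⟨i', b', rfl⟩ := exists_pt l
  by_cases hi : i' = i
  · subst hi
    cases b <;> cases b' <;> simp [pt, d, h5, h5.symm] at hl h3
  · cases b <;> cases b' <;> simp [pt, d, hi, h4, h4.symm] at h3

/-- Weyl group of type C_m: for q ≥ 4 the diagonal matrices of Sp_2m(q) form a torus T ≅ (C_(q−1))^m (the elements stabilising every coordinate axis), and the normaliser of T in Sp_2m(q) has order 2^m · m! · (q − 1)^m. -/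
theorem result {F : Type*} [Field F] [Fintype F] {q : ℕ} (hF : Fintype.card F = q) (hq : 4 ≤ q) (m : ℕ) : Nat.card ↥(Subgroup.normalizer (⨅ i : Fin m ⊕ Fin m, Cfsg.stabilizing (Cfsg.spToMat m F) ((Submodule.span F {(Pi.single i (1 : F) : Fin m ⊕ Fin m → F)} : Submodule F (Fin m ⊕ Fin m → F)) : Set (Fin m ⊕ Fin m → F)) : Set (Matrix.symplecticGroup (Fin m) F))) = 2 ^ m * Nat.factorial m * (q - 1) ^ m := by
  obtain ⟨a, ha, ha2⟩ := Cl.sp_exists_sq_ne_one (F := F) (by rwa [Nat.card_eq_fintype_card, hF])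
  classical
  have key : ∀ A : symplecticGroup (Fin m) F, A ∈ Subgroup.normalizer
      (⨅ i : Fin m ⊕ Fin m, Cfsg.stabilizing (Cfsg.spToMat m F) ((Submodule.span F
      {(Pi.single i (1 : F) : Fin m ⊕ Fin m → F)} : Submodule F (Fin m ⊕ Fin m → F)) :
        Set (Fin m ⊕ Fin m → F)) : Set (Matrix.symplecticGroup (Fin m) F)) ↔ IsMono A := by
    intro A
    simp only [Subgroup.mem_set_normalizer_iff, mem_T_iff]
    constructor
    · intro h
      refine isMono_of_conj ha ha2 A fun T hT => (h _).2 ?_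
      simpa [mul_assoc] using hT
    · intro h T
      refine ⟨h.conj, fun hT => ?_⟩
      simpa [mul_assoc] using h.inv.conj hT
  rw [← Nat.card_congr (Equiv.ofBijective
    (fun p : (Fin m → Bool) × Equiv.Perm (Fin m) × (Fin m → Fˣ) =>
      (⟨mono p, (key _).2 (isMono_mono p)⟩ : Subgroup.normalizer _))
    ⟨fun p p' h => mono_injective (congrArg Subtype.val h), fun A => by
      obtain ⟨p, hp⟩ := exists_mono ((key A).1 A.2)
      exact ⟨p, Subtype.ext hp⟩⟩)]
  simp [Fintype.card_perm, Fintype.card_units, hF, mul_assoc]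

end Cfsg.Agent.S0777
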