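import Mathlib
import Cfsg.Statements.S0778
import Cfsg.Agent.Cl.SpForm
-- import your own Cfsg.Agent.* helpers here

set_option autoImplicit false
open Cfsg

namespace Cfsg.Agent.S0778

open Matrix in
/-- The block diagonal embedding. -/
def emb (F : Type*) [Field F] (m : ℕ) :
    Matrix.GeneralLinearGroup (Fin m) F →* Matrix.symplecticGroup (Fin m) F where
  toFun X := ⟨Matrix.fromBlocks X.1 0 0 (X⁻¹).1ᵀ, by
    rw [SymplecticGroup.fromBlocks_mem_iff]
    simp [← Matrix.transpose_mul]⟩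
  map_one' := Subtype.ext (by simp)
  map_mul' X Y := Subtype.ext (by simp [Matrix.fromBlocks_multiply])

/-- The elements of Sp_2m(F) stabilising both W = ⟨e_1..e_m⟩ and U = ⟨f_1..f_m⟩ form a subgroup isomorphic to GL_m(F) (block-diagonal matrices diag(X, X^(−ᵀ)) up to the sign convention of J), for m ≥ 1 or m = 0 alike. -/
theorem result {F : Type*} [Field F] (m : ℕ) : Nonempty (↥(Cfsg.stabilizing (Cfsg.spToMat m F) {v : Fin m ⊕ Fin m → F | ∀ i : Fin m, v (Sum.inr i) = 0} ⊓ Cfsg.stabilizing (Cfsg.spToMat m F) {v : Fin m ⊕ Fin m → F | ∀ i : Fin m, v (Sum.inl i) = 0}) ≃* Matrix.GeneralLinearGroup (Fin m) F) := by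
  open Matrix in
  have hinj : Function.Injective (emb F m) := fun X Y h =>
    Units.ext (Matrix.fromBlocks_inj.1 (congrArg Subtype.val h)).1
  refine ⟨((MonoidHom.ofInjective hinj).trans (MulEquiv.subgroupCongr ?_)).symm⟩
  ext A
  simp only [Subgroup.mem_inf, Cl.mem_stabilizing, Set.mem_setOf_eq, MonoidHom.mem_range]
  constructor
  · rintro ⟨X, rfl⟩
    have h1 : ∀ v i, (spToMat m F (emb F m X) *ᵥ v) (Sum.inl i) = (X.1 *ᵥ (v ∘ Sum.inl)) i := by
      intro v i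
      change (Matrix.fromBlocks X.1 0 0 (X⁻¹).1ᵀ *ᵥ v) (Sum.inl i) = _
      rw [Matrix.fromBlocks_mulVec]; simp
    have h2 : ∀ v i, (spToMat m F (emb F m X) *ᵥ v) (Sum.inr i) =
        ((X⁻¹).1ᵀ *ᵥ (v ∘ Sum.inr)) i := by
      intro v i
      change (Matrix.fromBlocks X.1 0 0 (X⁻¹).1ᵀ *ᵥ v) (Sum.inr i) = _
      rw [Matrix.fromBlocks_mulVec]; simp
    have k : ∀ (M : Matrix (Fin m) (Fin m) F), IsUnit M → ∀ w : Fin m → F,
        (∀ i, w i = 0) ↔ ∀ i, (M *ᵥ w) i = 0 := fun M hM w => by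
      have := (Matrix.mulVec_injective_iff_isUnit.2 hM).eq_iff (a := w) (b := 0)
      simp only [Matrix.mulVec_zero, funext_iff, Pi.zero_apply] at this
      exact this.symm
    refine ⟨fun v => ?_, fun v => ?_⟩
    · simp only [h2]
      exact k _ ((Matrix.isUnit_transpose _).2 (X⁻¹).isUnit) (v ∘ Sum.inr)
    · simp only [h1]
      exact k _ X.isUnit (v ∘ Sum.inl)
  · rintro ⟨h1, h2⟩
    have h21 : A.1.toBlocks₂₁ = 0 := by
      ext i j
      simpa [Matrix.toBlocks₂₁] using (h1 (Pi.single (Sum.inl j) 1)).1 (by simp) i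
    have h12 : A.1.toBlocks₁₂ = 0 := by
      ext i j
      simpa [Matrix.toBlocks₁₂] using (h2 (Pi.single (Sum.inr j) 1)).1 (by simp) i
    have hA := A.2
    rw [← A.1.fromBlocks_toBlocks, h12, h21, SymplecticGroup.fromBlocks_mem_iff] at hA
    have h3 : A.1.toBlocks₂₂ᵀ * A.1.toBlocks₁₁ = 1 := by
      simpa using congrArg Matrix.transpose hA.2.2
    refine ⟨⟨A.1.toBlocks₁₁, A.1.toBlocks₂₂ᵀ, mul_eq_one_comm.1 h3, h3⟩, Subtype.ext ?_⟩
    conv_rhs => rw [← A.1.fromBlocks_toBlocks, h12, h21]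
    rfl

end Cfsg.Agent.S0778
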