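import Mathlib
import Cfsg.Statements.S0779
import Cfsg.Agent.Cl.UMatrix

set_option autoImplicit false
open Cfsg

namespace Cfsg.Agent.S0779

/-- Unitary transvections: let |F| = q², h the standard Hermitian form Σ x_i y_i^q and v ≠ 0 with h(v, v) = 0. The linear map x ↦ x + c h(x, v) v is an isometry of h if and only if c = 0 or c^(q−1) = −1. -/
theorem result {F : Type*} [Field F] [Fintype F] {q : ℕ} (hF : Fintype.card F = q ^ 2) (n : ℕ) (v : Fin n → F) (hv : v ≠ 0) (hv0 : Cfsg.hermForm n F q v v = 0) (c : F) : (∀ x y : Fin n → F, Cfsg.hermForm n F q ((Cfsg.unitaryTransvection n q v c).mulVec x) ((Cfsg.unitaryTransvection n q v c).mulVec y) = Cfsg.hermForm n F q x y) ↔ (c = 0 ∨ c ^ (q - 1) = -1) := by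
  obtain ⟨σ, hσ⟩ := Cl.exists_uField hF
  simp only [hσ.hermForm_eq, hσ.unitaryTransvection_mulVec] at hv0 ⊢
  have hB := hσ.isHerm_uStd (Fin n)
  have h2 := hσ.two_le
  have key : c + σ c = 0 ↔ (c = 0 ∨ c ^ (q - 1) = -1) := by
    have : c + σ c = c * (c ^ (q - 1) + 1) := by
      rw [hσ.pow, mul_add, ← pow_succ', Nat.sub_add_cancel (by omega)]
      ring
    rw [this, mul_eq_zero, add_eq_zero_iff_eq_neg]
  rw [← key, ← Cl.uRefl_iff_of_isotropic hv0]
  refine ⟨hB.uRefl_of_isometry hv, fun h x y => ?_⟩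
  rw [← h.apply, ← h.apply]
  exact Cl.UG_map (hB.uRefl_mem h) x y

end Cfsg.Agent.S0779
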