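import Mathlib
import Cfsg.Statements.S0781
import Cfsg.Agent.Cl.UGen

set_option autoImplicit false
open Cfsg

namespace Cfsg.Agent.S0781

/-- In SU_n(q) with n ≥ 4, or n = 3 and q > 2, every element whose matrix is a unitary transvection x ↦ x + c h(x, v) v (v isotropic) is a commutator ⁅B, C⁆ of two elements of SU_n(q). -/
theorem result {F : Type*} [Field F] [Fintype F] {q : ℕ} (hF : Fintype.card F = q ^ 2) (n : ℕ) (hn : 4 ≤ n ∨ (n = 3 ∧ 3 ≤ q)) (A : ↥(Cfsg.SU n F q)) (v : Fin n → F) (c : F) (hv0 : Cfsg.hermForm n F q v v = 0) (hA : ((A : Matrix.SpecialLinearGroup (Fin n) F) : Matrix (Fin n) (Fin n) F) = Cfsg.unitaryTransvection n q v c) : A ∈ commutatorSet ↥(Cfsg.SU n F q) := by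
  obtain ⟨σ, hσ⟩ := Cl.exists_uField hF
  have hB := hσ.isHerm_uStd (Fin n)
  rw [hσ.hermForm_eq] at hv0
  have h1 := (hσ.suEquiv_eq_uRefl_iff A hv0 c).2 hA
  have h2 : (hσ.suEquiv n A).1 ∈ Cl.uTransvs (Cl.uStd σ (Fin n)) := by
    by_cases hv : v = 0
    · exact ⟨0, 0, by simp, by simp, by rw [h1, hv, Cl.uRefl_zero_left, Cl.uRefl_zero_left]⟩
    · refine ⟨v, c, hv0, (Cl.uRefl_iff_of_isotropic hv0).1 (hB.uRefl_of_isometry hv fun x y => ?_),
        h1⟩
      rw [← Cl.uRefl_apply_of_isotropic hv0, ← Cl.uRefl_apply_of_isotropic hv0, ← h1]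
      exact Cl.USG_map (hσ.suEquiv n A).2 x y
  obtain ⟨a, b, hab⟩ := hB.mem_commutatorSet_of_uTransvs
    (by rw [Module.finrank_fin_fun]; omega) h2
  refine ⟨(hσ.suEquiv n).symm a, (hσ.suEquiv n).symm b, (hσ.suEquiv n).injective ?_⟩
  rw [map_commutatorElement, MulEquiv.apply_symm_apply, MulEquiv.apply_symm_apply, hab]

end Cfsg.Agent.S0781
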