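import Mathlib
import Cfsg.Statements.S0783
import Cfsg.Agent.Cl.UOrder

set_option autoImplicit false
open Cfsg

namespace Cfsg.Agent.S0783

/-- PGU_n(q)/PSU_n(q) is cyclic of order (n, q+1): for n ≥ 2 and |F| = q² there is a surjective homomorphism from GU_n(q) onto the cyclic group of order gcd(n, q + 1) whose kernel is generated by the determinant-one elements together with the centre. -/
theorem result {F : Type*} [Field F] [Fintype F] {q : ℕ} (hF : Fintype.card F = q ^ 2) (n : ℕ) (hn : 2 ≤ n) : ∃ φ : ↥(Cfsg.GU n F q) →* Multiplicative (ZMod (Nat.gcd n (q + 1))), Function.Surjective φ ∧ φ.ker = (Matrix.GeneralLinearGroup.det : Matrix.GeneralLinearGroup (Fin n) F →* Fˣ).ker.subgroupOf (Cfsg.GU n F q) ⊔ Subgroup.center ↥(Cfsg.GU n F q) := by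
  obtain ⟨σ, hσ⟩ := Cl.exists_uField hF
  have := hσ.finite
  have hB := hσ.isHerm_uStd (Fin n)
  let δ : Cfsg.GU n F q →* Cl.uNormOne σ :=
    ((Matrix.GeneralLinearGroup.det : GL (Fin n) F →* Fˣ).comp (Cfsg.GU n F q).subtype).codRestrict
      _ fun g => by
        have := hB.det_mem_uNormOne (hσ.guEquiv n g).2
        rwa [hσ.det_guEquiv] at this
  have hδ : ∀ g, (δ g : Fˣ) = Matrix.GeneralLinearGroup.det (g : GL (Fin n) F) := fun _ => rfl
  have hδs : Function.Surjective δ := fun u => by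
    obtain ⟨g, hg, hg'⟩ := hB.exists_det_eq (by simp; omega) u.2
    obtain ⟨k, hk⟩ := (hσ.guEquiv n).surjective ⟨g, hg⟩
    exact ⟨k, Subtype.ext (by rw [hδ, ← hσ.det_guEquiv, hk, hg'])⟩
  let R := (powMonoidHom n : Cl.uNormOne σ →* Cl.uNormOne σ).range
  have hc : IsCyclic (Cl.uNormOne σ ⧸ R) :=
    isCyclic_of_surjective _ (QuotientGroup.mk'_surjective R)
  have hcard : Nat.card (Cl.uNormOne σ ⧸ R) = Nat.gcd n (q + 1) := by
    rw [← Subgroup.index_eq_card, IsCyclic.index_powMonoidHom_range, hσ.card_uNormOne,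
      Nat.gcd_comm]
  let e : Cl.uNormOne σ ⧸ R ≃* Multiplicative (ZMod (Nat.gcd n (q + 1))) :=
    hcard ▸ (zmodCyclicMulEquiv hc).symm
  refine ⟨e.toMonoidHom.comp ((QuotientGroup.mk' R).comp δ),
    e.surjective.comp ((QuotientGroup.mk'_surjective R).comp hδs), ?_⟩
  have hker : ∀ g, g ∈ (e.toMonoidHom.comp ((QuotientGroup.mk' R).comp δ)).ker ↔ δ g ∈ R := by
    intro g
    rw [MonoidHom.mem_ker, MonoidHom.comp_apply, MulEquiv.coe_toMonoidHom, map_eq_one_iff _ e.injective,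
      MonoidHom.comp_apply, QuotientGroup.mk'_apply, QuotientGroup.eq_one_iff]
  have hz : ∀ u : Cl.uNormOne σ, ∃ z ∈ Subgroup.center (Cfsg.GU n F q), δ z = u ^ n := by
    intro u
    obtain ⟨z, hz⟩ := (hσ.guEquiv n).surjective ⟨_, Cl.uScalar_mem_UG u.2⟩
    refine ⟨z, (Cl.mulEquiv_mem_center_iff (hσ.guEquiv n) z).1 ?_, Subtype.ext ?_⟩
    · rw [hz]
      exact hB.mem_center_UG_iff.2 ⟨_, fun _ => rfl⟩
    · rw [hδ, ← hσ.det_guEquiv, hz, Cl.det_uScalar, Module.finrank_fin_fun]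
      rfl
  apply le_antisymm
  · intro g hg
    obtain ⟨u, hu⟩ := (hker g).1 hg
    obtain ⟨z, hz1, hz2⟩ := hz u
    rw [← inv_mul_cancel_right g z]
    refine mul_mem (Subgroup.mem_sup_left ?_) (Subgroup.mem_sup_right hz1)
    rw [Subgroup.mem_subgroupOf, MonoidHom.mem_ker, ← hδ, map_mul, map_inv, hz2, ← hu]
    simp
  · refine sup_le (fun g hg => (hker g).2 ?_) fun g hg => (hker g).2 ?_
    · have : δ g = 1 := Subtype.ext hg
      rw [this]
      exact one_mem _
    · have : Nontrivial (Fin n → F) := by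
        have : Nonempty (Fin n) := ⟨⟨0, by omega⟩⟩
        infer_instance
      obtain ⟨a, ha⟩ := hB.mem_center_UG_iff.1 ((Cl.mulEquiv_mem_center_iff (hσ.guEquiv n) g).2 hg)
      obtain ⟨u, -, hu⟩ := Cl.eq_uScalar_of_forall ha
      refine ⟨⟨u, hB.uScalar_mem_UG_iff.1 (hu ▸ (hσ.guEquiv n g).2)⟩, Subtype.ext ?_⟩
      change u ^ n = _
      rw [hδ, ← hσ.det_guEquiv, hu, Cl.det_uScalar, Module.finrank_fin_fun]

end Cfsg.Agent.S0783
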