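import Mathlib
import Cfsg.Statements.S0786
import Cfsg.Agent.Cl.OrthStd

set_option autoImplicit false
open Cfsg

namespace Cfsg.Agent.S0786

open Cfsg.Agent.Cl

/-- Generation by reflections: if F is finite, Q is a quadratic form on F^n with non-degenerate polar form, and (|F|, n) ≠ (2, 4), then the isometry group of Q is generated by the reflections r_v, Q(v) ≠ 0. -/
theorem result {F : Type*} [Field F] [Fintype F] {n : ℕ} (Q : QuadraticForm F (Fin n → F)) (hQ : (QuadraticMap.polarBilin Q).Nondegenerate) (h : Fintype.card F ≠ 2 ∨ n ≠ 4) : Subgroup.closure {g : ↥(Cfsg.isometryGroup F ⇑Q) | ∃ v : Fin n → F, Q v ≠ 0 ∧ ((g : Matrix.GeneralLinearGroup (Fin n) F) : Matrix (Fin n) (Fin n) F) = Cfsg.reflectionMatrix ⇑Q v} = ⊤ := by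
  have hexc : ¬ OExc Q := h.elim (fun h => not_oExc_of_card (by simpa using h))
    (fun h => not_oExc_of_finrank (by simpa using h))
  apply Subgroup.map_injective (f := (omatEquiv Q).toMonoidHom) (omatEquiv Q).injective
  rw [MonoidHom.map_closure, Subgroup.map_top_of_surjective _ (omatEquiv Q).surjective,
    ← closure_oreflSet hQ hexc]
  congr 1
  ext g
  constructor
  · rintro ⟨k, ⟨v, hv, hk⟩, rfl⟩
    exact ⟨v, hv, (omatEquiv_eq_orefl_iff k v).2 hk⟩
  · rintro ⟨v, hv, rfl⟩
    exact ⟨(omatEquiv Q).symm (orefl Q v), ⟨v, hv, coe_omatEquiv_symm_orefl v⟩,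
      MulEquiv.apply_symm_apply _ _⟩

end Cfsg.Agent.S0786
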