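import Mathlib
import Cfsg.Statements.S0787
import Cfsg.Agent.Cl.OrthMisc

set_option autoImplicit false
open Cfsg

namespace Cfsg.Agent.S0787

open Cfsg.Agent.Cl

theorem aux {G H : Type*} [Group G] [Group H] (e : G ≃* H)
    (h : ∃! K : Subgroup H, K.index = 2) : ∃! K : Subgroup G, K.index = 2 := by
  obtain ⟨K, hK, hu⟩ := h
  refine ⟨K.comap e.toMonoidHom, (K.index_comap_of_surjective e.surjective).trans hK,
    fun L hL => ?_⟩
  rw [← hu (L.map e.toMonoidHom) ((Subgroup.index_map_equiv L e).trans hL),
    Subgroup.comap_map_eq_self_of_injective e.injective]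

/-- Existence and uniqueness of Ω: if F is finite, n ≥ 2, Q is a quadratic form on F^n with non-degenerate polar form and (|F|, n) ≠ (2, 4), then the group of isometries of determinant one has a unique subgroup of index 2. -/
theorem result {F : Type*} [Field F] [Fintype F] {n : ℕ} (hn : 2 ≤ n) (Q : QuadraticForm F (Fin n → F)) (hQ : (QuadraticMap.polarBilin Q).Nondegenerate) (h : Fintype.card F ≠ 2 ∨ n ≠ 4) : ∃! H : Subgroup ↥(Cfsg.specialIsometryGroup F ⇑Q), H.index = 2 := by
  by_cases h2 : (2 : F) = 0
  · have hexc : ¬ OExc Q := quad_not_oExc (by simpa using h)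
    have e : Cfsg.specialIsometryGroup F ⇑Q ≃* OG Q := (subgroupEquivOfIff (omatEquiv Q) _ ⊤
      (fun g => by
        rw [mem_specialIsometryGroup_iff, ← det_omatEquiv, det_eq_one_of_two_eq_zero hQ h2]
        simp)).trans Subgroup.topEquiv
    exact aux e (existsUnique_index_two_OG hQ hexc h2 (by simp; omega))
  · have e : Cfsg.specialIsometryGroup F ⇑Q ≃* (dickson hQ).ker :=
      subgroupEquivOfIff (omatEquiv Q) _ _ fun g => by
        rw [mem_specialIsometryGroup_iff, ← det_omatEquiv, det_eq_one_iff_dickson hQ h2,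
          MonoidHom.mem_ker]
    exact aux e (existsUnique_index_two_ker_dickson hQ h2 (by simpa using hn))

end Cfsg.Agent.S0787
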