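import Mathlib
import Cfsg.Statements.S0792
import Cfsg.Agent.Cl.OrthMisc

set_option autoImplicit false
open Cfsg

namespace Cfsg.Agent.S0792

open Cfsg.Agent.Cl

/-- For q odd and Q with non-degenerate polar form on F^n, the determinant-one isometries form the subgroup generated by all products r_u r_v of two reflections (Q(u), Q(v) ≠ 0). -/
theorem result {F : Type*} [Field F] [Fintype F] (h2 : (2 : F) ≠ 0) {n : ℕ} (Q : QuadraticForm F (Fin n → F)) (hQ : (QuadraticMap.polarBilin Q).Nondegenerate) : Cfsg.specialIsometryGroup F ⇑Q = Subgroup.closure {g : ↥(Cfsg.isometryGroup F ⇑Q) | ∃ u v : Fin n → F, Q u ≠ 0 ∧ Q v ≠ 0 ∧ ((g : Matrix.GeneralLinearGroup (Fin n) F) : Matrix (Fin n) (Fin n) F) = Cfsg.reflectionMatrix ⇑Q u * Cfsg.reflectionMatrix ⇑Q v} := by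
  apply Subgroup.map_injective (f := (omatEquiv Q : _ →* OG Q)) (omatEquiv Q).injective
  rw [map_eq_of_iff (omatEquiv Q) _ (dickson hQ).ker (fun g => by
    rw [mem_specialIsometryGroup_iff, ← det_omatEquiv, det_eq_one_iff_dickson hQ h2,
      MonoidHom.mem_ker]), ker_dickson_eq_closure hQ (not_oExc_of_two_ne_zero h2),
    MonoidHom.map_closure]
  congr 1
  ext g
  obtain ⟨g, rfl⟩ := (omatEquiv Q).surjective g
  rw [MonoidHom.coe_coe, (omatEquiv Q).injective.mem_set_image]
  refine exists_congr fun u => exists_congr fun v => and_congr_right fun _ =>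
    and_congr_right fun _ => omatEquiv_eq_iff _ _ _ fun x => ?_
  rw [← Matrix.mulVec_mulVec, reflectionMatrix_mulVec, reflectionMatrix_mulVec, OG.mul_app]

end Cfsg.Agent.S0792
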