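import Mathlib
import Cfsg.Statements.S0795
import Cfsg.Agent.Cl.OrthSimple

set_option autoImplicit false
open Cfsg

namespace Cfsg.Agent.S0795

open Cfsg.Agent.Cl

/-- Generation of Ω by root elements: for q odd, n ≥ 5 and Q with non-degenerate polar form on F^n, the commutator subgroup of the isometry group equals the subgroup generated by the isometries whose matrices are Siegel transformations T_(u,v)(c) with u, v singular and orthogonal. -/
theorem result {F : Type*} [Field F] [Fintype F] (h2 : (2 : F) ≠ 0) {n : ℕ} (hn : 5 ≤ n) (Q : QuadraticForm F (Fin n → F)) (hQ : (QuadraticMap.polarBilin Q).Nondegenerate) : Cfsg.Omega F ⇑Q = Subgroup.closure {g : ↥(Cfsg.isometryGroup F ⇑Q) | ∃ (u v : Fin n → F) (c : F), Q u = 0 ∧ Q v = 0 ∧ QuadraticMap.polar ⇑Q u v = 0 ∧ ((g : Matrix.GeneralLinearGroup (Fin n) F) : Matrix (Fin n) (Fin n) F) = Cfsg.siegelMatrix ⇑Q u v c} := by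
  have hn' : 5 ≤ Module.finrank F (Fin n → F) := by simpa using hn
  apply Subgroup.map_injective (f := (omatEquiv Q : _ →* OG Q)) (omatEquiv Q).injective
  rw [MonoidHom.map_closure, map_commutator_mulEquiv,
    commutator_eq_EO_of_finite hQ (not_oExc_of_two_ne_zero h2) (by omega),
    ← closure_siegelSet hQ hn']
  congr 1
  ext g
  constructor
  · rintro ⟨u, v, hu, hv, huv, rfl⟩
    refine ⟨(omatEquiv Q).symm (eich Q u v), ⟨u, v, 1, hu, hv, huv, ?_⟩,
      MulEquiv.apply_symm_apply _ _⟩
    rw [← omatEquiv_eq_eich_iff _ hu hv huv, one_smul, MulEquiv.apply_symm_apply]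
  · rintro ⟨k, ⟨u, v, c, hu, hv, huv, hk⟩, rfl⟩
    exact ⟨u, c • v, hu, by simp [o_qsmul, hv], by simp [huv],
      (omatEquiv_eq_eich_iff k hu hv huv c).2 hk⟩

end Cfsg.Agent.S0795
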