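import Cfsg.Statements.S0796
import Mathlib
import Cfsg.Agent.Perm.Regular
-- import your own Cfsg.Agent.* helpers here

set_option autoImplicit false
open Cfsg

namespace Cfsg.Agent.S0796

open MulAction Cfsg.Agent.Perm
open scoped Pointwise

/-- If G is finite and acts faithfully and primitively on X, H is the stabiliser of a point, A is a normal subgroup of H whose normal closure in G is G, then for every non-trivial normal subgroup K of G the quotient G ⧸ K is isomorphic to A ⧸ B for some normal subgroup B of A. -/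
theorem result {G X : Type*} [Group G] [Finite G] [MulAction G X] [FaithfulSMul G X] (hprim : MulAction.IsPreprimitive G X) (x : X) (A : Subgroup G) (hA : A ≤ MulAction.stabilizer G x) (hAn : (A.subgroupOf (MulAction.stabilizer G x)).Normal) (hgen : Subgroup.normalClosure (A : Set G) = ⊤) (K : Subgroup G) [K.Normal] (hK : K ≠ ⊥) : ∃ (B : Subgroup A) (_ : B.Normal), Nonempty (G ⧸ K ≃* A ⧸ B) := by
  have ht := isPretransitive_of_normal_ne_bot hprim K hK
  have hn : (K ⊔ A).Normal := by
    refine ⟨fun n hn g => ?_⟩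
    obtain ⟨k, hk, s, hs, rfl⟩ := exists_mem_mul_stabilizer K x g
    have h1 : n ∈ ((K ⊔ A : Subgroup G) : Set G) := hn
    rw [Subgroup.normal_mul] at h1
    obtain ⟨k', hk', a, ha, rfl⟩ := h1
    have h2 : s * a * s⁻¹ ∈ A := by
      have := hAn.conj_mem ⟨a, hA ha⟩ ha ⟨s, hs⟩
      exact this
    have h3 : s * k' * s⁻¹ ∈ K := Subgroup.Normal.conj_mem inferInstance k' hk' s
    have : k * s * (k' * a) * (k * s)⁻¹ = k * ((s * k' * s⁻¹) * (s * a * s⁻¹)) * k⁻¹ := by group
    simp only
    rw [this]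
    exact Subgroup.mul_mem _ (Subgroup.mul_mem _ (Subgroup.mem_sup_left hk)
      (Subgroup.mul_mem_sup h3 h2)) (Subgroup.mem_sup_left (K.inv_mem hk))
  have htop : K ⊔ A = ⊤ := by
    rw [eq_top_iff, ← hgen]
    exact Subgroup.normalClosure_le_normal (le_sup_right : A ≤ K ⊔ A)
  let φ : A →* G ⧸ K := (QuotientGroup.mk' K).comp A.subtype
  have hφ : Function.Surjective φ := by
    intro q
    obtain ⟨g, rfl⟩ := QuotientGroup.mk_surjective q
    have h1 : g ∈ ((K ⊔ A : Subgroup G) : Set G) := htop ▸ Subgroup.mem_top g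
    rw [Subgroup.normal_mul] at h1
    obtain ⟨k, hk, a, ha, rfl⟩ := h1
    refine ⟨⟨a, ha⟩, ?_⟩
    change ((a : G) : G ⧸ K) = ((k * a : G) : G ⧸ K)
    rw [QuotientGroup.mk_mul, (QuotientGroup.eq_one_iff k).2 hk, one_mul]
  exact ⟨φ.ker, inferInstance, ⟨(QuotientGroup.quotientKerEquivOfSurjective φ hφ).symm⟩⟩

end Cfsg.Agent.S0796
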