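import Mathlib
import Cfsg.Statements.S0799
import Cfsg.Agent.Cl.PSL2Fields

set_option autoImplicit false
open Cfsg

namespace Cfsg.Agent.S0799

open Cfsg.Agent.Cl.L2 Matrix MulAction
open scoped MatrixGroups

/-- Dickson's classification of the subgroups of PSL_2(q), q a power of the prime p, d = gcd(2, q − 1): every subgroup H is (a) cyclic or dihedral with k dividing (q+1)/d or (q−1)/d (cyclic of order k, or dihedral of order 2k), (b) isomorphic to a subgroup of the normaliser of a Sylow p-subgroup, (c) isomorphic to A_4, S_4 or A_5, or (d) isomorphic to PSL_2(K) or PGL_2(K) for a finite field K with |K|^m = q. -/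
theorem result {F : Type*} [Field F] [Fintype F] {q : ℕ} (hF : Fintype.card F = q) (p : ℕ) [Fact p.Prime] [CharP F p] (H : Subgroup (Matrix.ProjectiveSpecialLinearGroup (Fin 2) F)) : (∃ k : ℕ, (k ∣ (q + 1) / Nat.gcd 2 (q - 1) ∨ k ∣ (q - 1) / Nat.gcd 2 (q - 1)) ∧ ((IsCyclic H ∧ Nat.card H = k) ∨ Nonempty (H ≃* DihedralGroup k))) ∨ (∃ (P : Sylow p (Matrix.ProjectiveSpecialLinearGroup (Fin 2) F)) (K : Subgroup (Matrix.ProjectiveSpecialLinearGroup (Fin 2) F)), K ≤ Subgroup.normalizer ((P : Subgroup (Matrix.ProjectiveSpecialLinearGroup (Fin 2) F)) : Set (Matrix.ProjectiveSpecialLinearGroup (Fin 2) F)) ∧ Nonempty (H ≃* K)) ∨ Nonempty (H ≃* alternatingGroup (Fin 4)) ∨ Nonempty (H ≃* Equiv.Perm (Fin 4)) ∨ Nonempty (H ≃* alternatingGroup (Fin 5)) ∨ (∃ (K : Type) (_ : Field K) (_ : Fintype K) (m : ℕ), Fintype.card K ^ m = q ∧ (Nonempty (H ≃* Matrix.ProjectiveSpecialLinearGroup (Fin 2) K) ∨ Nonempty (H ≃* Matrix.ProjGenLinGroup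 (Fin 2) K))) := by
  have hq : Nat.card F = q := by rw [Nat.card_eq_fintype_card, hF]
  rcases dickson_psl p H with ⟨x, h⟩ | ⟨g, -, ht, h⟩ | ⟨-, h | h | h⟩ | ⟨-, h⟩ | ⟨k, c, h⟩
  · obtain ⟨P, hP⟩ := exists_uniS_eq_sylow p x
    exact Or.inr (Or.inl ⟨P, H, by rw [hP, normalizer_uniS]; exact h, ⟨MulEquiv.refl _⟩⟩)
  · obtain ⟨k, hk, hk'⟩ := cyclic_or_dihedral_of_le_ntorS ht h
    refine Or.inl ⟨k, ?_, hk'⟩
    rw [← hq]
    exact (card_torS_dvd ht).imp (fun e => hk.trans (dvd_of_eq e)) fun e => hk.trans (dvd_of_eq e)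
  · exact Or.inr (Or.inr (Or.inl h))
  · exact Or.inr (Or.inr (Or.inr (Or.inl h)))
  · exact Or.inr (Or.inr (Or.inr (Or.inr (Or.inl h))))
  · exact Or.inr (Or.inr (Or.inr (Or.inr (Or.inl h))))
  · obtain ⟨K, _, _, f, rfl, hK⟩ := exists_copy k
    obtain ⟨m, -, hm⟩ := card_subfield_pow f.fieldRange
    exact Or.inr (Or.inr (Or.inr (Or.inr (Or.inr ⟨K, _, _, m, by rw [hK, hm, hq],
      h.imp (nonempty_equiv_of_map_eq_subPSL f) (nonempty_equiv_of_map_eq_subPGL f)⟩))))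

end Cfsg.Agent.S0799
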