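import Mathlib
import Cfsg.Statements.S0800
import Cfsg.Agent.Cl.PSL2Pairs

set_option autoImplicit false
open Cfsg

set_option linter.unusedVariables false

namespace Cfsg.Agent.S0800

open Cfsg.Agent.Cl.L2 Matrix MulAction
open scoped MatrixGroups

/-- Tori of SL_2(q): if g ∈ SL_2(q) has order coprime to the characteristic p, then the order of g divides q − 1 or q + 1. -/
theorem result {F : Type*} [Field F] [Fintype F] {q : ℕ} (hF : Fintype.card F = q) (p : ℕ) [Fact p.Prime] [CharP F p] (g : Matrix.SpecialLinearGroup (Fin 2) F) (hg : Nat.Coprime (orderOf g) p) : orderOf g ∣ q - 1 ∨ orderOf g ∣ q + 1 := by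
  have hq : Nat.card F = q := by rw [Nat.card_eq_fintype_card, hF]
  subst hq
  have h := orderOf_dvd_of_pow_eq_one (pow_orderOf_mul_gcd g)
  rcases orderOf_cases p (g : PSL(2, F)) with h1 | h1 | h1
  · left
    have h2 := h.trans (Nat.mul_dvd_mul_right h1 _)
    exact (hg.dvd_of_dvd_mul_left h2).trans (Nat.gcd_dvd_right _ _)
  · exact Or.inl (h.trans h1)
  · exact Or.inr (h.trans h1)

end Cfsg.Agent.S0800
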