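import Mathlib
import Cfsg.Statements.S0802
import Cfsg.Agent.Cl.PSL2Class

set_option autoImplicit false
open Cfsg

set_option linter.unusedVariables false

namespace Cfsg.Agent.S0802

open Cfsg.Agent.Cl.L2 Matrix MulAction
open scoped MatrixGroups

/-- PSL_2(p^n) has a subgroup isomorphic to A_4 if and only if it is not the case that p = 2 and n is odd. -/
theorem result {F : Type*} [Field F] [Fintype F] (p n : ℕ) [Fact p.Prime] [CharP F p] (hF : Fintype.card F = p ^ n) : (∃ H : Subgroup (Matrix.ProjectiveSpecialLinearGroup (Fin 2) F), Nonempty (H ≃* alternatingGroup (Fin 4))) ↔ ¬ (p = 2 ∧ Odd n) := by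
  have hq : Nat.card F = p ^ n := by rw [Nat.card_eq_fintype_card, hF]
  constructor
  · rintro ⟨H, ⟨e⟩⟩ ⟨rfl, m, rfl⟩
    have h2 : (2 : F) = 0 := CharP.cast_eq_zero F 2
    obtain ⟨x, hx⟩ := le_stabilizer_of_A4 h2 e
    have h1 := Subgroup.card_dvd_of_le hx
    have h3 := card_stabilizerS_mul x
    rw [gcd_of_two_eq_zero h2, mul_one] at h3
    rw [h3, Nat.card_congr e.toEquiv, card_A4, hq] at h1
    have h4 : 2 ^ (2 * m + 1) % 3 = 2 := by
      rw [pow_succ, pow_mul, Nat.mul_mod, Nat.pow_mod]; norm_num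
    have h5 := (Nat.prime_three.dvd_mul).1 (Dvd.dvd.trans (by norm_num) h1)
    generalize 2 ^ (2 * m + 1) = r at h4 h5
    omega
  · intro h
    by_cases hp : p = 2
    · subst hp
      obtain ⟨m, rfl⟩ := Nat.not_odd_iff_even.1 fun h' => h ⟨rfl, h'⟩
      have h4 : 2 ^ (m + m) % 5 = 1 ∨ 2 ^ (m + m) % 5 = 4 := by
        clear hq hF h
        induction m with
        | zero => simp
        | succ m ih => rw [show m + 1 + (m + 1) = m + m + 2 by ring, pow_add]; omega
      obtain ⟨H, ⟨e⟩⟩ := (exists_A5S_iff (F := F)).2 (Or.inr (hq ▸ h4))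
      obtain ⟨K, ⟨e'⟩⟩ := exists_A4_in_A5
      obtain ⟨φ, hφ, -⟩ := exists_range_eq e
      exact ⟨K.map φ, ⟨(K.equivMapOfInjective φ hφ).symm.trans e'⟩⟩
    · exact exists_A4S (two_ne_zero_of_char p hp)

end Cfsg.Agent.S0802
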