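import Mathlib
import Cfsg.Statements.S0803
import Cfsg.Agent.Cl.PSL2Class

set_option autoImplicit false
open Cfsg

set_option linter.unusedVariables false

namespace Cfsg.Agent.S0803

open Cfsg.Agent.Cl.L2 Matrix MulAction
open scoped MatrixGroups

/-- PSL_2(q) has a subgroup isomorphic to S_4 iff q² ≡ 1 (mod 16). -/
theorem result {F : Type*} [Field F] [Fintype F] {q : ℕ} (hF : Fintype.card F = q) : (∃ H : Subgroup (Matrix.ProjectiveSpecialLinearGroup (Fin 2) F), Nonempty (H ≃* Equiv.Perm (Fin 4))) ↔ q ^ 2 % 16 = 1 := by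
  rw [exists_S4S_iff, Nat.card_eq_fintype_card, hF, Nat.pow_mod]
  have h : q % 16 < 16 := Nat.mod_lt _ (by norm_num)
  interval_cases e : q % 16 <;> simp <;> omega

end Cfsg.Agent.S0803
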