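import Mathlib
import Cfsg.Statements.S0804
import Cfsg.Agent.Cl.PSL2Class

set_option autoImplicit false
open Cfsg

set_option linter.unusedVariables false

namespace Cfsg.Agent.S0804

open Cfsg.Agent.Cl.L2 Matrix MulAction
open scoped MatrixGroups

/-- PSL_2(q) has a subgroup isomorphic to A_5 iff 5 ∣ q(q² − 1). -/
theorem result {F : Type*} [Field F] [Fintype F] {q : ℕ} (hF : Fintype.card F = q) : (∃ H : Subgroup (Matrix.ProjectiveSpecialLinearGroup (Fin 2) F), Nonempty (H ≃* alternatingGroup (Fin 5))) ↔ 5 ∣ q * (q ^ 2 - 1) := by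
  rw [exists_A5S_iff, Nat.card_eq_fintype_card, hF, ← five_dvd_iff, mul_assoc,
    show q ^ 2 - 1 = (q - 1) * (q + 1) by rw [mul_comm, ← Nat.sq_sub_sq, one_pow]]

end Cfsg.Agent.S0804
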