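import Mathlib
import Cfsg.Statements.S0805
import Cfsg.Agent.Cl.PSL2Class

set_option autoImplicit false
open Cfsg

set_option linter.unusedVariables false

namespace Cfsg.Agent.S0805

open Cfsg.Agent.Cl.L2 Matrix MulAction
open scoped MatrixGroups

/-- Subfield subgroups: let F be a finite field of odd order q and K a finite field with |K|^m = q, m ≥ 1. Then PSL_2(F) has a subgroup isomorphic to PSL_2(K), and has a subgroup isomorphic to PGL_2(K) if and only if m is even. -/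
theorem result {F K : Type*} [Field F] [Fintype F] [Field K] [Fintype K] {q : ℕ} (hF : Fintype.card F = q) (hodd : Odd q) (m : ℕ) (hm : 1 ≤ m) (hK : Fintype.card K ^ m = q) : (∃ H : Subgroup (Matrix.ProjectiveSpecialLinearGroup (Fin 2) F), Nonempty (H ≃* Matrix.ProjectiveSpecialLinearGroup (Fin 2) K)) ∧ ((∃ H : Subgroup (Matrix.ProjectiveSpecialLinearGroup (Fin 2) F), Nonempty (H ≃* Matrix.ProjGenLinGroup (Fin 2) K)) ↔ Even m) := by
  have hq : Nat.card F = q := by rw [Nat.card_eq_fintype_card, hF]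
  subst hq
  rw [← Nat.card_eq_fintype_card] at hK
  have h2 : (2 : F) ≠ 0 := two_ne_zero_iff_odd.2 (Nat.odd_iff.1 hodd)
  obtain ⟨f⟩ := nonempty_ringHom_of_card K hK
  refine ⟨exists_subgroupS (subPSL_le_psl _) (subPSLEquiv f).symm, ?_, fun h => exists_subgroupS
    ((subPGL_le_psl_iff_even h2 (by rwa [card_fieldRange])).2 h) (subPGLEquiv f).symm⟩
  rintro ⟨H, ⟨e⟩⟩
  have h1 := Nat.mul_dvd_mul_right H.card_subgroup_dvd_card 2
  rw [card_PSL_two h2, Nat.card_congr e.toEquiv, card_PGL, mul_assoc (Nat.card K),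
    mul_assoc (Nat.card F), mul_comm (_ - 1), mul_comm (_ - 1), ← Nat.sq_sub_sq,
    ← Nat.sq_sub_sq, ← hK, ← pow_mul, mul_comm m, pow_mul, one_pow] at h1
  have hr : Odd (Nat.card K) := (Nat.odd_pow_iff (by omega)).1 (hK ▸ hodd)
  have hr2 := two_le_card (F := K)
  obtain ⟨s, hs, hs'⟩ := geom_parity (hr.pow (n := 2)) m
  have e1 : Nat.card K ^ 2 - 1 = 2 * (Nat.card K ^ 2 / 2) := by
    have := Nat.odd_iff.1 (hr.pow (n := 2)); omega
  have e2 : (Nat.card K ^ 2) ^ m - 1 = (Nat.card K ^ 2 - 1) * s := by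
    have := Nat.odd_iff.1 ((hr.pow (n := 2)).pow (n := m))
    rw [e1, mul_assoc, ← hs]; omega
  have h3 : 0 < Nat.card K ^ 2 - 1 := by
    have : 2 ^ 2 ≤ Nat.card K ^ 2 := Nat.pow_le_pow_left hr2 2
    omega
  rw [e2, mul_left_comm (Nat.card K ^ m), mul_comm (Nat.card K), mul_assoc,
    Nat.mul_dvd_mul_iff_left h3] at h1
  rw [← hs']
  exact (Nat.even_mul.1 (even_iff_two_dvd.2 ((Dvd.intro_left _ rfl).trans h1))).resolve_left
    (Nat.not_even_iff_odd.2 hr.pow)

end Cfsg.Agent.S0805
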