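import Mathlib
import Cfsg.Statements.S0807
import Cfsg.Agent.Cl.PSL2Class

set_option autoImplicit false
open Cfsg

set_option linter.unusedVariables false

namespace Cfsg.Agent.S0807

open Cfsg.Agent.Cl.L2 Matrix MulAction
open scoped MatrixGroups

/-- For q odd, twelve times the number of Klein four-subgroups of PSL_2(q) equals the order of PSL_2(q). -/
theorem result {F : Type*} [Field F] [Fintype F] {q : ℕ} (hF : Fintype.card F = q) (hodd : Odd q) : 12 * Nat.card {V : Subgroup (Matrix.ProjectiveSpecialLinearGroup (Fin 2) F) // IsKleinFour V} = Nat.card (Matrix.ProjectiveSpecialLinearGroup (Fin 2) F) := by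
  have h2 : (2 : F) ≠ 0 := two_ne_zero_iff_odd.2
    (by rw [Nat.card_eq_fintype_card, hF]; exact Nat.odd_iff.1 hodd)
  obtain ⟨V, hV⟩ := exists_kleinS h2
  obtain ⟨φ, hφ, h⟩ := exists_S4_of_kleinS h2 hV
  rw [card_subgroupS _ (isKleinFour_iff_cj h2 hV), ← h, normalizer_map_v4 hφ]
  have h1 := φ.range.index_mul_card
  rw [card_range_of_injective hφ, card_S4, card_PGL, ← card_PSL_two h2] at h1
  omega

end Cfsg.Agent.S0807
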