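import Mathlib
import Cfsg.Statements.S0808
import Cfsg.Agent.Cl.PSL2Class

set_option autoImplicit false
open Cfsg

set_option linter.unusedVariables false

namespace Cfsg.Agent.S0808

open Cfsg.Agent.Cl.L2 Matrix MulAction
open scoped MatrixGroups

/-- Conjugacy classes of four-groups in PSL_2(q), q odd: if q ≡ 3 or 5 (mod 8) all Klein four-subgroups are conjugate; if q ≡ 1 or 7 (mod 8) there are two Klein four-subgroups which are not conjugate, and every Klein four-subgroup is conjugate to one of them. -/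
theorem result {F : Type*} [Field F] [Fintype F] {q : ℕ} (hF : Fintype.card F = q) (hodd : Odd q) : ((q % 8 = 3 ∨ q % 8 = 5) → ∀ V W : Subgroup (Matrix.ProjectiveSpecialLinearGroup (Fin 2) F), IsKleinFour V → IsKleinFour W → ∃ g : Matrix.ProjectiveSpecialLinearGroup (Fin 2) F, W = V.map (MulAut.conj g).toMonoidHom) ∧ ((q % 8 = 1 ∨ q % 8 = 7) → ∃ V₁ V₂ : Subgroup (Matrix.ProjectiveSpecialLinearGroup (Fin 2) F), IsKleinFour V₁ ∧ IsKleinFour V₂ ∧ (¬ ∃ g : Matrix.ProjectiveSpecialLinearGroup (Fin 2) F, V₂ = V₁.map (MulAut.conj g).toMonoidHom) ∧ ∀ W : Subgroup (Matrix.ProjectiveSpecialLinearGroup (Fin 2) F), IsKleinFour W → (∃ g : Matrix.ProjectiveSpecialLinearGroup (Fin 2) F, W = V₁.map (MulAut.conj g).toMonoidHom) ∨ (∃ g : Matrix.ProjectiveSpecialLinearGroup (Fin 2) F, W = V₂.map (MulAut.conj g).toMonoidHom)) := by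
  have hq : Nat.card F = q := by rw [Nat.card_eq_fintype_card, hF]
  have h2 : (2 : F) ≠ 0 := two_ne_zero_iff_odd.2 (by rw [hq]; exact Nat.odd_iff.1 hodd)
  have key : ∀ V : Subgroup PSL(2, F), IsKleinFour V →
      (Subgroup.normalizer (V.map emb : Set PGL(2, F)) ≤ psl F ↔ q % 8 ≠ 3 ∧ q % 8 ≠ 5) := by
    intro V hV
    obtain ⟨φ, hφ, h⟩ := exists_S4_of_kleinS h2 hV
    rw [← h, normalizer_map_v4 hφ, range_le_psl_iff hφ, isSquare_two_iff, hq]
  constructor
  · intro h V W hV hW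
    obtain ⟨c, hc⟩ := (isKleinFour_iff_cj h2 hV W).1 hW
    obtain ⟨g, hg⟩ := exists_cj_of_not_le (by rw [key V hV]; omega) hc
    exact ⟨g, hg.symm⟩
  · intro h
    obtain ⟨V, hV⟩ := exists_kleinS h2
    obtain ⟨c, hc⟩ := exists_not_mem_psl h2
    refine ⟨V, cjS c V, hV, Inv.Fz.isKleinFour_of_equiv (cjSEquiv c V) hV,
      fun ⟨g, hg⟩ => not_cj_cjS hc ((key V hV).2 (by omega)) g hg.symm, fun W hW => ?_⟩
    obtain ⟨c', hc'⟩ := (isKleinFour_iff_cj h2 hV W).1 hW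
    exact (exists_cj_or hc hc').imp (fun ⟨g, hg⟩ => ⟨g, hg.symm⟩) fun ⟨g, hg⟩ => ⟨g, hg.symm⟩

end Cfsg.Agent.S0808
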