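import Mathlib
import Cfsg.Statements.S0809
import Cfsg.Agent.Cl.PSL2Class

set_option autoImplicit false
open Cfsg

set_option linter.unusedVariables false

namespace Cfsg.Agent.S0809

open Cfsg.Agent.Cl.L2 Matrix MulAction
open scoped MatrixGroups

lemma exists_gen {F : Type*} [Field F] (h2 : (2 : F) ≠ 0) {A : Subgroup SL(2, F)}
    (hA : Nat.card A = 4) : ∃ a : SL(2, F), orderOf (prj a) = 2 ∧ (a : M2 F).trace = 0 ∧
      A = Subgroup.zpowers a ∧ A = (Subgroup.zpowers (prj a)).comap prj := by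
  have : Finite A := Nat.finite_of_card_ne_zero (by omega)
  obtain ⟨a, ha, ha'⟩ : ∃ a ∈ A, a * a ≠ 1 := by
    by_contra h
    push Not at h
    have h1 : (A : Set SL(2, F)) ⊆ {1, -1} := fun a ha => sl_mul_self_eq_one h2 (h a ha)
    have := (Set.ncard_le_ncard h1).trans (Set.ncard_insert_le _ _)
    rw [Set.ncard_singleton, ← Nat.card_coe_set_eq, SetLike.coe_sort_coe, hA] at this
    omega
  have h4 : a ^ 4 = 1 := orderOf_dvd_iff_pow_eq_one.1 (hA ▸ A.orderOf_dvd_natCard ha)
  have h5 : a * a = -1 := (sl_mul_self_eq_one h2 (by rw [← h4]; simp only [pow_succ, pow_zero,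
    one_mul, mul_assoc])).resolve_left ha'
  have h6 : orderOf (prj a) = 2 := orderOf_eq_prime
    (by rw [sq, ← map_mul, h5]; exact mk_eq_one_iff.2 (Or.inr rfl)) fun h => by
      rcases mk_eq_one_iff.1 h with rfl | rfl <;> simp at ha'
  have h7 : A = Subgroup.zpowers a := (Subgroup.eq_of_le_of_card_ge (Subgroup.zpowers_le.2 ha) (by
    rw [hA, Nat.card_zpowers, orderOf_eq_prime_pow (p := 2) (n := 1) (by rwa [pow_one, sq]) h4]
    norm_num)).symm
  refine ⟨a, h6, trace_eq_zero_of_orderOf h6, h7, ?_⟩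
  rw [← MonoidHom.map_zpowers, ← h7, comap_map_prj (h5 ▸ mul_mem ha ha)]

/-- In SL_2(q), q odd: any two subgroups of order 4 are conjugate, and the normaliser of a subgroup of order 4 has order 2(q − 1) if q ≡ 1 (mod 4) and 2(q + 1) if q ≡ 3 (mod 4); consequently all involutions of PSL_2(q) are conjugate. -/
theorem result {F : Type*} [Field F] [Fintype F] {q : ℕ} (hF : Fintype.card F = q) (hodd : Odd q) (A : Subgroup (Matrix.SpecialLinearGroup (Fin 2) F)) (hA : Nat.card A = 4) : (∀ B : Subgroup (Matrix.SpecialLinearGroup (Fin 2) F), Nat.card B = 4 → ∃ g : Matrix.SpecialLinearGroup (Fin 2) F, B = A.map (MulAut.conj g).toMonoidHom) ∧ (q % 4 = 1 → Nat.card ↥(Subgroup.normalizer (A : Set (Matrix.SpecialLinearGroup (Fin 2) F))) = 2 * (q - 1)) ∧ (q % 4 = 3 → Nat.card ↥(Subgroup.normalizer (A : Set (Matrix.SpecialLinearGroup (Fin 2) F))) = 2 * (q + 1)) ∧ (∀ x y : Matrix.ProjectiveSpecialLinearGroup (Fin 2) F, orderOf x = 2 → orderOf y = 2 → IsConj x y) := by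
  have hq : Nat.card F = q := by rw [Nat.card_eq_fintype_card, hF]
  subst hq
  have h2 : (2 : F) ≠ 0 := two_ne_zero_iff_odd.2 (Nat.odd_iff.1 hodd)
  obtain ⟨a, ha, ht, e1, e2⟩ := exists_gen h2 hA
  have hN : Nat.card (Subgroup.normalizer (A : Set SL(2, F))) =
      2 * (Nat.card (torS (prj a)) * 2) := by
    rw [e2, ← Subgroup.comap_normalizer_eq_of_surjective _ prj_surjective, card_comap_prj,
      normalizer_zpowers (tauS_ne_four_of_orderOf_two h2 ha),
      card_ntorS (tauS_ne_four_of_orderOf_two h2 ha), gcd_of_two_ne_zero h2, mul_assoc]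
  have h := card_torS_of_orderOf_two h2 ha
  refine ⟨fun B hB => ?_, fun h1 => by omega, fun h1 => by omega,
    fun x y => isConjS_of_orderOf_two⟩
  obtain ⟨b, -, ht', e1', -⟩ := exists_gen h2 hB
  obtain ⟨g, rfl⟩ := isConj_iff.1 (sl_isConj_of_trace
    (by rw [ht, zero_pow two_ne_zero]; exact (four_ne_zero_of_two h2).symm) (ht.trans ht'.symm))
  exact ⟨g, by rw [e1, e1', ← cj_zpowers]; rfl⟩

end Cfsg.Agent.S0809
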