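import Mathlib
import Cfsg.Statements.S0811
import Cfsg.Agent.Cl.PSL2Max
import Cfsg.Agent.GT.PGroupBasic

set_option autoImplicit false
open Cfsg

set_option linter.unusedVariables false

namespace Cfsg.Agent.S0811

open Cfsg.Agent.Cl.L2 Matrix MulAction
open scoped MatrixGroups

/-- For q ∉ {2, 7, 9}, PSL_2(q) has a maximal subgroup isomorphic to the dihedral group of order 2(q + 1)/d, d = gcd(2, q − 1). -/
theorem result {F : Type*} [Field F] [Fintype F] {q : ℕ} (hF : Fintype.card F = q) (hq : q ∉ ({2, 7, 9} : Finset ℕ)) : ∃ H : Subgroup (Matrix.ProjectiveSpecialLinearGroup (Fin 2) F), IsCoatom H ∧ Nonempty (H ≃* DihedralGroup ((q + 1) / Nat.gcd 2 (q - 1))) := by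
  have hq' : Nat.card F = q := by rw [Nat.card_eq_fintype_card, hF]
  subst hq'
  simp only [Finset.mem_insert, Finset.mem_singleton, not_or] at hq
  obtain ⟨g, hg, -⟩ := exists_nofixS (F := F)
  have ht := tauS_ne_four_of_nofix hg
  refine ⟨ntorS g, ?_, card_torS_of_nofix hg ▸ nonempty_ntorS_dihedral ht⟩
  have h1 := card_torS_mul_of_nofix hg
  have h2 := two_le_card (F := F)
  by_cases h3 : Nat.card F = 3
  · refine GT.PG.isCoatom_of_index_prime Nat.prime_three ?_
    have h4 := (ntorS g).index_mul_card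
    have h5 := card_PSL_mul (F := F)
    rw [card_ntorS ht] at h4
    rw [h3] at h1 h5
    norm_num at h1 h5
    rw [show Nat.card (torS g) = 2 by omega] at h4
    omega
  · rcases gcd_cases (F := F) with ⟨h', h⟩ | ⟨h', h⟩ <;> rw [h] at h1 <;>
      exact isCoatom_ntorS ht hq.1 (by omega) (by omega) (by omega)

end Cfsg.Agent.S0811
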