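import Mathlib
import Cfsg.Statements.S0812
import Cfsg.Agent.Cl.PSL2Max

set_option autoImplicit false
open Cfsg

set_option linter.unusedVariables false

namespace Cfsg.Agent.S0812

open Cfsg.Agent.Cl.L2 Matrix MulAction
open scoped MatrixGroups

/-- For q ∉ {2, 3, 5, 7, 9, 11}, PSL_2(q) has a maximal subgroup isomorphic to the dihedral group of order 2(q − 1)/d, d = gcd(2, q − 1). -/
theorem result {F : Type*} [Field F] [Fintype F] {q : ℕ} (hF : Fintype.card F = q) (hq : q ∉ ({2, 3, 5, 7, 9, 11} : Finset ℕ)) : ∃ H : Subgroup (Matrix.ProjectiveSpecialLinearGroup (Fin 2) F), IsCoatom H ∧ Nonempty (H ≃* DihedralGroup ((q - 1) / Nat.gcd 2 (q - 1))) := by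
  have hq' : Nat.card F = q := by rw [Nat.card_eq_fintype_card, hF]
  subst hq'
  simp only [Finset.mem_insert, Finset.mem_singleton, not_or] at hq
  obtain ⟨g, h1, h3, hg⟩ := exists_fixS (F := F)
  have h2 := two_le_card (F := F)
  have ht : tau (emb g) ≠ 4 := tau_ne_four_of_two_fix (emb_ne_one.2 (by
    rintro rfl
    rw [orderOf_one] at hg
    rcases gcd_cases (F := F) with ⟨h', h⟩ | ⟨h', h⟩ <;> rw [h] at hg <;> omega)) (inf_ne_pt 0)
    (by rwa [emb_smul]) (by rwa [emb_smul])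
  refine ⟨ntorS g, ?_, card_torS_of_fix ht h1 ▸ nonempty_ntorS_dihedral ht⟩
  have h4 := card_torS_mul_of_fix ht h1
  have h6 : Nat.card F ≠ 6 := fun h => by
    obtain ⟨p, hp, _⟩ := exists_char (F := F)
    have := Fact.mk hp
    obtain ⟨n, hn, e⟩ := exists_card_eq_prime_pow (F := F) p
    rw [h] at e
    have h2 := (Nat.prime_dvd_prime_iff_eq Nat.prime_two hp).1
      (Nat.prime_two.dvd_of_dvd_pow (e ▸ (by norm_num : 2 ∣ 6)))
    have h3 := (Nat.prime_dvd_prime_iff_eq Nat.prime_three hp).1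
      (Nat.prime_three.dvd_of_dvd_pow (e ▸ (by norm_num : 3 ∣ 6)))
    omega
  rcases gcd_cases (F := F) with ⟨h', h⟩ | ⟨h', h⟩ <;> rw [h] at h4 <;>
    exact isCoatom_ntorS ht hq.1 (by omega) (by omega) (by omega)

end Cfsg.Agent.S0812
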