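import Mathlib
import Cfsg.Statements.S0816
import Cfsg.Agent.Cl.AutOOut

set_option autoImplicit false
open Cfsg

namespace Cfsg.Agent.S0816

open Cfsg.Agent.Cl

/-- |Aut(PΩ_(2m+1)(q))| = 2 f · |PΩ_(2m+1)(q)| for q = p^f odd and m ≥ 3 (for the form quadFormOdd). -/
theorem result {F : Type*} [Field F] [Fintype F] (p f : ℕ) [Fact p.Prime] (hf : 1 ≤ f) (hF : Fintype.card F = p ^ f) (hodd : Odd p) (m : ℕ) (hm : 3 ≤ m) : Nat.card (MulAut (Cfsg.POmega F (Cfsg.quadFormOdd m F))) = 2 * f * Nat.card (Cfsg.POmega F (Cfsg.quadFormOdd m F)) := by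
  have hF' : Nat.card F = p ^ f := by rw [← hF, Nat.card_eq_fintype_card]
  have hp : p ≠ 2 := by rintro rfl; exact absurd hodd (by decide)
  have : NeZero f := ⟨by omega⟩
  obtain ⟨e⟩ := o_out_odd hf hF' hp hm
  refine (o_card_mulAut (P := quad_odd m F) (quad_odd_nondeg (o_two_ne_zero_of_prime hF' hp))
    (by simp; omega)).trans (congrArg (· * _) ((Nat.card_congr e.toEquiv).trans ?_))
  simp

end Cfsg.Agent.S0816
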