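import Mathlib
import Cfsg.Statements.S0819
import Cfsg.Agent.Cl.PSL34

set_option autoImplicit false
open Cfsg

namespace Cfsg.Agent.S0819

/-- No element of PSL_3(4) has order 15. -/
theorem result {F : Type*} [Field F] [Fintype F] (hF : Fintype.card F = 4) (g : Matrix.ProjectiveSpecialLinearGroup (Fin 3) F) : orderOf g ≠ 15 := by
  intro h
  obtain ⟨e, he, h'⟩ := Cl.psl_three_four_orderOf_dvd (by rw [Nat.card_eq_fintype_card, hF]) g
  rw [h] at h'
  simp only [List.mem_cons, List.not_mem_nil, or_false] at he
  omega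

end Cfsg.Agent.S0819
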