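import Mathlib
import Cfsg.Statements.S0820
import Cfsg.Agent.Cl.PSL34

set_option autoImplicit false
open Cfsg

namespace Cfsg.Agent.S0820

/-- Any two elements of order 2 of PSL_3(4) are conjugate. -/
theorem result {F : Type*} [Field F] [Fintype F] (hF : Fintype.card F = 4) (x y : Matrix.ProjectiveSpecialLinearGroup (Fin 3) F) (hx : orderOf x = 2) (hy : orderOf y = 2) : IsConj x y := by
  have : CharP F 2 := charP_of_card_eq_prime_pow (f := 2) (by rw [hF]; rfl)
  exact Cl.psl_three_isConj_of_invol hx hy

end Cfsg.Agent.S0820
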