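import Mathlib
import Cfsg.Statements.S0823
import Cfsg.Agent.Cl.OrthMisc
import Cfsg.Agent.Cl.OrthCard

set_option autoImplicit false
open Cfsg

namespace Cfsg.Agent.S0823

open Cfsg.Agent.Cl Projectivization
open scoped LinearAlgebra.Projectivization

/-- The singular points. -/
def pts {F V : Type*} [Field F] [AddCommGroup V] [Module F V] (Q : QuadraticForm F V) :
    SubMulAction (OG Q) (ℙ F V) where
  carrier := {p | ∃ (v : V) (h : v ≠ 0), Q v = 0 ∧ p = mk F v h}
  smul_mem' := by
    rintro g _ ⟨v, h, h1, rfl⟩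
    exact ⟨_, _, (OG.map_app g v).trans h1, smul_mk g h⟩

theorem card_pts {F : Type*} [Field F] (h : ∀ a : F, a = 0 ∨ a = 1 ∨ a = -1) :
    Finite (pts (quad_odd 1 F)) ∧ Nat.card (pts (quad_odd 1 F)) ≤ 4 := by
  let v : F → F → F → Unit ⊕ Fin 1 ⊕ Fin 1 → F := fun a x y =>
    Sum.elim (fun _ => a) (Sum.elim (fun _ => x) fun _ => y)
  have hv : ∀ a x y, v a x y = 0 ↔ a = 0 ∧ x = 0 ∧ y = 0 := fun a x y => by
    simp [v, funext_iff]
  have hq : ∀ a x y, quad_odd 1 F (v a x y) = a ^ 2 + x * y := fun a x y => by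
    simp [v, quad_odd_apply]
  let f : Fin 4 → pts (quad_odd 1 F) := ![⟨_, v 0 1 0, by simp [hv], by simp [hq], rfl⟩,
    ⟨_, v 0 0 1, by simp [hv], by simp [hq], rfl⟩, ⟨_, v 1 1 (-1), by simp [hv], by simp [hq], rfl⟩,
    ⟨_, v 1 (-1) 1, by simp [hv], by simp [hq], rfl⟩]
  have hf : Function.Surjective f := by
    rintro ⟨_, w, h0, h1, rfl⟩
    obtain ⟨a, x, y, rfl⟩ : ∃ a x y, w = v a x y :=
      ⟨w (.inl ()), w (.inr (.inl 0)), w (.inr (.inr 0)), by
        ext (_ | i | i)
        · rfl
        all_goals rw [Subsingleton.elim i 0]; rfl⟩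
    have key : ∀ (c a' x' y' : F) (h' : v a' x' y' ≠ 0), c * a = a' → c * x = x' → c * y = y' →
        mk F (v a' x' y') h' = mk F (v a x y) h0 := by
      rintro c _ _ _ h' rfl rfl rfl
      refine (mk_eq_mk_iff' _ _ _ _ _).2 ⟨c, ?_⟩
      ext (_ | i | i) <;> rfl
    rw [hq] at h1
    have h2 := (hv a x y).not.1 h0
    have h3 : ∀ z : F, z ≠ 0 → z * z = 1 := fun z hz => by
      rcases h z with h | h | h <;> simp_all
    by_cases ha : a = 0
    · subst ha
      by_cases hy : y = 0
      · exact ⟨0, Subtype.ext (key x _ _ _ _ (by simp) (h3 x (by simp_all)) (by simp [hy]))⟩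
      · exact ⟨1, Subtype.ext (key y _ _ _ _ (by simp) (by simp_all) (h3 y hy))⟩
    have h4 := h3 a ha
    have hx : a * x ≠ 0 := mul_ne_zero ha (by rintro rfl; simp [ha] at h1)
    rcases h (a * x) with h5 | h5 | h5
    · exact absurd h5 hx
    · exact ⟨2, Subtype.ext (key a _ _ _ _ h4 h5 (by
        linear_combination a * a * h1 - (a * y) * h5 - (a * a + 1) * h4))⟩
    · exact ⟨3, Subtype.ext (key a _ _ _ _ h4 h5 (by
        linear_combination -a * a * h1 + (a * y) * h5 + (a * a + 1) * h4))⟩
  exact ⟨Finite.of_surjective f hf, by simpa using Nat.card_le_card_of_surjective f hf⟩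

/-- SO_3(3) ≅ S_4: the determinant-one isometries of the form x_0² + x_1y_1 over the field with 3 elements form a group isomorphic to the symmetric group on 4 letters. -/
theorem result {F : Type*} [Field F] [Fintype F] (hF : Fintype.card F = 3) : Nonempty (↥(Cfsg.specialIsometryGroup F (Cfsg.quadFormOdd 1 F)) ≃* Equiv.Perm (Fin 4)) := by
  classical
  have hF' : Nat.card F = 3 := by rw [Nat.card_eq_fintype_card, hF]
  have h2 : (2 : F) ≠ 0 := o_two_ne_zero_of_odd_card (by rw [hF]; decide)
  have hQ := quad_odd_nondeg (m := 1) h2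
  have h3 : ∀ a : F, a = 0 ∨ a = 1 ∨ a = -1 := fun a => by
    have := FiniteField.pow_card a
    rw [hF] at this
    have h4 : a * ((a - 1) * (a + 1)) = 0 := by linear_combination this
    simpa [sub_eq_zero, add_eq_zero_iff_eq_neg] using h4
  obtain ⟨_, h4⟩ := card_pts h3
  have e : Cfsg.specialIsometryGroup F ⇑(quad_odd 1 F) ≃* (dickson hQ).ker :=
    subgroupEquivOfIff (omatEquiv _) _ _ fun g => by
      rw [mem_specialIsometryGroup_iff, ← det_omatEquiv, det_eq_one_iff_dickson hQ h2,
        MonoidHom.mem_ker]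
  let φ := (MulAction.toPermHom _ (pts (quad_odd 1 F))).comp (dickson hQ).ker.subtype
  have h5 : Function.Injective φ := (injective_iff_map_eq_one _).2 fun g hg => by
    rcases eq_one_or_negOne_of_fix_points hQ (by simp) (quad_exists_singular _ (by simp))
      (g := g.1) (fun u hu => by
        by_cases h0 : u = 0
        · exact ⟨0, by simp [h0]⟩
        have := congrArg Subtype.val (DFunLike.congr_fun hg ⟨_, u, h0, hu, rfl⟩)
        obtain ⟨c, hc⟩ := (mk_eq_mk_iff' _ _ _ _ _).1 ((smul_mk g.1 h0).symm.trans this)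
        exact ⟨c, hc.symm⟩) with h | h
    · exact Subtype.ext h
    · have := g.2
      rw [h, MonoidHom.mem_ker, dickson_negOne hQ h2] at this
      simp at this
      exact absurd this (by decide)
  have h6 : Nat.card (dickson hQ).ker = 24 := by
    have := (dickson hQ).ker.card_mul_index
    rw [Subgroup.index_ker, MonoidHom.range_eq_top.2 (dickson_surjective hQ (by simp)),
      card_OG_odd h2, hF'] at this
    simp at this ⊢
    omega
  have h7 := Nat.card_le_card_of_injective φ h5
  rw [h6, Nat.card_perm] at h7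
  have h8 : Nat.card (pts (quad_odd 1 F)) = 4 := by
    by_contra h
    have := Nat.factorial_le (show Nat.card (pts (quad_odd 1 F)) ≤ 3 by omega)
    simp only [Nat.factorial] at this
    omega
  exact ⟨e.trans ((MulEquiv.ofBijective φ (h5.bijective_of_nat_card_le (by
    rw [h6, Nat.card_perm, h8]; rfl))).trans (Finite.equivFinOfCardEq h8).permCongrHom)⟩

end Cfsg.Agent.S0823
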