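import Mathlib
import Cfsg.Statements.S2563
import Cfsg.Agent.Cl.QuadSym

set_option autoImplicit false
open Cfsg

namespace Cfsg.Agent.S2563

open Cfsg.Agent.Cl QuadraticMap


/-- For k ≥ 1 the symmetric group of degree 4k + 4 embeds in a full orthogonal group in dimension 4k + 2 over the field of two elements: in the isometry group of the plus-type form Σ xᵢyᵢ when k is odd, and in that of the minus-type form Σ xᵢyᵢ + (z₁² + z₁z₂ + z₂²) when k is even (through its action on even partitions of a (4k+4)-set, with the form 'half the size of a part, modulo 2'). -/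
theorem result (k : ℕ) (hk : 1 ≤ k) :
    (Odd k → ∃ φ : Equiv.Perm (Fin (4 * k + 4)) →* ↥(Cfsg.isometryGroup (ZMod 2) (Cfsg.quadFormPlus (2 * k + 1) (ZMod 2))), Function.Injective φ) ∧
    (Even k → ∃ φ : Equiv.Perm (Fin (4 * k + 4)) →* ↥(Cfsg.isometryGroup (ZMod 2) (Cfsg.quadFormMinus (2 * k) (ZMod 2) 1 1)), Function.Injective φ) := by
  classical
  obtain ⟨ρ, hρ⟩ := quad_exists_perm_succ (n := 4 * k + 3) (by omega) (by omega)
  have hnd := quad_evenForm_nondeg (ι := Fin (4 * k + 3)) (by rw [Fintype.card_fin]; exact ⟨2 * k + 1, by ring⟩)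
  have hdim : Module.finrank (ZMod 2) (quad_even (Fin (4 * k + 3))) = 2 * (2 * k + 1) := by
    have := quad_finrank_even (ι := Fin (4 * k + 3))
    rw [Fintype.card_fin] at this
    omega
  have hG : quad_gauss (quad_evenForm (Fin (4 * k + 3))) = (-4) ^ k * (-2) := by
    rw [quad_gauss_evenForm, Fintype.card_fin, quad_re_one_add_pow]; rfl
  refine ⟨fun h => ?_, fun h => ?_⟩
  · obtain ⟨g, hg⟩ := quad_plus_of_gauss_pos hnd (by omega) hdim (by
      rw [hG, h.neg_pow]; have : (0 : ℤ) < 4 ^ k := by positivity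
      linarith)
    let e := (OG.congr (Q' := quad_plus (2 * k + 1) (ZMod 2)) g hg).trans (omatEquiv _).symm
    exact ⟨e.toMonoidHom.comp ρ, e.injective.comp hρ⟩
  · obtain ⟨g, hg⟩ := quad_minus_of_gauss_neg hnd (by omega) hdim (by
      rw [hG, h.neg_pow]; have : (0 : ℤ) < 4 ^ k := by positivity
      linarith)
    let e := (OG.congr (Q' := quad_minus (2 * k) (ZMod 2) 1 1) g hg).trans (omatEquiv _).symm
    exact ⟨e.toMonoidHom.comp ρ, e.injective.comp hρ⟩

end Cfsg.Agent.S2563
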