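import Mathlib
import Cfsg.Statements.S0825
import Cfsg.Agent.S2563
import Cfsg.Agent.S0287
import Cfsg.Agent.Cl.Transport

set_option autoImplicit false
open Cfsg

namespace Cfsg.Agent.S0825

open Cfsg.Agent.Cl


/-- O⁺_6(2) ≅ S_8: the isometry group of the hyperbolic form x_1y_1 + x_2y_2 + x_3y_3 over the field with 2 elements is isomorphic to the symmetric group on 8 letters. -/
theorem result {F : Type*} [Field F] [Fintype F] (hF : Fintype.card F = 2) : Nonempty (↥(Cfsg.isometryGroup F (Cfsg.quadFormPlus 3 F)) ≃* Equiv.Perm (Fin 8)) := by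
  obtain ⟨σ⟩ := nonempty_ringEquiv_zmod (F := F) 2 hF
  obtain ⟨φ, hφ⟩ := (S2563.result 1 le_rfl).1 odd_one
  have h1 := S0287.result (ZMod.card 2) 3 (by norm_num)
  have hb : Function.Bijective φ := (Nat.bijective_iff_injective_and_card φ).2 ⟨hφ, by
    rw [h1, Nat.card_perm, Nat.card_fin]; rfl⟩
  exact ⟨(isometryGroupMapEquiv σ (quadFormPlus_comp 3 σ)).trans (MulEquiv.ofBijective φ hb).symm⟩

end Cfsg.Agent.S0825
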