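import Mathlib
import Cfsg.Statements.S0828
import Cfsg.Agent.Cl.SpOrder
-- import your own Cfsg.Agent.* helpers here

set_option autoImplicit false
open Cfsg

namespace Cfsg.Agent.S0828

/-- The symplectic generalised quadrangle over a field with q elements: the number of 2-dimensional subspaces of F^4 on which the symplectic form vanishes is (q + 1)(q² + 1), and every non-zero vector lies in exactly q + 1 of them. -/
theorem result {F : Type*} [Field F] [Fintype F] {q : ℕ} (hF : Fintype.card F = q) : Nat.card {W : Submodule F (Fin 2 ⊕ Fin 2 → F) // Module.finrank F W = 2 ∧ ∀ u ∈ W, ∀ v ∈ W, Cfsg.sympForm 2 F u v = 0} = (q + 1) * (q ^ 2 + 1) ∧ ∀ v : Fin 2 ⊕ Fin 2 → F, v ≠ 0 → Nat.card {W : Submodule F (Fin 2 ⊕ Fin 2 → F) // Module.finrank F W = 2 ∧ v ∈ W ∧ ∀ u ∈ W, ∀ w ∈ W, Cfsg.sympForm 2 F u w = 0} = q + 1 := by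
  have hq : Nat.card F = q := by rw [Nat.card_eq_fintype_card, hF]
  have hq1 : 1 < q := hF ▸ Fintype.one_lt_card
  obtain ⟨r, rfl⟩ : ∃ r, q = r + 1 := ⟨q - 1, by omega⟩
  have hr : 0 < r := by omega
  constructor
  · have h := Cl.sp_card_isoSubspaces_mul (Cl.spB_nondegenerate (m := 2) (R := F)) Cl.spB_isAlt 2
    simp only [Cl.spB_apply, Cl.sp_finrank_std, hq, Fin.prod_univ_two, Finset.prod_range_succ,
      Finset.prod_range_zero, Fin.val_zero, Fin.val_one] at h
    have e1 : (r + 1) ^ 2 - (r + 1) ^ 0 = r * (r + 2) := by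
      apply Nat.sub_eq_of_eq_add; ring
    have e2 : (r + 1) ^ 2 - (r + 1) ^ 1 = r * (r + 1) := by
      apply Nat.sub_eq_of_eq_add; ring
    have e3 : (r + 1) ^ (2 * 2 - 0) - (r + 1) ^ 0 = r * (r + 2) * ((r + 1) ^ 2 + 1) := by
      apply Nat.sub_eq_of_eq_add; ring
    have e4 : (r + 1) ^ (2 * 2 - 1) - (r + 1) ^ 1 = r * (r + 1) * (r + 2) := by
      apply Nat.sub_eq_of_eq_add; ring
    rw [e1, e2, e3, e4] at h
    apply Nat.eq_of_mul_eq_mul_right (m := r * (r + 2) * (r * (r + 1))) (by positivity)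
    rw [h]; ring
  · intro v hv
    let L : Submodule F (Fin 2 ⊕ Fin 2 → F) := Submodule.span F {v}
    have hL : Module.finrank F L = 1 := finrank_span_singleton hv
    have hvL : v ∈ L := Submodule.mem_span_singleton_self v
    have hperp : ∀ w, w ∈ (Cl.spB 2 F).orthogonal L ↔ Cl.spB 2 F v w = 0 := fun w => by
      have := Cl.sp_mem_orthogonal_span (B := Cl.spB 2 F) (v := fun _ : Unit => v) (x := w)
      simpa [L] using this
    have hLle : L ≤ (Cl.spB 2 F).orthogonal L := by
      rw [Submodule.span_le, Set.singleton_subset_iff, SetLike.mem_coe, hperp]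
      exact Cl.spB_isAlt v
    let T := {W : Submodule F (Fin 2 ⊕ Fin 2 → F) // Module.finrank F W = 2 ∧ v ∈ W ∧
      ∀ u ∈ W, ∀ w ∈ W, Cfsg.sympForm 2 F u w = 0}
    have hli : ∀ w, w ∉ L → LinearIndependent F ![v, w] := fun w hw => by
      rw [LinearIndependent.pair_iff' hv]
      rintro a rfl
      exact hw (Submodule.smul_mem _ _ hvL)
    let e : ↥(((Cl.spB 2 F).orthogonal L : Set (Fin 2 ⊕ Fin 2 → F)) \ L) ≃
        Σ W : T, ↥((W.1 : Set (Fin 2 ⊕ Fin 2 → F)) \ L) :=
      { toFun := fun w => ⟨⟨Submodule.span F (Set.range ![v, w.1]), by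
            rw [finrank_span_eq_card (hli w w.2.2)]; simp, Submodule.subset_span ⟨0, rfl⟩,
            fun x hx y hy => by
              rw [← Cl.spB_apply]
              refine Cl.sp_span_isotropic (fun i j => ?_) x hx y hy
              have h1 := (hperp w).1 w.2.1
              have h2 : Cl.spB 2 F w v = 0 := by rw [← Cl.spB_isAlt.neg_eq, h1, neg_zero]
              fin_cases i <;> fin_cases j <;> simp [h1, h2, Cl.spB_isAlt.self_eq_zero]⟩,
          ⟨w.1, Submodule.subset_span ⟨1, rfl⟩, w.2.2⟩⟩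
        invFun := fun s => ⟨s.2.1, (hperp _).2 (by
          rw [Cl.spB_apply]; exact s.1.2.2.2 _ s.1.2.2.1 _ s.2.2.1), s.2.2.2⟩
        left_inv := fun _ => rfl
        right_inv := by
          rintro ⟨⟨W, hW, hvW, hW'⟩, w, hw, hw'⟩
          have : Submodule.span F (Set.range ![v, w]) = W := by
            apply Submodule.eq_of_le_of_finrank_eq
            · rw [Submodule.span_le]
              rintro _ ⟨i, rfl⟩
              fin_cases i
              · exact hvW
              · exact hw
            · rw [finrank_span_eq_card (hli w hw'), hW]; simp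
          subst this
          rfl }
    have := Fintype.ofFinite T
    have h1 := Nat.card_congr e
    rw [Nat.card_sigma, Nat.card_coe_set_eq, Cl.sp_ncard_diff hLle,
      LinearMap.BilinForm.finrank_orthogonal Cl.spB_nondegenerate, Cl.sp_finrank_std, hL, hq,
      Finset.sum_congr rfl (g := fun _ => r * (r + 1)) fun W _ => by
        rw [Nat.card_coe_set_eq, Cl.sp_ncard_diff (show L ≤ W.1 by
          rw [Submodule.span_le, Set.singleton_subset_iff]; exact W.2.2.1), W.2.1, hL, hq]
        apply Nat.sub_eq_of_eq_add; ring] at h1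
    have e4 : (r + 1) ^ (2 * 2 - 1) - (r + 1) ^ 1 = (r + 1 + 1) * (r * (r + 1)) := by
      apply Nat.sub_eq_of_eq_add; ring
    rw [e4, Finset.sum_const, Finset.card_univ, smul_eq_mul, ← Nat.card_eq_fintype_card] at h1
    exact (Nat.eq_of_mul_eq_mul_right (by positivity) h1).symm

end Cfsg.Agent.S0828
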