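import Mathlib
import Cfsg.Statements.S0830
import Cfsg.Agent.Cl.UOrder

set_option autoImplicit false
open Cfsg

namespace Cfsg.Agent.S0830

/-- The unitary quadrangle of PSU_5(q): with |F| = q², the number of 2-dimensional subspaces of F^5 on which the Hermitian form vanishes is (q³ + 1)(q⁵ + 1). -/
theorem result {F : Type*} [Field F] [Fintype F] {q : ℕ} (hF : Fintype.card F = q ^ 2) : Nat.card {W : Submodule F (Fin 5 → F) // Module.finrank F W = 2 ∧ ∀ u ∈ W, ∀ v ∈ W, Cfsg.hermForm 5 F q u v = 0} = (q ^ 3 + 1) * (q ^ 5 + 1) := by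
  obtain ⟨σ, hσ⟩ := Cl.exists_uField hF
  have hB := hσ.isHerm_uStd (Fin 5)
  obtain ⟨W, h1, h2⟩ := hB.exists_isotropic_subspace hσ 2 (by simp)
  have h3 := hB.card_isotropic_subspaces hσ h2 (m := 1) h1 (Module.finrank_fin_fun F)
  have e : Nat.card {W : Submodule F (Fin 5 → F) // Module.finrank F W = 2 ∧
      ∀ u ∈ W, ∀ v ∈ W, Cfsg.hermForm 5 F q u v = 0} =
      Nat.card {X : Submodule F (Fin 5 → F) // Module.finrank F X = 2 ∧
        X ≤ Cl.uPerp (Cl.uStd σ (Fin 5)) X} := by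
    simp only [hσ.hermForm_eq]
    exact Nat.card_congr (Equiv.subtypeEquivRight fun X => and_congr_right fun _ =>
      ⟨fun h v hv u hu => h u hu v hv, fun h u hu v hv => h hv u hu⟩)
  rw [e]
  have hq := hσ.two_le
  have p1 : 1 < q ^ 2 := Nat.one_lt_pow (by omega) hq
  have p2 : 1 < (q ^ 2) ^ 2 := Nat.one_lt_pow (by omega) p1
  have p3 : q ^ 2 < (q ^ 2) ^ 2 := by nlinarith
  have p4 : 1 ≤ q ^ 4 := Nat.one_le_pow _ _ (by omega)
  apply Nat.eq_of_mul_eq_mul_right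
    (m := q ^ 8 * (((q ^ 2) ^ 2 - 1) * ((q ^ 2) ^ 2 - q ^ 2)) * (q + 1))
    (Nat.mul_pos (Nat.mul_pos (by positivity) (Nat.mul_pos (by omega) (by omega))) (by omega))
  simp [Cl.uOrd, Finset.prod_range_succ, show ¬ Even 3 by decide, show Even 4 by decide] at h3
  rw [h3]
  zify [p1.le, p2.le, p3.le, p4]
  ring

end Cfsg.Agent.S0830
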