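import Mathlib
import Cfsg.Statements.S0831
import Cfsg.Agent.Cl.OrthForms

set_option autoImplicit false
open Cfsg

namespace Cfsg.Agent.S0831

open Cfsg.Agent.Cl

/-- The two families of maximal totally singular subspaces of the hyperbolic quadric: for the form Σ x_i y_i on F^(2m), m ≥ 1, and m-dimensional subspaces U, W, X on which it vanishes, the parities of m − dim(U ∩ W), m − dim(W ∩ X) and m − dim(U ∩ X) sum to an even number (so 'even codimension of the intersection' is an equivalence relation), and there exist two such subspaces meeting in codimension 1 (so there are exactly two classes). -/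
theorem result {F : Type*} [Field F] (m : ℕ) (hm : 1 ≤ m) : (∀ U W X : Submodule F (Fin m ⊕ Fin m → F), (Module.finrank F U = m ∧ ∀ w ∈ U, Cfsg.quadFormPlus m F w = 0) → (Module.finrank F W = m ∧ ∀ w ∈ W, Cfsg.quadFormPlus m F w = 0) → (Module.finrank F X = m ∧ ∀ w ∈ X, Cfsg.quadFormPlus m F w = 0) → Even ((m - Module.finrank F ↥(U ⊓ W)) + (m - Module.finrank F ↥(W ⊓ X)) + (m - Module.finrank F ↥(U ⊓ X)))) ∧ ∃ U W : Submodule F (Fin m ⊕ Fin m → F), (Module.finrank F U = m ∧ ∀ w ∈ U, Cfsg.quadFormPlus m F w = 0) ∧ (Module.finrank F W = m ∧ ∀ w ∈ W, Cfsg.quadFormPlus m F w = 0) ∧ Module.finrank F ↥(U ⊓ W) + 1 = m := by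
  refine ⟨fun U W X hU hW hX => ?_, ?_⟩
  · have := o_parity_three (Q := quad_plus m F) quad_plus_nondeg hU.2 hW.2 hX.2
      (by rw [hU.1, o_finrank_plus]) (by rw [hW.1, o_finrank_plus]) (by rw [hX.1, o_finrank_plus])
    have h1 := Submodule.finrank_mono (inf_le_left : U ⊓ W ≤ U)
    have h2 := Submodule.finrank_mono (inf_le_left : W ⊓ X ≤ W)
    have h3 := Submodule.finrank_mono (inf_le_left : U ⊓ X ≤ U)
    rw [hU.1] at this h1 h3
    rw [hW.1] at h2
    rw [Nat.even_iff] at this ⊢
    omega
  · obtain ⟨W, hW, hWd⟩ := quad_plus_exists_singular (F := F) m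
    obtain ⟨s, hs⟩ := exists_linearIndependent_of_le_finrank (R := F) (M := W) (n := m - 1)
      (by omega)
    have hs' := hs.map' W.subtype W.ker_subtype
    set U := Submodule.span F (Set.range (W.subtype ∘ s))
    have hUd : Module.finrank F U = m - 1 := (finrank_span_eq_card hs').trans (by simp)
    have hU : ∀ u ∈ U, quad_plus m F u = 0 := fun u hu => hW u (by
      refine (Submodule.span_le.2 ?_) hu
      rintro _ ⟨i, rfl⟩
      exact (s i).2)
    obtain ⟨x, y, hx, hy, hxy, hxU, hyU⟩ := o_exists_pair_over (Q := quad_plus m F)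
      quad_plus_nondeg (U := U) hW (by omega)
    have hxU' : x ∉ U := fun h => by simpa [hxy] using hyU x h
    have hyU' : y ∉ U := fun h => by
      simpa [hxy, QuadraticMap.polar_comm (quad_plus m F) y x] using hxU y h
    refine ⟨_, _, ⟨?_, o_singular_sup_span hU hx hxU⟩, ⟨?_, o_singular_sup_span hU hy hyU⟩, ?_⟩
    · rw [Submodule.finrank_sup_span_singleton hxU']; omega
    · rw [Submodule.finrank_sup_span_singleton hyU']; omega
    · rw [o_inf_sup_span hU hy hxy hyU]; omega

end Cfsg.Agent.S0831
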