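import Mathlib
import Cfsg.Statements.S0833
import Cfsg.Agent.Cl.SpForm
-- import your own Cfsg.Agent.* helpers here

set_option autoImplicit false
open Cfsg

namespace Cfsg.Agent.S0833

/-- If B₁, B₂ are non-degenerate alternating forms on U (dim 2k) and W (dim 2l), then B₁ ⊗ B₂ on U ⊗ W is symmetric, non-degenerate, and vanishes identically on some subspace of dimension 2kl (half of dim U ⊗ W). -/
theorem result {F U W : Type*} [Field F] [Fintype F] [AddCommGroup U] [Module F U] [FiniteDimensional F U] [AddCommGroup W] [Module F W] [FiniteDimensional F W] (B₁ : LinearMap.BilinForm F U) (B₂ : LinearMap.BilinForm F W) (h₁ : B₁.Nondegenerate) (h₂ : B₂.Nondegenerate) (hA₁ : B₁.IsAlt) (hA₂ : B₂.IsAlt) (k l : ℕ) (hU : Module.finrank F U = 2 * k) (hW : Module.finrank F W = 2 * l) : (B₁.tmul B₂).IsSymm ∧ (B₁.tmul B₂).Nondegenerate ∧ (∃ X : Submodule F (TensorProduct F U W), Module.finrank F X = 2 * k * l ∧ ∀ x ∈ X, ∀ y ∈ X, (B₁.tmul B₂) x y = 0) := by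
  refine ⟨⟨fun x y => ?_⟩, ?_, ?_⟩
  · simp only [RingHom.id_apply]
    induction x using TensorProduct.induction_on with
    | zero => simp
    | add x x' hx hx' => simp [hx, hx']
    | tmul u w =>
      induction y using TensorProduct.induction_on with
      | zero => simp
      | add y y' hy hy' => simp [hy, hy']
      | tmul u' w' =>
        simp only [LinearMap.BilinForm.tensorDistrib_tmul, LinearMap.BilinForm.tmul, smul_eq_mul]
        rw [← hA₁.neg_eq, ← hA₂.neg_eq]; ring
  · classical
    let b₁ := Module.finBasis F U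
    let b₂ := Module.finBasis F W
    refine (LinearMap.BilinForm.nondegenerate_iff_det_ne_zero (b₁.tensorProduct b₂)).2 ?_
    have : LinearMap.BilinForm.toMatrix (b₁.tensorProduct b₂) (B₁.tmul B₂) =
        Matrix.kroneckerMap (· * ·) (LinearMap.BilinForm.toMatrix b₁ B₁)
          (LinearMap.BilinForm.toMatrix b₂ B₂) := by
      ext ⟨i, j⟩ ⟨i', j'⟩
      simp [LinearMap.BilinForm.tmul, mul_comm]
    rw [this, Matrix.det_kronecker]
    exact mul_ne_zero (pow_ne_zero _ ((LinearMap.BilinForm.nondegenerate_iff_det_ne_zero b₁).1 h₁))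
      (pow_ne_zero _ ((LinearMap.BilinForm.nondegenerate_iff_det_ne_zero b₂).1 h₂))
  · obtain ⟨L, -, hL⟩ := Cl.sp_exists_lagrangian hA₁ ⊥ (by simp)
    have hLk : Module.finrank F L = k := by
      have := Cl.sp_finrank_of_lagrangian h₁ hL
      omega
    have hLL : ∀ u v : L, B₁ u v = 0 := fun u v => by
      have : (v : U) ∈ B₁.orthogonal L := by rw [hL]; exact v.2
      exact this u u.2
    have hinj : Function.Injective (L.subtype.rTensor W) :=
      Module.Flat.rTensor_preserves_injective_linearMap _ L.injective_subtype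
    refine ⟨LinearMap.range (L.subtype.rTensor W), ?_, ?_⟩
    · rw [LinearMap.finrank_range_of_inj hinj, Module.finrank_tensorProduct, hLk, hW]; ring
    · rintro _ ⟨x, rfl⟩ _ ⟨y, rfl⟩
      induction x using TensorProduct.induction_on with
      | zero => simp
      | add x x' hx hx' => simp [hx, hx']
      | tmul u w =>
        induction y using TensorProduct.induction_on with
        | zero => simp
        | add y y' hy hy' => rw [map_add, map_add, hy, hy', add_zero]
        | tmul u' w' => simp [LinearMap.BilinForm.tmul, hLL]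

end Cfsg.Agent.S0833
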