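import Mathlib
import Cfsg.Statements.S0835
import Cfsg.Agent.Cl.OrthForms

set_option autoImplicit false
open Cfsg

namespace Cfsg.Agent.S0835

open Cfsg.Agent.Cl

/-- Over a finite field with 2 ≠ 0: if B₁ on U (dim 2k, k ≥ 1) is non-degenerate symmetric of minus type (no totally isotropic k-subspace) and B₂ on W (dim 2l + 1) is non-degenerate symmetric, then B₁ ⊗ B₂ (dimension 2k(2l+1)) admits no totally isotropic subspace of dimension k(2l+1) (minus type). -/
theorem result {F U W : Type*} [Field F] [Fintype F] [AddCommGroup U] [Module F U] [FiniteDimensional F U] [AddCommGroup W] [Module F W] [FiniteDimensional F W] (h2 : (2 : F) ≠ 0) (B₁ : LinearMap.BilinForm F U) (B₂ : LinearMap.BilinForm F W) (h₁ : B₁.Nondegenerate) (h₂ : B₂.Nondegenerate) (hS₁ : B₁.IsSymm) (hS₂ : B₂.IsSymm) (k l : ℕ) (hk : 1 ≤ k) (hU : Module.finrank F U = 2 * k) (hW : Module.finrank F W = 2 * l + 1) (hm₁ : ¬ (∃ X : Submodule F (U), Module.finrank F X = k ∧ ∀ x ∈ X, ∀ y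 ∈ X, (B₁) x y = 0)) : ¬ (∃ X : Submodule F (TensorProduct F U W), Module.finrank F X = k * (2 * l + 1) ∧ ∀ x ∈ X, ∀ y ∈ X, (B₁.tmul B₂) x y = 0) := by
  obtain ⟨b, hb, hb0⟩ := o_exists_orth_basis_bilin h2 hS₁ h₁
  obtain ⟨c, hc, hc0⟩ := o_exists_orth_basis_bilin h2 hS₂ h₂
  rw [o_exists_isotropic_iff_orth h2 hS₁ hU b hb hb0] at hm₁
  rw [o_exists_isotropic_iff_orth h2 (LinearMap.BilinForm.isSymm_iff.2 (LinearMap.IsSymm.tmul
    (LinearMap.BilinForm.isSymm_iff.1 hS₁) (LinearMap.BilinForm.isSymm_iff.1 hS₂)))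
    (by rw [Module.finrank_tensorProduct, hU, hW]; ring)
    (b.tensorProduct c) (fun i j h => ?_) fun i => ?_]
  · simp only [Module.Basis.tensorProduct_apply', LinearMap.BilinForm.tensorDistrib_tmul,
      smul_eq_mul, Fintype.prod_prod_type, Finset.prod_mul_distrib, Finset.prod_const,
      Finset.card_univ, Fintype.card_fin, Finset.prod_pow]
    intro h
    apply hm₁
    have hP : ∏ i, B₁ (b i) (b i) ≠ 0 := Finset.prod_ne_zero_iff.2 fun i _ => hb0 i
    have hR : ∏ i, B₂ (c i) (c i) ≠ 0 := Finset.prod_ne_zero_iff.2 fun i _ => hc0 i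
    generalize ∏ i, B₁ (b i) (b i) = P at h hP ⊢
    generalize ∏ i, B₂ (c i) (c i) = R at h hR
    rw [hU, hW] at h
    rw [← quad_isSquare_sq_mul (s := R ^ k * ((-1) ^ k * P) ^ l) (by simp [hP, hR])]
    convert h using 1
    ring
  · simp only [Module.Basis.tensorProduct_apply', LinearMap.BilinForm.tensorDistrib_tmul,
      smul_eq_mul, mul_eq_zero]
    by_cases h1 : i.1 = j.1
    · exact Or.inl (hc _ _ fun h' => h (Prod.ext h1 h'))
    · exact Or.inr (hb _ _ h1)
  · simp [Module.Basis.tensorProduct_apply', hb0, hc0]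

end Cfsg.Agent.S0835
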