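import Mathlib
import Cfsg.Statements.S0839
import Cfsg.Agent.Cl.LinearTransv

set_option autoImplicit false
open Cfsg

namespace Cfsg.Agent.S0839

/-- Every transvection t ∈ SL_(n+2)(F) (rank(t − 1) = 1, (t − 1)² = 0) is conjugate in SL_(n+2)(F) to 1 + v·e_0ᵀ for some column vector v with v_0 = 0 (the group A of matrices that are the identity except in the first column below the diagonal); the dimension is written n + 2 ≥ 2. -/
theorem result {F : Type*} [Field F] (n : ℕ) (t : Matrix.SpecialLinearGroup (Fin (n + 2)) F) (ht : Cfsg.IsTransvection (t : Matrix (Fin (n + 2)) (Fin (n + 2)) F)) : ∃ (g : Matrix.SpecialLinearGroup (Fin (n + 2)) F) (v : Fin (n + 2) → F), v 0 = 0 ∧ ((g⁻¹ * t * g : Matrix.SpecialLinearGroup (Fin (n + 2)) F) : Matrix (Fin (n + 2)) (Fin (n + 2)) F) = 1 + Matrix.vecMulVec v (Pi.single 0 1) := by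
  obtain ⟨a, φ, ha, hφ, h, rfl⟩ := (Cl.isTransvection_iff_tv t).1 ht
  obtain ⟨p, hp⟩ := Cl.exists_gl_vecMul_eq_single hφ (0 : Fin (n + 2))
  obtain ⟨s, hs⟩ : ∃ s : Matrix.SpecialLinearGroup (Fin (n + 2)) F, 
      (s : Matrix (Fin (n + 2)) (Fin (n + 2)) F) = (p : Matrix (Fin (n + 2)) (Fin (n + 2)) F) *
        (Cl.diagGL (Function.update 1 (1 : Fin (n + 2)) (Matrix.GeneralLinearGroup.det p)⁻¹) :
          Matrix (Fin (n + 2)) (Fin (n + 2)) F) :=
    ⟨⟨_, by
      rw [← Units.val_mul, ← Matrix.GeneralLinearGroup.val_det_apply, map_mul, Cl.det_diagGL_update,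
        mul_inv_cancel, Units.val_one]⟩, rfl⟩
  have h1 : Matrix.vecMul φ (s : Matrix (Fin (n + 2)) (Fin (n + 2)) F) = Pi.single 0 1 := by
    rw [hs, ← Matrix.vecMul_vecMul, hp, Cl.coe_diagGL, Matrix.single_vecMul_diagonal]
    simp
  have h2 := Cl.sl_dot_conj s⁻¹ φ a
  have h3 := Cl.tv_conj s⁻¹ a φ
  rw [inv_inv, h1] at h2 h3
  rw [h] at h2
  refine ⟨s, _, by simpa using h2, ?_⟩
  rw [h3, Cl.coe_tv h2]
  rfl

end Cfsg.Agent.S0839
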