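import Mathlib
import Cfsg.Agent.GT.PGroupIso
import Cfsg.Statements.S0841
-- import your own Cfsg.Agent.* helpers here

set_option autoImplicit false
open Cfsg

namespace Cfsg.Agent.S0841

/-- If the commutator subgroup of G lies in the centre, then for all x, y in G and every natural number n one has (x * y) ^ n = x ^ n * y ^ n * c ^ (n * (n - 1) / 2) with c = y⁻¹ * x⁻¹ * y * x. -/
theorem result {G : Type*} [Group G] (hG : commutator G ≤ Subgroup.center G) (x y : G) (n : ℕ) : (x * y) ^ n = x ^ n * y ^ n * (y⁻¹ * x⁻¹ * y * x) ^ (n * (n - 1) / 2) := by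
  rw [← Nat.choose_two_right]
  have hc : y⁻¹ * x⁻¹ * y * x ∈ Subgroup.center G := by
    simpa [commutatorElement_def] using GT.PG.commutator_mem_center hG y⁻¹ x⁻¹
  exact GT.PG.mul_pow_eq_of_swap (by group) (GT.PG.commute_of_mem_center hc x).symm
    (GT.PG.commute_of_mem_center hc y).symm n

end Cfsg.Agent.S0841
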