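import Mathlib
import Cfsg.Statements.S0842
import Cfsg.Agent.Ch.QuatSylow

set_option autoImplicit false
open Cfsg

namespace Cfsg.Agent.S0842

/-- Suppose a Sylow 2-subgroup S of the finite group G is generalized quaternion of order at least 16, and let D be the commutator subgroup of S, C its centralizer and N its normalizer in G. Then there is a subgroup K of odd order, contained in C and normalized by N, with K ⊔ S = N and K ⊔ (S ⊓ C) = C, and C has index 2 in N. -/
theorem result {G : Type*} [Group G] [Finite G] (S : Sylow 2 G) (n : ℕ) (e : (S : Subgroup G) ≃* QuaternionGroup (2 ^ (n + 2))) (D : Subgroup G) (hD : D = ⁅(S : Subgroup G), (S : Subgroup G)⁆) : ∃ K : Subgroup G, Odd (Nat.card K) ∧ K ≤ Subgroup.centralizer (D : Set G) ∧ Subgroup.normalizer (D : Set G) ≤ Subgroup.normalizer (K : Set G) ∧ K ⊔ (S : Subgroup G) = Subgroup.normalizer (D : Set G) ∧ K ⊔ ((S : Subgroup G) ⊓ Subgroup.centralizer (D : Set G)) = Subgroup.centralizer (D : Set G) ∧ ((Subgroup.centralizer (D : Set G)).subgroupOf (Subgroup.normalizer (D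 : Set G))).index = 2 := by
  obtain ⟨x, y, h⟩ := Ch.Quat.exists_qdata _ n e
  rw [h.commutator_eq] at hD
  subst hD
  obtain ⟨K, hKC, hKodd, hK, hdec⟩ := h.exists_K
  have hCK : K ⊔ Subgroup.zpowers x = Subgroup.centralizer (Subgroup.zpowers (x ^ 2) : Set G) := by
    refine le_antisymm (sup_le hKC h.zpowers_le_centralizer) fun c hc => ?_
    obtain ⟨k, hk, t, ht, rfl⟩ := hdec c hc
    exact Subgroup.mul_mem_sup hk ht
  refine ⟨K, hKodd, hKC, ?_, ?_, ?_, h.index_centralizer⟩
  · intro g hg
    rw [Subgroup.mem_normalizer_iff]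
    intro k
    rw [hK, hK, show g * k * g⁻¹ = MulAut.conj g k from rfl, MulEquiv.orderOf_eq]
    exact and_congr_left' (Subgroup.mem_normalizer_iff.mp
      (Ch.Quat.normalizer_le_normalizer_centralizer _ hg) k)
  · refine le_antisymm (sup_le (hKC.trans (Subgroup.centralizer_le_normalizer _))
      h.le_normalizer_sq) fun g hg => ?_
    have hle : Subgroup.centralizer (Subgroup.zpowers (x ^ 2) : Set G) ≤ K ⊔ (S : Subgroup G) := by
      rw [← hCK]; exact sup_le_sup_left h.zpowers_le _
    rcases h.normalizer_cases hg with h1 | h1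
    · exact hle h1
    · have := Subgroup.mul_mem _ (hle h1) (Subgroup.mem_sup_right h.y_mem)
      simpa using this
  · rw [h.inf_centralizer, hCK]

end Cfsg.Agent.S0842
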