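import Mathlib
import Cfsg.Statements.S0846
import Cfsg.Agent.Ch.BrauerSuzuki16

set_option autoImplicit false
open Cfsg

namespace Cfsg.Agent.S0846

/-- Suppose a Sylow 2-subgroup S of the finite group G is generalized quaternion of order at least 16. Then every Sylow 2-subgroup of the subgroup generated by the involutions of G is cyclic. -/
theorem result {G : Type*} [Group G] [Finite G] (S : Sylow 2 G) (n : ℕ) (e : (S : Subgroup G) ≃* QuaternionGroup (2 ^ (n + 2))) (Q : Sylow 2 ↥(Subgroup.closure {g : G | orderOf g = 2})) : IsCyclic Q := by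
  let T := Subgroup.closure {g : G | orderOf g = 2}
  obtain ⟨R, hR⟩ := (Q.isPGroup'.map T.subtype).exists_le_sylow
  obtain ⟨x, y, h⟩ := Ch.Quat.exists_qdata _ n ((R.equiv S).trans e)
  have hle : (Q : Subgroup T).map T.subtype ≤ Subgroup.zpowers x := fun s hs =>
    h.mem_zpowers_of_mem_closure (hR hs) (Subgroup.map_subtype_le _ hs)
  have := Subgroup.isCyclic_of_le hle
  exact isCyclic_of_surjective _
    ((Q : Subgroup T).equivMapOfInjective T.subtype T.subtype_injective).symm.surjective

end Cfsg.Agent.S0846
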