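import Mathlib
import Cfsg.Statements.S0849
import Cfsg.Agent.Ch.TIPairs

set_option autoImplicit false
open Cfsg

namespace Cfsg.Agent.S0849

/-- Let H be a subgroup of a finite group G and S a subset of H that is mapped to itself under conjugation by H, is disjoint from its conjugate by any element outside H, and is closed under inverses. Let φ be a class function of H vanishing on H away from S, and let u, v be involutions of G. Then the sum of the induced function of φ over all products a * b with a conjugate to u and b conjugate to v equals the index of H times the sum of φ (a * b) over such pairs with a and b in H. -/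
theorem result {G : Type*} [Group G] [Fintype G] (H : Subgroup G) (S : Set G) (hSH : S ⊆ H) (hHS : ∀ h ∈ H, ∀ s ∈ S, h * s * h⁻¹ ∈ S) (hTI : ∀ g : G, g ∉ H → ∀ s ∈ S, g * s * g⁻¹ ∉ S) (hinv : ∀ s ∈ S, s⁻¹ ∈ S) (φ : H → ℂ) (hφ : Cfsg.IsClassFunction H φ) (hφS : ∀ x : H, (x : G) ∉ S → φ x = 0) (u v : G) (hu : orderOf u = 2) (hv : orderOf v = 2) : ∑ᶠ p ∈ {p : G × G | IsConj u p.1 ∧ IsConj v p.2}, Cfsg.indFun H φ (p.1 * p.2) = (H.index : ℂ) * ∑ᶠ p ∈ {p : H × H | IsConj u (p.1 : G) ∧ IsConj v (p.2 : G)}, φ (p.1 * p.2) := by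
  classical
  have := Fintype.ofFinite H
  have hc : ∀ w : G, orderOf w = 2 → ∀ a ∈ Finset.univ.filter (IsConj w), a * a = 1 := by
    intro w hw a ha
    obtain ⟨c, hc⟩ := isConj_iff.mp (Finset.mem_filter.mp ha).2
    have h2 : w * w = 1 := by rw [← pow_two, ← hw, pow_orderOf_eq_one]
    rw [← hc]
    calc c * w * c⁻¹ * (c * w * c⁻¹) = c * (w * w) * c⁻¹ := by group
      _ = 1 := by rw [h2]; group
  have hi : ∀ w : G, ∀ a ∈ Finset.univ.filter (IsConj w), ∀ x : G,
      x * a * x⁻¹ ∈ Finset.univ.filter (IsConj w) := by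
    intro w a ha x
    simp only [Finset.mem_filter, Finset.mem_univ, true_and] at ha ⊢
    exact ha.trans (isConj_iff.mpr ⟨x, rfl⟩)
  have key := Ch.TI.sum_pairs_indFun_ti S hSH hTI hinv φ hφS _ _ (hi u) (hi v) (hc u hu) (hc v hv)
  rw [← Finset.sum_product', ← Finset.sum_product'] at key
  rw [finsum_mem_eq_finite_toFinset_sum _ (Set.toFinite _),
    finsum_mem_eq_finite_toFinset_sum _ (Set.toFinite _)]
  convert key using 3
  · ext p; simp
  · ext p; simp

end Cfsg.Agent.S0849
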