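import Mathlib
import Cfsg.Statements.S0850
import Cfsg.Agent.Ch.TI

set_option autoImplicit false
open Cfsg

namespace Cfsg.Agent.S0850

/-- Let K be a subgroup of the finite group G that meets each conjugate by an element outside its normalizer N trivially, is properly contained in N, and contains the centralizer of each of its non-identity elements (a T.I. subgroup with Frobenius normalizer). Then no element of N outside K is conjugate in G to an element of K, and for every class function ϑ of N that vanishes on N away from K and at the identity, the function induced from ϑ to G agrees with ϑ on all of N. -/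
theorem result {G : Type*} [Group G] [Fintype G] (K : Subgroup G) (hTI : ∀ g : G, g ∉ Subgroup.normalizer (K : Set G) → ∀ k ∈ K, g * k * g⁻¹ ∈ K → k = 1) (hlt : K < Subgroup.normalizer (K : Set G)) (hC : ∀ k ∈ K, k ≠ 1 → Subgroup.centralizer ({k} : Set G) ≤ K) : (∀ x ∈ Subgroup.normalizer (K : Set G), x ∉ K → ∀ g : G, g * x * g⁻¹ ∉ K) ∧ ∀ (ϑ : Subgroup.normalizer (K : Set G) → ℂ), Cfsg.IsClassFunction (Subgroup.normalizer (K : Set G)) ϑ → (∀ x : Subgroup.normalizer (K : Set G), (x : G) ∉ K → ϑ x = 0) → ϑ 1 = 0 → ∀ x : Subgroup.normalizer (K : Set G), Cfsg.indFun (Subgroup.normalizer (K : Set G)) ϑ x = ϑ x := by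
  have h1 : ∀ x ∈ Subgroup.normalizer (K : Set G), x ∉ K → ∀ g : G, g * x * g⁻¹ ∉ K := by
    intro x hx hxK g hg
    apply hxK
    have hd := Ch.TI.relIndex_dvd_card_sub_one K _ Subgroup.le_normalizer le_rfl (by
      intro k hk hk1 y _ hy
      exact hC k hk hk1 (Subgroup.mem_centralizer_singleton_iff.mpr hy))
    have hcop : Nat.Coprime (Nat.card K) (K.subgroupOf (Subgroup.normalizer (K : Set G))).index := by
      refine Nat.Coprime.coprime_dvd_right hd ?_
      have : 0 < Nat.card K := Nat.card_pos
      exact (Nat.coprime_self_sub_right this).mpr (Nat.coprime_one_right _)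
    have ho : orderOf x ∣ Nat.card K := by
      have := K.orderOf_dvd_natCard hg
      rwa [show g * x * g⁻¹ = MulAut.conj g x from rfl, MulEquiv.orderOf_eq] at this
    have hn : (K.subgroupOf (Subgroup.normalizer (K : Set G))).Normal := inferInstance
    have h2 := Subgroup.pow_index_mem (K.subgroupOf (Subgroup.normalizer (K : Set G))) ⟨x, hx⟩
    rw [Subgroup.mem_subgroupOf] at h2
    simp only [SubmonoidClass.coe_pow] at h2
    have h3 : Nat.Coprime (orderOf x) (K.subgroupOf (Subgroup.normalizer (K : Set G))).index :=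
      Nat.Coprime.coprime_dvd_left ho hcop
    obtain ⟨m, hm⟩ := exists_pow_eq_self_of_coprime h3.symm
    rw [← hm]
    exact K.pow_mem h2 m
  refine ⟨h1, ?_⟩
  intro ϑ hϑ hK h0 x
  refine Ch.TI.indFun_eq_self hϑ x ?_
  intro g hg h hh
  by_contra hne
  have hhK : (h : G) ∈ K := by
    by_contra h'
    exact hne (hK h h')
  have hg' : g⁻¹ ∉ Subgroup.normalizer (K : Set G) := fun h' => hg (by simpa using inv_mem h')
  by_cases hx : (x : G) ∈ K
  · have := hTI g⁻¹ hg' x hx (by rw [inv_inv, ← hh]; exact hhK)
    apply hne
    have : h = 1 := by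
      apply Subtype.ext
      rw [hh, this]; simp
    rw [this, h0]
  · apply h1 x x.2 hx g⁻¹
    rw [inv_inv, ← hh]; exact hhK

end Cfsg.Agent.S0850
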