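import Mathlib
import Cfsg.Agent.Ch.DegThompson
import Cfsg.Statements.S0855
-- import your own Cfsg.Agent.* helpers here

set_option autoImplicit false
open Cfsg

namespace Cfsg.Agent.S0855

/-- For a finite group G and a prime p: every irreducible character of G has degree a power of p if and only if G has an abelian normal subgroup whose order is prime to p and whose index is a power of p. -/
theorem result {G : Type*} [Group G] [Finite G] (p : ℕ) (hp : p.Prime) : (∀ χ : Cfsg.IrrCharacter G, ∃ k : ℕ, (χ : G → ℂ) 1 = (p : ℂ) ^ k) ↔ ∃ A : Subgroup G, A.Normal ∧ (∀ a ∈ A, ∀ b ∈ A, a * b = b * a) ∧ Nat.Coprime (Nat.card A) p ∧ ∃ k : ℕ, A.index = p ^ k := by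
  constructor
  · intro h
    have h1 : ∀ χ : G → ℂ, IsIrrCharacter G χ → ∃ k, charDegree χ = p ^ k := fun χ hχ => by
      obtain ⟨k, hk⟩ := h ⟨χ, hχ⟩
      exact ⟨k, Ch.charDegree_of_apply_one (by rw [Nat.cast_pow]; exact hk)⟩
    obtain ⟨N, hN, hc, hk⟩ := Ch.degT_exists_normal_complement hp fun χ hχ h2 => by
      obtain ⟨k, hk⟩ := h1 χ hχ
      rcases k with _ | k
      · exact absurd hk h2
      · exact hk ▸ dvd_pow_self p k.succ_ne_zero
    refine ⟨N, hN, Ch.degT_comm_of_coprime N fun χ hχ => ?_, hc, hk⟩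
    obtain ⟨k, hk⟩ := h1 χ hχ
    exact hk ▸ hc.symm.pow_left k
  · rintro ⟨A, hA, hab, -, k, hk⟩ χ
    obtain ⟨j, -, hj⟩ := (Nat.dvd_prime_pow hp).1 (hk ▸ χ.2.charDegree_dvd_index_of_comm A hab)
    exact ⟨j, by rw [← χ.2.coe_charDegree, hj, Nat.cast_pow]⟩

end Cfsg.Agent.S0855
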