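import Mathlib
import Cfsg.Statements.S0857
import Cfsg.Agent.Ch.CliffordRel

set_option autoImplicit false
open Cfsg

namespace Cfsg.Agent.S0857

/-- Let L < K be normal subgroups of the finite group G with no normal subgroup of G strictly between them and with K / L abelian (the commutator subgroup of K lies in L). Let ϑ be an irreducible character of K invariant under conjugation by G. Then the restriction of ϑ to L is irreducible; or it equals e times an irreducible character of L with e ^ 2 equal to the index of L in K; or it is the sum of a family of pairwise distinct irreducible characters of L indexed by a set whose size is the index of L in K. -/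
theorem result {G : Type*} [Group G] [Fintype G] (K L : Subgroup G) [hK : K.Normal] [L.Normal] (hLK : L < K) (hchief : ∀ M : Subgroup G, M.Normal → L ≤ M → M ≤ K → M = L ∨ M = K) (hab : ⁅K, K⁆ ≤ L) (ϑ : K → ℂ) (hϑ : Cfsg.IsIrrCharacter K ϑ) (hinv : ∀ (g : G) (n : K), ϑ ⟨g * n * g⁻¹, hK.conj_mem (n : G) n.2 g⟩ = ϑ n) : Cfsg.IsIrrCharacter L (fun x : L => ϑ ⟨(x : G), hLK.le x.2⟩) ∨ (∃ (φ : L → ℂ) (e : ℕ), Cfsg.IsIrrCharacter L φ ∧ (fun x : L => ϑ ⟨(x : G), hLK.le x.2⟩) = (e : ℂ) • φ ∧ e ^ 2 = L.relIndex K) ∨ (∃ F : Finset (L → ℂ), (∀ φ ∈ F, Cfsg.IsIrrCharacter L φ) ∧ F.card = L.relIndex K ∧ (fun x : L => ϑ ⟨(x : G), hLK.le x.2⟩) = ∑ φ ∈ F, φ) := by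
  have := Fintype.ofFinite L
  obtain ⟨φ, hφ, h⟩ := Ch.exists_irr_under_of_le hLK.le hϑ
  rcases Ch.going_down hLK.le hchief hab hϑ (fun g => funext (hinv g)) hφ h with
    h1 | ⟨e, h1, h2⟩ | ⟨-, C, h1, h2, h3⟩
  · exact Or.inl (h1 ▸ hφ)
  · exact Or.inr (Or.inl ⟨φ, e, hφ, h1, h2⟩)
  · refine Or.inr (Or.inr ⟨C, fun ψ hψ => ?_, h2, h3⟩)
    obtain ⟨k, -, rfl⟩ := (h1 ψ).1 hψ
    exact Ch.isIrrCharacter_conjChar hφ k

end Cfsg.Agent.S0857
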