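import Mathlib
import Cfsg.Agent.Ch.SmallDegree
import Cfsg.Statements.S0861
-- import your own Cfsg.Agent.* helpers here

set_option autoImplicit false
open Cfsg

namespace Cfsg.Agent.S0861

/-- Let P be a normal abelian Sylow p-subgroup of the finite group G and suppose some element g of P has centralizer exactly P. Then the number of irreducible characters of G is at most the order of P, and if equality holds then G / P is abelian (the commutator subgroup lies in P). -/
theorem result {G : Type*} [Group G] [Finite G] (p : ℕ) [Fact p.Prime] (P : Sylow p G) [(P : Subgroup G).Normal] (hab : ∀ a ∈ P, ∀ b ∈ P, a * b = b * a) (g : G) (hg : g ∈ P) (hC : Subgroup.centralizer ({g} : Set G) = P) : Nat.card (Cfsg.IrrCharacter G) ≤ Nat.card P ∧ (Nat.card (Cfsg.IrrCharacter G) = Nat.card P → commutator G ≤ P) := by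
  have hp := (Fact.out : p.Prime)
  obtain ⟨a, ha⟩ := P.isPGroup' ⟨g, hg⟩
  have hga : g ^ p ^ a = 1 := congrArg Subtype.val ha
  have h1 := Ch.galois_card_le_sum_irr_norm_sq (G := G) Finset.univ (fun _ _ _ => Finset.mem_univ _) g
    fun χ _ => χ.isCharacter.apply_ne_zero_of_not_dvd hp hga fun hd =>
      P.not_dvd_index (hd.trans (χ.2.charDegree_dvd_index_of_comm (P : Subgroup G) hab))
  rw [Ch.sum_irr_norm_sq, hC, Finset.card_univ, ← Nat.card_eq_fintype_card] at h1
  refine ⟨by exact_mod_cast h1.1, fun he x hx => ?_⟩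
  by_contra hxP
  obtain ⟨χ, h2, h3⟩ := Ch.exists_irr_le_charKer_not_mem (P : Subgroup G) hxP
  have h4 := h1.2 (by rw [he]) χ (Finset.mem_univ _)
  rw [Ch.apply_eq_of_mem_charKer (h2 hg), χ.isCharacter.norm_apply_one] at h4
  exact h3 (χ.2.apply_one_eq_one_iff_commutator_le.1
    (χ.isCharacter.charDegree_eq_one_iff.1 (by exact_mod_cast h4)) hx)

end Cfsg.Agent.S0861
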