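import Mathlib
import Cfsg.Statements.S0862
import Cfsg.Agent.Ch.Extension

set_option autoImplicit false
set_option linter.style.haveILetI false
set_option linter.unusedVariables false
open Cfsg

namespace Cfsg.Agent.S0862

/-- Let N be a normal subgroup of the finite group G and ϑ an irreducible character of N of degree d coprime to the index of N, which is the restriction of some irreducible character of G. Let μ be a character of G of degree 1 whose restriction to N is the determinantal character of ϑ. Then there is exactly one irreducible character χ of G restricting to ϑ whose determinantal character is μ. -/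
theorem result {G : Type*} [Group G] [Finite G] (N : Subgroup G) [N.Normal] (ϑ : N → ℂ) (hϑ : Cfsg.IsIrrCharacter N ϑ) (d : ℕ) (hd : ϑ 1 = d) (hcop : Nat.Coprime N.index d) (hext : ∃ η : G → ℂ, Cfsg.IsIrrCharacter G η ∧ (∀ n : N, η n = ϑ n)) (μ : G → ℂ) (hμ : Cfsg.IsCharacter G μ ∧ μ 1 = 1) (hμN : ∀ n : N, μ n = Cfsg.detChar ϑ n) : ∃! χ : G → ℂ, Cfsg.IsIrrCharacter G χ ∧ (∀ n : N, χ n = ϑ n) ∧ Cfsg.detChar χ = μ := by
  obtain ⟨η, hη, h⟩ := hext
  obtain ⟨f, rfl⟩ := hμ.1.exists_monoidHom_of_apply_one hμ.2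
  have hc : N.index.Coprime (charDegree ϑ) := by rwa [Ch.charDegree_of_apply_one hd]
  obtain ⟨χ, h1, h2, h3⟩ := Ch.exists_extends_detChar_eq hϑ hc hη.isCharacter h f hμN
  exact ⟨χ, ⟨h1, h2, h3⟩, fun χ' h' => Ch.eq_of_extends_of_detChar_eq hϑ hc h1.isCharacter
    h'.1.isCharacter h2 h'.2.1 (h'.2.2.trans h3.symm)⟩

end Cfsg.Agent.S0862
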