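import Mathlib
import Cfsg.Statements.S0869
import Cfsg.Agent.Ch.FunRing

set_option autoImplicit false
open Cfsg

namespace Cfsg.Agent.S0869

/-- Let S be a nonempty finite type and R an additive subgroup of the integer-valued functions on S that is closed under pointwise multiplication. If the constant function 1 is not in R, then there exist a point x of S and a prime p such that p divides f x for every f in R. -/
theorem result {S : Type*} [Finite S] [Nonempty S] (R : AddSubgroup (S → ℤ)) (hmul : ∀ f ∈ R, ∀ g ∈ R, f * g ∈ R) (h1 : (1 : S → ℤ) ∉ R) : ∃ (x : S) (p : ℕ), p.Prime ∧ ∀ f ∈ R, (p : ℤ) ∣ f x := by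
  classical
  by_contra hcon
  push Not at hcon
  have := Fintype.ofFinite S
  have hone : ∀ x : S, ∃ f ∈ R, f x = 1 := by
    intro x
    let I : Ideal ℤ := (R.toIntSubmodule.map (LinearMap.proj x : (S → ℤ) →ₗ[ℤ] ℤ))
    have hI : I = ⊤ := by
      by_contra hne
      obtain ⟨M, hM, hIM⟩ := Ideal.exists_le_maximal I hne
      obtain ⟨q, hq⟩ : ∃ q : ℤ, M = Ideal.span {q} := ⟨_, (Ideal.span_singleton_generator M).symm⟩
      have hq0 : q ≠ 0 := by
        rintro rfl
        have : M = ⊥ := by simpa using hq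
        exact Int.not_isField (Ring.isField_iff_maximal_bot.mpr (this ▸ hM))
      have hqp : Prime q := (Ideal.span_singleton_prime hq0).mp (hq ▸ hM.isPrime)
      obtain ⟨f, hf, hnd⟩ := hcon x q.natAbs (Int.prime_iff_natAbs_prime.mp hqp)
      apply hnd
      rw [Int.natCast_dvd, Int.natAbs_dvd_natAbs, ← Ideal.mem_span_singleton, ← hq]
      exact hIM ⟨f, hf, rfl⟩
    have : (1 : ℤ) ∈ I := hI ▸ Submodule.mem_top
    obtain ⟨f, hf, hf1⟩ := this
    exact ⟨f, hf, hf1⟩
  choose f hf hf1 using hone
  have := Cfsg.Agent.Ch.algebraMap_prod_mem (A := ℤ) (B := ℤ) R.toIntSubmodule hmul f (fun _ => 1)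
    hf (by simpa using hf1)
  apply h1
  have h2 : (1 : S → ℤ) ∈ R.toIntSubmodule := by simpa using this
  exact h2

end Cfsg.Agent.S0869
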