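import Mathlib
import Cfsg.Statements.S0873
import Cfsg.Agent.Ch.Linear

set_option autoImplicit false
open Cfsg

namespace Cfsg.Agent.S0873

/-- Let C be a normal subgroup of the finite group G of order prime to p and P a p-subgroup with C ⊔ P = G. Let λ be a character of C of degree 1 invariant under conjugation by G and equal to 1 at every element of C centralized by P. Then λ is identically 1. -/
theorem result {G : Type*} [Group G] [Finite G] (p : ℕ) [Fact p.Prime] (C P : Subgroup G) [hC : C.Normal] (hP : IsPGroup p P) (hcop : Nat.Coprime (Nat.card C) p) (hCP : C ⊔ P = ⊤) (lam : C → ℂ) (hlam : Cfsg.IsCharacter C lam ∧ lam 1 = 1) (hinv : ∀ (g : G) (c : C), lam ⟨g * c * g⁻¹, hC.conj_mem (c : G) c.2 g⟩ = lam c) (hker : ∀ c : C, (c : G) ∈ Subgroup.centralizer (P : Set G) → lam c = 1) : lam = fun _ => 1 := by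
  obtain ⟨f, rfl⟩ := hlam.1.exists_monoidHom_of_apply_one hlam.2
  ext c
  let X := {x : C // f x = f c}
  have hinv' : ∀ (g : G) (x : C), f (MulAut.conjNormal g x) = f x := fun g x =>
    Units.ext (hinv g x)
  letI : MulAction P X :=
    { smul := fun g x => ⟨MulAut.conjNormal (g : G) x.1, (hinv' g x.1).trans x.2⟩
      one_smul := fun x => Subtype.ext (show MulAut.conjNormal ((1 : P) : G) x.1 = x.1 by simp)
      mul_smul := fun g h x => Subtype.ext
        (show MulAut.conjNormal ((g * h : P) : G) x.1 =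
          MulAut.conjNormal (g : G) (MulAut.conjNormal (h : G) x.1) by simp) }
  have hcard : Nat.card X = Nat.card f.ker := by
    refine Nat.card_congr ⟨fun x => ⟨x.1 * c⁻¹, ?_⟩, fun k => ⟨k.1 * c, ?_⟩, ?_, ?_⟩
    · rw [MonoidHom.mem_ker, map_mul, map_inv, x.2, mul_inv_cancel]
    · rw [map_mul, MonoidHom.mem_ker.1 k.2, one_mul]
    · intro x; simp
    · intro k; simp
  have hnd : ¬ p ∣ Nat.card X := by
    rw [hcard]
    intro h
    exact (Nat.Prime.coprime_iff_not_dvd Fact.out).1 hcop.symm
      (h.trans f.ker.card_subgroup_dvd_card)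
  obtain ⟨x, hx⟩ := hP.nonempty_fixed_point_of_prime_not_dvd_card X hnd
  have h1 := hker x.1 (fun g hg => by
    have h2 : g * (x.1 : G) * g⁻¹ = x.1 :=
      congrArg (fun y : X => (y.1 : G)) (hx ⟨g, hg⟩)
    rw [← mul_inv_eq_iff_eq_mul, h2])
  rw [← x.2]
  exact h1

end Cfsg.Agent.S0873
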