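import Mathlib
import Cfsg.Statements.S0874
import Cfsg.Agent.Ch.Brauer

set_option autoImplicit false
open Cfsg

namespace Cfsg.Agent.S0874

/-- For a finite group G and a prime p there are an integer m not divisible by p and a list of triples (E, φ, c), with E a p-elementary subgroup, φ a character of E and c an integer, such that the constant function m on G equals the sum of the c • (function induced from φ). -/
theorem result {G : Type*} [Group G] [Fintype G] (p : ℕ) (hp : p.Prime) : ∃ (m : ℤ) (l : List ((E : Subgroup G) × ((E → ℂ) × ℤ))), ¬ (p : ℤ) ∣ m ∧ (∀ t ∈ l, Cfsg.IsElementary p t.1 ∧ Cfsg.IsCharacter t.1 t.2.1) ∧ (fun _ : G => (m : ℂ)) = (l.map fun t => (t.2.2 : ℂ) • Cfsg.indFun t.1 t.2.1).sum := by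
  obtain ⟨m, hm, h⟩ := Cfsg.Agent.Ch.brauer_local_one (G := G) hp
  have hset : Cfsg.Agent.Ch.indSet G (fun E => IsElementary p E) =
      {g | ∃ i : (E : Subgroup G) × (E → ℂ), (IsElementary p i.1 ∧ IsCharacter i.1 i.2) ∧
        g = indFun i.1 i.2} := by
    ext g
    constructor
    · rintro ⟨E, χ, h1, h2, h3⟩
      exact ⟨⟨E, χ⟩, ⟨h1, h2⟩, h3⟩
    · rintro ⟨⟨E, χ⟩, ⟨h1, h2⟩, h3⟩
      exact ⟨E, χ, h1, h2, h3⟩
  rw [hset] at h
  obtain ⟨l, hl, e⟩ := Cfsg.Agent.Ch.exists_list_of_mem_span_int _ _ h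
  refine ⟨m, l.map fun t => ⟨t.1.1, (t.1.2, t.2)⟩, by exact_mod_cast hm, fun t ht => ?_, ?_⟩
  · obtain ⟨s, hs, rfl⟩ := List.mem_map.mp ht
    exact hl s hs
  · rw [List.map_map]
    exact e

end Cfsg.Agent.S0874
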