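import Mathlib
import Cfsg.Statements.S0875
import Cfsg.Agent.Ch.BrauerPi

set_option autoImplicit false
open Cfsg

namespace Cfsg.Agent.S0875

/-- Let G be a finite group of order m * n with m and n coprime, and g an element whose order is coprime to m. Every x in G factors uniquely as x = u * v with u, v commuting, the order of u coprime to n and the order of v coprime to m; let ϑ be the function on G equal to n at those x whose factor v is conjugate to g and equal to 0 elsewhere. Then ϑ is a linear combination of the irreducible characters of G with algebraic-integer coefficients. -/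
theorem result {G : Type*} [Group G] [Fintype G] (m n : ℕ) (hmn : Nat.card G = m * n) (hcop : Nat.Coprime m n) (g : G) (hg : Nat.Coprime (orderOf g) m) (ϑ : G → ℂ) (hϑ1 : ∀ x : G, (∃ v : G, IsConj v g ∧ (∃ u : G, x = u * v ∧ Commute u v ∧ Nat.Coprime (orderOf u) n ∧ Nat.Coprime (orderOf v) m)) → ϑ x = n) (hϑ0 : ∀ x : G, (¬ ∃ v : G, IsConj v g ∧ (∃ u : G, x = u * v ∧ Commute u v ∧ Nat.Coprime (orderOf u) n ∧ Nat.Coprime (orderOf v) m)) → ϑ x = 0) : ∃ c : Cfsg.IrrCharacter G → ℂ, (∀ χ, c χ ∈ Cfsg.AlgInt) ∧ ϑ = ∑ᶠ χ : Cfsg.IrrCharacter G, c χ • (χ : G → ℂ) := by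
  classical
  have hpow : ∀ x : G, x ^ (m * n) = 1 := fun x => by rw [← hmn, pow_card_eq_one']
  have hordm : ∀ x : G, (orderOf x).Coprime n ↔ x ^ m = 1 := fun x => by
    rw [← orderOf_dvd_iff_pow_eq_one]
    exact ⟨fun h => h.dvd_of_dvd_mul_right (orderOf_dvd_of_pow_eq_one (hpow x)),
      fun h => Nat.Coprime.coprime_dvd_left h hcop⟩
  have hordn : ∀ x : G, (orderOf x).Coprime m ↔ x ^ n = 1 := fun x => by
    rw [← orderOf_dvd_iff_pow_eq_one]
    exact ⟨fun h => h.dvd_of_dvd_mul_left (orderOf_dvd_of_pow_eq_one (hpow x)),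
      fun h => Nat.Coprime.coprime_dvd_left h hcop.symm⟩
  obtain ⟨k, hk⟩ := Ch.exists_pow_eq_snd (G := G) hcop
  have hval : ∀ x : G, ϑ x = if IsConj (x ^ k) g then (n : ℂ) else 0 := by
    intro x
    split_ifs with h
    · obtain ⟨u, v, -, -, e, hc, hu, hv⟩ := Ch.exists_coprime_parts x hcop (hpow x)
      refine hϑ1 x ⟨v, ?_, u, e, hc, (hordm u).mpr hu, (hordn v).mpr hv⟩
      rwa [e, hk u v hc hu hv] at h
    · refine hϑ0 x ?_
      rintro ⟨v, hv, u, rfl, hc, hu, hv'⟩
      apply h
      rwa [hk u v hc ((hordm u).mp hu) ((hordn v).mp hv')]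
  have hcl : IsClassFunction G ϑ := by
    intro x h
    have : IsConj ((h * x * h⁻¹) ^ k) g ↔ IsConj (x ^ k) g := by
      have h1 : IsConj (x ^ k) ((h * x * h⁻¹) ^ k) := (isConj_iff.mpr ⟨h, rfl⟩).pow k
      exact ⟨fun h2 => h1.trans h2, fun h2 => h1.symm.trans h2⟩
    simp only [hval, this]
  refine ⟨fun χ => classInner ϑ χ, fun χ => ?_, ?_⟩
  · refine Ch.classInner_mem_of_section hcop (dvd_of_eq hmn) AlgInt.toSubring.toAddSubgroup hcl
      (fun u v hc hu hv => ?_) (fun B _ p _ _ hB ψ hψ => ?_) χ.isGeneralizedCharacter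
    · have h1 := hk 1 v (Commute.one_left v) (one_pow m) hv
      rw [one_mul] at h1
      rw [hval, hval, hk u v hc hu hv, h1]
    · obtain ⟨c, hc⟩ := hB
      change IsIntegral ℤ _
      rw [Ch.classInner_def, Finset.mul_sum]
      refine IsIntegral.sum _ fun b _ => ?_
      rw [hval]
      split_ifs
      · rw [hc, ← mul_assoc, Nat.cast_mul, inv_mul_cancel_left₀ (Ch.natCard_ne_zero B)]
        exact (Ch.integral_natCast c).mul (hψ.isCharacter.complexConj.isIntegral b)
      · simpa using isIntegral_zero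
  · rw [finsum_eq_sum_of_fintype]
    exact hcl.eq_sum_irr

end Cfsg.Agent.S0875
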