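import Cfsg.Statements.S0879
import Cfsg.Agent.Perm.ZassElem

set_option autoImplicit false
open Cfsg

namespace Cfsg.Agent.S0879

open Cfsg.Agent.Perm.Zass MulAction

theorem mem_normalizer_iff {G Ω : Type*} [Group G] [Finite G] [MulAction G Ω]
    (hZ : Cfsg.IsZassenhausGroup G Ω) {a b : Ω} (hab : a ≠ b) (g : G) :
    g ∈ Subgroup.normalizer ((stabilizer G a ⊓ stabilizer G b : Subgroup G) : Set G) ↔
      (g • a = a ∧ g • b = b) ∨ (g • a = b ∧ g • b = a) := by
  constructor
  · intro hg
    obtain ⟨x, hx1, hxa, hxb⟩ := hZ.exists_ne_one hab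
    exact hZ.isZT.fix_or_swap hab hx1 ⟨hxa, hxb⟩
      (mem_stab2.mp ((Subgroup.mem_normalizer_iff.mp hg x).mp (mem_stab2.mpr ⟨hxa, hxb⟩)))
  · rintro (h | h)
    · exact Subgroup.le_normalizer (mem_stab2.mpr h)
    · exact Subgroup.mem_normalizer_fintype fun x hx => swap_conj_mem h.1 h.2 hx

/-- Let G be a Zassenhaus group on the finite set Ω and E the stabilizer of two distinct points a, b. Then an element outside the normalizer of E conjugates no non-identity element of E into E, and E has index 2 in its normalizer. -/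
theorem result {G Ω : Type*} [Group G] [Finite G] [MulAction G Ω] [Fintype Ω] (hZ : Cfsg.IsZassenhausGroup G Ω) {a b : Ω} (hab : a ≠ b) : (∀ g : G, g ∉ Subgroup.normalizer ((MulAction.stabilizer G a ⊓ MulAction.stabilizer G b : Subgroup G) : Set G) → ∀ x ∈ (MulAction.stabilizer G a ⊓ MulAction.stabilizer G b : Subgroup G), g * x * g⁻¹ ∈ (MulAction.stabilizer G a ⊓ MulAction.stabilizer G b : Subgroup G) → x = 1) ∧ ((MulAction.stabilizer G a ⊓ MulAction.stabilizer G b : Subgroup G).subgroupOf (Subgroup.normalizer ((MulAction.stabilizer G a ⊓ MulAction.stabilizer G b : Subgroup G) : Set G))).index = 2 := by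
  constructor
  · intro g hg x hx hgx
    by_contra hx1
    exact hg ((mem_normalizer_iff hZ hab g).mpr
      (hZ.isZT.fix_or_swap hab hx1 (mem_stab2.mp hx) (mem_stab2.mp hgx)))
  · obtain ⟨t, -, hta, htb⟩ := hZ.isZT.exists_swap hab
    rw [Subgroup.index_eq_two_iff]
    refine ⟨⟨t, (mem_normalizer_iff hZ hab t).mpr (Or.inr ⟨hta, htb⟩)⟩, fun g => ?_⟩
    rw [Subgroup.mem_subgroupOf, Subgroup.mem_subgroupOf, mem_stab2, mem_stab2]
    simp only [Subgroup.coe_mul, mul_smul, hta, htb]
    rcases (mem_normalizer_iff hZ hab g).mp g.2 with h | h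
    · exact Or.inr ⟨h, fun e => hab (e.1.symm.trans h.2)⟩
    · exact Or.inl ⟨⟨h.2, h.1⟩, fun e => hab (e.1.symm.trans h.1)⟩

end Cfsg.Agent.S0879
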