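import Mathlib
import Cfsg.Statements.S0893
import Cfsg.Agent.Ch.ExtraspChar

set_option autoImplicit false
open Cfsg

namespace Cfsg.Agent.S0893

/-- Let P be an extraspecial p-group of order p ^ (2 * n + 1), A an abelian subgroup of order p ^ (n + 1), and λ a character of A of degree 1 that is not identically 1 on the elements of A lying in the centre of P. Then the function induced from λ to P is an irreducible character of P and vanishes at every element outside the centre. -/
theorem result {P : Type*} [Group P] [Fintype P] (p n : ℕ) [Fact p.Prime] (hP : Cfsg.IsExtraspecial p P) (hcard : Nat.card P = p ^ (2 * n + 1)) (A : Subgroup P) (hab : ∀ a ∈ A, ∀ b ∈ A, a * b = b * a) (hA : Nat.card A = p ^ (n + 1)) (lam : A → ℂ) (hlam : Cfsg.IsCharacter A lam ∧ lam 1 = 1) (hZ : ∃ a : A, (a : P) ∈ Subgroup.center P ∧ lam a ≠ 1) : Cfsg.IsIrrCharacter P (Cfsg.indFun A lam) ∧ ∀ x : P, x ∉ Subgroup.center P → Cfsg.indFun A lam x = 0 := by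
  obtain ⟨a, ha, ha'⟩ := hZ
  have := Fintype.ofFinite A
  have hirr := hlam.1.isIrr_of_apply_one hlam.2
  have hind := Ch.isCharacter_indFun A hlam.1
  obtain ⟨χ, hχ, h1⟩ := Ch.exists_irr_over A hirr
  have h2 : ¬Subgroup.center P ≤ Ch.charKer χ := fun h => by
    have h3 := (hχ.isCharacter.restrict A).charKer_le_of_constituent hirr h1
      (show a ∈ _ by rw [hχ.isCharacter.charKer_restrict]; exact h ha)
    exact ha' ((Ch.apply_eq_of_mem_charKer h3).trans hlam.2)
  have h3 : A.index = p ^ n := by
    have := A.card_mul_index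
    rw [hA, hcard, show 2 * n + 1 = n + 1 + n by ring, pow_add p (n + 1)] at this
    exact mul_left_cancel₀ (pow_ne_zero _ (Fact.out : p.Prime).ne_zero) this
  have h4 : indFun A lam = χ := hind.eq_irr_of_apply_one hχ (by
    rwa [hind.classInner_comm hχ.isCharacter, Ch.classInner_indFun_right _ _ hχ.isClassFunction])
    (by rw [Ch.indFun_one, hlam.2, h3, Ch.extraspecial_degree hP hcard hχ h2]; simp)
  rw [h4]
  exact ⟨hχ, fun x hx => Ch.extraspecial_vanish hP hχ h2 hx⟩

end Cfsg.Agent.S0893
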