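import Mathlib
import Cfsg.Statements.S0894
import Cfsg.Agent.Ch.ExtraspChar

set_option autoImplicit false
open Cfsg

namespace Cfsg.Agent.S0894

/-- Let P be an extraspecial p-group of order p ^ (2 * n + 1). Then every irreducible character of P has degree 1 or p ^ n, and exactly p - 1 of them have degree p ^ n. -/
theorem result {P : Type*} [Group P] [Finite P] (p n : ℕ) [Fact p.Prime] (hP : Cfsg.IsExtraspecial p P) (hcard : Nat.card P = p ^ (2 * n + 1)) : (∀ χ : Cfsg.IrrCharacter P, (χ : P → ℂ) 1 = 1 ∨ (χ : P → ℂ) 1 = (p : ℂ) ^ n) ∧ Nat.card {χ : Cfsg.IrrCharacter P // (χ : P → ℂ) 1 = (p : ℂ) ^ n} = p - 1 := by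
  classical
  have hp : p.Prime := Fact.out
  have h1 : ∀ χ : IrrCharacter P, (χ : P → ℂ) 1 = 1 ∨ (χ : P → ℂ) 1 = (p : ℂ) ^ n := fun χ => by
    by_cases h : Subgroup.center P ≤ Ch.charKer (χ : P → ℂ)
    · exact Or.inl ((Ch.extraspecial_linear_iff hP χ.2).2 h)
    · exact Or.inr (Ch.extraspecial_degree hP hcard χ.2 h)
  refine ⟨h1, ?_⟩
  have h3 : (commutator P).index = p ^ (2 * n) := by
    have := (Subgroup.center P).card_mul_index
    rwa [hP.2, hcard, pow_succ', mul_right_inj' hp.ne_zero, ← hP.1.2.2] at this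
  have h2 : (p : ℂ) ^ n ≠ 1 := fun h => by
    have h4 : n = 0 := (Nat.pow_eq_one.1 (by exact_mod_cast h)).resolve_left hp.ne_one
    rw [h4, mul_zero, pow_zero, Subgroup.index_eq_one] at h3
    have h5 : Subgroup.center P = ⊤ := hP.1.2.2 ▸ h3
    have h6 : commutator P = ⊥ := (commutator_eq_bot_iff_center_eq_top P).2 h5
    have h7 := hP.2
    rw [← hP.1.2.2, h6, Subgroup.card_bot] at h7
    exact hp.ne_one h7.symm
  have h4 := Ch.sum_sq_degree (G := P)
  have h5 := Ch.card_linear_irr P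
  have h6 : ∀ χ : IrrCharacter P, (χ : P → ℂ) 1 ^ 2 = (if (χ : P → ℂ) 1 = 1 then 1 else 0) +
      (if (χ : P → ℂ) 1 = (p : ℂ) ^ n then 1 else 0) * ((p : ℂ) ^ n) ^ 2 := fun χ => by
    rcases h1 χ with h | h
    · rw [h, if_pos rfl, if_neg h2.symm]; simp
    · rw [h, if_pos rfl, if_neg h2]; simp
  rw [Finset.sum_congr rfl fun χ _ => h6 χ, Finset.sum_add_distrib, ← Finset.sum_mul,
    Finset.sum_boole, Finset.sum_boole, ← Fintype.card_subtype, ← Fintype.card_subtype,
    ← Nat.card_eq_fintype_card, ← Nat.card_eq_fintype_card, h5, h3, hcard] at h4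
  have h7 : p ^ (2 * n) + Nat.card {χ : IrrCharacter P // (χ : P → ℂ) 1 = (p : ℂ) ^ n} *
      p ^ (2 * n) = p * p ^ (2 * n) := by
    rw [← pow_succ', pow_mul' p 2 n]
    exact_mod_cast (pow_mul' p 2 n ▸ h4)
  rw [← one_add_mul, mul_left_inj' (pow_ne_zero _ hp.ne_zero)] at h7
  omega

end Cfsg.Agent.S0894
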