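import Cfsg.Statements.S0896
import Cfsg.Agent.Ch.Brauer
import Cfsg.Agent.Ch.AbelianQuot
-- import your own Cfsg.Agent.* helpers here

set_option autoImplicit false
open scoped ComplexConjugate
open Cfsg

namespace Cfsg.Agent.S0896

open Cfsg.Agent.Ch

theorem dvd_sum_irr {E : Type*} [Group E] [Finite E] {D : Subgroup E} [D.Normal] {p k : ℕ}
    (hp : p.Prime) (hD : D.index ∣ p ^ k) (f : (D → ℂ) → ℕ) (hf : ∀ (g : E) φ, f (conjChar g φ) = f φ)
    (h : ∀ φ, IsIrrCharacter D φ → (∀ g : E, conjChar g φ = φ) → p ∣ f φ) :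
    p ∣ ∑ φ : IrrCharacter D, f φ := by
  classical
  have := Fintype.ofFinite E
  rw [← Finset.sum_image (s := Finset.univ) (g := fun φ : IrrCharacter D => (φ : D → ℂ))
    Subtype.val_injective.injOn, ← Finset.sum_fiberwise_of_maps_to (g := conjugates)
    fun _ h => Finset.mem_image_of_mem _ h]
  refine Finset.dvd_sum fun C hC => ?_
  obtain ⟨_, h1, rfl⟩ := Finset.mem_image.1 hC
  obtain ⟨θ, -, rfl⟩ := Finset.mem_image.1 h1
  rw [Finset.sum_congr (s₂ := conjugates (θ : D → ℂ)) (g := fun _ => f θ) (Finset.ext fun φ => ?_)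
    fun φ hφ => ?_, Finset.sum_const, smul_eq_mul, card_conjugates]
  · by_cases e : inertia D (θ : D → ℂ) = ⊤
    · exact (h _ θ.2 (inertia_eq_top_iff.1 e)).mul_left _
    · obtain ⟨j, -, hj⟩ := (Nat.dvd_prime_pow hp).1
        ((Subgroup.index_dvd_of_le (le_inertia θ.isClassFunction)).trans hD)
      refine Dvd.dvd.mul_right (hj ▸ dvd_pow_self p fun e' => e ?_) _
      rw [← Subgroup.index_eq_one, hj, e', pow_zero]
  · rw [Finset.mem_filter, Finset.mem_image]
    exact ⟨fun h => h.2 ▸ self_mem_conjugates φ, fun h =>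
      ⟨⟨⟨φ, isIrrCharacter_of_mem_conjugates θ.2 h⟩, Finset.mem_univ _, rfl⟩, conjugates_eq_of_mem h⟩⟩
  · obtain ⟨g, rfl⟩ := mem_conjugates.1 hφ
    exact hf g _


/-- Let N be a normal subgroup of the finite group G with the index of N a power of the prime p, and ϑ an irreducible character of N invariant under conjugation by G. Then there are a p-elementary subgroup E of G with E ⊔ N = ⊤ and an irreducible character φ of the subgroup E ⊓ N, invariant under conjugation by E, such that the inner product of the restriction of ϑ to E ⊓ N with φ is an integer not divisible by p. -/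
theorem result {G : Type*} [Group G] [Fintype G] (p : ℕ) (hp : p.Prime) (N : Subgroup G) [hN : N.Normal] (hind : ∃ k : ℕ, N.index = p ^ k) (ϑ : N → ℂ) (hϑ : Cfsg.IsIrrCharacter N ϑ) (hinv : ∀ (g : G) (n : N), ϑ ⟨g * n * g⁻¹, hN.conj_mem (n : G) n.2 g⟩ = ϑ n) : ∃ (E : Subgroup G) (φ : ↥(E ⊓ N) → ℂ), Cfsg.IsElementary p E ∧ E ⊔ N = ⊤ ∧ Cfsg.IsIrrCharacter ↥(E ⊓ N) φ ∧ (∀ (g : G) (hg : g ∈ E) (x : ↥(E ⊓ N)), φ ⟨g * x * g⁻¹, ⟨(E.mul_mem (E.mul_mem hg x.2.1) (E.inv_mem hg)), hN.conj_mem (x : G) x.2.2 g⟩⟩ = φ x) ∧ ∃ m : ℕ, ¬ p ∣ m ∧ (Nat.card ↥(E ⊓ N) : ℂ)⁻¹ * ∑ᶠ x : ↥(E ⊓ N), ϑ ⟨(x : G), x.2.2⟩ * conj (φ x) = (m : ℂ) := by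
  classical
  obtain ⟨k, hk⟩ := hind
  obtain ⟨m, hm, hspan⟩ := brauer_local_one (G := G) hp
  by_contra hcon
  have hΘ : IsCharacter N (ϑ * fun n => conj (ϑ n)) := hϑ.isCharacter.mul hϑ.complexConj.isCharacter
  have hres := res_indFun_of_invariant (θ := ϑ * fun n => conj (ϑ n)) fun g : G =>
    funext fun n => by simp [conjChar_apply, hinv]
  obtain ⟨z, hz⟩ := classInner_mem_of_mem_span_indSet (AddSubgroup.zmultiples (p : ℂ))
    (indFun_isClassFunction N (ϑ * fun n => conj (ϑ n))) (fun E _ hE ψ hψ => by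
      set D := N.subgroupOf E with hD
      set A : D → ℂ := fun x => ϑ ⟨x, x.2⟩ with hA
      have hAc : IsCharacter D A := hϑ.isCharacter.comp ((E.subtype.comp D.subtype).codRestrict N fun x => x.2)
      have hBc : IsCharacter D ((fun x : D => ψ x) * A) := (hψ.isCharacter.restrict D).mul hAc
      have h1 : D.index * (E ⊔ N).index = N.index := by
        rw [← Subgroup.relIndex_mul_index (le_sup_right : N ≤ E ⊔ N), Subgroup.relIndex_sup_right]; rfl
      have h2 := index_mul_classInner_of_vanish D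
        (φ := fun e : E => indFun N (ϑ * fun n => conj (ϑ n)) e)
        (fun g hg => indFun_normal_of_not_mem N _ hg) ψ
      rw [show (fun h : D => indFun N (ϑ * fun n => conj (ϑ n)) (h : E)) =
        (N.index : ℂ) • (A * fun x => conj (A x)) from funext fun x => congrFun hres ⟨x, x.2⟩,
        classInner_smul_left, classInner_mul_left, ← h1, Nat.cast_mul, mul_assoc] at h2
      rw [mul_left_cancel₀ (Nat.cast_ne_zero.2 D.index_ne_zero_of_finite) h2]
      simp only [Complex.conj_conj]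
      obtain ⟨n, hn⟩ := hAc.exists_nat_classInner hBc
      suffices p ∣ (E ⊔ N).index * n by
        obtain ⟨c, hc⟩ := this
        exact ⟨c, by erw [hn]; rw [← Nat.cast_mul, hc]; simp [mul_comm]⟩
      by_cases e : E ⊔ N = ⊤
      swap
      · obtain ⟨j, -, hj⟩ := (Nat.dvd_prime_pow hp).1 (hk ▸ Dvd.intro_left _ h1)
        refine Dvd.dvd.mul_right (hj ▸ dvd_pow_self p fun e' => e ?_) _
        rw [← Subgroup.index_eq_one, hj, e', pow_zero]
      have hAi : ∀ g : E, conjChar g A = A := fun g => funext fun x => hinv g ⟨x, x.2⟩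
      have hBi : ∀ g : E, conjChar g ((fun x : D => ψ x) * A) = (fun x : D => ψ x) * A := fun g => by
        rw [conjChar_mul_fun, hAi, conjChar_res hψ.isClassFunction]
      have hnat : ∀ {X : D → ℂ}, IsCharacter D X → ∀ φ : IrrCharacter D,
          classInner X φ = ⌊(classInner X φ).re⌋₊ := fun hX φ => by
        obtain ⟨a, ha⟩ := hX.exists_nat_classInner φ.2.isCharacter
        simp [ha]
      have h3 := dvd_sum_irr hp (hk ▸ Dvd.intro _ h1 : D.index ∣ p ^ k)
        (fun φ => ⌊(classInner A φ).re⌋₊ * ⌊(classInner ((fun x : D => ψ x) * A) φ).re⌋₊)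
        (fun g φ => by rw [classInner_conjChar_right, classInner_conjChar_right, hAi, hBi])
        fun φ hφ hφi => by
          let e₁ : ↥(E ⊓ N) ≃* D :=
            (Subgroup.subgroupOfEquivOfLe (inf_le_left : E ⊓ N ≤ E)).symm.trans
              (MulEquiv.subgroupCongr (Subgroup.inf_subgroupOf_left N E))
          by_contra h4
          refine hcon ⟨E, fun x => φ (e₁ x), hE, e, hφ.comp_mulEquiv e₁, fun g hg x =>
            congrFun (hφi ⟨g, hg⟩) (e₁ x), _, fun h => h4 (h.mul_right _), ?_⟩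
          rw [finsum_eq_sum_of_fintype, ← hnat hAc ⟨φ, hφ⟩, ← classInner_comp_mulEquiv e₁]
          rfl
      refine Dvd.dvd.mul_left (h3.trans (dvd_of_eq (Nat.cast_injective (R := ℂ) ?_))) _
      rw [← hn, hAc.isClassFunction.classInner_eq_sum, Nat.cast_sum]
      refine Finset.sum_congr rfl fun φ _ => ?_
      rw [hnat hBc φ, map_natCast, Nat.cast_mul, ← hnat hAc φ]
      simp) hspan
  rw [classInner_indFun_left _ _ (fun _ _ => rfl), classInner_mul_left] at hz
  simp only [Complex.conj_conj] at hz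
  rw [show ((fun _ => (m : ℂ)) * fun g => ϑ g) = (m : ℂ) • ϑ from rfl, classInner_smul_right,
    hϑ.classInner_self, map_natCast, mul_one, zsmul_eq_mul] at hz
  exact hm (Int.natCast_dvd_natCast.1 ⟨z, Int.cast_injective (α := ℂ) (by
    push_cast; rw [← hz, mul_comm])⟩)

end Cfsg.Agent.S0896
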