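import Cfsg.Statements.S0897
import Cfsg.Agent.S0896
import Cfsg.Agent.Ch.TripleFin
import Cfsg.Agent.Ch.Linear
-- import your own Cfsg.Agent.* helpers here

set_option autoImplicit false
open Cfsg

namespace Cfsg.Agent.S0897

open Cfsg.Agent.Ch
open scoped ComplexConjugate commutatorElement

theorem mem_map_commutator {E : Type*} [Group E] {Q Z : Subgroup E} (hZ : Z ≤ Subgroup.center E)
    (h : Q ⊔ Z = ⊤) : commutator E ≤ (commutator Q).map Q.subtype := by
  have : Z.Normal := ⟨fun n hn g => by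
    rwa [Subgroup.mem_center_iff.1 (hZ hn) g, mul_inv_cancel_right]⟩
  refine Subgroup.commutator_le.2 fun a _ b _ => ?_
  obtain ⟨q, hq, z, hz, rfl⟩ := Subgroup.mem_sup_of_normal_right.1 (h ▸ Subgroup.mem_top a)
  obtain ⟨r, hr, w, hw, rfl⟩ := Subgroup.mem_sup_of_normal_right.1 (h ▸ Subgroup.mem_top b)
  refine ⟨⁅(⟨q, hq⟩ : Q), ⟨r, hr⟩⁆,
    Subgroup.commutator_mem_commutator (Subgroup.mem_top _) (Subgroup.mem_top _), ?_⟩
  have h1 := Subgroup.mem_center_iff.1 (hZ hz)
  have h2 := Subgroup.mem_center_iff.1 (hZ hw)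
  symm
  calc q * z * (r * w) * (q * z)⁻¹ * (r * w)⁻¹ = q * (z * (r * w * z⁻¹)) * (q⁻¹ * w⁻¹) * r⁻¹ := by
        group
    _ = q * r * (w * (q⁻¹ * w⁻¹)) * r⁻¹ := by rw [← mul_assoc z, ← h1]; group
    _ = q * r * q⁻¹ * r⁻¹ := by rw [← mul_assoc w, ← h2]; group


/-- Let N be a normal subgroup of the finite group G with the index of N a power of the prime p, and P a Sylow p-subgroup of G such that P ⊓ N lies in the centre of P and every character of degree 1 of P ⊓ N is the restriction of a character of degree 1 of P. Then every irreducible character of N invariant under conjugation by G is the restriction of an irreducible character of G. -/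
theorem result {G : Type*} [Group G] [Fintype G] (p : ℕ) [Fact p.Prime] (N : Subgroup G) [hN : N.Normal] (hind : ∃ k : ℕ, N.index = p ^ k) (P : Sylow p G) (hcent : ∀ x ∈ (P : Subgroup G) ⊓ N, ∀ y ∈ (P : Subgroup G), x * y = y * x) (hlin : ∀ lam : ↥((P : Subgroup G) ⊓ N) → ℂ, Cfsg.IsCharacter ↥((P : Subgroup G) ⊓ N) lam → lam 1 = 1 → ∃ μ : ↥(P : Subgroup G) → ℂ, Cfsg.IsCharacter ↥(P : Subgroup G) μ ∧ μ 1 = 1 ∧ ∀ x : ↥((P : Subgroup G) ⊓ N), μ ⟨(x : G), x.2.1⟩ = lam x) (ϑ : N → ℂ) (hϑ : Cfsg.IsIrrCharacter N ϑ) (hinv : ∀ (g : G) (n : N), ϑ ⟨g * n * g⁻¹, hN.conj_mem (n : G) n.2 g⟩ = ϑ n) : ∃ χ : G → ℂ, Cfsg.IsIrrCharacter G χ ∧ ∀ n : N, χ n = ϑ n := by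
  classical
  have hp : p.Prime := Fact.out
  obtain ⟨E, φ, ⟨x, hx, hxp, j, hj⟩, htop, hφ, -, m, hm, hmφ⟩ :=
    S0896.result p hp N hind ϑ hϑ hinv
  obtain ⟨k, hk⟩ := hind
  have h0 : ∀ y ∈ commutator E, (y : G) ∈ N → y = 1 := fun y hy hyN => by
    obtain ⟨Q⟩ : Nonempty (Sylow p E) := inferInstance
    obtain ⟨q, hq, rfl⟩ := mem_map_commutator (Q := Q) (Subgroup.zpowers_le.2 hx) (by
      rw [← Subgroup.index_eq_one]
      exact Nat.eq_one_of_dvd_coprimes ((Nat.Coprime.pow_left j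
        (hp.coprime_iff_not_dvd.2 Q.not_dvd_index)).symm)
        (Subgroup.index_dvd_of_le le_sup_left) (hj ▸ Subgroup.index_dvd_of_le le_sup_right)) hy
    obtain ⟨P', hP'⟩ := (Q.isPGroup'.map E.subtype).exists_le_sylow
    obtain ⟨g, hg⟩ := MulAction.exists_smul_eq G P' P
    let i : (Q : Subgroup E) →* (P : Subgroup G) :=
      ((MulAut.conj g).toMonoidHom.comp (E.subtype.comp (Q : Subgroup E).subtype)).codRestrict _
        fun a => hg ▸ Subgroup.smul_mem_pointwise_smul _ (MulAut.conj g) _ (hP' ⟨a, a.2, rfl⟩)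
    have h1 : i q ∈ commutator (P : Subgroup G) := by
      rw [commutator_def] at hq ⊢
      exact (Subgroup.map_commutator ⊤ ⊤ i ▸ Subgroup.commutator_mono le_top le_top)
        (Subgroup.mem_map_of_mem i hq)
    by_contra hne
    obtain ⟨f, hf⟩ := exists_monoidHom_units_ne_one_of_comm (G := ↥((P : Subgroup G) ⊓ N))
      (fun a b => Subtype.ext (hcent a a.2 b b.2.1)) (g := ⟨i q, (i q).2, hN.conj_mem _ hyN g⟩)
      fun e => hne (Subtype.ext ((MulAut.conj g).injective
        ((congrArg Subtype.val e).trans (map_one _).symm)))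
    obtain ⟨μ, h2, h3, h4⟩ := hlin _ (isCharacter_monoidHom_units f) (by simp)
    exact hf (Units.ext ((h4 _).symm.trans
      ((h2.mem_charKer.1 (h2.commutator_le_charKer_of_apply_one h3 h1)).trans h3)))
  let i : ↥(E ⊓ N) →* Abelianization E := Abelianization.of.comp (Subgroup.inclusion inf_le_left)
  have hi : Function.Injective i := (injective_iff_map_eq_one _).2 fun a ha =>
    Subgroup.inclusion_injective _ ((h0 _ ((QuotientGroup.eq_one_iff _).1 ha) a.2.2).trans
      (map_one _).symm)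
  obtain ⟨f, rfl⟩ := hφ.exists_monoidHom_of_comm fun a b => hi (by rw [map_mul, map_mul, mul_comm])
  obtain ⟨F, hF⟩ := exists_monoidHom_units_extend (G := Abelianization E) mul_comm i.range
    (f.comp (MonoidHom.ofInjective hi).symm.toMonoidHom)
  have hξ := isCharacter_monoidHom_units (F.comp Abelianization.of)
  have h1 : classInner (indFun N ϑ) (indFun E fun g => (F.comp Abelianization.of g : ℂ)) = m := by
    have h2 := index_mul_classInner_of_vanish (N.subgroupOf E) (φ := fun e : E => indFun N ϑ e)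
      (fun g hg => indFun_normal_of_not_mem N _ hg) fun g => (F.comp Abelianization.of g : ℂ)
    have h3 : (N.subgroupOf E).index = N.index := by
      rw [← Subgroup.relIndex_top_right N, ← htop, Subgroup.relIndex_sup_right]; rfl
    let e₁ : ↥(E ⊓ N) ≃* N.subgroupOf E :=
      (Subgroup.subgroupOfEquivOfLe (inf_le_left : E ⊓ N ≤ E)).symm.trans
        (MulEquiv.subgroupCongr (Subgroup.inf_subgroupOf_left N E))
    rw [show (fun h : N.subgroupOf E => indFun N ϑ (h : E)) =
        (N.index : ℂ) • fun x : N.subgroupOf E => ϑ ⟨x, x.2⟩ from funext fun x =>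
        congrFun (res_indFun_of_invariant (invariant_iff_conjChar.1 hinv)) ⟨x, x.2⟩,
      classInner_smul_left, h3, ← classInner_comp_mulEquiv e₁] at h2
    rw [classInner_indFun_right _ _ (indFun_isClassFunction _ _),
      mul_left_cancel₀ (Nat.cast_ne_zero.2 N.index_ne_zero_of_finite) h2, ← hmφ,
      finsum_eq_sum_of_fintype, classInner_def]
    refine congrArg _ (Finset.sum_congr rfl fun a _ => congrArg _ (congrArg _ (congrArg _ ?_)))
    exact (hF ⟨i a, a, rfl⟩).trans (congrArg f ((MonoidHom.ofInjective hi).symm_apply_apply a))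
  obtain ⟨a, ha, ha', -⟩ := exists_mult_indFun N hϑ.isCharacter
  obtain ⟨b, hb, -⟩ := (isCharacter_indFun E hξ).exists_mult
  obtain ⟨χ, hχ⟩ : ∃ χ, ¬ p ∣ a χ := by
    by_contra! h
    refine hm ((Finset.dvd_sum fun χ (_ : χ ∈ Finset.univ) => (h χ).mul_right (b χ)).trans
      (dvd_of_eq (Nat.cast_injective (R := ℂ) ?_)))
    rw [← h1, (indFun_isClassFunction _ _).classInner_eq_sum, Nat.cast_sum]
    refine Finset.sum_congr rfl fun χ _ => ?_
    rw [hb, classInner_indFun_eq_res _ hϑ.isCharacter χ.2.isCharacter, ha, map_natCast, Nat.cast_mul]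
  have h2 : classInner (fun n : N => (χ : G → ℂ) n) ϑ ≠ 0 := by
    rw [ha, Nat.cast_ne_zero]; rintro e; exact hχ (e ▸ dvd_zero p)
  have h3 := res_eq_smul_of_invariant χ.2 hϑ (invariant_iff_conjChar.1 hinv) h2
  obtain ⟨e, he, he'⟩ := exists_degree_eq_mul hϑ χ.2 h2
  have h4 : a χ = e := Nat.cast_injective (R := ℂ) (mul_right_cancel₀ hϑ.apply_one_ne_zero (by
    rw [← he', ← ha]; exact (congrFun h3 1).symm))
  rw [ha, Nat.eq_one_of_dvd_coprimes (Nat.Coprime.pow_left k (hp.coprime_iff_not_dvd.2 hχ))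
    (h4 ▸ hk ▸ he) dvd_rfl] at h3
  exact ⟨χ, χ.2, fun n => by simpa using congrFun h3 n⟩

end Cfsg.Agent.S0897
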