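import Mathlib
import Cfsg.Agent.Ch.LinFT
import Cfsg.Statements.S0898
-- import your own Cfsg.Agent.* helpers here

set_option autoImplicit false
open Cfsg

namespace Cfsg.Agent.S0898

/-- Let H be an abelian subgroup of the finite group G meeting the centre of G trivially, such that for every non-central g the centralizer of g has nontrivial intersection with at most one conjugate of H. Let χ be an irreducible character of G with χ h ≠ χ 1 for some h in H, and let c be the inner product of the restriction of χ to H with the principal character. Then χ(1)² > (order of H)·c²; and if in addition χ 1 ≠ 1 and no proper normal subgroup of G contains H, then (1 + χ 1)² > order of H (both sides read as real numbers). -/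
theorem result {G : Type*} [Group G] [Fintype G] (H : Subgroup G) [Fintype H] (hab : ∀ a ∈ H, ∀ b ∈ H, a * b = b * a) (hZ : H ⊓ Subgroup.center G = ⊥) (hone : ∀ g : G, g ∉ Subgroup.center G → ∀ a b : G, Subgroup.centralizer ({g} : Set G) ⊓ H.map (MulAut.conj a).toMonoidHom ≠ ⊥ → Subgroup.centralizer ({g} : Set G) ⊓ H.map (MulAut.conj b).toMonoidHom ≠ ⊥ → H.map (MulAut.conj a).toMonoidHom = H.map (MulAut.conj b).toMonoidHom) (χ : G → ℂ) (hχ : Cfsg.IsIrrCharacter G χ) (hker : ∃ h ∈ H, χ h ≠ χ 1) : (χ 1).re ^ 2 > (Nat.card H : ℝ) * (Cfsg.classInner (fun h : H => χ h) (fun _ => 1)).re ^ 2 ∧ (χ 1 ≠ 1 → (∀ M : Subgroup G, M.Normal → H ≤ M → M = ⊤) → (1 + (χ 1).re) ^ 2 > (Nat.card H : ℝ)) := by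
  have e1 : H.map (MulAut.conj (1 : G)).toMonoidHom = H := by ext; simp
  have key : ∀ g ∉ Subgroup.center G, ∀ a : G, ∀ h ∈ H, ∀ k ∈ H, h ≠ 1 → k ≠ 1 → h * g = g * h →
      a * k * a⁻¹ * g = g * (a * k * a⁻¹) → a ∈ Subgroup.normalizer (H : Set G) := by
    intro g hg a h hh k hk h1 h2 h3 h4
    have h5 := hone g hg 1 a (fun h5 => h1 (Subgroup.mem_bot.1 (h5 ▸ ⟨fun x hx => by
      rw [Set.mem_singleton_iff.1 hx, h3], e1.symm ▸ hh⟩))) fun h5 => h2 (by
        have : a * k * a⁻¹ ∈ (⊥ : Subgroup G) := h5 ▸ ⟨fun x hx => by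
          rw [Set.mem_singleton_iff.1 hx, h4], k, hk, rfl⟩
        simpa using this)
    rw [e1] at h5
    refine Subgroup.mem_normalizer_iff.2 fun x => ⟨fun hx => h5 ▸ ⟨x, hx, rfl⟩, fun hx => ?_⟩
    rw [h5] at hx
    obtain ⟨y, hy, h6⟩ := hx
    have h7 : y = x := by simpa using h6
    exact h7 ▸ hy
  rw [hχ.isCharacter.re_apply_one]
  refine ⟨lt_of_le_of_lt ?_ (Ch.linFT_card_mul_lt H hab hZ key hχ fun h => ?_), fun h1 hM => ?_⟩
  · refine mul_le_mul_of_nonneg_left ?_ (Nat.cast_nonneg _)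
    rw [← sq_abs]
    exact pow_le_pow_left₀ (abs_nonneg _) (Complex.abs_re_le_norm _) 2
  · obtain ⟨x, hx, h1⟩ := hker
    exact h1 (Ch.apply_eq_of_mem_charKer (h hx))
  · exact_mod_cast Ch.linFT_card_lt H hab hZ key hM hχ (mt hχ.isCharacter.charDegree_eq_one_iff.1 h1)

end Cfsg.Agent.S0898
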