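import Mathlib
import Cfsg.Agent.Ch.LinIto
import Cfsg.Statements.S0899
-- import your own Cfsg.Agent.* helpers here

set_option autoImplicit false
open Cfsg

namespace Cfsg.Agent.S0899

/-- Let G be a finite group with a faithful complex representation of degree n (on Fin n → ℂ) and p a prime. Suppose either that (n + 1) ^ 2 ≤ p, or that n + 1 < p and every subgroup of G whose order is not divisible by p ^ 2 has a normal Sylow p-subgroup. Then every Sylow p-subgroup of G is normal. -/
theorem result {G : Type*} [Group G] [Finite G] (n : ℕ) (ρ : Representation ℂ G (Fin n → ℂ)) (hρ : Function.Injective ρ) (p : ℕ) [Fact p.Prime] (h : (n + 1) ^ 2 ≤ p ∨ (n + 1 < p ∧ ∀ K : Subgroup G, ¬ p ^ 2 ∣ Nat.card K → ∀ Q : Sylow p K, (Q : Subgroup K).Normal)) (P : Sylow p G) : (P : Subgroup G).Normal := by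
  have hd : charDegree ρ.character = n := by simp [Ch.charDegree_character]
  have hp : p.Prime := Fact.out
  have h1 : n + 1 < p := h.elim (fun h => by
    rcases n with _ | n
    · exact hp.one_lt
    · nlinarith) (·.1)
  refine Ch.linI_normal (Ch.isCharacter_character ρ)
    (by rw [Ch.charKer_character, MonoidHom.ker_eq_bot_iff]; exact hρ) (by rwa [hd]) (fun K S hS => ?_) P
  rw [hd] at hS
  obtain ⟨k, hk⟩ := S.isPGroup'.exists_card_eq
  rcases h with h | h
  · have h2 : k = 0 := by
      have h3 : p ^ k < p ^ 1 := by rw [← hk, pow_one]; exact hS.trans_le h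
      have := (Nat.pow_lt_pow_iff_right hp.one_lt).1 h3
      omega
    rw [h2, pow_zero, Subgroup.card_eq_one] at hk
    rw [hk]
    infer_instance
  · refine h.2 K (fun h2 => ?_) S
    have h3 := S.pow_dvd_card_of_pow_dvd_card h2
    exact (hS.trans (Nat.pow_lt_pow_left h1 two_ne_zero)).not_ge (Nat.le_of_dvd Nat.card_pos h3)

end Cfsg.Agent.S0899
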