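import Mathlib
import Cfsg.Statements.S0900
import Cfsg.Agent.Ch.AbelianQuot

set_option autoImplicit false
open Cfsg

namespace Cfsg.Agent.S0900

/-- Let N be a normal subgroup of the finite group G, χ an irreducible character of G and ϑ an irreducible character of N having nonzero inner product with the restriction of χ. Consider: (a) the restriction of χ to N is e • ϑ for a natural number e with e ^ 2 equal to the index of N; (b) χ vanishes outside N and ϑ is invariant under conjugation by G; (c) ϑ is invariant and every irreducible character of G having nonzero inner product with the function induced from ϑ equals χ. Then (a) ↔ (b) and (a) ↔ (c). -/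
theorem result {G : Type*} [Group G] [Fintype G] (N : Subgroup G) [hN : N.Normal] [Fintype N] (χ : G → ℂ) (hχ : Cfsg.IsIrrCharacter G χ) (ϑ : N → ℂ) (hϑ : Cfsg.IsIrrCharacter N ϑ) (hcon : Cfsg.classInner (fun n : N => χ n) ϑ ≠ 0) : ((∃ e : ℕ, (fun n : N => χ n) = (e : ℂ) • ϑ ∧ e ^ 2 = N.index) ↔ ((∀ g : G, g ∉ N → χ g = 0) ∧ ∀ (g : G) (n : N), ϑ ⟨g * n * g⁻¹, hN.conj_mem (n : G) n.2 g⟩ = ϑ n)) ∧ ((∃ e : ℕ, (fun n : N => χ n) = (e : ℂ) • ϑ ∧ e ^ 2 = N.index) ↔ (∀ (g : G) (n : N), ϑ ⟨g * n * g⁻¹, hN.conj_mem (n : G) n.2 g⟩ = ϑ n ∧ ∀ ψ : G → ℂ, Cfsg.IsIrrCharacter G ψ → Cfsg.classInner (Cfsg.indFun N ϑ) ψ ≠ 0 → ψ = χ)) := by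
  classical
  have key : (∃ e : ℕ, (fun n : N => χ n) = (e : ℂ) • ϑ ∧ e ^ 2 = N.index) →
      ∀ g : G, Ch.conjChar g ϑ = ϑ := by
    rintro ⟨e, he, he2⟩
    refine Ch.invariant_of_res_eq_smul hχ.isClassFunction (c := (e : ℂ)) ?_ he
    rintro h
    rw [Nat.cast_eq_zero.1 h] at he2
    exact N.index_ne_zero_of_finite he2.symm
  obtain ⟨m, hm, hs, hsq⟩ := Ch.exists_mult_over hϑ
  have hmχ := hm ⟨χ, hχ⟩
  simp only at hmχ
  constructor
  · constructor
    · intro h
      refine ⟨?_, fun g => congrFun (key h g)⟩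
      obtain ⟨e, he, he2⟩ := h
      rw [← Ch.classInner_res_self_eq_index_iff N hχ, he, Ch.classInner_smul_left,
        Ch.classInner_smul_right, hϑ.classInner_self, ← he2]
      simp [sq]
    · rintro ⟨hz, hinv⟩
      have hinv' : ∀ g : G, Ch.conjChar g ϑ = ϑ := fun g => funext (hinv g)
      have h1 := Ch.res_eq_smul_of_invariant hχ hϑ hinv' hcon
      rw [hmχ] at h1
      refine ⟨_, h1, ?_⟩
      rw [← Ch.classInner_res_self_eq_index_iff N hχ, h1, Ch.classInner_smul_left,
        Ch.classInner_smul_right, hϑ.classInner_self] at hz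
      simp only [map_natCast, mul_one] at hz
      exact_mod_cast (sq (m ⟨χ, hχ⟩ : ℂ)).trans hz
  · constructor
    · intro h g n
      refine ⟨congrFun (key h g) n, fun ψ hψ hne => ?_⟩
      rw [Ch.relIndex_inertia_of_invariant (key h)] at hsq
      obtain ⟨e, he, he2⟩ := h
      have h1 : m ⟨χ, hχ⟩ = e := by
        rw [he, Ch.classInner_smul_left, hϑ.classInner_self, mul_one] at hmχ
        exact_mod_cast hmχ.symm
      by_contra hne'
      have h2 : (⟨ψ, hψ⟩ : IrrCharacter G) ≠ ⟨χ, hχ⟩ := fun h => hne' (congrArg Subtype.val h)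
      have h3 := Finset.add_le_sum (f := fun χ => m χ ^ 2) (s := Finset.univ)
        (fun _ _ => Nat.zero_le _) (Finset.mem_univ _) (Finset.mem_univ _) h2
      rw [hsq, h1, he2] at h3
      have h4 : m ⟨ψ, hψ⟩ = 0 := by
        have : m ⟨ψ, hψ⟩ ^ 2 = 0 := by omega
        exact pow_eq_zero_iff two_ne_zero |>.1 this
      rw [Ch.classInner_indFun_eq_res N hϑ.isCharacter hψ.isCharacter] at hne
      exact hne (by simpa [h4] using hm ⟨ψ, hψ⟩)
    · intro h
      have hinv' : ∀ g : G, Ch.conjChar g ϑ = ϑ := fun g => funext fun n => (h g n).1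
      have h1 := Ch.res_eq_smul_of_invariant hχ hϑ hinv' hcon
      rw [hmχ] at h1
      refine ⟨_, h1, ?_⟩
      rw [← Ch.relIndex_inertia_of_invariant hinv', ← hsq, Finset.sum_eq_single ⟨χ, hχ⟩]
      · intro ψ _ hne
        by_contra h0
        refine hne (Subtype.ext ((h 1 1).2 ψ ψ.2 ?_))
        rw [Ch.classInner_indFun_eq_res N hϑ.isCharacter ψ.isCharacter, hm]
        exact_mod_cast fun h => h0 (by simp [h])
      · simp

end Cfsg.Agent.S0900
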