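import Mathlib
import Cfsg.Statements.S0903

set_option autoImplicit false
open Cfsg

namespace Cfsg.Agent.S0903

/-- Conjugation action of a subgroup on the factorizations of an element it centralizes. -/
@[reducible] def act {G : Type*} [Group G] (P : Subgroup G) (c : G)
    (hc : c ∈ Subgroup.centralizer (P : Set G)) (g h : G) :
    MulAction P {xy : G × G // IsConj g xy.1 ∧ IsConj h xy.2 ∧ xy.1 * xy.2 = c} where
  smul u xy := ⟨(u * xy.1.1 * (u : G)⁻¹, u * xy.1.2 * (u : G)⁻¹),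
    xy.2.1.trans (isConj_iff.2 ⟨u, rfl⟩), xy.2.2.1.trans (isConj_iff.2 ⟨u, rfl⟩), by
      have h1 := Subgroup.mem_centralizer_iff.1 hc u u.2
      calc (u : G) * xy.1.1 * (u : G)⁻¹ * (u * xy.1.2 * (u : G)⁻¹)
          = u * (xy.1.1 * xy.1.2) * (u : G)⁻¹ := by group
        _ = c := by rw [xy.2.2.2, h1]; group⟩
  one_smul xy := Subtype.ext (Prod.ext (by change ((1 : P) : G) * _ * _ = _; simp)
    (by change ((1 : P) : G) * _ * _ = _; simp))
  mul_smul u v xy := Subtype.ext (Prod.ext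
    (by change ((u * v : P) : G) * _ * _ = (u : G) * ((v : G) * _ * _) * _; simp [mul_assoc])
    (by change ((u * v : P) : G) * _ * _ = (u : G) * ((v : G) * _ * _) * _; simp [mul_assoc]))

/-- Let P be a p-subgroup of the finite group G, let c centralize P and let g, h ∈ G. The number of pairs (x, y) with x conjugate to g, y conjugate to h and x * y = c is congruent modulo p to the number of such pairs in which x and y both centralize P. (This is why the Brauer map on class sums is multiplicative.) -/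
theorem result {G : Type*} [Group G] [Finite G] (p : ℕ) [Fact p.Prime] (P : Subgroup G) (hP : IsPGroup p P) (c : G) (hc : c ∈ Subgroup.centralizer (P : Set G)) (g h : G) : Nat.card {xy : G × G // IsConj g xy.1 ∧ IsConj h xy.2 ∧ xy.1 * xy.2 = c} ≡ Nat.card {xy : G × G // IsConj g xy.1 ∧ IsConj h xy.2 ∧ xy.1 * xy.2 = c ∧ xy.1 ∈ Subgroup.centralizer (P : Set G) ∧ xy.2 ∈ Subgroup.centralizer (P : Set G)} [MOD p] := by
  let := act P c hc g h
  refine (hP.card_modEq_card_fixedPoints _).trans (congrArg (· % p) (Nat.card_congr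
    ⟨fun xy => ⟨xy.1.1, xy.1.2.1, xy.1.2.2.1, xy.1.2.2.2, ?_, ?_⟩,
      fun xy => ⟨⟨xy.1, xy.2.1, xy.2.2.1, xy.2.2.2.1⟩, fun u => Subtype.ext (Prod.ext ?_ ?_)⟩,
      fun _ => rfl, fun _ => rfl⟩))
  · refine Subgroup.mem_centralizer_iff.2 fun u hu => ?_
    have h1 : u * xy.1.1.1 * u⁻¹ = xy.1.1.1 := congrArg (fun t => t.1.1) (xy.2 ⟨u, hu⟩)
    exact mul_inv_eq_iff_eq_mul.1 h1
  · refine Subgroup.mem_centralizer_iff.2 fun u hu => ?_
    have h1 : u * xy.1.1.2 * u⁻¹ = xy.1.1.2 := congrArg (fun t => t.1.2) (xy.2 ⟨u, hu⟩)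
    exact mul_inv_eq_iff_eq_mul.1 h1
  · exact mul_inv_eq_iff_eq_mul.2 (Subgroup.mem_centralizer_iff.1 xy.2.2.2.2.1 u u.2)
  · exact mul_inv_eq_iff_eq_mul.2 (Subgroup.mem_centralizer_iff.1 xy.2.2.2.2.2 u u.2)

end Cfsg.Agent.S0903
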