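import Mathlib
import Cfsg.Statements.S0905
import Cfsg.Agent.Blk.Defect
import Cfsg.Agent.GT.Cores

set_option autoImplicit false
open Cfsg

namespace Cfsg.Agent.S0905

/-- Let F be a field of characteristic p and let g be an element of the finite group G no conjugate of which centralizes O_p(G). Then the class sum of g is a nilpotent element of the group algebra F[G]. -/
theorem result {G : Type*} [Group G] [Finite G] (p : ℕ) [Fact p.Prime] (F : Type*) [Field F] [CharP F p] (g : G) (hg : ∀ x : G, IsConj g x → x ∉ Subgroup.centralizer (Cfsg.pCore p G : Set G)) : IsNilpotent (∑ᶠ x ∈ ConjClasses.carrier (ConjClasses.mk g), MonoidAlgebra.single x (1 : F) : MonoidAlgebra F G) := by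
  classical
  have e : (∑ᶠ x ∈ ConjClasses.carrier (ConjClasses.mk g), MonoidAlgebra.single x (1 : F) :
      MonoidAlgebra F G) = Agent.Blk.classSum F g := by
    have := Fintype.ofFinite G
    refine Agent.Blk.ext_coeff fun y => ?_
    rw [finsum_mem_def, finsum_eq_sum_of_fintype, Agent.Blk.coeff_sum_apply,
      Agent.Blk.coeff_classSum, Finset.sum_eq_single y]
    · simp only [Set.indicator_apply, ConjClasses.mem_carrier_iff_mk_eq,
        ConjClasses.mk_eq_mk_iff_isConj, isConj_comm (g := y)]
      split_ifs <;> simp
    · intro x _ hx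
      simp only [Set.indicator_apply]
      split_ifs
      · rw [Agent.Blk.coeff_single_eq, if_neg]
        first | exact hx | exact hx.symm
      · simp
    · simp
  rw [e]
  refine Agent.Blk.Mod.isNilpotent_of_br_eq_zero (Agent.GT.isPGroup_pCore (G := G) p)
    (by rw [Subgroup.normalizer_eq_top]; exact Agent.Blk.Mod.mem_Supp_top _)
    (Agent.Blk.mem_Fix_of_ctr (Agent.Blk.classSum_mem_ctr g) _) ?_
  by_contra h
  obtain ⟨x, h1, h2⟩ := (Agent.Blk.br_classSum_ne_zero_iff _ g).1 h
  exact hg x h1 h2

end Cfsg.Agent.S0905
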