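import Mathlib
import Cfsg.Statements.S0920
import Cfsg.Agent.Blk.Induced

set_option autoImplicit false
open Cfsg

namespace Cfsg.Agent.S0920

/-- Brauer's First Main Theorem. Let D be a p-subgroup of the finite group G with normalizer N, and fix a maximal ideal M of the algebraic integers containing p. Then (i) every block b of N having D as a defect group induces some block B of G having D as a defect group; (ii) every block of G with defect group D is induced by exactly one block of N with defect group D. -/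
theorem result {G : Type*} [Group G] [Finite G] (p : ℕ) [Fact p.Prime] (M : Ideal Cfsg.AlgInt) (hM : Cfsg.IsPModular p M) (D : Subgroup G) (hD : IsPGroup p D) : (∀ b : Set (Cfsg.IrrCharacter (Subgroup.normalizer (D : Set G))), Cfsg.IsPBlock M b → Cfsg.IsDefectGroup p M b (D.subgroupOf (Subgroup.normalizer (D : Set G))) → ∃ B : Set (Cfsg.IrrCharacter G), Cfsg.IsPBlock M B ∧ Cfsg.IsDefectGroup p M B D ∧ Cfsg.IsInducedBlock M (Subgroup.normalizer (D : Set G)) b B) ∧ (∀ B : Set (Cfsg.IrrCharacter G), Cfsg.IsPBlock M B → Cfsg.IsDefectGroup p M B D → ∃! b : Set (Cfsg.IrrCharacter (Subgroup.normalizer (D : Set G))), Cfsg.IsPBlock M b ∧ Cfsg.IsDefectGroup p M b (D.subgroupOf (Subgroup.normalizer (D : Set G))) ∧ Cfsg.IsInducedBlock M (Subgroup.normalizer (D : Set G)) b B) := by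
  have := hM.isMaximal
  refine ⟨fun b hb hbD => ?_, fun B hB hBD => ?_⟩
  · obtain ⟨B, h⟩ := hb.inducedBlockDefined hM hD Subgroup.le_normalizer
      (Agent.Blk.Mod.centralizer_le_normalizer' D) le_rfl
    exact ⟨B, h.2.1, (h.isDefectGroup_of_normalizer hM hD hbD).1, h⟩
  · obtain ⟨b, hb, hbD, e⟩ := hBD.exists_br_eq_epsIn hM hB
    refine ⟨b, ⟨hb, hbD, (hBD.isInducedBlock_iff hM hB hb).2 e⟩, fun c hc => ?_⟩
    exact hc.1.eq_of_epsIn_eq hb (((hBD.isInducedBlock_iff hM hB hc.1).1 hc.2.2).symm.trans e)

end Cfsg.Agent.S0920
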