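import Mathlib
import Cfsg.Statements.S0926
import Cfsg.Agent.Blk.DefectVanish

set_option autoImplicit false
open Cfsg

namespace Cfsg.Agent.S0926


/-- Let B be a block of the finite group G with defect group D (relative to a maximal ideal M of the algebraic integers containing p), let χ ∈ B have height zero, and let x be a p-element. Then some conjugate of x lies in D if and only if χ does not vanish on the whole p-section of x (the elements whose p-part is conjugate to x). -/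
theorem result {G : Type*} [Group G] [Finite G] (p : ℕ) [Fact p.Prime] (M : Ideal Cfsg.AlgInt) (hM : Cfsg.IsPModular p M) (B : Set (Cfsg.IrrCharacter G)) (hB : Cfsg.IsPBlock M B) (D : Subgroup G) (hD : Cfsg.IsDefectGroup p M B D) (χ : Cfsg.IrrCharacter G) (hχ : χ ∈ B) (h0 : Cfsg.blockHeight p B (χ : G → ℂ) = 0) (x : G) (hx : ∃ k : ℕ, orderOf x = p ^ k) : (∃ g : G, g * x * g⁻¹ ∈ D) ↔ ∃ u : G, (∃ z : G, Cfsg.IsPPart p u z ∧ IsConj x z) ∧ (χ : G → ℂ) u ≠ 0 := by
  have := hM.isMaximal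
  constructor
  · rintro ⟨g, hg⟩
    obtain ⟨y, hy, hyD⟩ := Blk.isDefectGroup_iff_isClassDefect.1 hD
    have hx' : ∃ k : ℕ, orderOf (g * x * g⁻¹) = p ^ k := by
      rw [Blk.orderOf_conj_eq]; exact hx
    have hc : g * x * g⁻¹ * y = y * (g * x * g⁻¹) :=
      (Blk.mem_centralizer_singleton_iff' y _).1 (hyD.le hg)
    refine ⟨g * x * g⁻¹ * y, ⟨g * x * g⁻¹, Ch.isPPart_of_commute hc hx'
      (Blk.Om.not_dvd_orderOf_of_isDefectClass hM hB hy), isConj_iff.2 ⟨g, rfl⟩⟩, ?_⟩
    exact (Blk.not_mem_irr_mul_of_isDefectClass hM hB hy hx' hc hχ h0) |> MemLocalIdeal.ne_zero_of_not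
  · rintro ⟨u, ⟨z, hz, hxz⟩, hu⟩
    by_contra hne
    push Not at hne
    refine hu (Blk.irr_eq_zero_of_not_conj_mem hM hB hD hχ hz fun a ha => ?_)
    obtain ⟨c, rfl⟩ := isConj_iff.1 hxz
    exact hne (a * c) (by simpa [mul_assoc] using ha)

end Cfsg.Agent.S0926
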