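import Mathlib
import Cfsg.Statements.S0928
import Cfsg.Agent.Blk.DefectVanish
import Cfsg.Agent.Blk.Induced
import Cfsg.Agent.Blk.Local2
import Cfsg.Agent.Ch.Quotient

set_option autoImplicit false
open Cfsg

namespace Cfsg.Agent.S0928

open Cfsg.Agent.Ch Cfsg.Agent.Blk Cfsg.Agent.Blk.Om

open Classical in
theorem aux {N : Type*} [Group N] [Finite N] {p : ℕ} {M : Ideal AlgInt} [M.IsMaximal]
    (hM : IsPModular p M) {b : Set (IrrCharacter N)} (hb : IsPBlock M b) {D : Subgroup N}
    [hN : D.Normal] (hD : IsDefectGroup p M b D) (hD1 : D ≠ ⊥) {ξ : IrrCharacter N} (hξ : ξ ∈ b) :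
    MemLocalIdeal M (om (ξ : N → ℂ) (fun g => if g ^ p = 1 then 1 else 0)) := by
  have : Fact p.Prime := ⟨hM.prime⟩
  have := Fintype.ofFinite N
  set C := Subgroup.centralizer (D : Set N) with hC
  have hCN : C.Normal := Subgroup.normal_centralizer
  have hconj : ∀ g h : N, (h * g * h⁻¹) ^ p = 1 ↔ g ^ p = 1 := fun g h => by
    rw [conj_pow, mul_inv_eq_one, mul_eq_left]
  let W : Subgroup N :=
    { carrier := {g | g ∈ D ∧ g ∈ C ∧ g ^ p = 1}
      one_mem' := ⟨D.one_mem, C.one_mem, one_pow p⟩
      mul_mem' := fun {g h} hg hh => ⟨D.mul_mem hg.1 hh.1, C.mul_mem hg.2.1 hh.2.1, by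
        have : Commute g h := Subgroup.mem_centralizer_iff.1 hh.2.1 g hg.1
        rw [this.mul_pow, hg.2.2, hh.2.2, one_mul]⟩
      inv_mem' := fun {g} hg => ⟨D.inv_mem hg.1, C.inv_mem hg.2.1, by
        rw [inv_pow, hg.2.2, inv_one]⟩ }
  have hW : ∀ g, g ∈ W ↔ g ∈ D ∧ g ∈ C ∧ g ^ p = 1 := fun g => Iff.rfl
  have hWN : W.Normal := ⟨fun g hg h =>
    ⟨hN.conj_mem g hg.1 h, hCN.conj_mem g hg.2.1 h, (hconj g h).2 hg.2.2⟩⟩
  have hpW : p ∣ Nat.card W := by
    have : Nontrivial D := (Subgroup.nontrivial_iff_ne_bot D).2 hD1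
    have hZ := hD.isPGroup.center_nontrivial
    have hZp : IsPGroup p (Subgroup.center D) := hD.isPGroup.to_subgroup _
    obtain ⟨k, hk, e⟩ := hZp.nontrivial_iff_card.1 hZ
    obtain ⟨z, hz⟩ := exists_prime_orderOf_dvd_card' (G := Subgroup.center D) p
      (e ▸ dvd_pow_self p hk.ne')
    have hzo : orderOf ((z : D) : N) = p := by
      rw [Subgroup.orderOf_coe, Subgroup.orderOf_coe, hz]
    have hzW : ((z : D) : N) ∈ W := ⟨(z : D).2, Subgroup.mem_centralizer_iff.2 fun h hh =>
      congrArg Subtype.val (Subgroup.mem_center_iff.1 z.2 ⟨h, hh⟩), by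
        rw [← hzo, pow_orderOf_eq_one]⟩
    rw [← hzo]
    exact W.orderOf_dvd_natCard hzW
  have e : (fun g : N => if g ^ p = 1 then (1 : ℂ) else 0) =
      (fun g => if g ^ p = 1 ∧ g ∈ C then (1 : ℂ) else 0) +
        (fun g => if g ^ p = 1 ∧ g ∉ C then (1 : ℂ) else 0) := by
    ext g
    by_cases h1 : g ^ p = 1 <;> by_cases h2 : g ∈ C <;> simp [h1, h2]
  rw [e, om_add]
  refine MemLocalIdeal.add ?_ ?_
  · have e2 : om (ξ : N → ℂ) (fun g => if g ^ p = 1 ∧ g ∈ C then (1 : ℂ) else 0) =
        (∑ w : W, (ξ : N → ℂ) w) / (ξ : N → ℂ) 1 := by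
      rw [om_eq_sum, ← Finset.sum_subtype (Finset.univ.filter (· ∈ W)) (by simp),
        Finset.sum_filter]
      congr 1
      refine Finset.sum_congr rfl fun g _ => ?_
      by_cases hg : g ∈ W
      · rw [if_pos hg, if_pos ⟨hg.2.2, hg.2.1⟩, one_mul]
      · rw [if_neg hg]
        split_ifs with h
        · rw [one_mul]
          have hgo : ∃ k : ℕ, orderOf g = p ^ k := by
            obtain ⟨k, -, hk⟩ := (Nat.dvd_prime_pow hM.prime (m := 1) (i := orderOf g)).1
              (by rw [pow_one]; exact orderOf_dvd_of_pow_eq_one h.1)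
            exact ⟨k, hk⟩
          exact irr_eq_zero_of_notMem_normal hM hb hD hξ (isPPart_self hM.prime hgo)
            fun hgD => hg ⟨hgD, h.2, h.1⟩
        · rw [zero_mul]
    rw [e2]
    by_cases hk : W ≤ charKer (ξ : N → ℂ)
    · have : ∑ w : W, (ξ : N → ℂ) w = Nat.card W * (ξ : N → ℂ) 1 := by
        rw [Finset.sum_congr rfl fun (w : W) _ => (ξ.isCharacter.le_charKer_iff.1 hk) w w.2]
        simp
      rw [this, mul_div_assoc, div_self ξ.2.apply_one_ne_zero, mul_one]
      exact (hM.natCast_mem_iff _).2 hpW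
    · have := ξ.2.sum_normal_eq_zero W hk 1
      simp only [mul_one] at this
      rw [this, zero_div]
      exact MemLocalIdeal.zero
  · refine memLocalIdeal_om_of_forall ξ.isClassFunction (fun g h => ?_) fun g => ?_
    · simp only [hconj, hCN.mem_comm_iff (a := h * g), inv_mul_cancel_left]
    · split_ifs with h
      · rw [one_mul]
        by_contra hne
        obtain ⟨y, hy, hyC⟩ := hD.exists_isConj_mem_centralizer hM hb hξ hne
        obtain ⟨c, rfl⟩ := isConj_iff.1 hy
        exact h.2 (by simpa [mul_assoc] using hCN.conj_mem _ hyC c⁻¹)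
      · rw [zero_mul]; exact MemLocalIdeal.zero


/-- Let χ be an irreducible character of the finite group G and p a prime. If χ g = 0 for every element g of order p, then the exponent of p in the degree χ(1) equals the exponent of p in the order of G (χ has p-defect zero). -/
theorem result {G : Type*} [Group G] [Finite G] (p : ℕ) [Fact p.Prime] (χ : Cfsg.IrrCharacter G) (hvan : ∀ g : G, orderOf g = p → (χ : G → ℂ) g = 0) : (Cfsg.charDegree (χ : G → ℂ)).factorization p = (Nat.card G).factorization p := by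
  classical
  have hp : p.Prime := Fact.out
  obtain ⟨M, hM⟩ := exists_isPModular hp
  have := hM.isMaximal
  have := Fintype.ofFinite G
  have hB := Blk.isPBlock_blockOf (M := M) χ
  have hχ := mem_blockOf_self (M := M) χ
  obtain ⟨D, hD⟩ := hB.exists_isDefectGroup p
  have hD1 : D = ⊥ := by
    by_contra hD1
    obtain ⟨b, hb, hbD, he⟩ := hD.exists_br_eq_epsIn hM hB
    have hind := (hD.isInducedBlock_iff hM hB hb).2 he
    obtain ⟨ξ, hξ⟩ := hb.nonempty
    have h1 := aux hM hb hbD (fun h => hD1 (by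
      rw [Subgroup.subgroupOf_eq_bot] at h
      exact h.eq_bot_of_le Subgroup.le_normalizer)) hξ
    have h2 := indAlong_of_isInducedBlock hind ξ hξ χ hχ
      (fun g => if g ^ p = 1 then (1 : ℂ) else 0)
      (fun g h => by simp only [conj_pow, mul_inv_eq_one, mul_eq_left])
      (fun g => MemLocalRing.ite MemLocalRing.one MemLocalRing.zero)
    have h3 : om (χ : G → ℂ) (fun g => if g ^ p = 1 then (1 : ℂ) else 0) = 1 := by
      rw [om_eq_sum, Finset.sum_eq_single 1]
      · simp [χ.2.apply_one_ne_zero]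
      · intro g _ hg
        split_ifs with h
        · rw [hvan g (orderOf_eq_prime h hg), mul_zero]
        · rw [zero_mul]
      · simp
    have h4 : (fun h : Subgroup.normalizer (D : Set G) =>
        if ((Subgroup.normalizer (D : Set G)).subtype h) ^ p = 1 then (1 : ℂ) else 0) =
        fun h => if h ^ p = 1 then (1 : ℂ) else 0 := by
      ext h
      simp only [Subgroup.coe_subtype, ← Subgroup.coe_pow, OneMemClass.coe_eq_one]
    rw [h3, h4] at h2
    have h1' : MemLocalIdeal M (om (ξ : Subgroup.normalizer (D : Set G) → ℂ)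
        fun h : Subgroup.normalizer (D : Set G) => if h ^ p = 1 then (1 : ℂ) else 0) := by
      convert h1
    have h5 := h1'.sub h2
    rw [sub_sub_cancel] at h5
    exact MemLocalIdeal.not_one h5
  have h1 := hD.card_eq_pow hM hB
  rw [hD1, Subgroup.card_bot] at h1
  have h2 : blockDefect p (blockOf M (χ : G → ℂ)) = 0 := by
    rcases Nat.pow_eq_one.1 h1.symm with h | h
    · exact absurd h hp.one_lt.ne'
    · exact h
  have h3 := minVal_add_blockDefect (p := p) hB.nonempty
  have h4 := minVal_le (p := p) hχ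
  have h5 := factorization_charDegree_le (p := p) χ.2
  omega

end Cfsg.Agent.S0928
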