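import Mathlib
import Cfsg.Statements.S0937
import Cfsg.Agent.Blk.Contrib

set_option autoImplicit false
open Cfsg

namespace Cfsg.Agent.S0937

open Cfsg.Agent.Ch Cfsg.Agent.Blk.Om

/-- Let H be a subgroup of the finite group G and fix a maximal ideal M of the algebraic integers containing the prime p. If the block b of H induces the block B of G and χ ∈ B has height zero, then there is ξ ∈ b of height zero whose multiplicity in the restriction of χ to H is a natural number not divisible by p. -/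
theorem result {G : Type*} [Group G] [Fintype G] (p : ℕ) [Fact p.Prime] (M : Ideal Cfsg.AlgInt) (hM : Cfsg.IsPModular p M) (H : Subgroup G) [Fintype H] (b : Set (Cfsg.IrrCharacter H)) (B : Set (Cfsg.IrrCharacter G)) (hind : Cfsg.IsInducedBlock M H b B) (χ : Cfsg.IrrCharacter G) (hχ : χ ∈ B) (h0 : Cfsg.blockHeight p B (χ : G → ℂ) = 0) : ∃ ξ ∈ b, Cfsg.blockHeight p b (ξ : H → ℂ) = 0 ∧ ∃ n : ℕ, Cfsg.classInner (fun h : H => (χ : G → ℂ) h) (ξ : H → ℂ) = (n : ℂ) ∧ ¬ p ∣ n := by
  classical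
  haveI := hM.isMaximal
  obtain ⟨ξ, hξ⟩ := block_nonempty hind.1
  have h1 := indAlong_of_isInducedBlock hind ξ hξ χ hχ _
    (isClassFunction_zReg (p := p) χ.isClassFunction)
    (memLocalRing_zReg (p := p) (M := M) χ.isGeneralizedCharacter)
  rw [zReg_restrict] at h1
  have h2 := om_zReg_not_mem_of_height_zero hM hind.2.1 hχ hχ h0
  have h3 : ¬ MemLocalIdeal M (om (ξ : H → ℂ) (zReg p (fun h : H => (χ : G → ℂ) h))) := fun h4 =>
    h2 (by simpa using h4.sub h1)
  obtain ⟨m, hm, hsum⟩ := (χ.isCharacter.restrict H).exists_mult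
  rw [hsum, zReg_sum_natCast, om_sum] at h3
  by_contra hcon
  push Not at hcon
  refine h3 (MemLocalIdeal.sum fun ψ _ => ?_)
  rw [om_smul]
  by_cases h5 : MemLocalIdeal M (om (ξ : H → ℂ) (zReg p (ψ : H → ℂ)))
  · exact MemLocalIdeal.mul_left (MemLocalRing.natCast _) h5
  · obtain ⟨h6, h7⟩ := (om_zReg_not_mem_iff hM hind.1 hξ).1 h5
    exact ((hM.natCast_mem_iff _).2 (hcon ψ h6 h7 _ (hm ψ))).mul_right
      (memLocalRing_om_zReg ξ ψ.isGeneralizedCharacter)

end Cfsg.Agent.S0937
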