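import Mathlib
import Cfsg.Statements.S0939
import Cfsg.Agent.Blk.Cover
import Cfsg.Agent.GT.PPrimeCore

set_option autoImplicit false
open Cfsg

namespace Cfsg.Agent.S0939

open Cfsg.Agent.Ch Cfsg.Agent.Blk.Om

/-- Let G be a finite group with a normal p-complement (the largest normal subgroup O_p'(G) of order prime to p has p-power index). Then, relative to any maximal ideal M of the algebraic integers containing p, the principal block of G is the set of irreducible characters χ with χ n = χ 1 for every n ∈ O_p'(G). -/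
theorem result {G : Type*} [Group G] [Finite G] (p : ℕ) [Fact p.Prime] (M : Ideal Cfsg.AlgInt) (hM : Cfsg.IsPModular p M) (hnc : ∃ k : ℕ, (Cfsg.pPrimeCore p G).index = p ^ k) : Cfsg.principalBlock M G = {χ : Cfsg.IrrCharacter G | ∀ n ∈ Cfsg.pPrimeCore p G, (χ : G → ℂ) n = (χ : G → ℂ) 1} := by
  haveI := hM.isMaximal
  have hK := GT.not_dvd_card_pPrimeCore (G := G) hM.prime
  ext χ
  rw [Set.mem_setOf_eq, ← χ.isCharacter.le_charKer_iff]
  have h1 : pPrimeCore p G ≤ charKer (irrOne G : G → ℂ) := by
    rw [coe_irrOne, charKer_one]; exact le_top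
  refine ⟨fun h => le_charKer_of_sameBlock hM hK h1 h, fun h => ?_⟩
  have := Covers.eq_of_index_pow hM hnc (isPBlock_principal (M := M)) (isPBlock_blockOf χ)
    (isPBlock_blockOf (irrOne (pPrimeCore p G)))
    ⟨_, irrOne_mem_principal, _, self_mem_blockOf _, over_one_iff.2 h1⟩
    ⟨χ, self_mem_blockOf χ, _, self_mem_blockOf _, over_one_iff.2 h⟩
  exact this ▸ self_mem_blockOf χ

end Cfsg.Agent.S0939
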