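import Mathlib
import Cfsg.Statements.S0940
import Cfsg.Agent.Blk.Sub

set_option autoImplicit false
open Cfsg

namespace Cfsg.Agent.S0940

open Cfsg.Agent.Blk Cfsg.Agent.Ch in
theorem card_pairs {G : Type*} [Group G] [Fintype G] {p : ℕ} (hp : p.Prime) (m : ℂ) (g : G) :
    m * Nat.card {xy : G × G // (∃ k : ℕ, orderOf xy.1 = p ^ k) ∧ ¬ p ∣ orderOf xy.2 ∧
      xy.1 * xy.2 = g} = ∑ y, Om.zReg p (fun _ => 1) y * (by classical exact
        if (y * g⁻¹) ^ ordProj[p] (Nat.card G) = 1 then m else 0) := by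
  classical
  have e : ∀ y : G, (y * g⁻¹) ^ ordProj[p] (Nat.card G) = 1 ↔
      ∃ k : ℕ, orderOf (g * y⁻¹) = p ^ k := fun y => by
    rw [← orderOf_dvd_iff_pow_eq_one, ← orderOf_inv, mul_inv_rev, inv_inv]
    refine ⟨fun h => ((Nat.dvd_prime_pow hp).1 h).imp fun _ h => h.2, fun ⟨k, hk⟩ => ?_⟩
    rw [hk]
    exact pow_dvd_pow _ ((hp.pow_dvd_iff_le_factorization Nat.card_pos.ne').1
      (hk ▸ orderOf_dvd_natCard _))
  rw [Nat.card_congr (β := {y : G // ¬ p ∣ orderOf y ∧ (y * g⁻¹) ^ ordProj[p] (Nat.card G) = 1})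
    ⟨fun x => ⟨x.1.2, x.2.2.1, (e _).2 (by rw [mul_inv_eq_of_eq_mul x.2.2.2.symm]; exact x.2.1)⟩,
      fun y => ⟨(g * y.1⁻¹, y.1), (e _).1 y.2.2, y.2.1, by simp⟩,
      fun x => Subtype.ext (Prod.ext (mul_inv_eq_of_eq_mul x.2.2.2.symm) rfl), fun _ => rfl⟩,
    Nat.card_eq_fintype_card, Fintype.card_subtype, Finset.card_filter, Nat.cast_sum,
    Finset.mul_sum]
  refine Finset.sum_congr rfl fun y _ => ?_
  rw [Om.zReg_apply]
  by_cases h1 : p ∣ orderOf y <;> by_cases h2 : (y * g⁻¹) ^ ordProj[p] (Nat.card G) = 1 <;>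
    simp [h1, h2, -Nat.card_eq_fintype_card]

/-- Let G be a finite group and M a maximal ideal of the algebraic integers containing the prime p. For every p-regular g, the idempotent coefficient of the principal block at g (the inverse of the group order times the sum over χ in the principal block of χ 1 * conj (χ g)) is congruent modulo the local ideal at M to N / R, where N is the number of pairs (x, y) with x of p-power order, y of order prime to p and x * y = g, and R is the number of elements of G of order prime to p. -/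
theorem result {G : Type*} [Group G] [Finite G] (p : ℕ) [Fact p.Prime] (M : Ideal Cfsg.AlgInt) (hM : Cfsg.IsPModular p M) (g : G) (hg : ¬ p ∣ orderOf g) : Cfsg.MemLocalIdeal M (Cfsg.blockCoeff (Cfsg.principalBlock M G) g - (Nat.card {xy : G × G // (∃ k : ℕ, orderOf xy.1 = p ^ k) ∧ ¬ p ∣ orderOf xy.2 ∧ xy.1 * xy.2 = g} : ℂ) / (Nat.card {y : G // ¬ p ∣ orderOf y} : ℂ)) := by
  classical
  have := hM.isMaximal
  have := Fintype.ofFinite G
  have hp := hM.prime
  have hG : Nat.card G ≠ 0 := Nat.card_pos.ne'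
  have hB := Agent.Blk.Om.isPBlock_principal (M := M) (G := G)
  have hJ := Agent.Ch.isGeneralizedCharacter_indicator_pow_eq_one (G := G)
    (m := ordCompl[p] (Nat.card G)) (n := ordProj[p] (Nat.card G))
    (Nat.Coprime.pow_right _ (Nat.coprime_ordCompl hp hG).symm)
    (by rw [mul_comm, Nat.ordProj_mul_ordCompl_eq_self])
  have h1 := card_pairs hp (ordCompl[p] (Nat.card G) : ℕ) g
  have hz := Agent.Blk.Om.isClassFunction_zReg (p := p) (G := G) (IsCharacter.one.isClassFunction)
  have hm := Nat.not_dvd_ordCompl hp hG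
  have hR := Agent.Blk.Om.not_dvd_card_pRegular (G := G) hp
  generalize ordCompl[p] (Nat.card G) = m at *
  set J : G → ℂ := fun x => if x ^ ordProj[p] (Nat.card G) = 1 then (m : ℂ) else 0 with hJ'
  have h2 : Cfsg.blockPart (principalBlock M G) J g⁻¹ = m * blockCoeff (principalBlock M G) g := by
    rw [Agent.Blk.blockPart_congr_of_regular hM (hB.memLocalRing_blockCoeff hM)
      (by rwa [orderOf_inv]) (ϑ' := ((m : ℂ) * (Nat.card G : ℂ)⁻¹) • Agent.Ch.regChar G)
      fun y hy => ?_, Agent.Blk.blockPart_smul, Agent.Blk.blockCoeff_eq_sum_ite, Pi.smul_apply,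
      Agent.Blk.blockPart_apply, smul_eq_mul, mul_assoc]
    · simp only [Agent.Ch.classInner_regChar_left, ← IsIrrCharacter.coe_charDegree (Subtype.prop _),
        map_natCast]
    · by_cases hy1 : y = 1
      · simp [hy1, J, -Nat.card_eq_fintype_card, hG]
      · rw [Pi.smul_apply, Agent.Ch.regChar_of_ne hy1, smul_zero]
        refine if_neg fun h => hy1 (orderOf_eq_one_iff.1 ?_)
        exact Nat.eq_one_of_dvd_coprimes (Nat.Coprime.pow_left _
          ((Nat.Prime.coprime_iff_not_dvd hp).2 hy)) (orderOf_dvd_of_pow_eq_one h) dvd_rfl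
  have h3 : MemLocalIdeal M (∑ y, Agent.Blk.Om.zReg p (fun _ => 1) y * J (y * g⁻¹) -
      Nat.card {y : G // ¬ p ∣ orderOf y} * Cfsg.blockPart (principalBlock M G) J g⁻¹) := by
    simp only [hJ.isClassFunction.apply_eq_sum_irr (_ * _), Finset.mul_sum]
    rw [Finset.sum_comm, Agent.Blk.blockPart_apply, Finset.mul_sum, ← Finset.sum_sub_distrib]
    refine .sum fun χ _ => ?_
    simp only [mul_left_comm _ (classInner J _), ← Finset.mul_sum]
    rw [χ.2.sum_mul_apply_mul hz, ← Agent.Blk.Om.om_eq_sum]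
    split_ifs with hχ
    · rw [mul_left_comm (Nat.card _ : ℂ), ← mul_sub, ← sub_mul, ← Agent.Blk.Om.om_one_zReg_one]
      exact ((Agent.Blk.Om.block_om_sub hB hχ Agent.Blk.Om.irrOne_mem_principal hz
        (Agent.Blk.Om.memLocalRing_zReg .one)).mul_right
          (.of_isIntegral (χ.isGeneralizedCharacter.isIntegral _))).mul_left
            (Agent.Blk.memLocalRing_classInner_genChar hJ χ.isGeneralizedCharacter)
    · rw [show Agent.Blk.Om.om (χ : G → ℂ) (Agent.Blk.Om.zReg p fun _ => 1) = 0 from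
        Agent.Blk.Om.om_zReg_eq_zero hM (χ := Agent.Ch.irrOne G) fun h => hχ h.symm]
      simpa using MemLocalIdeal.zero
  rw [h2, ← show _ = ∑ y, Agent.Blk.Om.zReg p (fun _ => 1) y * J (y * g⁻¹) from h1] at h3
  have h4 : (m : ℂ) ≠ 0 := Nat.cast_ne_zero.2 (by rintro rfl; simp at hm)
  have h5 : (Nat.card {y : G // ¬ p ∣ orderOf y} : ℂ) ≠ 0 :=
    Nat.cast_ne_zero.2 fun h => hR (h ▸ dvd_zero p)
  convert ((h3.mul_right (hM.inv_natCast_mem hm)).mul_right (hM.inv_natCast_mem hR)).neg using 1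
  field_simp
  ring

end Cfsg.Agent.S0940
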