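import Mathlib
import Cfsg.Statements.S0943
import Cfsg.Agent.Ch.Orthogonality

set_option autoImplicit false
open Cfsg

namespace Cfsg.Agent.S0943

open Cfsg.Agent.Ch

/-- Let χ be an irreducible character of the finite group G and u, v ∈ G. If χ (x * y) = χ (u * v) whenever x is conjugate to u and y is conjugate to v, then χ u * χ v = χ 1 * χ (u * v). (Multiply the class sums of u and v and apply the central character of χ.) -/
theorem result {G : Type*} [Group G] [Finite G] (χ : Cfsg.IrrCharacter G) (u v : G) (hc : ∀ x y : G, IsConj u x → IsConj v y → (χ : G → ℂ) (x * y) = (χ : G → ℂ) (u * v)) : (χ : G → ℂ) u * (χ : G → ℂ) v = (χ : G → ℂ) 1 * (χ : G → ℂ) (u * v) := by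
  classical
  haveI := Fintype.ofFinite G
  have hcf := χ.isClassFunction
  have h1 := χ.2.apply_one_ne_zero
  -- average over conjugates of u
  have key : ∀ y : G, IsConj v y →
      centralChar (χ : G → ℂ) u * (χ : G → ℂ) y =
        ((Subgroup.centralizer ({u} : Set G)).index : ℂ) * (χ : G → ℂ) (u * v) := by
    intro y hy
    have h := χ.2.sum_mul_apply_mul (isClassFunction_classInd u) y
    rw [sum_classInd_mul u hcf] at h
    rw [centralChar, ← h]
    have h2 := sum_classInd_mul u (IsClassFunction.const (G := G) ((χ : G → ℂ) (u * v)))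
    rw [← h2]
    refine Finset.sum_congr rfl fun x _ => ?_
    by_cases hx : IsConj u x
    · rw [hc x y hx hy]
    · simp [classInd_of_not_isConj hx]
  have h3 := key v (IsConj.refl v)
  have hi : ((Subgroup.centralizer ({u} : Set G)).index : ℂ) ≠ 0 :=
    Nat.cast_ne_zero.2 (Subgroup.index_ne_zero_of_finite)
  rw [centralChar] at h3
  field_simp at h3
  linear_combination h3

end Cfsg.Agent.S0943
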