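import Mathlib
import Cfsg.Statements.S0947
import Cfsg.Agent.Blk.PB
import Cfsg.Agent.GT.PPrimeCore

set_option autoImplicit false
open Cfsg

namespace Cfsg.Agent.S0947

/-- Let z ≠ 1 be a p-element of the finite group G with centralizer H, and fix a maximal ideal M of the algebraic integers containing p. (i) For every y ∈ H of order prime to p, the sum over ζ in the principal block of G of |ζ (z * y)|² equals the sum over χ in the principal block of H of |χ y|². (ii) If moreover H has a normal p-complement (its largest normal subgroup of order prime to p has p-power index), that common value is the largest power of p dividing the order of H. -/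
theorem result {G : Type*} [Group G] [Finite G] (p : ℕ) [Fact p.Prime] (M : Ideal Cfsg.AlgInt) (hM : Cfsg.IsPModular p M) (z : G) (hz : ∃ k : ℕ, orderOf z = p ^ k) (hz1 : z ≠ 1) (y : Subgroup.centralizer ({z} : Set G)) (hy : ¬ p ∣ orderOf y) : (∑ᶠ ζ ∈ Cfsg.principalBlock M G, ‖(ζ : G → ℂ) (z * (y : G))‖ ^ 2 = ∑ᶠ χ ∈ Cfsg.principalBlock M (Subgroup.centralizer ({z} : Set G)), ‖(χ : Subgroup.centralizer ({z} : Set G) → ℂ) y‖ ^ 2) ∧ ((∃ k : ℕ, (Cfsg.pPrimeCore p (Subgroup.centralizer ({z} : Set G))).index = p ^ k) → ∑ᶠ ζ ∈ Cfsg.principalBlock M G, ‖(ζ : G → ℂ) (z * (y : G))‖ ^ 2 = ((p ^ (Nat.card (Subgroup.centralizer ({z} : Set G))).factorization p : ℕ) : ℝ)) := by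
  have hC := Blk.mem_centralizer_singleton_iff' z
  have h1 := Blk.PB.sum_mul_inv_eq hM hz hC hy hy
  have hn : ∀ {K : Type _} [Group K] [Finite K] (g : K),
      ((∑ᶠ ζ ∈ Cfsg.principalBlock M K, ‖(ζ : K → ℂ) g‖ ^ 2 : ℝ) : ℂ) =
        ∑ χ ∈ Blk.PB.pb M K, (χ : K → ℂ) g * (χ : K → ℂ) g⁻¹ := by
    intro K _ _ g
    rw [Blk.PB.finsum_pb]
    push_cast
    refine Finset.sum_congr rfl fun χ _ => ?_
    rw [χ.isCharacter.apply_inv, Complex.mul_conj']
  refine ⟨Complex.ofReal_injective (by rw [hn, hn, h1]), fun ⟨k, hk⟩ => ?_⟩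
  have hnc := GT.Tr.hasNormalPComplement_of_normal _
    (GT.not_dvd_card_pPrimeCore hM.prime) hk
  apply Complex.ofReal_injective
  rw [hn, h1, Complex.ofReal_natCast, ← Blk.PB.sum_degree_mul_of_nc hM hnc (y := y⁻¹)
    (by rwa [orderOf_inv])]
  refine Finset.sum_congr rfl fun ψ hψ => ?_
  rw [← Blk.PB.apply_eq_of_nc hM hnc (Blk.PB.mem_pb.mp hψ) hy 1, mul_one]

end Cfsg.Agent.S0947
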