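import Mathlib
import Cfsg.Statements.S0951
import Cfsg.Agent.Blk.PBQ8

set_option autoImplicit false
open Cfsg

namespace Cfsg.Agent.S0951

/-- Let S be a Sylow 2-subgroup of the finite group G isomorphic to the quaternion group of order 8. Suppose G has no nontrivial normal subgroup of odd order and G ≠ S. Then, relative to any maximal ideal M of the algebraic integers containing 2, the principal block of G consists of exactly 7 irreducible characters. -/
theorem result {G : Type*} [Group G] [Finite G] (M : Ideal Cfsg.AlgInt) (hM : Cfsg.IsPModular 2 M) (S : Sylow 2 G) (e : (S : Subgroup G) ≃* QuaternionGroup 2) (hO : ∀ N : Subgroup G, N.Normal → Odd (Nat.card N) → N = ⊥) (hG : (S : Subgroup G) ≠ ⊤) : Nat.card (Cfsg.principalBlock M G) = 7 := by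
  obtain ⟨z, h⟩ := Blk.Q8.exists_qd _ e
  rw [Blk.PB.natCard_principalBlock]
  refine (Blk.PB.q8_block hM h fun hnc => hG ?_).1
  obtain ⟨N, hN, hc⟩ := (GT.Tr.hasNormalPComplement_iff_sylow S).mp hnc
  have hN1 : N = ⊥ := by
    apply hO N hN
    rw [← hc.index_eq_card, ← Nat.not_even_iff_odd, even_iff_two_dvd]
    exact S.not_dvd_index
  have := hc.sup_eq_top
  rwa [hN1, bot_sup_eq] at this

end Cfsg.Agent.S0951
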