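import Mathlib
import Cfsg.Statements.S0957
import Cfsg.Agent.Blk.Defect

set_option autoImplicit false
open Cfsg

namespace Cfsg.Agent.S0957

/-- Conjugation action of a subgroup on pairs in the same right coset. -/
@[reducible] def act {G : Type*} [Group G] (P : Subgroup G) (g h : G) :
    MulAction P {yz : G × G // IsConj g yz.1 ∧ IsConj h yz.2 ∧ yz.2 * yz.1⁻¹ ∈ P} where
  smul u xy := ⟨(u * xy.1.1 * (u : G)⁻¹, u * xy.1.2 * (u : G)⁻¹),
    xy.2.1.trans (isConj_iff.2 ⟨u, rfl⟩), xy.2.2.1.trans (isConj_iff.2 ⟨u, rfl⟩), by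
      have h1 := P.mul_mem (P.mul_mem u.2 xy.2.2.2) (P.inv_mem u.2)
      convert h1 using 1
      group⟩
  one_smul xy := Subtype.ext (Prod.ext (by change ((1 : P) : G) * _ * _ = _; simp)
    (by change ((1 : P) : G) * _ * _ = _; simp))
  mul_smul u v xy := Subtype.ext (Prod.ext
    (by change ((u * v : P) : G) * _ * _ = (u : G) * ((v : G) * _ * _) * _; simp [mul_assoc])
    (by change ((u * v : P) : G) * _ * _ = (u : G) * ((v : G) * _ * _) * _; simp [mul_assoc]))

/-- Let P be a Sylow p-subgroup of the finite group G, let g, h ∈ G and let p ^ d be the order of a Sylow p-subgroup of the centralizer of g. Then the number of pairs (y, z) with y conjugate to g, z conjugate to h and z * y⁻¹ ∈ P is divisible by the order of P divided by p ^ d. -/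
theorem result {G : Type*} [Group G] [Finite G] (p : ℕ) [Fact p.Prime] (P : Sylow p G) (g h : G) (S : Sylow p (Subgroup.centralizer ({g} : Set G))) : Nat.card P / Nat.card S ∣ Nat.card {yz : G × G // IsConj g yz.1 ∧ IsConj h yz.2 ∧ yz.2 * yz.1⁻¹ ∈ (P : Subgroup G)} := by
  classical
  let := act (P : Subgroup G) g h
  have hp : p.Prime := Fact.out
  have := Fintype.ofFinite (MulAction.orbitRel.Quotient (P : Subgroup G)
    {yz : G × G // IsConj g yz.1 ∧ IsConj h yz.2 ∧ yz.2 * yz.1⁻¹ ∈ (P : Subgroup G)})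
  rw [Nat.card_congr (MulAction.selfEquivSigmaOrbits' (P : Subgroup G)
    {yz : G × G // IsConj g yz.1 ∧ IsConj h yz.2 ∧ yz.2 * yz.1⁻¹ ∈ (P : Subgroup G)}),
    Nat.card_sigma]
  refine Finset.dvd_sum fun w _ => ?_
  induction w using Quotient.inductionOn' with | h yz => ?_
  rw [MulAction.orbitRel.Quotient.orbit_mk, Nat.card_coe_set_eq, ← MulAction.index_stabilizer]
  set T := MulAction.stabilizer (P : Subgroup G) yz
  -- the stabilizer is conjugate to a `p`-subgroup of the centralizer of `g`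
  obtain ⟨x, hx⟩ := isConj_iff.1 yz.2.1
  have hD : Agent.Blk.IsClassDefect p g _ := ⟨S, rfl⟩
  have hD' := hD.conj x
  rw [hx] at hD'
  have hT : IsPGroup p (T.map (P : Subgroup G).subtype) := (P.2.to_subgroup T).map _
  obtain ⟨y, -, hy⟩ := hD'.exists_conj_le hT (by
    rintro _ ⟨u, hu, rfl⟩
    have h1 : (u : G) * yz.1.1 * (u : G)⁻¹ = yz.1.1 := congrArg (fun t => t.1.1) hu
    exact Subgroup.mem_centralizer_singleton_iff.2 (mul_inv_eq_iff_eq_mul.1 h1))
  have h1 := Subgroup.card_dvd_of_le hy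
  rw [Agent.GT.Tr.card_map_conj, Agent.GT.Tr.card_map_conj,
    Subgroup.card_map_of_injective (Subgroup.subtype_injective _),
    Subgroup.card_map_of_injective (Subgroup.subtype_injective _)] at h1
  obtain ⟨m, hm⟩ := h1
  have h2 : Nat.card S ∣ Nat.card P := by
    rw [S.card_eq_multiplicity, P.card_eq_multiplicity]
    exact pow_dvd_pow p ((Nat.factorization_le_iff_dvd Nat.card_pos.ne' Nat.card_pos.ne').2
      (Subgroup.card_subgroup_dvd_card _) p)
  obtain ⟨n, hn⟩ := h2
  have h3 := T.card_mul_index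
  rw [hn, Nat.mul_div_cancel_left _ Nat.card_pos]
  rw [hn, hm, mul_assoc] at h3
  exact ⟨m, by rw [Nat.eq_of_mul_eq_mul_left Nat.card_pos h3, mul_comm]⟩

end Cfsg.Agent.S0957
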