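import Mathlib
import Cfsg.Statements.S0958
import Cfsg.Agent.Blk.Induced

set_option autoImplicit false
open Cfsg

namespace Cfsg.Agent.S0958

/-- Let P be a p-subgroup of the finite group G and H a subgroup with P ⊔ C_G(P) ≤ H ≤ N_G(P); fix a maximal ideal M of the algebraic integers containing p. Then a block B of G is induced by some block of H if and only if some conjugate of P is contained in a defect group of B. -/
theorem result {G : Type*} [Group G] [Finite G] (p : ℕ) [Fact p.Prime] (M : Ideal Cfsg.AlgInt) (hM : Cfsg.IsPModular p M) (P H : Subgroup G) (hP : IsPGroup p P) (hPH : P ⊔ Subgroup.centralizer (P : Set G) ≤ H) (hHN : H ≤ Subgroup.normalizer (P : Set G)) (B : Set (Cfsg.IrrCharacter G)) (hB : Cfsg.IsPBlock M B) : (∃ b : Set (Cfsg.IrrCharacter H), Cfsg.IsInducedBlock M H b B) ↔ ∃ D : Subgroup G, Cfsg.IsDefectGroup p M B D ∧ ∃ x : G, P.map (MulAut.conj x).toMonoidHom ≤ D := by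
  have := hM.isMaximal
  rw [Agent.Blk.exists_isInducedBlock_iff_br hM hP (le_sup_left.trans hPH)
    (le_sup_right.trans hPH) hHN hB]
  obtain ⟨D, hD⟩ := hB.exists_isDefectGroup p
  exact ⟨fun h => ⟨D, hD, (hD.br_eps_ne_zero_iff hM hB hP).1 h⟩,
    fun ⟨E, hE, h⟩ => (hE.br_eps_ne_zero_iff hM hB hP).2 h⟩

end Cfsg.Agent.S0958
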