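import Mathlib
import Cfsg.Statements.S0963
import Cfsg.Agent.Blk.Cover
import Cfsg.Agent.Blk.Local2

set_option autoImplicit false
open Cfsg

namespace Cfsg.Agent.S0963

open Cfsg.Agent.Ch Cfsg.Agent.Blk.Om

/-- Let N be a normal subgroup of the finite group G, χ an irreducible character of G and θ an irreducible character of N. Then θ occurs in the restriction of χ to N if and only if, for every n ∈ N, the central character of χ at n (class size in G times χ n over χ 1) equals the sum of θ m / θ 1 over the elements m of N conjugate in G to n. -/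
theorem result {G : Type*} [Group G] [Fintype G] (N : Subgroup G) [N.Normal] [Fintype N] (χ : Cfsg.IrrCharacter G) (θ : Cfsg.IrrCharacter N) : Cfsg.classInner (fun n : N => (χ : G → ℂ) n) (θ : N → ℂ) ≠ 0 ↔ ∀ n : N, Cfsg.centralChar (χ : G → ℂ) (n : G) = Cfsg.inducedCentralChar N (θ : N → ℂ) (n : G) := by
  refine ⟨fun h n => centralChar_eq_of_over χ.2 θ.2 (over_subtype_iff.2 h) n, fun h => ?_⟩
  obtain ⟨φ, hφ⟩ := exists_over_under N.subtype χ
  have hst := blkStab_orbSet ({φ} : Set (IrrCharacter N))
  have hcl := isClassFunction_blockCoeff (overSet N ({φ} : Set (IrrCharacter N)))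
  have hs : ∀ g, g ∉ N → blockCoeff (overSet N ({φ} : Set (IrrCharacter N))) g = 0 :=
    fun g hg => by rw [blockCoeff_overSet', extendByZero_of_not_mem _ _ hg]
  have key : (omLin (χ : G → ℂ) - omAlong N.subtype (θ : N → ℂ))
      (blockCoeff (overSet N ({φ} : Set (IrrCharacter N)))) = 0 := by
    classical
    haveI := Fintype.ofFinite (ConjClasses G)
    rw [map_classFun_eq_sum _ hcl]
    refine Finset.sum_eq_zero fun c _ => ?_
    by_cases hg : (Quotient.out c : G) ∈ N
    · have := h ⟨_, hg⟩
      rw [inducedCentralChar_eq_om, ← om_classInd χ.isClassFunction, ← sub_eq_zero] at this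
      exact mul_eq_zero_of_right _ this
    · rw [hs _ hg, zero_mul]
  rw [LinearMap.sub_apply, omLin_apply, omAlong_apply,
    om_blockCoeff_of_mem (A := overSet N {φ}) ⟨φ, rfl, hφ⟩, blockCoeff_overSet'] at key
  have e : (fun h : N => extendByZero N (blockCoeff (orbSet ({φ} : Set (IrrCharacter N))))
      (N.subtype h)) = blockCoeff (orbSet ({φ} : Set (IrrCharacter N))) :=
    funext fun n => extendByZero_coe _ _ n
  rw [e] at key
  have hθ : θ ∈ orbSet ({φ} : Set (IrrCharacter N)) := by
    by_contra hc
    rw [om_blockCoeff_of_not_mem hc, sub_zero] at key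
    exact one_ne_zero key
  obtain ⟨g, _, rfl, rfl⟩ := hθ
  exact over_subtype_iff.1 ((over_conjIrr_iff χ.isClassFunction g _).2 hφ)

end Cfsg.Agent.S0963
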