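import Mathlib
import Cfsg.Statements.S0966
import Cfsg.Agent.Blk.Cover

set_option autoImplicit false
open Cfsg

namespace Cfsg.Agent.S0966

open Cfsg.Agent.Ch Cfsg.Agent.Blk.Om

/-- Let N be a normal subgroup of p-power index in the finite group G and b a block of N relative to a maximal ideal M of the algebraic integers containing p. Then there is exactly one block B of G containing a character whose restriction to N has a constituent in b. -/
theorem result {G : Type*} [Group G] [Fintype G] (p : ℕ) [Fact p.Prime] (M : Ideal Cfsg.AlgInt) (hM : Cfsg.IsPModular p M) (N : Subgroup G) [N.Normal] [Fintype N] (hidx : ∃ k : ℕ, N.index = p ^ k) (b : Set (Cfsg.IrrCharacter N)) (hb : Cfsg.IsPBlock M b) : ∃! B : Set (Cfsg.IrrCharacter G), Cfsg.IsPBlock M B ∧ ∃ χ ∈ B, ∃ θ ∈ b, Cfsg.classInner (fun n : N => (χ : G → ℂ) n) (θ : N → ℂ) ≠ 0 := by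
  haveI := hM.isMaximal
  simp only [← covers_subtype_iff]
  obtain ⟨B, hB, h⟩ := exists_covers_over hb
  exact ⟨B, ⟨hB, h⟩, fun B' h' => h'.2.eq_of_index_pow hM hidx h'.1 hB hb h⟩

end Cfsg.Agent.S0966
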