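import Mathlib
import Cfsg.Statements.S0970
import Cfsg.Agent.Blk.CoverDict

set_option autoImplicit false
open Cfsg

namespace Cfsg.Agent.S0970

open Cfsg.Agent.Ch Cfsg.Agent.Blk.Om

open Cfsg.Agent.Blk.Mod Cfsg.Agent.GT

/-- Let N be a normal subgroup of the finite group G and fix a maximal ideal M of the algebraic integers containing the prime p. Let b be a block of N that is invariant under conjugation by G, and B a block of G covering b (some χ ∈ B has a constituent in b) whose defect is at least that of every block covering b. If P is a defect group of B, then p does not divide the index of P ⊔ N, the subgroup P ∩ N of N is a defect group of b, and the defect of B equals the defect of b plus the exponent of p in the index of N. -/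
theorem result {G : Type*} [Group G] [Fintype G] (p : ℕ) [Fact p.Prime] (M : Ideal Cfsg.AlgInt) (hM : Cfsg.IsPModular p M) (N : Subgroup G) [hN : N.Normal] [Fintype N] (b : Set (Cfsg.IrrCharacter N)) (hb : Cfsg.IsPBlock M b) (hinv : ∀ g : G, ∀ θ ∈ b, ∀ θ' : Cfsg.IrrCharacter N, (∀ n : N, (θ' : N → ℂ) n = (θ : N → ℂ) ⟨g * n * g⁻¹, hN.conj_mem n n.2 g⟩) → θ' ∈ b) (B : Set (Cfsg.IrrCharacter G)) (hB : Cfsg.IsPBlock M B) (hcov : ∃ χ ∈ B, ∃ θ ∈ b, Cfsg.classInner (fun n : N => (χ : G → ℂ) n) (θ : N → ℂ) ≠ 0) (hmax : ∀ B' : Set (Cfsg.IrrCharacter G), Cfsg.IsPBlock M B' → (∃ χ ∈ B', ∃ θ ∈ b, Cfsg.classInner (fun n : N => (χ : G → ℂ) n) (θ : N → ℂ) ≠ 0) → Cfsg.blockDefect p B' ≤ Cfsg.blockDefect p B) (P : Subgroup G) (hP : Cfsg.IsDefectGroup p M B P) : ¬ p ∣ (P ⊔ N).index ∧ Cfsg.IsDefectGroup p M b ((P ⊓ N).subgroupOf N) ∧ Cfsg.blockDefect p B = Cfsg.blockDefect p b + N.index.factorization p := by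
  haveI := hM.isMaximal
  haveI := hM.charP
  have hp : p.Prime := Fact.out
  have hst : blkStab N b = ⊤ := eq_top_iff.2 fun g _ => mem_blkStab_iff'.2 (hinv g)
  have he := hb.isPrim_epsIn
  have hF : Blk.epsIn M N b ∈ Blk.Mod.Fix ⊤ := (Blk.Cov.epsIn_mem_Fix_iff hb).2 hst.ge
  have hN' := Blk.Cov.nIn_top N
  have he' := he.of_fix le_top hF
  have hFZ : Blk.epsIn M N b ∈ ZA (⊤ : Subgroup G) ⊤ := ⟨mem_Supp_top _, hF⟩
  obtain ⟨D, hD⟩ := exists_isDef (p := p) hN' he'
  obtain ⟨B₀, hB₀, hFB₀, hDB₀⟩ := Blk.Cov.exists_prim_below_isDef hN' he' hD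
  obtain ⟨B₀, hB₀', rfl⟩ := Blk.isPrim_ZA_top_iff.1 hB₀
  have h1 : Covers N.subtype B₀ b := by
    rw [Blk.Cov.covers_subtype_iff_eps hB₀' hb, Blk.ctr_comm (Blk.eps_mem_ctr B₀), hFB₀]
    exact hB₀.ne_zero
  have h2 := hmax B₀ hB₀' (covers_subtype_iff.1 h1)
  have h3 : Nat.card D ≤ Nat.card P := by
    rw [((hB₀'.isDefectGroup_iff_isDef hM).2 hDB₀).card_eq_pow_blockDefect hM hB₀',
      hP.card_eq_pow_blockDefect hM hB]
    exact Nat.pow_le_pow_right hp.pos h2
  have hBe := (Blk.Cov.covers_subtype_iff_eps hB hb).1 (covers_subtype_iff.2 hcov)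
  rw [Blk.ctr_comm (Blk.eps_mem_ctr B)] at hBe
  have h4 := hB.isPrim_ZA_top.mul_eq_of_ne_zero hFZ he.idem hBe
  have hP' := hP.isDef hM hB
  have h5 : br P (Blk.epsIn M N b) ≠ 0 := Blk.Cov.br_ne_zero_of_mul_eq hP'.pgroup
    (Fix_anti le_top hF) (Fix_anti le_top hB.isPrim_ZA_top.mem.2) h4 hP'.br_ne
  have h6 := hD.of_card_le hF hP'.pgroup le_top h5 h3
  have h7 := h6.not_dvd_relIndex_sup hN' he hF
  rw [Subgroup.relIndex_top_right, sup_comm] at h7
  have h8 := h6.inf_normal (NIn.refl N) hN' he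
  refine ⟨h7, (hb.isDefectGroup_subgroupOf_iff hM inf_le_right).2 h8, ?_⟩
  have h9 := Blk.Cov.card_eq_pow_of_isDef hM hb h8
  have h10 := hP.card_eq_pow_blockDefect hM hB
  have h11 : N.relIndex P * Nat.card (P ⊓ N : Subgroup G) = Nat.card P := by
    rw [← Subgroup.index_mul_card (N.subgroupOf P), Subgroup.relIndex, inf_comm,
      ← Subgroup.inf_subgroupOf_right]
    congr 1
    exact (Nat.card_congr (Subgroup.subgroupOfEquivOfLe inf_le_right).toEquiv).symm
  have h12 : N.relIndex P * (P ⊔ N).index = N.index := by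
    rw [← Subgroup.relIndex_sup_right]
    exact Subgroup.relIndex_mul_index le_sup_right
  have h13 : N.relIndex P ≠ 0 := Subgroup.FiniteIndex.index_ne_zero
  have h14 := congrArg (fun n => n.factorization p) h11
  have h15 := congrArg (fun n => n.factorization p) h12
  simp only [Nat.factorization_mul h13 Nat.card_pos.ne',
    Nat.factorization_mul h13 Subgroup.FiniteIndex.index_ne_zero, Finsupp.add_apply] at h14 h15
  rw [h9, h10, hp.factorization_pow, hp.factorization_pow, Finsupp.single_eq_same,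
    Finsupp.single_eq_same] at h14
  rw [Nat.factorization_eq_zero_of_not_dvd h7] at h15
  omega

end Cfsg.Agent.S0970
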