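import Mathlib
import Cfsg.Statements.S0971
import Cfsg.Agent.Blk.Roots
import Cfsg.Agent.Blk.CoverDict

set_option autoImplicit false
open Cfsg

namespace Cfsg.Agent.S0971

/-- Let Q be a normal p-subgroup of the finite group G, let N = Q ⊔ C_G(Q) (a normal subgroup) and let b be a block of N relative to a maximal ideal M of the algebraic integers containing p. Then b induces some block of G, and every block B of G containing a character whose restriction to N has a constituent in b is induced by b. -/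
theorem result {G : Type*} [Group G] [Fintype G] (p : ℕ) [Fact p.Prime] (M : Ideal Cfsg.AlgInt) (hM : Cfsg.IsPModular p M) (Q : Subgroup G) [Q.Normal] (hQ : IsPGroup p Q) [Fintype ↥(Q ⊔ Subgroup.centralizer (Q : Set G))] (b : Set (Cfsg.IrrCharacter ↥(Q ⊔ Subgroup.centralizer (Q : Set G)))) (hb : Cfsg.IsPBlock M b) : Cfsg.InducedBlockDefined M (Q ⊔ Subgroup.centralizer (Q : Set G)) b ∧ ∀ B : Set (Cfsg.IrrCharacter G), Cfsg.IsPBlock M B → (∃ χ ∈ B, ∃ θ ∈ b, Cfsg.classInner (fun n : ↥(Q ⊔ Subgroup.centralizer (Q : Set G)) => (χ : G → ℂ) n) (θ : ↥(Q ⊔ Subgroup.centralizer (Q : Set G)) → ℂ) ≠ 0) → Cfsg.IsInducedBlock M (Q ⊔ Subgroup.centralizer (Q : Set G)) b B := by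
  have := hM.isMaximal
  have := hM.charP
  have hN := Agent.Blk.sup_centralizer_le_normalizer Q
  refine ⟨hb.inducedBlockDefined hM hQ le_sup_left le_sup_right hN, fun B hB hcov => ?_⟩
  rw [Agent.Blk.isInducedBlock_iff_br hM hQ le_sup_left le_sup_right hN hb hB]
  have h1 : Agent.Blk.Mod.br Q (Agent.Blk.eps M B) = Agent.Blk.eps M B :=
    Agent.Blk.Mod.trunc_eq_self fun g hg => hB.mem_centralizer_of_coeff_eps hM hQ hg
  have h2 := (Agent.Blk.Cov.covers_subtype_iff_eps hB hb).1 (Agent.Blk.Om.covers_iff.2 hcov)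
  have h3 := Agent.Blk.br_mem_ZA_of_le (P := Q) le_sup_right hN
    (Agent.Blk.mem_Fix_of_ctr (Agent.Blk.eps_mem_ctr (M := M) B) _)
  rw [h1] at h3 ⊢
  exact hb.isPrim_epsIn.mul_eq_of_ne_zero h3 hB.eps_mul_self h2

end Cfsg.Agent.S0971
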