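import Mathlib
import Cfsg.Statements.S0972
import Cfsg.Agent.Blk.Fong

set_option autoImplicit false
open Cfsg

namespace Cfsg.Agent.S0972

open Cfsg.Agent.Ch Cfsg.Agent.Blk.Om

/-- Let B be a block of the finite group G (relative to a maximal ideal M of the algebraic integers containing the prime p) with a defect group P that is normal in G. Then P is commutative if and only if every member of B has height zero. -/
theorem result {G : Type*} [Group G] [Finite G] (p : ℕ) [Fact p.Prime] (M : Ideal Cfsg.AlgInt) (hM : Cfsg.IsPModular p M) (B : Set (Cfsg.IrrCharacter G)) (hB : Cfsg.IsPBlock M B) (P : Subgroup G) [P.Normal] (hP : Cfsg.IsDefectGroup p M B P) : (∀ a ∈ P, ∀ c ∈ P, a * c = c * a) ↔ ∀ χ ∈ B, Cfsg.blockHeight p B (χ : G → ℂ) = 0 := by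
  haveI := hM.isMaximal
  have hp : p.Prime := Fact.out
  constructor
  · intro h χ hχ
    rw [blockHeight_eq, minVal_eq_factorization_index hM hB hP, Nat.sub_eq_zero_iff_le]
    exact (Nat.factorization_le_iff_dvd χ.2.charDegree_pos.ne'
      Subgroup.FiniteIndex.index_ne_zero).2 (χ.2.charDegree_dvd_index_of_comm P h) p
  · intro h
    have key : ∀ a c : P, a * c = c * a := comm_iff_forall_irr_linear.2 fun ζ => by
      obtain ⟨b, hb, hc⟩ := exists_covers_under hB P
      obtain ⟨χ, hχ, hov⟩ := Blk.Cov.exists_over_of_covers hB hb hc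
        (mem_of_isPGroup hM hP.isPGroup hb ζ)
      have h1 := factorization_le_blockHeight hM hB hP hχ hov
      obtain ⟨k, hk⟩ := IsPGroup.iff_card.1 hP.isPGroup
      obtain ⟨j, -, hj⟩ := (Nat.dvd_prime_pow hp).1 (hk ▸ ζ.2.charDegree_dvd_card)
      rw [h χ hχ, hj, hp.factorization_pow, Finsupp.single_eq_same, Nat.le_zero] at h1
      rw [← ζ.2.coe_charDegree, hj, h1]
      simp
    exact fun a ha c hc => congrArg Subtype.val (key ⟨a, ha⟩ ⟨c, hc⟩)

end Cfsg.Agent.S0972
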