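import Mathlib
import Cfsg.Statements.S0973
import Cfsg.Agent.Blk.Roots

set_option autoImplicit false
open Cfsg

namespace Cfsg.Agent.S0973

/-- Let B be a block of the finite group G with defect group P (relative to a maximal ideal M of the algebraic integers containing p), and let L = P ⊔ C_G(P). Then (i) some block b of L with defect group P (viewed in L) induces B, and (ii) if b and b' are blocks of L both inducing B, there is n ∈ N_G(P) carrying b to b': for every θ ∈ b there is θ' ∈ b' with θ' x = θ (n x n⁻¹) for all x ∈ L. -/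
theorem result {G : Type*} [Group G] [Finite G] (p : ℕ) [Fact p.Prime] (M : Ideal Cfsg.AlgInt) (hM : Cfsg.IsPModular p M) (B : Set (Cfsg.IrrCharacter G)) (hB : Cfsg.IsPBlock M B) (P : Subgroup G) (hP : Cfsg.IsDefectGroup p M B P) : (∃ b : Set (Cfsg.IrrCharacter ↥(P ⊔ Subgroup.centralizer (P : Set G))), Cfsg.IsDefectGroup p M b (P.subgroupOf (P ⊔ Subgroup.centralizer (P : Set G))) ∧ Cfsg.IsInducedBlock M (P ⊔ Subgroup.centralizer (P : Set G)) b B) ∧ ∀ b b' : Set (Cfsg.IrrCharacter ↥(P ⊔ Subgroup.centralizer (P : Set G))), Cfsg.IsInducedBlock M (P ⊔ Subgroup.centralizer (P : Set G)) b B → Cfsg.IsInducedBlock M (P ⊔ Subgroup.centralizer (P : Set G)) b' B → ∃ n ∈ Subgroup.normalizer (P : Set G), ∀ θ ∈ b, ∃ θ' ∈ b', ∀ x : ↥(P ⊔ Subgroup.centralizer (P : Set G)), ∀ hx : n * (x : G) * n⁻¹ ∈ P ⊔ Subgroup.centralizer (P : Set G), (θ' : ↥(P ⊔ Subgroup.centralizer (P : Set G)) → ℂ) x = (θ : ↥(P ⊔ Subgroup.centralizer (P : Set G))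 → ℂ) ⟨n * (x : G) * n⁻¹, hx⟩ := by
  have := hM.isMaximal
  constructor
  · obtain ⟨b, hb⟩ := (Agent.Blk.exists_isInducedBlock_iff_br hM hP.isPGroup le_sup_left
      le_sup_right (Agent.Blk.sup_centralizer_le_normalizer P) hB).2
      ((hB.br_eps_ne_zero_iff hM hP.isPGroup).2 ⟨P, hP, le_rfl⟩)
    exact ⟨b, hb.isDefectGroup_of_normal hM hP le_sup_left
      (Agent.Blk.sup_centralizer_le_normalizer P), hb⟩
  · intro b b' hb hb'
    obtain ⟨x, hx, e⟩ := hP.exists_conj_epsIn hM le_sup_left le_sup_right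
      (Agent.Blk.nIn_sup_centralizer P) hb hb'
    have hx' := Agent.GT.Tr.map_conj_eq_of_mem ((Agent.Blk.nIn_sup_centralizer P).norm hx)
    rw [← Agent.Blk.PD.epsIn_blkCongr_cjEquiv x hx'] at e
    have e' := (Agent.Blk.Om.isPBlock_blkCongr _ hb.1).eq_of_epsIn_eq hb'.1 e
    refine ⟨x⁻¹, inv_mem hx, fun θ hθ => ⟨Agent.Ch.irrCongr (Agent.Blk.PD.cjEquiv x hx') θ, ?_,
      fun y hy => ?_⟩⟩
    · rw [← e', Agent.Blk.PD.mem_blkCongr_cjEquiv]
      exact ⟨θ, hθ, (Agent.Blk.PD.eq_irrCongr_cjEquiv_iff x hx' θ _).1 rfl⟩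
    · exact (Agent.Blk.PD.eq_irrCongr_cjEquiv_iff x hx' θ _).1 rfl ⟨_, hy⟩ y (by simp [mul_assoc])

end Cfsg.Agent.S0973
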