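import Mathlib
import Cfsg.Statements.S0987

set_option autoImplicit false
open Cfsg

namespace Cfsg.Agent.S0987

/-- If a finite group has order pqr for primes p < q < r, then its Sylow r-subgroups are normal. -/
theorem result {G : Type*} [Group G] [Finite G] (p q r : ℕ) (hp : p.Prime) (hq : q.Prime) [Fact r.Prime] (hpq : p < q) (hqr : q < r) (hG : Nat.card G = p * q * r) (R : Sylow r G) : (R : Subgroup G).Normal := by
  have hr : r.Prime := Fact.out
  have := Fact.mk hp
  have h1 : (Nat.card G).minFac = p := by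
    have h2 : (Nat.card G).minFac ≤ p := Nat.minFac_le_of_dvd hp.two_le ⟨q * r, by rw [hG]; ring⟩
    have h3 := Nat.minFac_prime (n := Nat.card G) fun h => hp.not_dvd_one ⟨q * r, by
      rw [← h, hG]; ring⟩
    have h4 := Nat.minFac_dvd (Nat.card G)
    nth_rw 2 [hG] at h4
    rw [h3.dvd_mul, h3.dvd_mul, Nat.prime_dvd_prime_iff_eq h3 hp, Nat.prime_dvd_prime_iff_eq h3 hq,
      Nat.prime_dvd_prime_iff_eq h3 hr] at h4
    omega
  have hfac : ∀ a b : ℕ, a.Prime → ¬ a ∣ b → (a * b).factorization a = 1 := fun a b ha hb => by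
    rw [Nat.factorization_mul ha.ne_zero (by rintro rfl; exact hb (dvd_zero a))]
    simp [ha.factorization_self, Nat.factorization_eq_zero_of_not_dvd hb]
  have hlt : ∀ a b : ℕ, b.Prime → a.Prime → a ≠ b → ¬ a ∣ b := fun a b hb ha h h' =>
    h ((Nat.prime_dvd_prime_iff_eq ha hb).1 h')
  obtain ⟨P⟩ : Nonempty (Sylow p G) := inferInstance
  have hP : Nat.card (P : Subgroup G) = p := by
    rw [P.card_eq_multiplicity, hG, mul_assoc, hfac p _ hp fun h => (hp.dvd_mul.1 h).elim
      (hlt p q hq hp (by omega)) (hlt p r hr hp (by omega)), pow_one]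
  have hc : IsCyclic (P : Subgroup G) := isCyclic_of_prime_card hP
  have h2 := hc.isComplement' h1
  obtain ⟨N, _, h2⟩ : ∃ N : Subgroup G, N.Normal ∧ N.IsComplement' P := ⟨_, inferInstance, h2⟩
  have h3 : Nat.card N = q * r := by
    have h4 := h2.card_mul
    rw [hP, hG, mul_comm, mul_assoc] at h4
    exact Nat.eq_of_mul_eq_mul_left hp.pos h4
  obtain ⟨S⟩ : Nonempty (Sylow r N) := inferInstance
  have hS : Nat.card (S : Subgroup N) = r := by
    rw [S.card_eq_multiplicity, h3, mul_comm, hfac r _ hr (hlt r q hq hr (by omega)), pow_one]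
  have h4 : (S : Subgroup N).index = q := by
    have h5 := (S : Subgroup N).index_mul_card
    rw [hS, h3] at h5
    exact Nat.eq_of_mul_eq_mul_right hr.pos h5
  have h5 : (S : Subgroup N).Normal := by
    refine Subgroup.normal_of_index_eq_minFac_card ?_
    have h6 : (q * r).minFac ≤ q := Nat.minFac_le_of_dvd hq.two_le (dvd_mul_right q r)
    have h7 := Nat.minFac_prime (n := q * r) fun h => hq.not_dvd_one ⟨r, h.symm⟩
    have h8 := Nat.minFac_dvd (q * r)
    rw [h7.dvd_mul, Nat.prime_dvd_prime_iff_eq h7 hq, Nat.prime_dvd_prime_iff_eq h7 hr] at h8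
    rw [h3, h4]
    omega
  have := S.characteristic_of_normal h5
  have h6 : ((S : Subgroup N).map N.subtype).Normal := inferInstance
  rwa [Subgroup.eq_of_le_of_card_ge ((S.isPGroup'.map _).le_sylow_of_normal R) (by
    rw [Subgroup.card_map_of_injective N.subtype_injective, hS, R.card_eq_multiplicity, hG,
      mul_comm, hfac r _ hr fun h => (hr.dvd_mul.1 h).elim
      (hlt r p hp hr (by omega)) (hlt r q hq hr (by omega)), pow_one])] at h6

end Cfsg.Agent.S0987
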