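import Mathlib
import Cfsg.Agent.S0073
import Cfsg.Agent.Inv.PrimeSylow
import Cfsg.Agent.Ch.Burnside
import Cfsg.Statements.S0988

set_option autoImplicit false
open Cfsg

namespace Cfsg.Agent.S0988

/-- If a finite simple group has order p^2 * q * r with p, q and r prime, then its order is 60. -/
theorem result {G : Type*} [Group G] [Finite G] [IsSimpleGroup G] (p q r : ℕ) (hp : p.Prime) (hq : q.Prime) (hr : r.Prime) (hG : Nat.card G = p ^ 2 * q * r) : Nat.card G = 60 := by
  have hG' : ¬ (Nat.card G).Prime := by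
    rw [hG]
    exact Nat.not_prime_mul (fun h => hq.not_dvd_one ⟨_, by rw [← h, mul_comm]⟩) hr.one_lt.ne'
  have hns : ¬ Group.IsSolvable G := fun _ =>
    (Group.IsSolvable.commutator_lt_top_of_nontrivial G).ne (Inv.CT.commutator_eq_top hG')
  have hpq : p ≠ q := by
    rintro rfl
    exact hns (Ch.burnside_isSolvable_of_card_eq (a := 3) (b := 1) hp hr (by rw [hG]; ring))
  have hpr : p ≠ r := by
    rintro rfl
    exact hns (Ch.burnside_isSolvable_of_card_eq (a := 3) (b := 1) hp hq (by rw [hG]; ring))
  have hqr : q ≠ r := by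
    rintro rfl
    exact hns (Ch.burnside_isSolvable_of_card_eq (a := 2) (b := 2) hp hq (by rw [hG]; ring))
  have hf : ∀ m k : ℕ, m.Prime → m ^ k ∣ Nat.card G →
      k ≤ 2 * (if p = m then 1 else 0) + (if q = m then 1 else 0) + if r = m then 1 else 0 := by
    intro m k hm h
    rw [hm.pow_dvd_iff_le_factorization Nat.card_pos.ne', hG] at h
    simpa [Nat.factorization_mul, hp.ne_zero, hq.ne_zero, hr.ne_zero, hp.factorization,
      hq.factorization, hr.factorization, Finsupp.single_apply] using h
  have h12 : 12 ∣ Nat.card G := by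
    refine (S0073.result (G := G) ?_).resolve_left fun h => ?_
    · by_contra h
      push Not at h
      exact hns (isSolvable_of_comm h)
    · have := hf _ 3 (Nat.minFac_prime Finite.one_lt_card.ne') h
      split_ifs at this <;> omega
  have key : ∀ s : ℕ, s.Prime → s ≠ 2 → s ≠ 3 → Nat.card G = 12 * s → Nat.card G = 60 := by
    intro s hs h2 h3 h
    have := Fact.mk hs
    have h5 := hs.five_le_of_ne_two_of_ne_three h2 h3
    obtain ⟨x, hx⟩ := exists_prime_orderOf_dvd_card' (G := G) s ⟨12, by rw [h, mul_comm]⟩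
    obtain ⟨n, e, v, -, -, -, h4, h6, h7, -, h8⟩ := Inv.PS.prime_data hG' (fun h4 => by
      rw [h, pow_two, Nat.mul_dvd_mul_iff_right hs.pos] at h4
      have := Nat.le_of_dvd (by norm_num) h4
      interval_cases s <;> first | omega | norm_num at hs) hx
    have h9 : n * (e * v) = 12 := Nat.eq_of_mul_eq_mul_right hs.pos (by rw [← h, ← h4]; ring)
    have h10 : s < n := by
      by_contra h11
      rcases Nat.lt_or_eq_of_le (not_lt.1 h11) with h12 | rfl
      · rw [Nat.mod_eq_of_lt h12] at h6; omega
      · simp at h6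
    have h11 : 2 ≤ e * v := by
      rcases v with _ | v
      · simp at h9
      · nlinarith
    have h12 : n ≤ 6 := by nlinarith
    omega
  have h2 := hf 2 2 Nat.prime_two ((by norm_num : 2 ^ 2 ∣ 12).trans h12)
  have h3 := hf 3 1 Nat.prime_three ((by norm_num : 3 ^ 1 ∣ 12).trans h12)
  obtain rfl : p = 2 := by split_ifs at h2 <;> omega
  by_cases h4 : q = 3
  · exact key r hr hpr.symm (h4 ▸ hqr.symm) (by rw [hG, h4]; rfl)
  · obtain rfl : r = 3 := by split_ifs at h3 <;> omega
    exact key q hq hpq.symm h4 (by rw [hG]; ring)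

end Cfsg.Agent.S0988
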