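import Cfsg.Statements.S0990
import Cfsg.Agent.Sym.Basic

set_option autoImplicit false
open Cfsg

namespace Cfsg.Agent.S0990

/-- Let p be an odd prime and P a Sylow p-subgroup of the symmetric group on a finite set with at least two elements. Then P is contained in the alternating group, and twice the order of the normalizer of P inside the alternating group equals the order of the normalizer of P in the symmetric group. -/
theorem result {α : Type*} [Fintype α] [DecidableEq α] (hα : 2 ≤ Fintype.card α) (p : ℕ) [Fact p.Prime] (hp : p ≠ 2) (P : Sylow p (Equiv.Perm α)) : (P : Subgroup (Equiv.Perm α)) ≤ alternatingGroup α ∧ 2 * Nat.card ↥(Subgroup.normalizer ((((P : Subgroup (Equiv.Perm α)).subgroupOf (alternatingGroup α) : Subgroup ↥(alternatingGroup α)) : Set ↥(alternatingGroup α)))) = Nat.card ↥(Subgroup.normalizer ((P : Subgroup (Equiv.Perm α)) : Set (Equiv.Perm α))) := by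
  have hle := Sym.le_alternatingGroup_of_isPGroup hp P.isPGroup'
  refine ⟨hle, ?_⟩
  rw [← Subgroup.subgroupOf_normalizer_eq hle]
  apply Sym.two_mul_card_subgroupOf_alternatingGroup
  intro h
  have h1 := (sup_eq_right.2 h).symm.trans (Sylow.normalizer_sup_eq_top' P hle)
  haveI : Nontrivial α := Fintype.one_lt_card_iff_nontrivial.1 hα
  obtain ⟨a, b, hab⟩ := exists_pair_ne α
  exact Sym.swap_not_mem_alternatingGroup hab (h1 ▸ Subgroup.mem_top _)

end Cfsg.Agent.S0990
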