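import Mathlib
-- Template for statement S0995 (row 995; see /opt/grader/pristine/manifest.json for weights).
-- Copy to Cfsg/Agent/S0995.lean and replace the sorry. The statement below is byte-identical to the frozen
-- statement Cfsg.CfsgFrozen.S0995 (Cfsg/Statements/S0995.lean; the theorem Cfsg.card_formula_of_self_centralizing_prime_order_element);
-- the grader kernel-checks Cfsg.Agent.S0995.result against that frozen type. Keep the theorem IN THIS FILE
-- (a `result` declared elsewhere and merely imported here is not credited); helpers may live anywhere
-- under Cfsg/Agent/.
import Cfsg.Statements.S0995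
import Cfsg.Agent.Blk.OneSelf

set_option autoImplicit false
set_option linter.style.haveILetI false
set_option linter.unusedVariables false
open Cfsg

namespace Cfsg.Agent.S0995


/-- Let G be a finite perfect group containing an element z of prime order p whose centralizer is the cyclic group it generates. Let t be the number of conjugacy classes of elements of order p. Then t divides p - 1, the number of Sylow p-subgroups has the form 1 + n * p, and |G| * t = (p - 1) * p * (1 + n * p). -/
theorem result {G : Type*} [Group G] [Finite G] (hperf : commutator G = ⊤) (p : ℕ) [Fact p.Prime] (z : G) (hz : orderOf z = p) (hC : Subgroup.centralizer ({z} : Set G) = Subgroup.zpowers z) : ∃ n t : ℕ, t = Nat.card {c : ConjClasses G // ∃ g : G, ConjClasses.mk g = c ∧ orderOf g = p} ∧ t ∣ p - 1 ∧ Nat.card (Sylow p G) = 1 + n * p ∧ Nat.card G * t = (p - 1) * p * (1 + n * p) := by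
  open Cfsg.Agent.Blk.One Subgroup in
  set S := selfSetup hz hC
  have hS : S.C = zpowers S.x := rfl
  obtain ⟨n, hn⟩ := S.exists_index_N
  refine ⟨n, _, rfl, Dvd.intro _ S.card_classes, S.card_sylow.trans hn, ?_⟩
  rw [← S.card_classes, Setup.card_self hS, hn]
  ring

end Cfsg.Agent.S0995
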