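import Mathlib
import Cfsg.Agent.Inv.Sieve
import Cfsg.Statements.S1002

set_option autoImplicit false
open Cfsg

namespace Cfsg.Agent.S1002

/-- No finite simple group has order 1004913 = 3^3 * 7 * 13 * 409. -/
theorem result {G : Type*} [Group G] [Finite G] [IsSimpleGroup G] : Nat.card G ≠ 1004913 := by
  exact Inv.Sieve.card_ne 409 0 (by norm_num) (by decide +kernel)

end Cfsg.Agent.S1002
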