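import Mathlib
import Cfsg.Agent.Inv.SylowTools
import Cfsg.Statements.S1009

set_option autoImplicit false
open Cfsg

namespace Cfsg.Agent.S1009

/-- Brodkey's Theorem: if a finite group has abelian Sylow p-subgroups, then there are two Sylow p-subgroups whose intersection equals the intersection of all Sylow p-subgroups. -/
theorem result {G : Type*} [Group G] [Finite G] (p : ℕ) [Fact p.Prime] (hab : ∀ P : Sylow p G, IsMulCommutative ↥(P : Subgroup G)) : ∃ P Q : Sylow p G, (P : Subgroup G) ⊓ (Q : Subgroup G) = ⨅ R : Sylow p G, (R : Subgroup G) := by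
  obtain ⟨⟨P, Q⟩, -, hmin⟩ := Set.exists_min_image (Set.univ : Set (Sylow p G × Sylow p G))
    (fun a => Nat.card ↥((a.1 : Subgroup G) ⊓ (a.2 : Subgroup G))) (Set.toFinite _)
    Set.univ_nonempty
  refine ⟨P, Q, le_antisymm (le_iInf fun R => ?_) (le_inf (iInf_le _ P) (iInf_le _ Q))⟩
  have hN : ∀ S : Sylow p G, (P : Subgroup G) ⊓ Q ≤ S → (S : Subgroup G) ≤
      Subgroup.normalizer (((P : Subgroup G) ⊓ Q : Subgroup G) : Set G) := fun S hS =>
    (Subgroup.le_centralizer_iff_isMulCommutative.2 (hab S)).trans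
      ((Subgroup.centralizer_le hS).trans (Subgroup.centralizer_le_normalizer _))
  obtain ⟨n, hn, h⟩ := Inv.ST.exists_conj_mem_sylow P (hN P inf_le_left)
    (R.isPGroup'.to_inf_left (K := Subgroup.normalizer _)) inf_le_right
  have h1 : ((n • R : Sylow p G) : Subgroup G) ⊓ Q ≤ (P : Subgroup G) ⊓ Q := fun x hx => by
    refine Subgroup.mem_inf.2 ⟨?_, hx.2⟩
    have h2 := h _ (Subgroup.mem_inf.2 ⟨(Inv.ST.mem_smul_sylow_iff R n x).1 hx.1,
      mul_mem (mul_mem (inv_mem hn) (hN Q inf_le_right hx.2)) hn⟩)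
    simpa [mul_assoc] using h2
  have h2 := Subgroup.eq_of_le_of_card_ge h1 (hmin (n • R, Q) trivial)
  intro x hx
  have h3 := (Inv.ST.mem_smul_sylow_iff R n _).1
    (h2.ge ((Subgroup.mem_normalizer_iff.1 hn x).1 hx)).1
  simpa [mul_assoc] using h3

end Cfsg.Agent.S1009
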