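import Mathlib
import Cfsg.Agent.Inv.PrimeSylow
import Cfsg.Statements.S1018

set_option autoImplicit false
open Cfsg

namespace Cfsg.Agent.S1018

/-- Let P be a Sylow p-subgroup of order p of a finite group G, and consider the action of G on the left cosets of the normalizer N of P. Then every element of order p fixes exactly one coset, and an element of N that does not centralize P fixes at most as many cosets as there are orbits of P. -/
theorem result {G : Type*} [Group G] [Finite G] (p : ℕ) [Fact p.Prime] (P : Sylow p G) (hP : Nat.card ↥(P : Subgroup G) = p) : (∀ y : G, orderOf y = p → Nat.card (MulAction.fixedBy (G ⧸ Subgroup.normalizer ((P : Subgroup G) : Set G)) y) = 1) ∧ ∀ x : G, x ∈ Subgroup.normalizer ((P : Subgroup G) : Set G) → x ∉ Subgroup.centralizer ((P : Subgroup G) : Set G) → Nat.card (MulAction.fixedBy (G ⧸ Subgroup.normalizer ((P : Subgroup G) : Set G)) x) ≤ Nat.card (MulAction.orbitRel.Quotient ↥(P : Subgroup G) (G ⧸ Subgroup.normalizer ((P : Subgroup G) : Set G))) := by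
  have hp : p.Prime := Fact.out
  have hgen : ∀ u ∈ (P : Subgroup G), u ≠ 1 → Subgroup.zpowers u = P := fun u hu hu1 =>
    Subgroup.eq_of_le_of_card_ge (Subgroup.zpowers_le.2 hu) (by
      rw [hP, Nat.card_zpowers, ((Nat.dvd_prime hp).1
        (hP ▸ Subgroup.orderOf_dvd_natCard _ hu)).resolve_left
        fun h7 => hu1 (orderOf_eq_one_iff.1 h7)])
  refine ⟨fun y hy => ?_, fun x hx hx' => ?_⟩
  · have h2 : ¬ p ^ 2 ∣ Nat.card G := fun h => by
      have h3 := P.pow_dvd_card_of_pow_dvd_card h
      rw [hP, pow_two] at h3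
      exact hp.not_dvd_one ((Nat.mul_dvd_mul_iff_left hp.pos).1 (by simpa using h3))
    rw [← Inv.PS.fx_sylow h2 hy (Subgroup.le_normalizer (Subgroup.mem_zpowers y))
      (Subgroup.mem_zpowers y), show Subgroup.normalizer ((P : Subgroup G) : Set G) =
        MulAction.stabilizer G P from P.stabilizer_eq_normalizer.symm]
    refine Nat.card_congr ((Equiv.ofBijective (MulAction.ofQuotientStabilizer G P)
      ⟨MulAction.injective_ofQuotientStabilizer G P, fun Q => ?_⟩).subtypeEquiv fun a => ?_)
    · obtain ⟨g, rfl⟩ := MulAction.exists_smul_eq G P Q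
      exact ⟨g, rfl⟩
    · change y • a = a ↔ y • MulAction.ofQuotientStabilizer G P a =
        MulAction.ofQuotientStabilizer G P a
      rw [← MulAction.ofQuotientStabilizer_smul, (MulAction.injective_ofQuotientStabilizer G P).eq_iff]
  · refine Nat.card_le_card_of_injective (fun a => Quotient.mk'' a.1) fun b a hab => ?_
    obtain ⟨u, hu⟩ : b.1 ∈ MulAction.orbit (P : Subgroup G) a.1 :=
      MulAction.orbitRel_apply.1 (Quotient.exact' hab)
    have h1 : (u : G) • a.1 = b.1 := hu
    have ha : x • a.1 = a.1 := a.2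
    have hb : x • b.1 = b.1 := b.2
    apply Subtype.ext
    by_cases hu1 : (u : G) = 1
    · rw [← h1, hu1, one_smul]
    have h2 : (u : G)⁻¹ * (x * u * x⁻¹) ∈ (P : Subgroup G) :=
      mul_mem (inv_mem u.2) ((Subgroup.mem_normalizer_iff.1 hx u).1 u.2)
    have h3 : (u : G)⁻¹ * (x * u * x⁻¹) ∈ MulAction.stabilizer G a.1 := by
      rw [MulAction.mem_stabilizer_iff, mul_smul, mul_smul, inv_smul_eq_iff.2 ha.symm, mul_smul, h1,
        hb, ← h1, inv_smul_smul]
    by_cases h4 : (u : G)⁻¹ * (x * u * x⁻¹) = 1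
    · refine absurd ?_ hx'
      rw [← hgen u u.2 hu1, Inv.PS.centralizer_zpowers, Subgroup.mem_centralizer_singleton_iff]
      exact mul_inv_eq_iff_eq_mul.1 (inv_mul_eq_one.1 h4).symm
    · rw [← h1]
      exact ((hgen _ h2 h4).ge.trans (Subgroup.zpowers_le.2 h3)) u.2

end Cfsg.Agent.S1018
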