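import Mathlib
import Cfsg.Agent.Ch.BrauerPoint
import Cfsg.Agent.Inv.Counting
import Cfsg.Statements.S1019

set_option autoImplicit false
open Cfsg

namespace Cfsg.Agent.S1019

/-- Let H be a subgroup of a finite group G and x an element of H. In the action of G on the left cosets of H, the number of cosets fixed by x, multiplied by the size of the conjugacy class of x, equals the index of H multiplied by the number of conjugates of x that lie in H. -/
theorem result {G : Type*} [Group G] [Finite G] (H : Subgroup G) (x : G) (hx : x ∈ H) : Nat.card (MulAction.fixedBy (G ⧸ H) x) * Nat.card {g : G // IsConj x g} = H.index * Nat.card {g : G // IsConj x g ∧ g ∈ H} := by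
  classical
  have := Fintype.ofFinite G
  have h1 := Ch.card_conj_mem_eq H x
  have h2 := Inv.card_class_mul_card_centralizer x
  have h3 : Nat.card {g : G // g⁻¹ * x * g ∈ H} = Nat.card {g : G // IsConj x g ∧ g ∈ H} *
      Nat.card (Subgroup.centralizer ({x} : Set G)) := by
    rw [Nat.card_eq_fintype_card, Fintype.card_subtype, Finset.card_eq_sum_card_fiberwise
      (t := Finset.univ.filter fun g => IsConj x g ∧ g ∈ H) (f := fun g => g⁻¹ * x * g)
      (fun g hg => by simpa using ⟨⟨g⁻¹, by simp⟩, by simpa using hg⟩),
      Nat.card_eq_fintype_card, Fintype.card_subtype, ← smul_eq_mul, ← Finset.sum_const]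
    refine Finset.sum_congr rfl fun y hy => ?_
    obtain ⟨h4, h5⟩ := (Finset.mem_filter.1 hy).2
    obtain ⟨c, rfl⟩ := isConj_iff.1 h4
    rw [Nat.card_eq_fintype_card, ← Finset.card_univ]
    symm
    refine Finset.card_bij (fun z _ => (z : G) * c⁻¹) (fun z _ => ?_)
      (fun a _ b _ hab => Subtype.ext (mul_right_cancel hab)) fun w hw => ?_
    · have h6 : ((z : G) * c⁻¹)⁻¹ * x * (z * c⁻¹) = c * x * c⁻¹ := by
        have h7 := Subgroup.mem_centralizer_singleton_iff.1 z.2
        rw [mul_inv_rev, inv_inv, mul_assoc, ← mul_assoc x, ← h7]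
        group
      simp only [Finset.mem_filter, Finset.mem_univ, true_and, h6, h5]
    · have h6 := (Finset.mem_filter.1 hw).2
      refine ⟨⟨w * c, Subgroup.mem_centralizer_singleton_iff.2 ?_⟩, Finset.mem_univ _, by simp⟩
      calc w * c * x = w * (c * x * c⁻¹) * c := by group
        _ = x * (w * c) := by rw [← h6]; group
  apply Nat.eq_of_mul_eq_mul_left (Nat.mul_pos (Nat.card_pos (α := H))
    (Nat.card_pos (α := Subgroup.centralizer ({x} : Set G))))
  have h4 := H.index_mul_card
  calc _ = (Nat.card H * Nat.card (MulAction.fixedBy (G ⧸ H) x)) * (Nat.card {g : G // IsConj x g} *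
        Nat.card (Subgroup.centralizer ({x} : Set G))) := by ring
    _ = _ := by rw [← h1, h2, h3, ← h4]; ring

end Cfsg.Agent.S1019
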