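import Cfsg.Statements.S1026
import Cfsg.Agent.Chev.Good
import Cfsg.Agent.Chev.StTab

set_option autoImplicit false
open Cfsg

namespace Cfsg.Agent.S1026

/-- Every element of `U` has a unique expression `∏_{r ∈ Φ⁺} x_r(t_r)`, the product over the positive roots in increasing index order (the coefficient family `t`, supported on the positive roots, exists and is unique); and conversely every such ordered product is the matrix of an element of `U`. -/
theorem result {F : Type*} [Field F] (D : Cfsg.Lie.ChevalleyDatum) (hD : D ∈ [Cfsg.Lie.chevG2, Cfsg.Lie.chevB2, Cfsg.Lie.chevD4, Cfsg.Lie.chevF4, Cfsg.Lie.chevE6, Cfsg.Lie.chevE7, Cfsg.Lie.chevE8]) :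
    (∀ g : GL D.Idx F, g ∈ D.posUnipotent F →
      ∃! t : ℕ → F, (∀ r, ¬ D.IsPosRoot r → t r = 0) ∧
        (g : Matrix D.Idx D.Idx F) = D.wordMat F (D.posRoots.map fun r => (r, t r))) ∧
    (∀ t : ℕ → F, ∃ g : GL D.Idx F, g ∈ D.posUnipotent F ∧
      (g : Matrix D.Idx D.Idx F) = D.wordMat F (D.posRoots.map fun r => (r, t r))) := by
  have := Cfsg.Agent.Chev.good_of_mem hD
  let l : List D.Rt := (List.finRange D.nroots).filter fun r => decide (D.IsPosRoot r)
  have hl : D.posRoots = l.map Fin.val := by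
    rw [Cfsg.Lie.ChevalleyDatum.posRoots, ← List.map_coe_finRange_eq_range, List.filter_map]
    rfl
  have hnd : l.Nodup := (List.nodup_finRange _).filter _
  have hmem : ∀ r, r ∈ l ↔ D.IsPosRoot r := fun r => by simp [l]
  have hw : ∀ t : ℕ → F, D.wordMat F (D.posRoots.map fun r => (r, t r)) =
      (Chev.stProd (fun r : D.Rt => D.X F r) l (fun r => t r) : GL D.Idx F) := fun t => by
    rw [← D.coe_wordG, hl, Cfsg.Lie.ChevalleyDatum.wordG, Chev.stProd, List.map_map, List.map_map]
    rfl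
  have hM := D.isModel_X F
  refine ⟨fun g hg => ?_, fun t => ⟨_, ?_, (hw t).symm⟩⟩
  · rw [D.posUnipotent_eq_XS, ← D.st_XS] at hg
    obtain ⟨t, ht⟩ := (hM.toIsAB.relOn {r : D.Rt | D.IsPosRoot r}).exists_stProd
      (by simpa only [D.stRoot_pos] using D.stRoot.closed_pos) (f := D.ht)
      (fun r hr => (D.isPos_iff_ht r).1 hr) hnd hmem hg
    refine ⟨fun r => if h : D.IsPosRoot r then t ⟨r, h.1⟩ else 0, ⟨fun r hr => dif_neg hr, ?_⟩, ?_⟩
    · rw [hw, ht, Units.val_inj]
      exact Chev.stProd_congr fun r hr => by rw [dif_pos ((hmem r).1 hr)]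
    · rintro t' ⟨h1, h2⟩
      rw [hw, ht, Units.val_inj] at h2
      have h3 := hM.uniq_pos hnd (fun r hr => (D.stRoot_pos r).2 ((hmem r).1 hr)) _ _ h2
      funext r
      split_ifs with h
      · exact (h3 ⟨r, h.1⟩ ((hmem _).2 h)).symm
      · exact h1 r h
  · rw [D.posUnipotent_eq_XS, ← D.st_XS]
    exact Chev.stProd_mem_XS (fun r hr => (hmem r).1 hr) _

end Cfsg.Agent.S1026
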