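import Cfsg.Statements.S1034
import Cfsg.Agent.Chev.Good
import Cfsg.Agent.Chev.Torus

set_option autoImplicit false
open Cfsg

namespace Cfsg.Agent.S1034

/-- Every element of `H` is a product `h_{p_1}(c_1) ⋯ h_{p_l}(c_l)` over the fundamental roots, with non-zero `c_i`. -/
theorem result {F : Type*} [Field F] (D : Cfsg.Lie.ChevalleyDatum) (hD : D ∈ [Cfsg.Lie.chevG2, Cfsg.Lie.chevB2, Cfsg.Lie.chevD4, Cfsg.Lie.chevF4, Cfsg.Lie.chevE6, Cfsg.Lie.chevE7, Cfsg.Lie.chevE8]) (g : GL D.Idx F) (hg : g ∈ D.diagonalSubgroup F) :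
    ∃ c : ℕ → F, (∀ i < D.rank, c i ≠ 0) ∧
      (g : Matrix D.Idx D.Idx F) = D.wordMat F ((List.range D.rank).flatMap fun i => D.hWord (D.simple i) (c i)) := by
  have := Cfsg.Agent.Chev.good_of_mem hD
  rw [← D.range_torusHom] at hg
  obtain ⟨c, rfl⟩ := hg
  refine ⟨fun i => if h : i < D.rank then (c ⟨i, h⟩ : F) else 1, fun i hi => by simp [hi], ?_⟩
  rw [← D.coe_wordG, Units.val_inj]
  have key : ∀ l : List D.Nd, D.wordG F ((l.map Fin.val).flatMap fun i => D.hWord (D.simple i)
      (if h : i < D.rank then (c ⟨i, h⟩ : F) else 1)) =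
      D.torusHom F (l.map fun i => Pi.mulSingle i (c i)).prod := fun l => by
    induction l with
    | nil => simp [D.wordG_nil]
    | cons i l ih =>
      rw [List.map_cons, List.flatMap_cons, D.wordG_append, ih, List.map_cons, List.prod_cons,
        map_mul, D.torusHom_single, dif_pos i.2]
      congr 1
      exact Units.ext ((D.coe_wordG F _).trans (D.coe_hE F _ _).symm)
  rw [← List.map_coe_finRange_eq_range, key, ← Fin.prod_univ_def, Finset.univ_prod_mulSingle]

end Cfsg.Agent.S1034
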