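import Cfsg.Statements.S1036
import Cfsg.Agent.Chev.Good
import Cfsg.Agent.Chev.Tri

set_option autoImplicit false
open Cfsg

namespace Cfsg.Agent.S1036

/-- `H` normalises `U` and `U ∩ H = 1`; thus `B = UH` is the semidirect product of `U` by `H`. -/
theorem result {F : Type*} [Field F] (D : Cfsg.Lie.ChevalleyDatum) (hD : D ∈ [Cfsg.Lie.chevG2, Cfsg.Lie.chevB2, Cfsg.Lie.chevD4, Cfsg.Lie.chevF4, Cfsg.Lie.chevE6, Cfsg.Lie.chevE7, Cfsg.Lie.chevE8]) :
    D.diagonalSubgroup F ≤ Subgroup.normalizer (D.posUnipotent F : Set (GL D.Idx F)) ∧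
      D.posUnipotent F ⊓ D.diagonalSubgroup F = ⊥ := by
  have := Cfsg.Agent.Chev.good_of_mem hD
  refine ⟨fun h hh => ?_, eq_bot_iff.2 ((inf_le_inf_left _ (D.diag_le_mono F)).trans
    (D.posUnipotent_inf_monomial F).le)⟩
  rw [Subgroup.mem_normalizer_iff, D.posUnipotent_eq_XS]
  refine fun g => ⟨D.conj_mem_XS_of_diagonal F hh, fun hg => ?_⟩
  have := D.conj_mem_XS_of_diagonal F (inv_mem hh) hg
  simpa [mul_assoc] using this

end Cfsg.Agent.S1036
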