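import Cfsg.Statements.S1037
import Cfsg.Agent.Chev.Good
import Cfsg.Agent.Chev.RootBNInst

set_option autoImplicit false
open Cfsg

namespace Cfsg.Agent.S1037

/-- `UH ∩ V = 1` and `UH ∩ VH = H`. -/
theorem result {F : Type*} [Field F] (D : Cfsg.Lie.ChevalleyDatum) (hD : D ∈ [Cfsg.Lie.chevG2, Cfsg.Lie.chevB2, Cfsg.Lie.chevD4, Cfsg.Lie.chevF4, Cfsg.Lie.chevE6, Cfsg.Lie.chevE7, Cfsg.Lie.chevE8]) :
    D.borelSubgroup F ⊓ D.negUnipotent F = ⊥ ∧
      D.borelSubgroup F ⊓ (D.negUnipotent F ⊔ D.diagonalSubgroup F) = D.diagonalSubgroup F := by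
  have := Cfsg.Agent.Chev.good_of_mem hD
  refine ⟨D.borel_inf_negUnipotent F, le_antisymm ?_ (le_inf le_sup_right le_sup_right)⟩
  intro g hg
  obtain ⟨h1, h2⟩ := Subgroup.mem_inf.1 hg
  have hn : D.diagonalSubgroup F ≤ Subgroup.normalizer (D.negUnipotent F : Set (GL D.Idx F)) := by
    intro h hh
    rw [Subgroup.mem_normalizer_iff, D.negUnipotent_eq_XS]
    refine fun g => ⟨D.conj_mem_XS_of_diagonal F hh, fun hg => ?_⟩
    have := D.conj_mem_XS_of_diagonal F (inv_mem hh) hg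
    simpa [mul_assoc] using this
  have h3 : g ∈ ((D.negUnipotent F ⊔ D.diagonalSubgroup F : Subgroup _) : Set (GL D.Idx F)) := h2
  rw [Subgroup.coe_mul_of_right_le_normalizer_left _ _ hn] at h3
  obtain ⟨v, hv, h, hh, rfl⟩ := h3
  have h4 : v ∈ D.borelSubgroup F ⊓ D.negUnipotent F :=
    ⟨by simpa using mul_mem h1 (inv_mem (Subgroup.mem_sup_right hh : h ∈ D.borelSubgroup F)), hv⟩
  rw [D.borel_inf_negUnipotent F, Subgroup.mem_bot] at h4
  simpa [h4] using hh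

end Cfsg.Agent.S1037
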