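import Cfsg.Statements.S1039
import Cfsg.Agent.Chev.Good
import Cfsg.Agent.Chev.Torus
import Cfsg.Agent.Chev.WeylCoxTypes

set_option autoImplicit false
open Cfsg

namespace Cfsg.Agent.S1039

/-- `N/H ≅ W`: there is a surjective homomorphism from `N` onto the Coxeter group of the type (Mathlib's Coxeter matrix G₂, B₂, F₄, E₆, E₇, E₈, nodes numbered as the fundamental roots) with kernel `H`, mapping each `n_{p_i}` to the `i`-th simple reflection. -/
theorem result {F : Type*} [Field F]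
    (p : Cfsg.Lie.ChevalleyDatum × (Σ n : ℕ, CoxeterMatrix (Fin n)))
    (hp : p ∈ [(Cfsg.Lie.chevG2, ⟨2, CoxeterMatrix.G₂⟩), (Cfsg.Lie.chevB2, ⟨2, CoxeterMatrix.B 2⟩), (Cfsg.Lie.chevD4, ⟨4, Cfsg.Lie.coxeterD4⟩), (Cfsg.Lie.chevF4, ⟨4, CoxeterMatrix.F₄⟩),
      (Cfsg.Lie.chevE6, ⟨6, CoxeterMatrix.E₆⟩), (Cfsg.Lie.chevE7, ⟨7, CoxeterMatrix.E₇⟩), (Cfsg.Lie.chevE8, ⟨8, CoxeterMatrix.E₈⟩)]) :
    ∃ φ : ↥(p.1.monomialSubgroup F) →* p.2.2.Group, Function.Surjective φ ∧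
      φ.ker = (p.1.diagonalSubgroup F).subgroupOf (p.1.monomialSubgroup F) ∧
      ∀ (i : Fin p.2.1) (g : ↥(p.1.monomialSubgroup F)),
        ((g : GL p.1.Idx F) : Matrix p.1.Idx p.1.Idx F) = p.1.nMat F (p.1.simple i) 1 → φ g = p.2.2.simple i := by
  have key : ∀ (D : Cfsg.Lie.ChevalleyDatum) [D.Good] (M : CoxeterMatrix D.Nd),
      (∃ cs : CoxeterSystem M D.weyl, ∀ i, cs.simple i = D.srefW i) →
      ∃ φ : ↥(D.monomialSubgroup F) →* M.Group, Function.Surjective φ ∧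
        φ.ker = (D.diagonalSubgroup F).subgroupOf (D.monomialSubgroup F) ∧
        ∀ (i : D.Nd) (g : ↥(D.monomialSubgroup F)),
          ((g : GL D.Idx F) : Matrix D.Idx D.Idx F) = D.nMat F (D.simple i) 1 → φ g = M.simple i := by
    rintro D _ M ⟨cs, hcs⟩
    let ψ : D.monomialSubgroup F →* D.weyl := (D.toWeyl F).codRestrict _ (D.toWeyl_mem F)
    refine ⟨cs.mulEquiv.toMonoidHom.comp ψ, cs.mulEquiv.surjective.comp fun w => ?_, ?_,
      fun i g hg => ?_⟩
    · obtain ⟨n, hn⟩ := D.exists_toWeyl_eq F w.2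
      exact ⟨n, Subtype.ext hn⟩
    · rw [← D.ker_toWeyl]
      ext n
      simp [ψ, MonoidHom.mem_ker]
    · have h1 : g = ⟨D.nE F (D.sr i) 1, D.nE_mem_monomial F _ one_ne_zero⟩ :=
        Subtype.ext (Units.ext (hg.trans (D.coe_nE F _ _).symm))
      have h2 : ψ g = cs.simple i := by
        rw [hcs, h1]
        exact Subtype.ext ((D.toWeyl_nE F _ one_ne_zero).trans (D.refl_sr i))
      change cs.mulEquiv (ψ g) = _
      rw [h2]
      exact cs.mulEquiv.apply_symm_apply _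
  simp only [List.mem_cons, List.not_mem_nil, or_false] at hp
  rcases hp with rfl | rfl | rfl | rfl | rfl | rfl | rfl
  exacts [key _ _ Chev.exists_weylCs_G2, key _ _ Chev.exists_weylCs_B2, key _ _ Chev.exists_weylCs_D4,
    key _ _ Chev.exists_weylCs_F4, key _ _ Chev.exists_weylCs_E6, key _ _ Chev.exists_weylCs_E7,
    key _ _ Chev.exists_weylCs_E8]

end Cfsg.Agent.S1039
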