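import Cfsg.Statements.S1044
import Cfsg.Agent.Chev.Good
import Cfsg.Agent.Chev.RootBNInst

set_option autoImplicit false
open Cfsg

namespace Cfsg.Agent.S1044

/-- For a fundamental root `p` the set `B ∪ B n_p B` is (the carrier of) a subgroup of the general linear group. -/
theorem result {F : Type*} [Field F] (D : Cfsg.Lie.ChevalleyDatum) (hD : D ∈ [Cfsg.Lie.chevG2, Cfsg.Lie.chevB2, Cfsg.Lie.chevD4, Cfsg.Lie.chevF4, Cfsg.Lie.chevE6, Cfsg.Lie.chevE7, Cfsg.Lie.chevE8]) (i : ℕ) (hi : i < D.rank) (n : GL D.Idx F)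
    (hn : (n : Matrix D.Idx D.Idx F) = D.nMat F (D.simple i) 1) :
    ∃ P : Subgroup (GL D.Idx F), (P : Set (GL D.Idx F)) =
      (D.borelSubgroup F : Set (GL D.Idx F)) ∪ DoubleCoset.doubleCoset n (D.borelSubgroup F : Set (GL D.Idx F)) (D.borelSubgroup F) := by
  have := Cfsg.Agent.Chev.good_of_mem hD
  obtain rfl : n = (D.rootBN F).s ⟨i, hi⟩ := Units.ext (hn.trans (D.coe_nE F _ _).symm)
  set R := D.rootBN F
  refine ⟨R.P {⟨i, hi⟩}, ?_⟩
  ext g
  simp only [SetLike.mem_coe, Set.mem_union, DoubleCoset.mem_doubleCoset, ← D.rootBN_B]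
  constructor
  · intro hg
    obtain ⟨u, hu, n, hn', u', hu', rfl⟩ := Chev.RootBN.bruhat_P hg
    by_cases hH : n ∈ R.H
    · exact Or.inl (mul_mem (mul_mem (Chev.RootBN.U_le_B hu) (Chev.RootBN.H_le_B hH))
        (Chev.RootBN.U_le_B hu'))
    · have hN := Chev.RootBN.NS_le_N _ hn'
      have h1 := R.topSub.w_eq_t_of_mem_NS (j := ⟨i, hi⟩) hn' (Chev.RootBN.N_le_G hN) hH
      have h2 := (Chev.RootBN.mul_inv_mem_H_iff hN (R.s_mem ⟨i, hi⟩)).2 h1
      exact Or.inr ⟨_, mul_mem (Chev.RootBN.U_le_B hu) (Chev.RootBN.H_le_B h2), u',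
        Chev.RootBN.U_le_B hu', by group⟩
  · rintro (hg | ⟨b, hb, b', hb', rfl⟩)
    · exact Chev.RootBN.B_le_P _ hg
    · exact mul_mem (mul_mem (Chev.RootBN.B_le_P _ hb)
        (Chev.RootBN.NS_le_P _ (Chev.RootBN.s_mem_NS rfl))) (Chev.RootBN.B_le_P _ hb')

end Cfsg.Agent.S1044
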