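import Cfsg.Statements.S1045
import Cfsg.Agent.Chev.Good
import Cfsg.Agent.Chev.RootBNInst

set_option autoImplicit false
open Cfsg

namespace Cfsg.Agent.S1045

/-- For a fundamental root `p`, the subgroup `U_p` generated by the `X_s`, `s` positive and `s ≠ p`, is normalised by `X_p` and `X_{-p}`, and `U = U_p ⊔ X_p`. -/
theorem result {F : Type*} [Field F] (D : Cfsg.Lie.ChevalleyDatum) (hD : D ∈ [Cfsg.Lie.chevG2, Cfsg.Lie.chevB2, Cfsg.Lie.chevD4, Cfsg.Lie.chevF4, Cfsg.Lie.chevE6, Cfsg.Lie.chevE7, Cfsg.Lie.chevE8]) (i : ℕ) (hi : i < D.rank) :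
    D.rootSubgroup F (D.simple i) ⊔ D.rootSubgroup F (D.neg (D.simple i)) ≤
        Subgroup.normalizer (Subgroup.closure {g : GL D.Idx F | ∃ (s : ℕ) (t : F), D.IsPosRoot s ∧ s ≠ D.simple i ∧
          (g : Matrix D.Idx D.Idx F) = D.x F s t} : Set (GL D.Idx F)) ∧
      Subgroup.closure {g : GL D.Idx F | ∃ (s : ℕ) (t : F), D.IsPosRoot s ∧ s ≠ D.simple i ∧
          (g : Matrix D.Idx D.Idx F) = D.x F s t} ⊔ D.rootSubgroup F (D.simple i) = D.posUnipotent F := by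
  have := Cfsg.Agent.Chev.good_of_mem hD
  have h1 := D.rootBN_Q F {i}
  have h2 : ∀ s, (D.IsPosRoot s ∧ s ≠ D.simple i) ↔ (D.IsPosRoot s ∧ ¬ D.InRootSub {i} s) := by
    intro s
    refine and_congr_right fun hs => not_congr ?_
    lift s to D.Rt using hs.1
    rw [← D.rootBN_supp_subset_iff_inRootSub F]
    have h3 := (D.rootBN F).topSub.Inv_t ⟨i, hi⟩
    have h4 : {j : D.Nd | (j : ℕ) ∈ ({i} : Set ℕ)} = {⟨i, hi⟩} := by
      ext j; simp [Fin.ext_iff]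
    have h5 := Chev.RootBN.Inv_s (R := D.rootBN F) ⟨i, hi⟩
    have h6 : s ∈ ({D.sr ⟨i, hi⟩} : Set D.Rt) ↔ _ := Set.ext_iff.1 (h5.symm.trans h3) s
    rw [h4]
    constructor
    · intro h; exact (h6.1 (Fin.ext h)).2
    · intro h; exact congrArg Fin.val (h6.2 ⟨hs, h⟩)
  have h3 : Subgroup.closure {g : GL D.Idx F | ∃ (s : ℕ) (t : F), D.IsPosRoot s ∧ s ≠ D.simple i ∧
      (g : Matrix D.Idx D.Idx F) = D.x F s t} = (D.rootBN F).Q {j : D.Nd | (j : ℕ) ∈ ({i} : Set ℕ)} := by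
    rw [h1, Cfsg.Lie.ChevalleyDatum.unipotentRadical]
    simp only [← and_assoc, h2]
  have h4 : (D.rootBN F).supp (D.sr ⟨i, hi⟩) ⊆ {j : D.Nd | (j : ℕ) ∈ ({i} : Set ℕ)} := by
    rw [← D.rootBN_simple F, (D.rootBN F).supp_simple]
    simp
  rw [h3]
  refine ⟨(sup_le (Chev.RootBN.X_le_L h4) (Chev.RootBN.X_le_L (r := D.ng (D.sr ⟨i, hi⟩)) ?_)).trans
    (Chev.RootBN.L_le_normalizer_Q _), ?_⟩
  · rw [← D.rootBN_neg F, (D.rootBN F).supp_neg]; exact h4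
  · rw [← h3]
    simp only [← and_assoc]
    rw [D.closure_x_eq_XS F (fun s => D.IsPosRoot s ∧ s ≠ D.simple i) (fun r hr => hr.1.1),
      D.posUnipotent_eq_XS, ← D.rootBN_XS, ← D.rootBN_XS, ← D.sr_val ⟨i, hi⟩, ← D.rootBN_X,
      ← Chev.RootBN.XS_singleton, ← Chev.RootBN.XS_union]
    congr 1
    ext r
    simp only [Set.mem_union, Set.mem_ofPred_eq, Set.mem_singleton_iff, ne_eq, Fin.val_inj]
    constructor
    · rintro (h | rfl)
      exacts [h.1, D.sr_pos _]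
    · intro h
      by_cases h' : r = D.sr ⟨i, hi⟩
      exacts [Or.inr h', Or.inl ⟨h, h'⟩]

end Cfsg.Agent.S1045
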