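import Cfsg.Statements.S1046
import Cfsg.Agent.Chev.Good
import Cfsg.Agent.Chev.RootBNInst

set_option autoImplicit false
open Cfsg

namespace Cfsg.Agent.S1046

/-- Two elements of `H` conjugate in the Chevalley group are conjugate by an element of `N`. -/
theorem result {F : Type*} [Field F] (D : Cfsg.Lie.ChevalleyDatum) (hD : D ∈ [Cfsg.Lie.chevG2, Cfsg.Lie.chevB2, Cfsg.Lie.chevD4, Cfsg.Lie.chevF4, Cfsg.Lie.chevE6, Cfsg.Lie.chevE7, Cfsg.Lie.chevE8]) (h₁ h₂ g : GL D.Idx F) (h1 : h₁ ∈ D.diagonalSubgroup F) (h2 : h₂ ∈ D.diagonalSubgroup F)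
    (hg : g ∈ D.group F) (hc : g * h₁ * g⁻¹ = h₂) :
    ∃ n ∈ D.monomialSubgroup F, n * h₁ * n⁻¹ = h₂ := by
  have := Cfsg.Agent.Chev.good_of_mem hD
  set R := D.rootBN F
  obtain ⟨u, hu, n, hn, x, hx, rfl⟩ := Chev.RootBN.bruhat_nf (R := R) hg
  refine ⟨n, hn, ?_⟩
  have hx' := Chev.RootBN.Um_le_U n hx
  have e : u * (n * h₁) * (h₁⁻¹ * x * h₁) = (h₂ * u * h₂⁻¹) * (h₂ * n) * x := by
    rw [← hc]; group
  have h3 := Chev.RootBN.eq_of_UNU hu (Chev.RootBN.conj_H_U h2 hu) (mul_mem hn (R.H_le_N h1))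
    (mul_mem (R.H_le_N h2) hn) (by simpa using Chev.RootBN.conj_H_U (inv_mem h1) hx') hx' e
  rw [h3, mul_inv_cancel_right]

end Cfsg.Agent.S1046
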