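import Cfsg.Statements.S1047
import Cfsg.Agent.Chev.Good
import Cfsg.Agent.Chev.RootBNInst

set_option autoImplicit false
open Cfsg

namespace Cfsg.Agent.S1047

/-- `P_J = ⟨H, X_r : r ∈ Φ⁺ ∪ Φ_J⟩`. -/
theorem result {F : Type*} [Field F] (D : Cfsg.Lie.ChevalleyDatum) (hD : D ∈ [Cfsg.Lie.chevG2, Cfsg.Lie.chevB2, Cfsg.Lie.chevD4, Cfsg.Lie.chevF4, Cfsg.Lie.chevE6, Cfsg.Lie.chevE7, Cfsg.Lie.chevE8]) (J : Set ℕ) :
    D.parabolicSubgroup F J = D.diagonalSubgroup F ⊔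
      Subgroup.closure {g : GL D.Idx F | ∃ (r : ℕ) (t : F), (D.IsPosRoot r ∨ D.InRootSub J r) ∧ (g : Matrix D.Idx D.Idx F) = D.x F r t} := by
  have := Cfsg.Agent.Chev.good_of_mem hD
  rw [← D.rootBN_P, Cfsg.Agent.Chev.RootBN.P_eq_Q_sup_L, D.rootBN_Q, D.rootBN_L,
    D.closure_x_eq_XS F (fun r => D.IsPosRoot r ∨ D.InRootSub J r) (fun r hr => hr.elim (·.1) (·.1))]
  unfold Cfsg.Lie.ChevalleyDatum.unipotentRadical Cfsg.Lie.ChevalleyDatum.leviSubgroup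
  simp only [← and_assoc]
  rw [D.closure_x_eq_XS F (fun r => D.IsPosRoot r ∧ ¬ D.InRootSub J r) (fun r hr => hr.1.1),
    D.closure_x_eq_XS F (fun r => D.InRootSub J r) (fun r hr => hr.1), sup_left_comm]
  congr 1
  simp only [← D.rootBN_XS, ← Cfsg.Agent.Chev.RootBN.XS_union]
  congr 1
  ext r
  simp only [Set.mem_union, Set.mem_ofPred_eq]
  tauto

end Cfsg.Agent.S1047
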