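import Cfsg.Statements.S1049
import Cfsg.Agent.Chev.Good
import Cfsg.Agent.Chev.RootBNInst

set_option autoImplicit false
open Cfsg

namespace Cfsg.Agent.S1049

/-- `N_G(U_J) = P_J`: the normaliser of `U_J` inside the Chevalley group is the standard parabolic subgroup. -/
theorem result {F : Type*} [Field F] (D : Cfsg.Lie.ChevalleyDatum) (hD : D ∈ [Cfsg.Lie.chevG2, Cfsg.Lie.chevB2, Cfsg.Lie.chevD4, Cfsg.Lie.chevF4, Cfsg.Lie.chevE6, Cfsg.Lie.chevE7, Cfsg.Lie.chevE8]) (J : Set ℕ) (hJ : ∀ j ∈ J, j < D.rank) :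
    Subgroup.normalizer (D.unipotentRadical F J : Set (GL D.Idx F)) ⊓ D.group F = D.parabolicSubgroup F J := by
  have := Cfsg.Agent.Chev.good_of_mem hD
  rw [← D.rootBN_P, ← D.rootBN_Q]
  refine le_antisymm (fun g hg => ?_) (le_inf (Cfsg.Agent.Chev.RootBN.P_le_normalizer_Q _)
    (Cfsg.Agent.Chev.RootBN.P_le_G _))
  obtain ⟨h1, h2⟩ := Subgroup.mem_inf.1 hg
  exact Cfsg.Agent.Chev.RootBN.mem_P_of_normalizes_Q h2 fun q hq =>
    Cfsg.Agent.Chev.RootBN.Q_le_U _ ((Subgroup.mem_normalizer_iff.1 h1 q).1 hq)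

end Cfsg.Agent.S1049
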