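import Cfsg.Statements.S1053
import Cfsg.Agent.Chev.Good
import Cfsg.Agent.Chev.RootBNInst

set_option autoImplicit false
open Cfsg

namespace Cfsg.Agent.S1053

/-- There is `n₀ ∈ N` with `n₀ U n₀⁻¹ = V` (a representative of the longest element of the Weyl group). -/
theorem result {F : Type*} [Field F] (D : Cfsg.Lie.ChevalleyDatum) (hD : D ∈ [Cfsg.Lie.chevG2, Cfsg.Lie.chevB2, Cfsg.Lie.chevD4, Cfsg.Lie.chevF4, Cfsg.Lie.chevE6, Cfsg.Lie.chevE7, Cfsg.Lie.chevE8]) :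
    ∃ n ∈ D.monomialSubgroup F, (D.posUnipotent F).map (MulAut.conj n).toMonoidHom = D.negUnipotent F := by
  have := Cfsg.Agent.Chev.good_of_mem hD
  refine ⟨(D.rootBN F).n0, Cfsg.Agent.Chev.RootBN.n0_mem (R := D.rootBN F), ?_⟩
  ext v
  rw [Subgroup.mem_map]
  constructor
  · rintro ⟨u, hu, rfl⟩
    exact (Cfsg.Agent.Chev.RootBN.n0_conj_mem_V (R := D.rootBN F)).2 hu
  · intro hv
    refine ⟨((D.rootBN F).n0)⁻¹ * v * (D.rootBN F).n0, ?_, by simp [mul_assoc]⟩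
    apply (Cfsg.Agent.Chev.RootBN.n0_conj_mem_V (R := D.rootBN F)).1
    simpa [mul_assoc, D.rootBN_V] using hv

end Cfsg.Agent.S1053
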