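import Mathlib
import Cfsg.Statements.S1084
import Cfsg.Agent.Chev.E6Frame
import Cfsg.Agent.Cl.Transport

set_option autoImplicit false
open Cfsg

namespace Cfsg.Agent.S1084

open Cfsg.Lie Cfsg.Agent.Chev.E6V Matrix

/-- The numbering of the coordinates. -/
def e27 : I ≃ I27 where
  toFun n := (⟨n / 9, by omega⟩, ⟨n / 3 % 3, by omega⟩, ⟨n % 3, by omega⟩)
  invFun a := ⟨9 * a.1 + 3 * a.2.1 + a.2.2, by omega⟩
  left_inv := by decide +kernel
  right_inv := by decide +kernel

theorem cubicT_eq {F : Type*} [Field F] (v : I27 → F) : cubicT v = cub (v ∘ e27) := by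
  simp [cubicT, mat3, det_fin_three, trace, Fin.sum_univ_three, mul_apply, cub, tris, e27]
  ring

/-- E₆ via the 27-dimensional cubic form: for a finite field with at least three elements, (isometries of the cubic form) / centre ≅ the Chevalley group E₆(F). -/
theorem result {F : Type*} [Field F] [Fintype F] (hF : 3 ≤ Fintype.card F) : Nonempty (Cfsg.Lie.E6 F ≃* ↥(Cfsg.Lie.chevE6.group F)) := by
  let φ : GL I F ≃* GL I27 F := Units.mapEquiv (reindexAlgEquiv F F e27).toMulEquiv
  have h1 : ∀ (g : GL I F) (v : I27 → F), ((φ g : GL I27 F) : Matrix I27 I27 F) *ᵥ v =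
      ((g : Matrix I I F) *ᵥ (v ∘ e27)) ∘ e27.symm := fun g v => submatrix_mulVec_equiv _ _ _ _
  have h2 : (Iso F).map φ = E6univ F := by
    ext g
    obtain ⟨g, rfl⟩ := φ.surjective g
    refine (Subgroup.mem_map_iff_mem φ.injective).trans ⟨fun h v => ?_, fun h => mem_Iso.2 fun v => ?_⟩
    · change cubicT ((φ g : Matrix I27 I27 F) *ᵥ v) = _
      rw [h1, cubicT_eq, cubicT_eq, Function.comp_assoc, Equiv.symm_comp_self, Function.comp_id,
        mem_Iso.1 h]
    · have := h (v ∘ e27.symm)
      change cubicT ((φ g : Matrix I27 I27 F) *ᵥ _) = _ at this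
      simpa only [h1, cubicT_eq, Function.comp_assoc, Equiv.symm_comp_self, Function.comp_id]
        using this
  obtain ⟨e, -⟩ := exists_equiv_Gen (F := F)
  obtain ⟨c, hc⟩ : ∃ c : F, c ≠ 0 ∧ c ≠ 1 := by
    classical
    by_contra! h
    have := Finset.card_le_card (show (Finset.univ : Finset F) ⊆ {0, 1} from fun x _ => by
      by_cases e : x = 0 <;> simp [e, h x])
    have := Finset.card_le_two (a := (0 : F)) (b := 1)
    rw [Fintype.card] at hF
    omega
  exact ⟨(e.trans (Cl.centerQuotCongr (((MulEquiv.subgroupCongr (Gen_eq_Iso ⟨c, hc⟩)).trans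
    (φ.subgroupMap _)).trans (MulEquiv.subgroupCongr h2)))).symm⟩

end Cfsg.Agent.S1084
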