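import Mathlib
import Cfsg.Statements.S1094
import Cfsg.Agent.Chev.CoxWord
import Cfsg.Agent.Chev.Good

set_option autoImplicit false
open Cfsg

namespace Cfsg.Agent.S1094

open Cfsg.Agent.Chev Cfsg.Lie Cfsg.Lie.ChevalleyDatum

theorem aux {D : ChevalleyDatum} [D.Good] {M : CoxeterMatrix D.Nd}
    (hcs : ∃ cs : CoxeterSystem M D.weyl, ∀ i, cs.simple i = D.srefW i)
    {A : List (List ℤ)} (hA : D.cartanRows = A) (l : List D.Nd) {h : ℕ}
    (h1 : 0 < h ∧ actWord A (List.replicate h l).flatten (List.replicate D.rank 1) =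
      List.replicate D.rank 1 ∧ ∀ k < h, 0 < k →
      actWord A (List.replicate k l).flatten (List.replicate D.rank 1) ≠ List.replicate D.rank 1) :
    orderOf (l.map M.simple).prod = h :=
  (wtAct hcs.choose_spec).orderOf_prod_simple (hA ▸ cartanRows_getD) l h1.1 h1.2.1 h1.2.2

/-- The Coxeter element `s₁ s₂ ⋯ s_l` of the Coxeter group of type B₂, G₂, D₄, F₄, E₆, E₇, E₈ has order `h = 2N/l` = 4, 6, 6, 12, 12, 18, 30. -/
theorem result (p : (Σ n : ℕ, CoxeterMatrix (Fin n)) × ℕ)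
    (hp : p ∈ [(⟨2, CoxeterMatrix.B 2⟩, 4), (⟨2, CoxeterMatrix.G₂⟩, 6), (⟨4, Cfsg.Lie.coxeterD4⟩, 6), (⟨4, CoxeterMatrix.F₄⟩, 12),
      (⟨6, CoxeterMatrix.E₆⟩, 12), (⟨7, CoxeterMatrix.E₇⟩, 18), (⟨8, CoxeterMatrix.E₈⟩, 30)]) :
    orderOf ((List.finRange p.1.1).map p.1.2.simple).prod = p.2 := by
  simp only [List.mem_cons, List.not_mem_nil, or_false] at hp
  rcases hp with rfl | rfl | rfl | rfl | rfl | rfl | rfl
  · exact aux exists_weylCs_B2 cartanRows_B2 _ (by decide +kernel)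
  · exact aux exists_weylCs_G2 cartanRows_G2 _ (by decide +kernel)
  · exact aux exists_weylCs_D4 cartanRows_D4 _ (by decide +kernel)
  · exact aux exists_weylCs_F4 cartanRows_F4 _ (by decide +kernel)
  · exact aux exists_weylCs_E6 cartanRows_E6 _ (by decide +kernel)
  · exact aux exists_weylCs_E7 cartanRows_E7 _ (by decide +kernel)
  · exact aux exists_weylCs_E8 cartanRows_E8 _ (by decide +kernel)

end Cfsg.Agent.S1094
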