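import Mathlib
import Mathlib
import Cfsg.Statements.S1098
import Cfsg.Agent.Chev.IsogB2
import Cfsg.Agent.Chev.IsogF4

set_option autoImplicit false
open Cfsg

namespace Cfsg.Agent.S1098

open Cfsg.Agent.Chev.Isog Cfsg.Lie in
theorem aux {K : Type*} [Field K] [CharP K 2] (hperf : ∀ x : K, ∃ y : K, y ^ 2 = x)
    {D : ChevalleyDatum} {m : ℕ} (T : Data D 2 m) (hA : Function.Injective (T.matA K))
    (l : List (ℕ × ℕ))
    (h : ∀ i < D.rank, (∃ r : Fin D.nroots, D.simple i = r ∧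
        D.simple (l.getD i (0, 1)).1 = T.bar r ∧ (l.getD i (0, 1)).2 = T.lam r) ∧
      (∃ r : Fin D.nroots, D.neg (D.simple i) = r ∧
        D.neg (D.simple (l.getD i (0, 1)).1) = T.bar r ∧ (l.getD i (0, 1)).2 = T.lam r)) :
    ∃ α : ↥(D.group K) ≃* ↥(D.group K), ∀ (g : ↥(D.group K)) (i : ℕ) (t : K), i < D.rank →
      (((g : GL D.Idx K) : Matrix D.Idx D.Idx K) = D.x K (D.simple i) t →
        ((α g : GL D.Idx K) : Matrix D.Idx D.Idx K) = D.x K (D.simple (l.getD i (0, 1)).1) (t ^ (l.getD i (0, 1)).2)) ∧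
      (((g : GL D.Idx K) : Matrix D.Idx D.Idx K) = D.x K (D.neg (D.simple i)) t →
        ((α g : GL D.Idx K) : Matrix D.Idx D.Idx K) = D.x K (D.neg (D.simple (l.getD i (0, 1)).1)) (t ^ (l.getD i (0, 1)).2)) := by
  have : ExpChar K 2 := ExpChar.prime Nat.prime_two
  refine ⟨MulEquiv.ofBijective (T.gam hA)
    ⟨T.gam_injective hA, T.gam_surjective hA hperf⟩, fun g i t hi => ?_⟩
  have key : ∀ r : Fin D.nroots, ((g : GL D.Idx K) : Matrix _ _ K) = D.x K r t →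
      ((T.gam hA g : GL D.Idx K) : Matrix _ _ K) = D.x K (T.bar r) (t ^ T.lam r) := by
    intro r h
    have : g = xg T.mem K r t := ext_mat h
    rw [this, T.gam_xg hA]
    rfl
  obtain ⟨⟨r, h1, h2, h3⟩, ⟨s, h4, h5, h6⟩⟩ := h i hi
  constructor
  · rw [h1, h2, h3]
    exact key r
  · rw [h4, h5, h6]
    exact key s

/-- Graph automorphisms in characteristic 2 (K perfect): for B₂ (a short, b long) `x_a(t) ↦ x_b(t²)`, `x_b(t) ↦ x_a(t)`, and for F₄ (p₁, p₂ short, p₃, p₄ long) `x_{p₁}(t) ↦ x_{p₄}(t²)`, `x_{p₂}(t) ↦ x_{p₃}(t²)`, `x_{p₃}(t) ↦ x_{p₂}(t)`, `x_{p₄}(t) ↦ x_{p₁}(t)`, likewise on the negatives, extend to an automorphism of the group. -/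
theorem result {K : Type*} [Field K] [CharP K 2] (hperf : ∀ x : K, ∃ y : K, y ^ 2 = x)
    (p : Cfsg.Lie.ChevalleyDatum × List (ℕ × ℕ))
    (hp : p ∈ [(Cfsg.Lie.chevB2, [(1, 2), (0, 1)]), (Cfsg.Lie.chevF4, [(3, 2), (2, 2), (1, 1), (0, 1)])]) :
    ∃ α : ↥(p.1.group K) ≃* ↥(p.1.group K), ∀ (g : ↥(p.1.group K)) (i : ℕ) (t : K), i < p.1.rank →
      (((g : GL p.1.Idx K) : Matrix p.1.Idx p.1.Idx K) = p.1.x K (p.1.simple i) t →
        ((α g : GL p.1.Idx K) : Matrix p.1.Idx p.1.Idx K) = p.1.x K (p.1.simple (p.2.getD i (0, 1)).1) (t ^ (p.2.getD i (0, 1)).2)) ∧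
      (((g : GL p.1.Idx K) : Matrix p.1.Idx p.1.Idx K) = p.1.x K (p.1.neg (p.1.simple i)) t →
        ((α g : GL p.1.Idx K) : Matrix p.1.Idx p.1.Idx K) = p.1.x K (p.1.neg (p.1.simple (p.2.getD i (0, 1)).1)) (t ^ (p.2.getD i (0, 1)).2)) := by
  simp only [List.mem_cons, List.not_mem_nil, or_false] at hp
  rcases hp with rfl | rfl
  · exact aux hperf Chev.Isog.dataB2 (Chev.Isog.matA_injective_B2 K) _ (by decide +kernel)
  · exact aux hperf Chev.Isog.dataF4 (Chev.Isog.matA_injective_F4 K) _ (by decide +kernel)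

end Cfsg.Agent.S1098
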