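import Mathlib
import Mathlib
import Cfsg.Statements.S1099
import Cfsg.Agent.Chev.IsogG2

set_option autoImplicit false
open Cfsg

namespace Cfsg.Agent.S1099

/-- Graph automorphism of G₂ in characteristic 3 (K perfect): `x_a(t) ↦ x_b(t³)`, `x_b(t) ↦ x_a(t)`, `x_{-a}(t) ↦ x_{-b}(t³)`, `x_{-b}(t) ↦ x_{-a}(t)` extend to an automorphism of the group. -/
theorem result {K : Type*} [Field K] [CharP K 3] (hperf : ∀ x : K, ∃ y : K, y ^ 3 = x) :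
    ∃ α : ↥(Cfsg.Lie.chevG2.group K) ≃* ↥(Cfsg.Lie.chevG2.group K), ∀ (g : ↥(Cfsg.Lie.chevG2.group K)) (t : K),
      (((g : GL Cfsg.Lie.chevG2.Idx K) : Matrix _ _ K) = Cfsg.Lie.chevG2.x K Cfsg.Lie.g2a t →
        ((α g : GL Cfsg.Lie.chevG2.Idx K) : Matrix _ _ K) = Cfsg.Lie.chevG2.x K Cfsg.Lie.g2b (t ^ 3)) ∧
      (((g : GL Cfsg.Lie.chevG2.Idx K) : Matrix _ _ K) = Cfsg.Lie.chevG2.x K Cfsg.Lie.g2b t →
        ((α g : GL Cfsg.Lie.chevG2.Idx K) : Matrix _ _ K) = Cfsg.Lie.chevG2.x K Cfsg.Lie.g2a t) ∧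
      (((g : GL Cfsg.Lie.chevG2.Idx K) : Matrix _ _ K) = Cfsg.Lie.chevG2.x K Cfsg.Lie.g2ma t →
        ((α g : GL Cfsg.Lie.chevG2.Idx K) : Matrix _ _ K) = Cfsg.Lie.chevG2.x K Cfsg.Lie.g2mb (t ^ 3)) ∧
      (((g : GL Cfsg.Lie.chevG2.Idx K) : Matrix _ _ K) = Cfsg.Lie.chevG2.x K Cfsg.Lie.g2mb t →
        ((α g : GL Cfsg.Lie.chevG2.Idx K) : Matrix _ _ K) = Cfsg.Lie.chevG2.x K Cfsg.Lie.g2ma t) := by
  open Cfsg.Agent.Chev.Isog Cfsg.Lie in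
  have : ExpChar K 3 := ExpChar.prime Nat.prime_three
  let hA := matA_injective_G2 K
  refine ⟨MulEquiv.ofBijective (dataG2.gam hA)
    ⟨dataG2.gam_injective hA, dataG2.gam_surjective hA hperf⟩, fun g t => ?_⟩
  have key : ∀ r : Fin chevG2.nroots, ((g : GL chevG2.Idx K) : Matrix _ _ K) = chevG2.x K r t →
      ((dataG2.gam hA g : GL chevG2.Idx K) : Matrix _ _ K) =
        chevG2.x K (barNG2 r) (t ^ lamNG2 r) := by
    intro r h
    have : g = xg dataG2.mem K r t := ext_mat h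
    rw [this, dataG2.gam_xg hA]
    rfl
  refine ⟨key ⟨7, by decide⟩, fun h => ?_, key ⟨4, by decide⟩, fun h => ?_⟩
  · have := key ⟨6, by decide⟩ h
    rwa [show lamNG2 ((⟨6, by decide⟩ : Fin chevG2.nroots) : ℕ) = 1 from rfl, pow_one] at this
  · have := key ⟨5, by decide⟩ h
    rwa [show lamNG2 ((⟨5, by decide⟩ : Fin chevG2.nroots) : ℕ) = 1 from rfl, pow_one] at this

end Cfsg.Agent.S1099
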