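import Cfsg.Statements.S1100
import Cfsg.Agent.Chev.Good
import Cfsg.Agent.Chev.RootBNInst

set_option autoImplicit false
open Cfsg

namespace Cfsg.Agent.S1100

/-- Canonical form `g = b n_w u` (`b ∈ B`, `u ∈ U_w⁻ = ⟨X_r : r > 0, n_w X_r n_w⁻¹ ≤ V⟩`): such a decomposition exists for every element of the group; the coset `n_w H` is determined by `g`; and for a fixed representative `n_w` the factors `b`, `u` are unique. -/
theorem result {F : Type*} [Field F] (D : Cfsg.Lie.ChevalleyDatum) (hD : D ∈ [Cfsg.Lie.chevG2, Cfsg.Lie.chevB2, Cfsg.Lie.chevD4, Cfsg.Lie.chevF4, Cfsg.Lie.chevE6, Cfsg.Lie.chevE7, Cfsg.Lie.chevE8]) :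
    (∀ g ∈ D.group F, ∃ b ∈ D.borelSubgroup F, ∃ n ∈ D.monomialSubgroup F,
      ∃ u ∈ Subgroup.closure {x : GL D.Idx F | ∃ (r : ℕ) (t : F), D.IsPosRoot r ∧
            (D.rootSubgroup F r).map (MulAut.conj n).toMonoidHom ≤ D.negUnipotent F ∧ (x : Matrix D.Idx D.Idx F) = D.x F r t},
        g = b * n * u) ∧
    (∀ (b b' n n' u u' : GL D.Idx F), b ∈ D.borelSubgroup F → b' ∈ D.borelSubgroup F →
      n ∈ D.monomialSubgroup F → n' ∈ D.monomialSubgroup F →
      u ∈ Subgroup.closure {x : GL D.Idx F | ∃ (r : ℕ) (t : F), D.IsPosRoot r ∧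
            (D.rootSubgroup F r).map (MulAut.conj n).toMonoidHom ≤ D.negUnipotent F ∧ (x : Matrix D.Idx D.Idx F) = D.x F r t} →
      u' ∈ Subgroup.closure {x : GL D.Idx F | ∃ (r : ℕ) (t : F), D.IsPosRoot r ∧
            (D.rootSubgroup F r).map (MulAut.conj n').toMonoidHom ≤ D.negUnipotent F ∧ (x : Matrix D.Idx D.Idx F) = D.x F r t} →
      b * n * u = b' * n' * u' → n⁻¹ * n' ∈ D.diagonalSubgroup F ∧ (n = n' → b = b' ∧ u = u')) := by
  have := Cfsg.Agent.Chev.good_of_mem hD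
  set R := D.rootBN F
  have key : ∀ n ∈ D.monomialSubgroup F, Subgroup.closure {x : GL D.Idx F | ∃ (r : ℕ) (t : F),
      D.IsPosRoot r ∧ (D.rootSubgroup F r).map (MulAut.conj n).toMonoidHom ≤ D.negUnipotent F ∧
        (x : Matrix D.Idx D.Idx F) = D.x F r t} = R.Um n := fun n hn => by
    simp only [← and_assoc]
    rw [D.closure_x_eq_XS F (fun r => D.IsPosRoot r ∧
      (D.rootSubgroup F r).map (MulAut.conj n).toMonoidHom ≤ D.negUnipotent F) (fun r hr => hr.1.1),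
      ← D.rootBN_XS, Chev.RootBN.Um]
    congr 1
    ext r
    refine and_congr_right fun _ => ?_
    rw [← D.rootBN_X, Chev.RootBN.map_conj_X (R := R) hn]
    exact ⟨Chev.RootBN.not_pos_of_X_le_V, Chev.RootBN.X_le_V⟩
  refine ⟨fun g hg => ?_, fun b b' n n' u u' hb hb' hn hn' hu hu' e => ?_⟩
  · obtain ⟨u, hu, n, hn, x, hx, rfl⟩ := Chev.RootBN.bruhat_nf (R := R) hg
    refine ⟨u, Chev.RootBN.U_le_B (R := R) hu, n, hn, x, ?_, rfl⟩
    rw [key n hn]; exact hx
  · rw [key n hn] at hu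
    rw [key n' hn'] at hu'
    have h1 := Chev.RootBN.w_eq_of_BNB (R := R) hb hb' hn hn'
      (Chev.RootBN.U_le_B (R := R) (Chev.RootBN.Um_le_U n hu))
      (Chev.RootBN.U_le_B (R := R) (Chev.RootBN.Um_le_U n' hu')) e
    refine ⟨(Chev.RootBN.inv_mul_mem_H_iff (R := R) hn hn').2 h1, ?_⟩
    rintro rfl
    have h2 : b'⁻¹ * b = n * (u' * u⁻¹) * n⁻¹ := by
      rw [inv_mul_eq_iff_eq_mul, ← mul_left_inj n, ← mul_left_inj u, e]; group
    have h3 := Chev.RootBN.eq_one_of_mem_B_V (R := R) (mul_mem (inv_mem hb') hb)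
      (by rw [h2]; exact Chev.RootBN.conj_Um (R := R) hn (mul_mem hu' (inv_mem hu)))
    obtain rfl : b' = b := inv_mul_eq_one.1 h3
    exact ⟨rfl, mul_left_cancel e⟩

end Cfsg.Agent.S1100
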