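import Mathlib
import Cfsg.Statements.S1115
import Cfsg.Agent.Chev.ReeDict

set_option autoImplicit false
open Cfsg

namespace Cfsg.Agent.S1115

/-- `N¹/H¹ ≅ W¹`: a surjective homomorphism from `N¹ = G¹ ∩ N` onto the group of order 2 with kernel `H¹`. -/
theorem result {K : Type*} [Field K] [Fintype K] {m : ℕ} (hK : Fintype.card K = 3 ^ (2 * m + 1)) :
    ∃ φ : ↥(Cfsg.Lie.chevG2.monomialSubgroup K ⊓ Cfsg.Lie.twistedG2 K (3 ^ m)) →* Multiplicative (ZMod 2), Function.Surjective φ ∧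
      φ.ker = (Cfsg.Lie.chevG2.diagonalSubgroup K ⊓ Cfsg.Lie.twistedG2 K (3 ^ m)).subgroupOf (Cfsg.Lie.chevG2.monomialSubgroup K ⊓ Cfsg.Lie.twistedG2 K (3 ^ m)) := by
  obtain ⟨R, hD⟩ := Chev.ReeInst.exists_ree hK
  obtain ⟨f, h1, h2⟩ := R.exists_hom_N
  refine ⟨f.comp hD.equivN.symm.toMonoidHom, h1.comp hD.equivN.symm.surjective, ?_⟩
  ext g
  rw [← MonoidHom.comap_ker, h2, Subgroup.mem_comap, Subgroup.mem_subgroupOf, hD.H,
    Subgroup.mem_subgroupOf]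
  exact ⟨fun h => ⟨h, g.2.2⟩, fun h => h.1⟩

end Cfsg.Agent.S1115
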