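import Mathlib
import Cfsg.Statements.S1116
import Cfsg.Agent.Chev.ReeDict

set_option autoImplicit false
open Cfsg

namespace Cfsg.Agent.S1116

/-- ²G₂(3^(2m+1)) (m ≥ 1) equals its derived subgroup. -/
theorem result {K : Type*} [Field K] [Fintype K] {m : ℕ} (hK : Fintype.card K = 3 ^ (2 * m + 1)) (hm : 1 ≤ m) : commutator ↥(Cfsg.Lie.twistedG2 K (3 ^ m)) = ⊤ := by
  obtain ⟨R, hD⟩ := Chev.ReeInst.exists_ree hK
  exact R.commutator_eq_top (by
    rw [hK]
    calc 3 = 3 ^ 1 := rfl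
      _ < _ := Nat.pow_lt_pow_right (by norm_num) (by omega))

end Cfsg.Agent.S1116
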