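import Mathlib
import Cfsg.Statements.S1124
import Cfsg.Agent.Perm.RankOneInv

set_option autoImplicit false
open scoped Pointwise
open Cfsg

namespace Cfsg.Agent.S1124

/-- Let `t` be an element of order 2 of a finite group normalising a subgroup `X` of odd order, `Y = C_X(t)` and `Z` the set of elements of `X` inverted by `t`. Then `(y, z) ↦ y z` is a bijection `Y × Z → X`, so `|X| = |Y| |Z|`, and the subgroup generated by `Z` is normal in `X`. -/
theorem result {M : Type*} [Group M] [Finite M]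
    (t : M) (ht : orderOf t = 2) (X : Subgroup M) (hodd : Odd (Nat.card X))
    (hnorm : ∀ x ∈ X, t * x * t⁻¹ ∈ X) :
    (∀ x ∈ X, ∃! p : M × M, p.1 ∈ X ⊓ Subgroup.centralizer {t} ∧ p.2 ∈ Cfsg.invertedBy X t ∧ x = p.1 * p.2) ∧
      Nat.card X = Nat.card ↥(X ⊓ Subgroup.centralizer {t}) * Nat.card (Cfsg.invertedBy X t) ∧
      ∀ x ∈ X, MulAut.conj x • Subgroup.closure (Cfsg.invertedBy X t) = Subgroup.closure (Cfsg.invertedBy X t) := by
  have ht2 := (Perm.RankOne.mul_self_of_orderOf_eq_two ht).2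
  refine ⟨fun x hx => ?_, Perm.RankOne.card_eq_centralizer_mul_inverted ht2 hodd hnorm,
    fun x hx => ?_⟩
  · obtain ⟨y, hy, hyt, z, hz, h⟩ := Perm.RankOne.exists_centralizer_mul_inverted ht2 hodd hnorm hx
    refine ⟨(y, z), ⟨⟨hy, Subgroup.mem_centralizer_singleton_iff.mpr hyt.eq⟩, hz, h⟩, ?_⟩
    rintro ⟨y', z'⟩ ⟨hy', hz', h'⟩
    have h1 : z' = z := Perm.RankOne.inverted_eq_of_mul_eq hodd
      (Subgroup.mem_centralizer_singleton_iff.mp hy'.2) hyt hz' hz (h'.symm.trans h)
    subst h1
    exact Prod.ext (mul_right_cancel (h'.symm.trans h)) rfl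
  · ext w
    rw [Subgroup.mem_pointwise_smul_iff_inv_smul_mem]
    constructor
    · intro hw
      have := Perm.RankOne.conj_mem_closure_invertedBy ht2 hodd hnorm hx hw
      simpa [mul_assoc] using this
    · intro hw
      have := Perm.RankOne.conj_mem_closure_invertedBy ht2 hodd hnorm (X.inv_mem hx) hw
      simpa [mul_assoc] using this

end Cfsg.Agent.S1124
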