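import Mathlib
import Cfsg.Statements.S1133
import Cfsg.Agent.Perm.RankOneField

set_option autoImplicit false
open Cfsg

namespace Cfsg.Agent.S1133

/-- In the rank-one set-up (`G` finite and doubly transitive on `Ω`, `t` an involution moving `a`, `Q` normal in `G_a` with `G_a = Q D`, `Q ⊓ D = 1` for the two-point stabiliser `D = G_a ⊓ G_{t • a}`, `|Q|` even, `|D|` odd), with the action faithful and `G` containing two distinct commuting involutions, with `V = C_D(t)`, `K` the elements of `D` inverted by `t` and `W = C_V(K)`: `V/W` is cyclic, i.e. `V = W ⟨v⟩` for some `v ∈ V`. -/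
theorem result {G Ω : Type*} [Group G] [Finite G] [MulAction G Ω] [FaithfulSMul G Ω] {a : Ω} {t : G} {Q : Subgroup G}
    (hS : Cfsg.IsRankOneSetup G Ω a t Q)
    (h2 : ∃ x y : G, x ≠ 1 ∧ y ≠ 1 ∧ x ≠ y ∧ x * x = 1 ∧ y * y = 1 ∧ x * y = y * x) :
    ∃ v ∈ (MulAction.stabilizer G a ⊓ MulAction.stabilizer G (t • a)) ⊓ Subgroup.centralizer {t},
      ((MulAction.stabilizer G a ⊓ MulAction.stabilizer G (t • a)) ⊓ Subgroup.centralizer {t} ⊓ Subgroup.centralizer (Cfsg.invertedBy (MulAction.stabilizer G a ⊓ MulAction.stabilizer G (t • a)) t)) ⊔ Subgroup.closure {v} =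
        (MulAction.stabilizer G a ⊓ MulAction.stabilizer G (t • a)) ⊓ Subgroup.centralizer {t} := by
  obtain ⟨s, hs, r, hr, hsr⟩ := hS.exists_structure
  obtain ⟨F, _, _, ι, κ, h⟩ := hS.exists_qField h2 hs
  have hV : ∀ v ∈ MulAction.stabilizer G a ⊓ MulAction.stabilizer G (t • a) ⊓
      Subgroup.centralizer {t}, v ∈ Cfsg.Agent.Perm.RankOne.twoPt a t ∧ Commute v s :=
    fun v hv => ⟨hv.1,
      (hS.commute_structure hs hr hsr hv.1 (Subgroup.mem_centralizer_singleton_iff.mp hv.2)).1⟩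
  generalize MulAction.stabilizer G a ⊓ MulAction.stabilizer G (t • a) ⊓
      Subgroup.centralizer {t} = V at hV ⊢
  obtain ⟨α, hα⟩ := h.exists_autHom hS h2 V hV
  have := Cfsg.Agent.Perm.RankOne.isCyclic_ringAut F
  obtain ⟨g, hv⟩ := IsCyclic.exists_generator (α := α.range)
  obtain ⟨v, hvg⟩ := g.2
  refine ⟨v, v.2, le_antisymm (sup_le inf_le_left ((Subgroup.closure_le _).mpr ?_)) fun w hw => ?_⟩
  · rintro _ rfl; exact v.2
  obtain ⟨n, hn⟩ := Subgroup.mem_zpowers_iff.mp (hv ⟨α ⟨w, hw⟩, _, rfl⟩)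
  have hn' : α (⟨w, hw⟩ * (v ^ n)⁻¹) = 1 := by
    have := congrArg Subtype.val hn
    rw [SubgroupClass.coe_zpow, ← hvg] at this
    rw [map_mul, map_inv, map_zpow, this, mul_inv_cancel]
  have e : w = (w * ((v : G) ^ n)⁻¹) * (v : G) ^ n := by group
  rw [e]
  have hm : w * ((v : G) ^ n)⁻¹ ∈ V := V.mul_mem hw (V.inv_mem (V.zpow_mem v.2 n))
  refine Subgroup.mul_mem_sup (Subgroup.mem_inf.mpr ⟨hm, fun k hk => ?_⟩)
    (Subgroup.zpow_mem _ (Subgroup.subset_closure (Set.mem_singleton _)) n)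
  refine ((hS.commute_invertedBy_of_commute (hV _ hm).1 fun u hu => ?_).2 k hk).symm
  obtain ⟨x, rfl⟩ := h.surj u (hS.mem_of_mem_involutionsIn hu) hu.2.2
  have := hα (⟨w, hw⟩ * (v ^ n)⁻¹) x
  rw [hn'] at this
  exact mul_inv_eq_iff_eq_mul.mp this

end Cfsg.Agent.S1133
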