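import Mathlib
import Cfsg.Statements.S1139
import Cfsg.Agent.Chev.Sz2Main
-- import your own Cfsg.Agent.* helpers here

set_option autoImplicit false
open Cfsg

namespace Cfsg.Agent.S1139

open Cfsg.Agent.Chev.Sz2

/-- A Suzuki 2-group `P` with `|P| = |Z(P)|²` is of type A: for some finite field `F` with `|F| = |Z(P)|` and some field automorphism `φ ≠ 1` of odd order, `P` is isomorphic to the group of lower unitriangular matrices with rows `(1,0,0)`, `(x,1,0)`, `(y, φ x, 1)`. -/
theorem result {P : Type*} [Group P] (hP : Cfsg.IsSuzukiTwoGroup P)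
    (hcard : Nat.card P = Nat.card (Subgroup.center P) ^ 2) :
    ∃ (F : Type) (_ : Field F) (_ : Fintype F) (φ : F ≃+* F), Fintype.card F = Nat.card (Subgroup.center P) ∧
      φ ≠ RingEquiv.refl F ∧ Odd (orderOf φ) ∧ Nonempty (P ≃* Cfsg.suzukiTypeA F (φ : F →+* F)) := by
  obtain ⟨F, _, _, _, ⟨S⟩⟩ := exists_hig_of_isSuzukiTwoGroup hP
  have := hP.1
  have h := hP.2.2.1
  rw [S.center_eq h, S.card_Om] at hcard ⊢
  obtain ⟨θ, h1, h2, ⟨e⟩⟩ := S.exists_typeA h hcard
  have := Fintype.ofFinite F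
  exact ⟨F, inferInstance, inferInstance, θ, Nat.card_eq_fintype_card.symm, h1, h2,
    ⟨e.trans (TA.equivTypeA _)⟩⟩

end Cfsg.Agent.S1139
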