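import Mathlib
import Cfsg.Statements.S1151
import Cfsg.Agent.Chev.ReeDict

set_option autoImplicit false
open Cfsg

namespace Cfsg.Agent.S1151

/-- In the small Ree group ²G₂(q), q = 3^(2m+1), realised as G¹ inside the Chevalley group G₂ over the field with q elements (θ the 3^m-th power map), with H¹ = G¹ ∩ H and U¹ = G¹ ∩ U the intersections with the ambient diagonal and positive unipotent subgroups: `H¹` has exactly `(q - 1)/2` elements of odd order, and each non-identity one centralises no non-identity element of `U¹`. -/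
theorem result {K : Type*} [Field K] [Fintype K] {m : ℕ} (hK : Fintype.card K = 3 ^ (2 * m + 1)) :
    2 * Nat.card {h : ↥(Cfsg.Lie.chevG2.diagonalSubgroup K ⊓ Cfsg.Lie.twistedG2 K (3 ^ m)) // Odd (orderOf h)} = 3 ^ (2 * m + 1) - 1 ∧
      ∀ h ∈ (Cfsg.Lie.chevG2.diagonalSubgroup K ⊓ Cfsg.Lie.twistedG2 K (3 ^ m)), h ≠ 1 → Odd (orderOf h) →
        (Cfsg.Lie.chevG2.posUnipotent K ⊓ Cfsg.Lie.twistedG2 K (3 ^ m)) ⊓ Subgroup.centralizer {h} = ⊥ := by
  obtain ⟨R, hD⟩ := Chev.ReeInst.exists_ree hK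
  constructor
  · rw [← hK, ← R.card_odd_H]
    congr 1
    exact Nat.card_congr (Equiv.subtypeEquiv hD.equivH.toEquiv fun c => by
      rw [← hD.equivH.orderOf_eq c]; rfl).symm
  · rintro h ⟨h1, h2⟩ h3 h4
    obtain ⟨c, hc⟩ := (hD.H ⟨h, h2⟩).2 h1
    obtain rfl : h = R.h c := congrArg Subtype.val hc.symm
    have c1 : c ≠ 1 := fun e => h3 (by rw [e, map_one]; rfl)
    have c2 : c ≠ -1 := fun e => by
      rw [e, Subgroup.orderOf_coe] at h4
      exact absurd (R.orderOf_a ▸ h4) (by decide)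
    rw [eq_bot_iff]
    rintro g ⟨⟨g1, g2⟩, g3⟩
    have g4 : (⟨g, g2⟩ : Cfsg.Lie.twistedG2 K (3 ^ m)) ∈ R.H := by
      rw [← R.centralizer_h c1 c2, Subgroup.mem_centralizer_singleton_iff]
      exact Subtype.ext (Subgroup.mem_centralizer_singleton_iff.1 g3)
    exact congrArg Subtype.val (R.eq_one_of_mem_U_of_mem_H ((hD.U _).2 g1) g4)

end Cfsg.Agent.S1151
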