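import Cfsg.Statements.S1168
import Cfsg.Agent.Chev.Sz2Lin

set_option autoImplicit false
open Cfsg

namespace Cfsg.Agent.S1168

/-- For a finite field `F` of characteristic 2: if `q : F → F` is quadratic over the prime field, i.e. `(x, y) ↦ q (x + y) + q x + q y` is additive in each variable, then `q x = Σ c_{σ,τ} σ(x) τ(x)` for some coefficients indexed by pairs of field automorphisms. -/
theorem result {F : Type*} [Field F] [Fintype F] [CharP F 2]
    (q : F → F)
    (hq : ∀ x y z : F, q (x + y + z) + q (x + y) + q (x + z) + q (y + z) + q x + q y + q z = 0) :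
    ∃ (s : Finset ((F ≃+* F) × (F ≃+* F))) (c : (F ≃+* F) × (F ≃+* F) → F),
      ∀ x : F, q x = ∑ p ∈ s, c p * (p.1 x * p.2 x) := by
  classical
  have h2 : ∀ x : F, x + x = 0 := CharTwo.add_self_eq_zero
  have h0 : q 0 = 0 := by
    have := hq 0 0 0
    simp only [add_zero] at this
    linear_combination this - 3 * h2 (q 0)
  let B : F →+ F →+ F := AddMonoidHom.mk' (fun x => AddMonoidHom.mk' (fun y => q (x + y) + q x + q y)
    fun y z => by
      rw [← add_assoc x]
      linear_combination hq x y z - h2 (q (x + y)) - h2 (q (x + z)) - h2 (q x) - h2 (q y) - h2 (q z))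
    fun x y => by
      ext z
      simp only [AddMonoidHom.mk'_apply, AddMonoidHom.add_apply]
      linear_combination hq x y z - h2 (q (x + z)) - h2 (q (y + z)) - h2 (q x) - h2 (q y) - h2 (q z)
  obtain ⟨c, hc⟩ := Chev.Sz2.exists_biadd_eq_sum B
  have hc' : ∀ x y, q (x + y) + q x + q y = ∑ p, c p * (p.1 x * p.2 y) := hc
  have hs : ∀ p, c p.swap = c p := fun p => by
    refine sub_eq_zero.1 (Chev.Sz2.coeff_eq_zero₂ (c := fun p => c p.swap - c p) (fun x y => ?_) p)
    simp only [sub_mul, Finset.sum_sub_distrib]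
    rw [← hc', ← (Equiv.prodComm _ _).sum_comp]
    simp only [Equiv.prodComm_apply, Prod.swap_swap, Prod.fst_swap, Prod.snd_swap]
    rw [Finset.sum_congr rfl fun p _ => by rw [mul_comm (p.2 x)], ← hc', add_comm y x]
    ring
  let e := Fintype.equivFin (F ≃+* F)
  let c1 : (F ≃+* F) × (F ≃+* F) → F := fun p => if e p.1 < e p.2 then c p else 0
  have hsplit : ∀ x y, ∑ p, c p * (p.1 x * p.2 y) = ∑ p, c1 p * (p.1 x * p.2 y) +
      ∑ p, c1 p * (p.1 y * p.2 x) + ∑ σ, c (σ, σ) * σ (x * y) := fun x y => by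
    have e1 : ∑ σ, c (σ, σ) * σ (x * y) =
        ∑ p : (F ≃+* F) × (F ≃+* F), if p.1 = p.2 then c p * (p.1 x * p.2 y) else 0 := by
      rw [Fintype.sum_prod_type]
      simp
    rw [e1, ← (Equiv.prodComm _ _).sum_comp fun p => c1 p * (p.1 y * p.2 x),
      ← Finset.sum_add_distrib, ← Finset.sum_add_distrib]
    refine Finset.sum_congr rfl fun p _ => ?_
    simp only [c1, Equiv.prodComm_apply, Prod.fst_swap, Prod.snd_swap, hs]
    rcases lt_trichotomy (e p.1) (e p.2) with h | h | h
    · rw [if_pos h, if_neg h.not_gt, if_neg fun e' => h.ne (by rw [e'])]; ring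
    · rw [if_neg h.not_lt, if_neg h.not_gt, if_pos (e.injective h)]; ring
    · rw [if_neg h.not_gt, if_pos h, if_neg fun e' => h.ne (by rw [e'])]; ring
  have hD : ∀ z, ∑ σ, c (σ, σ) * σ z = 0 := fun z => by
    obtain ⟨x, rfl⟩ := (Chev.Sz2.frob F).surjective z
    have := hsplit x x
    rw [← hc', h2 x, h0, zero_add, h2, h2, zero_add] at this
    rw [this, Chev.Sz2.frob_apply, sq]
  let r : F →+ F := AddMonoidHom.mk' (fun x => q x + ∑ p, c1 p * (p.1 x * p.2 x)) fun x y => by
    have e1 := hsplit x y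
    rw [← hc', hD, add_zero] at e1
    have e2 : ∑ p, c1 p * (p.1 (x + y) * p.2 (x + y)) = ∑ p, c1 p * (p.1 x * p.2 x) +
        ∑ p, c1 p * (p.1 y * p.2 y) + (∑ p, c1 p * (p.1 x * p.2 y) + ∑ p, c1 p * (p.1 y * p.2 x)) := by
      simp only [← Finset.sum_add_distrib, map_add]
      exact Finset.sum_congr rfl fun p _ => by ring
    rw [e2, ← e1]
    linear_combination h2 (q (x + y))
  obtain ⟨d, hd⟩ := Chev.Sz2.exists_add_eq_sum r
  refine ⟨Finset.univ, fun p => c1 p + if p.1 = p.2 then d (Chev.Sz2.frob F * p.1) else 0,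
    fun x => ?_⟩
  have e1 : ∑ p : (F ≃+* F) × (F ≃+* F), (if p.1 = p.2 then d (Chev.Sz2.frob F * p.1) else 0) *
      (p.1 x * p.2 x) = ∑ σ, d σ * σ x := by
    rw [Fintype.sum_prod_type, ← Equiv.sum_comp (Equiv.mulLeft (Chev.Sz2.frob F)) fun σ => d σ * σ x]
    refine Finset.sum_congr rfl fun σ _ => ?_
    simp [sq]
  simp only [add_mul, Finset.sum_add_distrib]
  rw [e1, ← hd]
  change q x = _ + (q x + _)
  linear_combination -h2 (∑ p, c1 p * (p.1 x * p.2 x))

end Cfsg.Agent.S1168
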