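import Mathlib
import Cfsg.Statements.S1176
import Cfsg.Agent.Inv.Basic

set_option autoImplicit false
open Cfsg

namespace Cfsg.Agent.S1176

/-- Let x₀ be an involution of the finite group G and D its conjugacy class. Assume (a) for each x ∈ D the subgroup W(x) generated by the members of D commuting with x is a 2-group of nilpotency class at most 2, and (b) the product of two distinct commuting members of D again lies in D. Then for all x, y ∈ D, if xy has even order greater than 2, its order is 4. -/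
theorem result {G : Type*} [Group G] [Finite G] (x₀ : G) (hx₀ : orderOf x₀ = 2) (ha : ∀ x : G, IsConj x₀ x → IsPGroup 2 ↥(Subgroup.closure {y : G | IsConj x₀ y ∧ Commute y x}) ∧ ⁅⁅Subgroup.closure {y : G | IsConj x₀ y ∧ Commute y x}, Subgroup.closure {y : G | IsConj x₀ y ∧ Commute y x}⁆, Subgroup.closure {y : G | IsConj x₀ y ∧ Commute y x}⁆ = ⊥) (hb : ∀ x y : G, IsConj x₀ x → IsConj x₀ y → x ≠ y → Commute x y → IsConj x₀ (x * y)) (x y : G) (hx : IsConj x₀ x) (hy : IsConj x₀ y) (heven : Even (orderOf (x * y))) (hgt : 2 < orderOf (x * y)) : orderOf (x * y) = 4 := by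
  have hx2 : orderOf x = 2 := (Inv.orderOf_eq_of_isConj hx) ▸ hx₀
  have hy2 : orderOf y = 2 := (Inv.orderOf_eq_of_isConj hy) ▸ hx₀
  have hxx := Inv.mul_self_of_two hx2
  have hyy := Inv.mul_self_of_two hy2
  obtain ⟨hz, hzx, hzy⟩ := Inv.central_involution_of_even hxx hyy heven
  have hix := Inv.left_inverts_mul hxx hyy
  have hiy := Inv.right_inverts_mul hxx hyy
  have hxz : ∀ m : ℕ, IsConj x₀ (x * (x * y) ^ m) := by
    intro m
    rcases Nat.even_or_odd' m with ⟨k, rfl | rfl⟩
    · refine hx.trans (isConj_iff.2 ⟨((x * y) ^ k)⁻¹, ?_⟩)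
      rw [← Inv.conj_pow_of_inverts hix, two_mul, pow_add]
      have := Inv.conj_pow_of_inverts hix k
      calc _ = (x * (x * y) ^ k * x⁻¹) * x * (x * (x * y) ^ k * x⁻¹)⁻¹ := by group
        _ = (x * (x * y) ^ k * x⁻¹) * x * (x * y) ^ k := by rw [this, inv_inv]
        _ = _ := by group
    · refine hy.trans (isConj_iff.2 ⟨((x * y) ^ k)⁻¹, ?_⟩)
      have := Inv.conj_pow_of_inverts hiy k
      rw [pow_succ', ← mul_assoc, Inv.mul_mul_cancel_of_mul_self hxx, two_mul, pow_add, inv_inv]
      calc _ = (y * (x * y) ^ k * y⁻¹) * y * (x * y) ^ k := by rw [this]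
        _ = _ := by group
  set z := (x * y) ^ (orderOf (x * y) / 2) with hzdef
  have hzD : IsConj x₀ z := by
    have h1 := hb x (x * z) hx (hxz _) (fun h => Inv.ne_one_of_two hz (by simpa using h))
      ((Commute.refl x).mul_right hzx.symm)
    rwa [Inv.mul_mul_cancel_of_mul_self hxx] at h1
  have hW := (ha z hzD).2
  set W := Subgroup.closure {y : G | IsConj x₀ y ∧ Commute y z}
  have hxW : x ∈ W := Subgroup.subset_closure ⟨hx, hzx.symm⟩
  have hyW : y ∈ W := Subgroup.subset_closure ⟨hy, hzy.symm⟩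
  have h1 := Subgroup.commutator_mem_commutator (Subgroup.commutator_mem_commutator hxW hyW) hxW
  rw [hW, Subgroup.mem_bot] at h1
  have h2 : (x * y) ^ 4 = 1 := by
    rw [← h1]
    simp only [commutatorElement_def, mul_inv_rev, Inv.inv_of_mul_self hxx,
      Inv.inv_of_mul_self hyy, pow_succ, pow_zero, one_mul, mul_assoc, hxx, mul_one]
  have h3 : orderOf (x * y) ∣ 2 ^ 2 := orderOf_dvd_of_pow_eq_one h2
  obtain ⟨k, hk, e⟩ := (Nat.dvd_prime_pow Nat.prime_two).1 h3
  rw [e] at hgt ⊢
  interval_cases k <;> simp_all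

end Cfsg.Agent.S1176
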