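import Mathlib
import Cfsg.Statements.S1177
import Cfsg.Agent.Inv.FzBasic

set_option autoImplicit false
open Cfsg

namespace Cfsg.Agent.S1177

open Cfsg.Agent.Inv.Fz

/-- Let A be a nontrivial elementary abelian 2-subgroup of a finite group G which is a T.I. set (each conjugate of A meets A trivially or equals A) and which does not commute elementwise with any conjugate of A other than A itself. Then for every a ∈ A, a ≠ 1, every conjugate of A contained in C_G(a) is equal to A (A is weakly closed in C_G(a)). -/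
theorem result {G : Type*} [Group G] [Finite G] (A : Subgroup G) (hA : Cfsg.IsElementaryAbelian 2 A) (hA1 : A ≠ ⊥) (hTI : ∀ g : G, A.map (MulAut.conj g).toMonoidHom ⊓ A = ⊥ ∨ A.map (MulAut.conj g).toMonoidHom = A) (hb : ∀ g : G, (∀ a ∈ A, ∀ b ∈ A.map (MulAut.conj g).toMonoidHom, a * b = b * a) → A.map (MulAut.conj g).toMonoidHom = A) (a : G) (ha : a ∈ A) (ha1 : a ≠ 1) (g : G) (hg : A.map (MulAut.conj g).toMonoidHom ≤ Subgroup.centralizer ({a} : Set G)) : A.map (MulAut.conj g).toMonoidHom = A := by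
  simp only [Inv.Fz.cj_def] at *
  by_contra hne
  have hdisj : cj g A ⊓ A = ⊥ := (hTI g).resolve_right hne
  have hTIB : ∀ h : G, ∀ b ∈ cj g A, b ≠ 1 → h * b = b * h → cj h (cj g A) = cj g A := by
    intro h b hb hb1 hc
    rcases hTI (g⁻¹ * h * g) with h1 | h1
    · exfalso
      have h2 : g⁻¹ * b * g ∈ cj (g⁻¹ * h * g) A ⊓ A := by
        refine ⟨mem_cj.2 ?_, mem_cj.1 hb⟩
        have : (g⁻¹ * h * g)⁻¹ * (g⁻¹ * b * g) * (g⁻¹ * h * g) = g⁻¹ * b * g := by
          calc _ = g⁻¹ * h⁻¹ * (b * h) * g := by group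
            _ = _ := by rw [← hc]; group
        rw [this]; exact mem_cj.1 hb
      rw [h1, Subgroup.mem_bot] at h2
      exact hb1 (by simpa [mul_assoc, inv_mul_eq_iff_eq_mul] using h2)
    · conv_rhs => rw [← h1]
      rw [cj_cj, cj_cj]; simp [mul_assoc]
  have hBn : ∀ b ∈ cj g A, cj b A = A := by
    intro b hb
    refine (hTI b).resolve_left fun h => ha1 ?_
    have h2 : a ∈ cj b A ⊓ A := by
      refine ⟨mem_cj.2 ?_, ha⟩
      have := Subgroup.mem_centralizer_singleton_iff.1 (hg hb)
      rw [mul_assoc, ← this, inv_mul_cancel_left]; exact ha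
    rwa [h, Subgroup.mem_bot] at h2
  refine hne (hb g fun x hx => ?_)
  by_contra hnc
  have hx1 : x ≠ 1 := by rintro rfl; exact hnc (by simp)
  have hC : ∀ b ∈ cj g A, x * b = b * x → b = 1 := by
    intro b hb hc
    by_contra hb1
    apply hnc
    intro c hc'
    have h1 : x * c * x⁻¹ * c⁻¹ ∈ cj g A ⊓ A := by
      rw [Subgroup.mem_inf]
      constructor
      · refine mul_mem ?_ (inv_mem hc')
        rw [← hTIB x b hb hb1 hc]; exact conj_mem_cj.2 hc'
      · have : c * x⁻¹ * c⁻¹ ∈ A := by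
          rw [← hBn c hc']; exact conj_mem_cj.2 (inv_mem hx)
        simpa [mul_assoc] using mul_mem hx this
    rw [hdisj, Subgroup.mem_bot] at h1
    rw [← mul_inv_eq_one]; simpa [mul_assoc] using h1
  let f : cj g A → A := fun b => ⟨b * x * (b : G)⁻¹, by
    have := (conj_mem_cj (g := (b : G)) (H := A)).2 hx
    rwa [hBn b b.2] at this⟩
  have hf : Function.Injective f := by
    intro b c h
    have h1 : (b : G) * x * (b : G)⁻¹ = c * x * (c : G)⁻¹ := congrArg Subtype.val h
    have h2 := hC ((c : G)⁻¹ * b) (mul_mem (inv_mem c.2) b.2) (by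
      calc x * ((c : G)⁻¹ * b) = (c : G)⁻¹ * (c * x * (c : G)⁻¹) * b := by group
        _ = _ := by rw [← h1]; group)
    exact Subtype.ext (inv_mul_eq_one.1 h2).symm
  have hbij := hf.bijective_of_nat_card_le (card_cj g A).ge
  obtain ⟨b, hb⟩ := hbij.2 1
  have h1 : (b : G) * x * (b : G)⁻¹ = 1 := congrArg Subtype.val hb
  exact hx1 (by simpa [mul_inv_eq_iff_eq_mul] using h1)

end Cfsg.Agent.S1177
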