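import Mathlib
import Cfsg.Statements.S1181
import Cfsg.Agent.Inv.Isolated

set_option autoImplicit false
open Cfsg

namespace Cfsg.Agent.S1181

/-- Let z be an isolated involution of the finite group G and N a normal subgroup with z ∉ N. Then the centralizer of zN in G/N is the image of C_G(z), and zN is an isolated involution of G/N. -/
theorem result {G : Type*} [Group G] [Finite G] (z : G) (hz : Cfsg.IsIsolatedInvolution z) (N : Subgroup G) [N.Normal] (hzN : z ∉ N) : Subgroup.centralizer ({(QuotientGroup.mk z : G ⧸ N)} : Set (G ⧸ N)) = (Subgroup.centralizer ({z} : Set G)).map (QuotientGroup.mk' N) ∧ Cfsg.IsIsolatedInvolution (QuotientGroup.mk z : G ⧸ N) := by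
  have h1 : (QuotientGroup.mk' N) z ≠ 1 := by
    rwa [QuotientGroup.mk'_apply, Ne, QuotientGroup.eq_one_iff]
  refine ⟨?_, hz.map (QuotientGroup.mk' N) (QuotientGroup.mk'_surjective N) h1⟩
  apply le_antisymm
  · intro x hx
    obtain ⟨g, rfl⟩ := QuotientGroup.mk_surjective x
    rw [Subgroup.mem_centralizer_singleton_iff] at hx
    obtain ⟨k, -, -, hk, hkH⟩ := hz.exists_inverted (w := g * z * g⁻¹) (isConj_iff.mpr ⟨g, rfl⟩)
    have hkN : k ∈ N := by
      apply hkH
      rw [← QuotientGroup.eq_one_iff]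
      simp only [QuotientGroup.mk_mul, QuotientGroup.mk_inv]
      rw [hx, mul_inv_cancel_right, ← QuotientGroup.mk_mul, hz.mul_self, QuotientGroup.mk_one]
    refine ⟨k⁻¹ * g, ?_, ?_⟩
    · rw [SetLike.mem_coe, Subgroup.mem_centralizer_singleton_iff]
      calc k⁻¹ * g * z = k⁻¹ * (g * z * g⁻¹) * g := by group
        _ = z * (k⁻¹ * g) := by rw [← hk]; group
    · rw [QuotientGroup.mk'_apply, QuotientGroup.mk_mul,
        (QuotientGroup.eq_one_iff _).mpr (N.inv_mem hkN), one_mul]
  · rintro _ ⟨c, hc, rfl⟩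
    rw [SetLike.mem_coe, Subgroup.mem_centralizer_singleton_iff] at hc
    rw [Subgroup.mem_centralizer_singleton_iff, QuotientGroup.mk'_apply, ← QuotientGroup.mk_mul,
      hc, QuotientGroup.mk_mul]

end Cfsg.Agent.S1181
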