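import Mathlib
import Cfsg.Statements.S1183
import Cfsg.Agent.Inv.Isolated
import Cfsg.Agent.GT.TransferPNilp

set_option autoImplicit false
open Cfsg

namespace Cfsg.Agent.S1183

/-- Let z be an isolated involution of the finite group G and C = C_G(z). Then the subgroup of G generated by its elements of odd order is all of G if and only if the subgroup of C generated by its elements of odd order is all of C. -/
theorem result {G : Type*} [Group G] [Finite G] (z : G) (hz : Cfsg.IsIsolatedInvolution z) : Cfsg.pResidual 2 G = ⊤ ↔ Cfsg.pResidual 2 ↥(Subgroup.centralizer ({z} : Set G)) = ⊤ := by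
  classical
  set C := Subgroup.centralizer ({z} : Set G) with hC
  constructor
  · intro hG
    rw [Cfsg.Agent.GT.Tr.pResidual_eq_top_iff]
    intro N hN hi
    have hcard : Nat.card (C ⧸ N) = 2 := hi
    have : IsCyclic (C ⧸ N) := isCyclic_of_prime_card hcard
    let : CommGroup (C ⧸ N) := IsCyclic.commGroup
    have hA : IsPGroup 2 (C ⧸ N) := IsPGroup.of_card (n := 1) (by rw [hcard, pow_one])
    let φ : C →* C ⧸ N := QuotientGroup.mk' N
    have hV : ∀ c : C, MonoidHom.transfer φ (c : G) = φ c ^ C.index := by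
      intro c
      have : Fintype (Quotient (MulAction.orbitRel (Subgroup.zpowers (c : G)) (G ⧸ C))) :=
        Fintype.ofFinite _
      rw [Subgroup.index_eq_sum_minimalPeriod C (c : G), ← Finset.prod_pow_eq_pow_sum,
        MonoidHom.transfer_eq_prod_quotient_orbitRel_zpowers_quot]
      apply Finset.prod_congr rfl
      intro q _
      set n := Function.minimalPeriod ((c : G) • ·) q.out
      have hmem := QuotientGroup.out_conj_pow_minimalPeriod_mem C (c : G) q.out
      have hx : Commute ((c : G) ^ n) z := by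
        exact Subgroup.mem_centralizer_singleton_iff.mp (C.pow_mem c.2 n)
      have hy : Commute (q.out.out⁻¹ * (c : G) ^ n * q.out.out) z := by
        exact Subgroup.mem_centralizer_singleton_iff.mp hmem
      obtain ⟨d, -, hd, hdc⟩ := hz.exists_conj_commute ⊤ (fun _ _ => trivial) hx hy
        (h := q.out.out⁻¹) trivial (by rw [inv_inv])
      have hdC : d ∈ C := by
        rw [hC, Subgroup.mem_centralizer_singleton_iff]; exact hd.eq
      have : (⟨q.out.out⁻¹ * (c : G) ^ n * q.out.out, hmem⟩ : C) =
          ⟨d, hdC⟩ * c ^ n * (⟨d, hdC⟩ : C)⁻¹ := Subtype.ext hdc.symm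
      rw [this, map_mul, map_mul, map_inv, mul_inv_cancel_comm, map_pow]
    have hker := Cfsg.Agent.GT.Tr.pResidual_le_ker hA (MonoidHom.transfer φ)
    rw [hG] at hker
    have htriv : ∀ a : C ⧸ N, a = 1 := by
      intro a
      obtain ⟨c, rfl⟩ := QuotientGroup.mk'_surjective N a
      have h1 : φ c ^ C.index = 1 := by rw [← hV]; exact hker trivial
      obtain ⟨m, hm⟩ := hz.odd_index_centralizer
      have h2 : φ c ^ 2 = 1 := by rw [← hcard]; exact pow_card_eq_one'
      rw [← hC] at hm
      rw [hm, pow_succ, pow_mul, h2, one_pow, one_mul] at h1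
      exact h1
    have : Subsingleton (C ⧸ N) := ⟨fun a b => by rw [htriv a, htriv b]⟩
    have := Nat.card_of_subsingleton (1 : C ⧸ N)
    omega
  · intro hCt
    rw [eq_top_iff]
    intro g _
    obtain ⟨k, hk1, -, hk, -⟩ := hz.exists_inverted (w := g * z * g⁻¹) (isConj_iff.mpr ⟨g, rfl⟩)
    have h1 : k⁻¹ * g ∈ C := by
      rw [hC, Subgroup.mem_centralizer_singleton_iff]
      calc k⁻¹ * g * z = k⁻¹ * (g * z * g⁻¹) * g := by group
        _ = z * (k⁻¹ * g) := by rw [← hk]; group
    have h2 : k⁻¹ * g ∈ pResidual 2 G :=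
      Cfsg.Agent.GT.Tr.map_pResidual_le C.subtype ⟨⟨_, h1⟩, by rw [hCt]; trivial, rfl⟩
    have h3 : k ∈ pResidual 2 G :=
      Cfsg.Agent.GT.Tr.mem_pResidual ((Nat.coprime_two_right).mpr hk1)
    simpa using (pResidual 2 G).mul_mem h3 h2

end Cfsg.Agent.S1183
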