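import Mathlib
import Cfsg.Statements.S1184
import Cfsg.Agent.Inv.Isolated

set_option autoImplicit false
open Cfsg

namespace Cfsg.Agent.S1184

/-- Let z be an isolated involution of the finite group G. If s and t are distinct conjugates of z, then st does not commute with z. -/
theorem result {G : Type*} [Group G] [Finite G] (z : G) (hz : Cfsg.IsIsolatedInvolution z) (g h : G) (hne : g * z * g⁻¹ ≠ h * z * h⁻¹) : ¬ Commute (g * z * g⁻¹ * (h * z * h⁻¹)) z := by
  intro hc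
  apply hne
  have hs : IsConj z (g * z * g⁻¹) := isConj_iff.mpr ⟨g, rfl⟩
  have ht : IsConj z (h * z * h⁻¹) := isConj_iff.mpr ⟨h, rfl⟩
  set s := g * z * g⁻¹
  set t := h * z * h⁻¹
  have hs' := hz.of_isConj hs
  have ht' := hz.of_isConj ht
  have hodd := hz.odd_orderOf_mul hs ht
  have hinv := Cfsg.Agent.Inv.iso_inverts_mul hs'.mul_self ht'.mul_self
  set x := s * t with hx
  have h2 : (s * z) * x * (s * z)⁻¹ = x⁻¹ := by
    rw [← hinv]
    calc s * z * x * (s * z)⁻¹ = s * (z * x) * z⁻¹ * s⁻¹ := by group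
      _ = s * x * s⁻¹ := by rw [← hc.eq]; group
  obtain ⟨m, hm⟩ := hz.odd_orderOf_mul hs (IsConj.refl z)
  have h3 : Commute ((s * z) ^ 2) x := by
    change (s * z) ^ 2 * x = x * (s * z) ^ 2
    calc (s * z) ^ 2 * x = (s * z) * ((s * z) * x * (s * z)⁻¹) * (s * z)⁻¹ * (s * z) ^ 2 := by
          rw [pow_two]; group
      _ = (s * z) * x⁻¹ * (s * z)⁻¹ * (s * z) ^ 2 := by rw [h2]
      _ = ((s * z) * x * (s * z)⁻¹)⁻¹ * (s * z) ^ 2 := by group
      _ = x * (s * z) ^ 2 := by rw [h2, inv_inv]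
  have h4 : Commute (s * z) x := by
    obtain ⟨j, hj⟩ := Cfsg.Agent.Inv.iso_exists_half (x := s * z) ⟨m, hm⟩
    rw [← hj, pow_mul]
    exact h3.pow_left j
  rw [h4.eq, mul_inv_cancel_right] at h2
  have h5 : x = 1 := by
    apply Cfsg.Agent.Inv.iso_eq_one_of_odd_of_mul_self hodd
    nth_rewrite 2 [h2]
    exact mul_inv_cancel x
  rw [eq_inv_of_mul_eq_one_left h5, ht'.inv_eq]

end Cfsg.Agent.S1184
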