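import Mathlib
import Cfsg.Statements.S1185
import Cfsg.Agent.Inv.Isolated

set_option autoImplicit false
open Cfsg

namespace Cfsg.Agent.S1185

/-- Let z be an isolated involution of the finite group G with centralizer C. Then for every g ∈ G there is exactly one element k in the coset gC that has odd order and is inverted by z. -/
theorem result {G : Type*} [Group G] [Finite G] (z : G) (hz : Cfsg.IsIsolatedInvolution z) (g : G) : ∃! k : G, (Odd (orderOf k) ∧ z * k * z⁻¹ = k⁻¹) ∧ g⁻¹ * k ∈ Subgroup.centralizer ({z} : Set G) := by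
  obtain ⟨k, hk1, hk2, hk, -⟩ := hz.exists_inverted (w := g * z * g⁻¹) (isConj_iff.mpr ⟨g, rfl⟩)
  refine ⟨k, ⟨⟨hk1, hk2⟩, ?_⟩, ?_⟩
  · rw [Subgroup.mem_centralizer_singleton_iff]
    calc g⁻¹ * k * z = g⁻¹ * (k * z * k⁻¹) * k := by group
      _ = z * (g⁻¹ * k) := by rw [hk]; group
  · rintro a ⟨⟨ha1, ha2⟩, ha⟩
    rw [Subgroup.mem_centralizer_singleton_iff] at ha
    apply hz.inverted_unique ha1 hk1 ha2 hk2
    rw [hk]
    calc a * z * a⁻¹ = g * (g⁻¹ * a * z) * a⁻¹ := by group
      _ = g * z * g⁻¹ := by rw [ha]; group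

end Cfsg.Agent.S1185
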