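import Mathlib
import Cfsg.Statements.S1186
import Cfsg.Agent.Inv.Isolated

set_option autoImplicit false
open Cfsg

namespace Cfsg.Agent.S1186

/-- Let z be an isolated involution of the finite group G, C = C_G(z), K the set of elements of odd order inverted by z, and s an involution of C. Then |G| = |C| · |C_K(sz)| · |C_K(s)|. -/
theorem result {G : Type*} [Group G] [Finite G] (z : G) (hz : Cfsg.IsIsolatedInvolution z) (s : G) (hs : orderOf s = 2) (hsz : Commute s z) : Nat.card G = Nat.card (Subgroup.centralizer ({z} : Set G)) * Nat.card {k : G // Odd (orderOf k) ∧ z * k * z⁻¹ = k⁻¹ ∧ Commute k (s * z)} * Nat.card {k : G // Odd (orderOf k) ∧ z * k * z⁻¹ = k⁻¹ ∧ Commute k s} := by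
  classical
  have hss := Cfsg.Agent.Inv.iso_mul_self_of_orderOf hs
  have hsi : s⁻¹ = s := inv_eq_of_mul_eq_one_right hss
  set C := Subgroup.centralizer ({z} : Set G) with hC
  have hmem : ∀ a b : G, (QuotientGroup.mk a : G ⧸ C) = QuotientGroup.mk b ↔
      a * z * a⁻¹ = b * z * b⁻¹ := by
    intro a b
    rw [QuotientGroup.eq, hC, Subgroup.mem_centralizer_singleton_iff]
    constructor
    · intro h
      calc a * z * a⁻¹ = a * (z * (a⁻¹ * b)) * b⁻¹ := by group
        _ = b * z * b⁻¹ := by rw [← h]; group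
    · intro h
      calc a⁻¹ * b * z = a⁻¹ * (b * z * b⁻¹) * b := by group
        _ = z * (a⁻¹ * b) := by rw [← h]; group
  have hsq : ∀ c : G, z * c * z⁻¹ = c⁻¹ → c * z * c⁻¹ = c * c * z := by
    intro c hc
    rw [← hc, hz.inv_eq]
    calc c * z * (z * c * z) = c * (z * z) * c * z := by group
      _ = c * c * z := by rw [hz.mul_self, mul_one]
  have hinvs : ∀ c : G, z * c * z⁻¹ = c⁻¹ → Commute c (s * z) → s * c * s⁻¹ = c⁻¹ := by
    intro c hc hcs
    have h1 : s * z * c * (s * z)⁻¹ = c := by rw [← hcs.eq]; group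
    have h2 : s * c⁻¹ * s⁻¹ = c := by
      rw [← hc]
      calc s * (z * c * z⁻¹) * s⁻¹ = s * z * c * (s * z)⁻¹ := by group
        _ = c := h1
    calc s * c * s⁻¹ = (s * c⁻¹ * s⁻¹)⁻¹ := by group
      _ = c⁻¹ := by rw [h2]
  let f : {k : G // Odd (orderOf k) ∧ z * k * z⁻¹ = k⁻¹ ∧ Commute k (s * z)} ×
      {k : G // Odd (orderOf k) ∧ z * k * z⁻¹ = k⁻¹ ∧ Commute k s} → G ⧸ C :=
    fun p => QuotientGroup.mk (p.2.1 * p.1.1)
  have hf : Function.Bijective f := by
    constructor
    · rintro ⟨⟨b, hb1, hb2, hb3⟩, ⟨a, ha1, ha2, ha3⟩⟩ ⟨⟨b', hb1', hb2', hb3'⟩, ⟨a', ha1', ha2', ha3'⟩⟩ h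
      simp only [f] at h
      rw [hmem] at h
      set d := a'⁻¹ * a with hd
      have hds : Commute d s := ha3'.inv_left.mul_left ha3
      have e1 : d * (b * b * z) * d⁻¹ = b' * b' * z := by
        rw [← hsq b hb2, ← hsq b' hb2', hd]
        calc a'⁻¹ * a * (b * z * b⁻¹) * (a'⁻¹ * a)⁻¹
            = a'⁻¹ * (a * b * z * (a * b)⁻¹) * a' := by group
          _ = b' * z * b'⁻¹ := by rw [h]; group
      have hconjs : ∀ c : G, z * c * z⁻¹ = c⁻¹ → Commute c (s * z) →
          s * (c * c * z) * s⁻¹ = c⁻¹ * c⁻¹ * z := by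
        intro c hc hcs
        have := hinvs c hc hcs
        calc s * (c * c * z) * s⁻¹ = (s * c * s⁻¹) * (s * c * s⁻¹) * (s * z) * s⁻¹ := by group
          _ = c⁻¹ * c⁻¹ * z := by rw [this, hsz.eq]; group
      have e2 : d * (b⁻¹ * b⁻¹ * z) * d⁻¹ = b'⁻¹ * b'⁻¹ * z := by
        rw [← hconjs b hb2 hb3, ← hconjs b' hb2' hb3', ← e1]
        calc d * (s * (b * b * z) * s⁻¹) * d⁻¹ = (d * s) * (b * b * z) * (d * s)⁻¹ := by group
          _ = s * (d * (b * b * z) * d⁻¹) * s⁻¹ := by rw [hds.eq]; group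
      have hfour : ∀ c : G, z * c * z⁻¹ = c⁻¹ →
          (c * c * z) * (c⁻¹ * c⁻¹ * z) = (c * c) * (c * c) := by
        intro c hc
        have h1 : z * c⁻¹ * z⁻¹ = c := by
          calc z * c⁻¹ * z⁻¹ = (z * c * z⁻¹)⁻¹ := by group
            _ = c := by rw [hc, inv_inv]
        calc (c * c * z) * (c⁻¹ * c⁻¹ * z)
            = c * c * (z * c⁻¹ * z⁻¹) * (z * c⁻¹ * z⁻¹) * (z * z) := by group
          _ = (c * c) * (c * c) := by rw [h1, hz.mul_self]; group
      have hodd : Odd (orderOf (d * b * d⁻¹)) := by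
        have := (MulAut.conj d).orderOf_eq b
        rw [MulAut.conj_apply] at this
        rwa [this]
      have e3 : d * b * d⁻¹ = b' := by
        apply Cfsg.Agent.Inv.iso_eq_of_sq_eq hodd hb1'
        apply Cfsg.Agent.Inv.iso_eq_of_sq_eq
        · rw [← pow_two]; exact Cfsg.Agent.Inv.iso_odd_orderOf_pow hodd 2
        · rw [← pow_two]; exact Cfsg.Agent.Inv.iso_odd_orderOf_pow hb1' 2
        rw [← hfour b' hb2', ← e1, ← e2]
        calc d * b * d⁻¹ * (d * b * d⁻¹) * (d * b * d⁻¹ * (d * b * d⁻¹))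
            = d * ((b * b) * (b * b)) * d⁻¹ := by group
          _ = d * (b * b * z) * d⁻¹ * (d * (b⁻¹ * b⁻¹ * z) * d⁻¹) := by
            rw [← hfour b hb2]; group
      have e4 : d * z * d⁻¹ = z := by
        have : b' * b' * (d * z * d⁻¹) = b' * b' * z := by
          rw [← e1, ← e3]; group
        exact mul_left_cancel this
      have e5 : a = a' := by
        apply hz.inverted_unique ha1 ha1' ha2 ha2'
        calc a * z * a⁻¹ = a' * (d * z * d⁻¹) * a'⁻¹ := by rw [hd]; group
          _ = a' * z * a'⁻¹ := by rw [e4]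
      have e6 : b = b' := by
        rw [← e3, hd, e5]; group
      simp only [Prod.mk.injEq, Subtype.mk.injEq]
      exact ⟨e6, e5⟩
    · intro q
      obtain ⟨g, rfl⟩ := QuotientGroup.mk_surjective q
      have hw : IsConj z (g * z * g⁻¹) := isConj_iff.mpr ⟨g, rfl⟩
      set w := g * z * g⁻¹ with hwdef
      have hw' := hz.of_isConj hw
      have hinv := Cfsg.Agent.Inv.iso_inverts_mul hw'.mul_self hss
      set x := w * s with hx
      have hodd : Odd (orderOf (x * x)) := by
        have := hz.odd_orderOf_mul hw (hw.trans (isConj_iff.mpr ⟨s, rfl⟩))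
        convert this using 2
        rw [hx, hsi]; group
      obtain ⟨j, hj⟩ := Cfsg.Agent.Inv.iso_exists_half hodd
      have hsx : s * x * s⁻¹ = x⁻¹ := by
        rw [hx, mul_inv_rev, hsi, hw'.inv_eq]
        calc s * (w * s) * s = s * w * (s * s) := by group
          _ = s * w := by rw [hss, mul_one]
      -- `y = x^(2j)` satisfies `y * y = x * x`
      set y := x ^ (2 * j) with hy
      have hyy : y * y = x * x := by
        rw [← hj, ← pow_two x, ← pow_mul, hy, ← pow_add]
        congr 1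
        ring
      have hxy : Commute x y := (Commute.refl x).pow_right _
      have hwy : w * y * w⁻¹ = y⁻¹ := Cfsg.Agent.Inv.iso_inverts_pow hinv _
      have hsy : s * y * s⁻¹ = y⁻¹ := Cfsg.Agent.Inv.iso_inverts_pow hsx _
      have hsw : s * w = x⁻¹ := by rw [hx, mul_inv_rev, hsi, hw'.inv_eq]
      have hv : IsConj z (w * y) := by
        rw [hy, ← Cfsg.Agent.Inv.iso_conj_even hinv j]
        exact hw.trans (isConj_iff.mpr ⟨(x ^ j)⁻¹, by rw [inv_inv]⟩)
      have hkey : x⁻¹ * y = y⁻¹ * x := by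
        calc x⁻¹ * y = x⁻¹ * (y * y) * y⁻¹ := by group
          _ = x * y⁻¹ := by rw [hyy]; group
          _ = y⁻¹ * x := hxy.inv_right.eq
      have hvs : Commute (w * y) s := by
        change w * y * s = s * (w * y)
        calc w * y * s = (w * y * w⁻¹) * (w * s) := by group
          _ = y⁻¹ * x := by rw [hwy]
          _ = s * (w * y) := by rw [← hkey, ← hsw, mul_assoc]
      have hwsv : Commute w (s * (w * y)) := by
        change w * (s * (w * y)) = s * (w * y) * w
        calc w * (s * (w * y)) = w * (x⁻¹ * y) := by rw [← hsw]; group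
          _ = (w * x * w⁻¹)⁻¹ * (w * y * w⁻¹) * w := by group
          _ = (x * y⁻¹) * w := by rw [hinv, hwy, inv_inv]
          _ = s * (w * y) * w := by
            rw [hxy.inv_right.eq, ← hkey, ← hsw, mul_assoc s w y]
      obtain ⟨a, ha1, ha2, ha, haH⟩ := hz.exists_inverted hv
      have ha3 : Commute a s := by
        have := haH (Subgroup.centralizer ({s} : Set G)) (by
          rw [Subgroup.mem_centralizer_singleton_iff]
          exact (hvs.mul_left hsz.symm).eq)
        rwa [Subgroup.mem_centralizer_singleton_iff] at this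
      have hu : IsConj z (a⁻¹ * w * a⁻¹⁻¹) := hw.trans (isConj_iff.mpr ⟨a⁻¹, rfl⟩)
      obtain ⟨b, hb1, hb2, hb, hbH⟩ := hz.exists_inverted hu
      have hb3 : Commute b (s * z) := by
        have := hbH (Subgroup.centralizer ({s * z} : Set G)) (by
          rw [Subgroup.mem_centralizer_singleton_iff]
          apply Commute.eq
          apply Commute.mul_left
          · have h1 := hwsv.map (MulAut.conj a⁻¹)
            simp only [MulAut.conj_apply] at h1
            have h2 : s * z = a⁻¹ * (s * (w * y)) * a⁻¹⁻¹ := by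
              rw [← ha]
              calc s * z = a⁻¹ * (a * s) * z := by group
                _ = a⁻¹ * (s * (a * z * a⁻¹)) * a⁻¹⁻¹ := by rw [ha3.eq]; group
            rw [h2]
            exact h1
          · exact hsz.symm.mul_right (Commute.refl z))
        rwa [Subgroup.mem_centralizer_singleton_iff] at this
      refine ⟨⟨⟨b, hb1, hb2, hb3⟩, ⟨a, ha1, ha2, ha3⟩⟩, ?_⟩
      simp only [f]
      rw [hmem, ← hwdef]
      calc a * b * z * (a * b)⁻¹ = a * (b * z * b⁻¹) * a⁻¹ := by group
        _ = w := by rw [hb]; group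
  have hcard := Nat.card_eq_of_bijective f hf
  rw [Nat.card_prod] at hcard
  rw [mul_assoc, hcard, mul_comm]
  exact Subgroup.card_eq_card_quotient_mul_card_subgroup C

end Cfsg.Agent.S1186
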