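import Mathlib
import Cfsg.Statements.S1227
import Cfsg.Agent.Inv.EAC

set_option autoImplicit false
open Cfsg

namespace Cfsg.Agent.S1227

open Cfsg.Agent.Inv Cfsg.Agent.Inv.SE MulAction

/-- Let G be a finite group with a Sylow 2-subgroup T that is neither cyclic nor normal, such that the centralizer of every involution is an elementary abelian 2-group; put H = N_G(T), let u be an involution outside H and D = H ∩ uHu⁻¹. Then u inverts every element of D, |H| = |T|·(|T| − 1), and D is a complement to T in H. -/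
theorem result {G : Type*} [Group G] [Finite G] (T : Sylow 2 G) (hnc : ¬ IsCyclic (T : Subgroup G)) (hnn : ¬ (T : Subgroup G).Normal) (hC : ∀ t : G, orderOf t = 2 → IsMulCommutative (Subgroup.centralizer ({t} : Set G)) ∧ ∀ c ∈ Subgroup.centralizer ({t} : Set G), c ^ 2 = 1) (u : G) (hu : orderOf u = 2) (huH : u ∉ Subgroup.normalizer ((T : Subgroup G) : Set G)) : (∀ d ∈ Subgroup.normalizer ((T : Subgroup G) : Set G) ⊓ (Subgroup.normalizer ((T : Subgroup G) : Set G)).map (MulAut.conj u).toMonoidHom, u * d * u⁻¹ = d⁻¹) ∧ Nat.card (Subgroup.normalizer ((T : Subgroup G) : Set G)) = Nat.card T * (Nat.card T - 1) ∧ Subgroup.IsComplement' ((Subgroup.normalizer ((T : Subgroup G) : Set G) ⊓ (Subgroup.normalizer ((T : Subgroup G) : Set G)).map (MulAut.conj u).toMonoidHom).subgroupOf (Subgroup.normalizer ((T : Subgroup G) : Set G))) ((T : Subgroup G).subgroupOf (Subgroup.normalizer ((T : Subgroup G) : Set G))) := by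
  have h := eac_ea T hC hnc hnn
  have hT : h.tt (QuotientGroup.mk 1) = T := eac_tt T hC hnc hnn
  revert hT
  set H := Subgroup.normalizer ((T : Subgroup G) : Set G) with hH
  intro hT
  have hxy := mk_one_ne_mk huH
  have hD : H ⊓ H.map (MulAut.conj u).toMonoidHom =
      stabilizer G (QuotientGroup.mk 1 : G ⧸ H) ⊓ stabilizer G (QuotientGroup.mk u : G ⧸ H) := by
    ext g
    rw [Subgroup.mem_inf, Subgroup.mem_inf, mem_stabilizer_iff, mem_stabilizer_iff, smul_mk_one_iff,
      smul_mk_iff_mem_map]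
  have hc : Subgroup.IsComplement' ((H ⊓ H.map (MulAut.conj u).toMonoidHom).subgroupOf H)
      ((T : Subgroup G).subgroupOf H) := by
    rw [Subgroup.isComplement'_def, Subgroup.isComplement_iff_existsUnique]
    intro g
    obtain ⟨d, t, d1, d2, ht, e⟩ := h.exists_mul hxy (smul_mk_one_iff.2 g.2)
    have hd : d ∈ H ⊓ H.map (MulAut.conj u).toMonoidHom := hD ▸ ⟨d1, d2⟩
    have ht' : t ∈ (T : Subgroup G) := hT ▸ ht
    refine ⟨(⟨⟨d, hd.1⟩, hd⟩, ⟨⟨t, Subgroup.le_normalizer ht'⟩, ht'⟩), Subtype.ext e.symm, ?_⟩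
    rintro ⟨⟨⟨d', hd1⟩, hd'⟩, ⟨⟨t', ht1⟩, ht''⟩⟩ e'
    have e1 : d' * t' = d * t := (congrArg Subtype.val e').trans e
    have hd2 : d' ∈ H ⊓ H.map (MulAut.conj u).toMonoidHom := hd'
    have ht2 : t' ∈ h.tt (QuotientGroup.mk 1) := hT ▸ ht''
    rw [hD] at hd2
    have e2 : t' * t⁻¹ = d'⁻¹ * d := by
      rw [eq_inv_mul_iff_mul_eq, ← mul_assoc, e1, mul_inv_cancel_right]
    have e3 := h.eq_one_of_mem_tt hxy (mul_mem ht2 (inv_mem ht)) (by
      rw [e2, mul_smul, d2, inv_smul_eq_iff]; exact (mem_stabilizer_iff.1 hd2.2).symm)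
    have e4 : t' = t := mul_inv_eq_one.1 e3
    have e5 : d' = d := by rw [e4] at e1; exact mul_right_cancel e1
    subst e4 e5
    rfl
  refine ⟨fun d hd => ?_, ?_, hc⟩
  · rw [hD] at hd
    exact h.inverts hxy hu (smul_mk_one u) hd.1 hd.2
  · rw [← hc.card_mul_card, Nat.card_congr (Subgroup.subgroupOfEquivOfLe inf_le_left).toEquiv,
      Nat.card_congr (Subgroup.subgroupOfEquivOfLe Subgroup.le_normalizer).toEquiv, hD,
      h.card_twoPt hxy, hT, mul_comm]

end Cfsg.Agent.S1227
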