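import Mathlib
import Cfsg.Statements.S1228
import Cfsg.Agent.Inv.EAC

set_option autoImplicit false
open Cfsg

namespace Cfsg.Agent.S1228

open Cfsg.Agent.Inv Cfsg.Agent.Inv.SE MulAction

/-- Let G be a finite group with a Sylow 2-subgroup T that is neither cyclic nor normal, such that the centralizer of every involution is an elementary abelian 2-group; put H = N_G(T), let u be an involution outside H and D = H ∩ uHu⁻¹. Then N_G(D) = D ⊔ ⟨u⟩, and a coset gH is fixed by every element of D exactly when gH = H or gH = uH. -/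
theorem result {G : Type*} [Group G] [Finite G] (T : Sylow 2 G) (hnc : ¬ IsCyclic (T : Subgroup G)) (hnn : ¬ (T : Subgroup G).Normal) (hC : ∀ t : G, orderOf t = 2 → IsMulCommutative (Subgroup.centralizer ({t} : Set G)) ∧ ∀ c ∈ Subgroup.centralizer ({t} : Set G), c ^ 2 = 1) (u : G) (hu : orderOf u = 2) (huH : u ∉ Subgroup.normalizer ((T : Subgroup G) : Set G)) : Subgroup.normalizer ((Subgroup.normalizer ((T : Subgroup G) : Set G) ⊓ (Subgroup.normalizer ((T : Subgroup G) : Set G)).map (MulAut.conj u).toMonoidHom : Subgroup G) : Set G) = (Subgroup.normalizer ((T : Subgroup G) : Set G) ⊓ (Subgroup.normalizer ((T : Subgroup G) : Set G)).map (MulAut.conj u).toMonoidHom) ⊔ Subgroup.zpowers u ∧ ∀ g : G, ((∀ d ∈ Subgroup.normalizer ((T : Subgroup G) : Set G) ⊓ (Subgroup.normalizer ((T : Subgroup G) : Set G)).map (MulAut.conj u).toMonoidHom, d • (QuotientGroup.mk g : G ⧸ Subgroup.normalizer ((T : Subgroup G) : Set G)) = QuotientGroup.mk g) ↔ (QuotientGroup.mk g : G ⧸ Subgroup.normalizer ((T : Subgroup G) : Set G))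 = QuotientGroup.mk 1 ∨ (QuotientGroup.mk g : G ⧸ Subgroup.normalizer ((T : Subgroup G) : Set G)) = QuotientGroup.mk u) := by
  have h := eac_ea T hC hnc hnn
  set H := Subgroup.normalizer ((T : Subgroup G) : Set G) with hH
  have hxy := mk_one_ne_mk huH
  have hD : H ⊓ H.map (MulAut.conj u).toMonoidHom =
      stabilizer G (QuotientGroup.mk 1 : G ⧸ H) ⊓ stabilizer G (QuotientGroup.mk u : G ⧸ H) := by
    ext g
    rw [Subgroup.mem_inf, Subgroup.mem_inf, mem_stabilizer_iff, mem_stabilizer_iff, smul_mk_one_iff,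
      smul_mk_iff_mem_map]
  rw [hD]
  set x : G ⧸ H := QuotientGroup.mk 1
  set y : G ⧸ H := QuotientGroup.mk u
  have hux : u • x = y := smul_mk_one u
  have huy : u • y = x := smul_swap_of_two hu hux
  have key : ∀ z : G ⧸ H, (∀ d ∈ stabilizer G x ⊓ stabilizer G y, d • z = z) ↔ z = x ∨ z = y := by
    intro z
    constructor
    · intro hz
      obtain ⟨d, d1, d2, d3⟩ := h.exists_twoPt_ne_one hxy
      by_contra hcon
      push Not at hcon
      exact d3 (h.eq_one_of_three hxy hcon.1.symm hcon.2.symm d1 d2 (hz d ⟨d1, d2⟩))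
    · rintro (rfl | rfl) d hd
      · exact hd.1
      · exact hd.2
  refine ⟨le_antisymm ?_ (sup_le Subgroup.le_normalizer ?_), fun g => key _⟩
  · intro g hg
    have hfix : ∀ z : G ⧸ H, z = x ∨ z = y → g • z = x ∨ g • z = y := by
      intro z hz
      rw [← key] at hz ⊢
      intro d hd
      have := hz _ ((Subgroup.mem_normalizer_iff''.1 hg d).1 hd)
      rw [mul_smul, mul_smul, inv_smul_eq_iff] at this
      exact this
    rcases hfix x (Or.inl rfl) with h1 | h1 <;> rcases hfix y (Or.inr rfl) with h2 | h2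
    · exact absurd (smul_left_cancel g (h1.trans h2.symm)) hxy
    · exact Subgroup.mem_sup_left ⟨h1, h2⟩
    · have : g = (g * u) * u := by rw [mul_mul_cancel_of_mul_self' (mul_self_of_two hu)]
      rw [this]
      refine Subgroup.mul_mem_sup ⟨?_, ?_⟩ (Subgroup.mem_zpowers u)
      · change (g * u) • x = x
        rw [mul_smul, hux, h2]
      · change (g * u) • y = y
        rw [mul_smul, huy, h1]
    · exact absurd (smul_left_cancel g (h1.trans h2.symm)) hxy
  · rw [Subgroup.zpowers_le]
    refine Subgroup.mem_normalizer_fintype fun d hd => ?_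
    have hd' : d ∈ stabilizer G x ⊓ stabilizer G y := hd
    rw [h.inverts hxy hu hux hd'.1 hd'.2]
    exact inv_mem hd'

end Cfsg.Agent.S1228
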