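import Mathlib
import Cfsg.Statements.S1231
import Cfsg.Agent.Inv.SPE

set_option autoImplicit false
open Cfsg

namespace Cfsg.Agent.S1231

open Cfsg.Agent.Inv.SE Subgroup

theorem prankLE_iff {G : Type*} [Group G] {p k : ℕ} {X : Subgroup G} :
    PRankLE p k X ↔ ∀ A : Subgroup G, A ≤ X → IsMulCommutative A → (∀ a ∈ A, a ^ p = 1) →
      Nat.card A ≤ p ^ k := by
  constructor
  · intro h A hA hc hp
    have := h (A.subgroupOf X) inferInstance (fun a ha => Subtype.ext (hp a ha))
    rwa [Nat.card_congr (subgroupOfEquivOfLe hA).toEquiv] at this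
  · intro h A hc hp
    have := h (A.map X.subtype) (map_subtype_le _) inferInstance (by
      rintro _ ⟨a, ha, rfl⟩
      exact congrArg Subtype.val (hp a ha))
    rwa [card_map_of_injective X.subtype_injective] at this

theorem prankLE_of_conj {G : Type*} [Group G] {p k : ℕ} {X Y : Subgroup G} (g : G)
    (h : ∀ x ∈ X, g * x * g⁻¹ ∈ Y) (hY : PRankLE p k Y) : PRankLE p k X := by
  rw [prankLE_iff] at hY ⊢
  intro A hA hc hp
  rw [← card_map_conj A g]
  refine hY _ ?_ inferInstance ?_
  · rintro _ ⟨a, ha, rfl⟩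
    exact h a (hA ha)
  · rintro _ ⟨a, ha, rfl⟩
    rw [← map_pow, hp a ha, map_one]

/-- Let H be a subgroup of the finite group G, p a prime, k ≥ 1, and P a Sylow p-subgroup of H whose p-rank is at least k. Then N_G(X) ≤ H for every subgroup X of P of p-rank at least k if and only if H ∩ gHg⁻¹ has p-rank less than k for every g ∉ H. -/
theorem result {G : Type*} [Group G] [Finite G] {p : ℕ} [Fact p.Prime] (k : ℕ) (hk : 1 ≤ k) (H : Subgroup G) (P : Sylow p ↥H) (hP : ¬ Cfsg.PRankLE p (k - 1) ↥(P : Subgroup ↥H)) : (∀ X : Subgroup G, X ≤ (P : Subgroup ↥H).map H.subtype → ¬ Cfsg.PRankLE p (k - 1) ↥X → Subgroup.normalizer (X : Set G) ≤ H) ↔ (∀ g : G, g ∉ H → Cfsg.PRankLE p (k - 1) ↥(H ⊓ H.map (MulAut.conj g).toMonoidHom)) := by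
  constructor
  · intro h g hg
    have hPN := h _ le_rfl (fun h1 => hP (by
      rw [prankLE_iff] at h1 ⊢
      intro A hA hc hp
      have := h1 (A.map H.subtype) (map_mono hA) inferInstance (by
        rintro _ ⟨a, ha, rfl⟩
        exact congrArg Subtype.val (hp a ha))
      rwa [card_map_of_injective H.subtype_injective] at this))
    obtain ⟨Q, hQ⟩ := exists_sylow_eq_of_normalizer_le P hPN
    rw [← hQ] at h hPN
    have hQH : (Q : Subgroup G) ≤ H := le_normalizer.trans hPN
    have h1 : ∀ X : Subgroup G, X ≤ H → IsPGroup p X → ¬ PRankLE p (k - 1) X →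
        normalizer (X : Set G) ≤ H := by
      intro X hX hXp hr
      obtain ⟨a, ha, hax⟩ := exists_conj_le_sylow Q hQH hXp hX
      have h2 := h (X.map (MulAut.conj a).toMonoidHom) (by
        rintro _ ⟨x, hx, rfl⟩
        exact hax x hx) (fun h3 => hr (prankLE_of_conj a (fun x hx => conj_mem_map_conj hx) h3))
      intro n hn
      have h3 : a * n * a⁻¹ ∈ H := h2 (le_normalizer_map _ (conj_mem_map_conj hn))
      simpa [mul_assoc] using H.mul_mem (H.mul_mem (H.inv_mem ha) h3) ha
    have h2 : ∀ R : Subgroup G, IsPGroup p R → ¬ PRankLE p (k - 1) (R ⊓ H : Subgroup G) →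
        R ≤ H := by
      intro R hR hr
      by_contra hne
      have : Group.IsNilpotent R := hR.isNilpotent
      have hlt : (R ⊓ H).subgroupOf R < ⊤ := by
        rw [lt_top_iff_ne_top]
        intro h3
        exact hne ((subgroupOf_eq_top.mp h3).trans inf_le_right)
      obtain ⟨y, hy, hyA⟩ := SetLike.exists_of_lt
        (Group.normalizerCondition_of_isNilpotent (G := R) _ hlt)
      rw [← subgroupOf_normalizer_eq inf_le_left] at hy
      exact hyA ⟨y.2, h1 _ inf_le_right hR.to_inf_left hr hy⟩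
    by_contra hr
    rw [prankLE_iff] at hr
    push Not at hr
    obtain ⟨A, hA, hc, hp, hcard⟩ := hr
    have hAr : ¬ PRankLE p (k - 1) A := fun h3 =>
      absurd (prankLE_iff.mp h3 A le_rfl hc hp) (not_le.mpr hcard)
    have hAp : IsPGroup p A := fun a => ⟨1, by ext; simpa using hp a a.2⟩
    obtain ⟨R, hR⟩ := hAp.exists_le_sylow
    have hRH : (R : Subgroup G) ≤ H := h2 _ R.2 fun h3 => hAr
      (prankLE_of_conj 1 (fun x hx => by simpa using ⟨hR hx, (hA hx).1⟩) h3)
    have hgR : ((g⁻¹ • R : Sylow p G) : Subgroup G) ≤ H := h2 _ (g⁻¹ • R).2 fun h3 => hAr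
      (prankLE_of_conj g⁻¹ (fun x hx => mem_inf.mpr ⟨mem_smul_sylow.mpr (by
        have : x ∈ R := hR hx
        simpa [mul_assoc] using this), by simpa using mem_map_conj.mp (hA hx).2⟩) h3)
    obtain ⟨a, ha, haR⟩ := sylow_conj_of_le Q R hQH hRH
    obtain ⟨b, hb, hbR⟩ := sylow_conj_of_le (g⁻¹ • R) Q hgR hQH
    have h3 : (b * g⁻¹ * a) • Q = Q := by rw [mul_smul, mul_smul, haR, hbR]
    have h4 : b * g⁻¹ * a ∈ H := hPN (Sylow.smul_eq_iff_mem_normalizer.mp h3)
    have := H.mul_mem (H.mul_mem ha (H.inv_mem h4)) hb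
    exact hg (by simpa [mul_assoc] using this)
  · intro h X hX hr g hg
    by_contra hgH
    refine hr (prankLE_of_conj 1 (fun x hx => ?_) (h g hgH))
    have hXH : X ≤ H := hX.trans (map_subtype_le _)
    simp only [one_mul, inv_one, mul_one]
    exact ⟨hXH hx, mem_map_conj.mpr (hXH ((mem_normalizer_iff''.mp hg x).mp hx))⟩

end Cfsg.Agent.S1231
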