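import Mathlib
-- Template for statement S1236 (row 1236; see /opt/grader/pristine/manifest.json for weights).
-- Copy to Cfsg/Agent/S1236.lean and replace the sorry. The statement below is byte-identical to the frozen
-- statement Cfsg.CfsgFrozen.S1236 (Cfsg/Statements/S1236.lean; the theorem Cfsg.elementary_eight_self_centralizing_in_central_mod_dihedral);
-- the grader kernel-checks Cfsg.Agent.S1236.result against that frozen type. Keep the theorem IN THIS FILE
-- (a `result` declared elsewhere and merely imported here is not credited); helpers may live anywhere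
-- under Cfsg/Agent/.
import Cfsg.Statements.S1236
import Cfsg.Agent.Inv.SmallTwo
import Cfsg.Agent.GT.PGroupMaxClass
import Cfsg.Agent.GT.PGroupElemAb
-- import your own Cfsg.Agent.* helpers here

set_option autoImplicit false
open Cfsg

namespace Cfsg.Agent.S1236

open Cfsg.Agent.Inv Cfsg.Agent.Inv.Fz Subgroup

theorem card_cent_le {Q : Type*} [Group Q] [Finite Q] {a g : Q} (hi : (zpowers a).index = 2)
    (hg : g * a * g⁻¹ = a⁻¹) : Nat.card (centralizer ({g} : Set Q)) ≤ 4 := by
  haveI : Fact (Nat.Prime 2) := ⟨Nat.prime_two⟩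
  set C := centralizer ({g} : Set Q)
  have hE : Cfsg.IsElementaryAbelian 2 (zpowers a ⊓ C) := by
    refine ⟨⟨⟨fun x y => Subtype.ext ?_⟩⟩, fun x hx => ?_⟩
    · obtain ⟨i, hi⟩ := (mem_inf.1 x.2).1
      obtain ⟨j, hj⟩ := (mem_inf.1 y.2).1
      simp only [coe_mul, ← hi, ← hj]
      exact (Commute.refl a).zpow_zpow i j
    · obtain ⟨⟨i, rfl⟩, hc⟩ := mem_inf.1 hx
      rw [mem_centralizer_singleton_iff] at hc
      have : g * a ^ i * g⁻¹ = (a ^ i)⁻¹ := by
        rw [← conj_zpow, hg, inv_zpow']; simp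
      simp only at hc ⊢
      rw [← hc, mul_inv_cancel_right] at this
      rw [pow_two]; nth_rewrite 1 [this]; simp
  have hcyc : IsCyclic (zpowers a ⊓ C : Subgroup Q) := isCyclic_of_le inf_le_left
  have h2 := hE.isCyclic_iff.1 hcyc
  have h3 : (zpowers a).relIndex C ≤ 2 := by
    rw [← hi]; exact relIndex_le_of_le_right le_top (by simp [hi]) |>.trans (by simp)
  have h4 := card_mul_index ((zpowers a).subgroupOf C)
  have h5 : Nat.card ((zpowers a).subgroupOf C) = Nat.card (zpowers a ⊓ C : Subgroup Q) := by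
    rw [← inf_subgroupOf_right]
    exact Nat.card_congr (subgroupOfEquivOfLe inf_le_right).toEquiv
  rw [← h4, h5]
  exact (Nat.mul_le_mul h2 h3)

theorem exists_gen {Q : Type*} [Group Q] [Finite Q]
    (hq : (∃ m : ℕ, 2 ≤ m ∧ Nonempty (Q ≃* DihedralGroup m)) ∨ Cfsg.IsQuasiDihedral Q) :
    ∃ a : Q, ∀ g ∉ zpowers a, Nat.card (centralizer ({g} : Set Q)) ≤ 4 := by
  rcases hq with ⟨m, hm, ⟨e⟩⟩ | h
  · haveI : NeZero m := ⟨by omega⟩
    refine ⟨e.symm (DihedralGroup.r 1), fun g hg => card_cent_le (a := e.symm (DihedralGroup.r 1)) ?_ ?_⟩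
    · have h1 := card_mul_index (zpowers (e.symm (DihedralGroup.r 1)))
      rw [Nat.card_zpowers, MulEquiv.orderOf_eq, DihedralGroup.orderOf_r_one,
        Nat.card_congr e.toEquiv, DihedralGroup.nat_card, mul_comm] at h1
      exact Nat.eq_of_mul_eq_mul_right (by omega) h1
    · obtain ⟨x, rfl⟩ := e.symm.surjective g
      rcases x with i | i
      · exfalso; apply hg
        refine ⟨(i.val : ℤ), ?_⟩
        simp only [← map_zpow, DihedralGroup.r_one_zpow]
        simp
      · simp only [← map_mul, ← map_inv]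
        congr 1
        simp
  · obtain ⟨m, a, b, -, hM, -⟩ := GT.PG.exists_maxTwo_of_isQuasiDihedral h
    exact ⟨a, fun g hg => (hM.card_centralizer_of_notMem hg).le⟩

/-- Let R be a finite group, t a central involution of R such that R ⧸ ⟨t⟩ is dihedral (of order ≥ 4) or quasi-dihedral, and A ≤ R an elementary abelian subgroup of order 8 containing t. Then C_R(A) = A. -/
theorem result {R : Type*} [Group R] [Finite R] (t : R) (ht : orderOf t = 2) (htz : t ∈ Subgroup.center R) [(Subgroup.zpowers t).Normal] (hq : (∃ m : ℕ, 2 ≤ m ∧ Nonempty (R ⧸ Subgroup.zpowers t ≃* DihedralGroup m)) ∨ Cfsg.IsQuasiDihedral (R ⧸ Subgroup.zpowers t)) (A : Subgroup R) (hA : Cfsg.IsElementaryAbelian 2 A) (hA8 : Nat.card A = 8) (htA : t ∈ A) : Subgroup.centralizer (A : Set R) = A := by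
  haveI : Fact (Nat.Prime 2) := ⟨Nat.prime_two⟩
  obtain ⟨a, ha⟩ := exists_gen hq
  set f := QuotientGroup.mk' (zpowers t)
  have hK := hA.map f
  have hle : zpowers t ≤ A := by rwa [zpowers_le]
  have hcm : (A.map f).comap f = A := by
    rw [comap_map_eq, QuotientGroup.ker_mk', sup_eq_left.2 hle]
  have hc : Nat.card (A.map f) = 4 := by
    have := GT.PG.card_comap_mk' (zpowers t) (A.map f)
    rw [hcm, hA8, Nat.card_zpowers, ht] at this
    omega
  have hnc : ¬ A.map f ≤ zpowers a := fun h => by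
    have := hK.isCyclic_iff.1 (isCyclic_of_le h)
    omega
  obtain ⟨g, hgK, hga⟩ := SetLike.not_le_iff_exists.1 hnc
  have hKC : A.map f ≤ centralizer {g} := fun x hx => by
    rw [mem_centralizer_singleton_iff]; exact hK.comm hx hgK
  have hEq : A.map f = centralizer {g} := eq_of_le_of_card_ge hKC (by rw [hc]; exact ha g hga)
  refine le_antisymm (fun x hx => ?_) hA.le_centralizer
  rw [← hcm, mem_comap, hEq, mem_centralizer_singleton_iff]
  obtain ⟨y, hy, rfl⟩ := hgK
  rw [← map_mul, ← map_mul, hx y hy]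

end Cfsg.Agent.S1236
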