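import Mathlib
-- Template for statement S1239 (row 1239; see /opt/grader/pristine/manifest.json for weights).
-- Copy to Cfsg/Agent/S1239.lean and replace the sorry. The statement below is byte-identical to the frozen
-- statement Cfsg.CfsgFrozen.S1239 (Cfsg/Statements/S1239.lean; the theorem Cfsg.qd_or_wreathed_isolated_involution_core_times_center_normal);
-- the grader kernel-checks Cfsg.Agent.S1239.result against that frozen type. Keep the theorem IN THIS FILE
-- (a `result` declared elsewhere and merely imported here is not credited); helpers may live anywhere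
-- under Cfsg/Agent/.
import Cfsg.Statements.S1239
import Cfsg.Agent.Inv.WrFusion
import Cfsg.Agent.Inv.IsoSyl
import Cfsg.Agent.Inv.Isolated
-- import your own Cfsg.Agent.* helpers here

set_option autoImplicit false
open Cfsg

namespace Cfsg.Agent.S1239

open Cfsg.Agent.Inv Cfsg.Agent.Inv.Fz Subgroup

/-- Let X be a finite group whose Sylow 2-subgroup S is quasi-dihedral or wreathed, and suppose some involution of S is isolated in X. Then the product of the largest normal odd-order subgroup O(X) with the centre of S is normal in X. -/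
theorem result {X : Type*} [Group X] [Finite X] (S : Sylow 2 X) (hS : Cfsg.IsQuasiDihedral (S : Subgroup X) ∨ Cfsg.IsWreathed (S : Subgroup X)) (z : X) (hzS : z ∈ S) (hz : Cfsg.IsIsolatedInvolution z) : (Cfsg.oddCore X ⊔ (Subgroup.center (S : Subgroup X)).map (S : Subgroup X).subtype).Normal := by
  refine normal_oddCore_sup S (map_subtype_le _) fun c hc => ?_
  have hz' : ∀ w ∈ (S : Subgroup X), IsConj z w → w = z := fun w hw h =>
    hz.eq_of_mem_pGroup S.isPGroup' hzS h hw
  have hzc : z ∈ centralizer ((S : Subgroup X) : Set X) := fun x hx =>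
    (hz.commute_of_mem_pGroup S.isPGroup' hzS hx).eq
  rcases hS with hS | hS
  · obtain ⟨t, ht, r, s, H⟩ := exists_mx_of_qd hS
    obtain rfl := ((H.mem_center_iff (by omega) hzS).1 hzc).resolve_left hz.ne_one
    exact H.qd_center_fix ht (fun ho => H.s_ne_r _ _ (hz' _ (H.s_mem 0) (H.qd_isConj_T ht ho))) hc
  · obtain ⟨t, u, w, H⟩ := exists_wr hS
    obtain ⟨a, rfl⟩ := (H.mem_centralizer_iff' hzS).1 hzc
    obtain rfl := H.eq_hh_of_diag hz.mul_self hz.ne_one
    exact H.center_fix (fun ho => hh_ne_zero
      (H.u_eq.1 (hz' _ (H.u_mem _ _) (H.isConj_z_h0 ho))).2.symm) (H.center_eq ▸ hc)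

end Cfsg.Agent.S1239
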