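import Mathlib
import Cfsg.Statements.S1242
import Cfsg.Agent.GT.TransferCocycle
-- import your own Cfsg.Agent.* helpers here

set_option autoImplicit false
open Cfsg

namespace Cfsg.Agent.S1242

open Cfsg.Agent.GT.Tr
open scoped IsMulCommutative

/-- Let G be a finite group, p a prime and H a subgroup of index prime to p such that any two elements of H of p-power order that are conjugate in G are conjugate in H. Then (O^p(G)·G') ∩ H = O^p(H)·H', where O^p denotes the subgroup generated by the elements of order prime to p. -/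
theorem result {G : Type*} [Group G] [Finite G] {p : ℕ} [Fact p.Prime] (H : Subgroup G) (hidx : Nat.Coprime p H.index) (hfus : ∀ g ∈ H, (∃ k : ℕ, orderOf g = p ^ k) → ∀ a : G, a * g * a⁻¹ ∈ H → ∃ h ∈ H, h * g * h⁻¹ = a * g * a⁻¹) : (Cfsg.pResidual p G ⊔ commutator G) ⊓ H = (Cfsg.pResidual p ↥H ⊔ commutator ↥H).map H.subtype := by
  refine le_antisymm ?_ (le_inf ?_ (Subgroup.map_subtype_le _))
  · rintro x ⟨hx1, hx2⟩
    set K := Cfsg.pResidual p ↥H ⊔ commutator ↥H with hK
    have hcomm : IsMulCommutative (H ⧸ K) :=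
      Subgroup.Normal.quotient_commutative_iff_commutator_le.2 le_sup_right
    have hp : IsPGroup p (H ⧸ K) := isPGroup_quotient_iff.2 le_sup_left
    have hker : Cfsg.pResidual p G ⊔ commutator G ≤ (MonoidHom.transfer (QuotientGroup.mk' K)).ker :=
      sup_le (pResidual_le_ker hp _) (Abelianization.commutator_subset_ker _)
    obtain ⟨a, ha, b, hb, ⟨j, hj⟩, hbc, rfl⟩ := exists_pPart_mul_pPrimePart (p := p) x
    have haH : a ∈ H := Subgroup.zpowers_le.2 hx2 ha
    have hbH : b ∈ H := Subgroup.zpowers_le.2 hx2 hb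
    refine mul_mem ?_ (Subgroup.map_mono le_sup_left (mem_map_pResidual hbH hbc))
    have h1 := transfer_eq_pow_of_conj (QuotientGroup.mk' K) ⟨a, haH⟩ (fun k t hk => by
      obtain ⟨i, -, hi⟩ := (Nat.dvd_prime_pow Fact.out).1 (hj ▸ orderOf_pow_dvd (x := a) k)
      obtain ⟨h, hh, h2⟩ := hfus (a ^ k) (pow_mem haH k) ⟨i, hi⟩ t⁻¹ (by simpa using hk)
      have : (⟨_, hk⟩ : H) = ⟨h, hh⟩ * ⟨a, haH⟩ ^ k * ⟨h, hh⟩⁻¹ :=
        Subtype.ext (by simpa using h2.symm)
      rw [this, map_mul, map_mul, map_inv, map_pow, mul_inv_cancel_comm])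
    rw [hker (Subgroup.zpowers_le.2 hx1 ha), ← map_pow, eq_comm, QuotientGroup.mk'_apply,
      QuotientGroup.eq_one_iff] at h1
    refine ⟨⟨a, haH⟩, mem_of_pow_mem_of_coprime h1 ?_, rfl⟩
    rw [← Subgroup.orderOf_coe, hj]
    exact hidx.pow_left j
  · rw [Subgroup.map_sup, Subgroup.map_subtype_commutator]
    exact sup_le_sup (map_pResidual_le _) (Subgroup.commutator_mono le_top le_top)

end Cfsg.Agent.S1242
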