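import Mathlib
import Cfsg.Statements.S1244
import Cfsg.Agent.GT.TransferAbelian
import Cfsg.Agent.GT.PGroupRank
-- import your own Cfsg.Agent.* helpers here

set_option autoImplicit false
open Cfsg

namespace Cfsg.Agent.S1244

open Cfsg.Agent.GT.Tr
open scoped IsMulCommutative

/-- Let G be a finite group with no subgroup of index 2 whose Sylow 2-subgroup S is commutative, and let R ≤ S be a subgroup whose 2-rank is exactly one less than the 2-rank r of S. Then every involution of S is conjugate, by an element of N_G(S), to an element of R. -/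
theorem result {G : Type*} [Group G] [Finite G] (hG : ∀ H : Subgroup G, H.index ≠ 2) (S : Sylow 2 G) (hS : IsMulCommutative (S : Subgroup G)) (r : ℕ) (hr1 : 1 ≤ r) (hSr : Cfsg.PRankLE 2 r (S : Subgroup G) ∧ ¬ Cfsg.PRankLE 2 (r - 1) (S : Subgroup G)) (R : Subgroup G) (hRS : R ≤ S) (hRr : Cfsg.PRankLE 2 (r - 1) R ∧ (r = 1 ∨ ¬ Cfsg.PRankLE 2 (r - 2) R)) (t : G) (ht : orderOf t = 2) (htS : t ∈ S) : ∃ n ∈ Subgroup.normalizer ((S : Subgroup G) : Set G), n * t * n⁻¹ ∈ R := by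
  by_cases htR : t ∈ R
  · exact ⟨1, one_mem _, by simpa using htR⟩
  have ht2 : t ^ 2 = 1 := ht ▸ pow_orderOf_eq_one t
  let R' := R.subgroupOf (S : Subgroup G)
  obtain ⟨χ, hχ⟩ := CommGroup.exists_apply_ne_one_of_hasEnoughRootsOfUnity
    ((S : Subgroup G) ⧸ R') ℂ (a := QuotientGroup.mk ⟨t, htS⟩)
    (fun h => htR ((QuotientGroup.eq_one_iff (N := R') ⟨t, htS⟩).1 h))
  have hO : pResidual 2 G = ⊤ := pResidual_eq_top_iff.2 fun N _ => hG N
  obtain ⟨g, h1, h2, -⟩ := thompson_transfer (χ.comp (QuotientGroup.mk' R')) S.not_dvd_index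
    (fun a b ha hb ha1 hb1 => by
      have key : ∀ c : ℂˣ, c ^ 2 = 1 → c ≠ 1 → c = -1 := fun c hc hc1 =>
        Units.ext ((sq_eq_one_iff.1 (show (c : ℂ) ^ 2 = 1 by
          rw [← Units.val_pow_eq_pow_val, hc, Units.val_one])).resolve_left
          fun h => hc1 (Units.ext h))
      rw [key a ha ha1, key b hb hb1]) ht2
    (transfer_eq_one_of_mem_commutator _
      (sylow_inf_pResidual_le_commutator S ⟨htS, hO.ge (Subgroup.mem_top t)⟩))
    (C := ⊥) IsPGroup.of_bot (by simp)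
  obtain ⟨n, hn, h3⟩ := exists_normalizer_conj_eq_of_abelian S hS (g := g⁻¹) htS (by simpa using h1)
  refine ⟨n, hn, ?_⟩
  rw [← h3, inv_inv]
  by_contra h4
  let Ω : Subgroup (S : Subgroup G) := (powMonoidHom 2).ker
  have h5 : Nat.card Ω ≤ 2 ^ r := hSr.1 Ω inferInstance fun a ha => ha
  obtain ⟨B, hB1, hB2, hB3⟩ : ∃ B : Subgroup G, B ≤ R ∧ IsElementaryAbelian 2 B ∧
      Nat.card B = 2 ^ (r - 1) := by
    by_cases h : r = 1
    · exact ⟨⊥, bot_le, IsElementaryAbelian.bot, by simp [h]⟩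
    · rw [show r - 1 = r - 2 + 1 by omega]
      exact GT.PG.not_pRankLE_subgroup_iff.1 (hRr.2.resolve_left h)
  have h6 : 2 ^ (r - 1) ≤ Nat.card (R'.subgroupOf Ω) := by
    rw [← hB3, ← Subgroup.inf_subgroupOf_right,
      Nat.card_congr (Subgroup.subgroupOfEquivOfLe inf_le_right).toEquiv,
      ← Nat.card_congr (Subgroup.subgroupOfEquivOfLe (hB1.trans hRS)).toEquiv]
    exact Subgroup.card_le_of_le fun x hx =>
      Subgroup.mem_inf.2 ⟨hB1 hx, Subtype.ext (hB2.2 x hx)⟩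
  have h7 := (R'.subgroupOf Ω).card_mul_index
  have htΩ : (⟨t, htS⟩ : (S : Subgroup G)) ∈ Ω := Subtype.ext ht2
  have ht'Ω : (⟨g⁻¹ * t * g, h1⟩ : (S : Subgroup G)) ∈ Ω := Subtype.ext (by
    have := conj_pow (a := g⁻¹) (b := t) (i := 2)
    simpa [ht2] using this)
  have h8 : (R'.subgroupOf Ω).index = 2 := by
    have h9 : (R'.subgroupOf Ω).index ≠ 1 := fun h =>
      htR ((Subgroup.index_eq_one.1 h).ge (Subgroup.mem_top (⟨_, htΩ⟩ : Ω)))
    have h10 : (R'.subgroupOf Ω).index ≠ 0 := Subgroup.FiniteIndex.index_ne_zero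
    by_contra h11
    have h12 : 2 ^ (r - 1) * 3 ≤ 2 ^ r := (Nat.mul_le_mul h6 (by omega)).trans (h7.le.trans h5)
    rw [show r = r - 1 + 1 by omega, pow_succ, Nat.add_sub_cancel] at h12
    have := Nat.pos_of_ne_zero (pow_ne_zero (r - 1) two_ne_zero)
    omega
  have h9 := (Subgroup.mul_mem_iff_of_index_two h8 (a := ⟨_, ht'Ω⟩) (b := ⟨_, htΩ⟩)).2
    ⟨fun h => absurd h h4, fun h => absurd h htR⟩
  have h10 : χ.comp (QuotientGroup.mk' R') (⟨g⁻¹ * t * g, h1⟩ * ⟨t, htS⟩) = 1 := by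
    rw [MonoidHom.comp_apply, QuotientGroup.mk'_apply, (QuotientGroup.eq_one_iff (N := R')
      (⟨g⁻¹ * t * g, h1⟩ * ⟨t, htS⟩)).2 h9, map_one]
  rw [map_mul, h2, one_mul] at h10
  exact hχ h10

end Cfsg.Agent.S1244
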