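import Mathlib
-- Template for statement S1246 (row 1246; see /opt/grader/pristine/manifest.json for weights).
-- Copy to Cfsg/Agent/S1246.lean and replace the sorry. The statement below is byte-identical to the frozen
-- statement Cfsg.CfsgFrozen.S1246 (Cfsg/Statements/S1246.lean; the theorem Cfsg.generalized_fitting_centralizer_pgroup_monotone);
-- the grader kernel-checks Cfsg.Agent.S1246.result against that frozen type. Keep the theorem IN THIS FILE
-- (a `result` declared elsewhere and merely imported here is not credited); helpers may live anywhere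
-- under Cfsg/Agent/.
import Cfsg.Statements.S1246
import Cfsg.Agent.Inv.SmallTwo
import Cfsg.Agent.Loc.CharP
-- import your own Cfsg.Agent.* helpers here

set_option autoImplicit false
open Cfsg

namespace Cfsg.Agent.S1246

open Cfsg.Agent.Inv Cfsg.Agent.Inv.Fz Subgroup

/-- Let V ≤ U be p-subgroups of the finite group G. If the generalized Fitting subgroup of C_G(V) is a p-group, then so is that of C_G(U). -/
theorem result {G : Type*} [Group G] [Finite G] {p : ℕ} [Fact p.Prime] (U V : Subgroup G) (hVU : V ≤ U) (hU : IsPGroup p U) (hV : IsPGroup p ↥(Cfsg.generalizedFittingSubgroup ↥(Subgroup.centralizer (V : Set G)))) : IsPGroup p ↥(Cfsg.generalizedFittingSubgroup ↥(Subgroup.centralizer (U : Set G))) := by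
  have hs : GT.SubnormalIn V U := GT.subnormalIn_of_isPGroup hU hVU
  have h0 : Loc.Am.IsCharP p (centralizer (V : Set G)) :=
    Loc.CP.isCharP_iff_genFitting.2 ((GT.genFitting_eq_pCore_iff_isPGroup Fact.out).2 hV)
  have h1 : Loc.Am.IsCharP p (centralizer (U : Set G)) := by
    refine hs.induction_up (motive := fun K => Loc.Am.IsCharP p (centralizer (K : Set G))) h0 ?_
    intro K K' _ hKK' hN hK' hK
    have hP : IsPGroup p K' := hU.to_le hK'.le
    exact (Loc.CP.isCharP_normalizer_centralizer_of_normal hP hKK' hN
      ((Loc.CP.isCharP_normalizer_iff (hP.to_le hKK')).2 hK)).2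
  exact (GT.genFitting_eq_pCore_iff_isPGroup Fact.out).1 (Loc.CP.isCharP_iff_genFitting.1 h1)

end Cfsg.Agent.S1246
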