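import Mathlib
import Cfsg.Statements.S1253
import Cfsg.Agent.Blk.ZStarSylow

set_option autoImplicit false
open Cfsg

namespace Cfsg.Agent.S1253

/-- Let z be an isolated involution of the finite group G with centralizer C, p an odd prime and P a Sylow p-subgroup of G normalized by z. Then P ∩ C has p-power-free index in C (it is a Sylow p-subgroup of C), and |P : C_P(z)| equals the number of elements x ∈ P with z x z⁻¹ = x⁻¹. -/
theorem result {G : Type*} [Group G] [Finite G] (z : G) (hz : Cfsg.IsIsolatedInvolution z) {p : ℕ} [Fact p.Prime] (hp : p ≠ 2) (P : Sylow p G) (hzP : z ∈ Subgroup.normalizer ((P : Subgroup G) : Set G)) : ¬ p ∣ ((P : Subgroup G) ⊓ Subgroup.centralizer ({z} : Set G)).relIndex (Subgroup.centralizer ({z} : Set G)) ∧ ((P : Subgroup G) ⊓ Subgroup.centralizer ({z} : Set G)).relIndex (P : Subgroup G) = Nat.card {x : G // x ∈ P ∧ z * x * z⁻¹ = x⁻¹} := by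
  set C := Subgroup.centralizer ({z} : Set G) with hC
  constructor
  · obtain ⟨S⟩ : Nonempty (Sylow p C) := inferInstance
    obtain ⟨R, hSR, hR⟩ := hz.exists_invariant_sylow_ge (S.isPGroup'.map C.subtype) (by
      refine Subgroup.centralizer_le_normalizer _ ?_
      rw [Subgroup.mem_centralizer_iff]
      rintro _ ⟨x, -, rfl⟩
      exact Subgroup.mem_centralizer_singleton_iff.mp x.2)
    obtain ⟨c, hc, e⟩ := hz.invariant_sylow_conj P R hzP hR
    let c' : C := ⟨c, Subgroup.mem_centralizer_singleton_iff.mpr hc.eq⟩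
    refine Inv.not_dvd_index_of_sylow_le (c' • S) fun x hx => ?_
    have h1 : c⁻¹ * x * c ∈ R := hSR ⟨_, Inv.mem_sylow_smul_iff.mp hx, rfl⟩
    exact ⟨e ▸ Inv.mem_sylow_smul_iff.mpr h1, x.2⟩
  · have hodd : ∀ x ∈ (P : Subgroup G), Odd (orderOf x) := by
      intro x hx
      obtain ⟨k, hk⟩ := Inv.exists_orderOf_eq_pow_of_mem P.isPGroup' hx
      rw [hk]
      exact ((Fact.out : p.Prime).odd_of_ne_two hp).pow
    have key : ∀ a b : (P : Subgroup G), (QuotientGroup.mk a : (P : Subgroup G) ⧸
        ((P : Subgroup G) ⊓ C).subgroupOf P) = QuotientGroup.mk b ↔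
        (a : G) * z * (a : G)⁻¹ = b * z * (b : G)⁻¹ := by
      intro a b
      rw [QuotientGroup.eq, Subgroup.mem_subgroupOf, Subgroup.mem_inf,
        and_iff_right (SetLike.coe_mem _), hC, Subgroup.mem_centralizer_singleton_iff,
        Subgroup.coe_mul, Subgroup.coe_inv]
      constructor
      · intro e
        calc (a : G) * z * (a : G)⁻¹ = a * (z * ((a : G)⁻¹ * b)) * (b : G)⁻¹ := by group
          _ = _ := by rw [← e]; group
      · intro e
        calc (a : G)⁻¹ * b * z = (a : G)⁻¹ * (b * z * (b : G)⁻¹) * b := by group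
          _ = _ := by rw [← e]; group
    symm
    refine Nat.card_congr (Equiv.ofBijective (fun x => QuotientGroup.mk ⟨x.1, x.2.1⟩) ⟨?_, ?_⟩)
    · intro a b e
      exact Subtype.ext (hz.inverted_unique (hodd _ a.2.1) (hodd _ b.2.1) a.2.2 b.2.2
        ((key _ _).mp e))
    · intro q
      obtain ⟨g, rfl⟩ := QuotientGroup.mk_surjective q
      obtain ⟨k, -, h2, h3, h4⟩ := hz.exists_inverted (Inv.isConj_conj (g : G) z)
      have h5 : (g : G) * z * (g : G)⁻¹ * z ∈ (P : Subgroup G) := by
        have := (Subgroup.mem_normalizer_iff.mp hzP _).mp (Subgroup.inv_mem _ g.2)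
        rw [hz.inv_eq] at this
        simpa only [mul_assoc] using Subgroup.mul_mem _ g.2 this
      exact ⟨⟨k, h4 _ h5, h2⟩, (key _ _).mpr h3⟩

end Cfsg.Agent.S1253
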