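import Mathlib
-- Template for statement S1254 (row 1254; see /opt/grader/pristine/manifest.json for weights).
-- Copy to Cfsg/Agent/S1254.lean and replace the sorry. The statement below is byte-identical to the frozen
-- statement Cfsg.CfsgFrozen.S1254 (Cfsg/Statements/S1254.lean; the theorem Cfsg.dihedral_sylow_normal_two_complement_iff_four_group_normalizers);
-- the grader kernel-checks Cfsg.Agent.S1254.result against that frozen type. Keep the theorem IN THIS FILE
-- (a `result` declared elsewhere and merely imported here is not credited); helpers may live anywhere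
-- under Cfsg/Agent/.
import Cfsg.Statements.S1254
import Cfsg.Agent.Inv.Dih
-- import your own Cfsg.Agent.* helpers here

set_option autoImplicit false
open Cfsg

namespace Cfsg.Agent.S1254

open Cfsg.Agent.Inv Cfsg.Agent.Inv.Fz Subgroup

/-- Let X be a finite group whose Sylow 2-subgroup S is dihedral (of order at least 4). Then X has a normal 2-complement if and only if, for every Klein four-subgroup U ≤ S, the normalizer N_X(U) is generated by C_X(U) and N_S(U). -/
theorem result {X : Type*} [Group X] [Finite X] (S : Sylow 2 X) (m : ℕ) (hm : 2 ≤ m) (eS : (S : Subgroup X) ≃* DihedralGroup m) : Cfsg.HasNormalPComplement 2 X ↔ ∀ U : Subgroup X, U ≤ S → IsKleinFour U → Subgroup.normalizer (U : Set X) = Subgroup.centralizer (U : Set X) ⊔ ((S : Subgroup X) ⊓ Subgroup.normalizer (U : Set X)) := by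
  obtain ⟨t, r, s, H⟩ := exists_mx_of_dihedral S.isPGroup' hm eS
  refine ⟨fun h U hU _ => le_antisymm (fun g hg => ?_)
    (sup_le (centralizer_le_normalizer _) inf_le_right), fun h => ?_⟩
  · obtain ⟨u, hu, e⟩ := h.exists_conj_eq S g
    have e' : ∀ x ∈ U, g * x * g⁻¹ = u * x * u⁻¹ := fun x hx =>
      e x (hU hx) (hU (conj_mem_of_normalizer hg hx))
    have h1 : u ∈ normalizer (U : Set X) :=
      mem_normalizer_of_conj_mem fun x hx => e' x hx ▸ conj_mem_of_normalizer hg hx
    have h2 : u⁻¹ * g ∈ centralizer (U : Set X) := fun x hx => by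
      calc _ = u⁻¹ * (u * x * u⁻¹) * g := by group
        _ = _ := by rw [← e' x hx]; group
    simpa using mul_mem (mem_sup_right (S := centralizer (U : Set X)) (mem_inf.2 ⟨hu, h1⟩)) (mem_sup_left h2)
  · refine H.hasNormalPComplement (fun j hj => not_oddAut_iff.2 fun g hg ho => ?_) H.d_notQ
    rw [h _ (H.sub_le 1 j) (H.isKleinFour_sub hj), sup_comm] at hg
    exact mem_centralizer_of_odd_of_mem_sup (S.isPGroup'.to_le inf_le_left) inf_le_right ho hg

end Cfsg.Agent.S1254
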