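import Mathlib
-- Template for statement S1255 (row 1255; see /opt/grader/pristine/manifest.json for weights).
-- Copy to Cfsg/Agent/S1255.lean and replace the sorry. The statement below is byte-identical to the frozen
-- statement Cfsg.CfsgFrozen.S1255 (Cfsg/Statements/S1255.lean; the theorem Cfsg.dihedral_sylow_fusion_simple_iff);
-- the grader kernel-checks Cfsg.Agent.S1255.result against that frozen type. Keep the theorem IN THIS FILE
-- (a `result` declared elsewhere and merely imported here is not credited); helpers may live anywhere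
-- under Cfsg/Agent/.
import Cfsg.Statements.S1255
import Cfsg.Agent.Inv.Dih
-- import your own Cfsg.Agent.* helpers here

set_option autoImplicit false
open Cfsg

namespace Cfsg.Agent.S1255

open Cfsg.Agent.Inv Cfsg.Agent.Inv.Fz Subgroup

/-- Let X be a finite group whose Sylow 2-subgroup S is dihedral of order 2m ≥ 4. Then X has no subgroup of index 2 and no isolated involution if and only if either all involutions of X are conjugate, or for every Klein four-subgroup U ≤ S the index |N_X(U) : C_X(U)| equals 3 when |S| = 4 and equals 6 when |S| > 4. -/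
theorem result {X : Type*} [Group X] [Finite X] (S : Sylow 2 X) (m : ℕ) (hm : 2 ≤ m) (eS : (S : Subgroup X) ≃* DihedralGroup m) : ((∀ H : Subgroup X, H.index ≠ 2) ∧ (∀ z : X, ¬ Cfsg.IsIsolatedInvolution z)) ↔ ((∀ a b : X, orderOf a = 2 → orderOf b = 2 → IsConj a b) ∨ (∀ U : Subgroup X, U ≤ S → IsKleinFour U → (Subgroup.centralizer (U : Set X)).relIndex (Subgroup.normalizer (U : Set X)) = (if Nat.card S = 4 then 3 else 6))) := by
  obtain ⟨t, r, s, H⟩ := exists_mx_of_dihedral S.isPGroup' hm eS
  by_cases h : ∀ j, OddAut (H.sub 1 j)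
  · exact iff_of_true ⟨no_index_two_iff.2 (H.d_pResidual_eq_top h), H.d_not_isolated h⟩
      (Or.inl fun a b ha hb => (H.d_isConj h ha).symm.trans (H.d_isConj h hb))
  obtain ⟨j, hj⟩ := not_forall.1 h
  obtain ⟨Y, hY, h1, h2⟩ := H.d_exists_focal hj
  refine iff_of_false (fun hc => h1 (inf_pResidual_le S hY
    ⟨H.s_mem j, no_index_two_iff.1 hc.1 ▸ mem_top _⟩)) ?_
  rintro (hc | hc)
  · obtain ⟨g, hg⟩ := isConj_iff.1 (hc _ _ H.orderOf_z (H.d_orderOf_s j))
    exact h2 (hg ▸ hY _ (H.r_mem _) g (hg ▸ H.s_mem j))
  · refine hj (oddAut_of_three_dvd ?_)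
    rw [hc _ (H.sub_le 1 j) (H.isKleinFour_sub (H.d_sq j))]
    split_ifs <;> norm_num

end Cfsg.Agent.S1255
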