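import Mathlib
-- Template for statement S1256 (row 1256; see /opt/grader/pristine/manifest.json for weights).
-- Copy to Cfsg/Agent/S1256.lean and replace the sorry. The statement below is byte-identical to the frozen
-- statement Cfsg.CfsgFrozen.S1256 (Cfsg/Statements/S1256.lean; the theorem Cfsg.dihedral_sylow_classes_of_four_groups);
-- the grader kernel-checks Cfsg.Agent.S1256.result against that frozen type. Keep the theorem IN THIS FILE
-- (a `result` declared elsewhere and merely imported here is not credited); helpers may live anywhere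
-- under Cfsg/Agent/.
import Cfsg.Statements.S1256
import Cfsg.Agent.Inv.Dih
-- import your own Cfsg.Agent.* helpers here

set_option autoImplicit false
open Cfsg

namespace Cfsg.Agent.S1256

open Cfsg.Agent.Inv Cfsg.Agent.Inv.Fz Subgroup

/-- Let X be a finite group whose Sylow 2-subgroup S is dihedral of order 2m ≥ 4. If |S| = 4, any two Klein four-subgroups of X are conjugate; if |S| > 4, there are Klein four-subgroups U₁, U₂ of X that are not conjugate, and every Klein four-subgroup of X is conjugate to U₁ or to U₂. -/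
theorem result {X : Type*} [Group X] [Finite X] (S : Sylow 2 X) (m : ℕ) (hm : 2 ≤ m) (eS : (S : Subgroup X) ≃* DihedralGroup m) : (Nat.card S = 4 → ∀ U V : Subgroup X, IsKleinFour U → IsKleinFour V → (∃ x : X, U.map (MulAut.conj x).toMonoidHom = V)) ∧ (4 < Nat.card S → ∃ U₁ U₂ : Subgroup X, IsKleinFour U₁ ∧ IsKleinFour U₂ ∧ ¬ (∃ x : X, U₁.map (MulAut.conj x).toMonoidHom = U₂) ∧ ∀ V : Subgroup X, IsKleinFour V → (∃ x : X, V.map (MulAut.conj x).toMonoidHom = U₁) ∨ (∃ x : X, V.map (MulAut.conj x).toMonoidHom = U₂)) := by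
  obtain ⟨t, r, s, H⟩ := exists_mx_of_dihedral S.isPGroup' hm eS
  simp only [cj_def]
  refine ⟨fun h4 U V hU hV => ?_, fun h4 => ?_⟩
  · have key : ∀ U : Subgroup X, IsKleinFour U → ∃ g, cj g U = S := fun U hU => by
      obtain ⟨g, hg⟩ := exists_cj_le_sylow S (klein_isPGroup hU)
      exact ⟨g, eq_of_le_of_card_ge hg (by rw [card_cj, hU.card_four]; exact h4.le)⟩
    obtain ⟨g, hg⟩ := key U hU
    obtain ⟨g', hg'⟩ := key V hV
    exact ⟨g'⁻¹ * g, by rw [← cj_cj, hg, ← hg', cj_inv_cj]⟩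
  have ht : 1 ≤ t := by
    rcases t with _ | t
    · exact absurd (h4.trans_eq H.card) (by norm_num)
    · omega
  refine ⟨H.sub 1 0, H.sub 1 1, H.isKleinFour_sub (H.d_sq 0), H.isKleinFour_sub (H.d_sq 1), ?_,
    fun V hV => ?_⟩
  · rintro ⟨g, hg⟩
    have := alperin_two S
      (fun B g => ∀ A ≤ B, Nat.card A = 4 → ∃ a ∈ (S : Subgroup X), cj g A = cj a A)
      (fun A B g hAB h C hC => h C (hC.trans hAB)) (fun A g h h1 h2 C hC h4 => ?_)
      (fun A g h C hC h4 => ?_) (fun A _ c hc C hC _ => ⟨1, one_mem _, ?_⟩)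
      (fun a ha C _ _ => ⟨a, ha, rfl⟩) (fun P hP _ _ ho g hg C hC h4 => ⟨1, one_mem _, ?_⟩)
      (H.sub 1 0) (H.sub_le _ _) g (hg ▸ H.sub_le _ _) _ le_rfl
      (H.isKleinFour_sub (H.d_sq 0)).card_four
    · obtain ⟨a, ha, e⟩ := this
      have key : ∀ i, cj (r i) (H.sub 1 0) ≠ H.sub 1 1 := fun i hi => by
        have := H.s_mem_sub_self 1 1
        rw [← hi, H.cj_r_sub, H.s_mem_sub] at this
        obtain ⟨u, hu⟩ := exists_mul_odd (-i)
        exact r2_two_ne_zero ht (by linear_combination u * this - 2 * hu)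
      obtain ⟨i, rfl | rfl⟩ := H.cases ha
      · exact key i (e.symm.trans hg)
      · refine key i ?_
        rw [← hg, e, ← add_zero i, ← H.rs, ← cj_cj, cj_eq_of_mem (H.s_mem_sub_self 1 0), add_zero]
    · obtain ⟨a, ha, e⟩ := h1 C hC h4
      obtain ⟨b, hb, e'⟩ := h2 _ (cj_mono hC) (by rw [card_cj, h4])
      exact ⟨b * a, mul_mem hb ha, by rw [← cj_cj, e', e, cj_cj]⟩
    · obtain ⟨a, ha, e⟩ := h (cj g⁻¹ C) (by simpa [cj_inv_cj] using cj_mono (g := g⁻¹) hC)
        (by rw [card_cj, h4])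
      rw [cj_cj_inv] at e
      exact ⟨a⁻¹, inv_mem ha, by conv_rhs => rw [e, cj_inv_cj]⟩
    · rw [cj_one]; exact cj_eq_of_mem_centralizer (centralizer_le hC hc)
    · have := (H.d_klein_of_oddAut (S.isPGroup'.to_le hP) ho).card_four
      rw [cj_one, eq_of_le_of_card_ge hC (by rw [this, h4]), cj_eq_iff.2 hg]
  · obtain ⟨g, hg⟩ := exists_cj_le_sylow S (klein_isPGroup hV)
    obtain ⟨j, -, e⟩ := H.eq_sub_of_klein hg (isKleinFour_cj hV g)
    obtain ⟨y, rfl | rfl⟩ := r2_even_or_odd j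
    · obtain ⟨a, -, ha⟩ := H.exists_cj_sub 1 (2 * y) (-y)
      exact Or.inl ⟨a * g, by rw [← cj_cj, e, ha]; congr 1; ring⟩
    · obtain ⟨a, -, ha⟩ := H.exists_cj_sub 1 (2 * y + 1) (-y)
      exact Or.inr ⟨a * g, by rw [← cj_cj, e, ha]; congr 1; ring⟩

end Cfsg.Agent.S1256
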