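import Mathlib
import Cfsg.Statements.S1267
import Cfsg.Agent.GT.LocalLayer

set_option autoImplicit false
open Cfsg

namespace Cfsg.Agent.S1267

open Cfsg.Agent.GT

/-- Let G be finite and P ≤ O_p(G). Then E(N_G(P)) = E(G). -/
theorem result {G : Type*} [Group G] [Finite G] (p : ℕ) [Fact p.Prime] (P : Subgroup G) (hP : P ≤ Cfsg.pCore p G) : (Cfsg.layer ↥(Subgroup.normalizer ((P : Subgroup G) : Set G))).map (Subgroup.normalizer ((P : Subgroup G) : Set G)).subtype = Cfsg.layer G := by
    exact subgroupLayer_normalizer_of_le_pCore Fact.out hP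

end Cfsg.Agent.S1267
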