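import Mathlib
-- Template for statement S1280 (row 1280; see /opt/grader/pristine/manifest.json for weights).
-- Copy to Cfsg/Agent/S1280.lean and replace the sorry. The statement below is byte-identical to the frozen
-- statement Cfsg.CfsgFrozen.S1280 (Cfsg/Statements/S1280.lean; the theorem Cfsg.signalizer_family_product_of_normalizing);
-- the grader kernel-checks Cfsg.Agent.S1280.result against that frozen type. Keep the theorem IN THIS FILE
-- (a `result` declared elsewhere and merely imported here is not credited); helpers may live anywhere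
-- under Cfsg/Agent/.
import Cfsg.Statements.S1280
import Cfsg.Agent.Loc.SigBasic

set_option autoImplicit false
open Cfsg

namespace Cfsg.Agent.S1280

/-- Let θ be a solvable A-signalizer functor (A a noncyclic elementary abelian p-subgroup of the finite group G), and X, Y members of its family with Y ≤ N_G(X). Then X ⊔ Y (= XY) is again in the family. -/
theorem result {G : Type*} [Group G] [Finite G] (p : ℕ) [Fact p.Prime] (A : Subgroup G) (hA : Cfsg.IsElementaryAbelian p A) (hA2 : p ^ 2 ≤ Nat.card ↥A) (θ : G → Subgroup G) (hθ : Cfsg.IsSolvableSignalizerFunctor p A θ) (X Y : Subgroup G) (hX : X ∈ Cfsg.signalizerFamily p A θ) (hY : Y ∈ Cfsg.signalizerFamily p A θ) (hn : Y ≤ Subgroup.normalizer (X : Set G)) : X ⊔ Y ∈ Cfsg.signalizerFamily p A θ := by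
  exact Loc.Sig.fam_iff.mp ((Loc.Sig.fam_iff.mpr hX).sup hA.isPGroup (Loc.Sig.fam_iff.mpr hY) hn)

end Cfsg.Agent.S1280
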