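import Mathlib
import Cfsg.Statements.S1286

set_option autoImplicit false
open Cfsg

namespace Cfsg.Agent.S1286

abbrev X := Equiv.Perm (Fin 5)

def s : X := Equiv.swap 0 1
def t : X := Equiv.swap 2 3
def x : X := Equiv.swap 2 3 * Equiv.swap 3 4
def y : X := Equiv.swap 0 1 * Equiv.swap 1 4

/-- A subgroup given by a finite list of elements. -/
def mkSub (l : List X) (h1 : 1 ∈ l) (hm : ∀ a ∈ l, ∀ b ∈ l, a * b ∈ l) (hi : ∀ a ∈ l, a⁻¹ ∈ l) :
    Subgroup X where
  carrier := {g | g ∈ l}
  one_mem' := h1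
  mul_mem' := fun ha hb => hm _ ha _ hb
  inv_mem' := fun ha => hi _ ha

theorem mem_mkSub {l h1 hm hi} {g : X} : g ∈ mkSub l h1 hm hi ↔ g ∈ l := Iff.rfl

theorem card_mkSub {l h1 hm hi} (hn : l.Nodup) : Nat.card (mkSub l h1 hm hi) = l.length := by
  rw [← List.toFinset_card_of_nodup hn, ← Nat.card_eq_finsetCard]
  exact Nat.card_congr (Equiv.subtypeEquivRight fun g => by simp [mem_mkSub])

def A : Subgroup X := mkSub [1, s, t, s * t] (by decide +kernel) (by decide +kernel) (by decide +kernel)
def U : Subgroup X := mkSub [1, x, x * x] (by decide +kernel) (by decide +kernel) (by decide +kernel)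
def V : Subgroup X := mkSub [1, y, y * y] (by decide +kernel) (by decide +kernel) (by decide +kernel)
def W : Subgroup X := mkSub [1] (by decide +kernel) (by decide +kernel) (by decide +kernel)

def L (a : X) : List X := if a = s then [1, x, x * x] else if a = t then [1, y, y * y] else [1]

def θ (a : X) : Subgroup X := if a = s then U else if a = t then V else W

theorem mem_θ {a g : X} : g ∈ θ a ↔ g ∈ L a := by
  unfold θ L
  split_ifs <;> exact Iff.rfl

theorem card_θ (a : X) : Nat.card (θ a) = 3 ∨ Nat.card (θ a) = 1 := by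
  unfold θ
  split_ifs
  · exact Or.inl (card_mkSub (by decide +kernel))
  · exact Or.inl (card_mkSub (by decide +kernel))
  · exact Or.inr (card_mkSub (by decide +kernel))

theorem memA {g : X} : g ∈ A ↔ g ∈ [1, s, t, s * t] := Iff.rfl

/-- There exist a finite group X, an elementary abelian subgroup A of order 4 and a solvable A-signalizer functor θ on X for the prime 2 which is not complete. -/
theorem result : ∃ (X : Type) (_ : Group X) (_ : Finite X) (A : Subgroup X) (θ : X → Subgroup X), Cfsg.IsElementaryAbelian 2 A ∧ Nat.card ↥A = 4 ∧ Cfsg.IsSolvableSignalizerFunctor 2 A θ ∧ ¬ Cfsg.IsCompleteSignalizerFunctor 2 A θ := by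
  refine ⟨X, inferInstance, inferInstance, A, θ, ⟨⟨⟨fun a b => Subtype.ext ?_⟩⟩, ?_⟩,
    card_mkSub (by decide +kernel), ⟨⟨?_, ?_, ?_, ?_⟩, ?_⟩, ?_⟩
  · have h : ∀ a ∈ [1, s, t, s * t], ∀ b ∈ [1, s, t, s * t], a * b = b * a := by decide +kernel
    exact h _ a.2 _ b.2
  · have h : ∀ a ∈ [1, s, t, s * t], a ^ 2 = 1 := by decide +kernel
    exact h
  · have h : ∀ a ∈ [1, s, t, s * t], ∀ g ∈ L a, g * a = a * g := by decide +kernel
    intro a ha _ g hg
    exact Subgroup.mem_centralizer_singleton_iff.mpr (h a ha g (mem_θ.mp hg))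
  · intro a _ _
    rcases card_θ a with h | h <;> rw [h] <;> norm_num
  · have h : ∀ a ∈ [1, s, t, s * t], ∀ b ∈ [1, s, t, s * t], ∀ g ∈ L a, b * g * b⁻¹ ∈ L a := by
      decide +kernel
    intro a ha _ b hb g hg
    exact mem_θ.mpr (h a ha b hb g (mem_θ.mp hg))
  · have h : ∀ a ∈ [1, s, t, s * t], ∀ b ∈ [1, s, t, s * t], b ≠ 1 → ∀ g ∈ L a,
        g * b = b * g → g ∈ L b := by decide +kernel
    intro a ha _ b hb hb1 g hg
    exact mem_θ.mpr (h a ha b hb hb1 g (mem_θ.mp hg.1)
      (Subgroup.mem_centralizer_singleton_iff.mp hg.2))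
  · intro a _ _
    have : IsCyclic (θ a) := by
      rcases card_θ a with h | h
      · have : Fact (Nat.Prime 3) := ⟨by norm_num⟩
        exact isCyclic_of_prime_card h
      · have := (Nat.card_eq_one_iff_unique.mp h).1
        infer_instance
    exact isSolvable_of_comm (fun a b => IsCyclic.isMulCommutative.1.1 a b)
  · rintro ⟨-, Y, -, hY, hθ⟩
    have hx : x ∈ Y := by
      have : x ∈ θ s := mem_θ.mpr (by decide +kernel)
      rw [← hθ s (memA.mpr (by decide +kernel)) (by decide +kernel)] at this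
      exact this.1
    have hy : y ∈ Y := by
      have : y ∈ θ t := mem_θ.mpr (by decide +kernel)
      rw [← hθ t (memA.mpr (by decide +kernel)) (by decide +kernel)] at this
      exact this.1
    have hz : x * x * y * x * y ∈ Y := mul_mem (mul_mem (mul_mem (mul_mem hx hx) hy) hx) hy
    have ho : orderOf (x * x * y * x * y) = 2 := orderOf_eq_prime (by decide +kernel) (by decide +kernel)
    exact hY (ho ▸ Subgroup.orderOf_dvd_natCard Y hz)

end Cfsg.Agent.S1286
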