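import Mathlib
import Cfsg.Agent.GT.CoprimeGen
import Cfsg.Agent.GT.PConstrained
import Cfsg.Statements.S1288
-- import your own Cfsg.Agent.* helpers here

set_option autoImplicit false
open Cfsg

namespace Cfsg.Agent.S1288

open Subgroup Cfsg.Agent.GT
open scoped commutatorElement

theorem eq_one_of {X Y : Type*} [Group X] [Group Y] {q : ℕ} (hq : q.Prime) (f : X →* Y)
    {P : Subgroup Y} (hP : IsPGroup q P) {x : X} (hx : f x ∈ P) (h : ¬ q ∣ orderOf x) :
    f x = 1 := by
  obtain ⟨k, hk⟩ := hP ⟨_, hx⟩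
  have h1 : orderOf (f x) ∣ q ^ k := orderOf_dvd_of_pow_eq_one (congrArg Subtype.val hk)
  have h2 := orderOf_map_dvd f x
  have h3 : (q ^ k).Coprime (orderOf x) := ((Nat.Prime.coprime_iff_not_dvd hq).2 h).pow_left _
  exact orderOf_eq_one_iff.1 (Nat.eq_one_of_dvd_coprimes h3 h1 h2)

/-- Let A be a noncyclic elementary abelian p-subgroup of a finite group H normalizing a solvable subgroup K of order prime to p, q a prime dividing |K|, and U ≤ K a subgroup of order prime to q such that ⁅U, C_K(B)⁆ has order prime to q for every subgroup B of index p in A. Then U ≤ O_{q'}(K). -/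
theorem result {H : Type*} [Group H] [Finite H] (p : ℕ) [Fact p.Prime] (A K : Subgroup H) (hA : Cfsg.IsElementaryAbelian p A) (hA2 : p ^ 2 ≤ Nat.card ↥A) (hK : ¬ p ∣ Nat.card ↥K) (hKs : Group.IsSolvable ↥K) (hAK : A ≤ Subgroup.normalizer (K : Set H)) (q : ℕ) [Fact q.Prime] (hqK : q ∣ Nat.card ↥K) (U : Subgroup H) (hU : U ≤ K) (hUq : ¬ q ∣ Nat.card ↥U) (hcomm : ∀ B : Subgroup H, B ≤ A → B.relIndex A = p → ¬ q ∣ Nat.card ↥⁅U, K ⊓ Subgroup.centralizer (B : Set H)⁆) : U ≤ (Cfsg.pPrimeCore q ↥K).map K.subtype := by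
  have hq : q.Prime := Fact.out
  have hp : p.Prime := Fact.out
  set π := QuotientGroup.mk' (pPrimeCore q K) with hπ
  set N := (pPrimePCore q K).map K.subtype with hN
  set D := ((centralizer (((U.subgroupOf K).map π : Subgroup _) : Set _)).comap π).map K.subtype
  have hA1 : A ≠ ⊥ := by
    rintro rfl
    have := Nat.one_lt_pow two_ne_zero hp.one_lt
    rw [card_bot] at hA2
    omega
  have hND : N ≤ D := by
    refine CopAct.le_of_hyperplane_centralizer_le hA hA1
      (hAK.trans (normalizer_le_normalizer_map_subtype K _))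
      (fun h => hK (h.trans (card_dvd_of_le (map_subtype_le _)))) ?_
    rintro B hBA hB _ ⟨⟨x, hx, rfl⟩, hxc⟩
    refine ⟨x, ?_, rfl⟩
    rintro _ ⟨u, hu, rfl⟩
    have h1 : π ⁅u, x⁆ ∈ pCore q (K ⧸ pPrimeCore q K) := by
      rw [map_commutatorElement, commutatorElement_def, mul_assoc, mul_assoc, ← mul_assoc (π x),
        ← mul_assoc]
      have hx' : π x ∈ pCore q (K ⧸ pPrimeCore q K) := hx
      have := mul_mem (Normal.conj_mem inferInstance _ hx' (π u)) (inv_mem hx')
      simpa [mul_assoc] using this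
    have h2 : ¬ q ∣ orderOf ⁅u, x⁆ := by
      intro h
      refine hcomm B hBA hB (h.trans ?_)
      rw [← orderOf_coe]
      exact orderOf_dvd_natCard _ (commutator_mem_commutator (show (u : H) ∈ U from hu)
        (show (x : H) ∈ K ⊓ centralizer (B : Set H) from ⟨x.2, hxc⟩))
    have h3 := eq_one_of hq π (isPGroup_pCore q) h1 h2
    rw [map_commutatorElement, commutatorElement_eq_one_iff_mul_comm] at h3
    exact h3
  have hc := isPConstrained_iff.1 (isPConstrained_of_isSolvable (p := q) hKs)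
  intro u hu
  refine ⟨⟨u, hU hu⟩, ?_, rfl⟩
  have h1 : π ⟨u, hU hu⟩ ∈ pCore q (K ⧸ pPrimeCore q K) := by
    refine hc fun y hy => ?_
    obtain ⟨x, rfl⟩ := QuotientGroup.mk'_surjective _ y
    obtain ⟨x', hx', e⟩ := hND ⟨x, hy, rfl⟩
    obtain rfl : x' = x := Subtype.ext e
    exact (hx' _ ⟨⟨u, hU hu⟩, hu, rfl⟩).symm
  have h2 := eq_one_of hq π (isPGroup_pCore q) h1 (fun h => hUq (h.trans (by
    rw [← orderOf_coe]; exact orderOf_dvd_natCard _ hu)))
  exact (QuotientGroup.eq_one_iff _).1 h2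

end Cfsg.Agent.S1288
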