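import Mathlib
-- Template for statement S1289 (row 1289; see /opt/grader/pristine/manifest.json for weights).
-- Copy to Cfsg/Agent/S1289.lean and replace the sorry. The statement below is byte-identical to the frozen
-- statement Cfsg.CfsgFrozen.S1289 (Cfsg/Statements/S1289.lean; the theorem Cfsg.p_component_minimal_perfect_subnormal);
-- the grader kernel-checks Cfsg.Agent.S1289.result against that frozen type. Keep the theorem IN THIS FILE
-- (a `result` declared elsewhere and merely imported here is not credited); helpers may live anywhere
-- under Cfsg/Agent/.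
import Cfsg.Statements.S1289
import Cfsg.Agent.GT.PComponents

set_option autoImplicit false
open Cfsg

namespace Cfsg.Agent.S1289

/-- A p-component K of the finite group X is subnormal, perfect, of order divisible by p, and minimal among the subnormal perfect subgroups of X of order divisible by p. -/
theorem result {X : Type*} [Group X] [Finite X] (p : ℕ) [Fact p.Prime] (K : Subgroup X) (hK : Cfsg.IsPComponent p K) : K.IsSubnormal ∧ ⁅K, K⁆ = K ∧ p ∣ Nat.card ↥K ∧ ∀ H : Subgroup X, H ≤ K → H.IsSubnormal → ⁅H, H⁆ = H → p ∣ Nat.card ↥H → H = K := by
  refine ⟨hK.1, hK.commutator_eq, hK.dvd_card Fact.out, fun H hle hs hp hd => ?_⟩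
  rcases hK.le_or_commutator_le Fact.out hs with h | h
  · exact le_antisymm hle h
  · have h2 : H ≤ GT.pPrimeCoreOf p K := hp.ge.trans ((Subgroup.commutator_mono hle le_rfl).trans h)
    exact absurd (hd.trans (Subgroup.card_dvd_of_le h2))
      ((Nat.Prime.coprime_iff_not_dvd Fact.out).mp (GT.coprime_card_pPrimeCoreOf p K).symm)

end Cfsg.Agent.S1289
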