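import Mathlib
-- Template for statement S1300 (row 1300; see /opt/grader/pristine/manifest.json for weights).
-- Copy to Cfsg/Agent/S1300.lean and replace the sorry. The statement below is byte-identical to the frozen
-- statement Cfsg.CfsgFrozen.S1300 (Cfsg/Statements/S1300.lean; the theorem Cfsg.balanced_iff_one_balanced);
-- the grader kernel-checks Cfsg.Agent.S1300.result against that frozen type. Keep the theorem IN THIS FILE
-- (a `result` declared elsewhere and merely imported here is not credited); helpers may live anywhere
-- under Cfsg/Agent/.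
import Cfsg.Statements.S1300
import Cfsg.Agent.GT.Conj
import Cfsg.Agent.GT.PGroupElemAb

set_option autoImplicit false
open Cfsg

namespace Cfsg.Agent.S1300

/-- For a finite group G, balance in the sense of commuting involutions is the same as 1-balance for the prime 2. -/
theorem result {G : Type*} [Group G] [Finite G] : Cfsg.IsBalanced G ↔ Cfsg.IsKBalanced 2 1 G := by
  classical
  have key : ∀ x : G, orderOf x = 2 →
      signalizerDelta 2 (Subgroup.zpowers x) = centralizerPPrimeCore 2 x := by
    intro x hx
    have hx1 : x ≠ 1 := by rintro rfl; simp at hx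
    refine le_antisymm (iInf_le (fun a : {a : G // a ∈ Subgroup.zpowers x ∧ a ≠ 1} =>
      centralizerPPrimeCore 2 (a : G)) ⟨x, Subgroup.mem_zpowers x, hx1⟩) (le_iInf fun a => ?_)
    obtain ⟨a, ha, ha1⟩ := a
    have hmem := (mem_zpowers_iff_mem_range_orderOf).mp ha
    rw [hx] at hmem
    simp only [Finset.mem_image, Finset.mem_range] at hmem
    obtain ⟨i, hi, rfl⟩ := hmem
    interval_cases i
    · simp at ha1
    · simp
  constructor
  · intro h A hA hc b hb hcomm
    rw [pow_one] at hc
    have := isCyclic_of_prime_card hc
    obtain ⟨x, rfl⟩ := (Subgroup.isCyclic_iff_exists_zpowers_eq_top A).mp this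
    rw [Nat.card_zpowers] at hc
    rw [key x hc, h x b hc hb (hcomm x (Subgroup.mem_zpowers x))]
    exact inf_le_left
  · intro h
    have k2 : ∀ x y : G, orderOf x = 2 → orderOf y = 2 → x * y = y * x →
        centralizerPPrimeCore 2 x ⊓ Subgroup.centralizer {y} ≤
          centralizerPPrimeCore 2 y ⊓ Subgroup.centralizer {x} := by
      intro x y hx hy hxy
      refine le_inf ?_ (inf_le_left.trans (Subgroup.map_subtype_le _))
      rw [← key x hx]
      refine h _ (IsElementaryAbelian.zpowers (by rw [← hx, pow_orderOf_eq_one]))
        (by rw [Nat.card_zpowers, hx, pow_one]) y hy ?_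
      rintro _ ⟨n, rfl⟩
      exact ((show Commute x y from hxy).zpow_left n).eq
    intro x y hx hy hxy
    exact le_antisymm (k2 x y hx hy hxy) (k2 y x hy hx hxy.symm)

end Cfsg.Agent.S1300
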