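import Mathlib
import Cfsg.Statements.S1297
import Cfsg.Agent.GT.LocalBalance
import Cfsg.Agent.S1298
import Cfsg.Agent.S1300

set_option autoImplicit false
open Cfsg

namespace Cfsg.Agent.S1297

open Cfsg.Agent.GT

/-- Let G be finite. Suppose that for every involution x, writing C = C_G(x), every component K of C / O(C) has K / Z(K) locally balanced. Then G is balanced. -/
theorem result {G : Type*} [Group G] [Finite G] (h : ∀ x : G, orderOf x = 2 → ∀ K : Subgroup (↥(Subgroup.centralizer ({x} : Set G)) ⧸ Cfsg.oddCore ↥(Subgroup.centralizer ({x} : Set G))), Cfsg.IsComponent K → Cfsg.IsLocallyBalanced (↥K ⧸ Subgroup.center ↥K)) : Cfsg.IsBalanced G := by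
    refine S1300.result.mpr (S1298.result 2 1 le_rfl fun x hx K hK H hH A _ hc => ?_)
    have hA1 : A ≠ ⊥ := fun e => by simp [e] at hc
    obtain ⟨⟨a, ha⟩, h1⟩ := (Subgroup.ne_bot_iff_exists_ne_one).mp hA1
    have h1' : a ≠ 1 := fun e => h1 (Subtype.ext e)
    exact le_bot_iff.mp ((signalizerDelta_le ha h1').trans
      (h x hx K hK H hH a (IsElementaryAbelian.orderOf_eq ‹_› ha h1')).le)

end Cfsg.Agent.S1297
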