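import Mathlib
import Cfsg.Statements.S1299
import Cfsg.Agent.Loc.KBal
import Cfsg.Agent.Loc.SSFT
import Cfsg.Agent.GT.LocalBalance
-- import your own Cfsg.Agent.* helpers here

set_option autoImplicit false
open Cfsg

namespace Cfsg.Agent.S1299

open Subgroup Cfsg.Agent.GT Cfsg.Agent.Loc

/-- Let G be finite and k-balanced for the prime p (k ≥ 1), A an elementary abelian p-subgroup of order at least p^(k+2) such that O_{p'}(C_G(a)) is solvable for every non-identity a ∈ A. For a ∈ A put θ a = the subgroup generated by the Δ_G(D) ∩ C_G(a) over the subgroups D ≤ A of order p^k. Then θ is an A-signalizer functor. -/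
theorem result {G : Type*} [Group G] [Finite G] (p k : ℕ) [Fact p.Prime] (hk : 1 ≤ k) (hbal : Cfsg.IsKBalanced p k G) (A : Subgroup G) (hA : Cfsg.IsElementaryAbelian p A) (hAk : p ^ (k + 2) ≤ Nat.card ↥A) (hsolv : ∀ a ∈ A, a ≠ 1 → Group.IsSolvable ↥(Cfsg.centralizerPPrimeCore p a)) : Cfsg.IsSignalizerFunctor p A (fun a => ⨆ D : {D : Subgroup G // D ≤ A ∧ Nat.card ↥D = p ^ k}, Cfsg.signalizerDelta p (D : Subgroup G) ⊓ Subgroup.centralizer {a}) := by
  have hp : p.Prime := Fact.out
  have hne : ∀ D : Subgroup G, p ^ k ≤ Nat.card D → D ≠ ⊥ := fun D hD e => by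
    rw [e, card_bot] at hD
    exact absurd (Nat.one_lt_pow (by omega) hp.one_lt) (not_lt.2 hD)
  have hn : ∀ D ≤ A, A ≤ normalizer (signalizerDelta p D : Set G) := fun D hD =>
    (hA.le_centralizer.trans (centralizer_anti hD)).trans
      (centralizer_le_normalizer_signalizerDelta D)
  have hnd : ∀ D : Subgroup G, D ≠ ⊥ → ¬ p ∣ Nat.card (signalizerDelta p D) := fun D hD =>
    hp.coprime_iff_not_dvd.1 (coprime_card_signalizerDelta hD).symm
  have key : ∀ D ≤ A, Nat.card D = p ^ k → ∀ B ≤ A,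
      signalizerDelta p D ⊓ centralizer (B : Set G) ≤ signalizerDelta p B := fun D hD hc B hB =>
    le_signalizerDelta_iff.2 fun b hb hb1 =>
      (inf_le_inf_left _ (centralizer_le_centralizer_singleton hb)).trans
        (hbal D (hA.mono hD) hc b (hA.orderOf_eq (hB hb) hb1) fun a ha => hA.comm (hD ha) (hB hb))
  have hS : KBal.Sys p A (signalizerDelta p) :=
    ⟨hA, fun B _ _ => signalizerDelta_le_centralizer B, fun B hB _ => hn B hB⟩
  have hC := hS.all (fun _ _ h1 h2 h3 => ssft h1 h2 h3) hAk fun E hE hc => by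
    have hle : KBal.th p A (signalizerDelta p) E ≤ signalizerDelta p E :=
      KBal.th_le fun B h1 _ _ => signalizerDelta_anti h1
    obtain ⟨⟨e, he⟩, he1⟩ := ne_bot_iff_exists_ne_one.1 (hne E hc)
    have he1' : e ≠ 1 := fun z => he1 (Subtype.ext z)
    obtain ⟨D, hD, -, hDc⟩ := (hA.mono hE).exists_le_card_eq hc
    exact ⟨CopAct.isSolvable_of_le (hle.trans (signalizerDelta_le he he1')) (hsolv e (hE he) he1'),
      fun z => hnd E (hne E hc) (z.trans (card_dvd_of_le hle)), fun B _ h2 _ =>
        (inf_le_inf_right _ (hle.trans (signalizerDelta_anti hD))).trans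
          (key D (hD.trans hE) hDc B h2)⟩
  have h3 : p ^ 3 ≤ Nat.card A := (Nat.pow_le_pow_right hp.pos (by omega)).trans hAk
  have hz : ∀ a ∈ A, ⊥ ⊔ zpowers a ≤ A := fun a ha => sup_le bot_le ((zpowers_le (G := G)).2 ha)
  obtain ⟨⟨h1, h2, h4, h5⟩, -⟩ := hS.sf bot_le le_rfl (by simpa using h3) fun a ha _ => hC _ (hz a ha)
  have e : ∀ a ∈ A, (⨆ D : {D : Subgroup G // D ≤ A ∧ Nat.card ↥D = p ^ k},
      signalizerDelta p (D : Subgroup G) ⊓ centralizer {a}) =
        KBal.th p A (signalizerDelta p) (⊥ ⊔ zpowers a) := by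
    intro a ha
    refine le_antisymm (iSup_le fun ⟨D, hD, hc⟩ => ?_) (KBal.th_le fun B h1 h2 h3 => ?_)
    · refine KBal.le_of_hyp hA (hz a ha) (fun e => ?_)
        (CopAct.le_normalizer_inf (hn D hD) (Sig.le_normalizer_cent_elt hA.1 ha))
        (fun z => hnd D (hne D hc.ge) (z.trans (card_dvd_of_le inf_le_left)))
        (by rw [bot_sup_eq, GT.centralizer_zpowers]; exact inf_le_right) fun B h1 h2 h3 => ?_
      · have := KBal.card_sup_zpowers_le hA bot_le ha
        rw [e, card_bot, one_mul] at this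
        exact absurd (Nat.pow_lt_pow_right hp.one_lt (by norm_num : 1 < 3))
          (by simpa using h3.trans this)
      · exact ((inf_le_inf_right _ inf_le_left).trans (key D hD hc B h2)).trans (KBal.le_th h1 h2 h3)
    · have hc : p ^ k ≤ Nat.card B := by
        rw [← card_mul_relIndex h2, h3] at hAk
        exact (Nat.pow_le_pow_right hp.pos (by omega)).trans
          (Nat.le_of_mul_le_mul_right (a := p ^ (k + 1)) hAk hp.pos)
      obtain ⟨D, hD, -, hDc⟩ := (hA.mono h2).exists_le_card_eq hc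
      refine le_trans ?_ (le_iSup _ ⟨D, hD.trans h2, hDc⟩)
      exact le_inf (signalizerDelta_anti hD) ((signalizerDelta_le_centralizer B).trans
        (centralizer_le_centralizer_singleton (h1 (mem_sup_right (mem_zpowers a)))))
  refine ⟨fun a ha a1 => ?_, fun a ha a1 => ?_, fun a ha a1 => ?_, fun a ha a1 b hb b1 => ?_⟩
  · simp only [e a ha]; exact h1 a ha a1
  · simp only [e a ha]; exact h2 a ha a1
  · simp only [e a ha]; exact h4 a ha a1
  · simp only [e a ha, e b hb]; exact h5 a ha a1 b hb b1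

end Cfsg.Agent.S1299
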