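import Mathlib
import Cfsg.Statements.S1303
import Cfsg.Agent.GT.PConstrained
import Cfsg.Agent.GT.QuadSL2
import Cfsg.Agent.Cl.LinearBasic
import Cfsg.Agent.Ch.Burnside
-- import your own Cfsg.Agent.* helpers here

set_option autoImplicit false
open Cfsg

namespace Cfsg.Agent.S1303

/-- The group X = SL(2, 3): it is 2-constrained, O_{2'}(X) = 1, its centre A = Z(X) contains every involution of X = C_X(A), and X has a subgroup of order 3 (normalized by A) not contained in O_{2'}(X). -/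
theorem result : Cfsg.IsPConstrained 2 (Matrix.SpecialLinearGroup (Fin 2) (ZMod 3)) ∧ Cfsg.pPrimeCore 2 (Matrix.SpecialLinearGroup (Fin 2) (ZMod 3)) = ⊥ ∧ (∀ t : Matrix.SpecialLinearGroup (Fin 2) (ZMod 3), orderOf t = 2 → t ∈ Subgroup.center (Matrix.SpecialLinearGroup (Fin 2) (ZMod 3))) ∧ ∃ Q : Subgroup (Matrix.SpecialLinearGroup (Fin 2) (ZMod 3)), Nat.card ↥Q = 3 ∧ ¬ (Q ≤ Cfsg.pPrimeCore 2 (Matrix.SpecialLinearGroup (Fin 2) (ZMod 3))) := by
  have hc : Nat.card (Matrix.SpecialLinearGroup (Fin 2) (ZMod 3)) = 24 := by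
    haveI : Fact (Nat.Prime 3) := ⟨Nat.prime_three⟩
    rw [Cl.card_sl_two, Nat.card_zmod]; rfl
  have ho : ∀ x : Matrix.SpecialLinearGroup (Fin 2) (ZMod 3), x ≠ 1 → x ^ 3 = 1 → orderOf x = 3 :=
    fun x h1 h3 => by
      haveI : Fact (Nat.Prime 3) := ⟨Nat.prime_three⟩
      exact orderOf_eq_prime h3 h1
  have hu := ho (GT.slUp 1) (fun h => one_ne_zero (GT.slUp_eq_one_iff.1 h))
    (by rw [GT.slUp_pow, GT.slUp_eq_one_iff]; rfl)
  have hl := ho (GT.slLo 1) (fun h => one_ne_zero (GT.slLo_eq_one_iff.1 h))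
    (by rw [GT.slLo_pow, GT.slLo_eq_one_iff]; rfl)
  have hO : Cfsg.pPrimeCore 2 (Matrix.SpecialLinearGroup (Fin 2) (ZMod 3)) = ⊥ := by
    haveI : Fact (Nat.Prime 3) := ⟨Nat.prime_three⟩
    set N := Cfsg.pPrimeCore 2 (Matrix.SpecialLinearGroup (Fin 2) (ZMod 3))
    have h1 : Nat.card N ∣ 3 := by
      have h2 : Nat.card N ∣ 3 * 2 ^ 3 := (Subgroup.card_subgroup_dvd_card N).trans hc.dvd
      exact ((GT.coprime_card_pPrimeCore 2).pow_right 3).dvd_of_dvd_mul_right h2
    rcases (Nat.dvd_prime Nat.prime_three).1 h1 with h | h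
    · exact Subgroup.card_eq_one.1 h
    · have hi : N.index = 8 := by
        have := N.card_mul_index
        rw [h, hc] at this
        omega
      exact absurd (IsPGroup.of_card (n := 1) h) (GT.not_isPGroup_of_slUp_slLo_mem one_ne_zero
        one_ne_zero (GT.mem_of_coprime_orderOf_index (by rw [hu, hi]; decide))
        (GT.mem_of_coprime_orderOf_index (by rw [hl, hi]; decide)))
  refine ⟨GT.isPConstrained_of_isSolvable (Ch.burnside_isSolvable_of_card_eq (a := 3) (b := 1)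
    Nat.prime_two Nat.prime_three hc), hO, fun t ht => ?_,
    Subgroup.zpowers (GT.slUp 1), by rw [Nat.card_zpowers, hu], fun h => ?_⟩
  · have h2 : t * t = 1 := by
      have := pow_orderOf_eq_one t
      rwa [ht, pow_two] at this
    have key : ∀ a b c d : ZMod 3, a * d - b * c = 1 → a * a + b * c = 1 → a * b + b * d = 0 →
        c * a + d * c = 0 → c * b + d * d = 1 → b = 0 ∧ c = 0 ∧ a = d := by decide
    have e := fun i j => congrArg (fun z : Matrix.SpecialLinearGroup (Fin 2) (ZMod 3) => z i j) h2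
    simp only [Matrix.SpecialLinearGroup.coe_mul, Matrix.mul_apply, Fin.sum_univ_two] at e
    obtain ⟨hb, hc, ha⟩ := key (t 0 0) (t 0 1) (t 1 0) (t 1 1)
      (by rw [← Matrix.det_fin_two]; exact t.2) (e 0 0) (e 0 1) (e 1 0) (e 1 1)
    rw [Subgroup.mem_center_iff]
    intro g
    ext i j
    simp only [Matrix.SpecialLinearGroup.coe_mul, Matrix.mul_apply, Fin.sum_univ_two]
    fin_cases i <;> fin_cases j <;> simp [hb, hc, ha, mul_comm]
  · rw [hO, le_bot_iff, Subgroup.zpowers_eq_bot] at h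
    exact one_ne_zero (GT.slUp_eq_one_iff.1 h)

end Cfsg.Agent.S1303
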