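import Mathlib
import Cfsg.Statements.S1305
import Cfsg.Agent.GT.PumpTwo
import Cfsg.Agent.GT.LBalance
import Cfsg.Agent.GT.PGroupRank

set_option autoImplicit false
open Cfsg

namespace Cfsg.Agent.S1305

open Cfsg.Agent.GT Subgroup

/-- Let G be a finite group of component type with the B-property and no nontrivial normal subgroup of odd order. Let a be an involution and K a component of C_G(a) such that (a) |K| is maximal among the orders of components of centralizers of involutions of G, (b) subject to (a) the 2-rank of the centralizer of K in C_G(a) is as large as possible, and (c) K has 2-rank at least 2. If B is an elementary abelian 2-subgroup of that centralizer of the largest possible order, then K is a component of C_G(b) for every non-identity b ∈ B. -/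
theorem result {G : Type*} [Group G] [Finite G] (hO : Cfsg.oddCore G = ⊥) (hB : Cfsg.HasBProperty G) (hct : Cfsg.IsComponentType G) (a : G) (ha : orderOf a = 2) (K : Subgroup G) (hKa : K ≤ Subgroup.centralizer ({a} : Set G)) (hK : Cfsg.IsComponent (K.subgroupOf (Subgroup.centralizer ({a} : Set G)))) (hmax : ∀ y : G, orderOf y = 2 → ∀ K' : Subgroup G, K' ≤ Subgroup.centralizer ({y} : Set G) → Cfsg.IsComponent (K'.subgroupOf (Subgroup.centralizer ({y} : Set G))) → Nat.card ↥K' ≤ Nat.card ↥K ∧ (Nat.card ↥K' = Nat.card ↥K → ∀ k : ℕ, Cfsg.PRankLE 2 k ↥(Subgroup.centralizer ({a} : Set G) ⊓ Subgroup.centralizer (K : Set G)) → Cfsg.PRankLE 2 k ↥(Subgroup.centralizer ({y} : Set G) ⊓ Subgroup.centralizer (K' : Set G)))) (hrk : ¬ Cfsg.PRankLE 2 1 ↥K) (B : Subgroup G) (hBle : B ≤ Subgroup.centralizer ({a} : Set G) ⊓ Subgroup.centralizer (K : Set G)) (hBel : Cfsg.IsElementaryAbelian 2 B) (hBmax : ∀ B' : Subgroup G, B' ≤ Subgroup.centralizer ({a} : Set G) ⊓ Subgroup.centralizer (K : Set G) → Cfsg.IsElementaryAbelian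 2 B' → Nat.card ↥B' ≤ Nat.card ↥B) (b : G) (hb : b ∈ B) (hb1 : b ≠ 1) : K ≤ Subgroup.centralizer ({b} : Set G) ∧ Cfsg.IsComponent (K.subgroupOf (Subgroup.centralizer ({b} : Set G))) := by
    have hp := Nat.prime_two
    have hKc : IsComponentOf K (centralizer {a}) := ⟨hKa, hK⟩
    have hBK : B ≤ centralizer (K : Set G) := hBle.trans inf_le_right
    have hKb : K ≤ centralizer {b} := le_centralizer_singleton_iff.mpr (hBK hb)
    have hb2 : orderOf b = 2 := hBel.orderOf_eq hb hb1
    have ha2 : a ^ 2 = 1 := ha ▸ pow_orderOf_eq_one a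
    have haK : a ∈ centralizer (K : Set G) := le_centralizer_singleton_iff.mp hKa
    have haB : a ∈ B := by
      have h1 := hBel.sup_zpowers ha2 (le_centralizer_singleton_iff.mp (hBle.trans inf_le_left))
      have h2 := hBmax _ (sup_le hBle (zpowers_le.mpr
        ⟨mem_centralizer_singleton_iff.mpr rfl, haK⟩)) h1
      exact (eq_of_le_of_card_ge le_sup_left h2).ge (mem_sup_right (mem_zpowers a))
    have hBb : B ≤ centralizer {b} :=
      hBel.le_centralizer.trans (centralizer_le_centralizer_singleton hb)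
    obtain ⟨V, hVK, hV, hV4⟩ := PG.not_pRankLE_subgroup_iff.mp hrk
    have hK2 : IsPComponentOf 2 K (centralizer {b} ⊓ centralizer {a}) :=
      (hKc.mono (le_inf hKb hKa) inf_le_right).isPComponentOf hp
        ((hV4 ▸ by decide : 2 ∣ Nat.card V).trans (card_dvd_of_le hVK))
    have hKE : K ≤ subgroupLayer (centralizer {b}) := by
      have h1 := pLayerOf_inf_centralizer_le_pLayerOf_two (H := centralizer {b})
        (isPGroup_zpowers_of_orderOf_eq (k := 1) (x := a) (by rw [ha, pow_one]))
        (zpowers_le.mpr (le_normalizer (hBb haB)))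
      rw [centralizer_zpowers] at h1
      refine hK2.le_pLayerOf.trans (h1.trans (pLayerOf_le_iff.mpr fun J hJ =>
        ((hJ.isComponentOf_iff hp).mpr (le_bot_iff.mp ?_)).le_subgroupLayer))
      have h2 := hB b hb2
      rw [hO, map_commutator] at h2
      exact (commutator_mono hJ.le_pLayerOf hJ.pPrimeCoreOf_le).trans h2
    refine ⟨hKb, ?_⟩
    obtain ⟨D, hD, h | ⟨h, -⟩ | ⟨h, h'⟩⟩ := pump_two_rel ha (hBb haB) hK2 hKE
    · exact h ▸ hD.2
    · exact absurd (eq_of_le_of_card_ge h.le (hmax b hb2 D hD.1 hD.2).1) h.ne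
    exfalso
    obtain ⟨h1, h2⟩ := hmax b hb2 D hD.1 hD.2
    obtain ⟨⟨e⟩, hinj⟩ := h'.nonempty_equiv_of_card h1
    obtain ⟨k, hk⟩ := hBel.card_eq_pow
    have h3 := h2 (Nat.card_congr e.toEquiv) k
      (PG.pRankLE_subgroup_iff.mpr fun B' hB' hB'' => hk ▸ hBmax B' hB' hB'')
    set D' := D.map (MulAut.conj a).toMonoidHom with hD'def
    have han := le_normalizer (hBb haB)
    have hD' : IsComponentOf D' (centralizer {b}) := hD.map_conj han
    have hne : D' ≠ D := fun e => h (map_conj_eq_self_iff.mp e)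
    have hc : D' ≤ centralizer (D : Set G) := hD'.le_centralizer_of_ne hD hne
    obtain ⟨W, hWD, hW, hW4⟩ := PG.not_pRankLE_subgroup_iff.mp fun h : PRankLE 2 1 D' =>
      hrk (h.of_mulEquiv ((conjEquiv D a).symm.trans e))
    set B₀ := B ⊓ normalizer (D : Set G)
    have hB₀ : B₀ ≤ centralizer (D : Set G) := fun c hc' => h'.mem_centralizer hD.commutator_eq hc
      (hBK hc'.1) hc'.2 (by
        rw [← map_conj_eq_self_iff, map_conj_map_conj, hBel.comm hc'.1 haB, map_conj_mul,
          map_conj_eq_of_mem_norm hc'.2])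
    have hB₀' : B₀ ≤ centralizer (D' : Set G) := fun c hc' => by
      rw [centralizer_map_conj, mem_map_conj, mul_assoc, hBel.comm hc'.1 haB, inv_mul_cancel_left]
      exact hB₀ hc'
    have hi : W ⊓ B₀ = ⊥ := (eq_bot_iff_forall _).mpr fun z hz => by
      have h4 : a * z * a⁻¹ = z := by rw [hBel.comm haB hz.2.1, mul_inv_cancel_right]
      refine hinj z ?_ (by rw [h4, ← pow_two, hBel.2 z hz.2.1])
      rw [← map_conj_map_conj_of_orderOf_two ha D, ← h4]
      exact conj_mem_map_conj.mpr (hWD hz.1)
    have hBW : B₀ ≤ centralizer (W : Set G) := hB₀'.trans (centralizer_anti hWD)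
    have h5 := h3.card_le_of_le (sup_le (le_inf (hWD.trans hD'.le) (hWD.trans hc))
      (le_inf (inf_le_left.trans hBb) hB₀)) (hW.sup (hBel.mono inf_le_left) hBW)
    rw [CopAct.card_sup_of_inf_eq_bot (le_normalizer_of_le_centralizer hBW) hi, hW4] at h5
    have h6 : B ≤ B₀ ⊔ zpowers a := fun c hc' => by
      rcases h'.map_conj_eq_or hD han h (le_normalizer (hBb hc'))
        (centralizer_le_normalizer _ (hBK hc')) with h7 | h7
      · exact mem_sup_left ⟨hc', map_conj_eq_self_iff.mp h7⟩
      · have := mul_mem (mem_sup_right (mem_zpowers a) : a ∈ B₀ ⊔ zpowers a)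
          (mem_sup_left ⟨B.mul_mem (B.inv_mem haB) hc', map_conj_eq_map_conj_iff.mp h7⟩)
        rwa [mul_inv_cancel_left] at this
    have h7 := (card_le_of_le h6).trans (Nat.le_of_dvd (Nat.mul_pos Nat.card_pos Nat.card_pos)
      (HT.card_sup_dvd (le_normalizer_of_le_centralizer (zpowers_le.mpr
        (centralizer_anti inf_le_left (hBel.le_centralizer haB))))))
    rw [Nat.card_zpowers, ha, hk] at h7
    have : 0 < Nat.card B₀ := Nat.card_pos
    omega

end Cfsg.Agent.S1305
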