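import Mathlib
import Cfsg.Statements.S1307
import Cfsg.Agent.GT.RankOneTwo

set_option autoImplicit false
open Cfsg

namespace Cfsg.Agent.S1307

open Cfsg.Agent.GT

/-- Let G be finite, x an involution and L ≤ C_G(x) a component of C_G(x) of even order and 2-rank 1, such that L is a component of C_G(y) for every involution y ∈ C_G(L). Then some involution of L is a classical involution of G. -/
theorem result {G : Type*} [Group G] [Finite G] (x : G) (hx : orderOf x = 2) (L : Subgroup G) (hLx : L ≤ Subgroup.centralizer ({x} : Set G)) (hL : Cfsg.IsComponent (L.subgroupOf (Subgroup.centralizer ({x} : Set G)))) (heven : Even (Nat.card ↥L)) (hrk : Cfsg.PRankLE 2 1 ↥L) (hne : ∀ y : G, orderOf y = 2 → y ∈ Subgroup.centralizer (L : Set G) → L ≤ Subgroup.centralizer ({y} : Set G) ∧ Cfsg.IsComponent (L.subgroupOf (Subgroup.centralizer ({y} : Set G)))) : ∃ t ∈ L, Cfsg.IsClassicalInvolution t := by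
    have hq : IsQuasisimple L := (show IsComponentOf L _ from ⟨hLx, hL⟩).isQuasisimple
    obtain ⟨t, ht⟩ := exists_prime_orderOf_dvd_card' 2 (even_iff_two_dvd.mp heven)
    have ht' : orderOf (t : G) = 2 := by rw [← ht, Subgroup.orderOf_coe]
    obtain ⟨h1, h2⟩ := hne t ht' (hq.mem_centralizer_of_pRankLE_one hrk t.2 ht')
    have := hq.isPerfect
    exact ⟨t, t.2, ht', L, h1, t.2, h2.isSubnormal, default,
      nonempty_quaternion_of_perfect (even_iff_two_dvd.mp heven) hrk _⟩

end Cfsg.Agent.S1307
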