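import Mathlib
import Cfsg.Statements.S1316
import Cfsg.Agent.GT.FStar

set_option autoImplicit false
open Cfsg

namespace Cfsg.Agent.S1316

open Cfsg.Agent.GT

/-- For a finite group X, E(X) equals the intersection of the derived series of F*(X) (its last term). -/
theorem result {X : Type*} [Group X] [Finite X] : (⨅ n : ℕ, (derivedSeries ↥(Cfsg.generalizedFittingSubgroup X) n).map (Cfsg.generalizedFittingSubgroup X).subtype) = Cfsg.layer X := by
  refine le_antisymm ?_ (le_iInf fun n => perfect_le_derivedSeries commutator_layer layer_le_genFitting n)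
  have h1 : (generalizedFittingSubgroup X).map (QuotientGroup.mk' (layer X)) =
      (fittingSubgroup X).map (QuotientGroup.mk' (layer X)) := by
    rw [genFitting_eq, Subgroup.map_sup, (Subgroup.map_eq_bot_iff _).mpr (QuotientGroup.ker_mk' _).ge,
      bot_sup_eq]
  have h2 : Group.IsSolvable ((generalizedFittingSubgroup X).map (QuotientGroup.mk' (layer X))) := by
    rw [h1]; exact isSolvable_map _ _
  obtain ⟨n, hn⟩ := h2
  refine (iInf_le _ n).trans ?_
  rintro _ ⟨x, hx, rfl⟩
  have h3 := map_derivedSeries_le_derivedSeries
    ((QuotientGroup.mk' (layer X)).subgroupMap (generalizedFittingSubgroup X)) n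
    (Subgroup.mem_map_of_mem _ hx)
  rw [hn, Subgroup.mem_bot] at h3
  exact (QuotientGroup.eq_one_iff _).mp (congrArg Subtype.val h3)

end Cfsg.Agent.S1316
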