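import Mathlib
import Cfsg.Statements.S1318
import Cfsg.Agent.GT.FStar

set_option autoImplicit false
open Cfsg

namespace Cfsg.Agent.S1318

open Cfsg.Agent.GT

/-- Let X be finite and S ≤ F*(X) a subgroup subnormal in F*(X). Then F(S) = F(X) ∩ S (inside X) and S = F(S)E(S). -/
theorem result {X : Type*} [Group X] [Finite X] (S : Subgroup X) (hS : S ≤ Cfsg.generalizedFittingSubgroup X) (hsn : (S.subgroupOf (Cfsg.generalizedFittingSubgroup X)).IsSubnormal) : (Cfsg.fittingSubgroup ↥S).map S.subtype = Cfsg.fittingSubgroup X ⊓ S ∧ Cfsg.fittingSubgroup ↥S ⊔ Cfsg.layer ↥S = ⊤ := by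
  have h : S.IsSubnormal := SubnormalIn.isSubnormal ⟨hS, hsn⟩ genFitting_normal.isSubnormal
  refine ⟨fittingOf_eq_inf_of_isSubnormal h, ?_⟩
  rw [sup_comm, ← genFitting_eq]
  exact genFittingOf_eq_self_iff.mp (genFittingOf_eq_self_of_le_genFitting h hS)

end Cfsg.Agent.S1318
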