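import Mathlib
import Cfsg.Statements.S1328
import Cfsg.Agent.GT.LocalLayer

set_option autoImplicit false
open Cfsg

namespace Cfsg.Agent.S1328

open Cfsg.Agent.GT Subgroup

/-- Let G be finite, H ≤ G with O(H) = 1, t an involution of G normalizing H, and Y a nontrivial subgroup of O(C_H(t)). Then some component E of H is normalized by t and by Y and centralized by neither t nor Y. -/
theorem result {G : Type*} [Group G] [Finite G] (H : Subgroup G) (hO : Cfsg.oddCore ↥H = ⊥) (t : G) (ht : orderOf t = 2) (htH : t ∈ Subgroup.normalizer (H : Set G)) (Y : Subgroup G) (hY1 : Y ≠ ⊥) (hY : Y ≤ (Cfsg.oddCore ↥(H ⊓ Subgroup.centralizer ({t} : Set G))).map (H ⊓ Subgroup.centralizer ({t} : Set G)).subtype) : ∃ E : Subgroup ↥H, Cfsg.IsComponent E ∧ (E.map H.subtype).map (MulAut.conj t).toMonoidHom = E.map H.subtype ∧ Y ≤ Subgroup.normalizer ((E.map H.subtype : Subgroup G) : Set G) ∧ ¬ (t ∈ Subgroup.centralizer ((E.map H.subtype : Subgroup G) : Set G)) ∧ ¬ (Y ≤ Subgroup.centralizer ((E.map H.subtype : Subgroup G) : Set G)) := by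
    have hp := Nat.prime_two
    set M := H ⊔ zpowers t with hM
    have hHM : M ≤ normalizer (H : Set G) := sup_le le_normalizer (zpowers_le.mpr htH)
    have htM : t ∈ M := mem_sup_right (mem_zpowers t)
    have hn : (H.subgroupOf M).Normal := (normal_subgroupOf_iff_le_normalizer le_sup_left).mpr hHM
    have hq : IsPGroup 2 (M ⧸ H.subgroupOf M) := by
      have h2 : ((zpowers t).subgroupOf M).map (QuotientGroup.mk' (H.subgroupOf M)) = ⊤ := by
        rw [map_mk'_eq_top_iff, sup_comm, ← subgroupOf_sup le_sup_left le_sup_right, subgroupOf_self]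
      exact (h2 ▸ ((isPGroup_zpowers_of_orderOf_eq (k := 1) (by rw [ht, pow_one])).comap_subtype).map _ :
        IsPGroup 2 (⊤ : Subgroup _)).of_equiv topEquiv
    have hOM : pPrimeCore 2 M = ⊥ := by
      have h1 : pPrimeCore 2 M ≤ H.subgroupOf M := by
        rw [← map_mk'_eq_bot_iff, ← inf_top_eq (map _ _)]
        exact CopAct.inf_eq_bot_of_coprime (CopAct.coprime_of_isPGroup_right
          (Nat.Coprime.coprime_dvd_left (card_map_dvd _ _) (coprime_card_pPrimeCore 2))
          (hq.to_subgroup ⊤))
      have h2 := pPrimeCoreOf_eq_inf (p := 2) (H.subgroupOf M)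
      rw [pPrimeCoreOf_subgroupOf_of_le le_sup_left, pPrimeCoreOf_eq_bot_iff.mpr hO,
        bot_subgroupOf, inf_eq_left.mpr h1] at h2
      exact h2.symm
    set x : M := ⟨t, htM⟩
    have hx : orderOf x = 2 := by rw [← ht, orderOf_mk]
    have hYH : Y ≤ H := hY.trans ((map_subtype_le _).trans inf_le_left)
    have hYM : Y ≤ M := hYH.trans le_sup_left
    have hYx : Y.subgroupOf M ≤ pPrimeCoreOf 2 (centralizer {x}) := by
      have h2 : centralizer ({x} : Set M) = (M ⊓ centralizer {t}).subgroupOf M := by
        ext y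
        simp [x, mem_subgroupOf, mem_centralizer_singleton_iff, Subtype.ext_iff]
      rw [h2, pPrimeCoreOf_subgroupOf_of_le inf_le_left]
      refine subgroupOf_mono _ (hY.trans (pPrimeCoreOf_le_pPrimeCoreOf
        (inf_le_inf_right _ le_sup_left) ?_))
      exact CopAct.le_normalizer_inf (inf_le_left.trans hHM) (inf_le_right.trans le_normalizer)
    have hne : ¬ Y.subgroupOf M ≤ centralizer (layer M : Set M) := fun h => hY1 (by
      have := eq_bot_of_le_centralizer_layer_pCore hp hOM (Nat.Coprime.coprime_dvd_left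
        (card_dvd_of_le hYx) (coprime_card_pPrimeCoreOf 2 _)) h (hYx.trans (le_sup_right.trans
          (pPrimeE_centralizer_singleton_le_centralizer_pCore hp (k := 1) (by rw [hx, pow_one]))))
      rw [← map_subtype_subgroupOf_of_le hYM, this, Subgroup.map_bot])
    obtain ⟨E, hE, hYE⟩ : ∃ E : Subgroup M, IsComponent E ∧
        ¬ Y.subgroupOf M ≤ centralizer (E : Set M) := by
      by_contra h
      push Not at h
      exact hne (le_centralizer_sSup h)
    have hEx : ⁅E, zpowers x⁆ = E := by
      by_contra h
      exact hYE (hYx.trans (le_centralizer_iff.mp (commutator_eq_bot_iff_le_centralizer.mp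
        (hE.commutator_pPrimeCoreOf_centralizer hp hOM hx h))))
    have hEH : E.map M.subtype ≤ H := (map_mono (perfect_le_of_isSolvable_quotient hE.commutator_eq
      (have := hq.isNilpotent; inferInstance))).trans (map_subtype_subgroupOf_of_le le_sup_left).le
    have hEt := congrArg (map M.subtype) hEx
    rw [map_commutator, MonoidHom.map_zpowers] at hEt
    refine ⟨(E.map M.subtype).subgroupOf H, (hE.isComponentOf_map_subtype.mono hEH
      le_sup_left).isComponent_subgroupOf, ?_⟩
    rw [map_subtype_subgroupOf_of_le hEH]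
    refine ⟨map_conj_eq_of_mem_norm ((hEt ▸ normalizer_commutator_ge_right _ _) (mem_zpowers t)),
      ?_, fun h => ?_, fun h => hYE ?_⟩
    · rw [← map_subtype_subgroupOf_of_le hYM]
      exact map_le_normalizer_map (hYx.trans (le_sup_right.trans
        (pPrimeE_centralizer_singleton_le_normalizer_component hp hOM (k := 1)
          (by rw [hx, pow_one]) hE))) _
    · exact hE.isComponentOf_map_subtype.ne_bot (hEt.symm.trans
        (commutator_eq_bot_iff_le_centralizer.mpr (le_centralizer_iff.mp (zpowers_le.mpr h))))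
    · rw [centralizer_eq_subgroupOf]
      exact subgroupOf_mono _ h

end Cfsg.Agent.S1328
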