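import Mathlib
import Cfsg.Statements.S1329
import Cfsg.Agent.GT.CoprimeComm
import Cfsg.Agent.S0205

set_option autoImplicit false
open Cfsg

namespace Cfsg.Agent.S1329

/-- Let A be an abelian 2-subgroup of the finite group G, B ≤ A, and Y a subgroup of odd order normalized by A with ⁅Y, A⁆ = Y. Then Y ∩ C_G(B) is generated by the subgroups Y ∩ C_G(B) ∩ ⁅Y ∩ C_G(B₀), A⁆, B₀ ranging over the subgroups of B with B / B₀ cyclic. -/
theorem result {G : Type*} [Group G] [Finite G] (A B Y : Subgroup G) (hA2 : IsPGroup 2 ↥A) (hAc : IsMulCommutative ↥A) (hB : B ≤ A) (hYodd : Odd (Nat.card ↥Y)) (hAY : A ≤ Subgroup.normalizer (Y : Set G)) (hYA : ⁅Y, A⁆ = Y) : Y ⊓ Subgroup.centralizer (B : Set G) = ⨆ B₀ : {B₀ : Subgroup G // B₀ ≤ B ∧ ∀ [(B₀.subgroupOf B).Normal], IsCyclic (↥B ⧸ B₀.subgroupOf B)}, Y ⊓ Subgroup.centralizer (B : Set G) ⊓ ⁅Y ⊓ Subgroup.centralizer ((B₀ : Subgroup G) : Set G), A⁆ := by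
  have hcop : (Nat.card A).Coprime (Nat.card Y) := GT.CopAct.coprime_of_isPGroup_left hA2
    (fun h => (Nat.not_even_iff_odd.2 hYodd) (even_iff_two_dvd.2 h))
  refine le_antisymm ?_ (iSup_le fun _ => inf_le_left)
  have h := GT.CopAct.commutator_inf_centralizer_le_Gam hAc hB hAY hcop (S0205.result hYodd)
  rw [hYA] at h
  refine h.trans (GT.CopAct.Gam_le fun B₀ hB₀ => ?_)
  obtain ⟨h1, a, ha, h2⟩ := hB₀
  refine le_trans ?_ (le_iSup _ ⟨B₀, h1, ?_⟩)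
  · refine le_inf (inf_le_inf_right _ ?_) inf_le_left
    exact (GT.CopAct.commutator_le_of_le_normalizer
      (GT.CopAct.le_normalizer_inf_centralizer_of_isMulCommutative hAc (h1.trans hB) hAY)).trans
      inf_le_left
  · intro _
    refine ⟨⟨QuotientGroup.mk ⟨a, ha⟩, fun x => ?_⟩⟩
    obtain ⟨⟨b, hb⟩, rfl⟩ := QuotientGroup.mk_surjective x
    have hb' := h2 ▸ hb
    obtain ⟨x, hx, _, ⟨k, rfl⟩, h4⟩ := (GT.CopAct.mem_sup_iff_of_le_normalizer'
      (GT.CopAct.le_normalizer_of_isMulCommutative hAc (h1.trans hB)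
        (Subgroup.zpowers_le.2 (hB ha)))).1 (sup_comm B₀ _ ▸ hb')
    refine ⟨k, ?_⟩
    change (QuotientGroup.mk ((⟨a, ha⟩ : B) ^ k) : B ⧸ B₀.subgroupOf B) = _
    symm
    rw [QuotientGroup.eq, Subgroup.mem_subgroupOf]
    have hc := congrArg Subtype.val (hAc.is_comm.comm (⟨x, hB (h1 hx)⟩ : A)
      ⟨a ^ k, Subgroup.zpow_mem _ (hB ha) k⟩)
    have h5 : b⁻¹ * a ^ k = x⁻¹ := by
      have h6 : x * a ^ k = a ^ k * x := hc
      have h7 : x * a ^ k = b := h4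
      rw [← h7, h6]; group
    exact (show b⁻¹ * a ^ k ∈ B₀ from h5 ▸ B₀.inv_mem hx)

end Cfsg.Agent.S1329
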