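import Mathlib
import Cfsg.Statements.S1330
import Cfsg.Agent.Gold.Gen
import Cfsg.Agent.Gold.Comp
import Cfsg.Agent.Loc.ExtLayer
import Cfsg.Agent.GT.PGroupElemAb
import Cfsg.Agent.GT.CoprimeGen
-- import your own Cfsg.Agent.* helpers here

set_option autoImplicit false
open Cfsg

namespace Cfsg.Agent.S1330

open Subgroup Cfsg.Agent.GT Cfsg.Agent.Gold

section
variable {G : Type*} [Group G] [Finite G] {A₁ A₂ : Subgroup G}

theorem O_le_normalizer {H L : Subgroup G} (hL : IsPComponentOf 2 L H) {x : G} (hx : x ∈ H)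
    (hx2 : x * x = 1) : O (H ⊓ C1 x) ≤ normalizer (L : Set G) := by
  have h1 := Loc.Ext.pPrimeCoreOf_centralizer_le_normalizer (p := 2)
    (R := (zpowers x).subgroupOf H) (isPGroup_zpowers_of_mul_self hx2).comap_subtype hL.2
  rw [centralizer_subgroupOf_of_le ((zpowers_le (G := G)).2 hx), GT.centralizer_zpowers,
    ← inf_subgroupOf_left, pPrimeCoreOf_subgroupOf_of_le inf_le_left, normalizer_eq_subgroupOf,
    map_subgroupOf_eq_of_le hL.1] at h1
  intro y hy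
  exact h1 (x := ⟨y, (pPrimeCoreOf_le _ hy).1⟩) hy

structure Sep (A₁ A₂ : Subgroup G) : Prop where
  elem : IsElementaryAbelian 2 (A₁ ⊔ A₂)
  four : Nat.card A₁ = 4
  four' : Nat.card A₂ = 4
  sep : ∀ a ∈ A₁ ⊔ A₂, a ≠ 1 → ∀ L, IsPComponentOf 2 L (C1 a) → A₁ ≤ Cbar L ∨ A₂ ≤ Cbar L

omit [Finite G] in
theorem Sep.symm (h : Sep A₁ A₂) : Sep A₂ A₁ :=
  ⟨sup_comm A₁ A₂ ▸ h.elem, h.four', h.four, fun a ha h1 L hL =>
    (h.sep a (sup_comm A₁ A₂ ▸ ha) h1 L hL).symm⟩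

omit [Finite G] in
theorem Sep.sq (h : Sep A₁ A₂) {a : G} (ha : a ∈ A₁ ⊔ A₂) : a * a = 1 := by
  rw [← pow_two]; exact h.elem.2 a ha

omit [Finite G] in
theorem Sep.le_C1 (h : Sep A₁ A₂) {a : G} (ha : a ∈ A₁ ⊔ A₂) : A₁ ⊔ A₂ ≤ C1 a :=
  fun _ hb => mem_centralizer_singleton_iff.2 (h.elem.comm hb ha)

omit [Finite G] in
theorem Sep.le_cent (h : Sep A₁ A₂) : A₁ ⊔ A₂ ≤ centralizer (A₁ : Set G) :=
  h.elem.le_centralizer.trans (centralizer_anti le_sup_left)

theorem Sep.coprime (h : Sep A₁ A₂) {Y : Subgroup G} (hY : Odd (Nat.card Y)) :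
    (Nat.card A₁).Coprime (Nat.card Y) :=
  CopAct.coprime_of_isPGroup_left (h.elem.mono le_sup_left).isPGroup
    (fun h => (Nat.not_even_iff_odd.2 hY) (even_iff_two_dvd.2 h))

theorem Sep.kf1 (h : Sep A₁ A₂) {x : G} (hx : x ∈ A₁ ⊔ A₂) {F : Subgroup G} (hF : F ≤ A₁)
    (hi : F.relIndex A₁ = 2) :
    ⁅O (C1 x) ⊓ centralizer (F : Set G), A₁⁆ ⊓ centralizer (A₁ : Set G) ≤
      O (centralizer (A₁ : Set G)) := by
  have hF1 : F ≠ ⊥ := fun e => by rw [e, relIndex_bot_left, h.four] at hi; omega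
  obtain ⟨⟨f, hf⟩, hf1⟩ := ne_bot_iff_exists_ne_one.1 hF1
  have hf1' : f ≠ 1 := fun e => hf1 (Subtype.ext e)
  have hfA : f ∈ A₁ ⊔ A₂ := mem_sup_left (hF hf)
  have hY : O (C1 x) ⊓ centralizer (F : Set G) ≤ O (C1 f ⊓ C1 x) :=
    le_trans (le_inf inf_le_left (le_inf (inf_le_right.trans
      (centralizer_le_centralizer_singleton hf)) (inf_le_left.trans (pPrimeCoreOf_le _))))
      (pPrimeCoreOf_inf_le inf_le_right)
  have hn : A₁ ≤ normalizer (O (C1 f ⊓ C1 x) : Set G) :=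
    (le_inf (le_sup_left.trans (h.le_C1 hfA)) (le_sup_left.trans (h.le_C1 hx))).trans
      (le_normalizer_pPrimeCoreOf _)
  have key : ⁅O (C1 f ⊓ C1 x), A₁⁆ ≤ O (C1 f) := by
    refine le_O_of_le_Cbar (h.le_C1 hfA hx) (h.sq hx) (comm_le_left hn) fun L hL hxL => ?_
    have hN := (O_le_normalizer hL (h.le_C1 hfA hx) (h.sq hx)).trans
      (normalizer_le_normalizer_Cbar L)
    rcases h.sep f hfA hf1' L hL with h1 | h1
    · exact (commutator_mono le_rfl h1).trans (comm_le_right hN)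
    have hFL : F ≤ Cbar L := by
      have e : F = zpowers f := by
        refine (eq_of_le_of_card_ge ((zpowers_le (G := G)).2 hf) ?_).symm
        have h2 := card_mul_relIndex hF
        rw [hi, h.four] at h2
        rw [Nat.card_zpowers, h.elem.orderOf_eq hfA hf1']; omega
      rw [e]
      refine le_Cbar_of_commutator_le hL ((zpowers_le (G := G)).2
        (mem_centralizer_singleton_iff.2 rfl)) ?_
      rw [CopAct.commutator_eq_bot_iff.2]
      · exact bot_le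
      · rw [le_centralizer_iff, GT.centralizer_zpowers]; exact hL.1
    obtain ⟨x₁, hx₁, x₂, hx₂, rfl⟩ := (CopAct.mem_sup_iff_of_le_normalizer
      (CopAct.le_normalizer_of_isMulCommutative h.elem.1 le_sup_right le_sup_left)).1 hx
    have hle : A₁ ≤ (F ⊔ A₂) ⊔ zpowers (x₁ * x₂) := by
      rw [← PG.sup_zpowers_eq_of_relIndex_prime Nat.prime_two hF hi hx₁
        fun e => hxL (mul_mem (hFL e) (h1 hx₂))]
      refine sup_le (le_sup_left.trans le_sup_left) ((zpowers_le (G := G)).2 ?_)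
      have := mul_mem (mem_sup_right (S := F ⊔ A₂) (mem_zpowers (x₁ * x₂)))
        (inv_mem (mem_sup_left (T := zpowers (x₁ * x₂)) (mem_sup_right (S := F) hx₂)))
      simpa using this
    rw [commutator_comm]
    refine (CopAct.commutator_le_of_le_sup_centralizer hle ?_
      (CopAct.le_normalizer_of_isMulCommutative h.elem.1 ((zpowers_le (G := G)).2 hx)
        (sup_le_sup_right hF _))).trans
      ((commutator_mono (sup_le hFL h1) le_rfl).trans (comm_le_left hN))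
    rw [le_centralizer_iff, GT.centralizer_zpowers]
    exact (pPrimeCoreOf_le _).trans inf_le_right
  exact (inf_le_inf_right _ ((commutator_mono hY le_rfl).trans key)).trans
    (pPrimeCoreOf_inf_le (centralizer_le_centralizer_singleton (hF hf)))

theorem Sep.R_inf (h : Sep A₁ A₂) {x : G} (hx : x ∈ A₁ ⊔ A₂) :
    R A₁ (O (centralizer (A₁ : Set G))) (O (C1 x)) ⊓ centralizer (A₁ : Set G) ≤
      O (centralizer (A₁ : Set G)) := by
  intro r hr
  obtain ⟨hr, hrc⟩ := mem_inf.1 hr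
  have hn := le_sup_left.trans ((h.le_C1 hx).trans (le_normalizer_pPrimeCoreOf (p := 2) _))
  obtain ⟨u, hu, v, hv, rfl⟩ := (CopAct.mem_sup_iff_of_le_normalizer
    (inf_le_left.trans (normalizer_commutator_ge_left _ _))).1 hr
  obtain ⟨-, hv2⟩ := mem_inf.1 hv
  have h1 : u ∈ O (centralizer (A₁ : Set G)) := iSup₂_le (fun F hF => h.kf1 hx hF.1 hF.2)
    (commutator_inf_centralizer_le_iSup
      (fun a ha b hb => h.elem.comm (mem_sup_left ha) (mem_sup_left hb))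
      (fun a ha => h.sq (mem_sup_left ha)) (odd_card_O _) hn
      (mem_inf.2 ⟨hu, by simpa using mul_mem hrc (inv_mem (pPrimeCoreOf_le _ hv2))⟩))
  exact mul_mem h1 hv2

theorem Sep.R_le (h : Sep A₁ A₂) {x : G} (hx : x ∈ A₁ ⊔ A₂) (Ψ : Subgroup G) :
    R A₁ Ψ (O (C1 x)) ≤ O (C1 x) :=
  sup_le (comm_le_left (le_sup_left.trans ((h.le_C1 hx).trans (le_normalizer_pPrimeCoreOf _))))
    inf_le_left

omit [Finite G] in
theorem Sep.norm_R (h : Sep A₁ A₂) {x : G} (hx : x ∈ A₁ ⊔ A₂) :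
    A₁ ⊔ A₂ ≤ normalizer (R A₁ (O (centralizer (A₁ : Set G))) (O (C1 x)) : Set G) :=
  have h1 := (h.le_C1 hx).trans (le_normalizer_pPrimeCoreOf (p := 2) _)
  CopAct.le_normalizer_sup
    (CopAct.le_normalizer_commutator h1 (h.le_cent.trans (centralizer_le_normalizer _)))
    (CopAct.le_normalizer_inf h1 (h.le_cent.trans (le_normalizer_pPrimeCoreOf _)))

theorem Sep.eq_sup (h : Sep A₁ A₂) {Z : Subgroup G} (ho : Odd (Nat.card Z))
    (hn : A₁ ≤ normalizer (Z : Set G)) : ⁅Z, A₁⁆ ⊔ Z ⊓ centralizer (A₁ : Set G) = Z :=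
  CopAct.commutator_sup_centralizer hn (h.coprime ho)
    (Or.inl (CopAct.isSolvable_of_isMulCommutative (h.elem.mono le_sup_left).1))

theorem Sep.le_Cbar (h : Sep A₁ A₂) {y : G} (hy : y ∈ A₁ ⊔ A₂) {Z L : Subgroup G}
    (hL : IsPComponentOf 2 L (C1 y)) (hA : A₁ ≤ Cbar L) (hZ : Z ≤ C1 y) (ho : Odd (Nat.card Z))
    (hZL : Z ≤ normalizer (L : Set G)) (hn : A₁ ≤ normalizer (Z : Set G))
    (hc : Z ⊓ centralizer (A₁ : Set G) ≤ O (centralizer (A₁ : Set G))) : Z ≤ Cbar L := by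
  rw [← h.eq_sup ho hn]
  refine sup_le ((commutator_mono le_rfl hA).trans
    (comm_le_right (hZL.trans (normalizer_le_normalizer_Cbar L)))) ?_
  obtain ⟨L₀, h0, h1, h2⟩ := exists_restrict hL (le_sup_left.trans (h.le_C1 hy))
    (h.elem.mono le_sup_left).isPGroup hA
  refine le_Cbar_of_odd hL (inf_le_left.trans hZ) (odd_card_O _) h1 h2
    (le_Cbar_iff.1 (le_trans ?_ (O_le_Cbar h0))).2
  exact le_trans (le_inf hc (inf_le_inf_right _ hZ)) (pPrimeCoreOf_inf_le inf_le_right)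

theorem Sep.le_R (h : Sep A₁ A₂) {x : G} {Z Ψ : Subgroup G} (hZ : Z ≤ O (C1 x))
    (hn : A₁ ≤ normalizer (Z : Set G)) (hc : Z ⊓ centralizer (A₁ : Set G) ≤ Ψ) :
    Z ≤ R A₁ Ψ (O (C1 x)) := by
  conv_lhs => rw [← h.eq_sup ((odd_card_O _).of_dvd_nat (card_dvd_of_le hZ)) hn]
  exact sup_le_sup (commutator_mono hZ le_rfl) (le_inf (inf_le_left.trans hZ) hc)

end

/-- Let A₁, A₂ be core-separated four-subgroups of the finite group G and A = A₁A₂. For a ∈ G put O_a = O(C_G(a)) and θ a = ⋂_{i=1,2} ( ⁅O_a, A_i⁆ · (O_a ∩ O(C_G(A_i))) ). Then θ is an A-signalizer functor for the prime 2. -/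
theorem result {G : Type*} [Group G] [Finite G] (A₁ A₂ : Subgroup G) (hcs : Cfsg.IsCoreSeparated A₁ A₂) : Cfsg.IsSignalizerFunctor 2 (A₁ ⊔ A₂) (fun a => (⁅Cfsg.centralizerPPrimeCore 2 a, A₁⁆ ⊔ (Cfsg.centralizerPPrimeCore 2 a ⊓ ((Cfsg.oddCore ↥(Subgroup.centralizer ((A₁ : Subgroup G) : Set G))).map (Subgroup.centralizer ((A₁ : Subgroup G) : Set G)).subtype))) ⊓ (⁅Cfsg.centralizerPPrimeCore 2 a, A₂⁆ ⊔ (Cfsg.centralizerPPrimeCore 2 a ⊓ ((Cfsg.oddCore ↥(Subgroup.centralizer ((A₂ : Subgroup G) : Set G))).map (Subgroup.centralizer ((A₂ : Subgroup G) : Set G)).subtype)))) := by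
  obtain ⟨h1, h2, c1, c2, -, -, hc, hs⟩ := hcs
  have hE : IsElementaryAbelian 2 (A₁ ⊔ A₂) :=
    h1.sup h2 fun b hb => mem_centralizer_iff.2 fun a ha => hc a ha b hb
  have h : Sep A₁ A₂ := ⟨hE, c1, c2, fun a ha a1 L hL => by
    have h3 := hs a ha a1 _ hL.2
    rw [map_subgroupOf_eq_of_le hL.1] at h3
    have h4 : A₁ ⊔ A₂ ≤ C1 a := fun _ hb => mem_centralizer_singleton_iff.2 (hE.comm hb ha)
    exact h3.imp (le_Cbar_of_commutator_le hL (le_sup_left.trans h4))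
      (le_Cbar_of_commutator_le hL (le_sup_right.trans h4))⟩
  have hs : ∀ {a : G}, a ∈ A₁ ⊔ A₂ → a ∈ A₂ ⊔ A₁ := fun ha => sup_comm A₁ A₂ ▸ ha
  change IsSignalizerFunctor 2 (A₁ ⊔ A₂) fun a =>
    R A₁ (O (centralizer (A₁ : Set G))) (O (C1 a)) ⊓ R A₂ (O (centralizer (A₂ : Set G))) (O (C1 a))
  have hn : ∀ a ∈ A₁ ⊔ A₂, A₁ ⊔ A₂ ≤ normalizer ((R A₁ (O (centralizer (A₁ : Set G))) (O (C1 a)) ⊓
      R A₂ (O (centralizer (A₂ : Set G))) (O (C1 a)) : Subgroup G) : Set G) := fun a ha =>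
    CopAct.le_normalizer_inf (h.norm_R ha) ((sup_comm A₁ A₂).le.trans (h.symm.norm_R (hs ha)))
  refine ⟨fun a ha _ => (inf_le_left.trans (h.R_le ha _)).trans (pPrimeCoreOf_le _),
    fun a ha _ e => ?_, fun a ha _ => le_normalizer_iff.1 (hn a ha), fun x hx _ y hy y1 => ?_⟩
  · exact Nat.not_even_iff_odd.2 (odd_card_O (C1 a)) (even_iff_two_dvd.2
      (e.trans (card_dvd_of_le (inf_le_left.trans (h.R_le ha _)))))
  · set Z := (R A₁ (O (centralizer (A₁ : Set G))) (O (C1 x)) ⊓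
      R A₂ (O (centralizer (A₂ : Set G))) (O (C1 x))) ⊓ C1 y with hZ
    have hZn : A₁ ⊔ A₂ ≤ normalizer (Z : Set G) :=
      CopAct.le_normalizer_inf (hn x hx) ((h.le_C1 hy).trans le_normalizer)
    have hZx : Z ≤ O (C1 x) := inf_le_left.trans (inf_le_left.trans (h.R_le hx _))
    have e1 : Z ⊓ centralizer (A₁ : Set G) ≤ O (centralizer (A₁ : Set G)) :=
      (inf_le_inf_right _ (inf_le_left.trans inf_le_left)).trans (h.R_inf hx)
    have e2 : Z ⊓ centralizer (A₂ : Set G) ≤ O (centralizer (A₂ : Set G)) :=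
      (inf_le_inf_right _ (inf_le_left.trans inf_le_right)).trans (h.symm.R_inf (hs hx))
    have hZO : Z ≤ O (C1 y ⊓ C1 x) :=
      le_trans (le_inf hZx (le_inf inf_le_right (hZx.trans (pPrimeCoreOf_le _))))
        (pPrimeCoreOf_inf_le inf_le_right)
    have ho : Odd (Nat.card Z) := (odd_card_O _).of_dvd_nat (card_dvd_of_le hZx)
    have hZy : Z ≤ O (C1 y) := by
      refine le_O_of_le_Cbar (h.le_C1 hy hx) (h.sq hx) hZO fun L hL _ => ?_
      have hN := hZO.trans (O_le_normalizer hL (h.le_C1 hy hx) (h.sq hx))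
      rcases h.sep y hy y1 L hL with h3 | h3
      · exact h.le_Cbar hy hL h3 inf_le_right ho hN (le_sup_left.trans hZn) e1
      · exact h.symm.le_Cbar (hs hy) hL h3 inf_le_right ho hN (le_sup_right.trans hZn) e2
    exact le_inf (h.le_R hZy (le_sup_left.trans hZn) e1)
      (h.symm.le_R hZy (le_sup_right.trans hZn) e2)

end Cfsg.Agent.S1330
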