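import Mathlib
-- Template for statement S1335 (row 1335; see /opt/grader/pristine/manifest.json for weights).
-- Copy to Cfsg/Agent/S1335.lean and replace the sorry. The statement below is byte-identical to the frozen
-- statement Cfsg.CfsgFrozen.S1335 (Cfsg/Statements/S1335.lean; the theorem Cfsg.sylow_of_subgroup_containing_k_generated_core);
-- the grader kernel-checks Cfsg.Agent.S1335.result against that frozen type. Keep the theorem IN THIS FILE
-- (a `result` declared elsewhere and merely imported here is not credited); helpers may live anywhere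
-- under Cfsg/Agent/.
import Cfsg.Statements.S1335
import Cfsg.Agent.Loc.AmBasic
import Cfsg.Agent.GT.PGroupRank
import Cfsg.Agent.GT.CoprimeSylow

set_option autoImplicit false
open Cfsg

namespace Cfsg.Agent.S1335

/-- Let H be a subgroup of the finite group G, p a prime, k ≥ 1, P a Sylow p-subgroup of H of p-rank at least k, and suppose N_G(X) ≤ H for every subgroup X ≤ P of p-rank at least k. Then P is a Sylow p-subgroup of G. -/
theorem result {G : Type*} [Group G] [Finite G] {p : ℕ} [Fact p.Prime] (k : ℕ) (hk : 1 ≤ k) (H : Subgroup G) (P : Sylow p ↥H) (hP : ¬ Cfsg.PRankLE p (k - 1) ↥(P : Subgroup ↥H)) (hΓ : (∀ X : Subgroup G, X ≤ (P : Subgroup ↥H).map H.subtype → ¬ Cfsg.PRankLE p (k - 1) ↥X → Subgroup.normalizer (X : Set G) ≤ H)) : ∃ Q : Sylow p G, (Q : Subgroup G) = (P : Subgroup ↥H).map H.subtype := by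
  have hs := Loc.Am.isSylowOf_map_subtype P
  have hN := hΓ _ le_rfl (fun h => hP (h.of_mulEquiv
    (Subgroup.equivMapOfInjective _ _ H.subtype_injective).symm))
  obtain ⟨S, hS, hle⟩ := Loc.Am.exists_isSylowOf_ge hs.isPGroup (le_top (a := (P : Subgroup H).map H.subtype))
  rcases hle.lt_or_eq with hlt | he
  · have h1 := GT.CopAct.lt_inf_normalizer_of_isNilpotent hS.isPGroup.isNilpotent hlt
    exact absurd (hs.max _ (hS.isPGroup.to_le inf_le_left) h1.le (inf_le_right.trans hN)) h1.ne'
  · rw [he]; exact hS.exists_sylow_top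

end Cfsg.Agent.S1335
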