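import Mathlib
-- Template for statement S1336 (row 1336; see /opt/grader/pristine/manifest.json for weights).
-- Copy to Cfsg/Agent/S1336.lean and replace the sorry. The statement below is byte-identical to the frozen
-- statement Cfsg.CfsgFrozen.S1336 (Cfsg/Statements/S1336.lean; the theorem Cfsg.strongly_p_embedded_iff_one_disconnected);
-- the grader kernel-checks Cfsg.Agent.S1336.result against that frozen type. Keep the theorem IN THIS FILE
-- (a `result` declared elsewhere and merely imported here is not credited); helpers may live anywhere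
-- under Cfsg/Agent/.
import Cfsg.Statements.S1336
import Cfsg.Agent.Loc.CommGraph

set_option autoImplicit false
open Cfsg

namespace Cfsg.Agent.S1336

/-- Let G be finite and p prime. Then G has a proper subgroup H with p ∣ |H| and p ∤ |H ∩ gHg⁻¹| for every g ∉ H (a strongly p-embedded subgroup) if and only if G is not 1-connected for p. -/
theorem result {G : Type*} [Group G] [Finite G] (p : ℕ) [Fact p.Prime] : (∃ H : Subgroup G, H ≠ ⊤ ∧ p ∣ Nat.card ↥H ∧ ∀ g : G, g ∉ H → ¬ p ∣ Nat.card ↥(H ⊓ H.map (MulAut.conj g).toMonoidHom)) ↔ ¬ Cfsg.IsKConnected p 1 G := by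
  have hp : p.Prime := Fact.out
  have ex : ∀ H : Subgroup G, p ∣ Nat.card H → ∃ x ∈ H, orderOf x = p := by
    intro H h
    obtain ⟨x, hx⟩ := exists_prime_orderOf_dvd_card' p h
    exact ⟨x, x.2, by rw [Subgroup.orderOf_coe, hx]⟩
  have el : ∀ x : G, orderOf x = p → IsElementaryAbelian p (Subgroup.zpowers x) ∧
      p ^ 1 ≤ Nat.card (Subgroup.zpowers x) := fun x hx =>
    ⟨IsElementaryAbelian.zpowers (by rw [← hx, pow_orderOf_eq_one]),
      by rw [Nat.card_zpowers, hx, pow_one]⟩
  have dv : ∀ {A : Subgroup G}, IsElementaryAbelian p A → p ^ 1 ≤ Nat.card A → p ∣ Nat.card A := by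
    intro A hA hA'
    obtain ⟨n, hn⟩ := hA.card_eq_pow
    rw [hn, Nat.pow_le_pow_iff_right hp.one_lt] at hA'
    rw [hn]
    exact dvd_pow_self p (by omega)
  constructor
  · rintro ⟨H, hne, hd, hg⟩ hc
    obtain ⟨x, hx, hxo⟩ := ex H hd
    obtain ⟨g, -, hgH⟩ := SetLike.exists_of_lt (lt_top_iff_ne_top.mpr hne)
    have inv : ∀ B : Subgroup G, Loc.CG.KConn p 1 (Subgroup.zpowers x) B → B ≤ H := by
      intro B h
      induction h with
      | refl => exact Subgroup.zpowers_le.mpr hx
      | @tail A B _ h2 ih =>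
        intro b hb
        by_contra hbH
        refine hg b hbH ((dv h2.1 h2.2.1).trans (Subgroup.card_dvd_of_le (le_inf ih ?_)))
        intro a ha
        rw [GT.mem_map_conj, mul_assoc, h2.2.2.2.2 a ha b hb, inv_mul_cancel_left]
        exact ih ha
    have ho : orderOf (g * x * g⁻¹) = p := by rw [GT.orderOf_conj, hxo]
    have h1 := inv _ (hc _ _ (el x hxo).1 (el x hxo).2 (el _ ho).1 (el _ ho).2)
    refine hg g hgH (ho ▸ Subgroup.orderOf_dvd_natCard _ ⟨h1 (Subgroup.mem_zpowers _), ?_⟩)
    exact GT.conj_mem_map_conj.mpr hx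
  · intro hc
    unfold IsKConnected at hc
    push Not at hc
    obtain ⟨E, E', hE, hE1, hE', hE1', hn⟩ := hc
    let H : Subgroup G :=
      { carrier := {g | Loc.CG.KConn p 1 (E.map (MulAut.conj g).toMonoidHom) E}
        one_mem' := by
          show Loc.CG.KConn p 1 _ _
          rw [GT.map_conj_one]
        mul_mem' := fun {a b} ha hb => by
          show Loc.CG.KConn p 1 _ _
          rw [GT.map_conj_mul]
          exact (Loc.CG.KConn.map_conj hb a).trans ha
        inv_mem' := fun {a} ha => by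
          have h1 := Loc.CG.KConn.map_conj ha a⁻¹
          rw [GT.map_conj_inv_map_conj] at h1
          exact h1.symm }
    have memH : ∀ g, g ∈ H ↔ Loc.CG.KConn p 1 (E.map (MulAut.conj g).toMonoidHom) E :=
      fun g => Iff.rfl
    obtain ⟨S, hS, hES⟩ := Loc.Am.exists_isSylowOf_ge hE.isPGroup (le_top (a := E))
    have hSH : S ≤ H := fun s hs => (memH s).mpr (Loc.CG.kConn_one_of_le hS.isPGroup (hE.map _)
      (by rw [GT.card_map_conj]; exact hE1) hE hE1 (GT.map_conj_le_of_mem hES hs) hES)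
    have key : ∀ K : Subgroup G, S ≤ K → ∀ B ≤ K, IsElementaryAbelian p B → p ^ 1 ≤ Nat.card B →
        ∃ g ∈ K, Loc.CG.KConn p 1 B (E.map (MulAut.conj g).toMonoidHom) := by
      intro K hK B hB h1 h2
      obtain ⟨g, hg, h3⟩ := (hS.mono hK le_top).exists_cj_ge h1.isPGroup hB
      exact ⟨g, hg, Loc.CG.kConn_one_of_le (hS.isPGroup.map _) h1 h2 (hE.map _)
        (by rw [GT.card_map_conj]; exact hE1) h3 (Subgroup.map_mono hES)⟩
    have key2 : ∀ B ≤ H, IsElementaryAbelian p B → p ^ 1 ≤ Nat.card B → Loc.CG.KConn p 1 B E := by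
      intro B hB h1 h2
      obtain ⟨g, hg, h3⟩ := key H hSH B hB h1 h2
      exact h3.trans ((memH g).mp hg)
    refine ⟨H, fun e => hn (key2 E' (e ▸ le_top) hE' hE1').symm,
      (dv hE hE1).trans (Subgroup.card_dvd_of_le (hES.trans hSH)), fun g hg hd => hg ?_⟩
    obtain ⟨x, hx, hxo⟩ := ex _ hd
    have ho : orderOf (g⁻¹ * x * g⁻¹⁻¹) = p := by rw [GT.orderOf_conj, hxo]
    have h1 := key2 _ (Subgroup.zpowers_le.mpr hx.1) (el x hxo).1 (el x hxo).2
    have h2 := (key2 _ (Subgroup.zpowers_le.mpr (by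
      rw [inv_inv]; exact GT.mem_map_conj.mp hx.2)) (el _ ho).1 (el _ ho).2).map_conj g
    rw [← GT.map_conj_zpowers, GT.map_conj_map_conj_inv] at h2
    exact (memH g).mpr (h2.symm.trans h1)

end Cfsg.Agent.S1336
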