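import Mathlib
-- Template for statement S1337 (row 1337; see /opt/grader/pristine/manifest.json for weights).
-- Copy to Cfsg/Agent/S1337.lean and replace the sorry. The statement below is byte-identical to the frozen
-- statement Cfsg.CfsgFrozen.S1337 (Cfsg/Statements/S1337.lean; the theorem Cfsg.p_group_rank_gt_two_normal_rank_two_component);
-- the grader kernel-checks Cfsg.Agent.S1337.result against that frozen type. Keep the theorem IN THIS FILE
-- (a `result` declared elsewhere and merely imported here is not credited); helpers may live anywhere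
-- under Cfsg/Agent/.
import Cfsg.Statements.S1337
import Cfsg.Agent.Loc.CommGraph

set_option autoImplicit false
open Cfsg

namespace Cfsg.Agent.S1337

/-- Let P be a finite p-group of p-rank greater than 2. Then P has a normal elementary abelian subgroup U of order p², and for every elementary abelian X ≤ P with |X| ≥ p²: X is joined to U by a chain of pairwise commuting elementary abelian subgroups of order ≥ p² if and only if C_P(X) has p-rank greater than 2. -/
theorem result {P : Type*} [Group P] [Finite P] (p : ℕ) [Fact p.Prime] (hP : IsPGroup p P) (hrk : ¬ Cfsg.PRankLE p 2 P) : ∃ U : Subgroup P, U.Normal ∧ Cfsg.IsElementaryAbelian p U ∧ Nat.card ↥U = p ^ 2 ∧ ∀ X : Subgroup P, Cfsg.IsElementaryAbelian p X → p ^ 2 ≤ Nat.card ↥X → (Relation.ReflTransGen (fun A B : Subgroup P => Cfsg.IsElementaryAbelian p A ∧ p ^ 2 ≤ Nat.card ↥A ∧ Cfsg.IsElementaryAbelian p B ∧ p ^ 2 ≤ Nat.card ↥B ∧ ∀ a ∈ A, ∀ b ∈ B, a * b = b * a) X U ↔ ¬ Cfsg.PRankLE p 2 ↥(Subgroup.centralizer (X : Set P))) := by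
  obtain ⟨U, hn, hU, hc⟩ := Loc.CG.exists_normal_sq hP hrk
  refine ⟨U, hn, hU, hc, fun X hX hX' => ⟨fun h => Loc.CG.KConn.not_pRankLE h ?_,
    fun h => Loc.CG.kConn_two_of_normal hU hc hX hX' h⟩⟩
  obtain ⟨E, hE, hE'⟩ := GT.PG.not_pRankLE_iff.mp hrk
  exact Loc.CG.not_pRankLE_centralizer_of_normalizer hU hc hE hE'.ge
    (le_top.trans (Subgroup.normalizer_eq_top _).ge)

end Cfsg.Agent.S1337
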