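import Mathlib
-- Template for statement S1338 (row 1338; see /opt/grader/pristine/manifest.json for weights).
-- Copy to Cfsg/Agent/S1338.lean and replace the sorry. The statement below is byte-identical to the frozen
-- statement Cfsg.CfsgFrozen.S1338 (Cfsg/Statements/S1338.lean; the theorem Cfsg.three_group_rank_gt_three_two_connected);
-- the grader kernel-checks Cfsg.Agent.S1338.result against that frozen type. Keep the theorem IN THIS FILE
-- (a `result` declared elsewhere and merely imported here is not credited); helpers may live anywhere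
-- under Cfsg/Agent/.
import Cfsg.Statements.S1338
import Cfsg.Agent.Loc.CommGraph

set_option autoImplicit false
open Cfsg

namespace Cfsg.Agent.S1338

open scoped IsMulCommutative in
theorem card_le_cube {P : Type*} [Group P] [Finite P] {V : Subgroup P} [V.Normal]
    (hV : IsElementaryAbelian 3 V) {x : P} (hx : x ^ 3 = 1) :
    Nat.card V ≤ Nat.card (V ⊓ Subgroup.centralizer {x} : Subgroup P) ^ 3 := by
  have := hV.1
  let σ : V →* V := (MulAut.conjNormal x : MulAut V).toMonoidHom
  let d : V →* V := σ * (MonoidHom.id V)⁻¹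
  have hd : ∀ v, d v = σ v * v⁻¹ := fun v => rfl
  have h3 : ∀ v : V, v ^ 3 = 1 := fun v => Subtype.ext (hV.2 v v.2)
  have hσ : ∀ v, σ (σ (σ v)) = v := by
    intro v
    apply Subtype.ext
    show x * (x * (x * v * x⁻¹) * x⁻¹) * x⁻¹ = v
    have : x * (x * (x * v * x⁻¹) * x⁻¹) * x⁻¹ = x ^ 3 * v * (x ^ 3)⁻¹ := by
      simp only [pow_succ, pow_zero, one_mul, mul_inv_rev, mul_assoc]
    rw [this, hx]; simp
  have hk : ((d.ker.comap d).comap d) = ⊤ := by
    rw [eq_top_iff]
    intro v _
    show d (d (d v)) = 1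
    simp only [hd, map_mul, map_inv, hσ]
    have e1 := h3 (σ (σ v))
    have e2 := h3 (σ v)
    have : v * (σ (σ v))⁻¹ * (σ (σ v) * (σ v)⁻¹)⁻¹ * (σ (σ v) * (σ v)⁻¹ * (σ v * v⁻¹)⁻¹)⁻¹ =
        (σ (σ v) ^ 3)⁻¹ * σ v ^ 3 := by
      apply Additive.ofMul.injective
      simp only [ofMul_mul, ofMul_inv, ofMul_pow]
      abel
    rw [this, e1, e2]; simp
  have hc : Nat.card d.ker = Nat.card (V ⊓ Subgroup.centralizer {x} : Subgroup P) := by
    rw [inf_comm, ← GT.card_subgroupOf]
    congr 2
    ext v
    rw [MonoidHom.mem_ker, hd, mul_inv_eq_one, Subgroup.mem_subgroupOf,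
      Subgroup.mem_centralizer_singleton_iff, Subtype.ext_iff]
    show x * v * x⁻¹ = v ↔ _
    rw [mul_inv_eq_iff_eq_mul, eq_comm]
  have h1 := GT.card_comap_dvd (d.ker.comap d) d
  have h2 := GT.card_comap_dvd d.ker d
  rw [hk, Subgroup.card_top] at h1
  rw [← hc, pow_succ, pow_two]
  exact Nat.le_of_dvd (Nat.mul_pos (Nat.mul_pos Nat.card_pos Nat.card_pos) Nat.card_pos)
    (h1.trans (Nat.mul_dvd_mul_right h2 _))

/-- A finite 3-group of 3-rank at least 4 is 2-connected for the prime 3: its commuting graph on elementary abelian subgroups of order ≥ 9 is connected. -/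
theorem result {P : Type*} [Group P] [Finite P] (hP : IsPGroup 3 P) (hrk : ¬ Cfsg.PRankLE 3 3 P) : Cfsg.IsKConnected 3 2 P := by
  have h3 : Fact (Nat.Prime 3) := ⟨by norm_num⟩
  obtain ⟨E, hE, hE'⟩ := GT.PG.not_pRankLE_iff.mp hrk
  obtain ⟨V, hVn, hV, hV'⟩ := GT.PG.exists_normal_elementary_four (by norm_num) hP hE hE'
  obtain ⟨U, hn, hU, hc⟩ := Loc.CG.exists_normal_sq hP (fun h => hrk (h.mono (by norm_num)
    (by norm_num)))
  have key : ∀ X : Subgroup P, IsElementaryAbelian 3 X → 3 ^ 2 ≤ Nat.card X →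
      ¬ PRankLE 3 2 (Subgroup.centralizer (X : Set P)) := by
    intro X hX hX' hr
    -- every elementary abelian subgroup centralizing `X` lies in `X`
    have hle : ∀ Y : Subgroup P, IsElementaryAbelian 3 Y → Y ≤ Subgroup.centralizer (X : Set P) →
        Y ≤ X := by
      intro Y hY h
      have h1 := hX.sup hY h
      rcases (le_sup_left : X ≤ X ⊔ Y).lt_or_eq with h2 | h2
      · exact absurd hr (Loc.CG.not_pRankLE_of_le h1 (sup_le hX.le_centralizer h)
          (Loc.CG.pow_succ_le_of_lt h1.isPGroup h2 hX'))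
      · exact le_sup_right.trans h2.ge
    have hX2 : Nat.card X ≤ 3 ^ 2 := hr.card_le_of_le hX.le_centralizer hX
    have hVne : V ≠ ⊥ := by
      rintro rfl
      simp at hV'
    obtain ⟨z, hzV, hzc, hz1, hz3⟩ := GT.PG.exists_mem_center_of_normal hP V hVne
    have hzX : Subgroup.zpowers z ≤ X := hle _ (IsElementaryAbelian.zpowers hz3)
      (Subgroup.zpowers_le.mpr (Subgroup.center_le_centralizer _ hzc))
    have hz3' : Nat.card (Subgroup.zpowers z) = 3 := by
      rw [Nat.card_zpowers, orderOf_eq_prime hz3 hz1]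
    have hlt : Subgroup.zpowers z < X := lt_of_le_of_ne hzX fun e => by
      rw [← e, hz3'] at hX'; omega
    obtain ⟨x, hxX, hxz⟩ := SetLike.exists_of_lt hlt
    have hsup : Subgroup.zpowers z ⊔ Subgroup.zpowers x = X := by
      have h1 : Subgroup.zpowers z ⊔ Subgroup.zpowers x ≤ X :=
        sup_le hzX (Subgroup.zpowers_le.mpr hxX)
      have h2 := Loc.CG.mul_card_le_of_lt (hX.isPGroup.to_le h1)
        (lt_of_le_of_ne (le_sup_left : Subgroup.zpowers z ≤ _) fun e =>
          hxz (e ▸ Subgroup.mem_sup_right (Subgroup.mem_zpowers x)))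
      exact Subgroup.eq_of_le_of_card_ge h1 (by rw [hz3'] at h2; omega)
    have h4 : V ⊓ Subgroup.centralizer {x} ≤ Subgroup.centralizer (X : Set P) := by
      rw [← hsup, GT.centralizer_sup, GT.centralizer_zpowers, GT.centralizer_zpowers]
      refine le_inf (fun y _ => ?_) inf_le_right
      exact Subgroup.mem_centralizer_singleton_iff.mpr (Subgroup.mem_center_iff.mp hzc y)
    have h5 := hle _ (hV.mono inf_le_left) h4
    have h6 := card_le_cube hV (hX.2 x hxX)
    rcases h5.lt_or_eq with h7 | h7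
    · have h8 := Loc.CG.mul_card_le_of_lt hX.isPGroup h7
      have h9 : Nat.card (V ⊓ Subgroup.centralizer {x} : Subgroup P) ≤ 3 := by omega
      have := Nat.pow_le_pow_left h9 3
      omega
    · have h8 : X ≤ V := h7.ge.trans inf_le_left
      have h9 := Subgroup.card_le_of_le
        (hle V hV (hV.le_centralizer.trans (GT.centralizer_anti h8)))
      omega
  intro E E' h1 h2 h3 h4
  exact (Loc.CG.kConn_two_of_normal hU hc h1 h2 (key E h1 h2)).trans
    (Loc.CG.kConn_two_of_normal hU hc h3 h4 (key E' h3 h4)).symm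

end Cfsg.Agent.S1338
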