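import Mathlib
-- Template for statement S1342 (row 1342; see /opt/grader/pristine/manifest.json for weights).
-- Copy to Cfsg/Agent/S1342.lean and replace the sorry. The statement below is byte-identical to the frozen
-- statement Cfsg.CfsgFrozen.S1342 (Cfsg/Statements/S1342.lean; the theorem Cfsg.extended_two_layer_normal);
-- the grader kernel-checks Cfsg.Agent.S1342.result against that frozen type. Keep the theorem IN THIS FILE
-- (a `result` declared elsewhere and merely imported here is not credited); helpers may live anywhere
-- under Cfsg/Agent/.
import Cfsg.Statements.S1342
import Cfsg.Agent.Loc.ExtLayer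

set_option autoImplicit false
open Cfsg

namespace Cfsg.Agent.S1342

/-- For a finite group X, L*_{2'}(X) is normal in X. -/
theorem result {X : Type*} [Group X] [Finite X] : (Cfsg.extendedTwoLayer X).Normal := by
  exact Loc.Ext.extendedTwoLayer_normal

end Cfsg.Agent.S1342
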