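import Mathlib
-- Template for statement S1343 (row 1343; see /opt/grader/pristine/manifest.json for weights).
-- Copy to Cfsg/Agent/S1343.lean and replace the sorry. The statement below is byte-identical to the frozen
-- statement Cfsg.CfsgFrozen.S1343 (Cfsg/Statements/S1343.lean; the theorem Cfsg.extended_two_layer_odd_complement);
-- the grader kernel-checks Cfsg.Agent.S1343.result against that frozen type. Keep the theorem IN THIS FILE
-- (a `result` declared elsewhere and merely imported here is not credited); helpers may live anywhere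
-- under Cfsg/Agent/.
import Cfsg.Statements.S1343
import Cfsg.Agent.Loc.ExtLayer

set_option autoImplicit false
open Cfsg

namespace Cfsg.Agent.S1343

/-- Let X be finite. Then L*_{2'}(X) = L_{2'}(X) ⊔ F for some subgroup F of odd order normalized by a Sylow 2-subgroup of X. -/
theorem result {X : Type*} [Group X] [Finite X] : ∃ F : Subgroup X, Odd (Nat.card ↥F) ∧ (∃ S : Sylow 2 X, (S : Subgroup X) ≤ Subgroup.normalizer (F : Set X)) ∧ Cfsg.extendedTwoLayer X = Cfsg.pLayer 2 X ⊔ F := by
  obtain ⟨S⟩ : Nonempty (Sylow 2 X) := inferInstance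
  have := Loc.Ext.base_normal (X := X)
  have hT := (Loc.Am.isSylowOf_top S).inf_of_normal (N := Loc.Ext.base X) le_top
    (Subgroup.normalizer_eq_top _).ge
  have hn : ∀ H : Subgroup X, H ≤ Subgroup.normalizer (pPrimeCore 2 X : Set X) :=
    fun H => le_top.trans (Subgroup.normalizer_eq_top _).ge
  refine ⟨pPrimeCore 2 X ⊔ GT.pPrimeCoreOf 2 (Subgroup.centralizer
    (((S : Subgroup X) ⊓ Loc.Ext.base X : Subgroup X) : Set X)), ?_, ⟨S, ?_⟩, ?_⟩
  · rw [sup_comm, ← Nat.coprime_two_right]
    exact Nat.Coprime.coprime_dvd_left (GT.card_sup_dvd _ _)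
      (Nat.Coprime.mul_left (GT.coprime_card_pPrimeCoreOf 2 _) (GT.coprime_card_pPrimeCore 2))
  · refine GT.CopAct.le_normalizer_sup (hn _) ?_
    refine le_trans ?_ (GT.normalizer_le_normalizer_pPrimeCoreOf _)
    exact GT.CopAct.le_normalizer_centralizer (GT.CopAct.le_normalizer_inf Subgroup.le_normalizer
      (le_top.trans (Subgroup.normalizer_eq_top _).ge))
  · rw [Loc.Ext.extendedTwoLayer_eq hT, sup_assoc]

end Cfsg.Agent.S1343
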