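import Mathlib
-- Template for statement S1344 (row 1344; see /opt/grader/pristine/manifest.json for weights).
-- Copy to Cfsg/Agent/S1344.lean and replace the sorry. The statement below is byte-identical to the frozen
-- statement Cfsg.CfsgFrozen.S1344 (Cfsg/Statements/S1344.lean; the theorem Cfsg.two_component_normal_in_extended_two_layer);
-- the grader kernel-checks Cfsg.Agent.S1344.result against that frozen type. Keep the theorem IN THIS FILE
-- (a `result` declared elsewhere and merely imported here is not credited); helpers may live anywhere
-- under Cfsg/Agent/.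
import Cfsg.Statements.S1344
import Cfsg.Agent.Loc.ExtLayer

set_option autoImplicit false
open Cfsg

namespace Cfsg.Agent.S1344

/-- Let K be a 2-component of the finite group X. Then K ≤ L*_{2'}(X) and K is normal in L*_{2'}(X). -/
theorem result {X : Type*} [Group X] [Finite X] (K : Subgroup X) (hK : Cfsg.IsPComponent 2 K) : K ≤ Cfsg.extendedTwoLayer X ∧ (K.subgroupOf (Cfsg.extendedTwoLayer X)).Normal := by
  have h : K ≤ extendedTwoLayer X := le_trans (le_sSup hK) Loc.Ext.pLayer_le_ext
  exact ⟨h, (Subgroup.normal_subgroupOf_iff_le_normalizer h).mpr
    (Loc.Ext.le_normalizer_of_isPComponent hK)⟩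

end Cfsg.Agent.S1344
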