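import Mathlib
-- Template for statement S1345 (row 1345; see /opt/grader/pristine/manifest.json for weights).
-- Copy to Cfsg/Agent/S1345.lean and replace the sorry. The statement below is byte-identical to the frozen
-- statement Cfsg.CfsgFrozen.S1345 (Cfsg/Statements/S1345.lean; the theorem Cfsg.core_balance);
-- the grader kernel-checks Cfsg.Agent.S1345.result against that frozen type. Keep the theorem IN THIS FILE
-- (a `result` declared elsewhere and merely imported here is not credited); helpers may live anywhere
-- under Cfsg/Agent/.
import Cfsg.Statements.S1345
import Cfsg.Agent.KF.CoreBal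

set_option autoImplicit false
open Cfsg

namespace Cfsg.Agent.S1345

/-- Core balance: for a finite group X whose non-abelian composition factors are known simple groups and a 2-subgroup R ≤ X, O(C_X(R)) ≤ L*_{2'}(X). -/
theorem result {X : Type*} [Group X] [Finite X] (hK : Cfsg.IsCompositionKGroup X) (R : Subgroup X) (hR : IsPGroup 2 ↥R) : (Cfsg.oddCore ↥(Subgroup.centralizer (R : Set X))).map (Subgroup.centralizer (R : Set X)).subtype ≤ Cfsg.extendedTwoLayer X := by
  exact KF.core_le_extTwo hR

end Cfsg.Agent.S1345
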