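import Mathlib
-- Template for statement S1346 (row 1346; see /opt/grader/pristine/manifest.json for weights).
-- Copy to Cfsg/Agent/S1346.lean and replace the sorry. The statement below is byte-identical to the frozen
-- statement Cfsg.CfsgFrozen.S1346 (Cfsg/Statements/S1346.lean; the theorem Cfsg.extended_two_layer_balance);
-- the grader kernel-checks Cfsg.Agent.S1346.result against that frozen type. Keep the theorem IN THIS FILE
-- (a `result` declared elsewhere and merely imported here is not credited); helpers may live anywhere
-- under Cfsg/Agent/.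
import Cfsg.Statements.S1346
import Cfsg.Agent.KF.CoreBal

set_option autoImplicit false
open Cfsg

namespace Cfsg.Agent.S1346

/-- Let G be a finite group all of whose 2-local subgroups have known non-abelian composition factors, and x, y commuting involutions. Then the extended 2-layer of L*_{2'}(C_G(x)) ∩ C_G(y) (as a group) is contained in L*_{2'}(C_G(y)). -/
theorem result {G : Type*} [Group G] [Finite G] (hK : ∀ T : Subgroup G, IsPGroup 2 ↥T → T ≠ ⊥ → Cfsg.IsCompositionKGroup ↥(Subgroup.normalizer (T : Set G))) (x y : G) (hx : orderOf x = 2) (hy : orderOf y = 2) (hxy : x * y = y * x) : (Cfsg.extendedTwoLayer ↥((Cfsg.extendedTwoLayer ↥(Subgroup.centralizer ({x} : Set G))).map (Subgroup.centralizer ({x} : Set G)).subtype ⊓ Subgroup.centralizer ({y} : Set G))).map ((Cfsg.extendedTwoLayer ↥(Subgroup.centralizer ({x} : Set G))).map (Subgroup.centralizer ({x} : Set G)).subtype ⊓ Subgroup.centralizer ({y} : Set G)).subtype ≤ (Cfsg.extendedTwoLayer ↥(Subgroup.centralizer ({y} : Set G))).map (Subgroup.centralizer ({y} : Set G)).subtype := by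
  have := (Loc.Ext.extendedTwoLayer_normal (X := Subgroup.centralizer ({x} : Set G)))
  rw [KF.map_extTwo, KF.map_extTwo (Subgroup.centralizer ({y} : Set G))]
  refine KF.Lst_le_of_subnormal (R := Subgroup.zpowers x) KF.lb_two
    (Subgroup.zpowers_le.2 (Subgroup.mem_centralizer_singleton_iff.2 hxy))
    (GT.isPGroup_zpowers_of_orderOf_eq (k := 1) (by rw [hx]; rfl)) ?_
  rw [GT.centralizer_zpowers, inf_comm (Subgroup.centralizer {y})]
  refine GT.SubnormalIn.inf_inf (.of_le_normalizer (Subgroup.map_subtype_le _) ?_) _
  exact (Subgroup.normal_subgroupOf_iff_le_normalizer (Subgroup.map_subtype_le _)).1 (by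
    rwa [Subgroup.subgroupOf, Subgroup.comap_map_eq_self_of_injective (Subgroup.subtype_injective _)])

end Cfsg.Agent.S1346
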