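import Mathlib
import Cfsg.Statements.S1348
import Cfsg.Agent.Cl.LinearBlock
import Cfsg.Agent.S1306

set_option autoImplicit false
open Cfsg

namespace Cfsg.Agent.S1348

/-- Let F be a finite field of odd order, n ≥ 7 odd, and t ∈ SL(n, F) the diagonal matrix with entries −1, …, −1, 1. Then E(C(t)) is a standard subgroup of SL(n, F). -/
theorem result {F : Type*} [Field F] [Fintype F] [DecidableEq F] (hF : Odd (Fintype.card F)) (n : ℕ) (hn : 7 ≤ n) (hodd : Odd n) (t : Matrix.SpecialLinearGroup (Fin n) F) (ht : (t : Matrix (Fin n) (Fin n) F) = Matrix.diagonal (fun i : Fin n => if (i : ℕ) + 1 = n then (1 : F) else -1)) : Cfsg.IsStandardSubgroup ((Cfsg.layer ↥(Subgroup.centralizer ({t} : Set (Matrix.SpecialLinearGroup (Fin n) F)))).map (Subgroup.centralizer ({t} : Set (Matrix.SpecialLinearGroup (Fin n) F))).subtype) := by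
  have hne : (-1 : F) ≠ 1 := Ring.neg_one_ne_one_of_char_ne_two fun h => by
    have := FiniteField.even_card_of_char_two h
    obtain ⟨k, hk⟩ := hF
    omega
  let z : Fin n := ⟨n - 1, by omega⟩
  have hz : ∀ i : Fin n, (i : ℕ) + 1 = n ↔ i = z := fun i => by
    rw [Fin.ext_iff]; simp only [z]; omega
  simp only [hz] at ht
  let P : Fin n → Prop := fun i => i ≠ z
  have hcard : Fintype.card {i // P i} = n - 1 := by simp [P]
  have : Nontrivial {i // P i} := Fintype.one_lt_card_iff_nontrivial.1 (by omega)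
  have hC : ∀ g : Matrix.SpecialLinearGroup (Fin n) F, g ∈ Subgroup.centralizer {t} ↔
      ∀ i j, ¬ (P i ↔ P j) → (g : Matrix (Fin n) (Fin n) F) i j = 0 := fun g => by
    rw [Subgroup.mem_centralizer_singleton_iff, ← Matrix.SpecialLinearGroup.coeMonoidHom_injective.eq_iff,
      map_mul, map_mul, Matrix.SpecialLinearGroup.coeMonoidHom_apply,
      Matrix.SpecialLinearGroup.coeMonoidHom_apply, ht, Cl.commute_diagonal_iff]
    refine forall₂_congr fun i j => ?_
    by_cases hi : i = z <;> by_cases hj : j = z <;> simp [hi, hj, P, hne, hne.symm]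
  set L := (Cl.subSL P F).range with hL
  have hq : IsQuasisimple L := (Cl.sl_isQuasisimple (Or.inl (by omega))).of_mulEquiv
    (MonoidHom.ofInjective (Cl.subSL_injective P))
  have hle : L ≤ Subgroup.centralizer {t} := fun g hg => (hC g).2 fun i j h => by
    rw [(Cl.mem_range_subSL P).1 hg i j (by tauto), Matrix.one_apply_ne (by rintro rfl; tauto)]
  have hN : (L.subgroupOf (Subgroup.centralizer {t})).Normal := ⟨fun k hk g =>
    (Cl.mem_range_subSL P).2 (Cl.conj_apply_of_block P
      (congrArg Subtype.val (mul_inv_cancel g.1)) (fun i j h1 h2 => (hC _).1 g.2 i j (by tauto))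
      (fun i j h1 h2 => (hC _).1 (inv_mem g.2) i j (by tauto)) ((Cl.mem_range_subSL P).1 hk))⟩
  have hc : IsComponent (L.subgroupOf (Subgroup.centralizer {t})) :=
    ⟨hN.isSubnormal, hq.subgroupOf hle⟩
  have hmul : ∀ x ∈ Subgroup.centralizer {t}, ∀ y : Matrix.SpecialLinearGroup (Fin n) F,
      (x * y : Matrix.SpecialLinearGroup (Fin n) F) z z = x z z * y z z := fun x hx y => by
    rw [Matrix.SpecialLinearGroup.coe_mul, Matrix.mul_apply, Finset.sum_eq_single z]
    · intro k _ hk
      rw [(hC x).1 hx z k (by simp [P, hk]), zero_mul]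
    · simp
  have hE : (Cfsg.layer ↥(Subgroup.centralizer ({t} : Set (Matrix.SpecialLinearGroup (Fin n) F)))).map
      (Subgroup.centralizer ({t} : Set (Matrix.SpecialLinearGroup (Fin n) F))).subtype = L := by
    refine le_antisymm ?_ (IsComponentOf.le_subgroupLayer ⟨hle, hc⟩)
    rw [← GT.commutator_layer, Subgroup.map_le_iff_le_comap, Subgroup.commutator_le]
    rintro ⟨x, hx⟩ - ⟨y, hy⟩ -
    have hm : x * y * x⁻¹ * y⁻¹ ∈ Subgroup.centralizer {t} :=
      mul_mem (mul_mem (mul_mem hx hy) (inv_mem hx)) (inv_mem hy)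
    refine (Cl.mem_range_subSL P).2 fun i j h => ?_
    change (x * y * x⁻¹ * y⁻¹ : Matrix.SpecialLinearGroup (Fin n) F) i j = _
    by_cases h' : P i ↔ P j
    · obtain rfl : i = z := by simp only [P] at h h'; tauto
      obtain rfl : j = z := by simp only [P] at h h'; tauto
      have h1 := hmul x hx x⁻¹
      have h2 := hmul y hy y⁻¹
      rw [mul_inv_cancel] at h1 h2
      rw [hmul _ (mul_mem (mul_mem hx hy) (inv_mem hx)), hmul _ (mul_mem hx hy), hmul _ hx]
      simp only [Matrix.SpecialLinearGroup.coe_one, Matrix.one_apply_eq] at h1 h2 ⊢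
      linear_combination -(x z z * x⁻¹ z z) * h2 - h1
    · rw [(hC _).1 hm i j h', Matrix.one_apply_ne (by rintro rfl; tauto)]
  rw [hE]
  have hcent : ∀ y ∈ Subgroup.centralizer (L : Set (Matrix.SpecialLinearGroup (Fin n) F)),
      ∃ a b : F, (y : Matrix (Fin n) (Fin n) F) = Matrix.diagonal fun i => if i = z then b else a := by
    intro y hy
    obtain ⟨h1, h2⟩ := Cl.apply_of_centralizes_sub P (g := Matrix.SpecialLinearGroup.toGL y)
      (fun i hi => by
        obtain ⟨k, hk1, hk2⟩ := Cl.exists_ne_ne_of_three_le_card (ι := Fin n) (by simp; omega) i z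
        exact ⟨k, hk2, hk1⟩)
      (fun i j h hi hj => by
        rw [Cl.tGL, ← map_mul, ← map_mul, Subgroup.mem_centralizer_iff.1 hy _
          (Cl.transvection_mem_range_subSL P h hi hj 1)])
    obtain ⟨k, hk, -⟩ := Cl.exists_ne_ne_of_three_le_card (ι := Fin n) (by simp; omega) z z
    refine ⟨y k k, y z z, ?_⟩
    ext i j
    rcases eq_or_ne i j with rfl | hij
    · rw [Matrix.diagonal_apply_eq]
      split_ifs with h
      · rw [h]
      · exact h2 i k h hk
    · rw [Matrix.diagonal_apply_ne _ hij]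
      exact h1 i j hij (by by_contra h; simp only [P, not_or, not_not] at h; exact hij (h.1.trans h.2.symm))
  have ht2 : orderOf t = 2 := by
    refine orderOf_eq_prime (Cl.sl_ext ?_) fun h => ?_
    · rw [Matrix.SpecialLinearGroup.coe_pow, ht, Matrix.diagonal_pow,
        Matrix.SpecialLinearGroup.coe_one, ← Matrix.diagonal_one]
      congr 1
      ext i
      by_cases hi : i = z <;> simp [hi]
    · obtain ⟨k, hk, -⟩ := Cl.exists_ne_ne_of_three_le_card (ι := Fin n) (by simp; omega) z z
      have := congrFun (congrFun ht k) k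
      simp [h, hk, hne.symm] at this
  refine S1306.result t ht2 L hle hc (fun y hy2 hy => ?_) fun g _ h => ?_
  · obtain ⟨a, b, e⟩ := hcent y hy
    obtain ⟨k, hk, -⟩ := Cl.exists_ne_ne_of_three_le_card (ι := Fin n) (by simp; omega) z z
    have h1 := congrArg (fun g : Matrix.SpecialLinearGroup (Fin n) F => (g : Matrix (Fin n) (Fin n) F) k k)
      (hy2 ▸ pow_orderOf_eq_one y)
    simp [e, Matrix.diagonal_pow, hk] at h1
    have h2 := y.det_coe
    rw [e, Matrix.det_diagonal, Fintype.prod_eq_mul_prod_compl z, if_pos rfl,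
      Finset.prod_congr rfl fun i hi => if_neg (by simpa using hi), Finset.prod_const,
      Finset.card_compl, Fintype.card_fin, Finset.card_singleton] at h2
    have h3 : a ^ (n - 1) = 1 := by
      have he : Even (n - 1) := Nat.Odd.sub_odd hodd odd_one
      rcases h1 with rfl | rfl
      · exact one_pow _
      · exact he.neg_one_pow
    rw [h3, mul_one] at h2
    obtain rfl : y = t := by
      rcases h1 with rfl | rfl
      · have : y = 1 := Cl.sl_ext (by rw [e, h2]; simp)
        rw [this, orderOf_one] at hy2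
        omega
      · exact Cl.sl_ext (by rw [e, ht, h2])
    exact ⟨hle, hc⟩
  · rw [Subgroup.commutator_comm, Subgroup.commutator_eq_bot_iff_le_centralizer] at h
    refine (hq.map_of_injective (f := (MulAut.conj g).toMonoidHom)
      (MulAut.conj g).injective).not_isMulCommutative ⟨⟨fun x y => Subtype.ext (Cl.sl_ext ?_)⟩⟩
    obtain ⟨a, b, e⟩ := hcent x (h x.2)
    obtain ⟨c, d, e'⟩ := hcent y (h y.2)
    rw [Subgroup.coe_mul, Subgroup.coe_mul, Matrix.SpecialLinearGroup.coe_mul,
      Matrix.SpecialLinearGroup.coe_mul, e, e']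
    exact Matrix.commute_diagonal _ _

end Cfsg.Agent.S1348
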