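import Mathlib
import Cfsg.Statements.S1362
import Cfsg.Agent.FT.BG16_II

set_option autoImplicit false
open Cfsg

namespace Cfsg.Agent.S1362

open Cfsg.Agent.FT Cfsg.Agent.FT.B15

/-- Let G be a minimal simple group of odd order and M a maximal subgroup with standard factorisation M = K U M_σ, and let A(M) be the set of elements of U M_σ centralizing some non-identity element of M_σ. Then A(M) with M_σ removed is a TI-subset of G. -/
theorem result {G : Type*} [Group G] [Finite G] (hG : Cfsg.IsMinSimpleOddOrder G)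
    (M : Subgroup G) (hM : IsCoatom M) (K U : Subgroup G) (hKU : Cfsg.IsSigmaDecomposition M K U) :
    Cfsg.IsTISubset (Cfsg.sigmaA M U \ (Cfsg.sigmaCore M : Set G)) := by
  have h : sigmaA M U \ (sigmaCore M : Set G) = typeA' M \ (sigmaCore M : Set G) := by
    rw [FTsupp_kappa hG hM hKU]
    ext a
    exact ⟨fun h => ⟨⟨h.1, fun e => h.2 (Set.mem_singleton_iff.1 e ▸ (sigmaCore M).one_mem)⟩, h.2⟩,
      fun h => ⟨h.1.1, h.2⟩⟩
  rw [h]
  intro g hg x hx hgx
  have hgM := mem_of_conj_FTsupp hG hM hx.1 hgx.1 hx.2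
  refine absurd (Subgroup.mem_set_normalizer_iff.2 fun y => ?_) hg
  exact and_congr (Subgroup.mem_set_normalizer_iff.1 ((norm_FTsupp hG hM).ge hgM) y)
    (Subgroup.mem_set_normalizer_iff.1 ((B10.sigmaCore_normalIn M).norm hgM) y).not

end Cfsg.Agent.S1362
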