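import Mathlib
import Cfsg.Statements.S1385
import Cfsg.Agent.FT.TypeIBridge
import Cfsg.Agent.FT.BG16_I

set_option autoImplicit false
open Cfsg

namespace Cfsg.Agent.S1385

open Cfsg.Agent.FT Cfsg.Agent.FT.B15

/-- Let G be a minimal simple group of odd order. Then either every maximal subgroup of G is of Type I, or there are nontrivial subgroups W₁, W₂ generating a cyclic group W that is the normalizer of every nonempty subset of W outside W₁ ∪ W₂, and maximal subgroups S, T with W₁ a complement to S' in S, W₂ a complement to T' in T, S ∩ T = W, S or T of Type II, each of S, T of Type II, III, IV or V, and every maximal subgroup of G of Type I or conjugate to S or to T. -/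
theorem result {G : Type*} [Group G] [Finite G] (hG : Cfsg.IsMinSimpleOddOrder G) :
    (∀ M : Subgroup G, IsCoatom M → Cfsg.IsOfTypeI M) ∨
      ∃ W₁ W₂ S T : Subgroup G, Cfsg.IsSelfNormalizingCyclic W₁ W₂ ∧ IsCoatom S ∧ IsCoatom T ∧
        Cfsg.IsComplIn ⁅S, S⁆ W₁ S ∧ Cfsg.IsComplIn ⁅T, T⁆ W₂ T ∧ S ⊓ T = W₁ ⊔ W₂ ∧
        (Cfsg.IsOfTypeII S ∨ Cfsg.IsOfTypeII T) ∧
        (Cfsg.IsOfTypeII S ∨ Cfsg.IsOfTypeIII S ∨ Cfsg.IsOfTypeIV S ∨ Cfsg.IsOfTypeV S) ∧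
        (Cfsg.IsOfTypeII T ∨ Cfsg.IsOfTypeIII T ∨ Cfsg.IsOfTypeIV T ∨ Cfsg.IsOfTypeV T) ∧
        ∀ M : Subgroup G, IsCoatom M → Cfsg.IsOfTypeI M ∨ ∃ g : G, M = S.map (MulAut.conj g).toMonoidHom ∨ M = T.map (MulAut.conj g).toMonoidHom := by
  have key : ∀ M : Subgroup G, IsCoatom M → FTtype M = 1 → IsOfTypeI M := fun M hM h =>
    (typeI'_iff_typeI hG hM).1 ((FTtypeP1 hG hM).1 h)
  rcases BGsummaryI hG with h | ⟨S, T, W₁, W₂, U, V, hS, hT, hP, hQ, h1, h2, -, h3⟩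
  · exact Or.inl fun M hM => key M hM (h M hM)
  refine Or.inr ⟨W₁, W₂, S, T, hP.selfNormalizing, hS, hT, hP.W₁_compl, hQ.W₁_compl, h1,
    h2.imp (FTtypeP2 hG hS).1 (FTtypeP2 hG hT).1,
    (FTtype_ne_one_iff_II_V hG hS).1 (FTtypeP_neq1 hG hS hP),
    (FTtype_ne_one_iff_II_V hG hT).1 (FTtypeP_neq1 hG hT hQ), fun M hM => ?_⟩
  by_cases h : FTtype M = 1
  · exact Or.inl (key M hM h)
  · exact Or.inr (h3 M hM h)

end Cfsg.Agent.S1385
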