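import Cfsg.Statements.S1386
import Cfsg.Agent.FT.PF8TypeP
import Cfsg.Agent.FT.B13Aux

set_option autoImplicit false
open Cfsg

namespace Cfsg.Agent.S1386

/-- Let G be a finite group, W₁, W₂ subgroups forming a self-normalizing cyclic pair, S a subgroup with W₂ ≤ S and W₁ a complement to S' in S, and (W₁, U, W₂') type-P data for S. Then W₂' = W₂ (that is, C_{S'}(W₁) = W₂). -/
theorem result {G : Type*} [Group G] [Finite G] (W₁ W₂ S U W₂' : Subgroup G) (hW : Cfsg.IsSelfNormalizingCyclic W₁ W₂)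
    (hSW : Cfsg.IsComplIn ⁅S, S⁆ W₁ S) (hW₂S : W₂ ≤ S) (hP : Cfsg.IsTypePWith S W₁ U W₂') :
    W₂' = W₂ := by
  obtain ⟨h1, h2, h3, h4, h5, h6⟩ := hW
  obtain ⟨a, ha, ha1⟩ := FT.exists_mem_ne_one h1
  obtain ⟨b, hb, hb1⟩ := FT.exists_mem_ne_one h2
  have hti : ∀ x ∈ W₁, x ∈ W₂ → x = 1 := fun x hx hx' => Subgroup.mem_bot.mp (h3 ▸ ⟨hx, hx'⟩)
  have s1 : W₁ ⊔ W₂ ≤ W₁ ⊔ W₂' := by
    refine sup_le le_sup_left fun y hy => ?_
    rw [← hP.cent_elt ha ha1]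
    exact ⟨hW₂S hy, FT.mem_cent_elt'.mpr (h4 a ha y hy)⟩
  have hab : a * b ∈ W₁ ⊔ W₂ := Subgroup.mul_mem_sup ha hb
  have s2 : W₁ ⊔ W₂' ≤ W₁ ⊔ W₂ := by
    rw [← h6 {a * b} ?_ (Set.singleton_nonempty _), FT.normalizer_singleton_eq_cent]
    · intro y hy
      exact FT.mem_cent_elt.mpr
        (FT.mul_comm_of_comm (FT.isMulCommutative_of_isCyclic hP.W_cyclic) hy (s1 hab))
    · rw [Set.singleton_subset_iff]
      refine ⟨hab, ?_⟩
      rintro (h | h)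
      · exact hb1 (hti b ((W₁.mul_mem_cancel_left ha).mp h) hb)
      · exact ha1 (hti a ha ((W₂.mul_mem_cancel_right hb).mp h))
  have e := le_antisymm s1 s2
  have d : FT.Dprod W₁ W₂ (W₁ ⊔ W₂) :=
    ⟨rfl, h3, fun y hy => FT.mem_cent.mpr fun x hx => h4 x hx y hy⟩
  have c : Nat.card W₂' = Nat.card W₂ := by
    have c1 := d.card_eq
    have c2 := hP.dprod_W.card_eq
    rw [← e, ← c1] at c2
    exact Nat.eq_of_mul_eq_mul_left Nat.card_pos c2
  exact FT.B13.eq_of_card_eq_of_cyclic h5 (le_sup_right.trans s2) le_sup_right c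

end Cfsg.Agent.S1386
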