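import Mathlib
import Cfsg.Statements.S1390
import Cfsg.Agent.FT.BG16_Facts

set_option autoImplicit false
open Cfsg

namespace Cfsg.Agent.S1390

open Cfsg.Agent.FT Cfsg.Agent.FT.B15

/-- Let G be a minimal simple group of odd order, M a maximal subgroup and H = M_F; suppose M is of Type I and U is a complement to H in M, or M is of Type II and U is a complement to H in M'. Then every Sylow subgroup of U is abelian with no elementary abelian subgroup of order p ^ 3; for every nonempty set X of non-identity elements of U centralizing a non-identity element of H, C_G(X) ≤ M and M is the unique maximal subgroup containing C_G(X); and A(M) with A₁(M) removed is a TI-subset of G. -/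
theorem result {G : Type*} [Group G] [Finite G] (hG : Cfsg.IsMinSimpleOddOrder G)
    (M : Subgroup G) (hM : IsCoatom M) (U : Subgroup G)
    (hU : (Cfsg.IsOfTypeI M ∧ Cfsg.IsComplIn (Cfsg.fittingHallOf M) U M) ∨ (Cfsg.IsOfTypeII M ∧ Cfsg.IsComplIn (Cfsg.fittingHallOf M) U ⁅M, M⁆)) :
    (∀ (p : ℕ), p.Prime → ∀ P : Sylow p U, IsMulCommutative (P : Subgroup U) ∧ Cfsg.PRankLE p 2 (P : Subgroup U)) ∧
      (∀ X : Set G, X ⊆ (U : Set G) \ {1} → X.Nonempty → Cfsg.fittingHallOf M ⊓ Subgroup.centralizer X ≠ ⊥ →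
        Subgroup.centralizer X ≤ M ∧ ∀ L : Subgroup G, IsCoatom L → Subgroup.centralizer X ≤ L → L = M) ∧
      Cfsg.IsTISubset (Cfsg.typeA M \ Cfsg.typeA1 M) := by
  have hU' : (FTtype M = 1 ∧ Sdprod (fittingHallOf M) U M) ∨
      (FTtype M = 2 ∧ Sdprod (fittingHallOf M) U ⁅M, M⁆) :=
    hU.imp (fun h => ⟨(FTtypeP1 hG hM).2 (isOfTypeI'_of_isOfTypeI h.1),
      sdprod_of_isComplIn h.2 (Fcore_normal M).norm⟩) fun h => ⟨(FTtypeP2 hG hM).2 h.1,
      sdprod_of_isComplIn h.2 ((B12.der_le M).trans (Fcore_normal M).norm)⟩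
  have hA : typeA' M = typeA M := typeA'_eq_typeA (hU.elim
    (fun h => ⟨fun _ => h.1, isOfTypeI'_of_isOfTypeI⟩) fun h =>
      typeI'_iff_typeI_of_ne_one hG hM (by have := (FTtypeP2 hG hM).2 h.1; omega))
  obtain ⟨h1, h2, h3⟩ := FTtypeI_II_facts hG hM hU'
  refine ⟨fun p hp P => ?_, h2, ?_⟩
  · have : Fact p.Prime := ⟨hp⟩
    obtain ⟨h4, h5⟩ := h1 p _ hp (B10.syl_map P)
    have e := (P : Subgroup U).equivMapOfInjective _ U.subtype_injective
    exact ⟨(isMulCommutative_congr e).2 h4, (pRankLE_congr e).2 h5⟩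
  · rw [← hA]
    intro g hg x hx hgx
    have h4 := h3 ⟨x, hx⟩
    exact absurd (h4.norm (h4.ti g trivial x hx hgx)) hg

end Cfsg.Agent.S1390
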