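import Mathlib
import Cfsg.Statements.S1391
import Cfsg.Agent.FT.TypeIBridge
import Cfsg.Agent.FT.BG16_II
import Cfsg.Agent.GT.FrobeniusBasic

set_option autoImplicit false
open Cfsg

namespace Cfsg.Agent.S1391

open Cfsg.Agent.FT Cfsg.Agent.FT.B15

/-- Let G be a minimal simple group of odd order, M a maximal subgroup, X = A(M) or A₀(M), and D the set of x ∈ X with C_G(x) not contained in M. Then two elements of X conjugate in G are conjugate in M; D ⊆ A₁(M) and for x ∈ D the centralizer C_G(x) lies in exactly one maximal subgroup; and for x ∈ D and the maximal subgroup L containing C_G(x): M ∩ L complements L_F in L, C_M(x) complements the normal subgroup C_{L_F}(x) of C_G(x), the order of L_F is coprime to that of C_M(y) for every y ∈ X, x ∈ A(L) but x ∉ A₁(L), L is of Type I or II, and if L is of Type II then M is a Frobenius group with kernel M_F. -/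
theorem result {G : Type*} [Group G] [Finite G] (hG : Cfsg.IsMinSimpleOddOrder G)
    (M : Subgroup G) (hM : IsCoatom M) (X : Set G) (hX : X = Cfsg.typeA M ∨ X = Cfsg.typeA0 M) :
    (∀ x ∈ X, ∀ g : G, g * x * g⁻¹ ∈ X → ∃ m ∈ M, m * x * m⁻¹ = g * x * g⁻¹) ∧
      (∀ x ∈ X, ¬ Subgroup.centralizer ({x} : Set G) ≤ M → x ∈ Cfsg.typeA1 M ∧ ∃! L : Subgroup G, IsCoatom L ∧ Subgroup.centralizer ({x} : Set G) ≤ L) ∧
      ∀ x ∈ X, ¬ Subgroup.centralizer ({x} : Set G) ≤ M → ∀ L : Subgroup G, IsCoatom L → Subgroup.centralizer ({x} : Set G) ≤ L →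
        Cfsg.IsComplIn (Cfsg.fittingHallOf L) (M ⊓ L) L ∧
        Subgroup.centralizer ({x} : Set G) ≤ Subgroup.normalizer ((Cfsg.fittingHallOf L ⊓ Subgroup.centralizer ({x} : Set G) : Subgroup G) : Set G) ∧
        Cfsg.IsComplIn (Cfsg.fittingHallOf L ⊓ Subgroup.centralizer ({x} : Set G)) (M ⊓ Subgroup.centralizer ({x} : Set G)) (Subgroup.centralizer ({x} : Set G)) ∧
        (∀ y ∈ X, (Nat.card (Cfsg.fittingHallOf L)).Coprime (Nat.card ↥(M ⊓ Subgroup.centralizer ({y} : Set G)))) ∧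
        (x ∈ Cfsg.typeA L ∧ x ∉ Cfsg.typeA1 L) ∧
        (Cfsg.IsOfTypeI L ∨ Cfsg.IsOfTypeII L) ∧
        (Cfsg.IsOfTypeII L → ∃ E : Subgroup ↥M, Cfsg.IsFrobeniusComplement E ∧ Cfsg.frobeniusKernel E = ((Cfsg.fittingHall ↥M : Subgroup ↥M) : Set ↥M)) := by
  rw [mmax_typeA_eq hG hM, mmax_typeA0_eq hG hM] at hX
  obtain ⟨h1, h2, h3⟩ := BGsummaryII hG hM hX
  refine ⟨h1, h2, fun x hx hC L hL hCL => ?_⟩
  obtain ⟨h4, h5, h6, h7, h8, h9⟩ := h3 x hx hC L hL hCL
  refine ⟨h4.isComplIn, h5.normalIn.norm, h5.isComplIn, h6, mmax_typeA_eq hG hL ▸ h7,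
    h8.imp (fun h => (typeI'_iff_typeI hG hL).1 ((FTtypeP1 hG hL).1 h)) (FTtypeP2 hG hL).1,
    fun h => ?_⟩
  obtain ⟨E, hE, -⟩ := h9 ((FTtypeP2 hG hL).2 h)
  have hc := isComplement'_of_sdprod hE.sdprod
  have hF : IsFrobeniusComplement (E.subgroupOf M) := by
    refine GT.Frob.isFrobeniusComplement_of_fpf hc (Fcore_eq_bot_iff.not.1 hE.ker_ne_bot)
      (fun e => ?_) fun y hy hy1 => ?_
    · rw [Subgroup.subgroupOf_eq_bot, disjoint_iff, inf_eq_left.2 hE.sdprod.le_right] at e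
      exact hE.compl_ne_bot e
    · rw [← Fcore_subgroupOf, ← subgroupOf_cent_elt, ← subgroupOf_inf,
        hE.semiregular y hy fun e => hy1 (Subtype.ext e), Subgroup.bot_subgroupOf]
  exact ⟨_, hF, hF.kernel_eq_of_isComplement' hc⟩

end Cfsg.Agent.S1391
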