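import Mathlib
import Cfsg.Statements.S1392
import Cfsg.Agent.FT.BG7_1

set_option autoImplicit false
open Cfsg

namespace Cfsg.Agent.S1392

theorem result {G : Type*} [Group G] [Finite G] (hG : Cfsg.IsMinSimpleOddOrder G)
    (A : Subgroup G) (hA : Cfsg.TransitivityHypothesis A) (q : ℕ) (hq : q.Prime) (hqA : ¬ q ∣ Nat.card A)
    (Q₁ Q₂ : Subgroup G) (h₁ : Q₁ ∈ Cfsg.maxInvSubgroups ⊤ A {q}) (h₂ : Q₂ ∈ Cfsg.maxInvSubgroups ⊤ A {q})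
    (H : Subgroup G) (hH : H ≠ ⊤) (hAH : A ≤ H) (hH₁ : H ⊓ Q₁ ≠ ⊥) (hH₂ : H ⊓ Q₂ ≠ ⊥) :
    ∃ k ∈ Cfsg.piCoreOf (Cfsg.primesNotDvd (Nat.card A)) (Subgroup.centralizer (A : Set G)), Q₂ = Q₁.map (MulAut.conj k).toMonoidHom := by
  have : Fact q.Prime := ⟨hq⟩
  rw [FT.piCoreOf_primesNotDvd]
  exact FT.normed_constrained_meet_trans hG (FT.normedConstrained_of_transitivityHypothesis hA)
    (fun h => hqA h.2) hAH hH h₁ h₂ hH₁ hH₂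

end Cfsg.Agent.S1392
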