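import Mathlib
-- Template for statement S1396 (row 1396; see /opt/grader/pristine/manifest.json for weights).
-- Copy to Cfsg/Agent/S1396.lean and replace the sorry. The statement below is byte-identical to the frozen
-- statement Cfsg.CfsgFrozen.S1396 (Cfsg/Statements/S1396.lean; the theorem Cfsg.minsimple_odd_transitivity_hypothesis_criteria);
-- the grader kernel-checks Cfsg.Agent.S1396.result against that frozen type. Keep the theorem IN THIS FILE
-- (a `result` declared elsewhere and merely imported here is not credited); helpers may live anywhere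
-- under Cfsg/Agent/.
import Cfsg.Statements.S1396
import Cfsg.Agent.FT.BG7_5

set_option autoImplicit false
open Cfsg

namespace Cfsg.Agent.S1396

/-- Let G be a minimal simple group of odd order, p a prime dividing the order of G and A an abelian p-subgroup. Suppose either (1) A consists exactly of the elements x of C_G(A) with x^p = 1, and every proper subgroup of G has p-length at most one, or (2) A is normal and self-centralizing in some Sylow p-subgroup of G and has rank at least 2. Then A satisfies the transitivity hypothesis. -/
theorem result {G : Type*} [Group G] [Finite G] (hG : Cfsg.IsMinSimpleOddOrder G)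
    (p : ℕ) [Fact p.Prime] (hp : p ∣ Nat.card G) (A : Subgroup G) (hAp : IsPGroup p A) (hAc : IsMulCommutative A)
    (h : (∀ x ∈ Subgroup.centralizer (A : Set G), x ^ p = 1 ↔ x ∈ A) ∧ (∀ H : Subgroup G, H ≠ ⊤ → Cfsg.PLengthLE p 1 H) ∨
      ∃ P : Sylow p G, Cfsg.IsSCN (P : Subgroup G) A ∧ ¬ Cfsg.PRankLE p 1 A) :
    Cfsg.TransitivityHypothesis A := by
  refine FT.NormedConstrained.transitivityHypothesis ?_
  rcases h with ⟨h, -⟩ | ⟨P, hP, hr⟩
  · refine FT.normed_constrained_of_cent_omega hG ?_ hAp fun x hx hxp => (h x hx).1 hxp
    rintro rfl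
    obtain ⟨x, hx⟩ := exists_prime_orderOf_dvd_card' p hp
    have h1 := (h x (by rw [FT.cent_bot]; trivial)).1 (hx ▸ pow_orderOf_eq_one x)
    rw [Subgroup.mem_bot.1 h1, orderOf_one] at hx
    exact (Fact.out : p.Prime).one_lt.ne hx
  · exact FT.SCN_normed_constrained hG (GT.isPiHallOf_top_iff.2 (GT.isPiHall_sylow P)) hP hr

end Cfsg.Agent.S1396
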