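import Mathlib
-- Template for statement S1399 (row 1399; see /opt/grader/pristine/manifest.json for weights).
-- Copy to Cfsg/Agent/S1399.lean and replace the sorry. The statement below is byte-identical to the frozen
-- statement Cfsg.CfsgFrozen.S1399 (Cfsg/Statements/S1399.lean; the theorem Cfsg.minsimple_odd_uniqueness_passes_to_centralizing_rank_two);
-- the grader kernel-checks Cfsg.Agent.S1399.result against that frozen type. Keep the theorem IN THIS FILE
-- (a `result` declared elsewhere and merely imported here is not credited); helpers may live anywhere
-- under Cfsg/Agent/.
import Cfsg.Statements.S1399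
import Cfsg.Agent.FT.BG9_2

set_option autoImplicit false
open Cfsg

namespace Cfsg.Agent.S1399

/-- Let G be a minimal simple group of odd order, L a subgroup contained in exactly one maximal subgroup of G, and K a subgroup of C_G(L) having, for some prime p, an elementary abelian subgroup of order p ^ 2. Then K is contained in exactly one maximal subgroup of G. -/
theorem result {G : Type*} [Group G] [Finite G] (hG : Cfsg.IsMinSimpleOddOrder G)
    (L K : Subgroup G) (hL : Cfsg.InUniqueMaximal L) (hK : K ≤ Subgroup.centralizer (L : Set G)) (hKr : ¬ Cfsg.RankLE 1 K) :
    Cfsg.InUniqueMaximal K := by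
  exact FT.cent_uniq_Uniqueness hG hL hK hKr

end Cfsg.Agent.S1399
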