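import Mathlib
-- Template for statement S1402 (row 1402; see /opt/grader/pristine/manifest.json for weights).
-- Copy to Cfsg/Agent/S1402.lean and replace the sorry. The statement below is byte-identical to the frozen
-- statement Cfsg.CfsgFrozen.S1402 (Cfsg/Statements/S1402.lean; the theorem Cfsg.minsimple_odd_scn_three_uniqueness);
-- the grader kernel-checks Cfsg.Agent.S1402.result against that frozen type. Keep the theorem IN THIS FILE
-- (a `result` declared elsewhere and merely imported here is not credited); helpers may live anywhere
-- under Cfsg/Agent/.
import Cfsg.Statements.S1402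
import Cfsg.Agent.FT.BG9_5

set_option autoImplicit false
open Cfsg

namespace Cfsg.Agent.S1402

/-- Let G be a minimal simple group of odd order, p a prime, P a Sylow p-subgroup of G and A a normal subgroup of P with C_P(A) = A containing an elementary abelian subgroup of order p ^ 3. Then A lies in exactly one maximal subgroup of G. -/
theorem result {G : Type*} [Group G] [Finite G] (hG : Cfsg.IsMinSimpleOddOrder G)
    (p : ℕ) [Fact p.Prime] (P : Sylow p G) (A : Subgroup G) (hA : Cfsg.IsSCN (P : Subgroup G) A) (hA3 : ¬ Cfsg.PRankLE p 2 ↥A) :
    Cfsg.InUniqueMaximal A := by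
  exact FT.SCN_3_Uniqueness hG ⟨P, FT.B10.syl_top P, hA, hA3⟩

end Cfsg.Agent.S1402
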