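import Mathlib
-- Template for statement S1403 (row 1403; see /opt/grader/pristine/manifest.json for weights).
-- Copy to Cfsg/Agent/S1403.lean and replace the sorry. The statement below is byte-identical to the frozen
-- statement Cfsg.CfsgFrozen.S1403 (Cfsg/Statements/S1403.lean; the theorem Cfsg.minsimple_odd_uniqueness_theorem);
-- the grader kernel-checks Cfsg.Agent.S1403.result against that frozen type. Keep the theorem IN THIS FILE
-- (a `result` declared elsewhere and merely imported here is not credited); helpers may live anywhere
-- under Cfsg/Agent/.
import Cfsg.Statements.S1403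
import Cfsg.Agent.FT.BG9_6

set_option autoImplicit false
open Cfsg

namespace Cfsg.Agent.S1403

/-- Let G be a minimal simple group of odd order and K a proper subgroup having an elementary abelian subgroup of order p ^ 2 for some prime p. If K, or its centralizer C_G(K), has an elementary abelian subgroup of order q ^ 3 for some prime q, then K lies in exactly one maximal subgroup of G. -/
theorem result {G : Type*} [Group G] [Finite G] (hG : Cfsg.IsMinSimpleOddOrder G)
    (K : Subgroup G) (hK : K ≠ ⊤) (hK2 : ¬ Cfsg.RankLE 1 K)
    (hK3 : ¬ Cfsg.RankLE 2 K ∨ ¬ Cfsg.RankLE 2 (Subgroup.centralizer (K : Set G))) :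
    Cfsg.InUniqueMaximal K := by
  rcases hK3 with h | h
  · exact FT.rank3_Uniqueness hG hK h
  · exact FT.cent_rank3_Uniqueness hG hK2 h

end Cfsg.Agent.S1403
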