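import Cfsg.Statements.S1405
import Cfsg.Agent.FT.BG10_2

set_option autoImplicit false
open Cfsg Cfsg.Agent.FT Cfsg.Agent.FT.B10

namespace Cfsg.Agent.S1405

/-- Let G be a minimal simple group of odd order and M a maximal subgroup, α(M) the set of primes p with M of p-rank at least 3, and M_α = O_{α(M)}(M). Then M_α is a Hall α(M)-subgroup of M and of G, M_α ≤ M_σ, the quotient M/M_α has no elementary abelian subgroup of order p ^ 3 for any prime p, and the image of M' in M/M_α is nilpotent. -/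
theorem result {G : Type*} [Group G] [Finite G] (hG : Cfsg.IsMinSimpleOddOrder G)
    (M : Subgroup G) (hM : IsCoatom M) :
    Cfsg.IsPiHallOf (Cfsg.alpha M) (Cfsg.alphaCore M) M ∧ Cfsg.IsPiHall (Cfsg.alpha M) (Cfsg.alphaCore M) ∧
      Cfsg.alphaCore M ≤ Cfsg.sigmaCore M ∧ Cfsg.RankLE 2 (↥M ⧸ Cfsg.piCore (Cfsg.alpha M) ↥M) ∧
      Group.IsNilpotent ↥((commutator ↥M).map (QuotientGroup.mk' (Cfsg.piCore (Cfsg.alpha M) ↥M))) := by
  have hN := alphaCore_normalIn M
  have hW : Cfsg.piCore (Cfsg.alpha M) ↥M = (Cfsg.alphaCore M).subgroupOf M :=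
    (GT.piCoreOf_subgroupOf M).symm
  refine ⟨Malpha_Hall hG hM, GT.isPiHallOf_top_iff.1 (Malpha_Hall_G hG hM),
    Malpha_sub_Msigma hG hM, (rankLE_congr (quotEquiv hN.2 _ hW)).2 (Malpha_quo_rank2 hG hM), ?_⟩
  rw [isNilpotent_congr (mapQuotEquiv hN.2 _ hW _), Subgroup.map_subtype_commutator]
  exact Malpha_quo_nil hG hM

end Cfsg.Agent.S1405
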