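import Cfsg.Statements.S1412
import Cfsg.Agent.FT.BG10_7

set_option autoImplicit false
open Cfsg Cfsg.Agent.FT Cfsg.Agent.FT.B10

namespace Cfsg.Agent.S1412

/-- Let G be a minimal simple group of odd order, p a prime and P a Sylow p-subgroup of G with no elementary abelian subgroup of order p ^ 3. Then either P is abelian, or P is generated by two elementwise-commuting subgroups P₁, P₂ with P₁ nonabelian of order p ^ 3 and exponent p, P₂ cyclic, and the elements of P₂ of order dividing p generating exactly the centre of P₁. -/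
theorem result {G : Type*} [Group G] [Finite G] (hG : Cfsg.IsMinSimpleOddOrder G) (p : ℕ) [Fact p.Prime] (P : Sylow p G) (hr : Cfsg.PRankLE p 2 (P : Subgroup G)) :
    IsMulCommutative (P : Subgroup G) ∨ ∃ P₁ P₂ : Subgroup G, P₁ ⊔ P₂ = (P : Subgroup G) ∧ (∀ a ∈ P₁, ∀ b ∈ P₂, a * b = b * a) ∧
        ¬ IsMulCommutative P₁ ∧ Nat.card P₁ = p ^ 3 ∧ Monoid.exponent P₁ = p ∧ IsCyclic P₂ ∧
        Subgroup.closure {x : G | x ∈ P₂ ∧ x ^ p = 1} = P₁ ⊓ Subgroup.centralizer (P₁ : Set G) := by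
  refine or_iff_not_imp_left.2 fun hab => ?_
  obtain ⟨S, C, h1, h2, h3, h4, h5, h6⟩ := mFT_rank2_Sylow_cprod hG (syl_top P) hr hab
  refine ⟨S, C, h5.sup_eq, fun a ha b hb => mem_cent.1 (h5.cent hb) a ha, h1, h2, ?_, h4, h6⟩
  haveI : Nontrivial S := (Subgroup.nontrivial_iff_ne_bot S).2 (elem_ne_bot h2)
  refine (Monoid.exponent_eq_prime_iff Fact.out).2 fun g hg => ?_
  exact orderOf_eq_prime (Subtype.ext (h3 g g.2)) hg

end Cfsg.Agent.S1412
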