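import Cfsg.Statements.S1414
import Cfsg.Agent.FT.BG10_8
import Cfsg.Agent.GT.TransferPNilp

set_option autoImplicit false
open Cfsg Cfsg.Agent.FT Cfsg.Agent.FT.B10

namespace Cfsg.Agent.S1414

/-- Let G be a minimal simple group of odd order, M a maximal subgroup, β(M) the set of ideal primes in α(M), and M_β = O_{β(M)}(M). Then M_β is a Hall β(M)-subgroup of M and of G; M' and M_σ each have a nilpotent Hall β(M)'-subgroup; and for each prime p dividing the order of M with p ∉ β(M), both M' and M_σ have normal p-complements and every prime dividing the index of O_{p'}(M) in M is at most p. -/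
theorem result {G : Type*} [Group G] [Finite G] (hG : Cfsg.IsMinSimpleOddOrder G)
    (M : Subgroup G) (hM : IsCoatom M) :
    Cfsg.IsPiHallOf (Cfsg.beta M) (Cfsg.piCoreOf (Cfsg.beta M) M) M ∧ Cfsg.IsPiHall (Cfsg.beta M) (Cfsg.piCoreOf (Cfsg.beta M) M) ∧
      (∃ H : Subgroup G, Cfsg.IsPiHallOf {q | q.Prime ∧ q ∉ Cfsg.beta M} H ⁅M, M⁆ ∧ Group.IsNilpotent H) ∧
      (∃ H : Subgroup G, Cfsg.IsPiHallOf {q | q.Prime ∧ q ∉ Cfsg.beta M} H (Cfsg.sigmaCore M) ∧ Group.IsNilpotent H) ∧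
      ∀ p : ℕ, p.Prime → p ∣ Nat.card M → p ∉ Cfsg.beta M →
        Cfsg.HasNormalPComplement p ↥⁅M, M⁆ ∧ Cfsg.HasNormalPComplement p ↥(Cfsg.sigmaCore M) ∧
        ∀ q : ℕ, q.Prime → q ∣ (Cfsg.pPrimeCore p ↥M).index → q ≤ p := by
  have key : ∀ D : Subgroup G, D ≤ ⁅M, M⁆ →
      ∃ H : Subgroup G, IsPiHallOf {q | q.Prime ∧ q ∉ beta M} H D ∧ Group.IsNilpotent H := by
    intro D hD
    obtain ⟨H, hH⟩ := hall_exists (beta M)ᶜ
      (mFT_sub_sol hG hM (hD.trans (normalIn_derived M).1))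
    exact ⟨H, hall_congr hH fun q hq _ => ⟨fun h => ⟨hq, h⟩, fun h => h.2⟩,
      beta'_der1_nil hG hM hH.2.1 (hH.1.trans hD)⟩
  have key2 : ∀ (p : ℕ) [Fact p.Prime] (D : Subgroup G), HasNormalCompl p D →
      HasNormalPComplement p D := by
    intro p hp D h
    have h1 := h.subgroupOf
    rw [GT.piCoreOf_subgroupOf] at h1
    obtain ⟨h2, k, h3⟩ := (GT.isPiHall_compl_singleton_iff hp.out).1 h1
    exact GT.Tr.hasNormalPComplement_of_normal _ (hp.out.coprime_iff_not_dvd.1 h2.symm) h3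
  refine ⟨Mbeta_Hall hG hM, GT.isPiHallOf_top_iff.1 (Mbeta_Hall_G hG hM), key _ le_rfl,
    key _ (Msigma_der1 hG hM), fun p hp _ hβ => ?_⟩
  haveI := Fact.mk hp
  obtain ⟨h1, h2, h3⟩ := beta_max_pdiv hG hM hβ
  refine ⟨key2 p _ h1, key2 p _ h2, fun q hq hd => h3 q hq ?_⟩
  rwa [Subgroup.relIndex, GT.piCoreOf_subgroupOf, ← GT.pPrimeCore_eq_piCore hp]

end Cfsg.Agent.S1414
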