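import Mathlib
import Cfsg.Statements.S1437
import Cfsg.Agent.FT.BG15_2

set_option autoImplicit false
open Cfsg

namespace Cfsg.Agent.S1437

open Cfsg.Agent.FT Cfsg.Agent.FT.B15

/-- Let G be a minimal simple group of odd order and M a maximal subgroup with standard factorisation M = K U M_σ such that M_F ≠ M_σ; put K* = M_σ ∩ C_G(K), p = #K, q = #K*. Then U = 1 and M_σ = M'; p and q are prime, q divides #M_F and q ∈ β(M); M_σ has a Sylow q-subgroup Q normal in M and contained in M_F; every complement D of Q in M_σ is nilpotent, and Q₀ = Q ∩ C_G(D) is normal in M; Q₀ < Q with #Q = #Q₀ · q ^ p, every element of Q has its q-th power and all its commutators with Q in Q₀, and every subgroup strictly between Q₀ and Q fails to be normal in M. -/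
theorem result {G : Type*} [Group G] [Finite G] (hG : Cfsg.IsMinSimpleOddOrder G)
    (M : Subgroup G) (hM : IsCoatom M) (K U : Subgroup G) (hKU : Cfsg.IsSigmaDecomposition M K U) (hne : Cfsg.fittingHallOf M ≠ Cfsg.sigmaCore M) :
    U = ⊥ ∧ Cfsg.sigmaCore M = ⁅M, M⁆ ∧ (Nat.card K).Prime ∧ (Nat.card ↥(Cfsg.sigmaCore M ⊓ Subgroup.centralizer (K : Set G))).Prime ∧
      Nat.card ↥(Cfsg.sigmaCore M ⊓ Subgroup.centralizer (K : Set G)) ∣ Nat.card (Cfsg.fittingHallOf M) ∧ Nat.card ↥(Cfsg.sigmaCore M ⊓ Subgroup.centralizer (K : Set G)) ∈ Cfsg.beta M ∧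
      ∃ Q : Subgroup G, Q ≤ Cfsg.fittingHallOf M ∧ M ≤ Subgroup.normalizer (Q : Set G) ∧ IsPGroup (Nat.card ↥(Cfsg.sigmaCore M ⊓ Subgroup.centralizer (K : Set G))) Q ∧
        ¬ Nat.card ↥(Cfsg.sigmaCore M ⊓ Subgroup.centralizer (K : Set G)) ∣ Q.relIndex (Cfsg.sigmaCore M) ∧
        ∀ D : Subgroup G, Cfsg.IsComplIn Q D (Cfsg.sigmaCore M) →
          Group.IsNilpotent D ∧ M ≤ Subgroup.normalizer ((Q ⊓ Subgroup.centralizer (D : Set G) : Subgroup G) : Set G) ∧
          Q ⊓ Subgroup.centralizer (D : Set G) < Q ∧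
          Nat.card Q = Nat.card ↥(Q ⊓ Subgroup.centralizer (D : Set G)) * Nat.card ↥(Cfsg.sigmaCore M ⊓ Subgroup.centralizer (K : Set G)) ^ Nat.card K ∧
          (∀ a ∈ Q, ∀ b ∈ Q, a ^ Nat.card ↥(Cfsg.sigmaCore M ⊓ Subgroup.centralizer (K : Set G)) ∈ Q ⊓ Subgroup.centralizer (D : Set G) ∧
            a * b * a⁻¹ * b⁻¹ ∈ Q ⊓ Subgroup.centralizer (D : Set G)) ∧
          ∀ N : Subgroup G, Q ⊓ Subgroup.centralizer (D : Set G) < N → N < Q → ¬ M ≤ Subgroup.normalizer (N : Set G) := by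
  obtain ⟨⟨h1, -, h2⟩, ⟨h3, h4, h5, h6⟩, -, -⟩ := Fcore_structure_abc hG hM hKU.hall hne rfl
  set q := Nat.card ↥(sigmaCore M ⊓ 𝐂(K)) with hq
  have : Fact q.Prime := ⟨h4⟩
  have hQ := Q_syl hG hM hKU.hall hne hq.symm
  have hn := piCoreOf_normalIn {q} M
  refine ⟨(trivg_kappa_compl hG hM (kappaCompl_of_isSigmaDecomposition hG hM hKU)).2 h1, h2, h3,
    h4, h5, h6, piCoreOf {q} M, pcore_le_Fcore h5, hn.norm, B10.syl_pgroup hQ,
    B10.syl_not_dvd hQ, fun D hD => ?_⟩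
  have hs := sdprod_of_isComplIn hD ((B10.sigmaCore_normalIn M).le.trans hn.norm)
  obtain ⟨h7, h8, h9, h10⟩ :=
    Fcore_structure_def hG hM hKU.hall hne hq.symm (B10.hall_compl_of_sdprod hs hQ)
  have hN := h8.normalIn
  refine ⟨h7, h8.normalIn_left.norm, h8.lt, by rw [← h10, card_quot_mul_of_normalIn hN],
    fun a ha b hb => ⟨?_, ?_⟩, fun N h11 h12 h13 => h11.ne' (h8.2.2.2 N h11.le h12 h13)⟩
  · have h11 : (quotHom hN.norm ⟨a, ha⟩) ^ q = 1 :=
      Subtype.ext (h9.2 _ (quotHom hN.norm ⟨a, ha⟩).2)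
    rw [← map_pow, ← MonoidHom.mem_ker, quotHom_ker] at h11
    exact h11
  · exact (isMulCommutative_quot_iff hN.norm).1 h9.1
      (Subgroup.commutator_mem_commutator ha hb)

end Cfsg.Agent.S1437
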