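import Cfsg.Statements.S1451
import Cfsg.Agent.FT.B4Top
import Cfsg.Agent.FT.BG4_20

set_option autoImplicit false
open Cfsg

namespace Cfsg.Agent.S1451

/-- Let G be a solvable group of odd order such that G, or its Fitting subgroup, has no elementary abelian subgroup of order q ^ 3 for any prime q. Then G' is nilpotent; for every Sylow subgroup S of G, every characteristic subgroup T of S with T ≤ [S, S] is normal in G; and for every prime p, G has a characteristic subgroup that is a Hall subgroup for the set of primes greater than p. -/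
theorem result {G : Type*} [Group G] [Finite G] [Group.IsSolvable G] (hodd : Odd (Nat.card G)) (hr : Cfsg.RankLE 2 G ∨ Cfsg.RankLE 2 (Cfsg.fittingSubgroup G)) :
    Group.IsNilpotent ↥(commutator G) ∧
      (∀ (q : ℕ) [Fact q.Prime] (S : Sylow q G) (T : Subgroup ↥(S : Subgroup G)), T.Characteristic → T.map (S : Subgroup G).subtype ≤ ⁅(S : Subgroup G), (S : Subgroup G)⁆ →
        (T.map (S : Subgroup G).subtype).Normal) ∧
      ∀ p : ℕ, ∃ N : Subgroup G, N.Characteristic ∧ Cfsg.IsPiHall {q | q.Prime ∧ p < q} N := by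
  have rF : RankLE 2 (fittingOf (⊤ : Subgroup G)) := by
    rw [Agent.GT.fittingOf_top]
    exact hr.elim (fun h p hp => (h p hp).subgroup _) id
  have oddG := Agent.FT.b4_odd_top hodd
  have solG := Agent.FT.b4_isSolvable_top (G := G)
  refine ⟨Agent.FT.isNilpotent_of_le (Agent.FT.Fitting_nil ⊤)
    (Agent.FT.rank2_der1_sub_Fitting oddG solG rF), fun q _ S T hT h => ?_, fun p => ?_⟩
  · exact Agent.FT.normalIn_top_iff.mp (Agent.FT.rank2_char_Sylow_normal oddG solG rF
      (Agent.FT.B10.syl_top S) (Agent.FT.charIn_map_subtype T) h)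
  · have h := Agent.FT.pHall_congr (ρ := {q | q.Prime ∧ p < q})
      (Agent.FT.rank2_ge_pcore_Hall (p + 1) oddG solG rF)
      fun q hq _ => ⟨fun h => ⟨hq, h⟩, fun h => h.2⟩
    rw [Agent.GT.piCoreOf_top, Agent.GT.isPiHallOf_top_iff] at h
    exact ⟨_, inferInstance, h⟩

end Cfsg.Agent.S1451
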