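import Cfsg.Statements.S1452
import Cfsg.Agent.FT.BG5_1

set_option autoImplicit false
open Cfsg

namespace Cfsg.Agent.S1452

/-- Let p be an odd prime and R a finite p-group containing an elementary abelian subgroup of order p ^ 3. If E is a normal elementary abelian subgroup of R of order p ^ 2, then E ≤ A for some normal subgroup A of R with C_R(A) = A that contains an elementary abelian subgroup of order p ^ 3. -/
theorem result {R : Type*} [Group R] [Finite R] (p : ℕ) [Fact p.Prime] (hp : p ≠ 2) (hR : IsPGroup p R) (hr : ¬ Cfsg.PRankLE p 2 R)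
    (E : Subgroup R) [E.Normal] (hE : Cfsg.IsElementaryAbelian p E) (hE2 : Nat.card E = p ^ 2) :
    ∃ A : Subgroup R, E ≤ A ∧ A.Normal ∧ Subgroup.centralizer (A : Set R) = A ∧ ¬ Cfsg.PRankLE p 2 A := by
  obtain ⟨B, hB, h1, h2⟩ := Agent.FT.normal_p2Elem_SCN3 (Agent.FT.b4_isPGroup_top hR)
    (Agent.FT.b4_odd_card (Agent.FT.b4_isPGroup_top hR) hp) (by rwa [PRankLE.top_iff])
    ⟨le_top, hE, hE2⟩ (Agent.FT.normalIn_top_iff.mpr inferInstance)
  exact ⟨B, h2, Agent.FT.normalIn_top_iff.mp ⟨le_top, hB.2.1⟩, by simpa using hB.2.2, h1⟩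

end Cfsg.Agent.S1452
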