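import Cfsg.Statements.S1453
import Cfsg.Agent.FT.BG5_2
import Cfsg.Agent.FT.B4Top

set_option autoImplicit false
open Cfsg Cfsg.Agent.FT Cfsg.Agent.FT.B10

namespace Cfsg.Agent.S1453

/-- Let p be an odd prime and R a finite p-group with an elementary abelian subgroup of order p ^ 3 and an elementary abelian subgroup E of order p ^ 2 contained in no larger elementary abelian subgroup. Let Z₂ be the second centre of R, W the subgroup generated by the elements of Z₂ of order dividing p, and T = C_R(W). Then E is not contained in T; the elements of order dividing p of the centre of R generate a group of order p; W is elementary abelian of order p ^ 2; and T is characteristic in R of index p. -/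
theorem result {R : Type*} [Group R] [Finite R] (p : ℕ) [Fact p.Prime] (hp : p ≠ 2) (hR : IsPGroup p R) (hr : ¬ Cfsg.PRankLE p 2 R)
    (E : Subgroup R) (hE : Cfsg.IsElementaryAbelian p E) (hE2 : Nat.card E = p ^ 2)
    (hEmax : ∀ B : Subgroup R, Cfsg.IsElementaryAbelian p B → E ≤ B → B = E) :
    ¬ E ≤ Subgroup.centralizer ((Subgroup.closure {x : R | x ∈ Subgroup.upperCentralSeries R 2 ∧ x ^ p = 1} : Subgroup R) : Set R) ∧
      Nat.card ↥(Subgroup.closure {x : R | x ∈ Subgroup.center R ∧ x ^ p = 1}) = p ∧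
      (Cfsg.IsElementaryAbelian p (Subgroup.closure {x : R | x ∈ Subgroup.upperCentralSeries R 2 ∧ x ^ p = 1}) ∧
        Nat.card ↥(Subgroup.closure {x : R | x ∈ Subgroup.upperCentralSeries R 2 ∧ x ^ p = 1}) = p ^ 2) ∧
      (Subgroup.centralizer ((Subgroup.closure {x : R | x ∈ Subgroup.upperCentralSeries R 2 ∧ x ^ p = 1} : Subgroup R) : Set R)).Characteristic ∧
      (Subgroup.centralizer ((Subgroup.closure {x : R | x ∈ Subgroup.upperCentralSeries R 2 ∧ x ^ p = 1} : Subgroup R) : Set R)).index = p := by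
  have e1 : ucn2 (⊤ : Subgroup R) = Subgroup.upperCentralSeries R 2 := by
    ext x
    rw [mem_ucn2, Subgroup.mem_upperCentralSeries_succ_iff, Subgroup.upperCentralSeries_one,
      cent_top, top_inf_eq]
    exact ⟨fun h y => h.2 y trivial, fun h => ⟨trivial, fun y _ => h y⟩⟩
  have pR := b4_isPGroup_top hR
  obtain ⟨h1, h2, h3, h4, h5⟩ := Ohm1_ucn_p2maxElem pR (b4_odd_card pR hp)
    (fun h => hr (pRankLE_top_iff.mp h)) ⟨le_top, hE, hE2⟩ ⟨le_top, hE, fun B _ => hEmax B⟩
  simp only [narrowT, narrowW, e1, top_inf_eq, cent_top] at h1 h2 h3 h4 h5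
  refine ⟨h1, h2, h3.2, ?_, by rwa [Subgroup.relIndex_top_right] at h5⟩
  have h6 := h4.2
  refine Subgroup.characteristic_iff_comap_eq.mpr fun φ => ?_
  ext x
  have h7 := Subgroup.characteristic_iff_comap_eq.mp h6
    ((Subgroup.topEquiv.trans φ).trans Subgroup.topEquiv.symm)
  exact SetLike.ext_iff.mp h7 ⟨x, trivial⟩

end Cfsg.Agent.S1453
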