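import Cfsg.Statements.S1454
import Cfsg.Agent.FT.BG5_5

set_option autoImplicit false
open Cfsg Cfsg.Agent.FT Cfsg.Agent.FT.B10

namespace Cfsg.Agent.S1454

/-- Let G be a finite group, p an odd prime, R a narrow p-subgroup and A a solvable subgroup of odd order normalizing R with A ∩ C_G(R) = 1. Then [A, A] ≤ O_p(A) and the index of O_p(A) in A is coprime to p; if R has an elementary abelian subgroup of order p ^ 3 then the order of every element of A of order coprime to p divides p − 1; and if the order of A is a prime not dividing p(p − 1), then 2·#A divides p + 1, and if in addition [R, A] = R and R is non-abelian then #R = p ^ 3. -/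
theorem result {G : Type*} [Group G] [Finite G] (p : ℕ) [Fact p.Prime] (hp : p ≠ 2) (R A : Subgroup G) (hR : IsPGroup p R) (hRn : Cfsg.IsNarrow p R)
    (hA : (A ≤ Subgroup.normalizer (R : Set G))) (hAs : Group.IsSolvable A) (hAodd : Odd (Nat.card A)) (hfaith : A ⊓ Subgroup.centralizer (R : Set G) = ⊥) :
    (commutator ↥A ≤ Cfsg.pCore p ↥A ∧ ((Cfsg.pCore p ↥A).index).Coprime p) ∧
      (¬ Cfsg.PRankLE p 2 R → ∀ a ∈ A, (orderOf a).Coprime p → orderOf a ∣ p - 1) ∧
      ((Nat.card A).Prime → ¬ Nat.card A ∣ p * (p - 1) →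
        2 * Nat.card A ∣ p + 1 ∧ (⁅R, A⁆ = R → ¬ IsMulCommutative R → Nat.card R = p ^ 3)) := by
  have oddR := b4_odd_card hR hp
  have nR := (narrow_structureP hR oddR).mpr hRn
  refine ⟨?_, fun rR a ha ho => ?_, fun prA h => norm_narrow_prime hR oddR nR hA (fun hc => ?_) prA h⟩
  · have h1 : IsPGroup p ↥⁅A, A⁆ := b4_isPGroup_of_forall Fact.out fun x hx ho => by
      have h2 : x ∈ A ⊓ 𝐂(R) :=
        ⟨(normalIn_derived A).le hx, b5_der1_norm_narrow hR oddR nR hA hAodd x hx ho⟩
      rwa [hfaith, Subgroup.mem_bot] at h2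
    obtain ⟨h2, h3⟩ := b5_pcore_of_der h1
    rw [← pCoreOf_eq_pcore] at h2 h3
    have e : (pCoreOf p A).subgroupOf A = pCore p A := subgroupOf_map_subtype _
    refine ⟨?_, ?_⟩
    · rw [← der1_subgroupOf, ← e]
      exact subgroupOf_mono A h3
    · rw [← e]
      exact ((Nat.Prime.coprime_iff_not_dvd Fact.out).mpr h2).symm
  · have h2 : a ^ (p - 1) ∈ A ⊓ 𝐂(R) :=
      ⟨A.pow_mem ha _, norm_narrow_pow_cent hR oddR nR rR (hA ha) ho⟩
    rw [hfaith, Subgroup.mem_bot] at h2
    exact orderOf_dvd_of_pow_eq_one h2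
  · exact ne_bot_of_card_prime prA (by rwa [inf_eq_left.mpr hc] at hfaith)

end Cfsg.Agent.S1454
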