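import Cfsg.Statements.S1457
import Cfsg.Agent.FT.BG6_1

set_option autoImplicit false
open Cfsg

namespace Cfsg.Agent.S1457

/-- Let G be a solvable group of odd order, p a prime, S a Sylow p-subgroup of G and A an abelian subgroup of S normal in S. Then A ≤ O_{p',p}(G). -/
theorem result {G : Type*} [Group G] [Finite G] [Group.IsSolvable G] (hodd : Odd (Nat.card G)) (p : ℕ) [Fact p.Prime] (S : Sylow p G) (A : Subgroup G) (hA : A ≤ (S : Subgroup G)) (hAc : IsMulCommutative A)
    (hAn : (S : Subgroup G) ≤ Subgroup.normalizer (A : Set G)) :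
    A ≤ Cfsg.pPrimePCore p G := by
  rw [← FT.pPrimePCoreOf_top]
  exact FT.odd_p_abelian_constrained (by rwa [Subgroup.card_top]) inferInstance (FT.B10.syl_top S)
    hAc ⟨hA, hAn⟩

end Cfsg.Agent.S1457
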