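import Cfsg.Statements.S1466
import Cfsg.Agent.FT.AppB

set_option autoImplicit false
open Cfsg

namespace Cfsg.Agent.S1466

/-- Let p be a prime and R a nontrivial finite p-group. Then for every i > 0, Z(R) ≤ C_R(L_i(R)) ≤ L_i(R); likewise Z(R) ≤ C_R(L_*(R)) ≤ L_*(R) and Z(R) ≤ C_R(L(R)) ≤ L(R); and L(R) ≠ 1, L_*(R) ≠ 1. -/
theorem result {R : Type*} [Group R] [Finite R] (p : ℕ) [Fact p.Prime] (hR : IsPGroup p R) [Nontrivial R] :
    (∀ i : ℕ, 0 < i → Subgroup.center R ≤ Subgroup.centralizer ((Cfsg.puigSeq R i : Subgroup R) : Set R) ∧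
        Subgroup.centralizer ((Cfsg.puigSeq R i : Subgroup R) : Set R) ≤ Cfsg.puigSeq R i) ∧
      (Subgroup.center R ≤ Subgroup.centralizer ((Cfsg.puigLower R : Subgroup R) : Set R) ∧ Subgroup.centralizer ((Cfsg.puigLower R : Subgroup R) : Set R) ≤ Cfsg.puigLower R) ∧
      (Subgroup.center R ≤ Subgroup.centralizer ((Cfsg.puigSubgroup R : Subgroup R) : Set R) ∧ Subgroup.centralizer ((Cfsg.puigSubgroup R : Subgroup R) : Set R) ≤ Cfsg.puigSubgroup R) ∧
      Cfsg.puigSubgroup R ≠ ⊥ ∧ Cfsg.puigLower R ≠ ⊥ := by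
  have pT : IsPGroup p (⊤ : Subgroup R) := hR.to_subgroup ⊤
  have hZ : ∀ X : Subgroup R, Subgroup.center R ≤ Subgroup.centralizer (X : Set R) :=
    fun X => Subgroup.center_le_centralizer _
  have h1 := FT.sub_cent_puigInfOf pT
  have h2 := FT.sub_cent_puigOf pT
  rw [top_inf_eq, FT.puigInfOf_top] at h1
  rw [top_inf_eq, FT.puigOf_top] at h2
  have hne : Subgroup.center R ≠ ⊥ := by
    have := FT.B10.center_ne_bot pT top_ne_bot
    rwa [top_inf_eq, FT.cent_top] at this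
  refine ⟨fun i hi => ⟨hZ _, ?_⟩, ⟨hZ _, h1⟩, ⟨hZ _, h2⟩,
    fun h => hne (le_bot_iff.mp (h ▸ (hZ _).trans h2)),
    fun h => hne (le_bot_iff.mp (h ▸ (hZ _).trans h1))⟩
  have h3 := FT.sub_cent_puigAt pT hi
  rwa [top_inf_eq, FT.puigAt_top] at h3

end Cfsg.Agent.S1466
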