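import Cfsg.Statements.S1469
import Cfsg.Agent.FT.BG6_1

set_option autoImplicit false
open Cfsg

namespace Cfsg.Agent.S1469

/-- Let p be an odd prime, G a solvable group of odd order and S a Sylow p-subgroup, and let Z be the centre of the Puig subgroup L(S), viewed inside G. Then G is generated by O_{p'}(G) and N_G(Z); and if O_{p'}(G) = 1 then Z is normal in G. -/
theorem result {G : Type*} [Group G] [Finite G] [Group.IsSolvable G] (hodd : Odd (Nat.card G)) (p : ℕ) [Fact p.Prime] (hp : p ≠ 2) (S : Sylow p G) :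
    Cfsg.pPrimeCore p G ⊔ Subgroup.normalizer ((((Subgroup.center ↥(Cfsg.puigSubgroup ↥(S : Subgroup G))).map (Cfsg.puigSubgroup ↥(S : Subgroup G)).subtype).map (S : Subgroup G).subtype : Subgroup G) : Set G) = ⊤ ∧
      (Cfsg.pPrimeCore p G = ⊥ → (((Subgroup.center ↥(Cfsg.puigSubgroup ↥(S : Subgroup G))).map (Cfsg.puigSubgroup ↥(S : Subgroup G)).subtype).map (S : Subgroup G).subtype).Normal) := by
  have e : ((Subgroup.center ↥(Cfsg.puigSubgroup ↥(S : Subgroup G))).map
      (Cfsg.puigSubgroup ↥(S : Subgroup G)).subtype).map (S : Subgroup G).subtype =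
      FT.puigOf (S : Subgroup G) ⊓ Subgroup.centralizer (FT.puigOf (S : Subgroup G) : Set G) := by
    rw [FT.map_subtype_center, ← FT.map_subtype_subgroupOf_of_le (FT.center_Puig_le _),
      FT.subgroupOf_inf, FT.subgroupOf_cent (FT.puigOf_le _), FT.puigOf, FT.subgroupOf_map_subtype]
  have ho : Odd (Nat.card (⊤ : Subgroup G)) := by rwa [Subgroup.card_top]
  rw [e]
  constructor
  · have h := FT.Puig_factorisation ho inferInstance (FT.B10.syl_top S)
    rwa [FT.pcore_top_eq_pPrimeCore, top_inf_eq] at h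
  · intro hO
    exact FT.normalIn_top_iff.mp (FT.Puig_center_normal ho inferInstance (FT.B10.syl_top S)
      (by rwa [FT.pcore_top_eq_pPrimeCore]))

end Cfsg.Agent.S1469
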