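import Mathlib
import Cfsg.Statements.S1471
import Cfsg.Agent.FT.AppCField

set_option autoImplicit false
open Cfsg

namespace Cfsg.Agent.S1471

open Cfsg.Agent.FT.AppC

theorem norm_eq_one_iff (p q : ℕ) [hp : Fact p.Prime] (hq : q ≠ 0) (a : GaloisField p q) :
    Algebra.norm (ZMod p) a = 1 ↔ a ^ normExp p q = 1 := by
  rw [← (algebraMap (ZMod p) (GaloisField p q)).injective.eq_iff,
    FiniteField.algebraMap_norm_eq_pow, GaloisField.card p q hq, Nat.card_zmod,
    normExp_eq p q hp.out.two_le, map_one]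

/-- Let p and q be odd primes with (p^q − 1)/(p − 1) coprime to p − 1. Then there are at least two elements a of the field with p ^ q elements such that both a and 2 − a have norm 1 to the prime field. -/
theorem result (p q : ℕ) [Fact p.Prime] [Fact q.Prime] (hp : p ≠ 2) (hq : q ≠ 2) (hA : Nat.Coprime ((p ^ q - 1) / (p - 1)) (p - 1)) :
    2 ≤ Set.ncard {a : GaloisField p q | Algebra.norm (ZMod p) a = 1 ∧ Algebra.norm (ZMod p) (2 - a) = 1} := by
  have hqp : q.Prime := Fact.out
  have hq0 : q ≠ 0 := hqp.ne_zero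
  let _ : Fintype (GaloisField p q) := Fintype.ofFinite _
  have hq35 : q = 3 ∨ 5 ≤ q := by
    by_cases h3 : q = 3
    · exact Or.inl h3
    · exact Or.inr (hqp.five_le_of_ne_two_of_ne_three hq h3)
  obtain ⟨a, ha1, ha, ha2⟩ := exists_ne_one (F := GaloisField p q) p q hp hq35
    (by rw [Fintype.card_eq_nat_card, GaloisField.card p q hq0])
  refine (Set.one_lt_ncard (Set.toFinite _)).2 ⟨a, ?_, 1, ?_, ha1⟩
  · exact ⟨(norm_eq_one_iff p q hq0 _).2 ha, (norm_eq_one_iff p q hq0 _).2 ha2⟩
  · refine ⟨map_one _, ?_⟩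
    rw [show (2 : GaloisField p q) - 1 = 1 by norm_num]
    exact map_one _

end Cfsg.Agent.S1471
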