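import Cfsg.Statements.S1474
import Cfsg.Agent.GT.CNGroup
import Cfsg.Agent.FT.Fcore

set_option autoImplicit false
open Cfsg

namespace Cfsg.Agent.S1474

open Cfsg.Agent.GT Cfsg.Agent.GT.CN

/-- Let G be a finite group in which every non-identity element has nilpotent centralizer, not itself nilpotent, and having a nontrivial normal Sylow p-subgroup for some prime p. Let H be the largest normal nilpotent Hall subgroup of G. Then H is a nontrivial proper normal subgroup with a complement E that is a Frobenius complement in G (no non-identity element of E centralizes a non-identity element of H), and G/H is nilpotent. -/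
theorem result {G : Type*} [Group G] [Finite G] (hCN : Cfsg.IsCNGroup G) (hnn : ¬ Group.IsNilpotent G) (p : ℕ) [Fact p.Prime] (P : Sylow p G)
    (hP1 : (P : Subgroup G) ≠ ⊥) (hPn : (P : Subgroup G).Normal) :
    Cfsg.fittingHall G ≠ ⊥ ∧ Cfsg.fittingHall G ≠ ⊤ ∧
      (∃ E : Subgroup G, Subgroup.IsComplement' (Cfsg.fittingHall G) E ∧ Cfsg.IsFrobeniusComplement E ∧
        ∀ e ∈ E, e ≠ 1 → Cfsg.fittingHall G ⊓ Subgroup.centralizer ({e} : Set G) = ⊥) ∧
      Group.IsNilpotent (G ⧸ Cfsg.fittingHall G) := by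
  obtain ⟨hnil, hhall⟩ := FT.fittingHall_nil_hall G
  have hle : ∀ (q : ℕ) [Fact q.Prime] (Q : Sylow q G), (Q : Subgroup G).Normal →
      (Q : Subgroup G) ≤ fittingHall G := fun q _ Q hQ =>
    le_sSup ⟨hQ, Q.isPGroup'.isNilpotent, Q.card_coprime_index⟩
  have h1 : fittingHall G ≠ ⊥ := fun e => hP1 (le_bot_iff.1 (e ▸ hle p P hPn))
  have h2 : fittingHall G ≠ ⊤ := fun e => hnn <| by
    rw [e] at hnil
    exact Group.nilpotent_of_mulEquiv Subgroup.topEquiv
  obtain ⟨E, hE⟩ := Subgroup.exists_right_complement'_of_coprime hhall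
  have hE1 : E ≠ ⊥ := by
    rintro rfl
    exact h2 (by simpa using hE.sup_eq_top)
  have hfpf : ∀ e ∈ E, e ≠ 1 → fittingHall G ⊓ Subgroup.centralizer ({e} : Set G) = ⊥ := by
    intro e he he1
    rw [eq_bot_iff]
    rintro u ⟨hu, hue⟩
    by_contra hu1
    obtain ⟨q, k, hq, hk⟩ := exists_pow_prime he1
    obtain ⟨r, l, hr, hl⟩ := exists_pow_prime (x := u) hu1
    have hek := E.pow_mem he k
    have hul := (fittingHall G).pow_mem hu l
    have hqr : q ≠ r := by
      rintro rfl
      have a1 : q ∣ Nat.card (fittingHall G) := hl ▸ Subgroup.orderOf_dvd_natCard _ hul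
      have a2 : q ∣ (fittingHall G).index := by
        rw [hE.symm.index_eq_card]
        exact hk ▸ Subgroup.orderOf_dvd_natCard _ hek
      exact hq.one_lt.ne' (Nat.eq_one_of_dvd_coprimes hhall a1 a2)
    have hur : u ^ l ∈ pCore r G :=
      le_pCore_of_le_fitting (isPGroup_zpowers_of_orderOf (k := 1) (by simpa using hl))
        ((Subgroup.zpowers_le.2 hul).trans (le_fitting _)) (Subgroup.mem_zpowers _)
    obtain ⟨Q, hQ, hy⟩ := exists_normal_sylow hCN hq hr hqr hk hur (ne_one_of_orderOf hr hl)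
      ((mem_cent.1 hue).symm.pow_pow k l)
    have := Fact.mk hq
    exact ne_one_of_orderOf hq hk (Subgroup.disjoint_def.1 hE.disjoint (hle q Q hQ hy) hek)
  have hF := Frob.isFrobeniusComplement_of_fpf hE h1 hE1 hfpf
  refine ⟨h1, h2, ⟨E, hE, hF, hfpf⟩, ?_⟩
  have := isNilpotent_of_fpf hCN hF.hasFpfAction
  exact Group.nilpotent_of_mulEquiv hE.symm.QuotientMulEquiv.symm

end Cfsg.Agent.S1474
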