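import Cfsg.Statements.S1475
import Cfsg.Agent.GT.CNGroup

set_option autoImplicit false
open Cfsg

namespace Cfsg.Agent.S1475

/-- Let G be a finite solvable group such that the order of every element is a prime power (1 included). Then at most two distinct primes divide the order of G. -/
theorem result {G : Type*} [Group G] [Finite G] [Group.IsSolvable G] (h : ∀ g : G, IsPrimePow (orderOf g) ∨ g = 1) :
    (Nat.card G).primeFactors.card ≤ 2 := by
  classical
  have hc : ∀ {x y : G} {a b : ℕ}, a.Prime → b.Prime → orderOf x = a → orderOf y = b →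
      Commute x y → a = b := by
    intro x y a b ha hb hx hy hxy
    by_contra hne
    have hcop : (orderOf x).Coprime (orderOf y) := by
      rw [hx, hy]; exact (Nat.coprime_primes ha hb).2 hne
    have ho := hxy.orderOf_mul_eq_mul_orderOf_of_coprime hcop
    rw [hx, hy] at ho
    rcases h (x * y) with h1 | h1
    · rw [ho] at h1
      obtain ⟨r, k, hr, -, e⟩ := (isPrimePow_nat_iff _).1 h1
      have h2 := (Nat.prime_dvd_prime_iff_eq ha hr).1 (ha.dvd_of_dvd_pow (e ▸ dvd_mul_right a b))
      have h3 := (Nat.prime_dvd_prime_iff_eq hb hr).1 (hb.dvd_of_dvd_pow (e ▸ dvd_mul_left b a))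
      exact hne (h2.trans h3.symm)
    · rw [h1, orderOf_one] at ho
      exact ha.one_lt.ne' (Nat.eq_one_of_mul_eq_one_right ho.symm)
  rcases subsingleton_or_nontrivial G with h1 | h1
  · simp [Nat.card_of_subsingleton (1 : G)]
  obtain ⟨N, hN⟩ := GT.exists_isMinNormal G
  have := hN.normal
  obtain ⟨p, hp, hNp, -⟩ := hN.exists_isPGroup
  obtain ⟨K, hK1, hK2⟩ := GT.exists_isPiHall {p}ᶜ G
  have hfpf : GT.Frob.HasFpfAction K := by
    refine GT.Frob.hasFpfAction_of_fpf hN.ne_bot (by simp [Subgroup.normalizer_eq_top]) ?_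
    intro a ha ha1
    rw [eq_bot_iff]
    rintro u ⟨hu, hua⟩
    by_contra hu1
    obtain ⟨r, k, hr, hk⟩ := GT.CN.exists_pow_prime ha1
    obtain ⟨s, l, hs, hl⟩ := GT.CN.exists_pow_prime (x := u) hu1
    have hrs := hc hr hs hk hl ((GT.CN.mem_cent.1 hua).symm.pow_pow k l)
    have hrp : r ≠ p := hK1 r hr (hk ▸ Subgroup.orderOf_dvd_natCard K (K.pow_mem ha k))
    have := GT.CN.coprime_orderOf_of_isPGroup hr hp hrp.symm hNp (N.pow_mem hu l)
    rw [hl, ← hrs] at this
    exact hr.one_lt.ne' ((Nat.coprime_self _).1 this)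
  have hq : ∃ q : ℕ, ∀ r : ℕ, r.Prime → r ∣ Nat.card K → r = q := by
    rcases subsingleton_or_nontrivial K with h2 | h2
    · refine ⟨0, fun r hr hd => ?_⟩
      rw [Nat.card_of_subsingleton (1 : K)] at hd
      exact absurd (Nat.dvd_one.1 hd) hr.one_lt.ne'
    obtain ⟨⟨z, hz⟩, hz1⟩ := (Subgroup.ne_bot_iff_exists_ne_one).1 hfpf.center_ne_bot
    have hz2 : (z : G) ≠ 1 := fun e => hz1 (Subtype.ext (Subtype.ext e))
    obtain ⟨q, k, hq, hk⟩ := GT.CN.exists_pow_prime hz2
    refine ⟨q, fun r hr hd => ?_⟩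
    have := Fact.mk hr
    obtain ⟨y, hy⟩ := exists_prime_orderOf_dvd_card' r hd
    have hyz : Commute (y : G) z := congrArg Subtype.val (Subgroup.mem_center_iff.1 hz y)
    exact hc hr hq (by rw [Subgroup.orderOf_coe, hy]) hk (hyz.pow_right k)
  obtain ⟨q, hq⟩ := hq
  refine (Finset.card_le_card (t := {p, q}) fun r hr => ?_).trans Finset.card_le_two
  obtain ⟨hr, hd, -⟩ := Nat.mem_primeFactors.1 hr
  by_cases hrp : r = p
  · simp [hrp]
  · rw [← K.card_mul_index] at hd
    have := hq r hr ((hr.dvd_mul.1 hd).resolve_right (hK2 r hr hrp))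
    simp [this]

end Cfsg.Agent.S1475
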