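import Cfsg.Statements.S1476
import Cfsg.Agent.GT.CNGroup
import Cfsg.Agent.S1474

set_option autoImplicit false
open Cfsg

namespace Cfsg.Agent.S1476

open Cfsg.Agent.GT Cfsg.Agent.GT.CN

/-- Subgroups of order prime to `p` of `G / O_p(G)` lift. -/
theorem exists_lift {G : Type*} [Group G] [Finite G] {p : ℕ} (hp : p.Prime) (H : Subgroup G)
    [H.Normal] (hH : IsPGroup p H) (K : Subgroup (G ⧸ H)) (hK : (Nat.card K).Coprime p) :
    ∃ A : Subgroup G, H ⊔ A = K.comap (QuotientGroup.mk' H) ∧ H ⊓ A = ⊥ ∧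
      Nat.card A = Nat.card K ∧ A.map (QuotientGroup.mk' H) = K ∧ Nonempty (A ≃* K) := by
  have := Fact.mk hp
  have hle : H ≤ K.comap (QuotientGroup.mk' H) := QuotientGroup.le_comap_mk' H K
  have hrel : H.relIndex (K.comap (QuotientGroup.mk' H)) = Nat.card K := by
    rw [← card_map_mk'_eq_relIndex,
      Subgroup.map_comap_eq_self_of_surjective (QuotientGroup.mk'_surjective H)]
  obtain ⟨n, hn⟩ := IsPGroup.iff_card.1 hH
  obtain ⟨A, -, h1, h2, h3⟩ := exists_complement_of_coprime_relIndex hle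
    (by simp [Subgroup.normalizer_eq_top]) (by rw [hrel, hn]; exact hK.symm.pow_left n)
  have h4 : A.map (QuotientGroup.mk' H) = K := by
    have := congrArg (Subgroup.map (QuotientGroup.mk' H)) h1
    rwa [Subgroup.map_sup, QuotientGroup.map_mk'_self, bot_sup_eq,
      Subgroup.map_comap_eq_self_of_surjective (QuotientGroup.mk'_surjective H)] at this
  refine ⟨A, h1, h2, h3.trans hrel, h4, ⟨?_⟩⟩
  refine (MulEquiv.ofBijective ((QuotientGroup.mk' H).subgroupMap A) ?_).trans
    (MulEquiv.subgroupCongr h4)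
  refine (Nat.bijective_iff_surjective_and_card _).2
    ⟨(QuotientGroup.mk' H).subgroupMap_surjective A, ?_⟩
  rw [h4, h3, hrel]

theorem threeStep {G : Type*} [Group G] [Finite G] [Group.IsSolvable G] (hCN : IsCNGroup G)
    (hns : ∀ (q : ℕ) (_ : q.Prime) (Q : Sylow q G), (Q : Subgroup G).Normal →
      (Q : Subgroup G) = ⊥) {p : ℕ} (hp : p.Prime) (h1 : pCore p G ≠ ⊥) :
    IsThreeStepGroup p G := by
  have := Fact.mk hp
  have hHp := isPGroup_pCore (G := G) p
  set H := pCore p G with hH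
  have k1 : ∀ a : G, a ≠ 1 → (orderOf a).Coprime p →
      H ⊓ Subgroup.centralizer ({a} : Set G) = ⊥ := by
    intro a ha hc
    rw [eq_bot_iff]
    rintro u ⟨hu, hua⟩
    by_contra hu1
    obtain ⟨q, k, hq, hk⟩ := exists_pow_prime ha
    have hqp : q ≠ p := (Nat.coprime_primes hq hp).1
      (hc.coprime_dvd_left (hk ▸ orderOf_pow_dvd k))
    obtain ⟨Q, hQ, hy⟩ := exists_normal_sylow hCN hq hp hqp hk hu hu1
      ((mem_cent.1 hua).symm.pow_left k)
    rw [hns q hq Q hQ] at hy
    exact ne_one_of_orderOf hq hk hy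
  have k1' : ∀ A : Subgroup G, (Nat.card A).Coprime p → ∀ a ∈ A, a ≠ 1 →
      H ⊓ Subgroup.centralizer ({a} : Set G) = ⊥ := fun A hA a ha ha1 =>
    k1 a ha1 (hA.coprime_dvd_left (Subgroup.orderOf_dvd_natCard A ha))
  have hQCN : IsCNGroup (G ⧸ H) := quotient_pgroup hCN hp H hHp
  have hcore : pCore p (G ⧸ H) = ⊥ := pCore_quotient_pCore
  -- subgroups of order prime to `p` in the quotient
  have k3 : ∀ K : Subgroup (G ⧸ H), (Nat.card K).Coprime p →
      Frob.HasFpfAction K ∧ Group.IsNilpotent K := by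
    intro K hK
    obtain ⟨A, -, -, h3, -, ⟨e⟩⟩ := exists_lift hp H hHp K hK
    have hA : Frob.HasFpfAction A :=
      Frob.hasFpfAction_of_fpf h1 (by simp [Subgroup.normalizer_eq_top]) (k1' A (h3 ▸ hK))
    have := isNilpotent_of_fpf hCN hA
    exact ⟨hA.of_mulEquiv e, Group.nilpotent_of_mulEquiv e⟩
  set F := fittingSubgroup (G ⧸ H) with hF
  have hFc : (Nat.card F).Coprime p := by
    refine ((Nat.Prime.coprime_iff_not_dvd hp).2 fun hd => ?_).symm
    obtain ⟨x, hx⟩ := exists_prime_orderOf_dvd_card' p hd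
    have hx' : orderOf (x : G ⧸ H) = p := by rw [Subgroup.orderOf_coe, hx]
    have := le_pCore_of_le_fitting (isPGroup_zpowers_of_orderOf (k := 1) (by simpa using hx'))
      (Subgroup.zpowers_le.2 x.2) (Subgroup.mem_zpowers _)
    rw [hcore] at this
    exact ne_one_of_orderOf hp hx' this
  have hpd : p ∣ Nat.card (G ⧸ H) := by
    by_contra hnd
    have hQ := hns p hp (hHp.toSylow hnd) (inferInstance : H.Normal)
    exact h1 hQ
  obtain ⟨x0, hx0⟩ := exists_prime_orderOf_dvd_card' p hpd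
  have k2 : ∀ x : G ⧸ H, orderOf x = p → ∀ a ∈ F, Commute x a → a = 1 := by
    intro x hx a ha hxa
    by_contra ha1
    obtain ⟨q, k, hq, hk⟩ := exists_pow_prime ha1
    have hak := F.pow_mem ha k
    have hqp : q ≠ p := (Nat.coprime_primes hq hp).1
      (hFc.coprime_dvd_left (hk ▸ Subgroup.orderOf_dvd_natCard F hak))
    have hm : a ^ k ∈ pCore q (G ⧸ H) :=
      le_pCore_of_le_fitting (isPGroup_zpowers_of_orderOf (k := 1) (by simpa using hk))
        (Subgroup.zpowers_le.2 hak) (Subgroup.mem_zpowers _)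
    obtain ⟨Q, hQ, hy⟩ := exists_normal_sylow hQCN hp hq hqp.symm hx hm (ne_one_of_orderOf hq hk)
      (hxa.pow_right k)
    have := le_pCore Q.isPGroup' hy
    rw [hcore] at this
    exact ne_one_of_orderOf hp hx this
  have hFodd : Odd (Nat.card F) := by
    rw [← Nat.not_even_iff_odd, even_iff_two_dvd]
    intro hd
    have := Fact.mk Nat.prime_two
    obtain ⟨t, ht⟩ := exists_prime_orderOf_dvd_card' 2 hd
    have ht1 : t ≠ 1 := ne_one_of_orderOf Nat.prime_two ht
    have ht2 : t * t = 1 := by rw [← sq, ← ht, pow_orderOf_eq_one]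
    have hs : x0 * t * x0⁻¹ ∈ F := (inferInstance : F.Normal).conj_mem _ t.2 x0
    have ht2' : (t : G ⧸ H) * t = 1 := congrArg Subtype.val ht2
    have e := (k3 F hFc).1.eq_of_mul_self_eq_one (s := ⟨_, hs⟩) (t := t) (fun e => ht1 (by
      have := congrArg Subtype.val e
      simpa using this)) (Subtype.ext (by
        change x0 * t * x0⁻¹ * (x0 * t * x0⁻¹) = 1
        rw [conj_mul, ht2']; simp)) ht1 ht2
    have e' : x0 * t * x0⁻¹ = t := congrArg Subtype.val e
    exact ht1 (Subtype.ext (k2 x0 hx0 t t.2 (mul_inv_eq_iff_eq_mul.1 e')))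
  have k4 : ∀ (q : ℕ), q.Prime → q ≠ p → ∀ y : G ⧸ H, IsPGroup q (Subgroup.zpowers y) → y ∈ F := by
    intro q hq hqp y hy
    have := Fact.mk hq
    obtain ⟨n, hn⟩ := IsPGroup.iff_card.1 hy
    have hd := card_sup_dvd (Subgroup.zpowers y) F
    rw [hn] at hd
    obtain ⟨hK, hKn⟩ := k3 (Subgroup.zpowers y ⊔ F) (Nat.Coprime.coprime_dvd_left hd
      (Nat.Coprime.mul_left (((Nat.coprime_primes hq hp).2 hqp).pow_left n) hFc))
    have hyK : y ∈ Subgroup.zpowers y ⊔ F := Subgroup.mem_sup_left (Subgroup.mem_zpowers y)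
    refine centralizer_fitting_le (Subgroup.mem_centralizer_iff.2 fun a ha => ?_)
    have haK : a ∈ Subgroup.zpowers y ⊔ F := Subgroup.mem_sup_right ha
    by_cases hq2 : q = 2
    · subst hq2
      refine commute_of_coprime_of_isNilpotent haK hyK ?_
      refine coprime_of_isPGroup hy (Subgroup.mem_zpowers y) ?_
      exact (Nat.coprime_two_right.2 hFodd).coprime_dvd_left (Subgroup.orderOf_dvd_natCard F ha)
    · have hc := isCyclic_of_fpf_odd hK (Odd.of_dvd_nat ((hq.odd_of_ne_two hq2).pow.mul hFodd) hd)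
      let := hc.commGroup
      exact congrArg Subtype.val (mul_comm (⟨a, haK⟩ : ↥(Subgroup.zpowers y ⊔ F)) ⟨y, hyK⟩)
  obtain ⟨A, hA1, hA2, hA3, hA4, ⟨e⟩⟩ := exists_lift hp H hHp F hFc
  have hFind : F.index = (H ⊔ A).index := by
    rw [hA1, Subgroup.index_comap_of_surjective _ (QuotientGroup.mk'_surjective H)]
  have : Nontrivial (G ⧸ H) := ⟨⟨x0, 1, ne_one_of_orderOf hp hx0⟩⟩
  refine ⟨h1, A, fun hb => ?_, ?_, hA3 ▸ hFodd, hA3 ▸ hFc, ?_, fun ht => ?_, ?_, k1' A (hA3 ▸ hFc),
    fun x hx a ha ha1 hm => hx ?_⟩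
  · rw [hb, Subgroup.map_bot] at hA4
    exact fitting_ne_bot hA4.symm
  · have := (k3 F hFc).2
    have := isCyclic_of_fpf_odd (k3 F hFc).1 hFodd
    exact isCyclic_of_surjective e.symm e.symm.surjective
  · rw [hA1]; infer_instance
  · rw [ht, Subgroup.index_top, Subgroup.index_eq_one] at hFind
    rw [hFind, Subgroup.card_top] at hFc
    exact hp.one_lt.ne' (Nat.eq_one_of_dvd_coprimes hFc hpd dvd_rfl)
  · rw [← hFind]
    refine ⟨_, Nat.eq_prime_pow_of_unique_prime_dvd Subgroup.index_ne_zero_of_finite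
      fun {q} hq hd => ?_⟩
    by_contra hqp
    have := Fact.mk hq
    obtain ⟨Q⟩ : Nonempty (Sylow q (G ⧸ H)) := inferInstance
    have hle : (Q : Subgroup (G ⧸ H)) ≤ F := fun y hy =>
      k4 q hq hqp y (Q.isPGroup'.to_le (Subgroup.zpowers_le.2 hy))
    exact Q.not_dvd_index (hd.trans (Subgroup.index_dvd_of_le hle))
  · rw [hA1]
    have haF : (QuotientGroup.mk a : G ⧸ H) ∈ F := hA4 ▸ ⟨a, ha, rfl⟩
    have ha1' : (QuotientGroup.mk a : G ⧸ H) ≠ 1 := fun e => ha1 <| by
      have : a ∈ H ⊓ A := ⟨(QuotientGroup.eq_one_iff a).1 e, ha⟩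
      rwa [hA2] at this
    have hc : Commute (QuotientGroup.mk x : G ⧸ H) (QuotientGroup.mk a) := by
      rw [← commutatorElement_eq_one_iff_commute]
      exact (QuotientGroup.eq_one_iff _).2 hm
    refine le_of_primePow (K := Subgroup.zpowers (QuotientGroup.mk x : G ⧸ H)) (H := F)
      (fun y hy q hq hyq => ?_) (Subgroup.mem_zpowers _)
    by_cases hqp : q = p
    · subst hqp
      by_cases hy1 : y = 1
      · rw [hy1]; exact F.one_mem
      obtain ⟨r, k, hr, hk⟩ := exists_pow_prime hy1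
      have hrq : r = q := by
        by_contra hne
        have := coprime_orderOf_of_isPGroup hr hq (Ne.symm hne) hyq
          (Subgroup.pow_mem _ (Subgroup.mem_zpowers y) k)
        rw [hk] at this
        exact hr.one_lt.ne' ((Nat.coprime_self _).1 this)
      obtain ⟨j, rfl⟩ := hy
      exact absurd (k2 _ (hk.trans hrq) _ haF ((hc.zpow_left j).pow_left k)) ha1'
    · exact k4 q hq hqp y hyq

/-- Let G be a finite solvable group in which every non-identity element has nilpotent centralizer. Then either G is nilpotent; or G has a normal subgroup K with a Frobenius complement E (K E = G, K ∩ E = 1, E meets its conjugates by outside elements trivially) such that E is cyclic or E is generated by two elementwise-commuting subgroups, one cyclic of odd order and one isomorphic to a generalized quaternion group; or G is a three-step group with respect to some prime p. -/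
theorem result {G : Type*} [Group G] [Finite G] [Group.IsSolvable G] (hCN : Cfsg.IsCNGroup G) :
    Group.IsNilpotent G ∨
      (∃ K E : Subgroup G, K.Normal ∧ Subgroup.IsComplement' K E ∧ Cfsg.IsFrobeniusComplement E ∧
        (IsCyclic E ∨ ∃ C Q : Subgroup G, C ⊔ Q = E ∧ (∀ a ∈ C, ∀ b ∈ Q, a * b = b * a) ∧ IsCyclic C ∧ Odd (Nat.card C) ∧
          ∃ n : ℕ, Nonempty (↥Q ≃* QuaternionGroup (2 ^ n)))) ∨
      ∃ p : ℕ, p.Prime ∧ Cfsg.IsThreeStepGroup p G := by
  by_cases hn : Group.IsNilpotent G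
  · exact Or.inl hn
  right
  by_cases hs : ∃ (q : ℕ) (_ : q.Prime) (Q : Sylow q G), (Q : Subgroup G).Normal ∧
      (Q : Subgroup G) ≠ ⊥
  · obtain ⟨q, hq, Q, hQ, hQ1⟩ := hs
    have := Fact.mk hq
    obtain ⟨-, -, ⟨E, hE, hF, -⟩, -⟩ := S1474.result hCN hn q Q hQ1 hQ
    refine Or.inl ⟨_, E, inferInstance, hE, hF, ?_⟩
    have hA := hF.hasFpfAction
    have := isNilpotent_of_fpf hCN hA
    have := Fact.mk Nat.prime_two
    rcases (hA.subgroup (pCore 2 E)).isCyclic_or_quaternion (isPGroup_pCore 2) with hc | ⟨-, n, ⟨e⟩⟩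
    · left
      have := hA.isZGroup_of_two fun P => by
        rw [pCore_eq_sylow_of_isNilpotent P] at hc
        exact hc
      infer_instance
    · right
      have ho : Odd (Nat.card (pPrimeCore 2 E)) :=
        Nat.coprime_two_right.1 (coprime_card_pPrimeCore 2)
      have e1 := (pPrimeCore 2 E).equivMapOfInjective E.subtype E.subtype_injective
      have e2 := (pCore 2 E).equivMapOfInjective E.subtype E.subtype_injective
      refine ⟨(pPrimeCore 2 E).map E.subtype, (pCore 2 E).map E.subtype, ?_, ?_, ?_, ?_, n,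
        ⟨e2.symm.trans e⟩⟩
      · rw [← Subgroup.map_sup, sup_comm, pCore_sup_pPrimeCore, ← MonoidHom.range_eq_map,
          Subgroup.range_subtype]
      · rintro _ ⟨a, ha, rfl⟩ _ ⟨b, hb, rfl⟩
        exact congrArg Subtype.val
          (Subgroup.mem_centralizer_iff.1 (pPrimeCore_le_centralizer_pCore ha) b hb).symm
      · have := isCyclic_of_fpf_odd (hA.subgroup (pPrimeCore 2 E)) ho
        exact isCyclic_of_surjective e1 e1.surjective
      · rwa [← Nat.card_congr e1.toEquiv]
  · right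
    have : Nontrivial G := by
      by_contra h
      rw [not_nontrivial_iff_subsingleton] at h
      exact hn inferInstance
    have hf := fitting_ne_bot (G := G)
    rw [Ne, fitting_eq_bot_iff] at hf
    push Not at hf hs
    obtain ⟨p, hp, h1⟩ := hf
    exact ⟨p, hp, threeStep hCN hs hp h1⟩

end Cfsg.Agent.S1476
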