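import Cfsg.Statements.S1477
import Cfsg.Agent.GT.CNGroup

set_option autoImplicit false
open Cfsg

namespace Cfsg.Agent.S1477

open Cfsg.Agent.GT Cfsg.Agent.GT.CN

/-- Let G be a finite group in which every non-identity element has nilpotent centralizer, and H a nilpotent subgroup not properly contained in any nilpotent subgroup. Then the order of H is coprime to its index; if the order of H is not a prime power then H ∩ gHg⁻¹ = 1 whenever gHg⁻¹ ≠ H; and if H ∩ gHg⁻¹ = 1 whenever gHg⁻¹ ≠ H, then C_G(x) ≤ H for every non-identity x ∈ H. -/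
theorem result {G : Type*} [Group G] [Finite G] (hCN : Cfsg.IsCNGroup G) (H : Subgroup G) (hH : Group.IsNilpotent H)
    (hmax : ∀ L : Subgroup G, Group.IsNilpotent L → H ≤ L → L = H) :
    (Nat.card H).Coprime H.index ∧
      (¬ IsPrimePow (Nat.card H) → Nat.card H ≠ 1 → ∀ g : G, H.map (MulAut.conj g).toMonoidHom ≠ H → H ⊓ H.map (MulAut.conj g).toMonoidHom = ⊥) ∧
      ((∀ g : G, H.map (MulAut.conj g).toMonoidHom ≠ H → H ⊓ H.map (MulAut.conj g).toMonoidHom = ⊥) → ∀ x ∈ H, x ≠ 1 → Subgroup.centralizer ({x} : Set G) ≤ H) := by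
  have hcent : ∀ z ∈ H, z ≠ 1 → (∀ h ∈ H, Commute h z) → ∀ u, Commute u z → u ∈ H := by
    intro z _ hz1 hz u hu
    have := hmax _ (hCN z hz1) fun h hh => mem_cent.2 (hz h hh)
    exact this ▸ mem_cent.2 hu
  have hne : ∀ {z : G} {p : ℕ}, p.Prime → orderOf z = p → z ≠ 1 := by
    rintro z p hp hz rfl
    exact hp.one_lt.ne (by simpa using hz)
  have hHall : (Nat.card H).Coprime H.index := by
    refine Nat.coprime_of_dvd fun p hp hd => ?_
    have := Fact.mk hp
    suffices hs : ∃ S : Sylow p G, (S : Subgroup G) ≤ H by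
      obtain ⟨S, hS⟩ := hs
      exact fun hi => S.not_dvd_index (hi.trans (Subgroup.index_dvd_of_le hS))
    by_cases hpg : IsPGroup p H
    · obtain ⟨S, hS⟩ := hpg.exists_le_sylow
      exact ⟨S, (hmax S S.isPGroup'.isNilpotent hS).le⟩
    · obtain ⟨q, hq, hqd, hqp⟩ : ∃ q : ℕ, q.Prime ∧ q ∣ Nat.card H ∧ q ≠ p := by
        by_contra hcon
        push Not at hcon
        exact hpg (IsPGroup.iff_card.2 ⟨_, Nat.eq_prime_pow_of_unique_prime_dvd Nat.card_pos.ne'
          fun hq hqd => hcon _ hq hqd⟩)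
      obtain ⟨x, hx, hxo, -⟩ := exists_central hH hp hd
      obtain ⟨z, hz, hzo, hzc⟩ := exists_central hH hq hqd
      obtain ⟨S, hS⟩ := (isPGroup_zpowers_of_orderOf (k := 1) (by simpa using hxo)).exists_le_sylow
      refine ⟨S, fun g hg => hcent z hz (hne hq hzo) hzc g ?_⟩
      exact (comm_pgroup hCN hp S.isPGroup' (hS (Subgroup.mem_zpowers x)) (hne hp hxo)
        (hzc x hx).symm (by rw [hzo]; exact (Nat.coprime_primes hq hp).2 hqp) hg).symm
  refine ⟨hHall, fun hpp h1 g hg => ?_, fun hTI x hx hx1 => ?_⟩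
  · by_contra hcon
    apply hg
    set H' := H.map (MulAut.conj g).toMonoidHom with hH'
    have e : H ≃* H' := H.equivMapOfInjective _ (MulAut.conj g).injective
    have hnil : Group.IsNilpotent H' := Group.nilpotent_of_mulEquiv e
    have hcard : Nat.card H' = Nat.card H := (Nat.card_congr e.toEquiv).symm
    have hcent' : ∀ z ∈ H', z ≠ 1 → (∀ h ∈ H', Commute h z) → ∀ u, Commute u z → u ∈ H' := by
      rintro _ ⟨z, hz, rfl⟩ hz1 hzc u hu
      refine ⟨(MulAut.conj g).symm u, hcent z hz (by rintro rfl; exact hz1 (map_one _))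
        (fun h hh => ?_) _ ?_, (MulAut.conj g).apply_symm_apply u⟩
      · exact (hzc _ ⟨h, hh, rfl⟩).of_map (MulAut.conj g).injective
      · refine Commute.of_map (f := MulAut.conj g) (MulAut.conj g).injective ?_
        rwa [MulEquiv.apply_symm_apply]
    refine hmax H' hnil ?_
    obtain ⟨⟨x0, hx0, hx0'⟩, hx01⟩ := (Subgroup.ne_bot_iff_exists_ne_one).1 hcon
    obtain ⟨r, k, hr, hk⟩ := exists_pow_prime (x := x0) fun e => hx01 (Subtype.ext e)
    have hx : x0 ^ k ∈ H := H.pow_mem hx0 k
    have hx' : x0 ^ k ∈ H' := H'.pow_mem hx0' k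
    generalize x0 ^ k = x at hk hx hx'
    have hrd : r ∣ Nat.card H := hk ▸ Subgroup.orderOf_dvd_natCard H hx
    obtain ⟨s, hs, hsd, hsr⟩ : ∃ q : ℕ, q.Prime ∧ q ∣ Nat.card H ∧ q ≠ r := by
      by_contra hcon
      push Not at hcon
      have e := Nat.eq_prime_pow_of_unique_prime_dvd (Nat.card_pos (α := H)).ne'
          fun hq hqd => hcon _ hq hqd
      refine hpp ((isPrimePow_nat_iff _).2 ⟨r, _, hr, Nat.pos_of_ne_zero fun e0 => h1 ?_, e.symm⟩)
      rw [e, e0, pow_zero]
    obtain ⟨z, hz, hzo, hzc⟩ := exists_central hH hs hsd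
    obtain ⟨w, hw, hwo, hwc⟩ := exists_central hH hr hrd
    obtain ⟨z', hz', hzo', hzc'⟩ := exists_central hnil hs (hcard ▸ hsd)
    obtain ⟨w', hw', hwo', hwc'⟩ := exists_central hnil hr (hcard ▸ hrd)
    have hcop : s.Coprime r := (Nat.coprime_primes hs hr).2 hsr
    have hz'H : z' ∈ H := hcent w hw (hne hr hwo) hwc _
      (comm hCN (hne hr hk) (hzc' x hx').symm (hwc x hx).symm (by rwa [hzo', hwo]))
    have hw'H : w' ∈ H := hcent z hz (hne hs hzo) hzc _
      (comm hCN (hne hr hk) (hwc' x hx').symm (hzc x hx).symm (by rw [hzo, hwo']; exact hcop.symm))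
    refine le_of_primePow fun y hy t ht hyt => ?_
    by_cases hts : t = s
    · subst hts
      refine hcent' w' hw' (hne hr hwo') hwc' y (comm hCN (hne hr hwo) (hwc y hy) (hwc w' hw'H) ?_)
      rw [hwo']
      exact coprime_orderOf_of_isPGroup hr ht hsr hyt (Subgroup.mem_zpowers y)
    · refine hcent' z' hz' (hne hs hzo') hzc' y (comm hCN (hne hs hzo) (hzc y hy) (hzc z' hz'H) ?_)
      rw [hzo']
      exact coprime_orderOf_of_isPGroup hs ht hts hyt (Subgroup.mem_zpowers y)
  · obtain ⟨r, k, hr, hk⟩ := exists_pow_prime hx1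
    have hxk : x ^ k ∈ H := H.pow_mem hx k
    have hrd : r ∣ Nat.card H := hk ▸ Subgroup.orderOf_dvd_natCard H hxk
    obtain ⟨w, hw, hwo, hwc⟩ := exists_central hH hr hrd
    refine le_of_primePow fun u hu t ht hut => ?_
    by_cases htr : t = r
    · subst htr
      have := Fact.mk ht
      have hn : u ∈ Subgroup.normalizer (H : Set G) := by
        have he : H.map (MulAut.conj u).toMonoidHom = H := by
          by_contra hcon
          have hb := hTI u hcon
          have : x ∈ H ⊓ H.map (MulAut.conj u).toMonoidHom :=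
            ⟨hx, x, hx, by simp [(mem_cent.1 hu).eq]⟩
          rw [hb] at this
          exact hx1 this
        rw [Subgroup.mem_normalizer_iff]
        intro y
        constructor
        · intro hy
          exact he ▸ ⟨y, hy, rfl⟩
        · intro hy
          rw [← he] at hy
          obtain ⟨y', hy', e⟩ := hy
          have : y' = y := (MulAut.conj u).injective e
          exact this ▸ hy'
      set N := Subgroup.normalizer (H : Set G)
      have hnorm : (H.subgroupOf N).Normal := Subgroup.normal_in_normalizer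
      obtain ⟨a, ha⟩ := hut ⟨u, Subgroup.mem_zpowers u⟩
      have ha' : u ^ t ^ a = 1 := by simpa using congrArg Subtype.val ha
      have h1 : orderOf (QuotientGroup.mk ⟨u, hn⟩ : N ⧸ H.subgroupOf N) ∣ t ^ a := by
        refine orderOf_dvd_of_pow_eq_one ?_
        rw [← QuotientGroup.mk_pow]
        have : (⟨u, hn⟩ : N) ^ t ^ a = 1 := Subtype.ext ha'
        rw [this]; rfl
      have h2 : orderOf (QuotientGroup.mk ⟨u, hn⟩ : N ⧸ H.subgroupOf N) ∣ H.index :=
        (orderOf_dvd_natCard _).trans (Subgroup.relIndex_dvd_index_of_le Subgroup.le_normalizer)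
      have h3 : (t ^ a).Coprime H.index := (hHall.coprime_dvd_left hrd).pow_left a
      have h4 := orderOf_eq_one_iff.1 (Nat.eq_one_of_dvd_coprimes h3 h1 h2)
      exact (QuotientGroup.eq_one_iff (⟨u, hn⟩ : N)).1 h4
    · refine hcent w hw (hne hr hwo) hwc u (comm hCN (hne hr hk) ((mem_cent.1 hu).pow_right k)
        (hwc _ hxk).symm ?_)
      rw [hwo]
      exact coprime_orderOf_of_isPGroup hr ht htr hut (Subgroup.mem_zpowers u)

end Cfsg.Agent.S1477
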