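import Mathlib
-- Template for statement S1480 (row 1480; see /opt/grader/pristine/manifest.json for weights).
-- Copy to Cfsg/Agent/S1480.lean and replace the sorry. The statement below is byte-identical to the frozen
-- statement Cfsg.CfsgFrozen.S1480 (Cfsg/Statements/S1480.lean; the theorem Cfsg.transitivity_theorem_p_constrained_locals);
-- the grader kernel-checks Cfsg.Agent.S1480.result against that frozen type. Keep the theorem IN THIS FILE
-- (a `result` declared elsewhere and merely imported here is not credited); helpers may live anywhere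
-- under Cfsg/Agent/.
import Cfsg.Statements.S1480
import Cfsg.Agent.FT.Transit

set_option autoImplicit false
open Cfsg

namespace Cfsg.Agent.S1480

/-- Let G be a finite group and p a prime such that the normalizer of every nontrivial p-subgroup of G is p-constrained; if p = 2 assume also that the Sylow 2-subgroups of G have nilpotency class at most 2. Let E be an abelian p-subgroup containing an elementary abelian subgroup of order p ^ 3 and containing every element of p-power order of C_G(E). Then for every prime q ≠ p, any two maximal E-invariant q-subgroups of G are conjugate by an element of O_{p'}(C_G(E)). -/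
theorem result {G : Type*} [Group G] [Finite G] (p : ℕ) [Fact p.Prime]
    (hloc : ∀ T : Subgroup G, IsPGroup p T → T ≠ ⊥ → Cfsg.IsPConstrained p ↥(Subgroup.normalizer (T : Set G)))
    (h2 : p = 2 → ∀ S : Sylow p G, Group.IsNilpotent (S : Subgroup G) ∧ Group.nilpotencyClass (S : Subgroup G) ≤ 2)
    (E : Subgroup G) (hEp : IsPGroup p E) (hEc : IsMulCommutative E) (hE3 : ¬ Cfsg.PRankLE p 2 E)
    (hEfull : ∀ x ∈ Subgroup.centralizer (E : Set G), IsPGroup p (Subgroup.zpowers x) → x ∈ E)
    (q : ℕ) [Fact q.Prime] (hqp : q ≠ p) :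
    ∀ Q₁ ∈ Cfsg.maxInvSubgroups ⊤ E {q}, ∀ Q₂ ∈ Cfsg.maxInvSubgroups ⊤ E {q},
        ∃ k ∈ Cfsg.piCoreOf (Cfsg.primesNotDvd p) (Subgroup.centralizer (E : Set G)), Q₂ = Q₁.map (MulAut.conj k).toMonoidHom := by
  rw [FT.piCoreOf_primesNotDvd_prime Fact.out]
  refine FT.trans_max_normed_of_constrained hqp hloc (fun e T hT => ?_) hEp hEc hE3
    fun T hT hTp x hx => hEfull x (hT hx) (hTp.to_le (Subgroup.zpowers_le_of_mem hx))
  obtain ⟨S, hS⟩ := hT.exists_le_sylow
  obtain ⟨h3, h4⟩ := h2 e S
  have h5 := Subgroup.lowerCentralSeries_eq_bot_iff_nilpotencyClass_le.2 h4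
  have h6 := Subgroup.top_subtype_lowerCentralSeries (S : Subgroup G) 2
  rw [h5, Subgroup.map_bot] at h6
  exact ((Subgroup.commutator_mono hS hS).trans
    (FT.commutator_eq_bot_iff_le_cent.1 h6.symm)).trans (FT.cent_anti hS)

end Cfsg.Agent.S1480
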