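import Mathlib
-- Template for statement S1481 (row 1481; see /opt/grader/pristine/manifest.json for weights).
-- Copy to Cfsg/Agent/S1481.lean and replace the sorry. The statement below is byte-identical to the frozen
-- statement Cfsg.CfsgFrozen.S1481 (Cfsg/Statements/S1481.lean; the theorem Cfsg.maximal_local_fitting_two_primes_unique_invariant_sylow);
-- the grader kernel-checks Cfsg.Agent.S1481.result against that frozen type. Keep the theorem IN THIS FILE
-- (a `result` declared elsewhere and merely imported here is not credited); helpers may live anywhere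
-- under Cfsg/Agent/.
import Cfsg.Statements.S1481
import Cfsg.Agent.FT.B8Aux
import Cfsg.Agent.FT.B13Aux

set_option autoImplicit false
open Cfsg

namespace Cfsg.Agent.S1481

/-- Let G be a finite group and H a local subgroup (the normalizer of a nontrivial subgroup of prime-power order) not properly contained in any local subgroup; let F = F(H), suppose at least two primes divide #F, put X = H ∩ C_G(F), let M ≤ F with F ∩ C_G(M) ≤ M, and let R be a solvable subgroup normalized by M and by X. Then for every prime q not dividing #F there is exactly one maximal M-invariant q-subgroup of R, and it is a Sylow q-subgroup of the largest normal subgroup of R of order coprime to #F. -/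
theorem result {G : Type*} [Group G] [Finite G] (H : Subgroup G) (hH : Cfsg.IsLocalSubgroup H) (hHmax : ∀ L : Subgroup G, Cfsg.IsLocalSubgroup L → H ≤ L → L = H)
    (hF2 : 2 ≤ (Nat.card (Cfsg.fittingOf H)).primeFactors.card)
    (M : Subgroup G) (hM : M ≤ Cfsg.fittingOf H) (hCM : Cfsg.fittingOf H ⊓ Subgroup.centralizer (M : Set G) ≤ M)
    (R : Subgroup G) (hR : Group.IsSolvable R) (hMR : M ≤ Subgroup.normalizer (R : Set G))
    (hXR : H ⊓ Subgroup.centralizer (Cfsg.fittingOf H : Set G) ≤ Subgroup.normalizer (R : Set G))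
    (q : ℕ) [Fact q.Prime] (hq : ¬ q ∣ Nat.card (Cfsg.fittingOf H)) :
    ∃! Q : Subgroup G, Q ∈ Cfsg.maxInvSubgroups R M {q} ∧
      (∀ Q' : Subgroup G, Q' ∈ Cfsg.maxInvSubgroups R M {q} →
        Q' ≤ Cfsg.piCoreOf (Cfsg.primesNotDvd (Nat.card (Cfsg.fittingOf H))) R ∧
        ¬ q ∣ Q'.relIndex (Cfsg.piCoreOf (Cfsg.primesNotDvd (Nat.card (Cfsg.fittingOf H))) R)) := by
  have h : FT.FitCtx H M := ⟨fun p X hp hX h1 hn => hHmax _ ⟨p, X, hp, hX, h1, rfl⟩ hn.norm, hM,
    (inf_le_inf_left _ (FT.cent_anti hM)).trans hCM⟩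
  have h2 : ∀ q : ℕ, ∃ r : ℕ, r.Prime ∧ r ∣ Nat.card (fittingOf H) ∧ r ≠ q := fun q => by
    obtain ⟨r, hr, hrq⟩ := Finset.exists_mem_ne (by omega : 1 < (Nat.card (fittingOf H)).primeFactors.card) q
    exact ⟨r, Nat.prime_of_mem_primeFactors hr, Nat.dvd_of_mem_primeFactors hr, hrq⟩
  rw [FT.piCoreOf_primesNotDvd]
  have hL := FT.B10.pi_core (FT.primesOf (fittingOf H))ᶜ R
  have hLR : piCoreOf (FT.primesOf (fittingOf H))ᶜ R ≤ R := GT.piCoreOf_le R
  have hML := hMR.trans (FT.normalizer_le_normalizer_piCoreOf (FT.primesOf (fittingOf H))ᶜ R)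
  have hcop := GT.CopAct.coprime_mono (FT.coprime_card_of_primesOf_compl hL) hM le_rfl
  have hs := FT.isSolvable_of_le hR hLR
  obtain ⟨r, hr, hd, -⟩ := h2 0
  have h0 := h.inf_cent_core_eq_bot hCM hr hd hR hXR hLR hL hML
  obtain ⟨S, hS, hMS⟩ := FT.B10.inv_syl q hML hcop (Or.inr hs)
  have key : ∀ Y ∈ invSubgroups R M {q}, Y ≤ S := by
    intro Y hY
    have hYq : IsPGroup q Y := FT.B10.pi_singleton_iff.1 hY.2.1
    have hYL := h.le_core hCM h2 hR hMR hXR hY.1 (FT.B10.pi_of_pgroup hYq fun h' => hq h'.2) hY.2.2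
    obtain ⟨T, hT, hYT, hMT⟩ := FT.B10.inv_syl_ge hML hcop (Or.inr hs) hYq hYL hY.2.2
    obtain ⟨c, hc, e⟩ := FT.B13.inv_syl_conj hML hcop (Or.inr hs) hT hS hMT hMS
    have hc1 : c = 1 := by
      rw [← Subgroup.mem_bot, ← h0]
      exact ⟨hc.1, FT.cent_anti (GT.piCoreOf_le M) hc.2⟩
    rw [hc1, FT.cj_one] at e
    exact e ▸ hYT
  have hSi : S ∈ invSubgroups R M {q} := ⟨hS.le.trans hLR, hS.card, hMS⟩
  have uniq : ∀ Q ∈ maxInvSubgroups R M {q}, Q = S := fun Q hQ =>
    (hQ.2 S hSi (key Q hQ.1)).symm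
  refine ⟨S, ⟨⟨hSi, fun Y hY hSY => le_antisymm (key Y hY) hSY⟩, fun Q' hQ' => ?_⟩,
    fun Q hQ => uniq Q hQ.1⟩
  rw [uniq Q' hQ']
  exact ⟨hS.le, FT.B10.syl_not_dvd hS⟩

end Cfsg.Agent.S1481
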