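import Mathlib
-- Template for statement S1482 (row 1482; see /opt/grader/pristine/manifest.json for weights).
-- Copy to Cfsg/Agent/S1482.lean and replace the sorry. The statement below is byte-identical to the frozen
-- statement Cfsg.CfsgFrozen.S1482 (Cfsg/Statements/S1482.lean; the theorem Cfsg.minsimple_odd_fitting_overgroup_of_center_uniqueness);
-- the grader kernel-checks Cfsg.Agent.S1482.result against that frozen type. Keep the theorem IN THIS FILE
-- (a `result` declared elsewhere and merely imported here is not credited); helpers may live anywhere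
-- under Cfsg/Agent/.
import Cfsg.Statements.S1482
import Cfsg.Agent.FT.B8Aux

set_option autoImplicit false
open Cfsg

namespace Cfsg.Agent.S1482

/-- Let G be a minimal simple group of odd order, H a maximal subgroup whose Fitting subgroup F has at least two prime divisors, and M a subgroup of F containing the centre of F such that the only M-invariant subgroup of G of order coprime to #F is the trivial one. Then H is the only maximal subgroup of G containing M. -/
theorem result {G : Type*} [Group G] [Finite G] (hG : Cfsg.IsMinSimpleOddOrder G) (H : Subgroup G) (hH : IsCoatom H) (hF2 : 2 ≤ (Nat.card (Cfsg.fittingOf H)).primeFactors.card)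
    (M : Subgroup G) (hM : M ≤ Cfsg.fittingOf H) (hZM : Cfsg.fittingOf H ⊓ Subgroup.centralizer (Cfsg.fittingOf H : Set G) ≤ M)
    (hinv : ∀ Y ∈ Cfsg.invSubgroups ⊤ M (Cfsg.primesNotDvd (Nat.card (Cfsg.fittingOf H))), Y = ⊥) :
    ∀ L : Subgroup G, IsCoatom L → M ≤ L → L = H := by
  refine (FT.only_mmax_of_fitting hG hH hM hZM (fun q => ?_) fun q hq hqF Q hQ hn => ?_).2
  · obtain ⟨r, hr, hrq⟩ := Finset.exists_mem_ne (by omega : 1 < (Nat.card (fittingOf H)).primeFactors.card) q
    exact ⟨r, Nat.prime_of_mem_primeFactors hr, Nat.dvd_of_mem_primeFactors hr, hrq⟩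
  · have : Fact q.Prime := ⟨hq⟩
    exact hinv Q ⟨le_top, FT.B10.pi_of_pgroup hQ ⟨hq, hqF⟩, hn⟩

end Cfsg.Agent.S1482
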