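import Mathlib
import Cfsg.Agent.Ch.Galois
import Cfsg.Statements.S1493
-- import your own Cfsg.Agent.* helpers here

set_option autoImplicit false
open Cfsg

namespace Cfsg.Agent.S1493

/-- Let G be a finite group of order a * b with a and b coprime, let k be coprime to a, and let χ be a character of G. Then there is a character χ' of G such that χ'(g) = χ(g ^ k) whenever the order of g divides a and χ'(g) = χ(g) whenever the order of g is coprime to a; moreover χ' is irreducible if χ is. -/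
theorem result {G : Type*} [Group G] [Finite G] (a b k : ℕ) (hab : Nat.card G = a * b) (hcop : Nat.Coprime a b) (hk : Nat.Coprime k a) (χ : G → ℂ) (hχ : Cfsg.IsCharacter G χ) : ∃ χ' : G → ℂ, Cfsg.IsCharacter G χ' ∧ (Cfsg.IsIrrCharacter G χ → Cfsg.IsIrrCharacter G χ') ∧ (∀ g : G, orderOf g ∣ a → χ' g = χ (g ^ k)) ∧ (∀ g : G, Nat.Coprime (orderOf g) a → χ' g = χ g) := by
  have h0 : a * b ≠ 0 := hab ▸ Nat.card_pos.ne'
  obtain ⟨σ, h1, h2⟩ := Ch.galois_exists_pow_fix (left_ne_zero_of_mul h0) (right_ne_zero_of_mul h0)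
    hcop hk
  refine ⟨fun g => σ (χ g), hχ.galois (σ : ℂ →+* ℂ), fun h => h.galois (σ : ℂ →+* ℂ),
    fun g hg => ?_, fun g hg => ?_⟩
  · exact hχ.galois_apply_of_pow_eq_one (σ : ℂ →+* ℂ) h1 (orderOf_dvd_iff_pow_eq_one.1 hg)
  · refine hχ.galois_apply_of_fix (σ : ℂ →+* ℂ) h2 (orderOf_dvd_iff_pow_eq_one.1 ?_)
    exact hg.dvd_of_dvd_mul_left (hab ▸ orderOf_dvd_natCard g)

end Cfsg.Agent.S1493
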