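import Cfsg.Statements.S1497
import Mathlib
import Cfsg.Agent.FT.PF2Dade

set_option autoImplicit false
open Cfsg

namespace Cfsg.Agent.S1497

/-- Let A be a nonempty subset of the finite group G not containing 1 and L a subgroup. Then A is a TI-subset whose normaliser is L if and only if the Dade hypothesis holds for A, L and the constant choice H(a) = ⊥. -/
theorem result {G : Type*} [Group G] [Finite G] (A : Set G) (hA : A.Nonempty) (h1 : (1 : G) ∉ A) (L : Subgroup G) : (Cfsg.IsTISubset A ∧ Subgroup.normalizer A = L) ↔ Cfsg.DadeHypothesis A L (fun _ => ⊥) := by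
  constructor
  · rintro ⟨hTI, rfl⟩
    have key : ∀ a ∈ A, ∀ g : G, g * a * g⁻¹ ∈ A → g ∈ Subgroup.normalizer A := by
      intro a ha g hg
      by_contra h
      exact h1 (hTI g h a ha hg ▸ ha)
    refine ⟨h1, fun a ha => key a ha a (by simpa using ha), fun x hx a ha => ?_,
      fun a ha g hg => ⟨g, key a ha g hg, rfl⟩, fun _ _ => bot_le, fun a _ c _ u hu => ?_,
      fun _ _ => bot_inf_eq _, fun a ha => ?_, fun _ _ _ _ => by simp⟩
    · exact (Subgroup.mem_set_normalizer_iff.mp hx a).mp ha
    · rw [Subgroup.mem_bot] at hu ⊢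
      rw [hu]; group
    · rw [bot_sup_eq, inf_eq_right]
      intro c hc
      refine key a ha c ?_
      rw [FT.mem_cent_elt.mp hc]
      simpa using ha
  · intro hD
    have key : ∀ a ∈ A, ∀ g : G, g * a * g⁻¹ ∈ A → g ∈ L := by
      intro a ha g hg
      obtain ⟨l, hl, e⟩ := hD.fusion a ha g hg
      have hc : l⁻¹ * g ∈ Subgroup.centralizer ({a} : Set G) := by
        rw [FT.mem_cent_elt]
        calc l⁻¹ * g * a = l⁻¹ * (g * a * g⁻¹) * g := by group
          _ = a * (l⁻¹ * g) := by rw [← e]; group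
      simpa using mul_mem hl ((hD.R_eq_bot_iff ha).mp rfl hc)
    have hL : L ≤ Subgroup.normalizer A := by
      intro x hx
      rw [Subgroup.mem_set_normalizer_iff]
      intro a
      refine ⟨hD.conj_mem x hx a, fun h => ?_⟩
      have := hD.conj_mem x⁻¹ (inv_mem hx) _ h
      rwa [show x⁻¹ * (x * a * x⁻¹) * x⁻¹⁻¹ = a by group] at this
    refine ⟨fun g hg x hx hx' => absurd (hL (key x hx g hx')) hg, le_antisymm ?_ hL⟩
    intro g hg
    obtain ⟨a, ha⟩ := hA
    exact key a ha g ((Subgroup.mem_set_normalizer_iff.mp hg a).mp ha)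

end Cfsg.Agent.S1497
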