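import Cfsg.Statements.S1499
import Mathlib
import Cfsg.Agent.FT.PF2Dade

set_option autoImplicit false
open Cfsg

namespace Cfsg.Agent.S1499

/-- Under the Dade hypothesis for (A, L, H), let a, b ∈ A. If an element of the coset a·H(a) is conjugate in G to an element of b·H(b), then a and b are conjugate by an element of L. Moreover the set normaliser of the coset a·H(a) is the centraliser of a. -/
theorem result {G : Type*} [Group G] [Finite G] (A : Set G) (L : Subgroup G) (H : G → Subgroup G) (hD : Cfsg.DadeHypothesis A L H) (a b : G) (ha : a ∈ A) (hb : b ∈ A) : ((∃ u ∈ H a, ∃ v ∈ H b, ∃ g : G, g * (a * u) * g⁻¹ = b * v) → ∃ x ∈ L, x * a * x⁻¹ = b) ∧ Subgroup.normalizer ((fun u : G => a * u) '' (H a : Set G)) = Subgroup.centralizer ({a} : Set G) := by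
  constructor
  · rintro ⟨u, hu, v, hv, g, hg⟩
    exact hD.conj_of_mem_dadeSupport1 (g := a * u) ha hb ⟨u, hu, 1, by group⟩ ⟨v, hv, g, hg⟩
  · apply le_antisymm
    · intro g hg
      obtain ⟨v, hv, e⟩ := (Subgroup.mem_set_normalizer_iff.mp hg a).mp ⟨1, one_mem _, mul_one a⟩
      have := hD.conj_eq_of_conj_mul (x := g) ha ha (one_mem _) hv (by rw [mul_one]; exact e.symm)
      rw [FT.mem_cent_elt]
      calc g * a = g * a * g⁻¹ * g := by group
        _ = a * g := by rw [this]
    · intro c hc
      have key : ∀ d ∈ Subgroup.centralizer ({a} : Set G), ∀ y ∈ (fun u : G => a * u) '' (H a : Set G),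
          d * y * d⁻¹ ∈ (fun u : G => a * u) '' (H a : Set G) := by
        rintro d hd _ ⟨u, hu, rfl⟩
        refine ⟨d * u * d⁻¹, hD.conj_mem_H a ha d hd u hu, ?_⟩
        simp only
        rw [← mul_assoc d a u, FT.mem_cent_elt.mp hd]; group
      rw [Subgroup.mem_set_normalizer_iff]
      intro y
      refine ⟨key c hc y, fun h => ?_⟩
      have := key c⁻¹ (inv_mem hc) _ h
      rwa [show c⁻¹ * (c * y * c⁻¹) * c⁻¹⁻¹ = y by group] at this

end Cfsg.Agent.S1499
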