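import Cfsg.Statements.S1504
import Mathlib
import Cfsg.Agent.FT.PF3Fam

set_option autoImplicit false
open Cfsg

namespace Cfsg.Agent.S1504

theorem lin_mul_eq_iff {G : Type*} [Group G] {W₁ W₂ : Subgroup G} (hdisj : W₁ ⊓ W₂ = ⊥)
    (hcomm : ∀ a ∈ W₁, ∀ b ∈ W₂, a * b = b * a) {φ ψ φ' ψ' : ↥(W₁ ⊔ W₂) →* ℂˣ}
    (hφ : ∀ w : ↥(W₁ ⊔ W₂), (w : G) ∈ W₂ → φ w = 1) (hψ : ∀ w : ↥(W₁ ⊔ W₂), (w : G) ∈ W₁ → ψ w = 1)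
    (hφ' : ∀ w : ↥(W₁ ⊔ W₂), (w : G) ∈ W₂ → φ' w = 1)
    (hψ' : ∀ w : ↥(W₁ ⊔ W₂), (w : G) ∈ W₁ → ψ' w = 1) :
    φ * ψ = φ' * ψ' ↔ φ = φ' ∧ ψ = ψ' := by
  refine ⟨fun e => ?_, fun e => by rw [e.1, e.2]⟩
  have D : FT.Dprod W₁ W₂ (W₁ ⊔ W₂) :=
    ⟨rfl, hdisj, FT.le_cent_iff.mpr fun b hb a ha => (hcomm a ha b hb).symm⟩
  have h1 : φ = φ' := by
    ext ⟨g, hg⟩
    obtain ⟨x, hx, y, hy, rfl⟩ := D.mem_iff.mp hg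
    have e1 := DFunLike.congr_fun e ⟨x, Subgroup.mem_sup_left hx⟩
    rw [MonoidHom.mul_apply, MonoidHom.mul_apply, hψ _ hx, hψ' _ hx, mul_one, mul_one] at e1
    have : (⟨x * y, hg⟩ : ↥(W₁ ⊔ W₂)) =
      ⟨x, Subgroup.mem_sup_left hx⟩ * ⟨y, Subgroup.mem_sup_right hy⟩ := rfl
    rw [this, map_mul, map_mul, hφ ⟨y, _⟩ hy, hφ' ⟨y, _⟩ hy, e1]
  rw [h1] at e
  exact ⟨h1, FT.lc_mul_left_cancel.mp e⟩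

theorem alpha_eq {H : Type*} [Group H] (φ ψ : H →* ℂˣ) :
    (fun w => 1 - (φ w : ℂ) - (ψ w : ℂ) + (φ w : ℂ) * (ψ w : ℂ)) =
      FT.lin (1 * 1) - FT.lin (φ * 1) - FT.lin (1 * ψ) + FT.lin (φ * ψ) := by
  funext w
  simp

open Classical in
theorem cin_alpha {G : Type*} [Group G] {W₁ W₂ : Subgroup G} [Fintype ↥(W₁ ⊔ W₂)]
    (hdisj : W₁ ⊓ W₂ = ⊥)
    (hcomm : ∀ a ∈ W₁, ∀ b ∈ W₂, a * b = b * a) {φ ψ φ' ψ' : ↥(W₁ ⊔ W₂) →* ℂˣ}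
    (hφ : ∀ w : ↥(W₁ ⊔ W₂), (w : G) ∈ W₂ → φ w = 1) (hψ : ∀ w : ↥(W₁ ⊔ W₂), (w : G) ∈ W₁ → ψ w = 1)
    (hφ' : ∀ w : ↥(W₁ ⊔ W₂), (w : G) ∈ W₂ → φ' w = 1)
    (hψ' : ∀ w : ↥(W₁ ⊔ W₂), (w : G) ∈ W₁ → ψ' w = 1) :
    classInner (FT.lin (1 * 1) - FT.lin (φ * 1) - FT.lin (1 * ψ) + FT.lin (φ * ψ))
      (FT.lin (φ' * ψ')) = ((if 1 = φ' then 1 else 0) - (if φ = φ' then 1 else 0)) *
        ((if 1 = ψ' then 1 else 0) - (if ψ = ψ' then 1 else 0)) := by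
  have o1 : ∀ w : ↥(W₁ ⊔ W₂), (w : G) ∈ W₂ → (1 : ↥(W₁ ⊔ W₂) →* ℂˣ) w = 1 := fun _ _ => rfl
  have o2 : ∀ w : ↥(W₁ ⊔ W₂), (w : G) ∈ W₁ → (1 : ↥(W₁ ⊔ W₂) →* ℂˣ) w = 1 := fun _ _ => rfl
  simp only [FT.cin_add_left, FT.cin_sub_left, FT.cin_lin,
    lin_mul_eq_iff hdisj hcomm o1 o2 hφ' hψ', lin_mul_eq_iff hdisj hcomm hφ o2 hφ' hψ',
    lin_mul_eq_iff hdisj hcomm o1 hψ hφ' hψ', lin_mul_eq_iff hdisj hcomm hφ hψ hφ' hψ', ite_and]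
  split_ifs <;> norm_num

/-- Let W₁, W₂ be subgroups of a finite group with W₁ ⊓ W₂ = ⊥ whose elements commute, and W = W₁ ⊔ W₂. For linear characters φ, ψ of W with φ trivial on W₂ and ψ trivial on W₁, the function (1 − φ)(1 − ψ) vanishes on W₁ ∪ W₂; and the family of these functions, indexed by pairs (φ, ψ) with φ ≠ 1 ≠ ψ, is linearly independent over ℂ. -/
theorem result {G : Type*} [Group G] [Finite G] (W₁ W₂ : Subgroup G) (hdisj : W₁ ⊓ W₂ = ⊥) (hcomm : ∀ a ∈ W₁, ∀ b ∈ W₂, a * b = b * a) : (∀ φ ψ : ↥(W₁ ⊔ W₂) →* ℂˣ, (∀ w : ↥(W₁ ⊔ W₂), (w : G) ∈ W₂ → φ w = 1) → (∀ w : ↥(W₁ ⊔ W₂), (w : G) ∈ W₁ → ψ w = 1) → ∀ w : ↥(W₁ ⊔ W₂), ((w : G) ∈ W₁ ∨ (w : G) ∈ W₂) → (1 - (φ w : ℂ) - (ψ w : ℂ) + (φ w : ℂ) * (ψ w : ℂ)) = 0) ∧ LinearIndependent ℂ (fun p : {p : (↥(W₁ ⊔ W₂)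 →* ℂˣ) × (↥(W₁ ⊔ W₂) →* ℂˣ) // p.1 ≠ 1 ∧ p.2 ≠ 1 ∧ (∀ w : ↥(W₁ ⊔ W₂), (w : G) ∈ W₂ → p.1 w = 1) ∧ (∀ w : ↥(W₁ ⊔ W₂), (w : G) ∈ W₁ → p.2 w = 1)} => fun w : ↥(W₁ ⊔ W₂) => 1 - (p.1.1 w : ℂ) - (p.1.2 w : ℂ) + (p.1.1 w : ℂ) * (p.1.2 w : ℂ)) := by
  classical
  refine ⟨fun φ ψ hφ hψ w hw => ?_, ?_⟩
  · rcases hw with hw | hw
    · rw [hψ w hw]; simp
    · rw [hφ w hw]; simp
  · let _ := FT.instFintypeSub (W₁ ⊔ W₂)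
    rw [linearIndependent_iff']
    intro s c hc p hp
    have e := congrArg (fun f => classInner f (FT.lin (p.1.1 * p.1.2))) hc
    simp only [FT.cin_sum_left, FT.cin_smul_left, FT.cin_zero_left, alpha_eq] at e
    rw [Finset.sum_eq_single p] at e
    · rw [cin_alpha hdisj hcomm p.2.2.2.1 p.2.2.2.2 p.2.2.2.1 p.2.2.2.2] at e
      simpa [p.2.1.symm, p.2.2.1.symm] using e
    · intro q _ hq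
      rw [cin_alpha hdisj hcomm q.2.2.2.1 q.2.2.2.2 p.2.2.2.1 p.2.2.2.2]
      have : ¬(q.1.1 = p.1.1 ∧ q.1.2 = p.1.2) := fun h => hq (Subtype.ext (Prod.ext h.1 h.2))
      by_cases h1 : q.1.1 = p.1.1 <;> by_cases h2 : q.1.2 = p.1.2 <;>
        simp [p.2.1.symm, p.2.2.1.symm, h1, h2]
      exact absurd ⟨h1, h2⟩ this
    · exact fun h => absurd hp h

end Cfsg.Agent.S1504
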