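import Cfsg.Statements.S1505
import Mathlib
import Cfsg.Agent.S1504

set_option autoImplicit false
open Cfsg

namespace Cfsg.Agent.S1505

open Classical in
/-- Let W₁, W₂ ≤ G form a self-normalising cyclic subgroup W = W₁ ⊔ W₂. For nontrivial linear characters φ, φ' of W trivial on W₂ and ψ, ψ' trivial on W₁, put α = (1 − φ)(1 − ψ) and α' = (1 − φ')(1 − ψ'). Then the function induced from α to G has inner product 1 with the principal character, and the inner product of the functions induced from α and α' is 1 + a + b + ab where a = 1 if φ = φ' (else 0) and b = 1 if ψ = ψ' (else 0). -/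
theorem result {G : Type*} [Group G] [Fintype G] (W₁ W₂ : Subgroup G) (hW : Cfsg.IsSelfNormalizingCyclic W₁ W₂) (φ φ' ψ ψ' : ↥(W₁ ⊔ W₂) →* ℂˣ) (hφ : φ ≠ 1) (hφ' : φ' ≠ 1) (hψ : ψ ≠ 1) (hψ' : ψ' ≠ 1) (hφ₂ : ∀ w : ↥(W₁ ⊔ W₂), (w : G) ∈ W₂ → φ w = 1 ∧ φ' w = 1) (hψ₁ : ∀ w : ↥(W₁ ⊔ W₂), (w : G) ∈ W₁ → ψ w = 1 ∧ ψ' w = 1) : Cfsg.classInner (Cfsg.indFun (W₁ ⊔ W₂) (fun w => 1 - (φ w : ℂ) - (ψ w : ℂ) + (φ w : ℂ) * (ψ w : ℂ))) (fun _ => 1) = 1 ∧ Cfsg.classInner (Cfsg.indFun (W₁ ⊔ W₂) (fun w => 1 - (φ w : ℂ) - (ψ w : ℂ) + (φ w : ℂ) * (ψ w : ℂ))) (Cfsg.indFun (W₁ ⊔ W₂) (fun w => 1 - (φ' w : ℂ) - (ψ' w : ℂ) + (φ' w : ℂ) * (ψ' w : ℂ))) = 1 + (if φ = φ' then 1 else 0) + (if ψ = ψ' then 1 else 0) + (if φ = φ' then 1 else 0) * (if ψ = ψ' then 1 else 0) := by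
  let _ := FT.instFintypeSub (W₁ ⊔ W₂)
  have hd := hW.2.2.1
  have hc := hW.2.2.2.1
  have o1 : ∀ w : ↥(W₁ ⊔ W₂), (w : G) ∈ W₂ → (1 : ↥(W₁ ⊔ W₂) →* ℂˣ) w = 1 := fun _ _ => rfl
  have o2 : ∀ w : ↥(W₁ ⊔ W₂), (w : G) ∈ W₁ → (1 : ↥(W₁ ⊔ W₂) →* ℂˣ) w = 1 := fun _ _ => rfl
  have p1 := fun w hw => (hφ₂ w hw).1
  have p2 := fun w hw => (hφ₂ w hw).2
  have q1 := fun w hw => (hψ₁ w hw).1
  have q2 := fun w hw => (hψ₁ w hw).2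
  have supp : ∀ φ ψ : ↥(W₁ ⊔ W₂) →* ℂˣ, (∀ w : ↥(W₁ ⊔ W₂), (w : G) ∈ W₂ → φ w = 1) →
      (∀ w : ↥(W₁ ⊔ W₂), (w : G) ∈ W₁ → ψ w = 1) →
      FT.SuppOn (fun w : ↥(W₁ ⊔ W₂) => 1 - (φ w : ℂ) - (ψ w : ℂ) + (φ w : ℂ) * (ψ w : ℂ))
        (FT.cycV W₁ W₂) := by
    intro φ ψ hφ hψ w hw
    refine (S1504.result W₁ W₂ hd hc).1 φ ψ hφ hψ w ?_
    rw [FT.mem_cycV_iff] at hw
    have := w.2
    tauto
  constructor
  · rw [Ch.classInner_indFun_left _ _ (IsClassFunction.const 1), S1504.alpha_eq]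
    have := S1504.cin_alpha hd hc p1 q1 o1 o2
    simp only [hφ, hψ, if_true, if_false, sub_zero, mul_one] at this
    have e : FT.lin ((1 : ↥(W₁ ⊔ W₂) →* ℂˣ) * 1) = fun _ => 1 := by
      funext w
      simp
    rw [e] at this ⊢
    exact this
  · rw [FT.cin_indFun_of_ti (FT.sn_dade hW) (FT.sn_comm hW) (supp _ _ p1 q1) (supp _ _ p2 q2),
      S1504.alpha_eq, S1504.alpha_eq, FT.cin_add_right, FT.cin_sub_right, FT.cin_sub_right,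
      S1504.cin_alpha hd hc p1 q1 o1 o2, S1504.cin_alpha hd hc p1 q1 p2 o2,
      S1504.cin_alpha hd hc p1 q1 o1 q2, S1504.cin_alpha hd hc p1 q1 p2 q2]
    by_cases h1 : φ = φ' <;> by_cases h2 : ψ = ψ' <;>
      simp [hφ, hψ, hφ', hψ', hφ'.symm, hψ'.symm, h1, h2]

end Cfsg.Agent.S1505
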