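import Cfsg.Statements.S1507
import Mathlib
import Cfsg.Agent.FT.PF3

set_option autoImplicit false
open Cfsg

namespace Cfsg.Agent.S1507

open Classical in
/-- Let W₁, W₂ ≤ G form a self-normalising cyclic subgroup W = W₁ ⊔ W₂ of odd order with Nat.card W₁ < Nat.card W₂, and χ an orthonormal family of irreducible characters of G up to sign, indexed by the linear characters ω of W, with χ_1 = 1, χ_ω = ω on W outside W₁ ∪ W₂, and the induction identity for (1 − φ)(1 − ψ). Let θ be a class function of G vanishing on W outside W₁ ∪ W₂, and suppose fewer than 2 · Nat.card W₁ linear characters ω of W have ⟨θ, χ ω⟩ ≠ 0. Then one of: all ⟨θ, χ ω⟩ vanish; or there are ψ₀ and a with ⟨θ, χ ω⟩ = a when ω ψ₀⁻¹ is trivial on W₂ and 0 otherwise; or there are φ₀ and a with ⟨θ, χ ω⟩ = a when ω φ₀⁻¹ is trivial on W₁ and 0 otherwise. -/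
theorem result {G : Type*} [Group G] [Fintype G] (W₁ W₂ : Subgroup G) (hW : Cfsg.IsSelfNormalizingCyclic W₁ W₂) (hodd : Odd (Nat.card ↥(W₁ ⊔ W₂))) (χ : (↥(W₁ ⊔ W₂) →* ℂˣ) → (G → ℂ)) (hχ : Cfsg.IsCyclicTIFamily W₁ W₂ χ) (hlt : Nat.card W₁ < Nat.card W₂) (θ : G → ℂ) (hθ : Cfsg.IsClassFunction G θ) (hθV : ∀ w : ↥(W₁ ⊔ W₂), (w : G) ∉ W₁ → (w : G) ∉ W₂ → θ w = 0) (hfew : Nat.card {ω : ↥(W₁ ⊔ W₂) →* ℂˣ // Cfsg.classInner θ (χ ω) ≠ 0} < 2 * Nat.card W₁) : (∀ ω, Cfsg.classInner θ (χ ω) = 0) ∨ (∃ (ψ₀ : ↥(W₁ ⊔ W₂) →* ℂˣ) (a : ℂ), ∀ ω, Cfsg.classInner θ (χ ω) = if (∀ w : ↥(W₁ ⊔ W₂), (w : G) ∈ W₂ → (ω * ψ₀⁻¹) w = 1) then a else 0) ∨ (∃ (φ₀ : ↥(W₁ ⊔ W₂) →* ℂˣ) (a : ℂ), ∀ ω, Cfsg.classInner θ (χ ω) = if (∀ w : ↥(W₁ ⊔ W₂), (w : G) ∈ W₁ → (ω * φ₀⁻¹) w = 1) then a else 0) := by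
  let _ := FT.instFintypeSub W₁
  let _ := FT.instFintypeSub W₂
  let _ := FT.instFintypeLinChar (H := W₁)
  let _ := FT.instFintypeLinChar (H := W₂)
  have h : FT.CycTI W₁ W₂ := ⟨hW, hodd⟩
  have hd := h.dprod
  have he : ∀ i j, χ (hd.omegaHom i j) = h.eta i j := fun i j =>
    h.eq_eta (hχ.irr_or_neg _) fun v hv => hχ.eq_on _ ⟨v, (FT.mem_cycV_iff.mp hv).1⟩
      (FT.mem_cycV_iff.mp hv).2.1 (FT.mem_cycV_iff.mp hv).2.2
  have hs : ∀ ω, ∃ i j, ω = hd.omegaHom i j := fun ω => ⟨_, _, (hd.omegaHom_restrict ω).symm⟩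
  have hN : h.NC θ < 2 * min (Nat.card W₁) (Nat.card W₂) := by
    rw [min_eq_left hlt.le]
    convert hfew
    rw [FT.CycTI.NC, ← Fintype.card_subtype, ← Nat.card_eq_fintype_card]
    exact Nat.card_congr ((Equiv.ofBijective _ hd.omegaHom_bijective).subtypeEquiv fun p => by
      simp [he])
  by_cases h0 : ∀ ω, classInner θ (χ ω) = 0
  · exact Or.inl h0
  right
  push Not at h0
  obtain ⟨ω₀, h0⟩ := h0
  obtain ⟨i₀, j₀, rfl⟩ := hs ω₀
  rw [he] at h0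
  rcases h.small_NC hθ (fun v hv => hθV ⟨v, (FT.mem_cycV_iff.mp hv).1⟩
    (FT.mem_cycV_iff.mp hv).2.1 (FT.mem_cycV_iff.mp hv).2.2) hN h0 with s | s
  · left
    refine ⟨hd.omegaHom i₀ j₀, classInner θ (h.eta i₀ j₀), fun ω => ?_⟩
    obtain ⟨i, j, rfl⟩ := hs ω
    rw [he, s]
    refine if_congr ⟨?_, fun e => ?_⟩ rfl rfl
    · rintro rfl w hw
      rw [MonoidHom.mul_apply, MonoidHom.inv_apply, mul_inv_eq_one, Units.ext_iff,
        hd.omegaHom_apply, hd.omegaHom_apply, hd.omega_of_mem₂ _ _ ⟨w, hw⟩,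
        hd.omega_of_mem₂ _ _ ⟨w, hw⟩]
    · ext y
      have := e (Subgroup.inclusion le_sup_right y) y.2
      rwa [MonoidHom.mul_apply, MonoidHom.inv_apply, mul_inv_eq_one, Units.ext_iff,
        hd.omegaHom_apply, hd.omegaHom_apply, Subgroup.coe_inclusion, hd.omega_of_mem₂,
        hd.omega_of_mem₂] at this
  · right
    refine ⟨hd.omegaHom i₀ j₀, classInner θ (h.eta i₀ j₀), fun ω => ?_⟩
    obtain ⟨i, j, rfl⟩ := hs ω
    rw [he, s]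
    refine if_congr ⟨?_, fun e => ?_⟩ rfl rfl
    · rintro rfl w hw
      rw [MonoidHom.mul_apply, MonoidHom.inv_apply, mul_inv_eq_one, Units.ext_iff,
        hd.omegaHom_apply, hd.omegaHom_apply, hd.omega_of_mem₁ _ _ ⟨w, hw⟩,
        hd.omega_of_mem₁ _ _ ⟨w, hw⟩]
    · ext y
      have := e (Subgroup.inclusion le_sup_left y) y.2
      rwa [MonoidHom.mul_apply, MonoidHom.inv_apply, mul_inv_eq_one, Units.ext_iff,
        hd.omegaHom_apply, hd.omegaHom_apply, Subgroup.coe_inclusion, hd.omega_of_mem₁,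
        hd.omega_of_mem₁] at this

end Cfsg.Agent.S1507
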