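import Cfsg.Statements.S1508
import Mathlib
import Cfsg.Agent.FT.PF3Aut

set_option autoImplicit false
open Cfsg

namespace Cfsg.Agent.S1508

/-- Let W₁, W₂ ≤ G form a self-normalising cyclic subgroup W = W₁ ⊔ W₂ of odd order and χ an orthonormal family of irreducible characters of G up to sign, indexed by the linear characters ω of W, with χ_1 = 1, χ_ω = ω on W outside W₁ ∪ W₂, and the induction identity for (1 − φ)(1 − ψ). Let ω be a linear character of W and g an element of G whose order is coprime to the order of ω. Then χ ω g is an integer. -/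
theorem result {G : Type*} [Group G] [Fintype G] (W₁ W₂ : Subgroup G) (hW : Cfsg.IsSelfNormalizingCyclic W₁ W₂) (hodd : Odd (Nat.card ↥(W₁ ⊔ W₂))) (χ : (↥(W₁ ⊔ W₂) →* ℂˣ) → (G → ℂ)) (hχ : Cfsg.IsCyclicTIFamily W₁ W₂ χ) (ω : ↥(W₁ ⊔ W₂) →* ℂˣ) (g : G) (hg : Nat.Coprime (orderOf g) (orderOf ω)) : ∃ n : ℤ, χ ω g = n := by
  have h : FT.CycTI W₁ W₂ := ⟨hW, hodd⟩
  have hd := h.dprod
  obtain ⟨⟨i, j⟩, rfl⟩ := hd.omegaHom_bijective.2 ω
  have he : χ (hd.omegaHom i j) = h.eta i j :=
    h.eq_eta (hχ.irr_or_neg _) fun v hv => hχ.eq_on _ ⟨v, (FT.mem_cycV_iff.mp hv).1⟩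
      (FT.mem_cycV_iff.mp hv).2.1 (FT.mem_cycV_iff.mp hv).2.2
  simp only at hg ⊢
  rw [he]
  have e := pow_orderOf_eq_one (hd.omegaHom i j)
  refine h.eta_int_of_coprime i j (Nat.Coprime.mul_right (hg.coprime_dvd_right ?_)
    (hg.coprime_dvd_right ?_))
  · refine orderOf_dvd_of_pow_eq_one ?_
    ext x
    have := congrArg Units.val (DFunLike.congr_fun e (Subgroup.inclusion le_sup_left x))
    rw [MonoidHom.pow_apply, Units.val_pow_eq_pow_val, hd.omegaHom_apply, Subgroup.coe_inclusion,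
      hd.omega_of_mem₁] at this
    rw [MonoidHom.pow_apply, Units.val_pow_eq_pow_val, this]
    rfl
  · refine orderOf_dvd_of_pow_eq_one ?_
    ext x
    have := congrArg Units.val (DFunLike.congr_fun e (Subgroup.inclusion le_sup_right x))
    rw [MonoidHom.pow_apply, Units.val_pow_eq_pow_val, hd.omegaHom_apply, Subgroup.coe_inclusion,
      hd.omega_of_mem₂] at this
    rw [MonoidHom.pow_apply, Units.val_pow_eq_pow_val, this]
    rfl

end Cfsg.Agent.S1508
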