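import Cfsg.Statements.S1510
import Mathlib
import Cfsg.Agent.FT.PF4

set_option autoImplicit false
open Cfsg

namespace Cfsg.Agent.S1510

/-- Let L be a finite group with a normal subgroup K and a nontrivial cyclic subgroup W₁ of order coprime to its index, K ⊓ W₁ = ⊥ and K ⊔ W₁ = ⊤; let W₂ ≠ ⊥ be a cyclic subgroup of K with K ⊓ C_L(x) = W₂ for every non-identity x ∈ W₁, and suppose W₁ ⊔ W₂ has odd order. Then (W₁, W₂) is a self-normalising cyclic pair in L. -/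
theorem result {L : Type*} [Group L] [Fintype L] (K W₁ W₂ : Subgroup L) [hK : K.Normal] (hKW₁ : K ⊓ W₁ = ⊥) (hKW₁' : K ⊔ W₁ = ⊤) (hW₁ : W₁ ≠ ⊥) (hW₁c : IsCyclic W₁) (hHall : Nat.Coprime (Nat.card W₁) W₁.index) (hW₂ : W₂ ≠ ⊥) (hW₂c : IsCyclic W₂) (hW₂K : W₂ ≤ K) (hC : ∀ x ∈ W₁, x ≠ 1 → K ⊓ Subgroup.centralizer ({x} : Set L) = W₂) (hodd : Odd (Nat.card ↥(W₁ ⊔ W₂))) : Cfsg.IsSelfNormalizingCyclic W₁ W₂ := by
  have h : FT.PrimeTI ⊤ K W₁ W₂ :=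
    ⟨⟨hKW₁', hKW₁, by simp [Subgroup.normalizer_eq_top]⟩, hW₁, hW₁c,
      by rwa [Subgroup.relIndex_top_right], hW₂, hW₂c, hC, hodd⟩
  refine ⟨hW₁, hW₂, h.dprod.disjoint, h.dprod.comm, h.dprod.cyclic, fun X hX ⟨x, hx⟩ => ?_⟩
  refine le_antisymm (fun g hg => ?_) (fun g hg => ?_)
  · have h1 := (Subgroup.mem_set_normalizer_iff.mp hg x).mp hx
    exact h.mem_of_conj_mem (hX hx).1 (fun h' => (hX hx).2 (Or.inr h')) trivial (hX h1).1
  · have hc : ∀ y ∈ X, ∀ g ∈ W₁ ⊔ W₂, g * y * g⁻¹ = y := by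
      intro y hy g hg
      rw [mul_inv_eq_iff_eq_mul]
      exact h.dprod.comm_sup _ hg _ (hX hy).1
    refine Subgroup.mem_set_normalizer_iff.mpr fun y => ⟨fun hy => by rwa [hc y hy g hg],
      fun hy => ?_⟩
    have := hc _ hy g⁻¹ (inv_mem hg)
    rw [← this] at hy
    simpa [mul_assoc] using hy

end Cfsg.Agent.S1510
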