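import Cfsg.Statements.S1511
import Mathlib
import Cfsg.Agent.FT.PF4

set_option autoImplicit false
open Cfsg

namespace Cfsg.Agent.S1511

/-- Let L be a finite group with K normal with complement W₁ ≠ 1 a cyclic Hall subgroup, and W₂ ≠ 1 a cyclic subgroup of K equal to C_K(x) for every non-identity x ∈ W₁, with W₁W₂ of odd order. Then there are a map μ from the linear characters of W = W₁ ⊔ W₂ to irreducible characters of L, injective, and a sign δ(ω) ∈ {1, −1} depending only on the values of ω on W₂, such that: for ω, ω' agreeing on W₂, the function induced to L from ω − ω' equals δ(ω) • (μ ω − μ ω'); μ ω x = δ(ω) ω x for x ∈ W outside W₂; every irreducible character of L not of the form μ ω vanishes on W outside W₂; and μ ω 1 − δ(ω) is an integer multiple of Nat.card W₁. -/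
theorem result {L : Type*} [Group L] [Fintype L] (K W₁ W₂ : Subgroup L) [hK : K.Normal] (hKW₁ : K ⊓ W₁ = ⊥) (hKW₁' : K ⊔ W₁ = ⊤) (hW₁ : W₁ ≠ ⊥) (hW₁c : IsCyclic W₁) (hHall : Nat.Coprime (Nat.card W₁) W₁.index) (hW₂ : W₂ ≠ ⊥) (hW₂c : IsCyclic W₂) (hW₂K : W₂ ≤ K) (hC : ∀ x ∈ W₁, x ≠ 1 → K ⊓ Subgroup.centralizer ({x} : Set L) = W₂) (hodd : Odd (Nat.card ↥(W₁ ⊔ W₂))) : ∃ (μ : (↥(W₁ ⊔ W₂) →* ℂˣ) → (L → ℂ)) (δ : (↥(W₁ ⊔ W₂) →* ℂˣ) → ℂ), Function.Injective μ ∧ (∀ ω, Cfsg.IsIrrCharacter L (μ ω)) ∧ (∀ ω, δ ω = 1 ∨ δ ω = -1) ∧ (∀ ω ω' : ↥(W₁ ⊔ W₂) →* ℂˣ, (∀ w : ↥(W₁ ⊔ W₂), (w : L) ∈ W₂ → ω w = ω' w) → δ ω = δ ω' ∧ Cfsg.indFun (W₁ ⊔ W₂) (fun w => (ω w : ℂ) - (ω' w : ℂ)) = δ ω • (μ ω - μ ω')) ∧ (∀ ω, ∀ w : ↥(W₁ ⊔ W₂), (w : L) ∉ W₂ → μ ω w = δ ω * (ω w : ℂ)) ∧ (∀ θ : L → ℂ, Cfsg.IsIrrCharacter L θ → (∀ ω, θ ≠ μ ω) → ∀ w : ↥(W₁ ⊔ W₂), (w : L) ∉ W₂ →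 θ w = 0) ∧ (∀ ω, ∃ n : ℤ, μ ω 1 - δ ω = n * (Nat.card W₁ : ℂ)) := by
  have h : FT.PrimeTI ⊤ K W₁ W₂ :=
    ⟨⟨hKW₁', hKW₁, by simp [Subgroup.normalizer_eq_top]⟩, hW₁, hW₁c,
      by rwa [Subgroup.relIndex_top_right], hW₂, hW₂c, hC, hodd⟩
  let a : (↥(W₁ ⊔ W₂) →* ℂˣ) → (W₁ →* ℂˣ) := fun ω => ω.comp (Subgroup.inclusion le_sup_left)
  let b : (↥(W₁ ⊔ W₂) →* ℂˣ) → (W₂ →* ℂˣ) := fun ω => ω.comp (Subgroup.inclusion le_sup_right)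
  have hab : ∀ ω, h.dprod.omegaHom (a ω) (b ω) = ω := h.dprod.omegaHom_restrict
  have hv : ∀ ω (w : ↥(W₁ ⊔ W₂)), FT.omega (a ω) (b ω) w = ω w := fun ω w => by
    rw [← h.dprod.omegaHom_apply, hab]
  refine ⟨fun ω x => h.mu2 (a ω) (b ω) ⟨x, trivial⟩, fun ω => h.delta (b ω), fun ω ω' e => ?_,
    fun ω => (h.mu2_irr _ _).comp_mulEquiv Subgroup.topEquiv.symm, fun ω => ?_,
    fun ω ω' e => ?_, fun ω w hw => ?_, fun θ hθ hne w hw => ?_, fun ω => ?_⟩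
  · obtain ⟨e1, e2⟩ := h.mu2_eq_iff.mp (funext fun x => congrFun e x.1)
    rw [← hab ω, e1, e2, hab]
  · rcases h.delta_cases (b ω) with e | e <;> simp [e]
  · have e' : b ω = b ω' := MonoidHom.ext fun y => e _ y.2
    refine ⟨by simp only [e'], funext fun x => ?_⟩
    have := congrFun (h.ind_omega_sub (a ω) (a ω') (b ω)) ⟨x, trivial⟩
    rw [← FT.resG_indFun_top] at this
    simp only [← e']
    refine Eq.trans ?_ this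
    congr 1
    funext w
    rw [FT.resG_apply, Pi.sub_apply, hv, e', hv]
  · exact (h.mu2_apply _ _ ⟨w, trivial⟩ w.2 hw).trans (by rw [hv])
  · refine h.irr_vanish (θ := fun x => θ x) (hθ.comp_mulEquiv Subgroup.topEquiv) (fun i j e => ?_)
      ⟨w, trivial⟩ fun hk => hw ((h.mem_W₂_iff w.2).mpr hk)
    obtain ⟨e1, e2⟩ := h.dprod.omegaHom_eq_iff.mp (hab (h.dprod.omegaHom i j))
    refine hne (h.dprod.omegaHom i j) (funext fun x => ?_)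
    simp only [e1, e2, ← e]
  · obtain ⟨n, hn⟩ := h.mu2_one_mod (a ω) (b ω)
    exact ⟨n, sub_eq_iff_eq_add'.mpr hn⟩

end Cfsg.Agent.S1511
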