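import Cfsg.Statements.S1513
import Mathlib
import Cfsg.Agent.FT.PF4

set_option autoImplicit false
open Cfsg

namespace Cfsg.Agent.S1513

/-- Let L be a finite group with K normal with complement W₁ ≠ 1 a cyclic Hall subgroup, and W₂ ≠ 1 a cyclic subgroup of K equal to C_K(x) for every non-identity x ∈ W₁, with W₁W₂ of odd order. For an irreducible character θ of K: if θ is not fixed under conjugation by some element of W₁, then the function induced from θ to L is an irreducible character of L; and the irreducible characters of K fixed by all of W₁ are exactly Nat.card W₂ in number, each inducing to the sum of Nat.card W₁ pairwise distinct irreducible characters of L. -/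
theorem result {L : Type*} [Group L] [Fintype L] (K W₁ W₂ : Subgroup L) [hK : K.Normal] (hKW₁ : K ⊓ W₁ = ⊥) (hKW₁' : K ⊔ W₁ = ⊤) (hW₁ : W₁ ≠ ⊥) (hW₁c : IsCyclic W₁) (hHall : Nat.Coprime (Nat.card W₁) W₁.index) (hW₂ : W₂ ≠ ⊥) (hW₂c : IsCyclic W₂) (hW₂K : W₂ ≤ K) (hC : ∀ x ∈ W₁, x ≠ 1 → K ⊓ Subgroup.centralizer ({x} : Set L) = W₂) (hodd : Odd (Nat.card ↥(W₁ ⊔ W₂))) : (∀ θ : K → ℂ, Cfsg.IsIrrCharacter K θ → (∃ x ∈ W₁, (fun k : K => θ ⟨x * k * x⁻¹, hK.conj_mem (k : L) k.2 x⟩) ≠ θ) → Cfsg.IsIrrCharacter L (Cfsg.indFun K θ)) ∧ Nat.card {θ : Cfsg.IrrCharacter K // ∀ x ∈ W₁, (fun k : K => (θ : K → ℂ) ⟨x * k * x⁻¹, hK.conj_mem (k : L) k.2 x⟩) = θ} = Nat.card W₂ ∧ (∀ θ : K → ℂ, Cfsg.IsIrrCharacter K θ → (∀ x ∈ W₁, (fun k : K => θ ⟨x * k * x⁻¹, hK.conj_mem (k : L) k.2 x⟩) = θ) → ∃ C : Finset (L → ℂ), C.card = Nat.card W₁ ∧ (∀ μ ∈ C, Cfsg.IsIrrCharacter L μ) ∧ Cfsg.indFun K θ = ∑ μ ∈ C,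 μ) := by
  have h : FT.PrimeTI ⊤ K W₁ W₂ :=
    ⟨⟨hKW₁', hKW₁, by simp [Subgroup.normalizer_eq_top]⟩, hW₁, hW₁c,
      by rwa [Subgroup.relIndex_top_right], hW₂, hW₂c, hC, hodd⟩
  have hc : ∀ (θ : K → ℂ) (x : L), (fun k : K => θ ⟨x * k * x⁻¹, hK.conj_mem (k : L) k.2 x⟩) =
      FT.cfConj x θ := fun θ x => funext fun k => (FT.cfConj_apply x θ k _).symm
  simp only [hc]
  have hi : ∀ θ : K → ℂ, indFun K θ = fun x => FT.ind K ⊤ θ ⟨x, trivial⟩ := fun θ => by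
    rw [← FT.resG_indFun_top]; rfl
  have hex : ∀ θ : K → ℂ, IsIrrCharacter K θ → (∀ x ∈ W₁, FT.cfConj x θ = θ) →
      ∃ j, θ = h.chi j := fun θ hθ hf => by
    obtain ⟨x, hx, h1⟩ := FT.exists_mem_ne_one hW₁
    exact h.exists_eq_chi_aux hθ hx h1 (hf x hx)
  refine ⟨fun θ hθ ⟨x, _, hne⟩ => ?_, ?_, fun θ hθ hf => ?_⟩
  · rw [hi]
    refine (h.ind_irr_of_ne hθ ?_).comp_mulEquiv Subgroup.topEquiv.symm
    rintro j rfl
    exact hne (h.cfConj_chi j trivial)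
  · rw [← h.dprod.card_lin₂]
    symm
    refine Nat.card_eq_of_bijective
      (fun j => ⟨⟨h.chi j, h.chi_irr j⟩, fun x _ => h.cfConj_chi j trivial⟩) ⟨fun j k e => ?_, ?_⟩
    · exact h.chi_injective (congrArg (fun t => t.1.1) e)
    · rintro ⟨⟨θ, hθ⟩, hf⟩
      obtain ⟨j, rfl⟩ := hex θ hθ hf
      exact ⟨j, rfl⟩
  · obtain ⟨j, rfl⟩ := hex θ hθ hf
    let _ := FT.instFintypeLinChar (H := W₁)
    let F : (W₁ →* ℂˣ) ↪ (L → ℂ) := ⟨fun i x => h.mu2 i j ⟨x, trivial⟩, fun i i' e =>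
      (h.mu2_eq_iff.mp (funext fun x => congrFun e x.1)).1⟩
    refine ⟨Finset.univ.map F, ?_, fun μ hμ => ?_, ?_⟩
    · rw [Finset.card_map, Finset.card_univ, ← Nat.card_eq_fintype_card, h.dprod.card_lin₁]
    · obtain ⟨i, -, rfl⟩ := Finset.mem_map.mp hμ
      exact (h.mu2_irr i j).comp_mulEquiv Subgroup.topEquiv.symm
    · rw [hi, h.ind_chi, Finset.sum_map, h.mu_def]
      funext x
      simp only [Finset.sum_apply]
      rfl

end Cfsg.Agent.S1513
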