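import Cfsg.Statements.S1515
import Cfsg.Agent.FT.PF5Coh

set_option autoImplicit false
open Cfsg

namespace Cfsg.Agent.S1515

/-- Let (S, τ, R) be a coherence system from L to G, χ ∈ S, and ψ an integer combination of S with ⟨χ, ψ⟩ = ⟨conj χ, ψ⟩ = 0. Let τ₁ be a linear isometry on the integer combinations of χ − ψ and χ − conj χ, with virtual-character values, agreeing with τ on integer multiples of χ − conj χ. Then the sum over α ∈ R χ of the squared absolute values of ⟨τ₁(χ − ψ), α⟩ is at least ⟨χ, χ⟩; and if ⟨τ₁(χ − ψ), τ₁(χ − ψ)⟩ minus that sum is at least ⟨ψ, ψ⟩, then the sum equals ⟨χ, χ⟩ and every ⟨τ₁(χ − ψ), α⟩ with α ∈ R χ is 0 or 1. -/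
theorem result {L : Type*} [Group L] [Fintype L] {G : Type*} [Group G] [Fintype G] (S : Set (L → ℂ)) (τ : (L → ℂ) → (G → ℂ)) (R : (L → ℂ) → Finset (G → ℂ)) (hS : Cfsg.IsCoherenceSystem S τ R) (χ : L → ℂ) (hχ : χ ∈ S) (ψ : L → ℂ) (hψ : ψ ∈ Cfsg.zspan S) (h1 : Cfsg.classInner χ ψ = 0) (h2 : Cfsg.classInner (Cfsg.conjFun χ) ψ = 0) (τ₁ : (L → ℂ) → (G → ℂ)) (hτ₁ : Cfsg.IsLinearIsometryOn (Cfsg.zspan {χ - ψ, χ - Cfsg.conjFun χ}) τ₁) (hagree : ∀ n : ℤ, τ₁ (n • (χ - Cfsg.conjFun χ)) = τ (n • (χ - Cfsg.conjFun χ))) : (Cfsg.classInner χ χ).re ≤ ∑ α ∈ R χ, ‖Cfsg.classInner (τ₁ (χ - ψ)) α‖ ^ 2 ∧ ((Cfsg.classInner ψ ψ).re ≤ (Cfsg.classInner (τ₁ (χ - ψ)) (τ₁ (χ - ψ))).re - ∑ α ∈ R χ, ‖Cfsg.classInner (τ₁ (χ - ψ)) α‖ ^ 2 → (∑ α ∈ R χ, ‖Cfsg.classInner (τ₁ (χ - ψ)) α‖ ^ 2 = (Cfsg.classInner χ χ).re ∧ ∀ α ∈ R χ, Cfsg.classInner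 (τ₁ (χ - ψ)) α = 0 ∨ Cfsg.classInner (τ₁ (χ - ψ)) α = 1)) := by
  classical
  have m1 : χ - ψ ∈ zspan {χ - ψ, χ - conjFun χ} := FT.mem_zspan (Or.inl rfl)
  have m2 : χ - conjFun χ ∈ zspan {χ - ψ, χ - conjFun χ} := FT.mem_zspan (Or.inr rfl)
  have hβ := hτ₁.2.2.2 _ m1
  have hag := hagree 1
  rw [one_smul] at hag
  have hχχ := hS.orthogonal χ hχ _ (hS.conj_mem χ hχ) (hS.conj_ne χ hχ).symm
  have hv := hS.virtual χ hχ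
  have hsum : ∑ α ∈ R χ, FT.ipr (τ₁ (χ - ψ)) α = FT.ipr χ χ := by
    rw [← FT.ipr_sum_right, ← hS.sum_eq χ hχ, ← hag, FT.ipr_def, hτ₁.2.2.1 _ m1 _ m2, FT.cin_sub_left,
      FT.cin_sub_right, FT.cin_sub_right, hχχ, FT.cin_eq_zero_comm h1, FT.cin_eq_zero_comm h2]
    simp [FT.ipr_def]
  have hnorm : FT.ipr (τ₁ (χ - ψ)) (τ₁ (χ - ψ)) = FT.ipr χ χ + FT.ipr ψ ψ := by
    rw [FT.ipr_def, hτ₁.2.2.1 _ m1 _ m1, ← FT.ipr_def, FT.ipr_sub_self, FT.ipr_eq_zero_of_cin h1]; ring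
  have hsq : ∀ α ∈ R χ, ‖classInner (τ₁ (χ - ψ)) α‖ ^ 2 = FT.ipr (τ₁ (χ - ψ)) α ^ 2 := fun α hα => by
    rw [FT.cin_eq_ipr hβ (hv α hα)]; simp
  have hle : ∀ α ∈ R χ, FT.ipr (τ₁ (χ - ψ)) α ≤ FT.ipr (τ₁ (χ - ψ)) α ^ 2 := fun α hα => by
    obtain ⟨n, hn⟩ := FT.exists_int_ipr hβ (hv α hα)
    rw [hn]; exact_mod_cast Int.le_self_sq n
  rw [Finset.sum_congr rfl hsq, ← FT.ipr_def, ← FT.ipr_def, ← FT.ipr_def]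
  have h3 := hsum ▸ Finset.sum_le_sum hle
  refine ⟨h3, fun h => ⟨by linarith, fun α hα => ?_⟩⟩
  have heq : ∑ α ∈ R χ, FT.ipr (τ₁ (χ - ψ)) α = ∑ α ∈ R χ, FT.ipr (τ₁ (χ - ψ)) α ^ 2 := by linarith
  rw [Finset.sum_eq_sum_iff_of_le hle] at heq
  have h4 := heq α hα
  rw [FT.cin_eq_ipr hβ (hv α hα)]
  have : FT.ipr (τ₁ (χ - ψ)) α * (FT.ipr (τ₁ (χ - ψ)) α - 1) = 0 := by linarith
  rcases mul_eq_zero.1 this with h5 | h5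
  · left; rw [h5]; simp
  · right; rw [sub_eq_zero.1 h5]; simp

end Cfsg.Agent.S1515
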