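import Cfsg.Statements.S1516
import Cfsg.Agent.FT.PF5Extend

set_option autoImplicit false
open Cfsg

namespace Cfsg.Agent.S1516

/-- Let (S, τ, R) be a coherence system from L to G with degrees φ 1 = d φ and squared norms ⟨φ, φ⟩ = n φ for φ ∈ S. Let S₁ ⊆ S be a finite subset closed under complex conjugation such that (S₁, L minus 1, τ) is coherent, let χ ∈ S with χ ∉ S₁ and conj χ ∉ S₁, and let χ₁ ∈ S₁ with d χ₁ dividing d χ and 2 d χ d χ₁ < Σ_{φ ∈ S₁} (d φ)² / n φ. Then S₁ together with χ and conj χ is coherent. -/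
theorem result {L : Type*} [Group L] [Fintype L] {G : Type*} [Group G] [Fintype G] (S : Set (L → ℂ)) (τ : (L → ℂ) → (G → ℂ)) (R : (L → ℂ) → Finset (G → ℂ)) (hS : Cfsg.IsCoherenceSystem S τ R) (d n : (L → ℂ) → ℕ) (hd : ∀ φ ∈ S, φ 1 = (d φ : ℂ)) (hn : ∀ φ ∈ S, Cfsg.classInner φ φ = (n φ : ℂ)) (S₁ : Finset (L → ℂ)) (hS₁ : ↑S₁ ⊆ S) (hS₁c : ∀ φ ∈ S₁, Cfsg.conjFun φ ∈ S₁) (hcoh : Cfsg.IsCoherent (↑S₁ : Set (L → ℂ)) {1}ᶜ τ) (χ : L → ℂ) (hχ : χ ∈ S) (hχ₁ : χ ∉ S₁) (hχ₂ : Cfsg.conjFun χ ∉ S₁) (χ₁ : L → ℂ) (hχ₁S : χ₁ ∈ S₁) (hdvd : d χ₁ ∣ d χ) (hineq : (2 * d χ * d χ₁ : ℝ) < ∑ φ ∈ S₁, ((d φ : ℝ) ^ 2 / (n φ : ℝ))) : Cfsg.IsCoherent (↑S₁ ∪ {χ, Cfsg.conjFun χ} : Set (L → ℂ)) {1}ᶜ τ := by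
  obtain ⟨a, ha⟩ := hdvd
  have hc : FT.ConjClosed (↑S₁ : Set (L → ℂ)) := hS₁c
  have key := hS.extend_coherent hS₁ hc (FT.coherent_of_isCoherent hcoh) (χ₁ := χ₁) hχ₁S hχ hχ₁
    (a := a) (by rw [hd χ hχ, hd χ₁ (hS₁ hχ₁S), ha]; push_cast; ring) (by
      rw [finsum_mem_coe_finset, hd χ hχ, hd χ₁ (hS₁ hχ₁S)]
      simp only [Complex.natCast_re]
      refine hineq.trans_eq (Finset.sum_congr rfl fun φ hφ => ?_)
      rw [hd φ (hS₁ hφ), FT.ipr_def, hn φ (hS₁ hφ)]; simp)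
  have e : (↑S₁ ∪ {χ, conjFun χ} : Set (L → ℂ)) = insert χ (insert (conjFun χ) ↑S₁) := by
    rw [Set.union_comm, Set.insert_union, Set.singleton_union]
  rw [e]
  refine hS.isCoherent (Set.insert_subset hχ (Set.insert_subset (hS.conj_mem χ hχ) hS₁)) ?_
    ⟨χ, Or.inl rfl⟩ key
  rintro φ (rfl | rfl | h)
  · exact Or.inr (Or.inl rfl)
  · exact Or.inl (FT.conjFun_conjFun χ)
  · exact Or.inr (Or.inr (hc φ h))

end Cfsg.Agent.S1516
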