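import Cfsg.Statements.S1521
import Cfsg.Agent.FT.PF6
import Cfsg.Agent.FT.PF5Transport

set_option autoImplicit false
open Cfsg Cfsg.Agent.FT

namespace Cfsg.Agent.S1521

/-- Let K be a solvable normal subgroup of the finite group L of odd order and (S, τ, R) a coherence system from L to G with S the functions induced from non-principal irreducible characters of K; S(A) as before. Let M ≤ K be normal in L with K/M nilpotent, H₁ = [K, K] ⊔ M, H₁ < K < L, and suppose every element of K outside H₁ is centralised modulo H₁ only from inside K (L/H₁ is a Frobenius group with kernel K/H₁). Suppose one of the following: some normal subgroup of L lies strictly between H₁ and K; or [K:H₁] > 4[L:K]^2 + 1; or [K:M] is not a prime power; or [K,K] ≤ M; or [K:M] is a power of a prime p with [L:K] dividing p − 1. Then S(M) is coherent. -/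
theorem result {L : Type*} [Group L] [Fintype L] {G : Type*} [Group G] [Fintype G] (K : Subgroup L) [hK : K.Normal] (hsolv : Group.IsSolvable K) (τ : (L → ℂ) → (G → ℂ)) (R : (L → ℂ) → Finset (G → ℂ)) (hS : Cfsg.IsCoherenceSystem (Cfsg.inducedIrrAbove K ⊥) τ R) (hodd : Odd (Nat.card L)) (M : Subgroup L) [M.Normal] (hMK : M ≤ K) [(M.subgroupOf K).Normal] (hnil : Group.IsNilpotent (↥K ⧸ M.subgroupOf K)) (H₁ : Subgroup L) (hH₁ : H₁ = ⁅K, K⁆ ⊔ M) (hH₁K : H₁ < K) (hKL : K < ⊤) (hfrob : ∀ k ∈ K, k ∉ H₁ → ∀ x : L, x * k * x⁻¹ * k⁻¹ ∈ H₁ → x ∈ K) (hgood : (∃ N : Subgroup L, N.Normal ∧ H₁ < N ∧ N < K) ∨ 4 * K.index ^ 2 + 1 < H₁.relIndex K ∨ (¬ ∃ p m : ℕ, p.Prime ∧ M.relIndex K = p ^ m) ∨ ⁅K, K⁆ ≤ M ∨ (∃ p m : ℕ, p.Prime ∧ M.relIndex K = p ^ m ∧ K.index ∣ p - 1)) : Cfsg.IsCoherent (Cfsg.inducedIrrAbove K M) {1}ᶜ τ := by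
  obtain ⟨R', hS'⟩ := exists_isCoherenceSystem_top hS
  subst hH₁
  have hMK' : M < K := le_sup_right.trans_lt hH₁K
  refine isCoherent_of_top hS hMK' ?_
  by_contra hn
  obtain ⟨hch, hle, p, hp, ⟨m, hm⟩, hna, hnd⟩ := non_coherent_chief hsolv hS'
    ⟨by rwa [Subgroup.card_top], hKL, top_le_norm K, hMK, top_le_norm M,
      (isNilpotent_congr (quotEquiv (le_top.trans (top_le_norm M)) _ rfl)).1 hnil, hH₁K,
      fun k hk hk' x _ => hfrob k hk hk' x⟩ hn
  rw [Subgroup.relIndex_top_right] at hle hnd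
  rcases hgood with ⟨N, hN, h1, h2⟩ | h | h | h | ⟨q, n, hq, h1, h2⟩
  · exact h1.ne' (hch.2.2.2 N h1.le h2 (top_le_norm N))
  · omega
  · exact h ⟨p, m, hp, hm⟩
  · exact hna h
  · have h3 := pf6_one_lt_relIndex hMK'.not_ge
    have hn0 : n ≠ 0 := by rintro rfl; rw [h1] at h3; simp at h3
    have h4 : q ∣ p ^ m := by rw [← hm, h1]; exact dvd_pow_self q hn0
    rw [(Nat.prime_dvd_prime_iff_eq hq hp).1 (hq.dvd_of_dvd_pow h4)] at h2
    exact hnd h2

end Cfsg.Agent.S1521
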