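import Cfsg.Statements.S1522
import Cfsg.Agent.FT.PF6
import Cfsg.Agent.FT.PF5Transport

set_option autoImplicit false
open Cfsg Cfsg.Agent.FT

namespace Cfsg.Agent.S1522

/-- Let K be a nilpotent normal subgroup of the finite group L of odd order with [K,K] < K < L and L/[K,K] a Frobenius group with kernel K/[K,K] (elements of K outside [K,K] are centralised modulo [K,K] only from inside K); let (S, τ, R) be a coherence system from L to G with S the functions induced from non-principal irreducible characters of K. Let Z be a nontrivial normal subgroup of L contained in the centre of K, and suppose every member of S outside S(Z) is an irreducible character of L. Then S minus S(Z) is the set of irreducible characters χ of L with χ z ≠ χ 1 for some z ∈ Z, and it is coherent. -/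
theorem result {L : Type*} [Group L] [Fintype L] {G : Type*} [Group G] [Fintype G] (K : Subgroup L) [hK : K.Normal] (hsolv : Group.IsSolvable K) (τ : (L → ℂ) → (G → ℂ)) (R : (L → ℂ) → Finset (G → ℂ)) (hS : Cfsg.IsCoherenceSystem (Cfsg.inducedIrrAbove K ⊥) τ R) (hodd : Odd (Nat.card L)) (hnil : Group.IsNilpotent K) (hH₁K : ⁅K, K⁆ < K) (hKL : K < ⊤) (hfrob : ∀ k ∈ K, k ∉ ⁅K, K⁆ → ∀ x : L, x * k * x⁻¹ * k⁻¹ ∈ ⁅K, K⁆ → x ∈ K) (Z : Subgroup L) [Z.Normal] (hZ1 : Z ≠ ⊥) (hZK : Z ≤ K) (hZc : ∀ z ∈ Z, ∀ k ∈ K, z * k = k * z) (hirr : ∀ χ ∈ Cfsg.inducedIrrAbove K ⊥ \ Cfsg.inducedIrrAbove K Z, Cfsg.IsIrrCharacter L χ) : Cfsg.inducedIrrAbove K ⊥ \ Cfsg.inducedIrrAbove K Z = {χ | Cfsg.IsIrrCharacter L χ ∧ ∃ z ∈ Z, χ z ≠ χ 1} ∧ Cfsg.IsCoherent (Cfsg.inducedIrrAbove K ⊥ \ Cfsg.inducedIrrAbove K Z) {1}ᶜ τ := by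
  obtain ⟨R', hS'⟩ := exists_isCoherenceSystem_top hS
  have hd : pull (Subgroup.topEquiv : (⊤ : Subgroup L) ≃* L) ''
      (inducedIrrAbove K ⊥ \ inducedIrrAbove K Z) = seqIndD K ⊤ Z ⊥ := by
    rw [Set.image_sdiff (pull _).injective, pull_inducedIrrAbove, pull_inducedIrrAbove,
      seqIndD_diff le_top (top_le_norm K) hZK bot_le (top_le_norm K) (top_le_norm Z)
        (top_le_norm ⊥)]
  have hirr' : ∀ χ ∈ seqIndD K ⊤ Z ⊥, IsIrrCharacter (⊤ : Subgroup L) χ := by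
    rw [← hd]
    rintro _ ⟨χ, hχ, rfl⟩
    exact (isIrrCharacter_pull_iff _).2 (hirr χ hχ)
  refine ⟨?_, hS.isCoherent Set.sdiff_subset (fun χ hχ => ⟨hS.conj_mem χ hχ.1,
    IsCoherenceSystem.conj_not_mem (conjClosed_inducedIrrAbove K Z) hχ.2⟩) ?_ ?_⟩
  · ext χ
    rw [← (pull (Subgroup.topEquiv : (⊤ : Subgroup L) ≃* L)).injective.mem_set_image, hd,
      seqIndD_eq_irr_not_inKer le_top (top_le_norm K) (top_le_norm Z) hZK hirr']
    simp only [Set.mem_ofPred_eq, isIrrCharacter_pull_iff, InKer, pull_one, not_forall]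
    refine and_congr_right fun _ => ⟨fun ⟨x, hx, h⟩ => ⟨x, hx, h⟩, fun ⟨x, hx, h⟩ => ⟨⟨x, trivial⟩, hx, h⟩⟩
  · rw [← Set.image_nonempty (f := pull (Subgroup.topEquiv : (⊤ : Subgroup L) ≃* L)), hd]
    exact seqIndD_nonempty (bot_lt_iff_ne_bot.2 hZ1) hZK (le_top.trans (top_le_norm Z))
      (le_top.trans (top_le_norm ⊥))
  · rw [← coherent_pull_iff (Subgroup.topEquiv : (⊤ : Subgroup L) ≃* L), hd]
    refine seqIndD_irr_coherence hS' ⟨by rwa [Subgroup.card_top], hKL, top_le_norm K, bot_le,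
      top_le_norm ⊥, isNilpotent_quot _ hnil, by rwa [sup_bot_eq], fun k hk hk' x _ => ?_⟩
      (top_le_norm Z) (le_inf hZK (le_cent_iff.2 hZc)) hirr'
    rw [sup_bot_eq] at hk' ⊢
    exact hfrob k hk hk' x

end Cfsg.Agent.S1522
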