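import Mathlib
-- Template for statement S1523 (row 1523; see /opt/grader/pristine/manifest.json for weights).
-- Copy to Cfsg/Agent/S1523.lean and replace the sorry. The statement below is byte-identical to the frozen
-- statement Cfsg.CfsgFrozen.S1523 (Cfsg/Statements/S1523.lean; the theorem Cfsg.character_constant_on_central_ti_sylow_subgroup_congruence);
-- the grader kernel-checks Cfsg.Agent.S1523.result against that frozen type. Keep the theorem IN THIS FILE
-- (a `result` declared elsewhere and merely imported here is not credited); helpers may live anywhere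
-- under Cfsg/Agent/.
import Cfsg.Statements.S1523
import Cfsg.Agent.FT.PF6Mod

set_option autoImplicit false
open Cfsg

namespace Cfsg.Agent.S1523

/-- Let G be a finite group, p a prime, P a Sylow p-subgroup whose underlying set is a TI-subset of G, with L the set normaliser of P of odd order. Let Z ≠ ⊥ be a subgroup of P, normal in L and central in P, such that the centralisers in L of any two non-identity elements of Z have the same order. If ψ is an irreducible character of G taking the same value at all non-identity elements of Z, then for z ∈ Z, z ≠ 1, the value ψ z is an integer n with Nat.card P dividing ψ(1) − n (as integers, ψ 1 being the degree). -/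
theorem result {G : Type*} [Group G] [Finite G] (p : ℕ) [Fact p.Prime] (P : Sylow p G) (hTI : Cfsg.IsTISubset ((P : Subgroup G) : Set G)) (hodd : Odd (Nat.card (Subgroup.normalizer ((P : Subgroup G) : Set G)))) (Z : Subgroup G) (hZ1 : Z ≠ ⊥) (hZP : Z ≤ P) (hZn : ∀ x ∈ Subgroup.normalizer ((P : Subgroup G) : Set G), ∀ z ∈ Z, x * z * x⁻¹ ∈ Z) (hZc : ∀ z ∈ Z, ∀ y ∈ (P : Subgroup G), z * y = y * z) (hCL : ∀ z ∈ Z, ∀ z' ∈ Z, z ≠ 1 → z' ≠ 1 → Nat.card ↥(Subgroup.normalizer ((P : Subgroup G) : Set G) ⊓ Subgroup.centralizer ({z} : Set G)) = Nat.card ↥(Subgroup.normalizer ((P : Subgroup G) : Set G) ⊓ Subgroup.centralizer ({z'} : Set G))) (ψ : G → ℂ) (hψ : Cfsg.IsIrrCharacter G ψ) (hconst : ∀ z ∈ Z, ∀ z' ∈ Z, z ≠ 1 → z' ≠ 1 → ψ z = ψ z') (z : G) (hz : z ∈ Z) (hz1 : z ≠ 1) : ∃ n d : ℤ, ψ z = n ∧ ψ 1 = d ∧ (Nat.card (P : Subgroup G) : ℤ) ∣ d - n := by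
  have hp : p.Prime := Fact.out
  have hzP := hZP hz
  have h1 : FT.NormedTI (((P : Subgroup G) : Set G) \ {1}) ⊤
      (Subgroup.normalizer ((P : Subgroup G) : Set G)) := by
    refine ⟨⟨z, hzP, hz1⟩, le_top, ?_, ?_⟩
    · intro g hg
      rw [Subgroup.mem_set_normalizer_iff]
      intro x
      have h := Subgroup.mem_normalizer_iff.1 hg x
      simp only [Set.mem_diff, SetLike.mem_coe, Set.mem_singleton_iff, conj_eq_one_iff]
      rw [h]
    · intro g _ a ha hga
      by_contra hg
      exact ha.2 (hTI g hg a ha.1 hga.1)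
  have h2 : Subgroup.normalizer ((P : Subgroup G) : Set G) ≤ Subgroup.normalizer (Z : Set G) := by
    intro g hg
    rw [Subgroup.mem_normalizer_iff]
    intro x
    refine ⟨hZn g hg x, fun h => ?_⟩
    have := hZn g⁻¹ (Subgroup.inv_mem _ hg) _ h
    simpa [mul_assoc] using this
  obtain ⟨n, hn⟩ := FT.constant_irr_mod_TI_Sylow' hp P.isPGroup'
    Subgroup.le_normalizer (fun h => P.not_dvd_index (h.trans
      (Subgroup.relIndex_dvd_index_of_le Subgroup.le_normalizer)))
    h1 h2 (fun y hy => ⟨hZP hy, fun g hg => (hZc y hy g hg).symm⟩)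
    hodd hψ (fun x hx hx1 y hy hy1 => hconst x hx y hy hx1 hy1) hz hz1
  obtain ⟨d, hd⟩ := hψ.isCharacter.exists_apply_one_eq
  refine ⟨d + Nat.card (P : Subgroup G) * n, d, ?_, by simpa using hd, ⟨-n, by ring⟩⟩
  rw [hn, hd]
  push_cast
  rfl

end Cfsg.Agent.S1523
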