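import Mathlib
-- Template for statement S1525 (row 1525; see /opt/grader/pristine/manifest.json for weights).
-- Copy to Cfsg/Agent/S1525.lean and replace the sorry. The statement below is byte-identical to the frozen
-- statement Cfsg.CfsgFrozen.S1525 (Cfsg/Statements/S1525.lean; the theorem Cfsg.dade_support_norm_inequality);
-- the grader kernel-checks Cfsg.Agent.S1525.result against that frozen type. Keep the theorem IN THIS FILE
-- (a `result` declared elsewhere and merely imported here is not credited); helpers may live anywhere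
-- under Cfsg/Agent/.
import Cfsg.Statements.S1525
import Cfsg.Agent.FT.PF7Inv

set_option autoImplicit false
open Cfsg

namespace Cfsg.Agent.S1525

/-- Under the Dade hypothesis for (A, L, H), let χ be a class function of G and let ψ be a function on L whose value at each a ∈ A is the average of χ over the coset a·H(a). Then (1/|G|) Σ |χ g|² over the elements g of G conjugate into some coset a·H(a) with a ∈ A is at least (1/|L|) Σ_{a ∈ A ∩ L} |ψ a|². -/
theorem result {G : Type*} [Group G] [Fintype G] (A : Set G) (L : Subgroup G) [Fintype L] (H : G → Subgroup G) (hD : Cfsg.DadeHypothesis A L H) (χ : G → ℂ) (hχ : Cfsg.IsClassFunction G χ) (ψ : L → ℂ) (hψ : ∀ a : L, (a : G) ∈ A → ψ a = (Nat.card (H a) : ℂ)⁻¹ * ∑ᶠ u ∈ (H a : Set G), χ (a * u)) : (Nat.card L : ℝ)⁻¹ * ∑ᶠ a ∈ {a : L | (a : G) ∈ A}, ‖ψ a‖ ^ 2 ≤ (Nat.card G : ℝ)⁻¹ * ∑ᶠ g ∈ {g : G | ∃ a ∈ A, ∃ u ∈ H a, ∃ x : G, x * g * x⁻¹ = a * u}, ‖χ g‖ ^ 2 := by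
  classical
  have h := hD.norm_invDade_le_support hχ
  rw [FT.ipr_self_of_suppOn (FT.invDade_suppOn χ)] at h
  rw [finsum_mem_eq_finite_toFinset_sum _ (Set.toFinite _),
    finsum_mem_eq_finite_toFinset_sum _ (Set.toFinite _)]
  convert h using 2
  · refine Finset.sum_congr (by ext a; simp) fun a ha => ?_
    have ha' : (a : G) ∈ A := (Finset.mem_filter.1 ha).2
    rw [hψ a ha', FT.invDade_apply_of_mem χ a ha', FT.sum_subgroup_eq_ite (H a) fun u => χ (a * u),
      finsum_mem_eq_finite_toFinset_sum _ (Set.toFinite _), ← Finset.sum_filter]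
    congr 3
    refine Finset.sum_congr (by ext a; simp) fun _ _ => rfl
  · refine Finset.sum_congr (by ext a; rw [Set.Finite.mem_toFinset, Finset.mem_filter]; exact ⟨fun h => ⟨Finset.mem_univ _, h⟩, fun h => h.2⟩) fun _ _ => rfl

end Cfsg.Agent.S1525
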