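import Mathlib
-- Template for statement S1526 (row 1526; see /opt/grader/pristine/manifest.json for weights).
-- Copy to Cfsg/Agent/S1526.lean and replace the sorry. The statement below is byte-identical to the frozen
-- statement Cfsg.CfsgFrozen.S1526 (Cfsg/Statements/S1526.lean; the theorem Cfsg.no_odd_group_partitioned_by_coprime_frobenius_kernels);
-- the grader kernel-checks Cfsg.Agent.S1526.result against that frozen type. Keep the theorem IN THIS FILE
-- (a `result` declared elsewhere and merely imported here is not credited); helpers may live anywhere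
-- under Cfsg/Agent/.
import Cfsg.Statements.S1526
import Cfsg.Agent.FT.PF7Frob
import Cfsg.Agent.FT.Pi
import Cfsg.Agent.Perm.RankOneNilp

set_option autoImplicit false
open Cfsg

namespace Cfsg.Agent.S1526

/-- Let G be a finite group of odd order and (L i, H i), i in a finite index type with at least two elements, pairs of subgroups with H i a nontrivial proper normal subgroup of L i such that every non-identity element of H i has its centraliser within L i contained in H i (L i is a Frobenius group with kernel H i), the orders of the H i pairwise coprime, and the underlying set of each H i a TI-subset of G with normaliser L i. If every non-identity element of G is conjugate to an element of some H i, we reach a contradiction. -/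
theorem result {G : Type*} [Group G] [Finite G] (hodd : Odd (Nat.card G)) {ι : Type*} [Fintype ι] (hι : 2 ≤ Fintype.card ι) (L H : ι → Subgroup G) (hHL : ∀ i, H i < L i) (hH1 : ∀ i, H i ≠ ⊥) (hHn : ∀ i, ∀ x ∈ L i, ∀ h ∈ H i, x * h * x⁻¹ ∈ H i) (hfrob : ∀ i, ∀ h ∈ H i, h ≠ 1 → L i ⊓ Subgroup.centralizer ({h} : Set G) ≤ H i) (hcop : ∀ i j, i ≠ j → Nat.Coprime (Nat.card (H i)) (Nat.card (H j))) (hTI : ∀ i, Cfsg.IsTISubset (H i : Set G) ∧ Subgroup.normalizer (H i : Set G) = L i) (hcover : ∀ g : G, g ≠ 1 → ∃ i, ∃ x : G, x * g * x⁻¹ ∈ H i) : False := by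
  have := Fintype.ofFinite G
  have hn : ∀ i, L i ≤ Subgroup.normalizer (H i : Set G) := fun i => (hTI i).2.ge
  have hE : ∀ i, ∃ E, FT.IsFrob (L i) (H i) E := by
    intro i
    have h1 : (H i).relIndex (L i) ∣ Nat.card (H i) - 1 :=
      Ch.TI.relIndex_dvd_card_sub_one (H i) (L i) (hHL i).le (hn i) fun k hk hk1 x hx hc =>
        hfrob i k hk hk1 ⟨hx, Subgroup.mem_centralizer_singleton_iff.2 hc⟩
    have h2 : (Nat.card (H i)).Coprime ((H i).relIndex (L i)) := by
      refine Nat.Coprime.coprime_dvd_right h1 ?_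
      have : 1 ≤ Nat.card (H i) := Nat.card_pos
      exact (Nat.coprime_self_sub_right this).2 (by simp)
    obtain ⟨E, hE⟩ := FT.SchurZassenhaus_split ⟨(hHL i).le, hn i⟩ h2
    refine ⟨E, hE, hH1 i, ?_, ?_⟩
    · rintro rfl
      exact (hHL i).ne (by simpa using hE.sup_eq)
    · intro x hx hx1
      rw [eq_bot_iff]
      intro y hy
      rw [Subgroup.mem_bot]
      by_contra hy1
      have hxL : x ∈ L i := (hE.sup_eq ▸ le_sup_right : E ≤ L i) hx
      have hxH : x ∈ H i := hfrob i y hy.1 hy1 ⟨hxL, Subgroup.mem_centralizer_singleton_iff.2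
        (Subgroup.mem_centralizer_singleton_iff.1 hy.2).symm⟩
      exact hx1 (Subgroup.mem_bot.1 (hE.inf_eq ▸ Subgroup.mem_inf.2 ⟨hxH, hx⟩))
  choose E hE using hE
  obtain ⟨g, hg1, hg⟩ := FT.no_coherent_Frobenius_partition hodd hι hE (fun i => by
    obtain ⟨p, hp, hd⟩ := Nat.exists_prime_and_dvd
      (((E i).one_lt_card_iff_ne_bot.2 (hE i).compl_ne_bot).ne')
    have := Fact.mk hp
    obtain ⟨k, hk⟩ := exists_prime_orderOf_dvd_card' p hd
    have hk' : orderOf (k : G) = p := by rw [Subgroup.orderOf_coe, hk]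
    refine Perm.RankOne.isNilpotent_of_fixedPointFree ((hE i).sdprod.norm k.2) (hk' ▸ hp) ?_
    intro y hy hc
    have hk1 : (k : G) ≠ 1 := by
      intro h
      rw [h, orderOf_one] at hk'
      exact hp.one_lt.ne hk'
    exact Subgroup.mem_bot.1 ((hE i).semiregular k k.2 hk1 ▸ Subgroup.mem_inf.2
      ⟨hy, Subgroup.mem_centralizer_singleton_iff.2 hc.symm⟩))
    (fun i => by
      obtain ⟨z, hz1⟩ := Subgroup.ne_bot_iff_exists_ne_one.1 (hH1 i)
      refine ⟨⟨z, z.2, fun h => hz1 (Subtype.ext h)⟩, le_top, ?_, ?_⟩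
      · intro g hg
        rw [Subgroup.mem_set_normalizer_iff]
        intro x
        have h := Subgroup.mem_normalizer_iff.1 (hn i hg) x
        simp only [Set.mem_sdiff, SetLike.mem_coe, Set.mem_singleton_iff, conj_eq_one_iff]
        rw [h]
      · intro g _ a ha hga
        by_contra hg
        rw [← (hTI i).2] at hg
        exact ha.2 ((hTI i).1 g hg a ha.1 hga.1)) hcop
  obtain ⟨i, x, hx⟩ := hcover g hg1
  exact hg i ⟨x⁻¹, trivial, _, ⟨hx, by simpa using hg1⟩, by group⟩

end Cfsg.Agent.S1526
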