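import Mathlib
-- Template for statement S1527 (row 1527; see /opt/grader/pristine/manifest.json for weights).
-- Copy to Cfsg/Agent/S1527.lean and replace the sorry. The statement below is byte-identical to the frozen
-- statement Cfsg.CfsgFrozen.S1527 (Cfsg/Statements/S1527.lean; the theorem Cfsg.card_eq_sum_over_ti_family_covering);
-- the grader kernel-checks Cfsg.Agent.S1527.result against that frozen type. Keep the theorem IN THIS FILE
-- (a `result` declared elsewhere and merely imported here is not credited); helpers may live anywhere
-- under Cfsg/Agent/.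
import Cfsg.Statements.S1527
import Cfsg.Agent.FT.PF7TI

set_option autoImplicit false
open Cfsg

namespace Cfsg.Agent.S1527

/-- Let G be a finite group and H i (i in a finite index type) subgroups of pairwise coprime orders, each of whose underlying sets is a TI-subset of G, such that every non-identity element of G is conjugate to an element of some H i. Then Nat.card G − 1 = Σ_i [G : N_G(H i)] · (Nat.card (H i) − 1). -/
theorem result {G : Type*} [Group G] [Finite G] {ι : Type*} [Fintype ι] (H : ι → Subgroup G) (hcop : ∀ i j, i ≠ j → Nat.Coprime (Nat.card (H i)) (Nat.card (H j))) (hTI : ∀ i, Cfsg.IsTISubset (H i : Set G)) (hcover : ∀ g : G, g ≠ 1 → ∃ i, ∃ x : G, x * g * x⁻¹ ∈ H i) : Nat.card G - 1 = ∑ i, (Subgroup.normalizer (H i : Set G)).index * (Nat.card (H i) - 1) := by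
  classical
  have := Fintype.ofFinite G
  have e := FT.sum_eq_sum_compl_add_sum
    (B := fun i => FT.dadeSupport ((H i : Set G) \ {1}) fun _ => ⊥)
    (fun i j hij => FT.disjoint_dadeSupport_bot_of_coprime (hcop i j hij)) (G₀ := {1})
    (by
      intro g
      simp only [Finset.mem_singleton, FT.mem_dadeSupport_bot]
      constructor
      · rintro rfl i ⟨x, hx⟩
        exact hx.2 (by simp)
      · intro h
        by_contra hg
        obtain ⟨i, x, hx⟩ := hcover g hg
        exact h i ⟨x, hx, by simpa using hg⟩) fun _ => 1
  simp only [Finset.sum_const, FT.card_filter_mem_set, nsmul_eq_mul, mul_one, Finset.card_univ,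
    ← Nat.card_eq_fintype_card, Finset.card_singleton] at e
  have h2 : ∀ i, (Nat.card (FT.dadeSupport ((H i : Set G) \ {1}) fun _ => ⊥) : ℝ) =
      (((Subgroup.normalizer (H i : Set G)).index * (Nat.card (H i) - 1) : ℕ) : ℝ) := by
    intro i
    have h3 := (FT.dadeHypothesis_of_isTISubset (hTI i)).card_dadeSupport
    rw [FT.card_sharp, ← (Subgroup.normalizer (H i : Set G)).card_mul_index] at h3
    have h4 : (0 : ℝ) < Nat.card (Subgroup.normalizer (H i : Set G)) := by
      exact_mod_cast Nat.card_pos
    have h5 : (0 : ℝ) < (Subgroup.normalizer (H i : Set G)).index := by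
      exact_mod_cast Nat.pos_of_ne_zero Subgroup.index_ne_zero_of_finite
    rw [Nat.cast_mul] at h3 ⊢
    field_simp at h3
    rw [h3]
  simp only [h2] at e
  have h6 : Nat.card G = 1 + ∑ i, (Subgroup.normalizer (H i : Set G)).index * (Nat.card (H i) - 1) := by
    exact_mod_cast e
  omega

end Cfsg.Agent.S1527
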