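import Cfsg.Statements.S1529
import Cfsg.Agent.FT.PF5Extend

set_option autoImplicit false
open Cfsg

namespace Cfsg.Agent.S1529

/-- Let N be a subgroup of the finite group G, S a set of irreducible characters of N with at least two members, and τ₁ a linear isometry on the integer combinations of S with virtual-character values such that τ₁ α vanishes at 1 whenever α ∈ ℤ[S] does. Then there is ε ∈ {1, −1} such that ε • τ₁ χ is an irreducible character of G for every χ ∈ S, and distinct members of S give distinct characters. -/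
theorem result {G : Type*} [Group G] [Fintype G] (N : Subgroup G) [Fintype N] (S : Set (N → ℂ)) (hirr : ∀ χ ∈ S, Cfsg.IsIrrCharacter N χ) (htwo : ∃ χ ∈ S, ∃ ψ ∈ S, χ ≠ ψ) (τ₁ : (N → ℂ) → (G → ℂ)) (hτ₁ : Cfsg.IsLinearIsometryOn (Cfsg.zspan S) τ₁) (h0 : ∀ α ∈ Cfsg.zspan S, α 1 = 0 → τ₁ α 1 = 0) : ∃ ε : ℂ, (ε = 1 ∨ ε = -1) ∧ (∀ χ ∈ S, Cfsg.IsIrrCharacter G (ε • τ₁ χ)) ∧ (∀ χ ∈ S, ∀ ψ ∈ S, τ₁ χ = τ₁ ψ → χ = ψ) := by
  obtain ⟨ν, hν⟩ := FT.exists_linear_of_cin (zspan S) τ₁ hτ₁.2.2.1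
  have e : ∀ χ ∈ S, ν χ = τ₁ χ := fun χ h => hν χ (FT.mem_zspan h)
  have hc : FT.CohWith S τ₁ ν := ⟨fun χ h φ h' => by
      rw [e χ h, e φ h']; exact hτ₁.2.2.1 _ (FT.mem_zspan h) _ (FT.mem_zspan h'),
    fun χ h => by rw [e χ h]; exact hτ₁.2.2.2 _ (FT.mem_zspan h), fun α hα => hν α hα.1⟩
  have h1 : ∀ α ∈ zspanOn S {1}ᶜ, τ₁ α 1 = 0 := fun α hα => h0 α hα.1 (FT.mem_zspanOn_one.1 hα).2
  have hinj : ∀ χ ∈ S, ∀ ψ ∈ S, τ₁ χ = τ₁ ψ → χ = ψ := fun χ hχ ψ hψ h => by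
    apply (hirr χ hχ).eq_of_classInner_ne_zero (hirr ψ hψ)
    rw [← hτ₁.2.2.1 _ (FT.mem_zspan hχ) _ (FT.mem_zspan hψ), ← h,
      hτ₁.2.2.1 _ (FT.mem_zspan hχ) _ (FT.mem_zspan hχ), (hirr χ hχ).classInner_self]
    exact one_ne_zero
  obtain ⟨χ₀, hχ₀, -⟩ := htwo
  rcases hc.irr_or_neg hχ₀ (hirr χ₀ hχ₀) with a | a
  · refine ⟨1, Or.inl rfl, fun χ hχ => ?_, hinj⟩
    rw [one_smul, ← e χ hχ]
    exact ((hc.sign_eq h1 hχ₀ hχ (hirr χ₀ hχ₀) (hirr χ hχ)).resolve_right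
      fun b => a.neg_not b.1.isCharacter).2
  · refine ⟨-1, Or.inr rfl, fun χ hχ => ?_, hinj⟩
    rw [neg_one_smul, ← e χ hχ]
    exact ((hc.sign_eq h1 hχ₀ hχ (hirr χ₀ hχ₀) (hirr χ hχ)).resolve_left
      fun b => b.1.neg_not a.isCharacter).2

end Cfsg.Agent.S1529
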