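import Cfsg.Statements.S1531
import Cfsg.Agent.Ch.FeitCoh

set_option autoImplicit false
open Cfsg

namespace Cfsg.Agent.S1531

open Cfsg.Agent.FT Cfsg.Agent.Ch

theorem exists_cohWith {L G : Type*} [Group L] [Fintype L] [Group G] [Fintype G] {X : Set (L → ℂ)}
    {α σ : (L → ℂ) → (G → ℂ)} (hσ : IsLinearIsometryOn (zspan X) σ)
    (hσα : ∀ θ ∈ zspanOn X {1}ᶜ, σ θ = α θ) : ∃ ν, CohWith X α ν ∧ ∀ χ ∈ X, ν χ = σ χ := by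
  obtain ⟨ν, hν⟩ := exists_linear_of_cin (zspan X) σ hσ.2.2.1
  refine ⟨ν, ⟨fun χ hχ φ hφ => ?_, fun χ hχ => ?_, fun θ hθ => ?_⟩, fun χ hχ => hν χ (mem_zspan hχ)⟩
  · rw [hν χ (mem_zspan hχ), hν φ (mem_zspan hφ)]; exact hσ.2.2.1 χ (mem_zspan hχ) φ (mem_zspan hφ)
  · rw [hν χ (mem_zspan hχ)]; exact hσ.2.2.2 χ (mem_zspan hχ)
  · rw [hν θ hθ.1, hσα θ hθ]

/-- Let N be a subgroup of the finite group G, S a set of irreducible characters of N, and α a linear isometry on the integer combinations of S vanishing at 1 with values virtual characters of G vanishing at 1. Let X, Y ⊆ S be disjoint, each with at least two members, and σ, τ linear isometries on ℤ[X], ℤ[Y] into virtual characters agreeing with α on the members vanishing at 1. Then ⟨σ χ, τ η⟩ = 0 for χ ∈ X, η ∈ Y; and if for some χ₀ ∈ X,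 η₀ ∈ Y with degrees c = χ₀ 1, e = η₀ 1 one has α (c • η₀ − e • χ₀) = c • τ η₀ − e • σ χ₀, then (X ∪ Y, N minus 1, α) is coherent. -/
theorem result {G : Type*} [Group G] [Fintype G] (N : Subgroup G) [Fintype N] (S X Y : Set (N → ℂ)) (hirr : ∀ ξ ∈ S, Cfsg.IsIrrCharacter N ξ) (hXS : X ⊆ S) (hYS : Y ⊆ S) (hXY : Disjoint X Y) (hX2 : ∃ a ∈ X, ∃ b ∈ X, a ≠ b) (hY2 : ∃ a ∈ Y, ∃ b ∈ Y, a ≠ b) (α : (N → ℂ) → (G → ℂ)) (hα : Cfsg.IsLinearIsometryOn (Cfsg.zspanOn S {1}ᶜ) α) (hα1 : ∀ θ ∈ Cfsg.zspanOn S {1}ᶜ, α θ 1 = 0) (σ τ : (N → ℂ) → (G → ℂ)) (hσ : Cfsg.IsLinearIsometryOn (Cfsg.zspan X) σ) (hσα : ∀ θ ∈ Cfsg.zspanOn X {1}ᶜ, σ θ = α θ) (hτ : Cfsg.IsLinearIsometryOn (Cfsg.zspan Y) τ) (hτα : ∀ θ ∈ Cfsg.zspanOn Y {1}ᶜ, τ θ = α θ) : (∀ χ ∈ X, ∀ η ∈ Y, Cfsg.classInner (σ χ) (τ η) = 0) ∧ ((∃ χ₀ ∈ X, ∃ η₀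 ∈ Y, α (χ₀ 1 • η₀ - η₀ 1 • χ₀) = χ₀ 1 • τ η₀ - η₀ 1 • σ χ₀) → Cfsg.IsCoherent (X ∪ Y) {1}ᶜ α) := by
  have h : Feit.Iso S α := ⟨hirr, hα, hα1⟩
  obtain ⟨σ', hσ', e1⟩ := exists_cohWith hσ hσα
  obtain ⟨τ', hτ', e2⟩ := exists_cohWith hτ hτα
  have other : ∀ {Z : Set (N → ℂ)}, (∃ a ∈ Z, ∃ b ∈ Z, a ≠ b) → ∀ c, ∃ d ∈ Z, c ≠ d := by
    rintro Z ⟨a, ha, b, hb, hab⟩ c
    by_cases hc : c = a
    exacts [⟨b, hb, hc ▸ hab⟩, ⟨a, ha, hc⟩]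
  have ho : ∀ χ ∈ X, ∀ η ∈ Y, classInner (σ' χ) (τ' η) = 0 := fun χ hχ η hη => by
    obtain ⟨χ', hχ', h1⟩ := other hX2 χ
    obtain ⟨η', hη', h2⟩ := other hY2 η
    exact h.ortho hXS hYS hXY hσ' hτ' hχ hχ' h1 hη hη' h2
  refine ⟨fun χ hχ η hη => by rw [← e1 χ hχ, ← e2 η hη, ho χ hχ η hη], ?_⟩
  rintro ⟨χ₀, hχ₀, η₀, hη₀, hb⟩
  obtain ⟨ρ, hρ, -⟩ := h.union hXS hYS hXY hσ' hτ' ho hχ₀ hη₀ (by rw [hb, e1 _ hχ₀, e2 _ hη₀])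
  obtain ⟨a, ha, b, hb, hab⟩ := hX2
  exact (h.mono (Set.union_subset hXS hYS)).isCoherent ⟨ρ, hρ⟩ (Or.inl ha) (Or.inl hb) hab

end Cfsg.Agent.S1531
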