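import Cfsg.Statements.S1532
import Cfsg.Agent.Ch.FeitOdd

set_option autoImplicit false
open Cfsg

namespace Cfsg.Agent.S1532

open Cfsg.Agent.FT Cfsg.Agent.Ch Cfsg.Agent.Ch.Feit

/-- Let G be a finite group, p an odd prime and P a Sylow p-subgroup that is non-abelian, whose underlying set is a TI-subset of G, with P properly contained in its set normaliser N and C_G(x) ≤ P for every non-identity x ∈ P. Let Z be a nontrivial subgroup of the centre of P normalised by N. Then the set of irreducible characters χ of N with χ z ≠ χ 1 for some z ∈ Z is coherent for the map induced by induction from N to G. -/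
theorem result {G : Type*} [Group G] [Fintype G] (p : ℕ) [Fact p.Prime] (hp : p ≠ 2) (P : Sylow p G) (hna : ¬ IsMulCommutative (P : Subgroup G)) (hTI : Cfsg.IsTISubset ((P : Subgroup G) : Set G)) (hlt : (P : Subgroup G) < Subgroup.normalizer ((P : Subgroup G) : Set G)) (hC : ∀ k ∈ (P : Subgroup G), k ≠ 1 → Subgroup.centralizer ({k} : Set G) ≤ (P : Subgroup G)) [Fintype ↥(Subgroup.normalizer ((P : Subgroup G) : Set G))] (Z : Subgroup G) (hZ1 : Z ≠ ⊥) (hZP : ∀ z ∈ Z, z ∈ (P : Subgroup G) ∧ ∀ y ∈ (P : Subgroup G), z * y = y * z) (hZn : ∀ x ∈ Subgroup.normalizer ((P : Subgroup G) : Set G), ∀ z ∈ Z, x * z * x⁻¹ ∈ Z) : Cfsg.IsCoherent {χ : ↥(Subgroup.normalizer ((P : Subgroup G) : Set G)) → ℂ | Cfsg.IsIrrCharacter ↥(Subgroup.normalizer ((P : Subgroup G) : Set G)) χ ∧ ∃ z : ↥(Subgroup.normalizer ((P : Subgroup G) : Set G)), (z : G) ∈ Z ∧ χ z ≠ χ 1} {1}ᶜ (fun α => Cfsg.indFun (Subgroup.normalizer ((P : Subgroup G) : Set G)) α) :=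 by
  have hC' := cent_subgroupOf (N := Subgroup.normalizer ((P : Subgroup G) : Set G)) hC
  have hcard : Nat.card ((P : Subgroup G).subgroupOf (Subgroup.normalizer ((P : Subgroup G) : Set G))) =
      Nat.card (P : Subgroup G) := Nat.card_congr (Subgroup.subgroupOfEquivOfLe hlt.le).toEquiv
  have hZle : Z ≤ P := fun z hz => (hZP z hz).1
  have hP1 : (P : Subgroup G) ≠ ⊥ := fun e => hZ1 (eq_bot_iff.mpr (e ▸ hZle))
  obtain ⟨n, hn⟩ := P.isPGroup'.exists_card_eq
  have hodd : Odd (Nat.card (P : Subgroup G)) := hn ▸ ((Fact.out : p.Prime).odd_of_ne_two hp).pow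
  have hsub : {χ : ↥(Subgroup.normalizer ((P : Subgroup G) : Set G)) → ℂ | IsIrrCharacter _ χ ∧
      ∃ z : ↥(Subgroup.normalizer ((P : Subgroup G) : Set G)), (z : G) ∈ Z ∧ χ z ≠ χ 1} ⊆
      SK ((P : Subgroup G).subgroupOf (Subgroup.normalizer ((P : Subgroup G) : Set G))) ⊥ := by
    rw [SK_bot]
    rintro χ ⟨h1, z, hz, h2⟩
    exact ⟨h1, z, hZle hz, h2⟩
  have hNodd : Odd (Nat.card (Subgroup.normalizer ((P : Subgroup G) : Set G))) := by
    rw [← Subgroup.index_mul_card ((P : Subgroup G).subgroupOf _), hcard]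
    refine Odd.mul (Nat.not_even_iff_odd.mp fun he => hna ?_) hodd
    have := comm_of_even hC' he
    exact ⟨⟨fun x y => Subtype.ext (congrArg (fun z : (P : Subgroup G).subgroupOf _ => (z.1 : G))
      (this.is_comm.comm ⟨⟨x, hlt.le x.2⟩, x.2⟩ ⟨⟨y, hlt.le y.2⟩, y.2⟩))⟩⟩
  obtain ⟨⟨z, hz⟩, hz1⟩ := (Subgroup.ne_bot_iff_exists_ne_one).mp hZ1
  obtain ⟨χ, hχ⟩ := exists_irr_apply_ne (g := (⟨z, hlt.le (hZle hz)⟩ :
    Subgroup.normalizer ((P : Subgroup G) : Set G))) fun e => hz1 (Subtype.ext (by simpa using e))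
  refine ((iso_indFun hTI hC).mono hsub).isCoherent ((coherent_of_odd hP1 hTI hlt hC hodd).mono hsub)
    (χ := χ.1) (φ := fun g => (starRingEnd ℂ) (χ.1 g)) ⟨χ.2, _, hz, hχ⟩
    ⟨χ.2.complexConj, ⟨z, hlt.le (hZle hz)⟩, hz, fun e => hχ ((starRingEnd ℂ).injective e)⟩ fun e => ?_
  obtain ⟨θ, h1, h2, h3, -⟩ := exists_of_mem_SK hC' bot_le (hsub ⟨χ.2, _, hz, hχ⟩)
  have h4 := classInner_star_indFun_of_odd hNodd h1 h2
  rw [← h3, ← e, χ.2.classInner_self] at h4
  exact one_ne_zero h4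

end Cfsg.Agent.S1532
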