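import Cfsg.Statements.S1533
import Cfsg.Agent.Ch.FeitOdd

set_option autoImplicit false
open Cfsg

namespace Cfsg.Agent.S1533

open Cfsg.Agent.FT Cfsg.Agent.Ch Cfsg.Agent.Ch.Feit

/-- Let G be a finite group, p an odd prime, and P a nontrivial Sylow p-subgroup whose underlying set is a TI-subset of G, with P properly contained in its set normaliser N and C_G(x) ≤ P for every non-identity x ∈ P. Let S be the set of irreducible characters χ of N with χ x ≠ χ 1 for some x ∈ P. Then either S has exactly one member, P is elementary abelian and Nat.card P = [N:P] + 1; or (S, N minus 1, induction to G) is coherent. -/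
theorem result {G : Type*} [Group G] [Fintype G] (p : ℕ) [Fact p.Prime] (hp : p ≠ 2) (P : Sylow p G) (hP1 : (P : Subgroup G) ≠ ⊥) (hTI : Cfsg.IsTISubset ((P : Subgroup G) : Set G)) (hlt : (P : Subgroup G) < Subgroup.normalizer ((P : Subgroup G) : Set G)) (hC : ∀ k ∈ (P : Subgroup G), k ≠ 1 → Subgroup.centralizer ({k} : Set G) ≤ (P : Subgroup G)) [Fintype ↥(Subgroup.normalizer ((P : Subgroup G) : Set G))] : (Nat.card {χ : ↥(Subgroup.normalizer ((P : Subgroup G) : Set G)) → ℂ // Cfsg.IsIrrCharacter ↥(Subgroup.normalizer ((P : Subgroup G) : Set G)) χ ∧ ∃ x : ↥(Subgroup.normalizer ((P : Subgroup G) : Set G)), (x : G) ∈ (P : Subgroup G) ∧ χ x ≠ χ 1} = 1 ∧ Cfsg.IsElementaryAbelian p (P : Subgroup G) ∧ Nat.card (P : Subgroup G) = ((P : Subgroup G).subgroupOf (Subgroup.normalizer ((P : Subgroup G) : Set G))).index + 1) ∨ Cfsg.IsCoherent {χ : ↥(Subgroup.normalizer ((P : Subgroup G) : Set G)) → ℂ | Cfsg.IsIrrCharacter ↥(Subgroup.normalizer ((P : Subgroup G) : Set G)) χ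 ∧ ∃ x : ↥(Subgroup.normalizer ((P : Subgroup G) : Set G)), (x : G) ∈ (P : Subgroup G) ∧ χ x ≠ χ 1} {1}ᶜ (fun α => Cfsg.indFun (Subgroup.normalizer ((P : Subgroup G) : Set G)) α) := by
  have hC' := cent_subgroupOf (N := Subgroup.normalizer ((P : Subgroup G) : Set G)) hC
  have hcard : Nat.card ((P : Subgroup G).subgroupOf (Subgroup.normalizer ((P : Subgroup G) : Set G))) =
      Nat.card (P : Subgroup G) := Nat.card_congr (Subgroup.subgroupOfEquivOfLe hlt.le).toEquiv
  have := isNilpotent_of_cent hC' fun e => hlt.not_ge (Subgroup.subgroupOf_eq_top.mp e)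
  have h1 : (P : Subgroup G).subgroupOf (Subgroup.normalizer ((P : Subgroup G) : Set G)) ≠ ⊥ := by
    rw [← Subgroup.one_lt_card_iff_ne_bot, hcard, Subgroup.one_lt_card_iff_ne_bot]; exact hP1
  obtain ⟨n, hn⟩ := P.isPGroup'.exists_card_eq
  by_cases he : Nat.card ((P : Subgroup G).subgroupOf (Subgroup.normalizer ((P : Subgroup G) : Set G))) =
      ((P : Subgroup G).subgroupOf (Subgroup.normalizer ((P : Subgroup G) : Set G))).index + 1
  · obtain ⟨h2, q, hq, hd, h3⟩ := of_card_eq hC' h1 he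
    rw [hcard, hn] at hd
    rw [(Nat.prime_dvd_prime_iff_eq hq Fact.out).mp (hq.dvd_of_dvd_pow hd)] at h3
    rw [SK_bot] at h2
    exact Or.inl ⟨h2, isElementaryAbelian_of_subgroupOf hlt.le h3, hcard ▸ he⟩
  · obtain ⟨χ, hχ, φ, hφ, hne⟩ := exists_ne_mem_SK hC' h1 he
    have h2 := (iso_indFun hTI hC).isCoherent (coherent_of_odd hP1 hTI hlt hC
      (hn ▸ ((Fact.out : p.Prime).odd_of_ne_two hp).pow)) hχ hφ hne
    rw [SK_bot] at h2
    exact Or.inr h2

end Cfsg.Agent.S1533
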