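import Mathlib
import Cfsg.Statements.S1538
import Cfsg.Agent.FT.PF8Dade

set_option autoImplicit false
open Cfsg

namespace Cfsg.Agent.S1538
open Cfsg.Agent.FT in

/-- Let G be a minimal simple group of odd order and M a maximal subgroup of Type II. Then each of A₀(M), A(M), A₁(M) is a TI-subset of G whose set normaliser is M. -/
theorem result {G : Type*} [Group G] [Finite G] (hG : Cfsg.IsMinSimpleOddOrder G) (M : Subgroup G) (hM : IsCoatom M) (hII : Cfsg.IsOfTypeII M) : (Cfsg.IsTISubset (Cfsg.typeA0 M) ∧ Subgroup.normalizer (Cfsg.typeA0 M) = M) ∧ (Cfsg.IsTISubset (Cfsg.typeA M) ∧ Subgroup.normalizer (Cfsg.typeA M) = M) ∧ (Cfsg.IsTISubset (Cfsg.typeA1 M) ∧ Subgroup.normalizer (Cfsg.typeA1 M) = M) := by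
  have h2 := (FTtypeP2 hG hM).2 hII
  have hI := typeI'_iff_typeI_of_ne_one hG hM (by omega)
  rw [← typeA'_eq_typeA hI, ← typeA0'_eq_typeA0 hI]
  obtain ⟨h0, h, h1⟩ := FTtypeII_ker_TI hG hM h2
  have key : ∀ A : Set G, NormedTI A ⊤ M → Subgroup.normalizer A = M → IsTISubset A :=
    fun A hA hN g hg x hx hgx => absurd (hA.ti g trivial x hx hgx) (hN ▸ hg)
  exact ⟨⟨key _ h0 (norm_FTsupp0 hG hM), norm_FTsupp0 hG hM⟩,
    ⟨key _ h (norm_FTsupp hG hM), norm_FTsupp hG hM⟩,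
    ⟨key _ h1 (norm_FTsupp1 hG hM), norm_FTsupp1 hG hM⟩⟩

end Cfsg.Agent.S1538
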