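import Mathlib
import Cfsg.Statements.S1539
import Cfsg.Agent.FT.TypeIBridge
import Cfsg.Agent.FT.PF8Dade

set_option autoImplicit false
open Cfsg

namespace Cfsg.Agent.S1539
open Cfsg.Agent.FT in

/-- Let G be a minimal simple group of odd order and S, T maximal subgroups not conjugate in G. Then: T supports S if and only if A₁(S) ∩ A(T) is nonempty, and for every x ∈ A₁(S) ∩ A(T) the centraliser of x is contained in T but not in S; some conjugate of T supports S if and only if Ã₁(S) ∩ Ã(T) is nonempty; and at least one of Ã₁(S) ∩ Ã(T), Ã₁(T) ∩ Ã(S) is empty. -/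
theorem result {G : Type*} [Group G] [Finite G] (hG : Cfsg.IsMinSimpleOddOrder G) (S T : Subgroup G) (hS : IsCoatom S) (hT : IsCoatom T) (hnc : ∀ g : G, T.map (MulAut.conj g).toMonoidHom ≠ S) : (Cfsg.Supports T S ↔ (Cfsg.typeA1 S ∩ Cfsg.typeA T).Nonempty) ∧ (∀ x ∈ Cfsg.typeA1 S ∩ Cfsg.typeA T, ¬ Subgroup.centralizer ({x} : Set G) ≤ S ∧ Subgroup.centralizer ({x} : Set G) ≤ T) ∧ ((∃ g : G, Cfsg.Supports (T.map (MulAut.conj g).toMonoidHom) S) ↔ (Cfsg.tildeOf S (Cfsg.typeA1 S) ∩ Cfsg.tildeOf T (Cfsg.typeA T)).Nonempty) ∧ (Cfsg.tildeOf S (Cfsg.typeA1 S) ∩ Cfsg.tildeOf T (Cfsg.typeA T) = ∅ ∨ Cfsg.tildeOf T (Cfsg.typeA1 T) ∩ Cfsg.tildeOf S (Cfsg.typeA S) = ∅) := by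
  have hnc' : ∀ g : G, T ≠ cj g S := not_conj_symm fun g h => hnc g h.symm
  obtain ⟨h1, h2, h3, h4⟩ := FT_Dade_support_disjoint hG hS hT hnc'
  simp only [mmax_supports_iff hG hS, mmax_typeA_eq hG hS, mmax_typeA_eq hG hT]
  refine ⟨h1, h2, ?_, ?_⟩
  · rw [← Set.not_disjoint_iff_nonempty_inter]
    exact h3
  · simpa only [Set.disjoint_iff_inter_eq_empty] using h4

end Cfsg.Agent.S1539
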