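import Cfsg.Statements.S1542
import Cfsg.Agent.FT.PF12_6
import Cfsg.Agent.FT.TypeF
import Cfsg.Agent.FT.Fcore
import Cfsg.Agent.FT.Mmax

set_option autoImplicit false
open Cfsg

namespace Cfsg.Agent.S1542

/-- Let G be a minimal simple group of odd order and L a maximal subgroup of Type I in which every non-identity element of H = L_F has its centraliser within L inside H. Let S be the set of functions on L induced from non-principal irreducible characters of H. Then every member of S is an irreducible character of L, and (S, L minus 1, τ) is coherent for τ the Dade map relative to A(L), L and a ↦ R(a). -/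
theorem result {G : Type*} [Group G] [Fintype G] (hG : Cfsg.IsMinSimpleOddOrder G) (L : Subgroup G) [Fintype L] (hL : IsCoatom L) (hI : Cfsg.IsOfTypeI L) (hfrob : ∀ x ∈ Cfsg.fittingHallOf L, x ≠ 1 → L ⊓ Subgroup.centralizer ({x} : Set G) ≤ Cfsg.fittingHallOf L) : (∀ χ ∈ Cfsg.inducedIrrAbove (Cfsg.fittingHall L) ⊥, Cfsg.IsIrrCharacter L χ) ∧ Cfsg.IsCoherent (Cfsg.inducedIrrAbove (Cfsg.fittingHall L) ⊥) {1}ᶜ (Cfsg.dadeIsometry (Cfsg.typeA L) L (Cfsg.supportR L)) := by
  obtain rfl := Subsingleton.elim ‹Fintype L› (FT.instFintypeSub L)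
  letI : Fintype L := FT.instFintypeSub L
  have hI' := FT.isOfTypeI'_of_isOfTypeI hI
  obtain ⟨E, hE, -⟩ := id hI'
  have hF : FT.IsFrob L (fittingHallOf L) E := by
    refine ⟨hE.sdprod, hE.ker_ne_bot, hE.compl_ne_bot, fun x hx hx1 => ?_⟩
    rw [eq_bot_iff]
    rintro y ⟨hy, hyx⟩
    by_contra hy1
    have h1 : x ∈ fittingHallOf L :=
      hfrob y hy hy1 ⟨hE.sdprod.le_right hx, FT.mem_cent_elt_comm.1 hyx⟩
    exact hx1 (Subgroup.mem_bot.1 (hE.sdprod.inf_eq.le ⟨h1, hx⟩))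
  have hS : inducedIrrAbove (fittingHall L) ⊥ =
      FT.seqIndD (fittingHallOf L) L (fittingHallOf L) ⊥ := by
    rw [← FT.seqInd_eq_seqIndD (FT.Fcore_sub L), FT.seqInd_bot, FT.Fcore_subgroupOf]
  rw [hS]
  refine ⟨fun χ hχ => hF.seqIndD_irr hχ, FT.isCoherent_iff.2 ⟨?_, ?_⟩⟩
  · obtain ⟨φ, hφ, -⟩ := FT.FTtype1_ref_irr hG hL
    have hirr := hF.seqIndD_irr hφ
    obtain ⟨θ, hθ, hk, -, rfl⟩ := FT.mem_seqIndD.1 hφ
    have hφ' : conjFun (FT.ind (fittingHallOf L) L θ) ∈
        FT.seqIndD (fittingHallOf L) L (fittingHallOf L) ⊥ := by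
      refine FT.mem_seqIndD.2 ⟨conjFun θ, hθ.conjFun, fun h => hk ?_, FT.InKer.bot _,
        (FT.ind_conjFun θ).symm⟩
      simpa only [FT.conjFun_conjFun] using h.conjFun
    refine ⟨_ - conjFun _, FT.mem_zspanOn_one.2 ⟨Submodule.sub_mem _ (Submodule.subset_span hφ)
      (Submodule.subset_span hφ'), ?_⟩, fun h => ?_⟩
    · obtain ⟨n, hn⟩ := hirr.isCharacter.exists_apply_one_eq
      simp [conjFun, hn]
    · have h1 := (FT.conjFun_eq_self_iff (FT.mFT_odd hG L) hirr).1 (sub_eq_zero.1 h).symm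
      refine hk ((FT.inKer_ind_iff (FT.Fcore_sub L) (FT.Fcore_normal L).2 le_rfl
        (FT.Fcore_normal L).2 hθ.isCharacter).1 ?_)
      rw [h1]
      exact fun _ _ => rfl
  · have h1 := FT.FT_Frobenius_coherence hG hL hF
    rw [← FT.FTDade_Frobenius hG hL hF, FT.FTDade, FT.typeA'_eq_typeA (iff_of_true hI' hI)] at h1
    exact h1

end Cfsg.Agent.S1542
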