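import Mathlib
import Cfsg.Agent.Spor.MB.Fam
import Cfsg.Statements.S1551
-- import your own Cfsg.Agent.* helpers here

set_option autoImplicit false
open scoped Pointwise
open Cfsg

namespace Cfsg.Agent.S1551

open Cfsg.Agent.Spor Cfsg.Agent.Spor.MB MulAction

/-- The subgroup fixing every member of a family. -/
def K (S : Finset (Finset GolayPt)) : Subgroup PG where
  carrier := {g | g ∈ M24 ∧ ∀ t ∈ S, g • t = t}
  one_mem' := ⟨M24.one_mem, fun _ _ => one_smul _ _⟩
  mul_mem' := fun {a b} ha hb => ⟨M24.mul_mem ha.1 hb.1, fun m hm => by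
    rw [mul_smul, hb.2 m hm, ha.2 m hm]⟩
  inv_mem' := fun {a} ha => ⟨M24.inv_mem ha.1, fun m hm => by
    rw [inv_smul_eq_iff, ha.2 m hm]⟩

theorem mem_K {S : Finset (Finset GolayPt)} (g : PG) :
    g ∈ K S ↔ g ∈ M24 ⊓ stabilizer PG S ∧ ∀ t ∈ S, g • t = t := by
  refine ⟨fun h => ⟨⟨h.1, ?_⟩, h.2⟩, fun h => ⟨h.1.1, h.2⟩⟩
  apply Finset.eq_of_subset_of_card_le _ (by rw [Finset.card_smul_finset])
  intro t ht
  obtain ⟨u, hu, rfl⟩ := Finset.mem_smul_finset.1 ht
  rwa [h.2 u hu]

theorem conj_mem_K {k : PG} (hk : k ∈ M24) (S : Finset (Finset GolayPt)) (g : PG) :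
    k * g * k⁻¹ ∈ K (k • S) ↔ g ∈ K S := by
  change _ ∧ _ ↔ _ ∧ _
  rw [conj_mem_M24_iff hk]
  refine and_congr_right fun _ => ⟨fun h x hx => ?_, fun h x hx => ?_⟩
  · exact (conj_smul_smul_iff k g x x).1 (h _ (Finset.smul_mem_smul_finset hx))
  · obtain ⟨y, hy, rfl⟩ := Finset.mem_smul_finset.1 hx
    exact conj_smul_smul k (h y hy)

theorem K_S0 : K S0 = Stab S0L := by
  ext g
  refine and_congr_right fun _ => ⟨fun h m hm => h _ (mem_fam.2 ⟨m, hm, rfl⟩), fun h t ht => ?_⟩
  obtain ⟨m, hm, rfl⟩ := mem_fam.1 ht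
  exact h m hm

theorem card_K_le : Nat.card (K S0) ≤ 192 := by
  have h := bsgs_mul_le setD (H := M24 ⊓ stabilizer PG S0) (gs := [28811451414489970408483097541773367, 28977845477541315579535200080725079, 5580813446559461684551993361336034, 979170901412062631670493143800154113, 278603353555586762455490126007031027])
    (gens_stabFam (by decide +kernel)) [(8388615, 7, 0x4003125), (4268048, 6, 0x302014), (147496, 3, 0x123), (2621632, 2, 0x12), (1082880, 1, 0x1)] 720 (by decide +kernel)
  rw [card_stab_sextet S0_mem] at h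
  refine le_trans (Subgroup.card_le_of_le ?_) (Nat.le_of_mul_le_mul_left (c := 720) h (by norm_num))
  intro g hg
  refine ⟨((mem_K g).1 hg).1, fun m hm => ?_⟩
  rw [K_S0] at hg
  exact hg.2 m (by revert m; decide)

/-- Generators of the normal subgroup of order 64. -/
def gN : List ℕ := [972512676110088067912772961567868960, 976448692869377735270425038196672544, 984724508489452699215480746259449888, 973054518210042674313238929715267616, 6057601526503618116306465909212247, 62563919208128639077930020080091874]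

theorem gens_gN : Gens (K S0) gN := by rw [K_S0]; exact gens_Stab (by decide +kernel)

theorem enumN : Dod.EnumC (clo gN) (mkTs ptD [(0, 3, 0x565), (3, 3, 0x343), (4, 3, 0x121)] gN) :=
  enumC_clo ptD gens_gN _ 64 (by decide +kernel) (by decide +kernel)

theorem mem_N (g : PG) : g ∈ clo gN ↔ g ∈ K S0 ∧ g * g = 1 := by
  constructor
  · intro h
    refine ⟨gens_gN.clo_le h, ?_⟩
    have := enumN.forall (q := fun c => Nat.beq (mul c c) idc) (by decide +kernel) g h
    rwa [Nat.beq_eq, ← code_mul, ← eq_one_iff_code] at this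
  · rintro ⟨h1, h2⟩
    have e := bsgs_enumC ptD (H := K S0) (gs := [984202951082164080105044112956360736, 984235865005994746954145143334668320, 972512676110088067912772961567868960, 961438956620049001677386430328277024, 89140214924429980618495846134154976, 58708955334971165046248774589121250])
      (by rw [K_S0]; exact gens_Stab (by decide +kernel)) [(0, 3, 0x556), (1, 2, 0x55), (4, 3, 0x343), (3, 3, 0x121)] 192 (by decide +kernel) card_K_le
    have := e.forall (q := fun c => Bool.or (Bool.not (Nat.beq (mul c c) idc))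
      (siftOK ptD (mkTs ptD [(0, 3, 0x565), (3, 3, 0x343), (4, 3, 0x121)] gN) [0, 3, 4] c)) (by decide +kernel) g h1
    rw [← code_mul, h2, code_one, Nat.beq_refl, Bool.not_true, Bool.false_or] at this
    exact mem_of_siftOK ptD (gens_gN.clo.mkTs ptD _) this

theorem card_N : Nat.card (clo gN) = 64 := by rw [enumN.card]; decide +kernel

/-- Structure of a sextet stabiliser: it induces every permutation of the six tetrads, the subgroup fixing each tetrad setwise has order 192, and there is a normal subgroup of order 64 consisting of elements squaring to the identity. -/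
theorem result (S : Finset (Finset Cfsg.GolayPt)) (hS : S ∈ Cfsg.sextets) : (∀ e : Equiv.Perm ↥S, ∃ g ∈ MulAction.stabilizer Cfsg.M24 S, ∀ t : ↥S, (g : Equiv.Perm Cfsg.GolayPt) • (t : Finset Cfsg.GolayPt) = ((e t : ↥S) : Finset Cfsg.GolayPt)) ∧ Nat.card {g : ↥(MulAction.stabilizer Cfsg.M24 S) // ∀ t ∈ S, ((g : Cfsg.M24) : Equiv.Perm Cfsg.GolayPt) • t = t} = 192 ∧ ∃ N : Subgroup ↥(MulAction.stabilizer Cfsg.M24 S), N.Normal ∧ Nat.card N = 64 ∧ ∀ x ∈ N, x * x = 1 := by
  have hs : ∀ g ∈ M24 ⊓ stabilizer PG S, g • S = S := fun _ h => h.2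
  obtain ⟨k, hk, rfl⟩ := exists_smul_S0 hS
  have hsurj := resH_surjective hs mem_K (by
    rw [hS.1, card_stab_sextet hS, card_eq_of_conj k (conj_mem_K hk S0)]
    exact Nat.mul_le_mul_left 720 card_K_le)
  refine ⟨fun e => ?_, ?_, ?_⟩
  · obtain ⟨g, rfl⟩ := hsurj e
    exact ⟨⟨g, g.2.1⟩, g.2.2, fun _ => rfl⟩
  · have := card_eq_factorial_mul hs mem_K hsurj
    rw [hS.1, card_stab_sextet hS] at this
    rw [← eq_of_eq_mul (b := 192) this (by norm_num [Nat.factorial]) (by norm_num [Nat.factorial])]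
    exact Nat.card_congr ⟨fun g => ⟨g.1.1.1, g.1.1.2, g.2⟩,
      fun g => ⟨⟨⟨g.1, g.2.1⟩, ((mem_K _).1 g.2).1.2⟩, g.2.2⟩, fun _ => rfl, fun _ => rfl⟩
  · let N' : Subgroup PG := (clo gN).map (MulAut.conj k).toMonoidHom
    have hN : ∀ g, g ∈ N' ↔ g ∈ K (k • S0) ∧ g * g = 1 := by
      intro g
      obtain ⟨x, rfl⟩ : ∃ x, g = k * x * k⁻¹ := ⟨k⁻¹ * g * k, by group⟩
      rw [conj_mem_K hk, conj_mul, conj_eq_one_iff, ← mem_N]
      exact Subgroup.mem_map_iff_mem (MulAut.conj k).injective
    let f : stabilizer M24 (k • S0) →* PG := M24.subtype.comp (stabilizer M24 (k • S0)).subtype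
    refine ⟨N'.comap f, ⟨fun n hn g => ?_⟩, ?_, fun x hx => ?_⟩
    · rw [Subgroup.mem_comap, hN] at hn ⊢
      rw [map_mul, map_mul, map_inv, conj_mul, conj_eq_one_iff]
      refine ⟨?_, hn.2⟩
      have := (conj_mem_K (k := f g) g.1.2 (k • S0) (f n)).2 hn.1
      rwa [show f g • k • S0 = k • S0 from g.2] at this
    · rw [← card_N, ← Subgroup.card_map_of_injective (K := clo gN) (f := (MulAut.conj k).toMonoidHom)
        (MulAut.conj k).injective]
      exact Nat.card_congr ⟨fun g => ⟨f g.1, g.2⟩, fun g => ⟨⟨⟨g.1, ((hN _).1 g.2).1.1⟩,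
        ((mem_K _).1 ((hN _).1 g.2).1).1.2⟩, g.2⟩, fun _ => rfl, fun _ => rfl⟩
    · exact Subtype.ext (Subtype.ext ((hN _).1 hx).2)

end Cfsg.Agent.S1551
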