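import Mathlib
import Cfsg.Agent.Spor.MB.Res
import Cfsg.Statements.S1554
-- import your own Cfsg.Agent.* helpers here

set_option autoImplicit false
open scoped Pointwise
open Cfsg

namespace Cfsg.Agent.S1554

open Cfsg.Agent.Spor Cfsg.Agent.Spor.MB MulAction

theorem fix_eq (o : Finset GolayPt) :
    M24 ⊓ fixingSubgroup PG (o : Set GolayPt) = Golay.Fix o := by
  ext g
  rw [Golay.mem_Fix, Subgroup.mem_inf, mem_fixingSubgroup_iff]
  rfl

/-- An octad stabiliser is a split extension: the joint stabiliser of the octad and a point outside it is a complement to the pointwise stabiliser of the octad, and is isomorphic to the alternating group of degree 8. -/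
theorem result (o : Finset Cfsg.GolayPt) (ho : o ∈ Cfsg.octads) (p : Cfsg.GolayPt) (hp : p ∉ o) : (Cfsg.M24 ⊓ fixingSubgroup (Equiv.Perm Cfsg.GolayPt) (o : Set Cfsg.GolayPt)) ⊓ (Cfsg.M24 ⊓ MulAction.stabilizer (Equiv.Perm Cfsg.GolayPt) o ⊓ MulAction.stabilizer (Equiv.Perm Cfsg.GolayPt) p) = ⊥ ∧ (Cfsg.M24 ⊓ fixingSubgroup (Equiv.Perm Cfsg.GolayPt) (o : Set Cfsg.GolayPt)) ⊔ (Cfsg.M24 ⊓ MulAction.stabilizer (Equiv.Perm Cfsg.GolayPt) o ⊓ MulAction.stabilizer (Equiv.Perm Cfsg.GolayPt) p) = (Cfsg.M24 ⊓ MulAction.stabilizer (Equiv.Perm Cfsg.GolayPt) o) ∧ Nonempty (↥(Cfsg.M24 ⊓ MulAction.stabilizer (Equiv.Perm Cfsg.GolayPt) o ⊓ MulAction.stabilizer (Equiv.Perm Cfsg.GolayPt) p) ≃* alternatingGroup (Fin 8)) := by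
  rw [fix_eq]
  refine ⟨eq_bot_iff.2 fun g hg => eq_one_of_fix_octad ho hp hg.1 hg.2.2, le_antisymm
    (sup_le (fun g hg => ((mem_Fix_iff_stab g).1 hg).1) inf_le_left) fun g hg => ?_, ?_⟩
  · obtain ⟨e, he, h⟩ := exists_Fix_octad_map ho hp (q := g p)
      fun h => hp ((smul_mem_iff_of_smul_eq hg.2 p).1 h)
    have : g = e * (e⁻¹ * g) := by group
    rw [this]
    refine Subgroup.mul_mem_sup he ⟨Subgroup.mul_mem _ (Subgroup.inv_mem _
      ((mem_Fix_iff_stab e).1 he).1) hg, ?_⟩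
    change e⁻¹ (g p) = p
    rw [← h]; simp
  · have hK : ∀ g : PG, g ∈ (⊥ : Subgroup PG) ↔
        g ∈ M24 ⊓ stabilizer PG o ⊓ stabilizer PG p ∧ ∀ x ∈ o, g • x = x := fun g =>
      ⟨by rintro rfl; exact ⟨Subgroup.one_mem _, fun _ _ => rfl⟩,
        fun h => eq_one_of_fix_octad ho hp (Golay.mem_Fix.2 ⟨h.1.1.1, h.2⟩) h.1.2⟩
    have hs : ∀ g ∈ M24 ⊓ stabilizer PG o ⊓ stabilizer PG p, g • o = o := fun _ h => h.1.2
    have h1 := range_resH_eq_alternating hs hK (by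
      rw [ho.2, Subgroup.card_bot, card_stab_octad_notMem ho hp]; norm_num [Nat.factorial])
    have h2 : Function.Injective (resH _ o hs) := by
      rw [← MonoidHom.ker_eq_bot_iff, ← Subgroup.card_eq_one, card_ker_resH _ hK,
        Subgroup.card_bot]
    exact ⟨((MonoidHom.ofInjective h2).trans (MulEquiv.subgroupCongr h1)).trans
      (Finset.equivFinOfCardEq ho.2).altCongrHom⟩

end Cfsg.Agent.S1554
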