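import Mathlib
import Cfsg.Agent.Spor.MB.SmallOrb
import Cfsg.Statements.S1555
-- import your own Cfsg.Agent.* helpers here

set_option autoImplicit false
open scoped Pointwise
open Cfsg

namespace Cfsg.Agent.S1555

open Cfsg.Agent.Spor Cfsg.Agent.Spor.MB MulAction

theorem cnt (m : ℕ) (hm : m < 2 ^ 24) : {o' : Finset GolayPt | o' ∈ octads ∧ O0 ∩ o' = unmask m}.ncard
    = cntL (fun x => Nat.beq (Nat.land 8536111 x) m) octL 0 :=
  ncard_octads_filter _ _ fun s _ => by
    rw [← mask_injective.eq_iff, mask_inter, mask_unmask hm, mask_unmask (by norm_num), Nat.beq_eq]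

/-- Bottom row of the Leech triangle: an octad is met in a prescribed pair of its points by exactly 16 octads and in a prescribed 4-subset by exactly 4 octads. -/
theorem result (o : Finset Cfsg.GolayPt) (ho : o ∈ Cfsg.octads) (s : Finset Cfsg.GolayPt) (hs : s ⊆ o) : (s.card = 2 → {o' : Finset Cfsg.GolayPt | o' ∈ Cfsg.octads ∧ o ∩ o' = s}.ncard = 16) ∧ (s.card = 4 → {o' : Finset Cfsg.GolayPt | o' ∈ Cfsg.octads ∧ o ∩ o' = s}.ncard = 4) := by
  constructor
  · intro h
    obtain ⟨g, hg, rfl, rfl⟩ := exists_smul_sub_two ho hs h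
    rw [ncard_smul_eq g (A := {o' | o' ∈ octads ∧ O0 ∩ o' = unmask 8388609}) (by
      intro y
      simp only [Set.mem_ofPred_eq, smul_mem_octads_iff hg, smul_inter, smul_left_cancel_iff]),
      cnt _ (by norm_num)]
    decide +kernel
  · intro h
    obtain ⟨g, hg, rfl, rfl⟩ := exists_smul_sub_four ho hs h
    rw [ncard_smul_eq g (A := {o' | o' ∈ octads ∧ O0 ∩ o' = unmask 8388615}) (by
      intro y
      simp only [Set.mem_ofPred_eq, smul_mem_octads_iff hg, smul_inter, smul_left_cancel_iff]),
      cnt _ (by norm_num)]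
    decide +kernel

end Cfsg.Agent.S1555
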