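import Mathlib
import Cfsg.Agent.Spor.MB.Tab
import Cfsg.Agent.S1551
import Cfsg.Statements.S1558
-- import your own Cfsg.Agent.* helpers here

set_option autoImplicit false
open scoped Pointwise
open Cfsg

namespace Cfsg.Agent.S1558

open Cfsg.Agent.Spor Cfsg.Agent.Spor.MB MulAction

/-- The target group. -/
abbrev GT : Type := GL (Fin 3) (ZMod 2) × Equiv.Perm (Fin 3)

/-- Its action on vectors and on three letters. -/
@[reducible] def actT : MulAction GT ((Fin 3 → ZMod 2) ⊕ Fin 3) where
  smul g := Sum.map (g.1 : Matrix (Fin 3) (Fin 3) (ZMod 2)).mulVec g.2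
  one_smul x := by
    rcases x with v | i
    exacts [congrArg Sum.inl (Matrix.one_mulVec v), rfl]
  mul_smul a b x := by
    rcases x with v | i
    exacts [congrArg Sum.inl (Matrix.mulVec_mulVec v _ _).symm, rfl]

instance instDecEqT : DecidableEq ((Fin 3 → ZMod 2) ⊕ Fin 3)
  | .inl a, .inl b => decidable_of_iff (a = b) Sum.inl_injective.eq_iff.symm
  | .inr a, .inr b => decidable_of_iff (a = b) Sum.inr_injective.eq_iff.symm
  | .inl _, .inr _ => isFalse Sum.inl_ne_inr
  | .inr _, .inl _ => isFalse Sum.inr_ne_inl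

/-- Strong generators of the trio group. -/
def gs : List ℕ := [980224387687010295957922729495201824, 963721886883755259286232606933354528, 965128854020860192151391391390468128, 968708902336673183175954409307867168, 984724508489452699215480746259449888, 968815149237215509205433714562598944, 145569651535762300305700637921479200, 966160591150104812778440413725951040, 520758489152800397529074863682373972]

/-- The seven sextets refining the trio, and its three octads. -/
def P : List (List ℕ) := [[147496, 268544, 1082880, 2621632, 4268048, 8388615], [43, 297984, 1053440, 2162768, 4726912, 8536068], [38144, 147459, 589968, 1313280, 6299712, 8388652], [131085, 299520, 532560, 1051904, 6357120, 8405026], [16421, 35584, 1315840, 2105488, 4784192, 8519690], [7680, 131110, 1343744, 2695168, 4194512, 8405001], [16398, 73920, 263936, 1087488, 6815760, 8519713], [8536111], [6889680], [1351424]]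

/-- The action tables. -/
def tb : List (List ℕ) := [[0, 1, 2, 3, 4, 5, 6, 7, 8, 9], [0, 1, 2, 3, 4, 5, 6, 7, 8, 9], [0, 1, 2, 3, 4, 5, 6, 7, 8, 9], [0, 1, 2, 3, 4, 5, 6, 7, 9, 8], [0, 2, 1, 4, 3, 5, 6, 7, 8, 9], [0, 2, 1, 3, 4, 6, 5, 7, 9, 8], [3, 6, 2, 0, 4, 5, 1, 7, 8, 9], [0, 3, 4, 1, 2, 5, 6, 7, 9, 8], [4, 3, 0, 5, 2, 1, 6, 9, 7, 8]]

/-- The images of the generators. -/
def g' (x : ℕ) : GT := List.getD
   [(⟨!![1, 0, 0; 0, 1, 0; 0, 0, 1], !![1, 0, 0; 0, 1, 0; 0, 0, 1], by decide, by decide⟩,
      ⟨![0, 1, 2], ![0, 1, 2], by decide, by decide⟩),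
    (⟨!![1, 0, 0; 0, 1, 0; 0, 0, 1], !![1, 0, 0; 0, 1, 0; 0, 0, 1], by decide, by decide⟩,
      ⟨![0, 1, 2], ![0, 1, 2], by decide, by decide⟩),
    (⟨!![1, 0, 0; 0, 1, 0; 0, 0, 1], !![1, 0, 0; 0, 1, 0; 0, 0, 1], by decide, by decide⟩,
      ⟨![0, 1, 2], ![0, 1, 2], by decide, by decide⟩),
    (⟨!![1, 0, 0; 0, 1, 0; 0, 0, 1], !![1, 0, 0; 0, 1, 0; 0, 0, 1], by decide, by decide⟩,
      ⟨![0, 2, 1], ![0, 2, 1], by decide, by decide⟩),
    (⟨!![1, 1, 1; 0, 1, 0; 0, 0, 1], !![1, 1, 1; 0, 1, 0; 0, 0, 1], by decide, by decide⟩,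
      ⟨![0, 1, 2], ![0, 1, 2], by decide, by decide⟩),
    (⟨!![1, 1, 0; 0, 1, 0; 0, 0, 1], !![1, 1, 0; 0, 1, 0; 0, 0, 1], by decide, by decide⟩,
      ⟨![0, 2, 1], ![0, 2, 1], by decide, by decide⟩),
    (⟨!![0, 1, 1; 0, 1, 0; 1, 1, 0], !![0, 1, 1; 0, 1, 0; 1, 1, 0], by decide, by decide⟩,
      ⟨![0, 1, 2], ![0, 1, 2], by decide, by decide⟩),
    (⟨!![1, 0, 0; 0, 0, 1; 0, 1, 0], !![1, 0, 0; 0, 0, 1; 0, 1, 0], by decide, by decide⟩,
      ⟨![0, 2, 1], ![0, 2, 1], by decide, by decide⟩),
    (⟨!![1, 0, 0; 0, 0, 1; 1, 1, 1], !![1, 0, 0; 1, 1, 1; 0, 1, 0], by decide, by decide⟩,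
      ⟨![2, 0, 1], ![1, 2, 0], by decide, by decide⟩)] x 1

/-- The objects permuted. -/
def e' (i : ℕ) : (Fin 3 → ZMod 2) ⊕ Fin 3 :=
  if i < 7 then Sum.inl (bitVec 3 (i + 1)) else Sum.inr (Fin.ofNat 3 (i - 7))

theorem gens_gs : Gens (M24 ⊓ stabilizer PG T0) gs := gens_stabFam (by decide +kernel)

theorem c2 : 6 * Nat.card (StabF [[6889680], [8536111], [8536111, 6889680, 1351424]]) ≤ 64512 := by
  have h1 := stepF singM (Ls := [[8536111, 6889680, 1351424]]) (L := [8536111])
    [682887404995917522141814599111318675, 391494455128189388151194344053035498] (by decide +kernel)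
    (singM_R (by norm_num)) 3 3 0x201 (by decide +kernel)
  have h2 := stepF singM (Ls := [[8536111], [8536111, 6889680, 1351424]]) (L := [6889680])
    [227920576586676874734024962039307362, 146262292198873211108944670273079342] (by decide +kernel)
    (singM_R (by norm_num)) 2 1 0x1 (by decide +kernel)
  rw [StabF_single, card_stab_trio T0_mem] at h1
  omega

theorem c5 : Nat.card (StabF [[131085, 299520, 532560, 1051904, 6357120, 8405026], [43, 297984, 1053440, 2162768, 4726912, 8536068], [147496, 268544, 1082880, 2621632, 4268048, 8388615], [6889680], [8536111], [8536111, 6889680, 1351424]]) ≤ 64 := by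
  have h1 := stepF sexM (Ls := [[6889680], [8536111], [8536111, 6889680, 1351424]]) (L := [147496, 268544, 1082880, 2621632, 4268048, 8388615])
    [715901140345358065633673203449005125, 132580310696333872219029557438744305] (by decide +kernel)
    (sexM_R (by decide +kernel)) 7 10 0x2000221201 (by decide +kernel)
  have h2 := stepF sexM (Ls := [[147496, 268544, 1082880, 2621632, 4268048, 8388615], [6889680], [8536111], [8536111, 6889680, 1351424]]) (L := [43, 297984, 1053440, 2162768, 4726912, 8536068])
    [715902756263294785958625696843610275, 224822478784468201708625832844477891, 25325296430507599816877254114401345] (by decide +kernel)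
    (sexM_R (by decide +kernel)) 6 5 0x21312 (by decide +kernel)
  have h3 := stepF sexM (Ls := [[43, 297984, 1053440, 2162768, 4726912, 8536068], [147496, 268544, 1082880, 2621632, 4268048, 8388615], [6889680], [8536111], [8536111, 6889680, 1351424]]) (L := [131085, 299520, 532560, 1051904, 6357120, 8405026])
    [610957654620063647451999179135534243, 149454356877055389160350478675711534, 17749932357653478698694872142481122, 63098155598130777866857538834072290, 146180647972526089871221191042209233, 731004289817911406524264760273320037] (by decide +kernel)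
    (sexM_R (by decide +kernel)) 4 3 0x343 (by decide +kernel)
  have := c2
  omega

theorem sq5 : ∀ g ∈ StabF [[131085, 299520, 532560, 1051904, 6357120, 8405026], [43, 297984, 1053440, 2162768, 4726912, 8536068], [147496, 268544, 1082880, 2621632, 4268048, 8388615], [6889680], [8536111], [8536111, 6889680, 1351424]], g * g = 1 := by
  intro g hg
  have := (bsgs_enumC ptD (gs := [972512676110088067912772961567868960, 961365507626256404119956257276790816, 980224387687010295957922729495201824, 149454356877055389160350478675711534, 591298695146988358113678685722657955, 235869392631542504853964912371764689]) (gens_StabF (by decide +kernel))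
    [(0, 7, 0x4546454), (4, 7, 0x1213121)] 64 (by decide +kernel) c5).forall
    (q := fun c => Nat.beq (mul c c) idc) (by decide +kernel) g hg
  rwa [Nat.beq_eq, ← code_mul, ← eq_one_iff_code] at this

theorem exists_psi : ∃ ψ : ↥(M24 ⊓ stabilizer PG T0) →* GT, ∀ y, ψ y = 1 →
    (y : PG) ∈ StabF [[131085, 299520, 532560, 1051904, 6357120, 8405026], [43, 297984, 1053440, 2162768, 4726912, 8536068], [147496, 268544, 1082880, 2621632, 4268048, 8388615], [6889680], [8536111], [8536111, 6889680, 1351424]] := by
  let _ := actT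
  obtain ⟨ψ, -, h⟩ := exists_hom gens_gs (le_clo_of_bsgs ptD gens_gs
    [(0, 28, 0x8000007565791213121412131219), (2, 6, 0x756578), (1, 5, 0x75657), (3, 3, 0x565), (4, 15, 0x121312141213121)] 64512 (by decide +kernel) (card_stab_trio T0_mem).le)
    (tabs_fam gens_gs P 10 tb (by decide +kernel)) (by
      have : ∀ i < 10, ∀ j < 10, fam (P.getD i []) = fam (P.getD j []) → i = j := by
        decide +kernel
      exact fun i hi j hj => this i hi j hj) (e' := e') (g' := g') (by
      have : ∀ x < 9, ∀ i < 10, tabF tb x i < 10 ∧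
          Sum.map ((g' x).1 : Matrix (Fin 3) (Fin 3) (ZMod 2)).mulVec (g' x).2 (e' i) =
            e' (tabF tb x i) := by
        decide +kernel
      exact this) (by
      have : ∀ i < 10, ∀ j < 10, e' i = e' j → i = j := by decide +kernel
      exact fun i hi j hj => this i hi j hj) (by
      intro a _ ha
      refine Prod.ext (Units.ext (matrix_eq_one_of_mulVec fun j => ?_)) (Equiv.ext fun j => ?_)
      · have : ∀ j : Fin 3, ∃ i < 10, e' i = Sum.inl (Pi.single j 1) := by decide +kernel
        obtain ⟨i, hi, e⟩ := this j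
        have := ha i hi
        rw [e] at this
        exact Sum.inl_injective this
      · have : ∀ j : Fin 3, ∃ i < 10, e' i = Sum.inr j := by decide +kernel
        obtain ⟨i, hi, e⟩ := this j
        have := ha i hi
        rw [e] at this
        exact Sum.inr_injective this)
  refine ⟨ψ, fun y hy => ⟨y.2.1, ?_⟩⟩
  have h := (h y).1 hy
  simp only [List.forall_mem_cons, List.not_mem_nil, false_imp_iff, implies_true, and_true]
  exact ⟨h 3 (by norm_num), h 1 (by norm_num), h 0 (by norm_num), h 8 (by norm_num),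
    h 7 (by norm_num), y.2.2⟩

theorem card_GT : Nat.card GT = 1008 := by
  rw [Nat.card_prod, Matrix.card_GL_field, Nat.card_perm]
  simp [Fin.prod_univ_succ, Nat.factorial]

/-- Structure of a trio stabiliser: every permutation of the three octads is induced, and there is a normal subgroup of order 64 of elements squaring to the identity whose quotient is isomorphic to the product of GL(3, 2) with the symmetric group of degree 3. -/
theorem result (T : Finset (Finset Cfsg.GolayPt)) (hT : T ∈ Cfsg.trios) : (∀ e : Equiv.Perm ↥T, ∃ g ∈ MulAction.stabilizer Cfsg.M24 T, ∀ o : ↥T, (g : Equiv.Perm Cfsg.GolayPt) • (o : Finset Cfsg.GolayPt) = ((e o : ↥T) : Finset Cfsg.GolayPt)) ∧ ∃ (N : Subgroup ↥(MulAction.stabilizer Cfsg.M24 T)) (_ : N.Normal), Nat.card N = 64 ∧ (∀ x ∈ N, x * x = 1) ∧ Nonempty (↥(MulAction.stabilizer Cfsg.M24 T) ⧸ N ≃* GL (Fin 3) (ZMod 2) × Equiv.Perm (Fin 3)) := by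
  have hs : ∀ g ∈ M24 ⊓ stabilizer PG T, g • T = T := fun _ h => h.2
  obtain ⟨k, hk, rfl⟩ := exists_smul_T0 hT
  constructor
  · have hsurj := resH_surjective hs S1551.mem_K (by
      rw [hT.1, card_stab_trio hT, card_eq_of_conj k (S1551.conj_mem_K hk T0)]
      refine le_trans (Nat.mul_le_mul_left 6 (Subgroup.card_le_of_le fun g hg => ?_)) c2
      refine ⟨hg.1, ?_⟩
      simp only [List.forall_mem_cons, List.not_mem_nil, false_imp_iff, implies_true, and_true,
        smul_fam_single_iff]
      exact ⟨hg.2 _ (mem_fam.2 ⟨_, by simp, rfl⟩), hg.2 _ (mem_fam.2 ⟨_, by simp, rfl⟩),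
        ((S1551.mem_K g).1 hg).1.2⟩)
    intro e
    obtain ⟨g, rfl⟩ := hsurj e
    exact ⟨⟨g, g.2.1⟩, g.2.2, fun _ => rfl⟩
  · obtain ⟨ψ, hψ⟩ := exists_psi
    let φ : stabilizer M24 (k • T0) ≃* ↥(M24 ⊓ stabilizer PG T0) :=
      (equivOfM24 _ (M24 ⊓ stabilizer PG (k • T0)) inf_le_left
        fun x => ⟨fun h => ⟨x.2, h⟩, fun h => h.2⟩).trans (equivOfConj k fun x =>
          and_congr (conj_mem_M24_iff hk) (conj_smul_smul_iff k x T0 T0)).symm
    have h1 : Nat.card ψ.ker ≤ 64 := le_trans (Nat.card_le_card_of_injective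
      (fun y => (⟨y.1.1, hψ _ y.2⟩ : StabF _)) fun a b e =>
        Subtype.ext (Subtype.ext (Subtype.ext_iff.1 e :))) c5
    have h2 := ψ.ker.index_mul_card
    rw [Subgroup.index_ker, card_stab_trio T0_mem] at h2
    have h3 := Subgroup.card_le_card_group ψ.range
    rw [card_GT] at h3
    have h4 : Nat.card ψ.range = 1008 := by nlinarith
    have h5' : Function.Surjective ψ :=
      MonoidHom.range_eq_top.1 (Subgroup.eq_top_of_le_card _ (by rw [card_GT, h4]))
    have h5 : Function.Surjective (ψ.comp φ.toMonoidHom) := h5'.comp φ.surjective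
    refine ⟨(ψ.comp φ.toMonoidHom).ker, inferInstance, ?_, fun x hx => ?_,
      ⟨QuotientGroup.quotientKerEquivOfSurjective _ h5⟩⟩
    · have h6 := (ψ.comp φ.toMonoidHom).ker.index_mul_card
      rw [Subgroup.index_ker, MonoidHom.range_eq_top.2 h5, Subgroup.card_top, card_GT,
        card_stabilizer_M24, card_stab_trio hT] at h6
      exact eq_of_eq_mul (b := 64) h6.symm (by norm_num) (by norm_num)
    · apply φ.injective
      rw [map_mul, map_one]
      exact Subtype.ext (sq5 _ (hψ _ hx))

end Cfsg.Agent.S1558
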