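import Mathlib
import Cfsg.Agent.Spor.MB.OctOrb
import Cfsg.Statements.S1560
-- import your own Cfsg.Agent.* helpers here

set_option autoImplicit false
open scoped Pointwise
open Cfsg

namespace Cfsg.Agent.S1560

open Cfsg.Agent.Spor Cfsg.Agent.Spor.MB MulAction



/-- Intersection numbers of dodecads: a dodecad meets every other dodecad in 0, 4, 6 or 8 points, meeting 495 of them in 4 points, 1584 in 6 points and 495 in 8 points. -/
theorem result (d : Finset Cfsg.GolayPt) (hd : d ∈ Cfsg.dodecads) : (∀ d' ∈ Cfsg.dodecads, d' ≠ d → (d ∩ d').card = 0 ∨ (d ∩ d').card = 4 ∨ (d ∩ d').card = 6 ∨ (d ∩ d').card = 8) ∧ {d' : Finset Cfsg.GolayPt | d' ∈ Cfsg.dodecads ∧ (d ∩ d').card = 4}.ncard = 495 ∧ {d' : Finset Cfsg.GolayPt | d' ∈ Cfsg.dodecads ∧ (d ∩ d').card = 6}.ncard = 1584 ∧ {d' : Finset Cfsg.GolayPt | d' ∈ Cfsg.dodecads ∧ (d ∩ d').card = 8}.ncard = 495 := by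
  refine ⟨fun d' hd' hne => ?_, dodecad_inter_count hd 1, dodecad_inter_count hd 2,
    dodecad_inter_count hd 3⟩
  obtain ⟨i, hi⟩ := dodecad_inter_cases hd hd'
  fin_cases i
  · exact Or.inl hi
  · exact Or.inr (Or.inl hi)
  · exact Or.inr (Or.inr (Or.inl hi))
  · exact Or.inr (Or.inr (Or.inr hi))
  · exfalso
    apply hne
    have h12 : (d ∩ d').card = 12 := hi
    have e1 : d ∩ d' = d :=
      Finset.eq_of_subset_of_card_le Finset.inter_subset_left (by rw [h12, hd.2])
    have e2 : d ∩ d' = d' :=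
      Finset.eq_of_subset_of_card_le Finset.inter_subset_right (by rw [h12, hd'.2])
    rw [← e2, e1]

end Cfsg.Agent.S1560
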