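import Mathlib
import Cfsg.Agent.Spor.MB.SmallOrb
import Cfsg.Statements.S1562
-- import your own Cfsg.Agent.* helpers here

set_option autoImplicit false
open scoped Pointwise
open Cfsg

namespace Cfsg.Agent.S1562

open Cfsg.Agent.Spor Cfsg.Agent.Spor.MB MulAction

theorem disj_iff {s t : Finset GolayPt} : Disjoint s t ↔ (s ∩ t).card = 0 := by
  rw [Finset.card_eq_zero, Finset.disjoint_iff_inter_eq_empty]

/-- Orbits of a triad stabiliser on the triads disjoint from it: the 210 triads inside a common octad with it form one orbit and the remaining 1120 another. -/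
theorem result (T : Finset Cfsg.GolayPt) (hT : T.card = 3) : {U : Finset Cfsg.GolayPt | U.card = 3 ∧ Disjoint T U ∧ (∃ o ∈ Cfsg.octads, T ∪ U ⊆ o)}.ncard = 210 ∧ {U : Finset Cfsg.GolayPt | U.card = 3 ∧ Disjoint T U ∧ ¬ (∃ o ∈ Cfsg.octads, T ∪ U ⊆ o)}.ncard = 1120 ∧ ∀ U U' : Finset Cfsg.GolayPt, U.card = 3 → U'.card = 3 → Disjoint T U → Disjoint T U' → ((∃ o ∈ Cfsg.octads, T ∪ U ⊆ o) ↔ (∃ o ∈ Cfsg.octads, T ∪ U' ⊆ o)) → ∃ g : Equiv.Perm Cfsg.GolayPt, g ∈ Cfsg.M24 ∧ g • T = T ∧ g • U = U' := by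
  obtain ⟨g, hg, rfl⟩ := exists_smul_small (k := 3) (by norm_num) hT
  change {U : Finset GolayPt | U.card = 3 ∧ Disjoint (g • unmask 8388611) U ∧
      InOctad (g • unmask 8388611 ∪ U)}.ncard = 210 ∧
    {U : Finset GolayPt | U.card = 3 ∧ Disjoint (g • unmask 8388611) U ∧
      ¬ InOctad (g • unmask 8388611 ∪ U)}.ncard = 1120 ∧
    ∀ U U' : Finset GolayPt, U.card = 3 → U'.card = 3 → Disjoint (g • unmask 8388611) U →
      Disjoint (g • unmask 8388611) U' → (InOctad (g • unmask 8388611 ∪ U) ↔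
        InOctad (g • unmask 8388611 ∪ U')) → ∃ k : PG, k ∈ M24 ∧
          k • g • unmask 8388611 = g • unmask 8388611 ∧ k • U = U'
  refine ⟨?_, ?_, ?_⟩
  · rw [ncard_smul_eq g (A := {U : Finset GolayPt | U.card = 3 ∧ Disjoint (unmask 8388611) U ∧
      InOctad (unmask 8388611 ∪ U)}) (by
      intro y
      simp only [Set.mem_ofPred_eq, inOctad_smul_iff hg, smul_union, disjoint_smul_iff,
        Finset.card_smul_finset])]
    refine ncard_congr_iff (triad_orbits.1 2) fun y => and_congr_right fun _ => ?_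
    have := octInd_le (unmask 8388611 ∪ y)
    rw [disj_iff, ← octInd_eq_one]
    change _ ↔ _ = 1
    omega
  · rw [ncard_smul_eq g (A := {U : Finset GolayPt | U.card = 3 ∧ Disjoint (unmask 8388611) U ∧
      ¬ InOctad (unmask 8388611 ∪ U)}) (by
      intro y
      simp only [Set.mem_ofPred_eq, inOctad_smul_iff hg, smul_union, disjoint_smul_iff,
        Finset.card_smul_finset])]
    refine ncard_congr_iff (triad_orbits.1 4) fun y => and_congr_right fun _ => ?_
    rw [disj_iff, ← octInd_eq_zero]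
    change _ ↔ _ = 0
    omega
  · intro U U' h1 h2 h3 h4 h5
    obtain ⟨U, rfl⟩ := exists_eq_smul g U
    obtain ⟨U', rfl⟩ := exists_eq_smul g U'
    simp only [inOctad_smul_iff hg, smul_union, disjoint_smul_iff,
      Finset.card_smul_finset] at h1 h2 h3 h4 h5
    obtain ⟨k, e⟩ := triad_orbits.2.1 U h1 U' h2 (by
      rw [disj_iff.1 h3, disj_iff.1 h4, octInd_eq_iff.2 h5])
    exact ⟨_, conj_mem_M24 hg k.2.1, conj_smul_smul g k.2.2, conj_smul_smul g e⟩

end Cfsg.Agent.S1562
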