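import Mathlib
import Cfsg.Agent.Spor.MB.SmallOrb
import Cfsg.Statements.S1564
-- import your own Cfsg.Agent.* helpers here

set_option autoImplicit false
open scoped Pointwise
open Cfsg

namespace Cfsg.Agent.S1564

open Cfsg.Agent.Spor Cfsg.Agent.Spor.MB MulAction



/-- The stabiliser of a set of three points (setwise) is a maximal proper subgroup of the group of the length-24 code. -/
theorem result (s : Finset Cfsg.GolayPt) (hs : s.card = 3) : IsCoatom (MulAction.stabilizer Cfsg.M24 s) := by
  obtain ⟨g, hg, rfl⟩ := exists_smul_small (k := 3) (by norm_num) hs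
  refine isCoatom_stabilizer_smul ?_ (⟨g, hg⟩ : M24)
  exact isCoatom_of_partition (x := unmask 8388611)
    (orbit_M24_eq (T := {y : Finset GolayPt | y.card = 3})
      (fun g _ => (Finset.card_smul_finset g _).trans (by decide +kernel))
      fun _ => exists_smul_small (k := 3) (by norm_num))
    triad_orbits.1 (fun y hy y' hy' h => exists_stabilizer_M24
      (triad_orbits.2.1 y hy y' hy' h)) triad_orbits.2.2 (by decide) (ncard_card_eq 3)
    (by decide +kernel) (by decide +kernel)

end Cfsg.Agent.S1564
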