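import Mathlib
import Cfsg.Agent.Spor.MB.OctOrb
import Cfsg.Statements.S1565
-- import your own Cfsg.Agent.* helpers here

set_option autoImplicit false
open scoped Pointwise
open Cfsg

namespace Cfsg.Agent.S1565

open Cfsg.Agent.Spor Cfsg.Agent.Spor.MB MulAction



/-- The stabiliser of an octad is a maximal proper subgroup of the group of the length-24 code. -/
theorem result (o : Finset Cfsg.GolayPt) (ho : o ∈ Cfsg.octads) : IsCoatom (MulAction.stabilizer Cfsg.M24 o) := by
  obtain ⟨g, hg, rfl⟩ := exists_smul_O0 ho
  refine isCoatom_stabilizer_smul ?_ (⟨g, hg⟩ : M24)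
  exact isCoatom_of_partition
    (orbit_M24_eq (fun g hg => (smul_mem_octads_iff hg).2 O0_mem) fun _ => exists_smul_O0)
    octad_orbits_O0.1 (fun y hy y' hy' h => exists_stabilizer_M24
      (octad_orbits_O0.2.1 y hy y' hy' h)) octad_orbits_O0.2.2 (by decide) ncard_octads
    (by norm_num) (by decide)

end Cfsg.Agent.S1565
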