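import Mathlib
import Cfsg.Statements.S1567
import Cfsg.Agent.Spor.LeechGen

set_option autoImplicit false
open Cfsg

namespace Cfsg.Agent.S1567

/-- The rank-24 lattice is the additive subgroup generated by its 196560 minimal vectors. -/
theorem result : AddSubgroup.closure {x : Cfsg.GolayPt → ℤ | x ∈ Cfsg.leechLattice ∧ Cfsg.sqNorm x = 32} = Cfsg.leechLattice := by
  open Cfsg.Agent.Spor.Leech in
  apply le_antisymm ((AddSubgroup.closure_le _).2 fun x hx => hx.1)
  intro x hx
  have := eq_top_of_min (A := (AddSubgroup.closure {x : Cfsg.GolayPt → ℤ | x ∈ Cfsg.leechLattice ∧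
    Cfsg.sqNorm x = 32}).addSubgroupOf leechLattice) fun v hv =>
      AddSubgroup.subset_closure ⟨v.2, hv⟩
  exact (this ▸ AddSubgroup.mem_top (⟨x, hx⟩ : Λ) : (⟨x, hx⟩ : Λ) ∈ AddSubgroup.addSubgroupOf _ _)

end Cfsg.Agent.S1567
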