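import Mathlib
import Cfsg.Statements.S1568
import Cfsg.Agent.Spor.LeechCount

set_option autoImplicit false
open Cfsg

namespace Cfsg.Agent.S1568

/-- Shape census of the lattice vectors of sum of squares 48 (customary norm 6): the four families (2^12, 0^12), (±3^3, ±1^21), (±4, ±2^8, 0^15) and (±5, ±1^23) have 5275648, 8290304, 3108864 and 98304 members. -/
theorem result : {x : Cfsg.GolayPt → ℤ | x ∈ Cfsg.leechLattice ∧ Cfsg.sqNorm x = 48 ∧ ∀ i, x i = 0 ∨ x i = 2 ∨ x i = -2}.ncard = 5275648 ∧ {x : Cfsg.GolayPt → ℤ | x ∈ Cfsg.leechLattice ∧ Cfsg.sqNorm x = 48 ∧ ∃ i j k, i ≠ j ∧ j ≠ k ∧ i ≠ k ∧ |x i| = 3 ∧ |x j| = 3 ∧ |x k| = 3}.ncard = 8290304 ∧ {x : Cfsg.GolayPt → ℤ | x ∈ Cfsg.leechLattice ∧ Cfsg.sqNorm x = 48 ∧ ∃ i, |x i| = 4}.ncard = 3108864 ∧ {x : Cfsg.GolayPt → ℤ | x ∈ Cfsg.leechLattice ∧ Cfsg.sqNorm x = 48 ∧ ∃ i, |x i| = 5}.ncard = 98304 := by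
  open Cfsg.Agent.Spor.Leech in
  have h1 := ncard_leech_const {0, 2, -2} (by decide) 48
  have h2 := ncard_leech_const {1, -1, 3, -3} (by decide) 48
  have h3 := ncard_leech_const {0, 2, -2, 4, -4} (by decide) 48
  have h4 := ncard_leech_const {1, -1, 5, -5} (by decide) 48
  have k1 : wtSum (cntW {0, 2, -2} 2 0 0 48) + wtSum (cntW {0, 2, -2} 3 1 1 48) = 5275648 := by
    decide +kernel
  have k2 : wtSum (cntW {1, -1, 3, -3} 2 0 0 48) + wtSum (cntW {1, -1, 3, -3} 3 1 1 48) = 8290304 := by
    decide +kernel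
  have k3 : wtSum (cntW {0, 2, -2, 4, -4} 2 0 0 48) + wtSum (cntW {0, 2, -2, 4, -4} 3 1 1 48) =
      5275648 + 3108864 := by
    decide +kernel
  have k4 : wtSum (cntW {1, -1, 5, -5} 2 0 0 48) + wtSum (cntW {1, -1, 5, -5} 3 1 1 48) = 98304 := by
    decide +kernel
  rw [k1] at h1; rw [k2] at h2; rw [k3] at h3; rw [k4] at h4
  clear k1 k2 k3 k4
  have shape48 := @shape48
  simp only [Int.abs_eq_natAbs] at shape48 ⊢
  simp only [Finset.mem_insert, Finset.mem_singleton, Nat.cast_ofNat] at h1 h2 h3 h4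
  refine ⟨h1, ?_, ?_, ?_⟩
  · rw [← h2]; congr 1; ext x
    simp only [Set.mem_ofPred_eq, and_congr_right_iff]
    intro hx hn
    rcases shape48 hx hn with ⟨d, -, -, h⟩ | ⟨o, p, -, h8, hp, h4, h⟩ | ⟨c, p, -, h5, h⟩ | ⟨c, s, -, h3, h⟩
    · constructor
      · rintro ⟨i, j, k, -, -, -, a, -⟩; have := h i; split_ifs at this <;> omega
      · intro a; have := a none; have := h none; split_ifs at this <;> omega
    · constructor
      · rintro ⟨i, j, k, -, -, -, a, -⟩
        by_cases e : i = p
        · subst e; omega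
        · have := h i e; split_ifs at this <;> omega
      · intro a; have := a p; omega
    · constructor
      · rintro ⟨i, j, k, -, -, -, a, -⟩
        by_cases e : i = p
        · subst e; omega
        · have := h i e; omega
      · intro a; have := a p; omega
    · constructor
      · intro _ i; have := h i; split_ifs at this <;> omega
      · intro _
        obtain ⟨i, j, k, a, b, c, rfl⟩ := Finset.card_eq_three.1 h3
        exact ⟨i, j, k, a, c, b, by rw [h i]; simp, by rw [h j]; simp, by rw [h k]; simp⟩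
  · have hf : ∀ P : Vec → Prop, {x : Vec | x ∈ leechLattice ∧ sqNorm x = 48 ∧ P x}.Finite :=
      fun P => (finite_sqNorm_eq 48).subset fun x hx => hx.2.1
    have := Set.ncard_union_eq (s := {x : Vec | x ∈ leechLattice ∧ sqNorm x = 48 ∧
      ∀ i, x i = 0 ∨ x i = 2 ∨ x i = -2}) (t := {x : Vec | x ∈ leechLattice ∧ sqNorm x = 48 ∧
      ∃ i, ((x i).natAbs : ℤ) = 4}) (by
        rw [Set.disjoint_left]; rintro x ⟨-, -, a⟩ ⟨-, -, i, b⟩; have := a i; omega) (hf _) (hf _)
    rw [h1] at this
    refine Nat.add_left_cancel (this.symm.trans (Eq.trans ?_ h3))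
    congr 1; ext x
    simp only [Set.mem_ofPred_eq, Set.mem_union, ← and_or_left, and_congr_right_iff]
    intro hx hn
    constructor
    · rintro (a | ⟨i, a⟩) j
      · have := a j; omega
      · rcases shape48 hx hn with ⟨d, -, -, h⟩ | ⟨o, p, -, h8, hp, h4, h⟩ | ⟨c, p, hc, -⟩ | ⟨c, s, hc, -⟩
        · have := h j; split_ifs at this <;> omega
        · by_cases e : j = p
          · subst e; omega
          · have := h j e; split_ifs at this <;> omega
        · have := hc.odd i; omega
        · have := hc.odd i; omega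
    · intro a
      by_cases e : ∃ i, ((x i).natAbs : ℤ) = 4
      · exact Or.inr e
      · left; intro i; have := a i; have : ((x i).natAbs : ℤ) ≠ 4 := fun h => e ⟨i, h⟩; omega
  · rw [← h4]; congr 1; ext x
    simp only [Set.mem_ofPred_eq, and_congr_right_iff]
    intro hx hn
    rcases shape48 hx hn with ⟨d, hd, -⟩ | ⟨o, p, hd, -⟩ | ⟨c, p, -, h5, h⟩ | ⟨c, s, -, h3, h⟩
    · constructor
      · rintro ⟨i, a⟩; have := hd.even i; omega
      · intro a; have := a none; have := hd.even none; omega
    · constructor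
      · rintro ⟨i, a⟩; have := hd.even i; omega
      · intro a; have := a none; have := hd.even none; omega
    · constructor
      · intro _ i
        by_cases e : i = p
        · subst e; omega
        · have := h i e; omega
      · intro _; exact ⟨p, h5⟩
    · constructor
      · rintro ⟨i, a⟩; have := h i; split_ifs at this <;> omega
      · intro a
        obtain ⟨i, hi⟩ : s.Nonempty := Finset.card_pos.1 (by omega)
        have := h i; have := a i; simp only [hi, if_true] at *; omega

end Cfsg.Agent.S1568
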