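import Mathlib
import Cfsg.Statements.S1569
import Cfsg.Agent.Spor.LeechIndex

set_option autoImplicit false
open scoped Pointwise
open Cfsg

namespace Cfsg.Agent.S1569

/-- The cross through a lattice vector of customary norm 8 has exactly 48 members. -/
theorem result (x : Cfsg.GolayPt → ℤ) (hx : x ∈ Cfsg.leechLattice) (hxn : Cfsg.sqNorm x = 64) : (Cfsg.cross x).ncard = 48 := by
  open Cfsg.Agent.Spor.Leech in
  rw [← ncard_cross (x := ⟨x, hx⟩) hxn, cross, ← ncard_lattice]
  congr 1; ext y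
  simp only [Set.mem_ofPred_eq, hxn]
  refine and_congr_right fun _ => ⟨?_, ?_⟩
  · rintro ⟨z, hz, e⟩; exact ⟨⟨z, hz⟩, Subtype.ext e⟩
  · rintro ⟨z, e⟩; exact ⟨z, z.2, congrArg Subtype.val e⟩

end Cfsg.Agent.S1569
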