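import Mathlib
import Cfsg.Statements.S1579
import Cfsg.Agent.Spor.LeechTrans

set_option autoImplicit false
open Cfsg

namespace Cfsg.Agent.S1579

/-- The stabiliser of a vector of customary norm 6 is transitive on the 552 minimal vectors that complete it to a sum of two minimal vectors. -/
theorem result (u v v' : ↥Cfsg.leechLattice) (hu : Cfsg.sqNorm (u : Cfsg.GolayPt → ℤ) = 48) (hv : Cfsg.sqNorm (v : Cfsg.GolayPt → ℤ) = 32 ∧ Cfsg.sqNorm ((u - v) : Cfsg.GolayPt → ℤ) = 32) (hv' : Cfsg.sqNorm (v' : Cfsg.GolayPt → ℤ) = 32 ∧ Cfsg.sqNorm ((u - v') : Cfsg.GolayPt → ℤ) = 32) : ∃ g : ↥Cfsg.Co0, g • u = u ∧ g • v = v' := by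
  open Cfsg.Agent.Spor.Leech in
  have key : ∀ x : Λ, nm x = 32 → nm (u - x) = 32 → ip u x = 24 := by
    intro x h1 h2
    have h3 : nm u = 48 := hu
    rw [nm_sub] at h2; omega
  exact trans223 hu hv.1 (key v hv.1 hv.2) hu hv'.1 (key v' hv'.1 hv'.2)

end Cfsg.Agent.S1579
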