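import Mathlib
import Cfsg.Statements.S1580
import Cfsg.Agent.Spor.LC.Std

set_option autoImplicit false
open Cfsg

namespace Cfsg.Agent.S1580

/-- The McLaughlin configuration: for u of customary norm 6 and v minimal with u − v minimal, there are 275 further such summands x of customary inner product 2 with v, permuted transitively by the stabiliser of u and v. -/
theorem result (u v : ↥Cfsg.leechLattice) (hu : Cfsg.sqNorm (u : Cfsg.GolayPt → ℤ) = 48) (hv : Cfsg.sqNorm (v : Cfsg.GolayPt → ℤ) = 32 ∧ Cfsg.sqNorm ((u - v) : Cfsg.GolayPt → ℤ) = 32) : {x : ↥Cfsg.leechLattice | Cfsg.sqNorm (x : Cfsg.GolayPt → ℤ) = 32 ∧ Cfsg.sqNorm ((u - x) : Cfsg.GolayPt → ℤ) = 32 ∧ Cfsg.dotInt (v : Cfsg.GolayPt → ℤ) (x : Cfsg.GolayPt → ℤ) = 16}.ncard = 275 ∧ ∀ x ∈ {x : ↥Cfsg.leechLattice | Cfsg.sqNorm (x : Cfsg.GolayPt → ℤ) = 32 ∧ Cfsg.sqNorm ((u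 - x) : Cfsg.GolayPt → ℤ) = 32 ∧ Cfsg.dotInt (v : Cfsg.GolayPt → ℤ) (x : Cfsg.GolayPt → ℤ) = 16}, ∀ x' ∈ {x : ↥Cfsg.leechLattice | Cfsg.sqNorm (x : Cfsg.GolayPt → ℤ) = 32 ∧ Cfsg.sqNorm ((u - x) : Cfsg.GolayPt → ℤ) = 32 ∧ Cfsg.dotInt (v : Cfsg.GolayPt → ℤ) (x : Cfsg.GolayPt → ℤ) = 16}, ∃ g : ↥Cfsg.Co0, g • u = u ∧ g • v = v ∧ g • x = x' := by
  open Cfsg.Agent.Spor.Leech Cfsg.Agent.Spor.LC in
  have hu' : nm u = 48 := hu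
  have hv1 : nm v = 32 := hv.1
  have hv2 : nm (u - v) = 32 := hv.2
  have huv : ip u v = 24 := by rw [nm_sub] at hv2; omega
  have hS : {x : ↥Cfsg.leechLattice | Cfsg.sqNorm (x : Cfsg.GolayPt → ℤ) = 32 ∧ Cfsg.sqNorm ((u - x) : Cfsg.GolayPt → ℤ) = 32 ∧ Cfsg.dotInt (v : Cfsg.GolayPt → ℤ) (x : Cfsg.GolayPt → ℤ) = 16} = V2 u v 24 16 := by
    ext x
    show nm x = 32 ∧ nm (u - x) = 32 ∧ ip v x = 16 ↔ nm x = 32 ∧ ip u x = 24 ∧ ip v x = 16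
    rw [nm_sub]; omega
  rw [hS]
  refine ⟨?_, fun x hx x' hx' => ?_⟩
  · obtain ⟨g, rfl, rfl⟩ := std_UA hu' hv1 huv
    rw [ncard_V2_smul, ncard_275]
  · obtain ⟨g, hg, e⟩ := trans_of_std (std_UAX hu' hv1 huv hx) (std_UAX hu' hv1 huv hx')
    exact ⟨g, hg.1, hg.2, e⟩

end Cfsg.Agent.S1580
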