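import Mathlib
import Cfsg.Statements.S1581
import Cfsg.Agent.Spor.LC.Std

set_option autoImplicit false
open Cfsg

namespace Cfsg.Agent.S1581

/-- The McLaughlin group acts with rank 3 and subdegrees 1, 112, 162 on its 275 points: the point stabiliser has two orbits on the remaining points, distinguished by customary inner product 1 or 2 with the fixed point. -/
theorem result (u v x : ↥Cfsg.leechLattice) (hu : Cfsg.sqNorm (u : Cfsg.GolayPt → ℤ) = 48) (hv : Cfsg.sqNorm (v : Cfsg.GolayPt → ℤ) = 32 ∧ Cfsg.sqNorm ((u - v) : Cfsg.GolayPt → ℤ) = 32) (hx : x ∈ {x : ↥Cfsg.leechLattice | Cfsg.sqNorm (x : Cfsg.GolayPt → ℤ) = 32 ∧ Cfsg.sqNorm ((u - x) : Cfsg.GolayPt → ℤ) = 32 ∧ Cfsg.dotInt (v : Cfsg.GolayPt → ℤ) (x : Cfsg.GolayPt → ℤ) = 16}) : {y : ↥Cfsg.leechLattice | y ∈ {x : ↥Cfsg.leechLattice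 | Cfsg.sqNorm (x : Cfsg.GolayPt → ℤ) = 32 ∧ Cfsg.sqNorm ((u - x) : Cfsg.GolayPt → ℤ) = 32 ∧ Cfsg.dotInt (v : Cfsg.GolayPt → ℤ) (x : Cfsg.GolayPt → ℤ) = 16} ∧ Cfsg.dotInt (x : Cfsg.GolayPt → ℤ) (y : Cfsg.GolayPt → ℤ) = 8}.ncard = 112 ∧ {y : ↥Cfsg.leechLattice | y ∈ {x : ↥Cfsg.leechLattice | Cfsg.sqNorm (x : Cfsg.GolayPt → ℤ) = 32 ∧ Cfsg.sqNorm ((u - x) : Cfsg.GolayPt → ℤ) = 32 ∧ Cfsg.dotInt (v : Cfsg.GolayPt → ℤ) (x : Cfsg.GolayPt → ℤ) = 16} ∧ y ≠ x ∧ Cfsg.dotInt (x : Cfsg.GolayPt → ℤ) (y : Cfsg.GolayPt → ℤ) = 16}.ncard = 162 ∧ ∀ y ∈ {x : ↥Cfsg.leechLattice | Cfsg.sqNorm (x : Cfsg.GolayPt → ℤ) = 32 ∧ Cfsg.sqNorm ((u - x) : Cfsg.GolayPt → ℤ) = 32 ∧ Cfsg.dotInt (v : Cfsg.GolayPt → ℤ) (x : Cfsg.GolayPt → ℤ) = 16}, ∀ y' ∈ {x : ↥Cfsg.leechLattice | Cfsg.sqNorm (x : Cfsg.GolayPt → ℤ) = 32 ∧ Cfsg.sqNorm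 ((u - x) : Cfsg.GolayPt → ℤ) = 32 ∧ Cfsg.dotInt (v : Cfsg.GolayPt → ℤ) (x : Cfsg.GolayPt → ℤ) = 16}, y ≠ x → y' ≠ x → Cfsg.dotInt (x : Cfsg.GolayPt → ℤ) (y : Cfsg.GolayPt → ℤ) = Cfsg.dotInt (x : Cfsg.GolayPt → ℤ) (y' : Cfsg.GolayPt → ℤ) → ∃ g : ↥Cfsg.Co0, g • u = u ∧ g • v = v ∧ g • x = x ∧ g • y = y' := by
  open Cfsg.Agent.Spor.Leech Cfsg.Agent.Spor.LC in
  have hu' : nm u = 48 := hu
  have hv1 : nm v = 32 := hv.1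
  have hv2 : nm (u - v) = 32 := hv.2
  have huv : ip u v = 24 := by rw [nm_sub] at hv2; omega
  have hS : {x : ↥Cfsg.leechLattice | Cfsg.sqNorm (x : Cfsg.GolayPt → ℤ) = 32 ∧ Cfsg.sqNorm ((u - x) : Cfsg.GolayPt → ℤ) = 32 ∧ Cfsg.dotInt (v : Cfsg.GolayPt → ℤ) (x : Cfsg.GolayPt → ℤ) = 16} = V2 u v 24 16 := by
    ext x
    show nm x = 32 ∧ nm (u - x) = 32 ∧ ip v x = 16 ↔ nm x = 32 ∧ ip u x = 24 ∧ ip v x = 16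
    rw [nm_sub]; omega
  rw [hS] at hx ⊢
  obtain ⟨g, rfl, rfl, rfl⟩ := std_UAX hu' hv1 huv hx
  refine ⟨?_, ?_, fun y hy y' hy' _ _ e => ?_⟩
  · rw [← ncard_112, ← ncard_V3_smul g]
    congr 1; ext y
    exact ⟨fun h => ⟨h.1.1, h.1.2.1, h.1.2.2, h.2⟩, fun h => ⟨⟨h.1, h.2.1, h.2.2.1⟩, h.2.2.2⟩⟩
  · rw [← ncard_162, ← ncard_V3_smul g]
    congr 1; ext y
    refine ⟨fun h => ⟨h.1.1, h.1.2.1, h.1.2.2, h.2.2⟩,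
      fun h => ⟨⟨h.1, h.2.1, h.2.2.1⟩, fun e => ?_, h.2.2.2⟩⟩
    have h1 := h.2.2.2
    have h2 := h.1
    rw [← e, ip_self] at h1; omega
  · have e' : ip (g • vX) y = ip (g • vX) y' := e
    obtain ⟨a, ha, e2⟩ := conj_trans3 g (trans24AX (inv_smul_mem_XU hy.1 hy.2.1)
      (inv_smul_mem_XU hy'.1 hy'.2.1) (by rw [← ip_smul_left, hy.2.2])
      (by rw [← ip_smul_left, hy'.2.2]) (by rw [← ip_smul_left, ← ip_smul_left, e']))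
    exact ⟨a, ha.1.1, ha.1.2, ha.2, e2⟩

end Cfsg.Agent.S1581
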