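import Mathlib
import Cfsg.Statements.S1582
import Cfsg.Agent.Spor.LC.U43

set_option autoImplicit false
open Cfsg

namespace Cfsg.Agent.S1582

/-- The point stabiliser in the rank-3 action of the McLaughlin group on 275 points is isomorphic to PSU(4, 3). -/
theorem result (u v x : ↥Cfsg.leechLattice) (hu : Cfsg.sqNorm (u : Cfsg.GolayPt → ℤ) = 48) (hv : Cfsg.sqNorm (v : Cfsg.GolayPt → ℤ) = 32 ∧ Cfsg.sqNorm ((u - v) : Cfsg.GolayPt → ℤ) = 32) (hx : x ∈ {x : ↥Cfsg.leechLattice | Cfsg.sqNorm (x : Cfsg.GolayPt → ℤ) = 32 ∧ Cfsg.sqNorm ((u - x) : Cfsg.GolayPt → ℤ) = 32 ∧ Cfsg.dotInt (v : Cfsg.GolayPt → ℤ) (x : Cfsg.GolayPt → ℤ) = 16}) (F : Type) [Field F] [Fintype F] (hF : Fintype.card F = 9) : Nonempty (↥(MulAction.stabilizer ↥Cfsg.Co0 u ⊓ MulAction.stabilizer ↥Cfsg.Co0 v ⊓ MulAction.stabilizer ↥Cfsg.Co0 x) ≃* Cfsg.PSU 4 F 3) := by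
  open Cfsg.Agent.Spor.Leech Cfsg.Agent.Spor.LC in
  have hu' : nm u = 48 := hu
  have hv1 : nm v = 32 := hv.1
  have hv2 : nm (u - v) = 32 := hv.2
  have huv : ip u v = 24 := by rw [nm_sub] at hv2; omega
  have hx1 : nm x = 32 := hx.1
  have hx2 : nm (u - x) = 32 := hx.2.1
  have hx' : x ∈ V2 u v 24 16 := ⟨hx1, by rw [nm_sub] at hx2; omega, hx.2.2⟩
  obtain ⟨g, rfl, rfl, rfl⟩ := std_UAX hu' hv1 huv hx'
  obtain ⟨e1⟩ := nonempty_St3_smul g vU vA vX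
  obtain ⟨e2⟩ := nonempty_U43 F hF
  exact ⟨e1.trans e2⟩

end Cfsg.Agent.S1582
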