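import Mathlib
import Cfsg.Statements.S1583
import Cfsg.Agent.Spor.LC.Std

set_option autoImplicit false
open Cfsg

namespace Cfsg.Agent.S1583

/-- The Higman–Sims configuration: for two vectors of customary norm 6 with inner product −4, exactly 100 minimal vectors have customary inner products 3 and −3 with them, and the joint stabiliser permutes these transitively. -/
theorem result (v w : ↥Cfsg.leechLattice) (hv : Cfsg.sqNorm (v : Cfsg.GolayPt → ℤ) = 48) (hw : Cfsg.sqNorm (w : Cfsg.GolayPt → ℤ) = 48) (hvw : Cfsg.dotInt (v : Cfsg.GolayPt → ℤ) (w : Cfsg.GolayPt → ℤ) = -32) : {x : ↥Cfsg.leechLattice | Cfsg.sqNorm (x : Cfsg.GolayPt → ℤ) = 32 ∧ Cfsg.dotInt (v : Cfsg.GolayPt → ℤ) (x : Cfsg.GolayPt → ℤ) = 24 ∧ Cfsg.dotInt (w : Cfsg.GolayPt → ℤ) (x : Cfsg.GolayPt → ℤ) = -24}.ncard = 100 ∧ ∀ x ∈ {x : ↥Cfsg.leechLattice | Cfsg.sqNorm (x : Cfsg.GolayPt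 → ℤ) = 32 ∧ Cfsg.dotInt (v : Cfsg.GolayPt → ℤ) (x : Cfsg.GolayPt → ℤ) = 24 ∧ Cfsg.dotInt (w : Cfsg.GolayPt → ℤ) (x : Cfsg.GolayPt → ℤ) = -24}, ∀ x' ∈ {x : ↥Cfsg.leechLattice | Cfsg.sqNorm (x : Cfsg.GolayPt → ℤ) = 32 ∧ Cfsg.dotInt (v : Cfsg.GolayPt → ℤ) (x : Cfsg.GolayPt → ℤ) = 24 ∧ Cfsg.dotInt (w : Cfsg.GolayPt → ℤ) (x : Cfsg.GolayPt → ℤ) = -24}, ∃ g : ↥Cfsg.Co0, g • v = v ∧ g • w = w ∧ g • x = x' := by
  open Cfsg.Agent.Spor.Leech Cfsg.Agent.Spor.LC in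
  have hv' : nm v = 48 := hv
  have hw' : nm w = 48 := hw
  have hvw' : ip v w = -32 := hvw
  have hb : nm (v + w) = 32 := by rw [nm_add]; omega
  have hvb : ip v (v + w) = 16 := by rw [ip_add_right, ip_self]; omega
  have hS : {x : ↥Cfsg.leechLattice | Cfsg.sqNorm (x : Cfsg.GolayPt → ℤ) = 32 ∧ Cfsg.dotInt (v : Cfsg.GolayPt → ℤ) (x : Cfsg.GolayPt → ℤ) = 24 ∧ Cfsg.dotInt (w : Cfsg.GolayPt → ℤ) (x : Cfsg.GolayPt → ℤ) = -24} = V2 v (v + w) 24 0 := by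
    ext x
    show nm x = 32 ∧ ip v x = 24 ∧ ip w x = -24 ↔ nm x = 32 ∧ ip v x = 24 ∧ ip (v + w) x = 0
    rw [ip_add_left]; omega
  have hfix : ∀ g : Cfsg.Co0, g • v = v → g • (v + w) = v + w → g • w = w := fun g h1 h2 => by
    rw [smul_add, h1] at h2; exact add_left_cancel h2
  rw [hS]
  refine ⟨?_, fun x hx x' hx' => ?_⟩
  · obtain ⟨g, e1, e2⟩ := std_UB hv' hb hvb
    rw [← e2, ← e1, ncard_V2_smul, ncard_100]
  · obtain ⟨g, hg, e⟩ := trans_of_std (std_UBA hv' hb hvb hx) (std_UBA hv' hb hvb hx')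
    exact ⟨g, hg.1, hfix g hg.1 hg.2, e⟩

end Cfsg.Agent.S1583
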