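import Mathlib
import Cfsg.Statements.S1584
import Cfsg.Agent.Spor.LC.Std

set_option autoImplicit false
open Cfsg

namespace Cfsg.Agent.S1584

/-- The Higman–Sims group acts with rank 3 and subdegrees 1, 22, 77 on its 100 points, the orbits of a point stabiliser being distinguished by customary inner product 1 with the fixed point. -/
theorem result (v w x : ↥Cfsg.leechLattice) (hv : Cfsg.sqNorm (v : Cfsg.GolayPt → ℤ) = 48) (hw : Cfsg.sqNorm (w : Cfsg.GolayPt → ℤ) = 48) (hvw : Cfsg.dotInt (v : Cfsg.GolayPt → ℤ) (w : Cfsg.GolayPt → ℤ) = -32) (hx : x ∈ {x : ↥Cfsg.leechLattice | Cfsg.sqNorm (x : Cfsg.GolayPt → ℤ) = 32 ∧ Cfsg.dotInt (v : Cfsg.GolayPt → ℤ) (x : Cfsg.GolayPt → ℤ) = 24 ∧ Cfsg.dotInt (w : Cfsg.GolayPt → ℤ) (x : Cfsg.GolayPt → ℤ) = -24}) : {y : ↥Cfsg.leechLattice | y ∈ {x : ↥Cfsg.leechLattice | Cfsg.sqNorm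 (x : Cfsg.GolayPt → ℤ) = 32 ∧ Cfsg.dotInt (v : Cfsg.GolayPt → ℤ) (x : Cfsg.GolayPt → ℤ) = 24 ∧ Cfsg.dotInt (w : Cfsg.GolayPt → ℤ) (x : Cfsg.GolayPt → ℤ) = -24} ∧ Cfsg.dotInt (x : Cfsg.GolayPt → ℤ) (y : Cfsg.GolayPt → ℤ) = 8}.ncard = 22 ∧ {y : ↥Cfsg.leechLattice | y ∈ {x : ↥Cfsg.leechLattice | Cfsg.sqNorm (x : Cfsg.GolayPt → ℤ) = 32 ∧ Cfsg.dotInt (v : Cfsg.GolayPt → ℤ) (x : Cfsg.GolayPt → ℤ) = 24 ∧ Cfsg.dotInt (w : Cfsg.GolayPt → ℤ) (x : Cfsg.GolayPt → ℤ) = -24} ∧ y ≠ x ∧ Cfsg.dotInt (x : Cfsg.GolayPt → ℤ) (y : Cfsg.GolayPt → ℤ) ≠ 8}.ncard = 77 ∧ ∀ y ∈ {x : ↥Cfsg.leechLattice | Cfsg.sqNorm (x : Cfsg.GolayPt → ℤ) = 32 ∧ Cfsg.dotInt (v : Cfsg.GolayPt → ℤ) (x : Cfsg.GolayPt → ℤ) = 24 ∧ Cfsg.dotInt (w : Cfsg.GolayPt → ℤ) (x : Cfsg.GolayPt → ℤ) = -24}, ∀ y' ∈ {x : ↥Cfsg.leechLattice | Cfsg.sqNorm (x : Cfsg.GolayPt → ℤ)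 = 32 ∧ Cfsg.dotInt (v : Cfsg.GolayPt → ℤ) (x : Cfsg.GolayPt → ℤ) = 24 ∧ Cfsg.dotInt (w : Cfsg.GolayPt → ℤ) (x : Cfsg.GolayPt → ℤ) = -24}, y ≠ x → y' ≠ x → (Cfsg.dotInt (x : Cfsg.GolayPt → ℤ) (y : Cfsg.GolayPt → ℤ) = 8 ↔ Cfsg.dotInt (x : Cfsg.GolayPt → ℤ) (y' : Cfsg.GolayPt → ℤ) = 8) → ∃ g : ↥Cfsg.Co0, g • v = v ∧ g • w = w ∧ g • x = x ∧ g • y = y' := by
  open Cfsg.Agent.Spor.Leech Cfsg.Agent.Spor.LC in
  have hv' : nm v = 48 := hv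
  have hw' : nm w = 48 := hw
  have hvw' : ip v w = -32 := hvw
  have hb : nm (v + w) = 32 := by rw [nm_add]; omega
  have hvb : ip v (v + w) = 16 := by rw [ip_add_right, ip_self]; omega
  have hS : {x : ↥Cfsg.leechLattice | Cfsg.sqNorm (x : Cfsg.GolayPt → ℤ) = 32 ∧ Cfsg.dotInt (v : Cfsg.GolayPt → ℤ) (x : Cfsg.GolayPt → ℤ) = 24 ∧ Cfsg.dotInt (w : Cfsg.GolayPt → ℤ) (x : Cfsg.GolayPt → ℤ) = -24} = V2 v (v + w) 24 0 := by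
    ext x
    show nm x = 32 ∧ ip v x = 24 ∧ ip w x = -24 ↔ nm x = 32 ∧ ip v x = 24 ∧ ip (v + w) x = 0
    rw [ip_add_left]; omega
  have hfix : ∀ g : Cfsg.Co0, g • v = v → g • (v + w) = v + w → g • w = w := fun g h1 h2 => by
    rw [smul_add, h1] at h2; exact add_left_cancel h2
  rw [hS] at hx ⊢
  have hc : ∀ y ∈ V2 v (v + w) 24 0, y ≠ x → ip x y ≠ 8 → ip x y = 16 := by
    intro y hy h1 h2
    rcases ip_cases24 hv' hx.1 hy.1 hx.2.1 hy.2.1 with h | h | h | h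
    · exact absurd h.symm h1
    · have h3 := hy.2.2
      have h4 := hx.2.2
      rw [h, ip_sub_right, ip_comm (v + w) v] at h3; omega
    · exact absurd h h2
    · exact h
  obtain ⟨g, e1, e2, e3⟩ := std_UBA hv' hb hvb hx
  refine ⟨?_, ?_, fun y hy y' hy' h1 h2 e => ?_⟩
  · refine Eq.trans ?_ ncard_22
    rw [← ncard_V3_smul g, e1, e2, e3]
    congr 1; ext y
    exact ⟨fun h => ⟨h.1.1, h.1.2.1, h.1.2.2, h.2⟩, fun h => ⟨⟨h.1, h.2.1, h.2.2.1⟩, h.2.2.2⟩⟩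
  · rw [← ncard_77, ← ncard_V3_smul g, e1, e2, e3]
    congr 1; ext y
    refine ⟨fun h => ⟨h.1.1, h.1.2.1, h.1.2.2, hc y h.1 h.2.1 h.2.2⟩,
      fun h => ⟨⟨h.1, h.2.1, h.2.2.1⟩, fun e => ?_, fun e => ?_⟩⟩
    · have h1 := h.2.2.2
      have h2 := h.1
      rw [← e, ip_self] at h1; omega
    · have h1 := h.2.2.2
      have e' : ip x y = 8 := e
      omega
  · have e' : ip x y = 8 ↔ ip x y' = 8 := e
    have e4 : ip x y = ip x y' := by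
      by_cases h : ip x y = 8
      · rw [h, e'.1 h]
      · rw [hc y hy h1 h, hc y' hy' h2 fun h' => h (e'.2 h')]
    obtain ⟨a, ha, e5⟩ := conj_trans3 g (trans24BA (x := g⁻¹ • y) (x' := g⁻¹ • y')
      (inv_smul_mem_XU hy.1 (by rw [e1, hy.2.1])) (inv_smul_mem_XU hy'.1 (by rw [e1, hy'.2.1]))
      (by rw [← ip_smul_left, e2, hy.2.2]) (by rw [← ip_smul_left, e2, hy'.2.2])
      (by rw [← ip_smul_left, ← ip_smul_left, e3, e4]))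
    rw [e1, e2, e3] at ha
    exact ⟨a, ha.1.1, hfix a ha.1.1 ha.2, ha.1.2, e5⟩

end Cfsg.Agent.S1584
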