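import Mathlib
import Cfsg.Statements.S1585
import Cfsg.Agent.Spor.LC.Std

set_option autoImplicit false
open Cfsg

namespace Cfsg.Agent.S1585

/-- Two vectors of customary norm 6 with inner product −4 are exchanged by some automorphism of the lattice. -/
theorem result (v w : ↥Cfsg.leechLattice) (hv : Cfsg.sqNorm (v : Cfsg.GolayPt → ℤ) = 48) (hw : Cfsg.sqNorm (w : Cfsg.GolayPt → ℤ) = 48) (hvw : Cfsg.dotInt (v : Cfsg.GolayPt → ℤ) (w : Cfsg.GolayPt → ℤ) = -32) : ∃ g : ↥Cfsg.Co0, g • v = w ∧ g • w = v := by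
  open Cfsg.Agent.Spor.Leech Cfsg.Agent.Spor.LC in
  have hv' : nm v = 48 := hv
  have hw' : nm w = 48 := hw
  have hvw' : ip v w = -32 := hvw
  have hb : nm (v + w) = 32 := by rw [nm_add]; omega
  have hvb : ip v (v + w) = 16 := by rw [ip_add_right, ip_self]; omega
  obtain ⟨g, e1, e2⟩ := std_UB hv' hb hvb
  have e3 : g • (vB - vU) = w := by rw [smul_sub, e1, e2]; abel
  have n1 : nm (vB - vU) = 48 := by rw [nm_sub, nm_vB, nm_vU, ip_comm, ip_vU_vB]; rfl
  have hs : matOK rSw = true := by decide +kernel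
  have s1 : el rSw • vU = vB - vU :=
    el_smul_eq hs (by rw [nm_vU]; norm_num) (by rw [n1]; norm_num) (by decide +kernel)
  have s2 : el rSw • (vB - vU) = vU :=
    el_smul_eq hs (by rw [n1]; norm_num) (by rw [nm_vU]; norm_num) (by decide +kernel)
  refine ⟨g * el rSw * g⁻¹, ?_, ?_⟩
  · show (g * el rSw * g⁻¹) • v = w
    rw [← e1, mul_smul, mul_smul, inv_smul_smul, s1, e3]
  · show (g * el rSw * g⁻¹) • w = v
    rw [← e3, mul_smul, mul_smul, inv_smul_smul, s2, e1]

end Cfsg.Agent.S1585
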