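import Mathlib
import Cfsg.Statements.S1587
import Cfsg.Agent.Spor.LeechFrame

set_option autoImplicit false
open Matrix
open Cfsg

namespace Cfsg.Agent.S1587

/-- First step of the characterisation of the rank-24 lattice: in an even lattice without roots, norm-8 vectors congruent modulo 2 are equal, opposite or orthogonal. -/
theorem result (B : Matrix (Fin 24) (Fin 24) ℤ) (hsymm : B.IsSymm) (hpos : ∀ x : Fin 24 → ℤ, x ≠ 0 → 0 < x ⬝ᵥ (B *ᵥ x)) (heven : ∀ x : Fin 24 → ℤ, (2 : ℤ) ∣ x ⬝ᵥ (B *ᵥ x)) (h2 : ∀ x : Fin 24 → ℤ, x ⬝ᵥ (B *ᵥ x) ≠ 2) (x y : Fin 24 → ℤ) (hx : x ⬝ᵥ (B *ᵥ x) = 8) (hy : y ⬝ᵥ (B *ᵥ y) = 8) (hc : ∀ i, (2 : ℤ) ∣ (x - y) i) : y = x ∨ y = -x ∨ x ⬝ᵥ (B *ᵥ y) = 0 := by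
  open Cfsg.Agent.Spor.Leech in
  obtain ⟨z, hz⟩ := (congr_iff_dvd x y).2 hc
  rcases (rootless_matForm hsymm hpos heven h2).short_congr (by rw [matForm_apply]; omega)
    (by rw [matForm_apply]; omega) hz with a | a | a
  · exact Or.inl a.symm
  · exact Or.inr (Or.inl (by rw [a, neg_neg]))
  · have := a.2.2; rw [matForm_apply] at this; exact Or.inr (Or.inr (by omega))

end Cfsg.Agent.S1587
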