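import Mathlib
import Cfsg.Agent.Spor.MB.Over
import Cfsg.Statements.S1589
-- import your own Cfsg.Agent.* helpers here

set_option autoImplicit false
open scoped Pointwise
open Cfsg

namespace Cfsg.Agent.S1589

open Cfsg.Agent.Spor Cfsg.Agent.Spor.MB MulAction

theorem card_map (H : Subgroup M24) {n m : ℕ} (h : H.index = n) (hn : 0 < n)
    (hm : 244823040 = n * m) : Nat.card (H.map M24.subtype) = m := by
  have := H.index_mul_card
  rw [card_M24, h] at this
  rw [Subgroup.card_map_of_injective M24.subtype_injective]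
  exact eq_of_eq_mul this.symm hm hn

theorem eq_stab {X : Type} [MulAction PG X] {H : Subgroup M24} {y : X}
    (h : ∀ g ∈ H.map M24.subtype, g • y = y)
    (hc : Nat.card ↥(M24 ⊓ stabilizer PG y) = Nat.card (H.map M24.subtype)) :
    H = stabilizer M24 y :=
  Subgroup.eq_of_le_of_card_ge (fun g hg => h _ ⟨g, hg, rfl⟩) (by
    rw [card_stabilizer_M24, hc, Subgroup.card_map_of_injective M24.subtype_injective])

theorem dvd_stab {X : Type} [MulAction PG X] {H : Subgroup PG} (hH : H ≤ M24) {y : X}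
    (h : ∀ g ∈ H, g • y = y) : Nat.card H ∣ Nat.card ↥(M24 ⊓ stabilizer PG y) :=
  Subgroup.card_dvd_of_le fun g hg => ⟨hH hg, h g hg⟩

theorem card_orbF_cases {K : Subgroup PG} (hK : K ≤ M24) (h7 : 7 ∣ Nat.card K)
    (h23 : ¬ 23 ∣ Nat.card K) {s : PG} (hs : s ∈ K) (ho : orderOf s = 11) {x : GolayPt}
    (hx : s x = x) : (orbF K x).card = 1 ∨ (orbF K x).card = 24 ∨
      ((orbF K x).card = 2 ∧ fixSet s ⊆ orbF K x) := by
  obtain ⟨t, ht, hot⟩ := exists_orderOf_eq (by norm_num) h7
  have h1 := card_modEq_fix (by norm_num) ho (smul_orbF x s hs)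
  have h2 := card_modEq_fix (by norm_num) hot (smul_orbF x t ht)
  have h3 := Finset.card_le_card (Finset.inter_subset_right (s₁ := orbF K x) (s₂ := fixSet s))
  have h4 := Finset.card_le_card (Finset.inter_subset_right (s₁ := orbF K x) (s₂ := fixSet t))
  have h5 : 0 < (orbF K x ∩ fixSet s).card := Finset.card_pos.2
    ⟨x, Finset.mem_inter.2 ⟨self_mem_orbF _ _, mem_fixSet.2 hx⟩⟩
  have h6 := card_le_24 (orbF K x)
  have h8 : (orbF K x).card ≠ 23 := fun e => h23 (e ▸ card_orbF_dvd K x)
  have h9 := card_fixSet_eleven (hK hs) ho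
  rw [card_fixSet_seven (hK ht) hot] at h4
  rw [Nat.ModEq] at h1 h2
  by_cases e : (orbF K x).card = 2
  · exact Or.inr (Or.inr ⟨e, Finset.inter_eq_right.1
      (Finset.eq_of_subset_of_card_le Finset.inter_subset_right (by omega))⟩)
  · omega

theorem exists_other {s : PG} (hs : s ∈ M24) (ho : orderOf s = 11) (x : GolayPt) :
    ∃ y, y ≠ x ∧ s y = y := by
  obtain ⟨y, hy, h⟩ := Finset.exists_mem_ne (s := fixSet s)
    (by rw [card_fixSet_eleven hs ho]; norm_num) x
  exact ⟨y, h, mem_fixSet.1 hy⟩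

theorem not_trans {H : Subgroup PG} (hH : H ≤ M24) (hc : Nat.card H = 887040) {x : GolayPt} :
    orbF H x ≠ Finset.univ := by
  intro h
  have h1 : ∀ u : GolayPt, Nat.card ↥(H ⊓ stabilizer PG u) = 36960 := fun u =>
    eq_of_eq_mul (hc.symm.trans (card_of_trans h u)) (by norm_num) (by norm_num)
  have h2 : ∀ u : GolayPt, ∃ v, v ≠ u ∧ H ⊓ stabilizer PG u = H ⊓ stabilizer PG v := by
    intro u
    obtain ⟨s, hs, ho⟩ := exists_orderOf_eq (K := H ⊓ stabilizer PG u) (p := 11) (by norm_num)
      (by rw [h1]; norm_num)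
    obtain ⟨v, hv, e⟩ := exists_other (hH hs.1) ho u
    have hu : u ∉ orbF (H ⊓ stabilizer PG u) v := fun h =>
      hv (eq_of_mem_orbF (K := H ⊓ stabilizer PG u) (fun g hg => hg.2) h)
    refine ⟨v, hv, Subgroup.eq_of_le_of_card_ge ?_ (by rw [h1, h1])⟩
    rcases card_orbF_cases (inf_le_left.trans hH) (by rw [h1]; norm_num) (by rw [h1]; norm_num)
      hs ho e with h3 | h3 | h3
    · exact fun g hg => ⟨hg.1, fix_of_card_orbF h3 g hg⟩
    · exact absurd (card_lt_24 hu) (by omega)
    · exact absurd (h3.2 (mem_fixSet.2 hs.2)) hu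
  obtain ⟨v, hv, e⟩ := h2 x
  obtain ⟨t, ht, hot⟩ := exists_orderOf_eq (K := H ⊓ stabilizer PG x) (p := 7) (by norm_num)
    (by rw [h1]; norm_num)
  obtain ⟨s, hs, ho⟩ := exists_orderOf_eq (K := H ⊓ stabilizer PG x) (p := 11) (by norm_num)
    (by rw [h1]; norm_num)
  have h3 := card_fixSet_seven (hH ht.1) hot
  obtain ⟨z, hz, hz'⟩ := Finset.exists_mem_notMem_of_card_lt_card (s := {x, v}) (t := fixSet t)
    (by rw [h3, Finset.card_pair hv.symm]; norm_num)
  obtain ⟨w, hw, e'⟩ := h2 z
  have hx : ∀ g ∈ H ⊓ stabilizer PG x, ∀ p ∈ ({x, v} : Finset _), p ∈ fixSet g := by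
    intro g hg p hp
    rcases Finset.mem_insert.1 hp with rfl | hp
    · exact mem_fixSet.2 hg.2
    · rw [Finset.mem_singleton.1 hp]; exact mem_fixSet.2 (e ▸ hg).2
  have h4 : insert z {x, v} = fixSet t := Finset.eq_of_subset_of_card_le
    (Finset.insert_subset hz (hx t ht)) (by
      rw [h3, Finset.card_insert_of_notMem hz', Finset.card_pair hv.symm])
  have h5' : t ∈ H ⊓ stabilizer PG w := by rw [← e']; exact ⟨ht.1, mem_fixSet.1 hz⟩
  have h5 : w ∈ fixSet t := mem_fixSet.2 h5'.2
  have h6 : s ∈ H ⊓ stabilizer PG z := by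
    rw [← h4, Finset.mem_insert, Finset.mem_insert, Finset.mem_singleton] at h5
    rcases h5 with rfl | rfl | rfl
    · exact absurd rfl hw
    · rwa [e']
    · rwa [e', ← e]
  have h7 := Finset.card_le_card (Finset.insert_subset (mem_fixSet.2 h6.2) (hx s hs))
  rw [card_fixSet_eleven (hH hs.1) ho, Finset.card_insert_of_notMem hz',
    Finset.card_pair hv.symm] at h7
  omega

theorem exists_duad {H : Subgroup PG} (hH : H ≤ M24) (hc : Nat.card H = 887040) :
    ∃ s : Finset GolayPt, s.card = 2 ∧ ∀ g ∈ H, g • s = s := by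
  obtain ⟨s, hs, ho⟩ := exists_orderOf_eq (K := H) (p := 11) (by norm_num) (by rw [hc]; norm_num)
  have key : ∀ x, s x = x → (∀ g ∈ H, g x = x) ∨ (orbF H x).card = 2 := by
    intro x hx
    rcases card_orbF_cases hH (by rw [hc]; norm_num) (by rw [hc]; norm_num) hs ho hx with h | h | h
    · exact Or.inl (fix_of_card_orbF h)
    · exact absurd (Finset.eq_univ_of_card _ (by rw [h, card_golayPt])) (not_trans hH hc)
    · exact Or.inr h.1
  by_cases h : ∃ x, (orbF H x).card = 2
  · obtain ⟨x, hx⟩ := h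
    exact ⟨_, hx, smul_orbF x⟩
  · exact ⟨fixSet s, card_fixSet_eleven (hH hs) ho, fun g hg => smul_eq_of_fix fun x hx =>
      (key x (mem_fixSet.1 hx)).resolve_right (fun e => h ⟨x, e⟩) g hg⟩

/-- Subgroups of the group of the length-24 code of index 759, 276 and 1771 are exactly the octad, duad and sextet stabilisers, and no subgroup has index 253. -/
theorem result : (∀ H : Subgroup ↥Cfsg.M24, H.index = 759 → ∃ o ∈ Cfsg.octads, H = MulAction.stabilizer Cfsg.M24 o) ∧ (∀ H : Subgroup ↥Cfsg.M24, H.index = 276 → ∃ s : Finset Cfsg.GolayPt, s.card = 2 ∧ H = MulAction.stabilizer Cfsg.M24 s) ∧ (∀ H : Subgroup ↥Cfsg.M24, H.index = 1771 → ∃ S ∈ Cfsg.sextets, H = MulAction.stabilizer Cfsg.M24 S) ∧ ∀ H : Subgroup ↥Cfsg.M24, H.index ≠ 253 := by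
  refine ⟨fun H h => ?_, fun H h => ?_, fun H h => ?_, fun H h => ?_⟩
  · have hc := card_map H h (by norm_num) (m := 322560) (by norm_num)
    rcases over_sylow_M24 (Subgroup.map_subtype_le H) (by rw [hc]; norm_num)
      (by rw [hc]; norm_num) (by rw [hc]; norm_num) with ⟨o, ho, e⟩ | ⟨S, hS, e⟩ | e
    · exact ⟨o, ho, eq_stab e (by rw [hc, card_stab_octad ho])⟩
    · have := dvd_stab (Subgroup.map_subtype_le H) e
      rw [hc, card_stab_sextet hS] at this
      exact absurd this (by norm_num)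
    · rw [hc] at e; omega
  · have hc := card_map H h (by norm_num) (m := 887040) (by norm_num)
    obtain ⟨s, hs, e⟩ := exists_duad (Subgroup.map_subtype_le H) hc
    refine ⟨s, hs, eq_stab e ?_⟩
    rw [hc]
    exact eq_of_eq_mul (card_stab_small (by norm_num) hs).symm (by decide) (by decide)
  · have hc := card_map H h (by norm_num) (m := 138240) (by norm_num)
    rcases over_sylow_M24 (Subgroup.map_subtype_le H) (by rw [hc]; norm_num)
      (by rw [hc]; norm_num) (by rw [hc]; norm_num) with ⟨o, ho, e⟩ | ⟨S, hS, e⟩ | e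
    · have := dvd_stab (Subgroup.map_subtype_le H) e
      rw [hc, card_stab_octad ho] at this
      exact absurd this (by norm_num)
    · exact ⟨S, hS, eq_stab e (by rw [hc, card_stab_sextet hS])⟩
    · rw [hc] at e; omega
  · have hc := card_map H h (by norm_num) (m := 967680) (by norm_num)
    rcases over_sylow_M24 (Subgroup.map_subtype_le H) (by rw [hc]; norm_num)
      (by rw [hc]; norm_num) (by rw [hc]; norm_num) with ⟨o, ho, e⟩ | ⟨S, hS, e⟩ | e
    · have := dvd_stab (Subgroup.map_subtype_le H) e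
      rw [hc, card_stab_octad ho] at this
      exact absurd this (by norm_num)
    · have := dvd_stab (Subgroup.map_subtype_le H) e
      rw [hc, card_stab_sextet hS] at this
      exact absurd this (by norm_num)
    · rw [hc] at e; omega

end Cfsg.Agent.S1589
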