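import Mathlib
import Cfsg.Statements.S1590
import Cfsg.Agent.Spor.Ternary
-- import your own Cfsg.Agent.* helpers here

set_option autoImplicit false
open Cfsg

namespace Cfsg.Agent.S1590

open Cfsg.Agent.Spor Cfsg.Agent.Spor.SC Cfsg.Agent.Spor.Tern Finset


/-- The length-12 ternary code has 729 words with weight distribution 0^1 6^264 9^440 12^24. -/
theorem result : Nat.card ↥Cfsg.ternaryGolayCode = 729 ∧ (∀ x ∈ Cfsg.ternaryGolayCode, x ≠ 0 → (Cfsg.ternarySupport x).card = 6 ∨ (Cfsg.ternarySupport x).card = 9 ∨ (Cfsg.ternarySupport x).card = 12) ∧ {x : Cfsg.ArrayPt → ZMod 3 | x ∈ Cfsg.ternaryGolayCode ∧ (Cfsg.ternarySupport x).card = 6}.ncard = 264 ∧ {x : Cfsg.ArrayPt → ZMod 3 | x ∈ Cfsg.ternaryGolayCode ∧ (Cfsg.ternarySupport x).card = 9}.ncard = 440 ∧ {x : Cfsg.ArrayPt → ZMod 3 | x ∈ Cfsg.ternaryGolayCode ∧ (Cfsg.ternarySupport x).card = 12}.ncard = 24 := by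
  refine ⟨?_, ?_, ?_, ?_, ?_⟩
  · have := ncard_code_filter (fun _ => True) (fun _ => true) (by simp)
    simp only [and_true, List.countP_true, List.length_range] at this
    rw [← this]
    exact Nat.card_coe_set_eq _
  · intro x hx h0
    obtain ⟨n, hn, rfl⟩ := exists_dg hx
    have h1 : (ternarySupport (enc (dg n))).card ≠ 0 := by
      rw [Ne, card_eq_zero, ternarySupport, filter_eq_empty_iff]
      exact fun h => h0 (funext fun p => not_not.1 (h (mem_univ p)))
    rw [card_support] at h1 ⊢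
    have := (allLt_iff _ _).1 (show allLt (fun n => elem (pc (sm n) 12) [0, 6, 9, 12]) 729 = true by
      decide +kernel) n hn
    rw [elem_iff] at this
    simpa [h1] using this
  · rw [ncard_weight]; decide +kernel
  · rw [ncard_weight]; decide +kernel
  · rw [ncard_weight]; decide +kernel

end Cfsg.Agent.S1590
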