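import Mathlib
import Cfsg.Statements.S1591
import Cfsg.Agent.Spor.Ternary
-- import your own Cfsg.Agent.* helpers here

set_option autoImplicit false
open Cfsg

namespace Cfsg.Agent.S1591

open Cfsg.Agent.Spor Cfsg.Agent.Spor.SC Cfsg.Agent.Spor.Tern Finset


/-- Any two words of the length-12 ternary code have dot product zero. -/
theorem result (x y : Cfsg.ArrayPt → ZMod 3) (hx : x ∈ Cfsg.ternaryGolayCode) (hy : y ∈ Cfsg.ternaryGolayCode) : ∑ p, x p * y p = 0 := by
  rw [eq_enc hx, eq_enc hy]
  have h : ∀ i j, ∑ p, bas i p * bas j p = 0 := by decide +kernel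
  simp only [enc, sum_mul_sum]
  rw [sum_comm]
  refine sum_eq_zero fun i _ => ?_
  rw [sum_comm]
  refine sum_eq_zero fun j _ => ?_
  rw [← mul_zero (x (info i) * y (info j)), ← h i j, mul_sum]
  exact sum_congr rfl fun p _ => by ring

end Cfsg.Agent.S1591
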