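import Mathlib
import Cfsg.Statements.S1595
import Cfsg.Agent.Spor.Steiner12
-- import your own Cfsg.Agent.* helpers here

set_option autoImplicit false
open Cfsg

namespace Cfsg.Agent.S1595

open Cfsg.Agent.Spor Cfsg.Agent.Spor.SC MulAction Finset


/-- Leech triangle of S(5, 6, 12): blocks meet in 0, 2, 3 or 4 points, and a block is met exactly in a given 2-, 3- or 4-subset by 3, 2, 3 blocks respectively. -/
theorem result {α : Type*} [Fintype α] [DecidableEq α] (hα : Fintype.card α = 12) {B : Set (Finset α)} (hB : Cfsg.IsSteinerSystem 5 6 B) (b : Finset α) (hb : b ∈ B) : (∀ c ∈ B, c ≠ b → (b ∩ c).card = 0 ∨ (b ∩ c).card = 2 ∨ (b ∩ c).card = 3 ∨ (b ∩ c).card = 4) ∧ ∀ s ⊆ b, (s.card = 2 → {c : Finset α | c ∈ B ∧ b ∩ c = s}.ncard = 3) ∧ (s.card = 3 → {c : Finset α | c ∈ B ∧ b ∩ c = s}.ncard = 2) ∧ (s.card = 4 → {c : Finset α | c ∈ B ∧ b ∩ c = s}.ncard = 3) := by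
  obtain ⟨e, hB', hb'⟩ := exists_labelling_block hα hB hb
  constructor
  · intro c hc hcb
    have h1 : c.image e ∈ fam 12 L12 := hB' ▸ (image_mem_tr e B c).2 hc
    obtain ⟨k, hk, hkc⟩ := h1
    have h2 : (b ∩ c).card = pc (Nat.land 63 k) 12 := by
      rw [← card_image_of_injective _ e.injective, image_inter _ _ e.injective, hb', ← hkc,
        ← ms_land, card_ms]
    have h3 : k ≠ 63 := by
      rintro rfl
      exact hcb (image_injective e.injective (hkc.symm.trans hb'.symm))
    rw [h2]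
    exact (show ∀ k ∈ L12, k ≠ 63 → pc (Nat.land 63 k) 12 = 0 ∨ pc (Nat.land 63 k) 12 = 2 ∨
      pc (Nat.land 63 k) 12 = 3 ∨ pc (Nat.land 63 k) 12 = 4 by decide +kernel) k hk h3
  · intro s hs
    obtain ⟨m, hm, hms⟩ := exists_ms (s.image e)
    have h1 : {c : Finset α | c ∈ B ∧ b ∩ c = s}.ncard =
        L12.countP (fun k => Nat.beq (Nat.land 63 k) m) := by
      rw [← ncard_fam_filter L12_nodup L12_lt (fun c => ms 12 63 ∩ c = ms 12 m),
        ← Set.ncard_image_of_injective _ (image_injective (f := e) e.injective)]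
      · congr 1
        ext c
        rw [← hB', ← hb', hms]
        constructor
        · rintro ⟨c, ⟨h1, h2⟩, rfl⟩
          exact ⟨(image_mem_tr e B c).2 h1, by rw [← image_inter _ _ e.injective, h2]⟩
        · rintro ⟨⟨c, h1, rfl⟩, h2⟩
          exact ⟨c, ⟨h1, image_injective e.injective (by
            rw [← h2, image_inter _ _ e.injective])⟩, rfl⟩
      · intro k hk
        rw [← ms_land, Nat.beq_eq]
        exact ⟨ms_inj (lt_of_le_of_lt Nat.and_le_left (by norm_num)) hm, fun h => by rw [h]⟩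
    have h2 : s.card = pc m 12 := by rw [← card_ms, hms, card_image_of_injective _ e.injective]
    have h3 : m < 64 := by
      have h4 : ms 12 (Nat.land 63 m) = ms 12 m := by
        rw [ms_land, hms, ← hb', inter_eq_right]
        exact image_subset_image hs
      rw [← ms_inj (lt_of_le_of_lt Nat.and_le_left (by norm_num)) hm h4]
      exact lt_of_le_of_lt Nat.and_le_left (by norm_num)
    rw [h1, h2]
    exact (show ∀ m < 64, (pc m 12 = 2 → L12.countP (fun k => Nat.beq (Nat.land 63 k) m) = 3) ∧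
      (pc m 12 = 3 → L12.countP (fun k => Nat.beq (Nat.land 63 k) m) = 2) ∧
      (pc m 12 = 4 → L12.countP (fun k => Nat.beq (Nat.land 63 k) m) = 3) by decide +kernel) m h3

end Cfsg.Agent.S1595
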