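import Mathlib
import Cfsg.Statements.S1597
import Cfsg.Agent.Spor.Quartet
-- import your own Cfsg.Agent.* helpers here

set_option autoImplicit false
open scoped Pointwise
open Cfsg

namespace Cfsg.Agent.S1597

open Cfsg.Agent.Spor Cfsg.Agent.Spor.MB Cfsg.Agent.Spor.Dod MulAction


/-- A dodecad has 220 quartets and its stabiliser is transitive on them. -/
theorem result (d : Finset Cfsg.GolayPt) (hd : d ∈ Cfsg.dodecads) : (Cfsg.quartets d).ncard = 220 ∧ ∀ Q ∈ Cfsg.quartets d, ∀ Q' ∈ Cfsg.quartets d, ∃ g : Equiv.Perm Cfsg.GolayPt, g ∈ Cfsg.M24 ∧ g • d = d ∧ g • Q = Q' := by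
  refine ⟨ncard_quartets hd, fun Q hQ Q' hQ' => ?_⟩
  obtain ⟨g, hg, h1, rfl⟩ := exists_smul_Q0 hd hQ
  obtain ⟨g', hg', h1', rfl⟩ := exists_smul_Q0 hd hQ'
  refine ⟨g' * g⁻¹, M24.mul_mem hg' (M24.inv_mem hg), ?_, by rw [mul_smul, inv_smul_smul]⟩
  rw [mul_smul, ← h1, inv_smul_smul, h1', h1]

end Cfsg.Agent.S1597
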