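import Mathlib
import Cfsg.Statements.S1598
import Cfsg.Agent.Spor.Quartet
-- import your own Cfsg.Agent.* helpers here

set_option autoImplicit false
open scoped Pointwise
open Cfsg

namespace Cfsg.Agent.S1598

open Cfsg.Agent.Spor Cfsg.Agent.Spor.MB Cfsg.Agent.Spor.Dod MulAction


/-- A quartet stabiliser inside the dodecad stabiliser has order 432, a normal subgroup of order 9 with quotient GL(2, 3), and is transitive on the dodecad. -/
theorem result (d : Finset Cfsg.GolayPt) (hd : d ∈ Cfsg.dodecads) (Q : Finset (Finset Cfsg.GolayPt)) (hQ : Q ∈ Cfsg.quartets d) : Nat.card ↥(MulAction.stabilizer Cfsg.M24 d ⊓ MulAction.stabilizer Cfsg.M24 Q) = 432 ∧ (∃ (N : Subgroup ↥(MulAction.stabilizer Cfsg.M24 d ⊓ MulAction.stabilizer Cfsg.M24 Q)) (_ : N.Normal), Nat.card N = 9 ∧ Nonempty (↥(MulAction.stabilizer Cfsg.M24 d ⊓ MulAction.stabilizer Cfsg.M24 Q) ⧸ N ≃* GL (Fin 2) (ZMod 3))) ∧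 ∀ p ∈ d, ∀ q ∈ d, ∃ g ∈ (MulAction.stabilizer Cfsg.M24 d ⊓ MulAction.stabilizer Cfsg.M24 Q), ((g : ↥Cfsg.M24) : Equiv.Perm Cfsg.GolayPt) p = q := by
  obtain ⟨g, hg, rfl, rfl⟩ := exists_smul_Q0 hd hQ
  have e := quartetEquiv hg
  refine ⟨(Nat.card_congr e.toEquiv).trans card_K0, ?_, ?_⟩
  · obtain ⟨φ, h1, h2⟩ := exists_hom_K0
    refine ⟨(φ.comp e.toMonoidHom).ker, inferInstance, ?_,
      ⟨QuotientGroup.quotientKerEquivOfSurjective _ (h1.comp e.surjective)⟩⟩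
    rw [← h2]
    exact Nat.card_congr (Equiv.subtypeEquiv e.toEquiv fun x => Iff.rfl)
  · intro p hp q hq
    obtain ⟨a, ha, h1⟩ := trans_K0 (g⁻¹ p) (Finset.inv_smul_mem_iff.2 hp)
    obtain ⟨b, hb, h2⟩ := trans_K0 (g⁻¹ q) (Finset.inv_smul_mem_iff.2 hq)
    refine ⟨_, ((quartetEquiv hg).symm ⟨b * a⁻¹, K0.mul_mem hb (K0.inv_mem ha)⟩).2, ?_⟩
    change g (b (a⁻¹ (g⁻¹ p))) = q
    rw [← h1]
    simp [h2]

end Cfsg.Agent.S1598
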