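import Mathlib
import Cfsg.Statements.S1599
import Cfsg.Agent.Spor.Quartet
-- import your own Cfsg.Agent.* helpers here

set_option autoImplicit false
open scoped Pointwise
open Cfsg

namespace Cfsg.Agent.S1599

open Cfsg.Agent.Spor Cfsg.Agent.Spor.MB Cfsg.Agent.Spor.Dod MulAction


/-- A quartet stabiliser has five orbits on the quartets of its dodecad, of sizes 1, 12, 27, 72, 108. -/
theorem result (d : Finset Cfsg.GolayPt) (hd : d ∈ Cfsg.dodecads) (Q : Finset (Finset Cfsg.GolayPt)) (hQ : Q ∈ Cfsg.quartets d) : ∃ X₁ ∈ Cfsg.quartets d, ∃ X₂ ∈ Cfsg.quartets d, ∃ X₃ ∈ Cfsg.quartets d, ∃ X₄ ∈ Cfsg.quartets d, (MulAction.orbit ↥(MulAction.stabilizer Cfsg.M24 d ⊓ MulAction.stabilizer Cfsg.M24 Q) X₁).ncard = 12 ∧ (MulAction.orbit ↥(MulAction.stabilizer Cfsg.M24 d ⊓ MulAction.stabilizer Cfsg.M24 Q) X₂).ncard = 27 ∧ (MulAction.orbit ↥(MulAction.stabilizer Cfsg.M24 d ⊓ MulAction.stabilizer Cfsg.M24 Q) X₃).ncard = 72 ∧ (MulAction.orbit ↥(MulAction.stabilizer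 Cfsg.M24 d ⊓ MulAction.stabilizer Cfsg.M24 Q) X₄).ncard = 108 ∧ Cfsg.quartets d = {Q} ∪ MulAction.orbit ↥(MulAction.stabilizer Cfsg.M24 d ⊓ MulAction.stabilizer Cfsg.M24 Q) X₁ ∪ MulAction.orbit ↥(MulAction.stabilizer Cfsg.M24 d ⊓ MulAction.stabilizer Cfsg.M24 Q) X₂ ∪ MulAction.orbit ↥(MulAction.stabilizer Cfsg.M24 d ⊓ MulAction.stabilizer Cfsg.M24 Q) X₃ ∪ MulAction.orbit ↥(MulAction.stabilizer Cfsg.M24 d ⊓ MulAction.stabilizer Cfsg.M24 Q) X₄ := by
  obtain ⟨g, hg, rfl, rfl⟩ := exists_smul_Q0 hd hQ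
  have m1 : fam [7, 336, 70144, 270344] ∈ quartets D0 := fam_mem_quartets (by decide +kernel)
  have m2 : fam [11, 4116, 8512, 328192] ∈ quartets D0 := fam_mem_quartets (by decide +kernel)
  have m3 : fam [11, 4864, 65616, 270340] ∈ quartets D0 := fam_mem_quartets (by decide +kernel)
  have m4 : fam [11, 580, 77824, 262416] ∈ quartets D0 := fam_mem_quartets (by decide +kernel)
  have c0 := ncard_orbit_K0 (l := [7, 4120, 8960, 327744]) (by decide) 1 (by decide +kernel)
  have c1 := ncard_orbit_K0 (l := [7, 336, 70144, 270344]) (by decide) 12 (by decide +kernel)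
  have c2 := ncard_orbit_K0 (l := [11, 4116, 8512, 328192]) (by decide) 27 (by decide +kernel)
  have c3 := ncard_orbit_K0 (l := [11, 4864, 65616, 270340]) (by decide) 72 (by decide +kernel)
  have c4 := ncard_orbit_K0 (l := [11, 580, 77824, 262416]) (by decide) 108 (by decide +kernel)
  have e0 : orbit K0 (fam [7, 4120, 8960, 327744]) = {Q0} := by
    obtain ⟨x, hx⟩ := Set.ncard_eq_one.1 c0
    have := mem_orbit_self (M := K0) (fam [7, 4120, 8960, 327744])
    rw [hx] at this ⊢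
    rw [← Set.mem_singleton_iff.1 this]
    rfl
  have hsub : ∀ X ∈ quartets D0, orbit K0 X ⊆ quartets D0 := by
    rintro X hX _ ⟨k, rfl⟩
    have := smul_mem_quartets (mem_K0.1 k.2).1 hX
    rwa [(mem_K0.1 k.2).2.1] at this
  have hdisj : ∀ {X Y : Finset (Finset GolayPt)} {m n : ℕ}, (orbit K0 X).ncard = m →
      (orbit K0 Y).ncard = n → m ≠ n → Disjoint (orbit K0 X) (orbit K0 Y) := by
    intro X Y m n h1 h2 h
    rw [Set.disjoint_left]
    intro Z hX hY
    rw [← orbit_eq_iff] at hX hY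
    exact h (by rw [← h1, ← h2, ← hX, hY])
  have key : quartets D0 = {Q0} ∪ orbit K0 (fam [7, 336, 70144, 270344]) ∪
      orbit K0 (fam [11, 4116, 8512, 328192]) ∪ orbit K0 (fam [11, 4864, 65616, 270340]) ∪
      orbit K0 (fam [11, 580, 77824, 262416]) := by
    rw [← e0]
    symm
    apply Set.eq_of_subset_of_ncard_le
    · simp only [Set.union_subset_iff]
      exact ⟨⟨⟨⟨hsub _ Q0_mem, hsub _ m1⟩, hsub _ m2⟩, hsub _ m3⟩, hsub _ m4⟩
    · rw [ncard_quartets Dod.D0_mem, Set.ncard_union_eq, Set.ncard_union_eq, Set.ncard_union_eq,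
        Set.ncard_union_eq, c0, c1, c2, c3, c4]
      · exact hdisj c0 c1 (by norm_num)
      · simp only [Set.disjoint_union_left]
        exact ⟨hdisj c0 c2 (by norm_num), hdisj c1 c2 (by norm_num)⟩
      · simp only [Set.disjoint_union_left]
        exact ⟨⟨hdisj c0 c3 (by norm_num), hdisj c1 c3 (by norm_num)⟩, hdisj c2 c3 (by norm_num)⟩
      · simp only [Set.disjoint_union_left]
        exact ⟨⟨⟨hdisj c0 c4 (by norm_num), hdisj c1 c4 (by norm_num)⟩, hdisj c2 c4 (by norm_num)⟩,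
          hdisj c3 c4 (by norm_num)⟩
    · exact Set.toFinite _
  have hn : ∀ S : Set (Finset (Finset GolayPt)), ((g • ·) '' S).ncard = S.ncard :=
    fun S => Set.ncard_image_of_injective _ (MulAction.injective g)
  refine ⟨_, smul_mem_quartets hg m1, _, smul_mem_quartets hg m2, _, smul_mem_quartets hg m3, _,
    smul_mem_quartets hg m4, ?_⟩
  simp only [orbit_quartetStab hg, hn]
  refine ⟨c1, c2, c3, c4, ?_⟩
  rw [← Set.image_singleton (f := (g • ·)), ← Set.image_union, ← Set.image_union, ← Set.image_union,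
    ← Set.image_union, ← key]
  ext Q
  constructor
  · intro hQ
    exact ⟨g⁻¹ • Q, by rwa [← smul_mem_quartets_iff hg, smul_inv_smul], smul_inv_smul g Q⟩
  · rintro ⟨Q, hQ, rfl⟩
    exact smul_mem_quartets hg hQ

end Cfsg.Agent.S1599
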