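import Mathlib
import Cfsg.Statements.S1600
import Cfsg.Agent.Spor.M12Mixed
-- import your own Cfsg.Agent.* helpers here

set_option autoImplicit false
open scoped Pointwise
open Cfsg

namespace Cfsg.Agent.S1600

open Cfsg.Agent.Spor Cfsg.Agent.Spor.MB Cfsg.Agent.Spor.Dod MulAction


/-- The pointwise stabiliser of three points of a dodecad inside the dodecad stabiliser (order 72) is transitive on the complementary dodecad. -/
theorem result (d : Finset Cfsg.GolayPt) (hd : d ∈ Cfsg.dodecads) (p q r : Cfsg.GolayPt) (hp : p ∈ d) (hq : q ∈ d) (hr : r ∈ d) (hpq : p ≠ q) (hpr : p ≠ r) (hqr : q ≠ r) : Nat.card ↥(MulAction.stabilizer Cfsg.M24 d ⊓ MulAction.stabilizer Cfsg.M24 p ⊓ MulAction.stabilizer Cfsg.M24 q ⊓ MulAction.stabilizer Cfsg.M24 r) = 72 ∧ ∀ x ∉ d, ∀ y ∉ d, ∃ g ∈ (MulAction.stabilizer Cfsg.M24 d ⊓ MulAction.stabilizer Cfsg.M24 p ⊓ MulAction.stabilizer Cfsg.M24 q ⊓ MulAction.stabilizer Cfsg.M24 r),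 ((g : ↥Cfsg.M24) : Equiv.Perm Cfsg.GolayPt) x = y := by
  constructor
  · rw [Nat.card_congr (conjEquiv _ (Fx d [r, q, p]) M24.one_mem (Fx_le _ _) (fun x => by
      rw [conj_mem_Fx M24.one_mem]
      simp [mem_stabilizer_M24, and_assoc]
      tauto)).toEquiv, card_Fx hd _ (by simp [hpq.symm, hpr.symm, hqr.symm]) (by simp [hp, hq, hr])
      (by simp)]
    rfl
  · intro x hx y hy
    obtain ⟨g, hg, h1, h2, h3, h4, h5⟩ := exists_fix_three_map hd hp hq hr hpq hpr hqr hx hy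
    exact ⟨⟨g, hg⟩, ⟨⟨⟨h1, h2⟩, h3⟩, h4⟩, h5⟩

end Cfsg.Agent.S1600
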