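import Mathlib
import Cfsg.Statements.S1602
import Cfsg.Agent.Spor.M12Mixed
-- import your own Cfsg.Agent.* helpers here

set_option autoImplicit false
open scoped Pointwise
open Cfsg

namespace Cfsg.Agent.S1602

open Cfsg.Agent.Spor Cfsg.Agent.Spor.MB Cfsg.Agent.Spor.Dod MulAction


/-- In the 12-point action of the smallest Mathieu group the setwise stabiliser of a pair is isomorphic to the symmetric group of degree 5. -/
theorem result (d : Finset Cfsg.GolayPt) (hd : d ∈ Cfsg.dodecads) (p q q' : Cfsg.GolayPt) (hp : p ∈ d) (hq : q ∉ d) (hq' : q' ∉ d) (hqq' : q ≠ q') : Nonempty (↥(MulAction.stabilizer Cfsg.M24 d ⊓ MulAction.stabilizer Cfsg.M24 p ⊓ MulAction.stabilizer Cfsg.M24 ({q, q'} : Finset Cfsg.GolayPt)) ≃* Equiv.Perm (Fin 5)) := by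
  obtain ⟨g, hg, rfl, rfl, rfl, rfl⟩ := exists_map_one_two Dod.D0_mem hd (a := pt 22) (b := pt 23)
    (x := pt 0) (pt_notMem_D0 (by decide)) (pt_notMem_D0 (by decide)) hq hq' (by decide +kernel) hqq'
    (pt_mem_D0 (by decide)) hp
  obtain ⟨o, ho, h6, hpo, hod⟩ : ∃ o ∈ octads, (o ∩ g • D0).card = 6 ∧ g (pt 0) ∈ o ∧
      o \ g • D0 = {g (pt 22), g (pt 23)} := by
    refine ⟨g • unmask 12656663, (smul_mem_octads_iff hg).2
      (unmask_mem_octads (by decide +kernel) (by decide +kernel)), ?_,
      Finset.smul_mem_smul_finset (a := g) (b := pt 0) (by decide +kernel), ?_⟩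
    · rw [← Finset.smul_finset_inter, Finset.card_smul_finset]
      decide +kernel
    · rw [← Finset.smul_finset_sdiff,
        show unmask 12656663 \ D0 = {pt 22, pt 23} by decide +kernel, Finset.smul_finset_insert,
        Finset.smul_finset_singleton]
      rfl
  generalize g • D0 = d at *
  generalize g (pt 0) = p at *
  generalize g (pt 22) = q at *
  generalize g (pt 23) = q' at *
  have hh : o ∩ d ∈ hexadsOn d := ⟨h6, o, ho, rfl⟩
  have hph : p ∈ o ∩ d := Finset.mem_inter.2 ⟨hpo, hp⟩
  have hiff : ∀ x : M24, (x : PG) • d = d → (x : PG) p = p →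
      ((x : PG) • ({q, q'} : Finset GolayPt) = {q, q'} ↔ (x : PG) • (o ∩ d) = o ∩ d) := by
    intro x h1 h2
    have h3 := (smul_mem_octads_iff x.2).2 ho
    constructor
    · intro h
      have : (x : PG) • o = o := by
        refine octad_eq_of_sdiff_eq hd h3 ho ?_ hp ?_ hpo
        · rw [hod, ← h, ← hod, Finset.smul_finset_sdiff, h1]
        · rw [← h2]
          exact Finset.smul_mem_smul_finset hpo
      rw [Finset.smul_finset_inter, this, h1]
    · intro h
      have : (x : PG) • o = o := by
        refine (octad_eq_of_inter_eq ho h3 h6 ?_).symm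
        rw [← h, Finset.smul_finset_inter, h1]
      rw [← hod, Finset.smul_finset_sdiff, this, h1]
  let f := resHom (M24.subtype.comp (Subgroup.subtype (stabilizer M24 d ⊓ stabilizer M24 p ⊓
    stabilizer M24 ({q, q'} : Finset GolayPt)))) ((o ∩ d).erase p) (fun x => by
      have h1 : ((x : M24) : PG) • (o ∩ d) = o ∩ d := (hiff x x.2.1.1 x.2.1.2).1 x.2.2
      have h2 : ((x : M24) : PG) • p = p := x.2.1.2
      change ((x : M24) : PG) • _ = _
      rw [Finset.erase_eq, Finset.smul_finset_sdiff, h1, Finset.smul_finset_singleton, h2])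
  have h5 : ((o ∩ d).erase p).card = 5 := by rw [Finset.card_erase_of_mem hph, h6]
  have hf : Function.Bijective f := by
    constructor
    · rw [injective_iff_map_eq_one]
      intro x hx
      apply Subtype.ext
      apply Subtype.ext
      refine eq_one_of_fix_five hd x.1.2 x.2.1.1
        ((Finset.erase_subset _ _).trans Finset.inter_subset_right) h5.ge ?_
      intro y hy
      exact congrArg Subtype.val (DFunLike.congr_fun hx ⟨y, hy⟩)
    · intro π
      obtain ⟨k, hk, h1, h2, h3⟩ := exists_extend_hexad hd hh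
        ((Equiv.Perm.ofSubtype π).subtypePerm (p := fun x => x ∈ o ∩ d) (fun x => by
          by_cases hx : x ∈ (o ∩ d).erase p
          · rw [Equiv.Perm.ofSubtype_apply_of_mem π hx]
            exact iff_of_true (Finset.mem_of_mem_erase (π ⟨x, hx⟩).2) (Finset.mem_of_mem_erase hx)
          · rw [Equiv.Perm.ofSubtype_apply_of_not_mem π hx]))
      have h4 : k p = p := by
        rw [h3 ⟨p, hph⟩]
        exact Equiv.Perm.ofSubtype_apply_of_not_mem π (Finset.notMem_erase _ _)
      refine ⟨⟨⟨k, hk⟩, ⟨h1, h4⟩, (hiff ⟨k, hk⟩ h1 h4).2 h2⟩, Equiv.ext fun x => Subtype.ext ?_⟩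
      exact (h3 ⟨x, Finset.mem_of_mem_erase x.2⟩).trans
        (Equiv.Perm.ofSubtype_apply_of_mem π x.2)
  exact ⟨(MulEquiv.ofBijective f hf).trans (Finset.equivFinOfCardEq h5).permCongrHom⟩

end Cfsg.Agent.S1602
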