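import Mathlib
import Cfsg.Agent.Spor.MB.PtOrb
import Cfsg.Statements.S1604
-- import your own Cfsg.Agent.* helpers here

set_option autoImplicit false
open scoped Pointwise
open Cfsg

namespace Cfsg.Agent.S1604

open Cfsg.Agent.Spor Cfsg.Agent.Spor.MB MulAction

theorem gens : Gens (Stab [8388608, 1, 8536111]) [967931424655933986447436979844453824, 972770560725098199013438601918841952] := gens_Stab (by decide +kernel)

theorem base :
    (∀ i, {y : Finset GolayPt | y ∈ {y : Finset GolayPt | y ∈ octads ∧ pt 23 ∈ y ∧ pt 0 ∈ y} ∧ (O0 ∩ y).card = ![8, 2, 4] i}.ncard = ![1, 16, 60] i) ∧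
    (∀ y ∈ {y : Finset GolayPt | y ∈ octads ∧ pt 23 ∈ y ∧ pt 0 ∈ y}, ∀ y' ∈ {y : Finset GolayPt | y ∈ octads ∧ pt 23 ∈ y ∧ pt 0 ∈ y}, (O0 ∩ y).card = (O0 ∩ y').card →
      ∃ h : ↥(Stab [8388608, 1, 8536111]), h • y = y') ∧
    ∀ y ∈ {y : Finset GolayPt | y ∈ octads ∧ pt 23 ∈ y ∧ pt 0 ∈ y}, ∃ i, (O0 ∩ y).card = ![8, 2, 4] i := by
  refine orbit_partition' (H := ↥(Stab [8388608, 1, 8536111])) (T := {y : Finset GolayPt | y ∈ octads ∧ pt 23 ∈ y ∧ pt 0 ∈ y}) (Set.toFinite _)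
    (fun h y hy => ⟨(smul_mem_octads_iff h.2.1).2 hy.1,
      (mem_smul_iff_of_fix (Stab_apply h.2 23 (by norm_num) (by simp))).2 hy.2.1,
      (mem_smul_iff_of_fix (Stab_apply h.2 0 (by norm_num) (by simp))).2 hy.2.2⟩) (f := fun y => (O0 ∩ y).card)
    (fun h y _ => card_inter_of_fix (Stab_smul h.2 (by simp)) y)
    ![unmask 8536111, unmask 11575377, unmask 13062145] ?_ _
    (by decide +kernel) (by decide) _ ?_ (by
      rw [ncard_octads_filter _ (fun m => Bool.and (Nat.testBit m 23) (Nat.testBit m 0))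
        fun s _ => by rw [pt_mem_iff_testBit (by norm_num), pt_mem_iff_testBit (by norm_num),
          Bool.and_eq_true]]
      decide +kernel)
  · simp only [Fin.forall_fin_succ]
    refine ⟨?_, ?_, ?_, finZeroElim⟩
    · exact ⟨unmask_mem_octads (by decide +kernel) (by decide +kernel), by decide +kernel⟩
    · exact ⟨unmask_mem_octads (by decide +kernel) (by decide +kernel), by decide +kernel⟩
    · exact ⟨unmask_mem_octads (by decide +kernel) (by decide +kernel), by decide +kernel⟩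
  · simp only [Fin.forall_fin_succ]
    exact ⟨setM.le_ncard_orbit (Stab_le _) gens (setM_R (by norm_num))
        1 0 0x0 (by decide +kernel),
      setM.le_ncard_orbit (Stab_le _) gens (setM_R (by norm_num))
        16 17 0x11120011122111221 (by decide +kernel),
      setM.le_ncard_orbit (Stab_le _) gens (setM_R (by norm_num))
        60 102 0x200000000000120000000011120002000000000011120001112111211121200111211120011120001211120111211121112111 (by decide +kernel),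
      finZeroElim⟩


/-- A hexad stabiliser in the two-point stabiliser has orbits of sizes 1, 16, 60 on the 77 hexads: the 16 hexads disjoint from it and the 60 meeting it in two points. -/
theorem result (p q : Cfsg.GolayPt) (hpq : p ≠ q) (o o' o'' : Finset Cfsg.GolayPt) (ho : o ∈ Cfsg.octads) (ho' : o' ∈ Cfsg.octads) (ho'' : o'' ∈ Cfsg.octads) (hp : p ∈ o ∧ p ∈ o' ∧ p ∈ o'') (hq : q ∈ o ∧ q ∈ o' ∧ q ∈ o'') (h : (o ∩ o').card = (o ∩ o'').card) : {x : Finset Cfsg.GolayPt | x ∈ Cfsg.octads ∧ p ∈ x ∧ q ∈ x ∧ (o ∩ x).card = 2}.ncard = 16 ∧ {x : Finset Cfsg.GolayPt | x ∈ Cfsg.octads ∧ p ∈ x ∧ q ∈ x ∧ (o ∩ x).card = 4}.ncard = 60 ∧ ∃ g : Equiv.Perm Cfsg.GolayPt, g ∈ Cfsg.M24 ∧ g p = p ∧ g q = q ∧ g • o = o ∧ g • o' = o'' := by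
  obtain ⟨g, hg, rfl, rfl, rfl⟩ := exists_smul_two_pt_O0 ho hpq hp.1 hq.1
  have hc : ∀ n, {y | y ∈ octads ∧ g (pt 23) ∈ y ∧ g (pt 0) ∈ y ∧ (g • O0 ∩ y).card = n}.ncard =
      {y | y ∈ octads ∧ pt 23 ∈ y ∧ pt 0 ∈ y ∧ (O0 ∩ y).card = n}.ncard :=
    fun n => ncard_smul_eq g (by
      intro y
      simp only [Set.mem_ofPred_eq, smul_mem_octads_iff hg, card_smul_inter, apply_mem_smul_iff])
  refine ⟨?_, ?_, ?_⟩
  · rw [hc]; exact ncard_congr_iff (base.1 1) fun _ => by simp [and_assoc]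
  · rw [hc]; exact ncard_congr_iff (base.1 2) fun _ => by simp [and_assoc]
  · obtain ⟨o', rfl⟩ := exists_eq_smul g o'
    obtain ⟨o'', rfl⟩ := exists_eq_smul g o''
    simp only [smul_mem_octads_iff hg, card_smul_inter, apply_mem_smul_iff] at ho' ho'' hp hq h
    obtain ⟨k, e⟩ := base.2.1 o' ⟨ho', hp.2.1, hq.2.1⟩ o'' ⟨ho'', hp.2.2, hq.2.2⟩ h
    exact ⟨_, conj_mem_M24 hg k.2.1,
      conj_apply_apply g (Stab_apply k.2 23 (by norm_num) (by simp)),
      conj_apply_apply g (Stab_apply k.2 0 (by norm_num) (by simp)),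
      conj_smul_smul g (Stab_smul k.2 (by simp)), conj_smul_smul g e⟩

end Cfsg.Agent.S1604
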