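import Mathlib
import Cfsg.Agent.Spor.MB.PtOrb
import Cfsg.Statements.S1605
-- import your own Cfsg.Agent.* helpers here

set_option autoImplicit false
open scoped Pointwise
open Cfsg

namespace Cfsg.Agent.S1605

open Cfsg.Agent.Spor Cfsg.Agent.Spor.MB MulAction

theorem gens : Gens (Stab [8388608, 16, 8536111]) [973123692383019568074511175097849281, 972922730730679287665785433238321250] := gens_Stab (by decide +kernel)

theorem cnt : {y : Finset GolayPt | y ∈ octads ∧ pt 23 ∈ y ∧ pt 4 ∉ y}.ncard = 176 := by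
  rw [ncard_octads_filter _ (fun m => Bool.and (Nat.testBit m 23) (Bool.not (Nat.testBit m 4)))
    fun s _ => by rw [pt_notMem_iff_testBit (by norm_num), pt_mem_iff_testBit (by norm_num),
      Bool.and_eq_true]]
  decide +kernel

theorem base :
    (∀ i, {y : Finset GolayPt | y ∈ {y : Finset GolayPt | y ∈ octads ∧ pt 23 ∈ y ∧ pt 4 ∉ y} ∧ (O0 ∩ y).card = ![8, 2, 4] i}.ncard = ![1, 70, 105] i) ∧
    (∀ y ∈ {y : Finset GolayPt | y ∈ octads ∧ pt 23 ∈ y ∧ pt 4 ∉ y}, ∀ y' ∈ {y : Finset GolayPt | y ∈ octads ∧ pt 23 ∈ y ∧ pt 4 ∉ y}, (O0 ∩ y).card = (O0 ∩ y').card →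
      ∃ h : ↥(Stab [8388608, 16, 8536111]), h • y = y') ∧
    ∀ y ∈ {y : Finset GolayPt | y ∈ octads ∧ pt 23 ∈ y ∧ pt 4 ∉ y}, ∃ i, (O0 ∩ y).card = ![8, 2, 4] i := by
  refine orbit_partition' (H := ↥(Stab [8388608, 16, 8536111])) (T := {y : Finset GolayPt | y ∈ octads ∧ pt 23 ∈ y ∧ pt 4 ∉ y}) (Set.toFinite _)
    (fun h y hy => ⟨(smul_mem_octads_iff h.2.1).2 hy.1,
      (mem_smul_iff_of_fix (Stab_apply h.2 23 (by norm_num) (by simp))).2 hy.2.1,
      (mem_smul_iff_of_fix (Stab_apply h.2 4 (by norm_num) (by simp))).not.2 hy.2.2⟩) (f := fun y => (O0 ∩ y).card)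
    (fun h y _ => card_inter_of_fix (Stab_smul h.2 (by simp)) y)
    ![unmask 8536111, unmask 13938692, unmask 13062145] ?_ _
    (by decide +kernel) (by decide) _ ?_ (by rw [cnt]; decide)
  · simp only [Fin.forall_fin_succ]
    refine ⟨?_, ?_, ?_, finZeroElim⟩
    · exact ⟨unmask_mem_octads (by decide +kernel) (by decide +kernel), by decide +kernel⟩
    · exact ⟨unmask_mem_octads (by decide +kernel) (by decide +kernel), by decide +kernel⟩
    · exact ⟨unmask_mem_octads (by decide +kernel) (by decide +kernel), by decide +kernel⟩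
  · simp only [Fin.forall_fin_succ]
    exact ⟨setM.le_ncard_orbit (Stab_le _) gens (setM_R (by norm_num))
        1 0 0x0 (by decide +kernel),
      setM.le_ncard_orbit (Stab_le _) gens (setM_R (by norm_num))
        70 122 0x20000001120000000000011200000000000000000001120011211211201120000112011211200001121120000112112112112011211211211211211211 (by decide +kernel),
      setM.le_ncard_orbit (Stab_le _) gens (setM_R (by norm_num))
        105 169 0x1120000000000000000112000000000000000011200001120112011200000112112000000200200211201121120011211200001121121120011211211211211211201120112112112112112112011211211211211 (by decide +kernel),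
      finZeroElim⟩


/-- The two-point stabiliser acts on the 176 octads through the first point avoiding the second with rank 3 and subdegrees 1, 70, 105 (intersections 8, 2, 4). -/
theorem result (p q : Cfsg.GolayPt) (hpq : p ≠ q) : {x : Finset Cfsg.GolayPt | (x ∈ Cfsg.octads ∧ p ∈ x ∧ q ∉ x)}.ncard = 176 ∧ (∀ o o' : Finset Cfsg.GolayPt, (o ∈ Cfsg.octads ∧ p ∈ o ∧ q ∉ o) → (o' ∈ Cfsg.octads ∧ p ∈ o' ∧ q ∉ o') → ∃ g : Equiv.Perm Cfsg.GolayPt, g ∈ Cfsg.M24 ∧ g p = p ∧ g q = q ∧ g • o = o') ∧ ∀ o : Finset Cfsg.GolayPt, (o ∈ Cfsg.octads ∧ p ∈ o ∧ q ∉ o) → {x : Finset Cfsg.GolayPt | (x ∈ Cfsg.octads ∧ p ∈ x ∧ q ∉ x) ∧ (o ∩ x).card = 2}.ncard = 70 ∧ {x : Finset Cfsg.GolayPt | (x ∈ Cfsg.octads ∧ p ∈ x ∧ q ∉ x) ∧ (o ∩ x).card = 4}.ncard = 105 ∧ ∀ o' o'' : Finset Cfsg.GolayPt, (o' ∈ Cfsg.octads ∧ p ∈ o' ∧ q ∉ o') → (o'' ∈ Cfsg.octads ∧ p ∈ o'' ∧ q ∉ o'') → (o ∩ o').card = (o ∩ o'').card → ∃ g : Equiv.Perm Cfsg.GolayPt, g ∈ Cfsg.M24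 ∧ g p = p ∧ g q = q ∧ g • o = o ∧ g • o' = o'' := by
  refine ⟨?_, ?_, ?_⟩
  · obtain ⟨g, hg, h⟩ := exists_map_two hpq
    obtain ⟨g', hg', h'⟩ := exists_map_two (p := pt 23) (q := pt 4) (by decide +kernel)
    rw [← cnt]
    refine ncard_smul_eq (g * g'⁻¹) fun y => ?_
    have e1 : p = (g * g'⁻¹) (pt 23) := by
      conv_rhs => rw [← h'.1]
      simp [h.1]
    have e2 : q = (g * g'⁻¹) (pt 4) := by rw [← h.2, ← h'.2]; simp
    simp only [Set.mem_ofPred_eq, smul_mem_octads_iff (M24.mul_mem hg (M24.inv_mem hg')), e1, e2,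
      apply_mem_smul_iff]
  · intro o o' ho ho'
    obtain ⟨g, hg, e1, e2, e3⟩ := exists_smul_mem_notMem_O0 ho.1 ho.2.1 ho.2.2
    obtain ⟨g', hg', e1', e2', e3'⟩ := exists_smul_mem_notMem_O0 ho'.1 ho'.2.1 ho'.2.2
    refine ⟨g' * g⁻¹, M24.mul_mem hg' (M24.inv_mem hg), ?_, ?_, ?_⟩
    · conv_lhs => rw [← e1]
      simpa using e1'
    · conv_lhs => rw [← e2]
      simpa using e2'
    · rw [← e3, mul_smul, inv_smul_smul, e3']
  · intro o ho
    obtain ⟨g, hg, rfl, rfl, rfl⟩ := exists_smul_mem_notMem_O0 ho.1 ho.2.1 ho.2.2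
    have hc : ∀ n, {y | (y ∈ octads ∧ g (pt 23) ∈ y ∧ g (pt 4) ∉ y) ∧
        (g • O0 ∩ y).card = n}.ncard =
        {y | (y ∈ octads ∧ pt 23 ∈ y ∧ pt 4 ∉ y) ∧ (O0 ∩ y).card = n}.ncard :=
      fun n => ncard_smul_eq g (by
        intro y
        simp only [Set.mem_ofPred_eq, smul_mem_octads_iff hg, card_smul_inter, apply_mem_smul_iff])
    refine ⟨?_, ?_, ?_⟩
    · rw [hc]; exact base.1 1
    · rw [hc]; exact base.1 2
    · intro o' o'' h1 h2 h
      obtain ⟨o', rfl⟩ := exists_eq_smul g o'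
      obtain ⟨o'', rfl⟩ := exists_eq_smul g o''
      simp only [smul_mem_octads_iff hg, card_smul_inter, apply_mem_smul_iff] at h1 h2 h
      obtain ⟨k, e⟩ := base.2.1 o' h1 o'' h2 h
      exact ⟨_, conj_mem_M24 hg k.2.1,
        conj_apply_apply g (Stab_apply k.2 23 (by norm_num) (by simp)),
        conj_apply_apply g (Stab_apply k.2 4 (by norm_num) (by simp)),
        conj_smul_smul g (Stab_smul k.2 (by simp)), conj_smul_smul g e⟩

end Cfsg.Agent.S1605
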