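import Mathlib
import Cfsg.Agent.Spor.MB.PtOrb
import Cfsg.Statements.S1607
-- import your own Cfsg.Agent.* helpers here

set_option autoImplicit false
open scoped Pointwise
open Cfsg

namespace Cfsg.Agent.S1607

open Cfsg.Agent.Spor Cfsg.Agent.Spor.MB MulAction

theorem base :
    (∀ i, {y : Finset GolayPt | y ∈ {y : Finset GolayPt | y ∈ octads ∧ pt 23 ∈ y} ∧ (O0 ∩ y).card = ![8, 2, 4] i}.ncard = ![1, 112, 140] i) ∧
    (∀ y ∈ {y : Finset GolayPt | y ∈ octads ∧ pt 23 ∈ y}, ∀ y' ∈ {y : Finset GolayPt | y ∈ octads ∧ pt 23 ∈ y}, (O0 ∩ y).card = (O0 ∩ y').card →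
      ∃ h : ↥(Stab [8388608, 8536111]), h • y = y') ∧
    ∀ y ∈ {y : Finset GolayPt | y ∈ octads ∧ pt 23 ∈ y}, ∃ i, (O0 ∩ y).card = ![8, 2, 4] i := by
  refine orbit_partition' (H := ↥(Stab [8388608, 8536111])) (T := {y : Finset GolayPt | y ∈ octads ∧ pt 23 ∈ y}) (Set.toFinite _)
    (fun h y hy => ⟨(smul_mem_octads_iff h.2.1).2 hy.1,
      (mem_smul_iff_of_fix (Stab_apply h.2 23 (by norm_num) (by simp))).2 hy.2⟩) (f := fun y => (O0 ∩ y).card)
    (fun h y _ => card_inter_of_fix (Stab_smul h.2 (by simp)) y)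
    ![unmask 8536111, unmask 13938692, unmask 13062145] ?_ _
    (by decide +kernel) (by decide) _ ?_ (by
      rw [ncard_octads_filter _ (fun m => Nat.testBit m 23)
        fun s _ => pt_mem_iff_testBit (by norm_num)]
      decide +kernel)
  · simp only [Fin.forall_fin_succ]
    refine ⟨?_, ?_, ?_, finZeroElim⟩
    · exact ⟨unmask_mem_octads (by decide +kernel) (by decide +kernel), by decide +kernel⟩
    · exact ⟨unmask_mem_octads (by decide +kernel) (by decide +kernel), by decide +kernel⟩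
    · exact ⟨unmask_mem_octads (by decide +kernel) (by decide +kernel), by decide +kernel⟩
  · simp only [Fin.forall_fin_succ]
    exact ⟨setM.le_ncard_orbit (Stab_le _) gens_gO0a (setM_R (by norm_num))
        1 0 0x0 (by decide +kernel),
      setM.le_ncard_orbit (Stab_le _) gens_gO0a (setM_R (by norm_num))
        112 192 0x200000000000000000000000000000000000000000000000000011112002001111200000000000011112011112000111120111120001111200011112111120111121111211112011112111121111211112111121111201111211112111121111 (by decide +kernel),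
      setM.le_ncard_orbit (Stab_le _) gens_gO0a (setM_R (by norm_num))
        140 188 0x11112000000000000000000000000000000001111211112111120111120000000011112111121111201111211112011112111121111200111120011112111121111211112111120111121111201111211112111121111211112111121111 (by decide +kernel),
      finZeroElim⟩


/-- The point stabiliser acts on the 253 heptads of its S(4, 7, 23) with rank 3 and subdegrees 1, 112, 140 (intersections 8, 2, 4). -/
theorem result (x : Cfsg.GolayPt) (o : Finset Cfsg.GolayPt) (ho : o ∈ Cfsg.octads) (hx : x ∈ o) : {o' : Finset Cfsg.GolayPt | o' ∈ Cfsg.octads ∧ x ∈ o' ∧ (o ∩ o').card = 2}.ncard = 112 ∧ {o' : Finset Cfsg.GolayPt | o' ∈ Cfsg.octads ∧ x ∈ o' ∧ (o ∩ o').card = 4}.ncard = 140 ∧ ∀ o' o'' : Finset Cfsg.GolayPt, o' ∈ Cfsg.octads → o'' ∈ Cfsg.octads → x ∈ o' → x ∈ o'' → (o ∩ o').card = (o ∩ o'').card → ∃ g : Equiv.Perm Cfsg.GolayPt, g ∈ Cfsg.M24 ∧ g x = x ∧ g • o = o ∧ g • o' = o'' := by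
  obtain ⟨g, hg, rfl, rfl⟩ := exists_smul_pt_O0 ho hx
  refine ⟨?_, ?_, ?_⟩
  · rw [ncard_smul_eq g (A := {y | y ∈ octads ∧ pt 23 ∈ y ∧ (O0 ∩ y).card = 2}) (by
      intro y
      simp only [Set.mem_ofPred_eq, smul_mem_octads_iff hg, card_smul_inter, apply_mem_smul_iff])]
    exact ncard_congr_iff (base.1 1) fun _ => and_assoc.symm
  · rw [ncard_smul_eq g (A := {y | y ∈ octads ∧ pt 23 ∈ y ∧ (O0 ∩ y).card = 4}) (by
      intro y
      simp only [Set.mem_ofPred_eq, smul_mem_octads_iff hg, card_smul_inter, apply_mem_smul_iff])]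
    exact ncard_congr_iff (base.1 2) fun _ => and_assoc.symm
  · intro o' o'' h1 h2 h3 h4 h5
    obtain ⟨o', rfl⟩ := exists_eq_smul g o'
    obtain ⟨o'', rfl⟩ := exists_eq_smul g o''
    simp only [smul_mem_octads_iff hg, card_smul_inter, apply_mem_smul_iff] at h1 h2 h3 h4 h5
    obtain ⟨k, e⟩ := base.2.1 o' ⟨h1, h3⟩ o'' ⟨h2, h4⟩ h5
    exact ⟨_, conj_mem_M24 hg k.2.1,
      conj_apply_apply g (Stab_apply k.2 23 (by norm_num) (by simp)),
      conj_smul_smul g (Stab_smul k.2 (by simp)), conj_smul_smul g e⟩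

end Cfsg.Agent.S1607
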