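import Mathlib
import Cfsg.Agent.Spor.MB.Over
import Cfsg.Statements.S1609
-- import your own Cfsg.Agent.* helpers here

set_option autoImplicit false
open scoped Pointwise
open Cfsg

namespace Cfsg.Agent.S1609

open Cfsg.Agent.Spor Cfsg.Agent.Spor.MB MulAction

theorem card_stab_pt (x : GolayPt) : Nat.card ↥(M24 ⊓ stabilizer PG x) = 10200960 := by
  rw [← Golay.card_Fix_one (Finset.card_singleton x)]
  congr 2
  ext g
  simp [Golay.mem_Fix]

theorem eq_stab {x : GolayPt} {H : Subgroup (stabilizer M24 x)} {s : Finset GolayPt}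
    (h : ∀ g ∈ (H.map (stabilizer M24 x).subtype).map M24.subtype, g • s = s)
    (hc : Nat.card ↥(M24 ⊓ stabilizer PG s ⊓ stabilizer PG x) ≤ Nat.card H) :
    H = (stabilizer M24 s).subgroupOf (stabilizer M24 x) := by
  refine Subgroup.eq_of_le_of_card_ge (fun g hg => h _ ⟨_, ⟨g, hg, rfl⟩, rfl⟩) (le_trans ?_ hc)
  exact Nat.card_le_card_of_injective (fun g => ⟨g.1.1.1, ⟨g.1.1.2, g.2⟩, g.1.2⟩)
    fun a b e => Subtype.ext (Subtype.ext (Subtype.ext (Subtype.ext_iff.1 e :)))

theorem card_le {s t : Finset GolayPt} {x : GolayPt} {n : ℕ} (ht : 0 < t.card)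
    (h : ∀ y ∈ t, ∃ g ∈ M24 ⊓ stabilizer PG s, g x = y)
    (hc : Nat.card ↥(M24 ⊓ stabilizer PG s) = t.card * n) :
    Nat.card ↥(M24 ⊓ stabilizer PG s ⊓ stabilizer PG x) ≤ n := by
  rw [card_eq_orbF _ x] at hc
  refine Nat.le_of_mul_le_mul_left ?_ ht
  rw [← hc]
  exact Nat.mul_le_mul_right _ (Finset.card_le_card fun y hy => mem_orbF.2 (h y hy))

/-- Subgroups of index 253 in the Mathieu group of degree 23 are exactly the duad stabilisers and the heptad stabilisers. -/
theorem result (x : Cfsg.GolayPt) (H : Subgroup ↥(MulAction.stabilizer Cfsg.M24 x)) (hH : H.index = 253) : (∃ s : Finset Cfsg.GolayPt, s.card = 2 ∧ x ∉ s ∧ H = (MulAction.stabilizer Cfsg.M24 s).subgroupOf (MulAction.stabilizer Cfsg.M24 x)) ∨ ∃ o ∈ Cfsg.octads, x ∈ o ∧ H = (MulAction.stabilizer Cfsg.M24 o).subgroupOf (MulAction.stabilizer Cfsg.M24 x) := by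
  have hc : Nat.card H = 40320 := by
    have := H.index_mul_card
    rw [card_stabilizer_M24, card_stab_pt, hH] at this
    exact eq_of_eq_mul this.symm (by norm_num) (by norm_num)
  have hc' : Nat.card ((H.map (stabilizer M24 x).subtype).map M24.subtype) = 40320 := by
    rw [Subgroup.card_map_of_injective M24.subtype_injective,
      Subgroup.card_map_of_injective (Subgroup.subtype_injective _), hc]
  have hle : (H.map (stabilizer M24 x).subtype).map M24.subtype ≤ M24 ⊓ stabilizer PG x := by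
    rintro _ ⟨_, ⟨g, -, rfl⟩, rfl⟩
    exact ⟨g.1.2, g.2⟩
  rcases over_sylow_M23 hle (by rw [hc']; norm_num) (by rw [hc']; norm_num)
    (by rw [hc']; norm_num) with ⟨o, ho, hx, e⟩ | ⟨S, hS, e⟩ | ⟨s, hs, hx, e⟩
  · refine Or.inr ⟨o, ho, hx, eq_stab e (card_le (t := o) (by rw [ho.2]; norm_num)
      (fun y hy => ?_) (by rw [card_stab_octad ho, ho.2, hc]))⟩
    obtain ⟨a, ha, e2, e1⟩ := exists_smul_pt_O0 ho hx
    obtain ⟨b, hb, e4, e3⟩ := exists_smul_pt_O0 ho hy
    refine ⟨b * a⁻¹, ⟨M24.mul_mem hb (M24.inv_mem ha), ?_⟩, ?_⟩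
    · change (b * a⁻¹) • o = o
      rw [mul_smul, inv_smul_eq_iff.2 e1.symm, e3]
    · rw [Equiv.Perm.mul_apply, Equiv.Perm.inv_eq_iff_eq.2 e2.symm, e4]
  · have := Subgroup.card_dvd_of_le (K := M24 ⊓ stabilizer PG S)
      fun g hg => ⟨(hle hg).1, e g hg⟩
    rw [hc', card_stab_sextet hS] at this
    exact absurd this (by norm_num)
  · refine Or.inl ⟨s, hs, hx, eq_stab e (card_le (t := sᶜ) (by rw [card_compl, hs]; norm_num)
      (fun y hy => ?_) ?_)⟩
    · obtain ⟨g, hg, e⟩ := Golay.exists_Fix_map_list s [x] [y] (by simp) (by simp) (by simpa)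
        (by simpa using hy) rfl (by simp [hs])
      exact ⟨g, ((mem_Fix_iff_stab g).1 hg).1, by simpa using e⟩
    · rw [card_compl, hs, hc]
      exact eq_of_eq_mul (card_stab_small (by norm_num) hs).symm (by decide) (by decide)

end Cfsg.Agent.S1609
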