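import Mathlib
import Cfsg.Agent.Spor.Hexa
import Cfsg.Statements.S1610
-- import your own Cfsg.Agent.* helpers here

set_option autoImplicit false
open Cfsg

namespace Cfsg.Agent.S1610

open Cfsg.Agent.Spor MulAction

open Cfsg.Agent.Spor.Hexa

theorem wt {F : Type*} [Field F] [DecidableEq F] {ω : F} (h2 : (2 : F) = 0)
    (hω : ω ^ 2 + ω + 1 = 0) (y : Fin 6 → K) :
    (Finset.univ.filter fun i => f ω (y i) ≠ 0).card = (Finset.univ.filter fun i => y i ≠ 0).card := by
  simp only [Ne, f_eq_zero_iff h2 hω]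

/-- The hexacode has 64 words, minimum weight 4, and weight distribution 0^1 4^45 6^18. -/
theorem result (F : Type*) [Field F] [Fintype F] [DecidableEq F] (hF : Fintype.card F = 4) (ω : F) (hω : ω ^ 2 + ω + 1 = 0) : Nat.card ↥(Cfsg.hexacode F ω) = 64 ∧ (∀ x ∈ Cfsg.hexacode F ω, x ≠ 0 → (Finset.univ.filter fun i => x i ≠ 0).card = 4 ∨ (Finset.univ.filter fun i => x i ≠ 0).card = 6) ∧ {x : Fin 6 → F | x ∈ Cfsg.hexacode F ω ∧ (Finset.univ.filter fun i => x i ≠ 0).card = 4}.ncard = 45 ∧ {x : Fin 6 → F | x ∈ Cfsg.hexacode F ω ∧ (Finset.univ.filter fun i => x i ≠ 0).card = 6}.ncard = 18 := by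
  have h2 := two_eq_zero hF
  refine ⟨?_, fun x hx h0 => ?_, ?_, ?_⟩
  · have := ncard_filter hF hω (fun _ => True) (fun _ => True) (fun _ _ _ => Iff.rfl)
    simp only [and_true] at this
    exact (Nat.card_coe_set_eq _).trans (this.trans (by decide))
  · obtain ⟨a, b, c, rfl⟩ := (mem_iff_exists hF hω x).1 hx
    rw [wt h2 hω]
    have : ∀ a b c : K, (∀ i, wK a b c i = 0) ∨ (Finset.univ.filter fun i => wK a b c i ≠ 0).card = 4 ∨
      (Finset.univ.filter fun i => wK a b c i ≠ 0).card = 6 := by decide +kernel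
    refine (this a b c).resolve_left fun h => h0 (funext fun i => ?_)
    rw [h i, f_zero]; rfl
  · rw [ncard_filter hF hω _ (fun t => (Finset.univ.filter fun i => wK t.1 t.2.1 t.2.2 i ≠ 0).card = 4)
      fun a b c => by rw [wt h2 hω]]
    decide +kernel
  · rw [ncard_filter hF hω _ (fun t => (Finset.univ.filter fun i => wK t.1 t.2.1 t.2.2 i ≠ 0).card = 6)
      fun a b c => by rw [wt h2 hω]]
    decide +kernel

end Cfsg.Agent.S1610
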