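import Mathlib
import Cfsg.Statements.S1612
import Cfsg.Agent.Spor.TTRank

set_option autoImplicit false
open Cfsg

namespace Cfsg.Agent.S1612

open Cfsg.Agent.Spor.TT Cfsg.Agent.GT

theorem mem_normalizer_of_image {G : Type*} [Group G] {E : Set G} {g : G} (h : cj g '' E = E) :
    g ∈ Subgroup.normalizer E := by
  intro x
  constructor
  · exact fun hx => h.le ⟨x, hx, rfl⟩
  · intro hx
    obtain ⟨y, hy, h1⟩ := h.ge hx
    exact cj_injective g h1 ▸ hy

/-- In a 3-transposition group (no solvable normal subgroup, perfect derived group), the normaliser of a commuting set of transpositions of maximum size contains a Sylow 2-subgroup and is doubly transitive on the set. -/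
theorem result {G : Type*} [Group G] [Finite G] (hsol : ∀ N : Subgroup G, N.Normal → Group.IsSolvable ↥N → N = ⊥) (hperf : ⁅commutator G, commutator G⁆ = commutator G) {D : Set G} (hD : Cfsg.IsThreeTranspositionClass D) {E : Set G} (hE : E ⊆ D) (hc : ∀ a ∈ E, ∀ b ∈ E, Commute a b) (hmax : ∀ E' : Set G, E' ⊆ D → (∀ a ∈ E', ∀ b ∈ E', Commute a b) → E'.ncard ≤ E.ncard) : (∃ P : Sylow 2 G, (P : Subgroup G) ≤ Subgroup.normalizer E) ∧ ∀ a ∈ E, ∀ b ∈ E, ∀ c ∈ E, ∀ d ∈ E, a ≠ b → c ≠ d → ∃ g ∈ Subgroup.normalizer E, g * a * g⁻¹ = c ∧ g * b * g⁻¹ = d := by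
  have h := fis_of_fischer hsol hperf hD
  have key : ∀ P : Subgroup G, IsPGroup 2 P → ∀ g : G, (∀ a ∈ E, cj g a ∈ P) →
      cj g '' E = {x | x ∈ D ∧ x ∈ P} := by
    intro P hP g hg
    refine Set.eq_of_subset_of_ncard_le ?_ ?_ (Set.toFinite _)
    · rintro _ ⟨a, ha, rfl⟩
      exact ⟨hD.cj_mem g a (hE ha), hg a ha⟩
    · rw [ncard_image_cj]
      exact hmax _ (fun _ hx => hx.1) fun a ha b hb =>
        commute_of_mem_two hD.set hP ha.1 hb.1 ha.2 hb.2
  constructor
  · obtain ⟨T, hT⟩ := (isPGroup_two_closure (fun a ha => hD.set.mul_self (hE ha)) hc).exists_le_sylow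
    refine ⟨T, fun g hg => mem_normalizer_of_image ?_⟩
    rw [key T T.isPGroup' g fun a ha => cj_mem_of_mem hg (hT (Subgroup.subset_closure ha)),
      ← key T T.isPGroup' 1 fun a ha => by rw [cj_one]; exact hT (Subgroup.subset_closure ha)]
    simp only [cj_one, Set.image_id']
  intro a ha b hb c hc' d hd hab hcd
  obtain ⟨g, h1, h2⟩ := h.exists_cj_pair (hE ha) ⟨hE hb, hab.symm, hc a ha b hb⟩ (hE hc')
    ⟨hE hd, hcd.symm, hc c hc' d hd⟩
  let C := Subgroup.centralizer ({c, d} : Set G)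
  obtain ⟨S⟩ : Nonempty (Sylow 2 C) := inferInstance
  have key2 : ∀ g : G, (∀ x ∈ E, cj g x ∈ C) → ∃ k ∈ C, cj (k * g) '' E =
      {x | x ∈ D ∧ x ∈ (S : Subgroup C).map C.subtype} := by
    intro g hg
    obtain ⟨k, hk⟩ := exists_cj_mem_sylow (E := {x : C | ∃ y ∈ E, cj g y = x})
      (by
        rintro x ⟨y, hy, h3⟩
        exact Subtype.ext (hD.set.mul_self (h3 ▸ hD.cj_mem g y (hE hy))))
      (by
        rintro x ⟨y, hy, h3⟩ x' ⟨y', hy', h4⟩
        refine Subtype.ext ?_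
        change (x : G) * x' = x' * x
        rw [← h3, ← h4]
        exact commute_cj.mpr (hc y hy y' hy')) S
    refine ⟨k, k.2, key _ (S.isPGroup'.map _) _ fun x hx => ?_⟩
    exact ⟨_, hk ⟨cj g x, hg x hx⟩ ⟨x, hx, rfl⟩, cj_cj (k : G) g x⟩
  obtain ⟨k, hk, h3⟩ := key2 1 fun x hx => by
    rw [cj_one]
    rintro y (rfl | rfl)
    exacts [hc _ hc' x hx, hc _ hd x hx]
  obtain ⟨k', hk', h4⟩ := key2 g fun x hx => by
    rintro y (rfl | rfl)
    · rw [← h1]; exact commute_cj.mpr (hc a ha x hx)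
    · rw [← h2]; exact commute_cj.mpr (hc b hb x hx)
  have hkk : k⁻¹ * k' ∈ C := C.mul_mem (C.inv_mem hk) hk'
  refine ⟨k⁻¹ * k' * g, mem_normalizer_of_image ?_, ?_, ?_⟩
  · have : cj (k⁻¹ * k' * g) = cj k⁻¹ ∘ cj (k' * g) := funext fun x => by
      rw [Function.comp_apply, cj_cj, mul_assoc]
    rw [this, Set.image_comp, h4, ← h3, mul_one, Set.image_image]
    simp only [cj_inv_cj, Set.image_id']
  · rw [← cj_def, ← cj_cj, h1]
    exact cj_of_commute (show Commute c _ from hkk c (Or.inl rfl)).symm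
  · rw [← cj_def, ← cj_cj, h2]
    exact cj_of_commute (show Commute d _ from hkk d (Or.inr rfl)).symm

end Cfsg.Agent.S1612
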