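import Mathlib
import Cfsg.Statements.S1615
import Cfsg.Agent.Spor.TTS5
import Cfsg.Agent.GT.PPrimeCore

set_option autoImplicit false
open Cfsg

namespace Cfsg.Agent.S1615

open Cfsg.Agent.Spor.TT Cfsg.Agent.GT

/-- If O(⟨D_x⟩) is not central in ⟨D_x⟩ for some transposition x, the 3-transposition group is the symmetric group of degree 5. -/
theorem result {G : Type*} [Group G] [Finite G] (hsol : ∀ N : Subgroup G, N.Normal → Group.IsSolvable ↥N → N = ⊥) (hperf : ⁅commutator G, commutator G⁆ = commutator G) {D : Set G} (hD : Cfsg.IsThreeTranspositionClass D) (x : G) (hx : x ∈ D) (h : ¬ Cfsg.oddCore ↥(Subgroup.closure {y : G | y ∈ D ∧ y ≠ x ∧ Commute x y}) ≤ Subgroup.center ↥(Subgroup.closure {y : G | y ∈ D ∧ y ≠ x ∧ Commute x y})) : Nonempty (G ≃* Equiv.Perm (Fin 5)) := by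
  have hF := fis_of_fischer hsol hperf hD
  have hc := hF.cls_Dx hx
  obtain ⟨b, hb⟩ := hc.nonempty
  obtain ⟨g, hg, hn⟩ : ∃ g ∈ oddCore (Subgroup.closure (Dx D x)), ¬ Commute b g := by
    by_contra hcon
    push Not at hcon
    exact h (hc.le_center_of_commute _ hb hcon)
  have h1 := Wr_of_mul_mem_odd hc.set (N := oddCore _) (fun y hy h2 => by
      have h3 := Subgroup.orderOf_dvd_natCard _ hy
      have h4 := orderOf_dvd_of_pow_eq_one h2
      rw [← orderOf_eq_one_iff]
      exact Nat.Coprime.eq_one_of_dvd (Nat.Coprime.coprime_dvd_left h3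
        (Nat.coprime_two_right.mpr odd_card_oddCore)) h4)
    (fun e _ => mem_normalizer_of_normal _ e) hb (hc.cj_mem g b hb)
    (mul_cj_mem_normal (hc.set.mul_self hb) hg)
  obtain ⟨e⟩ := hF.closure_equiv_S5 hx (b := (b : G)) (c := ((cj g b : Subgroup.closure (Dx D x)) : G))
    hb (hc.cj_mem g b hb)
    (fun h2 => hn (cj_eq_self_iff.mp (Subtype.ext h2)).symm) (Set.ext fun y => ⟨fun hy => by
      have := h1.le (⟨hy.1, fun h2 => hy.2.1 (congrArg Subtype.val h2), Subtype.ext hy.2.2⟩ :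
        (⟨y, Subgroup.subset_closure hy.1⟩ : Subgroup.closure (Dx D x)) ∈ Dx _ (cj g b))
      exact ⟨hy.1, fun h2 => this.2.1 (Subtype.ext h2), congrArg Subtype.val this.2.2⟩, fun hy => by
      have := h1.ge (⟨hy.1, fun h2 => hy.2.1 (congrArg Subtype.val h2), Subtype.ext hy.2.2⟩ :
        (⟨y, Subgroup.subset_closure hy.1⟩ : Subgroup.closure (Dx D x)) ∈ Dx _ b)
      exact ⟨hy.1, fun h2 => this.2.1 (Subtype.ext h2), congrArg Subtype.val this.2.2⟩⟩)
  exact ⟨(Subgroup.topEquiv.symm.trans (MulEquiv.subgroupCongr hD.gen.symm)).trans e⟩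

end Cfsg.Agent.S1615
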