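import Mathlib
import Cfsg.Agent.Spor.FRepIso
import Cfsg.Agent.S1615
import Cfsg.Agent.S0247
import Cfsg.Agent.GT.Components
import Cfsg.Statements.S1614
-- import your own Cfsg.Agent.* helpers here

set_option autoImplicit false
open Cfsg

namespace Cfsg.Agent.S1614

/-- If the commuting transpositions of one transposition generate a solvable group, a Fischer 3-transposition group is S5, S6, PSU(4, 2) or PSU(5, 2). -/
theorem result {G : Type*} [Group G] [Finite G] (hsol : ∀ N : Subgroup G, N.Normal → Group.IsSolvable ↥N → N = ⊥) (hperf : ⁅commutator G, commutator G⁆ = commutator G) {D : Set G} (hD : Cfsg.IsThreeTranspositionClass D) (x : G) (hx : x ∈ D) (hs : Group.IsSolvable ↥(Subgroup.closure {y : G | y ∈ D ∧ y ≠ x ∧ Commute x y})) : Nonempty (G ≃* Equiv.Perm (Fin 5)) ∨ Nonempty (G ≃* Equiv.Perm (Fin 6)) ∨ ∃ (F : Type) (_ : Field F) (_ : Fintype F), Fintype.card F = 4 ∧ (Nonempty (G ≃* Cfsg.PSU 4 F 2) ∨ Nonempty (G ≃* Cfsg.PSU 5 F 2)) := by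
    have hF := Spor.TT.fis_of_fischer hsol hperf hD
    have hZ := Spor.TT.center_eq_bot_of_fischer hsol
    have hc := hF.cls_Dx hx
    by_cases k3 : pCore 3 (Subgroup.closure (Spor.TT.Dx D x)) ≤ Subgroup.center _
    swap
    · refine Or.inl (S1615.result hsol hperf hD x hx fun h => k3 ((GT.le_oddCore ?_).trans h))
      obtain ⟨k, hk⟩ := IsPGroup.iff_card.mp (GT.isPGroup_pCore (p := 3)
        (G := Subgroup.closure (Spor.TT.Dx D x)))
      rw [hk]
      exact Odd.pow (by decide)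
    by_cases k2 : pCore 2 (Subgroup.closure (Spor.TT.Dx D x)) ≤ Subgroup.center _
    · refine absurd GT.layer_eq_bot_of_isSolvable (Spor.TT.layer_ne_bot hc ?_ k2 k3)
      by_contra h1
      push Not at h1
      obtain ⟨b, hb⟩ := hF.exists_mem_Dx hx
      refine hb.2.1 (hF.eq_of_perp_subset hx hb.1 fun y hy h2 => ?_).symm
      by_cases h3 : y = x
      · exact h3 ▸ hb.2.2.symm
      have hy' : y ∈ Spor.TT.Dx D x := ⟨hy, h3, h2⟩
      have := congrArg Subtype.val (h1 ⟨b, Subgroup.subset_closure hb⟩ hb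
        ⟨y, Subgroup.subset_closure hy'⟩ hy')
      exact (show b = y from this) ▸ Commute.refl _
    rcases (hF.pol hx k2).rep with ⟨m, ρ, hm, hρ⟩ | ⟨n, ρ, hn, hρ⟩
    · obtain rfl : m = 2 := by_contra fun h => hρ.not_solvable hD (by omega) hx hs
      obtain ⟨e, -⟩ := hρ.exists_equiv hD.group hZ (by omega)
      obtain ⟨e'⟩ := S0247.result (ZMod.card 2)
      exact Or.inr (Or.inl ⟨e.trans e'⟩)
    · obtain ⟨e, -⟩ := hρ.exists_equiv Cl.card_GF4 hD.group hZ hn
      refine Or.inr (Or.inr ⟨Cl.GF4, inferInstance, inferInstance, Cl.card_GF4, ?_⟩)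
      obtain rfl | rfl : n = 4 ∨ n = 5 := by_contra fun h => hρ.not_solvable hD (by omega) hx hs
      exacts [Or.inl ⟨e⟩, Or.inr ⟨e⟩]

end Cfsg.Agent.S1614
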