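import Mathlib
import Cfsg.Agent.Spor.FRepIso
import Cfsg.Statements.S1616
-- import your own Cfsg.Agent.* helpers here

set_option autoImplicit false
open Cfsg

namespace Cfsg.Agent.S1616

/-- If O₂(⟨D_x⟩) is not central in ⟨D_x⟩ for some transposition x, the 3-transposition group is some Sp(2n, 2) or PSU(n, 2). -/
theorem result {G : Type*} [Group G] [Finite G] (hsol : ∀ N : Subgroup G, N.Normal → Group.IsSolvable ↥N → N = ⊥) (hperf : ⁅commutator G, commutator G⁆ = commutator G) {D : Set G} (hD : Cfsg.IsThreeTranspositionClass D) (x : G) (hx : x ∈ D) (h : ¬ Cfsg.pCore 2 ↥(Subgroup.closure {y : G | y ∈ D ∧ y ≠ x ∧ Commute x y}) ≤ Subgroup.center ↥(Subgroup.closure {y : G | y ∈ D ∧ y ≠ x ∧ Commute x y})) : (∃ n : ℕ, Nonempty (G ≃* Matrix.symplecticGroup (Fin n) (ZMod 2))) ∨ ∃ (F : Type) (_ : Field F) (_ : Fintype F) (n : ℕ), Fintype.card F = 4 ∧ Nonempty (G ≃* Cfsg.PSU n F 2) := by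
    have hF := Spor.TT.fis_of_fischer hsol hperf hD
    have hZ := Spor.TT.center_eq_bot_of_fischer hsol
    rcases (hF.pol hx h).rep with ⟨m, ρ, hm, hρ⟩ | ⟨n, ρ, hn, hρ⟩
    · obtain ⟨e, -⟩ := hρ.exists_equiv hD.group hZ (by omega)
      exact Or.inl ⟨m, ⟨e⟩⟩
    · obtain ⟨e, -⟩ := hρ.exists_equiv Cl.card_GF4 hD.group hZ hn
      exact Or.inr ⟨Cl.GF4, inferInstance, inferInstance, n, Cl.card_GF4, ⟨e⟩⟩

end Cfsg.Agent.S1616
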