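import Mathlib
import Cfsg.Agent.Spor.PT.Main
import Cfsg.Agent.Blk.ZStar
import Cfsg.Agent.S0205
import Cfsg.Agent.GT.PPrimeCore
import Cfsg.Statements.S1617
-- import your own Cfsg.Agent.* helpers here

set_option autoImplicit false
open Cfsg

namespace Cfsg.Agent.S1617

/-- A generating conjugacy class of involutions on which the group (with trivial solvable radical) acts with rank 3 is a class of 3-transpositions. -/
theorem result {G : Type*} [Group G] [Finite G] (hsol : ∀ N : Subgroup G, N.Normal → Group.IsSolvable ↥N → N = ⊥) {D : Set G} (hinv : ∀ d ∈ D, orderOf d = 2) (hconj : ∃ d ∈ D, D = conjugatesOf d) (hgen : Subgroup.closure D = ⊤) (hrank : ∀ x ∈ D, ∃ y ∈ D, ∃ z ∈ D, {w : G | ∃ g : G, Commute g x ∧ g * y * g⁻¹ = w} ≠ {w : G | ∃ g : G, Commute g x ∧ g * x * g⁻¹ = w} ∧ {w : G | ∃ g : G, Commute g x ∧ g * z * g⁻¹ = w} ≠ {w : G | ∃ g : G, Commute g x ∧ g * x * g⁻¹ = w} ∧ {w : G | ∃ g : G, Commute g x ∧ g * y * g⁻¹ = w} ≠ {w : G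 | ∃ g : G, Commute g x ∧ g * z * g⁻¹ = w} ∧ D = {w : G | ∃ g : G, Commute g x ∧ g * x * g⁻¹ = w} ∪ {w : G | ∃ g : G, Commute g x ∧ g * y * g⁻¹ = w} ∪ {w : G | ∃ g : G, Commute g x ∧ g * z * g⁻¹ = w}) : Cfsg.IsThreeTranspositionClass D := by
  classical
  obtain ⟨x, hx, hD⟩ := hconj
  have hcj : ∀ d ∈ D, ∀ g : G, g * d * g⁻¹ ∈ D := by
    intro d hd g
    rw [hD] at hd ⊢
    exact IsConj.trans hd (isConj_iff.2 ⟨g, rfl⟩)
  have hcl0 : ∀ d ∈ D, ∃ g : G, g * x * g⁻¹ = d := by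
    intro d hd
    rw [hD] at hd
    exact isConj_iff.1 hd
  have hsq : ∀ d ∈ D, d * d = 1 := fun d hd => by rw [← pow_two, ← hinv d hd, pow_orderOf_eq_one]
  have hx1 : x ≠ 1 := by
    intro e
    have := hinv x hx
    rw [e, orderOf_one] at this
    omega
  have no2 : Cfsg.pCore 2 G = ⊥ := by
    have := (Cfsg.Agent.GT.isPGroup_pCore (G := G) 2).isNilpotent
    exact hsol _ inferInstance inferInstance
  obtain ⟨b, hb, hbx, hcb⟩ : ∃ b ∈ D, b ≠ x ∧ Commute x b := by
    by_contra hn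
    push Not at hn
    have hiso : Cfsg.IsIsolatedInvolution x := ⟨hinv x hx, fun g hg => by
      by_contra h2
      exact hn _ (hcj x hx g) h2 hg⟩
    have hO : Cfsg.oddCore G = ⊥ :=
      hsol _ inferInstance (Cfsg.Agent.S0205.result Cfsg.Agent.GT.odd_card_oddCore)
    have hc : ∀ g : G, Commute x g := by
      intro g
      have := hiso.commutator_mem_oddCore g
      rw [hO, Subgroup.mem_bot] at this
      exact commutatorElement_eq_one_iff_commute.1 this
    have hN : (Subgroup.zpowers x).Normal := ⟨by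
      rintro _ ⟨n, rfl⟩ g
      rw [← ((hc g).zpow_left n).eq, mul_inv_cancel_right]
      exact ⟨n, rfl⟩⟩
    exact hx1 (Subgroup.zpowers_eq_bot.1 (hsol _ hN inferInstance))
  obtain ⟨p, hp, hp2, y', hy', hy1, hy2⟩ : ∃ p : ℕ, p.Prime ∧ p ≠ 2 ∧ ∃ y' ∈ D, (x * y') ^ p = 1 ∧
      x * y' ≠ 1 := by
    have h1 : ¬ ∀ g : G, IsPGroup 2 (Subgroup.closure {x, g * x * g⁻¹}) := fun hh => by
      have := Cfsg.Agent.GT.baer_suzuki_elem hh
      rw [no2] at this
      exact hx1 this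
    push Not at h1
    obtain ⟨g, hg⟩ := h1
    have hy := hcj x hx g
    generalize g * x * g⁻¹ = y at hg hy
    have h2 : ¬ ∀ q : ℕ, q.Prime → q ∣ orderOf (x * y) → q = 2 := by
      intro hh
      apply hg
      apply Cfsg.Agent.Inv.isPGroup_closure_pair (hsq x hx) (hsq y hy)
        (k := (orderOf (x * y)).primeFactorsList.length)
      rw [← Nat.eq_prime_pow_of_unique_prime_dvd (orderOf_pos _).ne' (fun {q} => hh q),
        pow_orderOf_eq_one]
    push Not at h2
    obtain ⟨p, hp, ⟨k, hk⟩, hp2⟩ := h2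
    obtain ⟨m, hm⟩ := hp.odd_of_ne_two hp2
    have hpos := orderOf_pos (x * y)
    have hk0 : 0 < k := Nat.pos_of_ne_zero (by rintro rfl; omega)
    have hs : ((x * y) ^ k) ^ p = 1 := by rw [← pow_mul, mul_comm k, ← hk, pow_orderOf_eq_one]
    have hs1 : (x * y) ^ k ≠ 1 := pow_ne_one_of_lt_orderOf hk0.ne'
      (by rw [hk]; have := hp.one_lt; nlinarith)
    have hi := Cfsg.Agent.Spor.PT.TP.inv_pow_conj (Cfsg.Agent.Spor.PT.TP.inv_pow_conj
      (Cfsg.Agent.Spor.PT.TP.dih_inv (hsq x hx) (hsq y hy)) (hsq x hx) k) (hsq x hx) (m + 1)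
    generalize (x * y) ^ k = s at hs hs1 hi
    have e : x * (x * s) = s := by rw [← mul_assoc, hsq x hx, one_mul]
    refine ⟨p, hp, hp2, x * s, ?_, by rw [e, hs], by rw [e]; exact hs1⟩
    have := hcj x hx (s ^ (m + 1))⁻¹
    rw [inv_inv, ← hi] at this
    convert this using 1
    calc x * s = x * (s ^ p * s) := by rw [hs, one_mul]
      _ = x * (s ^ (m + 1) * (x * x) * s ^ (m + 1)) := by
          rw [hsq x hx, mul_one, ← pow_add, ← pow_succ, hm]; congr 2; ring
      _ = _ := by simp only [mul_assoc]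
  have ho := hp.odd_of_ne_two hp2
  have hny : ¬ Commute x y' := fun hc => hy2 (Cfsg.Agent.Spor.PT.eq_one_of_pow_four ho
    (by rw [show (4 : ℕ) = 2 * 2 from rfl, pow_mul, pow_two (x * y'),
      Cfsg.Agent.Spor.PT.sq_mul (hsq x hx) (hsq y' hy') hc, one_pow]) hy1)
  have i1 : ∀ u w : G, (∃ g : G, Commute g x ∧ g * u * g⁻¹ = w) → (Commute x u ↔ Commute x w) := by
    rintro u _ ⟨g, hg, rfl⟩
    have e : g * x * g⁻¹ = x := by rw [hg.eq, mul_inv_cancel_right]
    constructor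
    · intro hh
      have := hh.conj g
      rwa [e] at this
    · intro hh
      rw [← e] at hh
      simpa [mul_assoc] using hh.conj g⁻¹
  have i2 : ∀ u w : G, (∃ g : G, Commute g x ∧ g * u * g⁻¹ = w) →
      ((x * u) ^ p = 1 ↔ (x * w) ^ p = 1) := by
    rintro u _ ⟨g, hg, rfl⟩
    have e : x * (g * u * g⁻¹) = g * (x * u) * g⁻¹ := by
      rw [← mul_assoc, ← mul_assoc, ← hg.eq]; simp only [mul_assoc]
    rw [e, conj_pow]
    constructor
    · intro hh; rw [hh]; simp
    · intro hh; simpa using hh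
  have i0 : ∀ w : G, (∃ g : G, Commute g x ∧ g * x * g⁻¹ = w) → w = x := by
    rintro _ ⟨g, hg, rfl⟩
    rw [hg.eq, mul_inv_cancel_right]
  have hx0 : ∀ w ∈ D, Commute x w ∨ (x * w) ^ p = 1 := by
    obtain ⟨y, -, z, -, -, -, -, hU⟩ := hrank x hx
    have cases3 : ∀ w ∈ D, w = x ∨ (∃ g : G, Commute g x ∧ g * y * g⁻¹ = w) ∨
        (∃ g : G, Commute g x ∧ g * z * g⁻¹ = w) := by
      intro w hw
      rw [hU] at hw
      rcases hw with (h | h) | h
      · exact Or.inl (i0 w h)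
      · exact Or.inr (Or.inl h)
      · exact Or.inr (Or.inr h)
    intro w hw
    rcases cases3 w hw with rfl | h | h
    · exact Or.inl (Commute.refl _)
    all_goals
      rcases cases3 b hb with h1 | h1 | h1
      · exact absurd h1 hbx
      all_goals
        rcases cases3 y' hy' with h2 | h2 | h2
        · exact absurd (h2 ▸ Commute.refl x) hny
        all_goals
          first
            | exact Or.inl ((i1 _ _ h).1 ((i1 _ _ h1).2 hcb))
            | exact Or.inr ((i2 _ _ h).1 ((i2 _ _ h2).2 hy1))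
            | exact absurd ((i1 _ _ h2).1 ((i1 _ _ h1).2 hcb)) hny
  have hT : Cfsg.Agent.Spor.PT.TP p D := ⟨hsq, hcj, by
    intro d hd e he
    obtain ⟨g, rfl⟩ := hcl0 d hd
    have h1 := hx0 _ (hcj e he g⁻¹)
    rcases h1 with h1 | h1
    · left; simpa [mul_assoc] using h1.conj g
    · right
      have e1 : g * x * g⁻¹ * e = g * (x * (g⁻¹ * e * g⁻¹⁻¹)) * g⁻¹ := by group
      rw [e1, conj_pow, h1]; simp⟩
  by_cases h3 : p = 3
  · subst h3
    refine ⟨⟨hinv, fun d hd e he => (hT.pr d hd e he).imp (fun hc => ?_) id⟩, ⟨x, hx, hD⟩, hgen⟩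
    rw [pow_two, Cfsg.Agent.Spor.PT.sq_mul (hsq d hd) (hsq e he) hc]
  · exfalso
    have h5 : 5 ≤ p := by
      have := hp.two_le
      have h4 : p ≠ 4 := by rintro rfl; exact absurd hp (by norm_num)
      omega
    have := Cfsg.Agent.Spor.PT.mul_mem_pCore hT hp h5 hgen (by
      intro d hd e he
      obtain ⟨g, rfl⟩ := hcl0 d hd
      obtain ⟨k, rfl⟩ := hcl0 e he
      exact ⟨k * g⁻¹, by group⟩) hx hb hcb
    rw [no2] at this
    exact hbx (Cfsg.Agent.Spor.PT.eq_of_mul_eq_one (hsq b hb) this).symm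

end Cfsg.Agent.S1617
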