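import Mathlib
import Cfsg.Statements.S1618
import Cfsg.Agent.Spor.TTZStar

set_option autoImplicit false
open Cfsg

namespace Cfsg.Agent.S1618

open Cfsg.Agent.Spor.TT Cfsg.Agent.GT

/-- A group generated by a class of involutions whose pairwise products (of distinct members) have p-power order for a fixed odd prime p has nilpotent derived subgroup. -/
theorem result {G : Type*} [Group G] [Finite G] (p : ℕ) (hp : p.Prime) (hodd : p ≠ 2) {D : Set G} (hinv : ∀ d ∈ D, orderOf d = 2) (hconj : ∃ d ∈ D, D = conjugatesOf d) (hgen : Subgroup.closure D = ⊤) (hprod : ∀ x ∈ D, ∀ y ∈ D, x ≠ y → ∃ k : ℕ, orderOf (x * y) = p ^ k) : Group.IsNilpotent ↥(commutator G) := by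
  have := Fact.mk hp
  obtain ⟨d, hd, rfl⟩ := hconj
  have h1 := mul_mem_pCore_of_pow hp hodd d (hinv d hd) fun a ha b hb => by
    by_cases hab : a = b
    · exact ⟨0, by rw [hab, ← pow_two, ← hinv b hb, pow_orderOf_eq_one, orderOf_one, pow_zero]⟩
    · exact hprod a ha b hb hab
  have h2 : commutator G ≤ pCore p G := by
    have h3 : ∀ x y : G, Commute (QuotientGroup.mk' (pCore p G) x) (QuotientGroup.mk' (pCore p G) y) := by
      have h4 : Subgroup.closure (QuotientGroup.mk' (pCore p G) '' conjugatesOf d) = ⊤ := by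
        rw [← MonoidHom.map_closure, hgen, ← MonoidHom.range_eq_map, QuotientGroup.range_mk']
      have h5 : ∀ a ∈ QuotientGroup.mk' (pCore p G) '' conjugatesOf d,
          ∀ b ∈ QuotientGroup.mk' (pCore p G) '' conjugatesOf d, Commute a b := by
        rintro _ ⟨a, ha, rfl⟩ _ ⟨b, hb, rfl⟩
        have : QuotientGroup.mk' (pCore p G) a = QuotientGroup.mk' (pCore p G) b :=
          QuotientGroup.eq.mpr (by
            rw [inv_eq_of_mul_eq_one_right (by rw [← pow_two, ← hinv a ha, pow_orderOf_eq_one] :
              a * a = 1)]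
            exact h1 a ha b hb)
        rw [this]
      exact fun x y => commute_of_mem_closure (fun s hs => (commute_of_mem_closure
        (fun t ht => h5 s hs t ht) (h4 ▸ Subgroup.mem_top _)).symm) (h4 ▸ Subgroup.mem_top _)
    refine Subgroup.commutator_le.mpr fun x _ y _ => ?_
    rw [← QuotientGroup.eq_one_iff]
    change QuotientGroup.mk' _ _ = 1
    rw [map_commutatorElement, commutatorElement_eq_one_iff_commute]
    exact h3 x y
  exact ((isPGroup_pCore p).to_le h2).isNilpotent

end Cfsg.Agent.S1618
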