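import Cfsg.Statements.S1626
import Cfsg.Agent.Spor.J3.Geo

set_option autoImplicit false
open scoped MatrixGroups
open Matrix
open Cfsg

namespace Cfsg.Agent.S1626

/-- Orbits of the triple cover of the third Janko group on lines of its 9-space over the field with 4 elements: the line through the first basis vector has exactly 23256 images, and the isotropic lines (nonzero v with Σ v_z³ = 0) form a single orbit. -/
theorem result (F : Type) [Field F] [Fintype F] (hF : Fintype.card F = 4) (ω : F) (hω : ω ^ 2 + ω + 1 = 0) : {L : Submodule F (Cfsg.Spor.F9 → F) | ∃ g ∈ Cfsg.Spor.threeJ3 F ω, L = F ∙ ((g : Matrix Cfsg.Spor.F9 Cfsg.Spor.F9 F) *ᵥ (Pi.single (0 : Cfsg.Spor.F9) (1 : F) : Cfsg.Spor.F9 → F))}.ncard = 23256 ∧ ∀ v w : Cfsg.Spor.F9 → F, v ≠ 0 → w ≠ 0 → ∑ z, (v z) ^ 3 = 0 → ∑ z, (w z) ^ 3 = 0 → ∃ g ∈ Cfsg.Spor.threeJ3 F ω, ∃ c : F, c ≠ 0 ∧ (g : Matrix Cfsg.Spor.F9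 Cfsg.Spor.F9 F) *ᵥ v = c • w := by
  have := Fact.mk hF
  have := Fact.mk hω
  refine ⟨?_, fun v w hv hw h1 h2 => ?_⟩
  · rw [← Spor.MJ3.ncard_lines F ω]
    congr 1
    ext L
    exact ⟨fun ⟨g, h1, h2⟩ => ⟨g, h1, h2.symm⟩, fun ⟨g, h1, h2⟩ => ⟨g, h1, h2.symm⟩⟩
  · obtain ⟨a, ha, rfl⟩ := Spor.MJ3.iso_orbit F ω hv h1
    obtain ⟨b, hb, rfl⟩ := Spor.MJ3.iso_orbit F ω hw h2
    refine ⟨b * a⁻¹, mul_mem hb (inv_mem ha), 1, one_ne_zero, ?_⟩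
    rw [one_smul, mulVec_mulVec, ← Units.val_mul, inv_mul_cancel_right]

end Cfsg.Agent.S1626
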