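import Mathlib
import Cfsg.Statements.S1633
import Cfsg.Agent.Spor.LC.U35

set_option autoImplicit false
open Cfsg

namespace Cfsg.Agent.S1633

/-- The Higman–Sims group acts transitively on 352 vectors, a set closed under x ↦ −w − x, with vector stabiliser isomorphic to PSU(3, 5). -/
theorem result (v w : ↥Cfsg.leechLattice) (hv : Cfsg.sqNorm (v : Cfsg.GolayPt → ℤ) = 48) (hw : Cfsg.sqNorm (w : Cfsg.GolayPt → ℤ) = 48) (hvw : Cfsg.dotInt (v : Cfsg.GolayPt → ℤ) (w : Cfsg.GolayPt → ℤ) = -32) (F : Type) [Field F] [Fintype F] (hF : Fintype.card F = 25) : {x : ↥Cfsg.leechLattice | Cfsg.sqNorm (x : Cfsg.GolayPt → ℤ) = 32 ∧ Cfsg.dotInt (v : Cfsg.GolayPt → ℤ) (x : Cfsg.GolayPt → ℤ) = 16 ∧ Cfsg.dotInt (w : Cfsg.GolayPt → ℤ) (x : Cfsg.GolayPt → ℤ) = -24}.ncard = 352 ∧ (∀ x ∈ {x : ↥Cfsg.leechLattice | Cfsg.sqNorm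 (x : Cfsg.GolayPt → ℤ) = 32 ∧ Cfsg.dotInt (v : Cfsg.GolayPt → ℤ) (x : Cfsg.GolayPt → ℤ) = 16 ∧ Cfsg.dotInt (w : Cfsg.GolayPt → ℤ) (x : Cfsg.GolayPt → ℤ) = -24}, -w - x ∈ {x : ↥Cfsg.leechLattice | Cfsg.sqNorm (x : Cfsg.GolayPt → ℤ) = 32 ∧ Cfsg.dotInt (v : Cfsg.GolayPt → ℤ) (x : Cfsg.GolayPt → ℤ) = 16 ∧ Cfsg.dotInt (w : Cfsg.GolayPt → ℤ) (x : Cfsg.GolayPt → ℤ) = -24}) ∧ (∀ x ∈ {x : ↥Cfsg.leechLattice | Cfsg.sqNorm (x : Cfsg.GolayPt → ℤ) = 32 ∧ Cfsg.dotInt (v : Cfsg.GolayPt → ℤ) (x : Cfsg.GolayPt → ℤ) = 16 ∧ Cfsg.dotInt (w : Cfsg.GolayPt → ℤ) (x : Cfsg.GolayPt → ℤ) = -24}, ∀ x' ∈ {x : ↥Cfsg.leechLattice | Cfsg.sqNorm (x : Cfsg.GolayPt → ℤ) = 32 ∧ Cfsg.dotInt (v : Cfsg.GolayPt → ℤ) (x : Cfsg.GolayPt → ℤ) = 16 ∧ Cfsg.dotInt (w : Cfsg.GolayPt → ℤ) (x : Cfsg.GolayPt → ℤ) = -24}, ∃ g : ↥Cfsg.Co0, g • v =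 v ∧ g • w = w ∧ g • x = x') ∧ ∀ x ∈ {x : ↥Cfsg.leechLattice | Cfsg.sqNorm (x : Cfsg.GolayPt → ℤ) = 32 ∧ Cfsg.dotInt (v : Cfsg.GolayPt → ℤ) (x : Cfsg.GolayPt → ℤ) = 16 ∧ Cfsg.dotInt (w : Cfsg.GolayPt → ℤ) (x : Cfsg.GolayPt → ℤ) = -24}, Nonempty (↥(MulAction.stabilizer ↥Cfsg.Co0 v ⊓ MulAction.stabilizer ↥Cfsg.Co0 w ⊓ MulAction.stabilizer ↥Cfsg.Co0 x) ≃* Cfsg.PSU 3 F 5) := by
  open Cfsg.Agent.Spor.Leech Cfsg.Agent.Spor.LC in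
  have hv' : nm v = 48 := hv
  have hw' : nm w = 48 := hw
  have hvw' : ip v w = -32 := hvw
  have hu : nm (-w) = 48 := by rw [nm_neg, hw']
  have hb : nm (-w - v) = 32 := by rw [nm_sub, nm_neg, ip_neg_left, ip_comm w]; omega
  have hub : ip (-w) (-w - v) = 16 := by
    rw [ip_sub_right, ip_self, ip_neg_left, ip_comm w]; omega
  have hS : {x : ↥Cfsg.leechLattice | Cfsg.sqNorm (x : Cfsg.GolayPt → ℤ) = 32 ∧ Cfsg.dotInt (v : Cfsg.GolayPt → ℤ) (x : Cfsg.GolayPt → ℤ) = 16 ∧ Cfsg.dotInt (w : Cfsg.GolayPt → ℤ) (x : Cfsg.GolayPt → ℤ) = -24} = V2 (-w) (-w - v) 24 8 := by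
    ext x
    show nm x = 32 ∧ ip v x = 16 ∧ ip w x = -24 ↔ nm x = 32 ∧ ip (-w) x = 24 ∧ ip (-w - v) x = 8
    rw [ip_sub_left, ip_neg_left]; omega
  have hK : MulAction.stabilizer Co0 v ⊓ MulAction.stabilizer Co0 w = St2 (-w) (-w - v) := by
    ext g
    show g • v = v ∧ g • w = w ↔ g • (-w) = -w ∧ g • (-w - v) = -w - v
    rw [smul_sub, smul_neg, neg_inj]
    exact ⟨fun h => ⟨h.2, by rw [h.1, h.2]⟩, fun h => ⟨by simpa [h.1] using h.2, h.1⟩⟩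
  rw [hS]
  refine ⟨?_, fun x hx => ⟨?_, ?_, ?_⟩, fun x hx x' hx' => ?_, fun x hx => ?_⟩
  · obtain ⟨g, e1, e2⟩ := std_UB hu hb hub
    rw [← e2, ← e1, ncard_V2_smul, ncard_352]
  · rw [nm_sub, hu, hx.1, hx.2.1]; norm_num
  · rw [ip_sub_right, ip_self, hu, hx.2.1]; norm_num
  · rw [ip_sub_right, hx.2.2, ip_comm, hub]; norm_num
  · obtain ⟨g, hg, e⟩ := trans_of_std (std_UBY hu hb hub hx) (std_UBY hu hb hub hx')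
    rw [← hK] at hg
    exact ⟨g, hg.1, hg.2, e⟩
  · obtain ⟨g, e1, e2, e3⟩ := std_UBY hu hb hub hx
    obtain ⟨f1⟩ := nonempty_St3_smul g vU vB vY
    obtain ⟨f2⟩ := nonempty_U35 F hF
    rw [e1, e2, e3] at f1
    exact ⟨(MulEquiv.subgroupCongr (congrArg (· ⊓ MulAction.stabilizer Co0 x) hK)).trans (f1.trans f2)⟩

end Cfsg.Agent.S1633
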