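import Mathlib
import Cfsg.Statements.S1634
import Cfsg.Agent.Spor.LC.Std

set_option autoImplicit false
open Cfsg

namespace Cfsg.Agent.S1634

/-- The McLaughlin group acts on 2025 points (minimal vectors orthogonal to v with customary inner product 2 with w) transitively with rank 4 and subdegrees 1, 330, 462, 1232. -/
theorem result (v w : ↥Cfsg.leechLattice) (hv : Cfsg.sqNorm (v : Cfsg.GolayPt → ℤ) = 32) (hw : Cfsg.sqNorm (w : Cfsg.GolayPt → ℤ) = 32) (hvw : Cfsg.dotInt (v : Cfsg.GolayPt → ℤ) (w : Cfsg.GolayPt → ℤ) = -8) : {x : ↥Cfsg.leechLattice | Cfsg.sqNorm (x : Cfsg.GolayPt → ℤ) = 32 ∧ Cfsg.dotInt (v : Cfsg.GolayPt → ℤ) (x : Cfsg.GolayPt → ℤ) = 0 ∧ Cfsg.dotInt (w : Cfsg.GolayPt → ℤ) (x : Cfsg.GolayPt → ℤ) = 16}.ncard = 2025 ∧ (∀ x ∈ {x : ↥Cfsg.leechLattice | Cfsg.sqNorm (x : Cfsg.GolayPt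 → ℤ) = 32 ∧ Cfsg.dotInt (v : Cfsg.GolayPt → ℤ) (x : Cfsg.GolayPt → ℤ) = 0 ∧ Cfsg.dotInt (w : Cfsg.GolayPt → ℤ) (x : Cfsg.GolayPt → ℤ) = 16}, ∀ x' ∈ {x : ↥Cfsg.leechLattice | Cfsg.sqNorm (x : Cfsg.GolayPt → ℤ) = 32 ∧ Cfsg.dotInt (v : Cfsg.GolayPt → ℤ) (x : Cfsg.GolayPt → ℤ) = 0 ∧ Cfsg.dotInt (w : Cfsg.GolayPt → ℤ) (x : Cfsg.GolayPt → ℤ) = 16}, ∃ g : ↥Cfsg.Co0, g • v = v ∧ g • w = w ∧ g • x = x') ∧ ∀ x ∈ {x : ↥Cfsg.leechLattice | Cfsg.sqNorm (x : Cfsg.GolayPt → ℤ) = 32 ∧ Cfsg.dotInt (v : Cfsg.GolayPt → ℤ) (x : Cfsg.GolayPt → ℤ) = 0 ∧ Cfsg.dotInt (w : Cfsg.GolayPt → ℤ) (x : Cfsg.GolayPt → ℤ) = 16}, ∃ y₁ ∈ {x : ↥Cfsg.leechLattice | Cfsg.sqNorm (x : Cfsg.GolayPt → ℤ) = 32 ∧ Cfsg.dotInt (v : Cfsg.GolayPt → ℤ) (x : Cfsg.GolayPt → ℤ) = 0 ∧ Cfsg.dotInt (w : Cfsg.GolayPt → ℤ) (x : Cfsg.GolayPt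 → ℤ) = 16}, ∃ y₂ ∈ {x : ↥Cfsg.leechLattice | Cfsg.sqNorm (x : Cfsg.GolayPt → ℤ) = 32 ∧ Cfsg.dotInt (v : Cfsg.GolayPt → ℤ) (x : Cfsg.GolayPt → ℤ) = 0 ∧ Cfsg.dotInt (w : Cfsg.GolayPt → ℤ) (x : Cfsg.GolayPt → ℤ) = 16}, ∃ y₃ ∈ {x : ↥Cfsg.leechLattice | Cfsg.sqNorm (x : Cfsg.GolayPt → ℤ) = 32 ∧ Cfsg.dotInt (v : Cfsg.GolayPt → ℤ) (x : Cfsg.GolayPt → ℤ) = 0 ∧ Cfsg.dotInt (w : Cfsg.GolayPt → ℤ) (x : Cfsg.GolayPt → ℤ) = 16}, (MulAction.orbit ↥(MulAction.stabilizer ↥Cfsg.Co0 v ⊓ MulAction.stabilizer ↥Cfsg.Co0 w ⊓ MulAction.stabilizer ↥Cfsg.Co0 x) y₁).ncard = 330 ∧ (MulAction.orbit ↥(MulAction.stabilizer ↥Cfsg.Co0 v ⊓ MulAction.stabilizer ↥Cfsg.Co0 w ⊓ MulAction.stabilizer ↥Cfsg.Co0 x) y₂).ncard = 462 ∧ (MulAction.orbit ↥(MulAction.stabilizer ↥Cfsg.Co0 v ⊓ MulAction.stabilizer ↥Cfsg.Co0 w ⊓ MulAction.stabilizer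 ↥Cfsg.Co0 x) y₃).ncard = 1232 := by
  open Cfsg.Agent.Spor.Leech Cfsg.Agent.Spor.LC in
  have hv' : nm v = 32 := hv
  have hw' : nm w = 32 := hw
  have hvw' : ip v w = -8 := hvw
  have hu : nm (v + w) = 48 := by rw [nm_add]; omega
  have huv : ip (v + w) v = 24 := by rw [ip_add_left, ip_self, ip_comm]; omega
  have hS : {x : ↥Cfsg.leechLattice | Cfsg.sqNorm (x : Cfsg.GolayPt → ℤ) = 32 ∧ Cfsg.dotInt (v : Cfsg.GolayPt → ℤ) (x : Cfsg.GolayPt → ℤ) = 0 ∧ Cfsg.dotInt (w : Cfsg.GolayPt → ℤ) (x : Cfsg.GolayPt → ℤ) = 16} = V2 (v + w) v 16 0 := by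
    ext x
    show nm x = 32 ∧ ip v x = 0 ∧ ip w x = 16 ↔ nm x = 32 ∧ ip (v + w) x = 16 ∧ ip v x = 0
    rw [ip_add_left]; omega
  have hfix : ∀ g : Cfsg.Co0, g • v = v → (g • (v + w) = v + w ↔ g • w = w) := fun g h1 => by
    rw [smul_add, h1, add_right_inj]
  rw [hS]
  refine ⟨?_, fun x hx x' hx' => ?_, fun x hx => ?_⟩
  · obtain ⟨g, e1, e2⟩ := std_UA hu hv' huv
    rw [← e1, ← e2, ncard_V2_smul, ncard_2025]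
  · obtain ⟨g, hg, e⟩ := trans_of_std (std_UAB hu hv' huv hx) (std_UAB hu hv' huv hx')
    exact ⟨g, hg.2, (hfix g hg.2).1 hg.1, e⟩
  · obtain ⟨g, e1, e2, e3⟩ := std_UAB hu hv' huv hx
    have hH : ∀ a : Cfsg.Co0, a ∈ St3 v w x ↔ a ∈ St3 (v + w) v x := fun a =>
      ⟨fun h => ⟨⟨(hfix a h.1.1).2 h.1.2, h.1.1⟩, h.2⟩,
        fun h => ⟨⟨h.1.2, (hfix a h.1.2).1 h.1.1⟩, h.2⟩⟩
    have key : ∀ (b : ℤ) (n : ℕ), (V3 vU vA vB 16 0 b).ncard = n + 1 → ∃ y, y ∈ V2 (v + w) v 16 0 ∧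
        (MulAction.orbit (St3 v w x) y).ncard = n + 1 := by
      intro b n hn
      rw [← ncard_V3_smul g, e1, e2, e3] at hn
      obtain ⟨y, hy⟩ := nonempty_of_ncard hn
      refine ⟨y, ⟨hy.1, hy.2.1, hy.2.2.1⟩, ?_⟩
      rw [orbit_eq_of_trans hy (fun a ha z hz => smul_mem_V3 ((hH a).1 ha) hz) fun z hz => ?_, hn]
      obtain ⟨a, ha, e⟩ := conj_trans3 g (trans16AB (x := g⁻¹ • y) (x' := g⁻¹ • z)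
        (inv_smul_mem_XU hy.1 (by rw [e1, hy.2.1])) (inv_smul_mem_XU hz.1 (by rw [e1, hz.2.1]))
        (by rw [← ip_smul_left, e2, hy.2.2.1]) (by rw [← ip_smul_left, e2, hz.2.2.1])
        (by rw [← ip_smul_left, ← ip_smul_left, e3, hy.2.2.2, hz.2.2.2]))
      rw [e1, e2, e3] at ha
      exact ⟨a, (hH a).2 ha, e⟩
    obtain ⟨y1, a1, b1⟩ := key _ 329 ncard_330
    obtain ⟨y2, a2, b2⟩ := key _ 461 ncard_462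
    obtain ⟨y3, a3, b3⟩ := key _ 1231 ncard_1232
    exact ⟨y1, a1, y2, a2, y3, a3, b1, b2, b3⟩

end Cfsg.Agent.S1634
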