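import Mathlib
import Cfsg.Statements.S1635
import Cfsg.Agent.Spor.GolayCount
import Cfsg.Agent.Spor.Golay
-- import your own Cfsg.Agent.* helpers here

set_option autoImplicit false
open Cfsg

namespace Cfsg.Agent.S1635

/-- Coset leaders of the length-24 code: a coset contains a unique word of weight ≤ 3, or else exactly six words of weight 4 and none lighter. -/
theorem result (w : Cfsg.GolayPt → ZMod 2) : ({v : Cfsg.GolayPt → ZMod 2 | hammingNorm v ≤ 4 ∧ w - v ∈ Cfsg.golayCode}.ncard = 1 ∧ ∃ v : Cfsg.GolayPt → ZMod 2, hammingNorm v ≤ 3 ∧ w - v ∈ Cfsg.golayCode) ∨ ({v : Cfsg.GolayPt → ZMod 2 | hammingNorm v ≤ 4 ∧ w - v ∈ Cfsg.golayCode}.ncard = 6 ∧ ∀ v : Cfsg.GolayPt → ZMod 2, w - v ∈ Cfsg.golayCode → hammingNorm v ≤ 4 → hammingNorm v = 4) := by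
  have hset : {v : Cfsg.GolayPt → ZMod 2 | hammingNorm v ≤ 4 ∧ w - v ∈ Cfsg.golayCode} =
      {u : Cfsg.GolayPt → ZMod 2 | u - w ∈ golayCode ∧ hammingNorm u ≤ 4} := by
    ext u
    simp only [Set.mem_ofPred_eq, Spor.BinCode.word_sub_eq_add, add_comm w u, and_comm]
  rcases Spor.Golay.isGolay.coset_words w with ⟨u, hu, hu3⟩ | ⟨h6, h⟩
  · left
    refine ⟨by rw [hset, hu, Set.ncard_singleton], u, hu3, ?_⟩
    have : u ∈ {v : Cfsg.GolayPt → ZMod 2 | hammingNorm v ≤ 4 ∧ w - v ∈ Cfsg.golayCode} := by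
      rw [hset, hu]; rfl
    exact this.2
  · right
    refine ⟨by rw [hset, h6], fun v hv hv4 => (h v ?_).1⟩
    rw [← hset]
    exact ⟨hv4, hv⟩

end Cfsg.Agent.S1635
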