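import Mathlib
import Cfsg.Statements.S1636
import Cfsg.Agent.Spor.GolayCount
import Cfsg.Agent.Spor.Golay
-- import your own Cfsg.Agent.* helpers here

set_option autoImplicit false
open Cfsg

namespace Cfsg.Agent.S1636

open Spor.BinCode Spor.Golay Finset

theorem norm_res (s : Finset GolayPt) :
    hammingNorm (fun x : ZMod 23 => ind s (some x)) + (if none ∈ s then 1 else 0) = s.card := by
  rw [← hammingNorm_ind s]
  generalize hw : ind s = w
  have : none ∈ s ↔ w none ≠ 0 := by rw [← hw]; simp [ind]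
  simp only [hammingNorm, card_filter, Fintype.sum_option, this, add_comm]

theorem res_injOn : Set.InjOn (fun (s : Finset GolayPt) (x : ZMod 23) => ind s (some x))
    {s | ind s ∈ golayCode} := by
  intro s hs t ht hst
  rcases eq_or_eight_le isGolay.min (golayCode.add_mem hs ht) with h | h
  · exact h
  · exfalso
    have h1 := card_symmDiff_add s t
    have h2 := norm_res (symmDiff s t)
    have h3 : (fun x : ZMod 23 => ind (symmDiff s t) (some x)) = 0 := by
      funext x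
      have := congrFun hst x
      simp only at this
      rw [ind_symmDiff, Pi.add_apply, this, zmod2_add_self]; rfl
    rw [h3, hammingNorm_zero] at h2
    split_ifs at h2 <;> omega

theorem count (P : (ZMod 23 → ZMod 2) → Prop) (Q : Finset GolayPt → Prop)
    (hQ : ∀ s, Q s ↔ ind s ∈ golayCode ∧ P fun x => ind s (some x)) :
    {u : ZMod 23 → ZMod 2 | u ∈ {u : ZMod 23 → ZMod 2 | ∃ w ∈ Cfsg.golayCode,
      ∀ x : ZMod 23, u x = w (some x)} ∧ P u}.ncard = {s | Q s}.ncard := by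
  rw [← Set.InjOn.ncard_image (s := {s | Q s}) (res_injOn.mono fun s hs => ((hQ s).1 hs).1)]
  congr 1
  ext u
  constructor
  · rintro ⟨⟨w, hw, hu⟩, hP⟩
    have : u = fun x => ind (support₂ w) (some x) := by funext x; simp [hu]
    exact ⟨support₂ w, (hQ _).2 ⟨by simpa using hw, this ▸ hP⟩, this.symm⟩
  · rintro ⟨s, hs, rfl⟩
    exact ⟨⟨_, ((hQ s).1 hs).1, fun x => rfl⟩, ((hQ s).1 hs).2⟩

theorem weight_mem (n : ℕ) (hn : (n + 1) % 4 = 0) (s : Finset GolayPt) :
    (ind s ∈ golayCode ∧ s.card = n + 1) ∧ none ∈ s ↔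
      ind s ∈ golayCode ∧ hammingNorm (fun x : ZMod 23 => ind s (some x)) = n := by
  have h := norm_res s
  constructor
  · rintro ⟨⟨h1, h2⟩, h3⟩
    rw [if_pos h3] at h
    exact ⟨h1, by omega⟩
  · rintro ⟨h1, h2⟩
    have := isGolay.four_dvd_card h1
    split_ifs at h with h3
    · exact ⟨⟨h1, by omega⟩, h3⟩
    · omega

theorem weight_notMem (n : ℕ) (hn : n % 4 = 0) (s : Finset GolayPt) :
    (ind s ∈ golayCode ∧ s.card = n) ∧ none ∉ s ↔
      ind s ∈ golayCode ∧ hammingNorm (fun x : ZMod 23 => ind s (some x)) = n := by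
  have h := norm_res s
  constructor
  · rintro ⟨⟨h1, h2⟩, h3⟩
    rw [if_neg h3] at h
    exact ⟨h1, by omega⟩
  · rintro ⟨h1, h2⟩
    have := isGolay.four_dvd_card h1
    split_ifs at h with h3
    · omega
    · exact ⟨⟨h1, by omega⟩, h3⟩

/-- The punctured length-23 code has weight distribution 0^1 7^253 8^506 11^1288 12^1288 15^506 16^253 23^1. -/
theorem result : {u : ZMod 23 → ZMod 2 | ∃ w ∈ Cfsg.golayCode, ∀ x : ZMod 23, u x = w (some x)}.ncard = 4096 ∧ {u : ZMod 23 → ZMod 2 | u ∈ {u : ZMod 23 → ZMod 2 | ∃ w ∈ Cfsg.golayCode, ∀ x : ZMod 23, u x = w (some x)} ∧ hammingNorm u = 7}.ncard = 253 ∧ {u : ZMod 23 → ZMod 2 | u ∈ {u : ZMod 23 → ZMod 2 | ∃ w ∈ Cfsg.golayCode, ∀ x : ZMod 23, u x = w (some x)} ∧ hammingNorm u = 8}.ncard = 506 ∧ {u : ZMod 23 → ZMod 2 | u ∈ {u : ZMod 23 → ZMod 2 | ∃ w ∈ Cfsg.golayCode, ∀ x : ZMod 23, u x = w (some x)} ∧ hammingNorm u = 11}.ncard = 1288 ∧ {u : ZMod 23 → ZMod 2 | u ∈ {u : ZMod 23 → ZMod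 2 | ∃ w ∈ Cfsg.golayCode, ∀ x : ZMod 23, u x = w (some x)} ∧ hammingNorm u = 12}.ncard = 1288 ∧ {u : ZMod 23 → ZMod 2 | u ∈ {u : ZMod 23 → ZMod 2 | ∃ w ∈ Cfsg.golayCode, ∀ x : ZMod 23, u x = w (some x)} ∧ hammingNorm u = 15}.ncard = 506 ∧ {u : ZMod 23 → ZMod 2 | u ∈ {u : ZMod 23 → ZMod 2 | ∃ w ∈ Cfsg.golayCode, ∀ x : ZMod 23, u x = w (some x)} ∧ hammingNorm u = 16}.ncard = 253 ∧ ∀ u ∈ {u : ZMod 23 → ZMod 2 | ∃ w ∈ Cfsg.golayCode, ∀ x : ZMod 23, u x = w (some x)}, u ≠ 0 → 7 ≤ hammingNorm u := by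
  refine ⟨?_, ?_, ?_, ?_, ?_, ?_, ?_, ?_⟩
  · rw [← isGolay.ncard_code, ← count (fun _ => True) _ (fun s => by simp)]
    simp
  · rw [count _ _ (weight_mem 7 rfl), isGolay.ncard_eight_mem]
  · rw [count _ _ (weight_notMem 8 rfl), isGolay.ncard_eight_notMem]
  · rw [count _ _ (weight_mem 11 rfl), (isGolay.ncard_twelve_mem _).1]
  · rw [count _ _ (weight_notMem 12 rfl), (isGolay.ncard_twelve_mem _).2]
  · rw [count _ _ (weight_mem 15 rfl), isGolay.ncard_sixteen_mem]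
  · rw [count _ _ (weight_notMem 16 rfl), isGolay.ncard_sixteen_notMem]
  · rintro u ⟨w, hw, hu⟩ h0
    have h1 : u = fun x => ind (support₂ w) (some x) := by funext x; simp [hu]
    have h2 := norm_res (support₂ w)
    have h3 : w ≠ 0 := by
      rintro rfl
      exact h0 (funext hu)
    have h4 := isGolay.min w hw h3
    rw [hammingNorm_eq_card] at h4
    rw [← h1] at h2
    split_ifs at h2 <;> omega

end Cfsg.Agent.S1636
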