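import Mathlib
import Cfsg.Statements.S1637
import Cfsg.Agent.Spor.GolayCount
import Cfsg.Agent.Spor.Golay
-- import your own Cfsg.Agent.* helpers here

set_option autoImplicit false
open Cfsg

namespace Cfsg.Agent.S1637

open Spor.BinCode Spor.Golay Finset

theorem norm_res (w : GolayPt → ZMod 2) :
    hammingNorm (fun x : ZMod 23 => w (some x)) + (if w none = 0 then 0 else 1) = hammingNorm w := by
  simp only [hammingNorm, card_filter, Fintype.sum_option]
  split_ifs <;> simp_all [add_comm]

/-- The punctured length-23 code is a perfect 3-error-correcting code: each word of length 23 is within distance 3 of exactly one codeword. -/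
theorem result (u : ZMod 23 → ZMod 2) : ∃! c : ZMod 23 → ZMod 2, c ∈ {u : ZMod 23 → ZMod 2 | ∃ w ∈ Cfsg.golayCode, ∀ x : ZMod 23, u x = w (some x)} ∧ hammingDist u c ≤ 3 := by
  obtain ⟨w, hw, hodd⟩ : ∃ w : GolayPt → ZMod 2, (∀ x, w (some x) = u x) ∧
      ¬ Even (hammingNorm w) := by
    by_cases h : Even (hammingNorm u)
    · refine ⟨fun x => x.elim 1 u, fun x => rfl, ?_⟩
      rw [← norm_res]
      simpa [Nat.even_add_one] using h
    · refine ⟨fun x => x.elim 0 u, fun x => rfl, ?_⟩
      rw [← norm_res]
      simpa using h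
  obtain ⟨t, ht, hwt⟩ := isGolay.exists_small w
  have ht3 : t.card ≤ 3 := by
    by_contra h
    have h4 : t.card = 4 := by omega
    rw [← ind_support w, ← ind_symmDiff] at hwt
    have h1 := isGolay.even_card hwt
    have h2 := card_symmDiff_add (support₂ w) t
    rw [hammingNorm_eq_card] at hodd
    rw [Nat.even_iff] at h1 hodd
    omega
  have hdist : hammingDist u (fun x => (w + ind t) (some x)) ≤ 3 := by
    have h1 := norm_res (ind t)
    rw [hammingNorm_ind] at h1
    have h2 : hammingDist u (fun x => (w + ind t) (some x)) =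
        hammingNorm (fun x : ZMod 23 => ind t (some x)) := by
      simp only [hammingDist, hammingNorm, Pi.add_apply, hw]
      congr 1
      ext x
      simp
    omega
  refine ⟨fun x => (w + ind t) (some x), ⟨⟨_, hwt, fun x => rfl⟩, hdist⟩, ?_⟩
  rintro c ⟨⟨w', hw', hc⟩, hcd⟩
  have h1 := hammingDist_triangle_left c (fun x => (w + ind t) (some x)) u
  have h2 : w' - (w + ind t) = 0 := by
    by_contra hne
    have h3 := isGolay.min _ (golayCode.sub_mem hw' hwt) hne
    have h4 := norm_res (w' - (w + ind t))
    have h5 : hammingNorm (fun x : ZMod 23 => (w' - (w + ind t)) (some x)) =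
        hammingDist c (fun x => (w + ind t) (some x)) := by
      simp only [hammingDist, hammingNorm, Pi.sub_apply, ne_eq, sub_eq_zero, hc]
    split_ifs at h4 <;> omega
  rw [sub_eq_zero] at h2
  funext x
  rw [hc, h2]

end Cfsg.Agent.S1637
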