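import Mathlib
import Cfsg.Agent.Spor.MB.SmallOrb
import Cfsg.Statements.S1638
-- import your own Cfsg.Agent.* helpers here

set_option autoImplicit false
open scoped Pointwise
open Cfsg

namespace Cfsg.Agent.S1638

open Cfsg.Agent.Spor Cfsg.Agent.Spor.MB MulAction

theorem gens : Gens (Stab [8388608, 1, 6]) [979454170028925383069779764742161472, 971858804438027652594509049969149984] := gens_Stab (by decide +kernel)

theorem fix4 {h : PG} (hh : h ∈ Stab [8388608, 1, 6]) : h • unmask 8388615 = unmask 8388615 := by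
  have : unmask 8388615 = unmask 8388608 ∪ unmask 1 ∪ unmask 6 := by decide +kernel
  rw [this, ← smul_union, ← smul_union, Stab_smul hh (by simp), Stab_smul hh (by simp),
    Stab_smul hh (by simp)]

theorem cnt : {y : Finset GolayPt | y.card = 2 ∧ pt 23 ∉ y ∧ pt 0 ∉ y}.ncard = 231 := by
  have := ncard_disjoint_card {pt 23, pt 0} 2
  rw [show Nat.choose (24 - ({pt 23, pt 0} : Finset GolayPt).card) 2 = 231 by decide +kernel] at this
  exact ncard_congr_iff this fun y => by simp

theorem base :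
    (∀ i, {y : Finset GolayPt | y ∈ {y : Finset GolayPt | y.card = 2 ∧ pt 23 ∉ y ∧ pt 0 ∉ y} ∧ 2 * (unmask 6 ∩ y).card + octInd (unmask 8388615 ∪ y) = ![5, 1, 3, 0] i}.ncard = ![1, 30, 40, 160] i) ∧
    (∀ y ∈ {y : Finset GolayPt | y.card = 2 ∧ pt 23 ∉ y ∧ pt 0 ∉ y}, ∀ y' ∈ {y : Finset GolayPt | y.card = 2 ∧ pt 23 ∉ y ∧ pt 0 ∉ y}, 2 * (unmask 6 ∩ y).card + octInd (unmask 8388615 ∪ y) = 2 * (unmask 6 ∩ y').card + octInd (unmask 8388615 ∪ y') →
      ∃ h : ↥(Stab [8388608, 1, 6]), h • y = y') ∧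
    ∀ y ∈ {y : Finset GolayPt | y.card = 2 ∧ pt 23 ∉ y ∧ pt 0 ∉ y}, ∃ i, 2 * (unmask 6 ∩ y).card + octInd (unmask 8388615 ∪ y) = ![5, 1, 3, 0] i := by
  refine orbit_partition' (H := ↥(Stab [8388608, 1, 6])) (T := {y : Finset GolayPt | y.card = 2 ∧ pt 23 ∉ y ∧ pt 0 ∉ y}) (Set.toFinite _)
    (fun h y hy => ⟨(Finset.card_smul_finset (h : PG) y).trans hy.1,
      (mem_smul_iff_of_fix (Stab_apply h.2 23 (by norm_num) (by simp))).not.2 hy.2.1,
      (mem_smul_iff_of_fix (Stab_apply h.2 0 (by norm_num) (by simp))).not.2 hy.2.2⟩) (f := fun y => 2 * (unmask 6 ∩ y).card + octInd (unmask 8388615 ∪ y))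
    (fun h y _ => by
      change 2 * (_ ∩ (h : PG) • y).card + octInd (_ ∪ (h : PG) • y) = _
      rw [card_inter_of_fix (Stab_smul h.2 (by simp)), union_smul_of_fix (fix4 h.2),
        octInd_smul h.2.1])
    ![unmask 6, unmask 40, unmask 10, unmask 24] ?_ _
    (by
      simp only [Fin.forall_fin_succ]
      refine ⟨?_, ?_, ?_, ?_, finZeroElim⟩ <;>
      · simp only [Matrix.cons_val_zero, Matrix.cons_val_succ]
        rw [← unmask_lor, octInd_unmask (by decide +kernel)]
        decide +kernel) (by decide) _ ?_ (by rw [cnt]; decide)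
  · simp only [Fin.forall_fin_succ]
    refine ⟨?_, ?_, ?_, ?_, finZeroElim⟩
    · exact ⟨(card_unmask _).trans (by decide +kernel), by decide +kernel⟩
    · exact ⟨(card_unmask _).trans (by decide +kernel), by decide +kernel⟩
    · exact ⟨(card_unmask _).trans (by decide +kernel), by decide +kernel⟩
    · exact ⟨(card_unmask _).trans (by decide +kernel), by decide +kernel⟩
  · simp only [Fin.forall_fin_succ]
    exact ⟨setM.le_ncard_orbit (Stab_le _) gens (setM_R (by norm_num))
        1 0 0x0 (by decide +kernel),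
      setM.le_ncard_orbit (Stab_le _) gens (setM_R (by norm_num))
        30 32 0x11111200112111112112011111211111 (by decide +kernel),
      setM.le_ncard_orbit (Stab_le _) gens (setM_R (by norm_num))
        40 68 0x12000000000000000000000000011111201201111120111112111112011111211111 (by decide +kernel),
      setM.le_ncard_orbit (Stab_le _) gens (setM_R (by norm_num))
        160 220 0x1111120000011200000020000112001111120000000112000011111200011111200000000000001111120000000011111201111121111120112111112011111201111121111121111120111112111112112001111121111121111120111112111112011111211111211111211111 (by decide +kernel),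
      finZeroElim⟩

theorem disj_iff {s t : Finset GolayPt} : Disjoint s t ↔ (s ∩ t).card = 0 := by
  rw [Finset.card_eq_zero, Finset.disjoint_iff_inter_eq_empty]

theorem oct_iff {g : PG} (hg : g ∈ M24) (t : Finset GolayPt) :
    (∃ o ∈ octads, g (pt 23) ∈ o ∧ g (pt 0) ∈ o ∧ g • unmask 6 ∪ g • t ⊆ o) ↔
      InOctad (unmask 8388615 ∪ t) := by
  have : unmask 8388615 = {pt 23} ∪ ({pt 0} ∪ unmask 6) := by decide +kernel
  rw [← inOctad_smul_iff hg, this, Finset.union_assoc, Finset.union_assoc, ← smul_union,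
    ← smul_union, ← smul_union, Finset.smul_finset_singleton, Finset.smul_finset_singleton]
  simp only [InOctad, Finset.union_subset_iff, Finset.singleton_subset_iff, Equiv.Perm.smul_def]

theorem wlog {p q : GolayPt} (hpq : p ≠ q) {s : Finset GolayPt}
    (hs : s.card = 2 ∧ p ∉ s ∧ q ∉ s) :
    ∃ g ∈ M24, g (pt 23) = p ∧ g (pt 0) = q ∧ g • unmask 6 = s := by
  obtain ⟨a, b, hab, rfl⟩ := Finset.card_eq_two.1 hs.1
  simp only [Finset.mem_insert, Finset.mem_singleton, not_or] at hs
  obtain ⟨-, ⟨h1, h2⟩, h3, h4⟩ := hs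
  obtain ⟨g, hg, h⟩ := exists_map_base_five 4 (by norm_num) (fun i => [p, q, a, b].getD i p) (by
    intro i hi j hj
    interval_cases i <;> interval_cases j <;> simp <;>
      first | exact Ne.symm ‹_› )
  refine ⟨g, hg, h 0 (by norm_num), h 1 (by norm_num), ?_⟩
  have : unmask 6 = {pt (bi 2), pt (bi 3)} := by decide +kernel
  rw [this, Finset.smul_finset_insert, Finset.smul_finset_singleton, Equiv.Perm.smul_def,
    Equiv.Perm.smul_def, h 2 (by norm_num), h 3 (by norm_num)]
  rfl

/-- Fix two points p ≠ q and a pair s of two further points. Among the pairs avoiding p, q and disjoint from s, exactly 30 lie in an octad together with p, q and s and exactly 160 do not; and any two pairs other than s that meet s in equally many points and agree on that octad property are carried to one another by an element of the group of the length-24 code fixing p, q and s. -/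
theorem result (p q : Cfsg.GolayPt) (hpq : p ≠ q) (s : Finset Cfsg.GolayPt) (hs : (s.card = 2 ∧ p ∉ s ∧ q ∉ s)) : {t : Finset Cfsg.GolayPt | (t.card = 2 ∧ p ∉ t ∧ q ∉ t) ∧ Disjoint s t ∧ (∃ o ∈ Cfsg.octads, p ∈ o ∧ q ∈ o ∧ s ∪ t ⊆ o)}.ncard = 30 ∧ {t : Finset Cfsg.GolayPt | (t.card = 2 ∧ p ∉ t ∧ q ∉ t) ∧ Disjoint s t ∧ ¬ (∃ o ∈ Cfsg.octads, p ∈ o ∧ q ∈ o ∧ s ∪ t ⊆ o)}.ncard = 160 ∧ ∀ t t' : Finset Cfsg.GolayPt, (t.card = 2 ∧ p ∉ t ∧ q ∉ t) → (t'.card = 2 ∧ p ∉ t' ∧ q ∉ t') → t ≠ s → t' ≠ s → (s ∩ t).card = (s ∩ t').card → ((∃ o ∈ Cfsg.octads, p ∈ o ∧ q ∈ o ∧ s ∪ t ⊆ o) ↔ (∃ o ∈ Cfsg.octads, p ∈ o ∧ q ∈ o ∧ s ∪ t' ⊆ o)) → ∃ g : Equiv.Perm Cfsg.GolayPt, g ∈ Cfsg.M24 ∧ g p = p ∧ g q = q ∧ g • s = s ∧ g • t = t' := by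
  obtain ⟨g, hg, rfl, rfl, rfl⟩ := wlog hpq hs
  refine ⟨?_, ?_, ?_⟩
  · rw [ncard_smul_eq g (A := {t : Finset GolayPt | (t.card = 2 ∧ pt 23 ∉ t ∧ pt 0 ∉ t) ∧
      Disjoint (unmask 6) t ∧ InOctad (unmask 8388615 ∪ t)}) (by
      intro y
      simp only [Set.mem_ofPred_eq, oct_iff hg, disjoint_smul_iff, apply_mem_smul_iff,
        Finset.card_smul_finset])]
    refine ncard_congr_iff (base.1 1) fun y => and_congr_right fun _ => ?_
    have := octInd_le (unmask 8388615 ∪ y)
    rw [disj_iff, ← octInd_eq_one]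
    change _ ↔ _ = 1
    omega
  · rw [ncard_smul_eq g (A := {t : Finset GolayPt | (t.card = 2 ∧ pt 23 ∉ t ∧ pt 0 ∉ t) ∧
      Disjoint (unmask 6) t ∧ ¬ InOctad (unmask 8388615 ∪ t)}) (by
      intro y
      simp only [Set.mem_ofPred_eq, oct_iff hg, disjoint_smul_iff, apply_mem_smul_iff,
        Finset.card_smul_finset])]
    refine ncard_congr_iff (base.1 3) fun y => and_congr_right fun _ => ?_
    rw [disj_iff, ← octInd_eq_zero]
    change _ ↔ _ = 0
    omega
  · intro U U' h1 h2 _ _ h4 h5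
    obtain ⟨U, rfl⟩ := exists_eq_smul g U
    obtain ⟨U', rfl⟩ := exists_eq_smul g U'
    simp only [oct_iff hg, card_smul_inter, apply_mem_smul_iff,
      Finset.card_smul_finset] at h1 h2 h4 h5
    obtain ⟨k, e⟩ := base.2.1 U h1 U' h2 (by rw [h4, octInd_eq_iff.2 h5])
    exact ⟨_, conj_mem_M24 hg k.2.1,
      conj_apply_apply g (Stab_apply k.2 23 (by norm_num) (by simp)),
      conj_apply_apply g (Stab_apply k.2 0 (by norm_num) (by simp)),
      conj_smul_smul g (Stab_smul k.2 (by simp)), conj_smul_smul g e⟩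

end Cfsg.Agent.S1638
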