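import Mathlib
import Cfsg.Statements.S1640
import Cfsg.Agent.Spor.LC.Std

set_option autoImplicit false
open Cfsg

namespace Cfsg.Agent.S1640

/-- The stabiliser of a vector of customary norm 6 is transitive on the 11178 minimal vectors of customary inner product −2 with it. -/
theorem result (u : ↥Cfsg.leechLattice) (hu : Cfsg.sqNorm (u : Cfsg.GolayPt → ℤ) = 48) : {x : ↥Cfsg.leechLattice | Cfsg.sqNorm (x : Cfsg.GolayPt → ℤ) = 32 ∧ Cfsg.dotInt (u : Cfsg.GolayPt → ℤ) (x : Cfsg.GolayPt → ℤ) = -16}.ncard = 11178 ∧ ∀ x ∈ {x : ↥Cfsg.leechLattice | Cfsg.sqNorm (x : Cfsg.GolayPt → ℤ) = 32 ∧ Cfsg.dotInt (u : Cfsg.GolayPt → ℤ) (x : Cfsg.GolayPt → ℤ) = -16}, ∀ x' ∈ {x : ↥Cfsg.leechLattice | Cfsg.sqNorm (x : Cfsg.GolayPt → ℤ) = 32 ∧ Cfsg.dotInt (u : Cfsg.GolayPt → ℤ) (x : Cfsg.GolayPt → ℤ) = -16}, ∃ g : ↥Cfsg.Co0, g • u = u ∧ g • x = x' := by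
  open Cfsg.Agent.Spor.Leech Cfsg.Agent.Spor.LC in
  have hu' : nm (-u) = 48 := by rw [nm_neg]; exact hu
  obtain ⟨g, e1⟩ := std_U hu'
  have hS : ∀ x, g • x ∈ {x : ↥Cfsg.leechLattice | Cfsg.sqNorm (x : Cfsg.GolayPt → ℤ) = 32 ∧ Cfsg.dotInt (u : Cfsg.GolayPt → ℤ) (x : Cfsg.GolayPt → ℤ) = -16} ↔ x ∈ XU 16 := by
    intro x
    show nm (g • x) = 32 ∧ ip u (g • x) = -16 ↔ nm x = 32 ∧ ip vU x = 16
    rw [nm_smul, ← ip_smul g vU x, e1, ip_neg_left]; omega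
  refine ⟨(ncard_transport g hS).trans tbl16.ncard, fun x hx x' hx' => ?_⟩
  obtain ⟨a, ha, e⟩ := trans16 ((hS (g⁻¹ • x)).1 (by rwa [smul_inv_smul]))
    ((hS (g⁻¹ • x')).1 (by rwa [smul_inv_smul]))
  refine ⟨g * a * g⁻¹, ?_, ?_⟩
  · have := conj_smul_fix g (MulAction.mem_stabilizer_iff.1 ha)
    rw [e1, smul_neg] at this
    exact neg_injective this
  · show (g * a * g⁻¹) • x = x'
    rw [mul_smul, mul_smul, e, smul_inv_smul]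

end Cfsg.Agent.S1640
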