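import Mathlib
import Cfsg.Statements.S1641
import Cfsg.Agent.Spor.LC.Std

set_option autoImplicit false
open Cfsg

namespace Cfsg.Agent.S1641

/-- The third Conway group acts on the 11178 cosets of the Higman–Sims group with rank 5 and subdegrees 1, 352, 1100, 4125, 5600. -/
theorem result (u x : ↥Cfsg.leechLattice) (hu : Cfsg.sqNorm (u : Cfsg.GolayPt → ℤ) = 48) (hx : x ∈ {x : ↥Cfsg.leechLattice | Cfsg.sqNorm (x : Cfsg.GolayPt → ℤ) = 32 ∧ Cfsg.dotInt (u : Cfsg.GolayPt → ℤ) (x : Cfsg.GolayPt → ℤ) = -16}) : ∃ y₁ ∈ {x : ↥Cfsg.leechLattice | Cfsg.sqNorm (x : Cfsg.GolayPt → ℤ) = 32 ∧ Cfsg.dotInt (u : Cfsg.GolayPt → ℤ) (x : Cfsg.GolayPt → ℤ) = -16}, ∃ y₂ ∈ {x : ↥Cfsg.leechLattice | Cfsg.sqNorm (x : Cfsg.GolayPt → ℤ) = 32 ∧ Cfsg.dotInt (u : Cfsg.GolayPt → ℤ) (x : Cfsg.GolayPt → ℤ) = -16}, ∃ y₃ ∈ {x : ↥Cfsg.leechLattice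 | Cfsg.sqNorm (x : Cfsg.GolayPt → ℤ) = 32 ∧ Cfsg.dotInt (u : Cfsg.GolayPt → ℤ) (x : Cfsg.GolayPt → ℤ) = -16}, ∃ y₄ ∈ {x : ↥Cfsg.leechLattice | Cfsg.sqNorm (x : Cfsg.GolayPt → ℤ) = 32 ∧ Cfsg.dotInt (u : Cfsg.GolayPt → ℤ) (x : Cfsg.GolayPt → ℤ) = -16}, (MulAction.orbit ↥(MulAction.stabilizer ↥Cfsg.Co0 u ⊓ MulAction.stabilizer ↥Cfsg.Co0 x) y₁).ncard = 352 ∧ (MulAction.orbit ↥(MulAction.stabilizer ↥Cfsg.Co0 u ⊓ MulAction.stabilizer ↥Cfsg.Co0 x) y₂).ncard = 1100 ∧ (MulAction.orbit ↥(MulAction.stabilizer ↥Cfsg.Co0 u ⊓ MulAction.stabilizer ↥Cfsg.Co0 x) y₃).ncard = 4125 ∧ (MulAction.orbit ↥(MulAction.stabilizer ↥Cfsg.Co0 u ⊓ MulAction.stabilizer ↥Cfsg.Co0 x) y₄).ncard = 5600 ∧ {x : ↥Cfsg.leechLattice | Cfsg.sqNorm (x : Cfsg.GolayPt → ℤ) = 32 ∧ Cfsg.dotInt (u : Cfsg.GolayPt → ℤ) (x : Cfsg.GolayPt → ℤ) = -16} = {x} ∪ MulAction.orbit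 ↥(MulAction.stabilizer ↥Cfsg.Co0 u ⊓ MulAction.stabilizer ↥Cfsg.Co0 x) y₁ ∪ MulAction.orbit ↥(MulAction.stabilizer ↥Cfsg.Co0 u ⊓ MulAction.stabilizer ↥Cfsg.Co0 x) y₂ ∪ MulAction.orbit ↥(MulAction.stabilizer ↥Cfsg.Co0 u ⊓ MulAction.stabilizer ↥Cfsg.Co0 x) y₃ ∪ MulAction.orbit ↥(MulAction.stabilizer ↥Cfsg.Co0 u ⊓ MulAction.stabilizer ↥Cfsg.Co0 x) y₄ := by
  open Cfsg.Agent.Spor.Leech Cfsg.Agent.Spor.LC in
  have hu' : nm (-u) = 48 := by rw [nm_neg]; exact hu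
  have hx1 : nm x = 32 := hx.1
  have hx2 : ip u x = -16 := hx.2
  obtain ⟨g, e1, e2⟩ := std_UB hu' hx1 (by rw [ip_neg_left]; omega)
  have hH : ∀ a : Cfsg.Co0, a ∈ St2 u x ↔ a ∈ St2 (-u) x := fun a => by
    rw [mem_St2, mem_St2, smul_neg, neg_inj]
  have key : ∀ (b : ℤ) (n : ℕ), (V2 vU vB 16 b).ncard = n + 1 → ∃ y, y ∈ V2 (-u) x 16 b ∧
      MulAction.orbit (St2 u x) y = V2 (-u) x 16 b ∧ (V2 (-u) x 16 b).ncard = n + 1 := by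
    intro b n hn
    rw [← ncard_V2_smul g, e1, e2] at hn
    obtain ⟨y, hy⟩ := nonempty_of_ncard hn
    refine ⟨y, hy, orbit_eq_of_trans hy (fun a ha z hz => smul_mem_V2 ((hH a).1 ha) hz)
      fun z hz => ?_, hn⟩
    obtain ⟨a, ha, e⟩ := conj_trans2 g (trans16B (x := g⁻¹ • y) (x' := g⁻¹ • z)
      (inv_smul_mem_XU hy.1 (by rw [e1, hy.2.1])) (inv_smul_mem_XU hz.1 (by rw [e1, hz.2.1]))
      (by rw [← ip_smul_left, ← ip_smul_left, e2, hy.2.2, hz.2.2]))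
    rw [e1, e2] at ha
    exact ⟨a, (hH a).2 ha, e⟩
  have hm : ∀ {y : Λ} {b : ℤ}, y ∈ V2 (-u) x 16 b → y ∈ {x : ↥Cfsg.leechLattice | Cfsg.sqNorm (x : Cfsg.GolayPt → ℤ) = 32 ∧ Cfsg.dotInt (u : Cfsg.GolayPt → ℤ) (x : Cfsg.GolayPt → ℤ) = -16} := by
    intro y b hy
    have h1 := hy.2.1
    rw [ip_neg_left] at h1
    exact ⟨hy.1, show ip u y = -16 by omega⟩
  obtain ⟨y1, a1, b1, c1⟩ := key _ 351 ncard_352'
  obtain ⟨y2, a2, b2, c2⟩ := key _ 1099 ncard_1100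
  obtain ⟨y3, a3, b3, c3⟩ := key _ 4124 ncard_4125
  obtain ⟨y4, a4, b4, c4⟩ := key _ 5599 ncard_5600
  refine ⟨y1, hm a1, y2, hm a2, y3, hm a3, y4, hm a4, (congrArg _ b1).trans c1,
    (congrArg _ b2).trans c2, (congrArg _ b3).trans c3, (congrArg _ b4).trans c4, ?_⟩
  refine Eq.trans ?_ (show {x} ∪ V2 (-u) x 16 (-8) ∪ V2 (-u) x 16 16 ∪ V2 (-u) x 16 0 ∪
    V2 (-u) x 16 8 = _ by rw [← b1, ← b2, ← b3, ← b4])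
  ext z
  simp only [Set.mem_union, Set.mem_singleton_iff]
  constructor
  · intro hz
    have h1 : nm z = 32 := hz.1
    have h2 : ip u z = -16 := hz.2
    have h3 : ip (-u) z = 16 := by rw [ip_neg_left]; omega
    rcases ip_cases16 hu' hx1 h1 (by rw [ip_neg_left]; omega) h3 with h | h | h | h | h
    · exact Or.inl (Or.inl (Or.inl (Or.inl h.symm)))
    · exact Or.inl (Or.inl (Or.inl (Or.inr ⟨h1, h3, h⟩)))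
    · exact Or.inl (Or.inr ⟨h1, h3, h⟩)
    · exact Or.inr ⟨h1, h3, h⟩
    · exact Or.inl (Or.inl (Or.inr ⟨h1, h3, h⟩))
  · rintro ((((rfl | h) | h) | h) | h)
    exacts [hx, hm h, hm h, hm h, hm h]

end Cfsg.Agent.S1641
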