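import Mathlib
import Cfsg.Statements.S1642
import Cfsg.Agent.Spor.LC.Std

set_option autoImplicit false
open Cfsg

namespace Cfsg.Agent.S1642

/-- Some involution of the Higman–Sims group acts without fixed points on its 100 points. -/
theorem result (v w : ↥Cfsg.leechLattice) (hv : Cfsg.sqNorm (v : Cfsg.GolayPt → ℤ) = 48) (hw : Cfsg.sqNorm (w : Cfsg.GolayPt → ℤ) = 48) (hvw : Cfsg.dotInt (v : Cfsg.GolayPt → ℤ) (w : Cfsg.GolayPt → ℤ) = -32) : ∃ g : ↥Cfsg.Co0, g • v = v ∧ g • w = w ∧ orderOf g = 2 ∧ ∀ x ∈ {x : ↥Cfsg.leechLattice | Cfsg.sqNorm (x : Cfsg.GolayPt → ℤ) = 32 ∧ Cfsg.dotInt (v : Cfsg.GolayPt → ℤ) (x : Cfsg.GolayPt → ℤ) = 24 ∧ Cfsg.dotInt (w : Cfsg.GolayPt → ℤ) (x : Cfsg.GolayPt → ℤ) = -24}, g • x ≠ x := by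
  open Cfsg.Agent.Spor.Leech Cfsg.Agent.Spor.LC in
  have hv' : nm v = 48 := hv
  have hw' : nm w = 48 := hw
  have hvw' : ip v w = -32 := hvw
  have hb : nm (v + w) = 32 := by rw [nm_add]; omega
  have hvb : ip v (v + w) = 16 := by rw [ip_add_right, ip_self]; omega
  have hS : {x : ↥Cfsg.leechLattice | Cfsg.sqNorm (x : Cfsg.GolayPt → ℤ) = 32 ∧ Cfsg.dotInt (v : Cfsg.GolayPt → ℤ) (x : Cfsg.GolayPt → ℤ) = 24 ∧ Cfsg.dotInt (w : Cfsg.GolayPt → ℤ) (x : Cfsg.GolayPt → ℤ) = -24} = V2 v (v + w) 24 0 := by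
    ext x
    show nm x = 32 ∧ ip v x = 24 ∧ ip w x = -24 ↔ nm x = 32 ∧ ip v x = 24 ∧ ip (v + w) x = 0
    rw [ip_add_left]; omega
  have hfix : ∀ g : Cfsg.Co0, g • v = v → g • (v + w) = v + w → g • w = w := fun g h1 h2 => by
    rw [smul_add, h1] at h2; exact add_left_cancel h2
  rw [hS]
  obtain ⟨g, e1, e2⟩ := std_UB hv' hb hvb
  have ht : fixOK [cU, cB] rTi = true := by decide +kernel
  have ht' := matOK_of_fixOK ht
  have t1 : el rTi • vU = vU := fix_of_fixOK ht (by rw [nm_vU]; norm_num) (by simp [cd_vU])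
  have t2 : el rTi • vB = vB := fix_of_fixOK ht (by rw [nm_vB]; norm_num) (by simp [cd_vB])
  have t3 : ∀ x ∈ V2 vU vB 24 0, el rTi • x ≠ x := by
    intro x hx e
    have hx' : x ∈ XU 24 := ⟨hx.1, hx.2.1⟩
    have h1 := tbl24.all (q := fun n => Spor.bor (!Nat.beq (tB n) 32) (!Nat.beq (app rTi n) n))
      (by decide +kernel) x hx'
    rw [(tB_eq_iff (a := 32) hx' (by norm_num)).2 hx.2.2, ← cd_el ht' (tbl24.nm_le x hx'), e] at h1
    simp at h1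
  have t4 : el rTi * el rTi = 1 := by
    refine co0_ext_e8 fun i => ?_
    have h1 : ∀ i : Cfsg.GolayPt, app rTi (app rTi (cd (e8 i : Vec))) = cd (e8 i : Vec) := by
      decide +kernel
    rw [mul_smul, one_smul]
    refine cd_inj_nm (by rw [nm_smul, nm_smul, nm_e8]) (by rw [nm_e8]) ?_
    rw [cd_el ht' (by rw [nm_smul, nm_e8]), cd_el ht' (by rw [nm_e8]), h1]
  have t5 : el rTi ≠ 1 := fun e =>
    t3 vA ⟨nm_vA, ip_vU_vA, by rw [ip_comm, ip_vA_vB]⟩ (by rw [e, one_smul])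
  have f1 : (g * el rTi * g⁻¹) • v = v := by rw [← e1]; exact conj_smul_fix g t1
  have f2 : (g * el rTi * g⁻¹) • (v + w) = v + w := by rw [← e2]; exact conj_smul_fix g t2
  refine ⟨g * el rTi * g⁻¹, f1, hfix _ f1 f2, ?_, fun x hx e => ?_⟩
  · have : orderOf (el rTi) = 2 := orderOf_eq_prime (by rw [sq, t4]) t5
    rw [← this]
    exact (MulAut.conj g).orderOf_eq (el rTi)
  · have e' : (g * el rTi * g⁻¹) • x = x := e
    refine t3 (g⁻¹ • x) ⟨by rw [nm_smul, hx.1], by rw [← ip_smul_left, e1, hx.2.1],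
      by rw [← ip_smul_left, e2, hx.2.2]⟩ ?_
    rw [mul_smul, mul_smul] at e'
    rw [eq_inv_smul_iff, e']

end Cfsg.Agent.S1642
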