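import Mathlib
import Cfsg.Agent.Spor.MB.N11
import Cfsg.Statements.S1643
-- import your own Cfsg.Agent.* helpers here

set_option autoImplicit false
open scoped Pointwise
open Cfsg

namespace Cfsg.Agent.S1643

open Cfsg.Agent.Spor Cfsg.Agent.Spor.MB MulAction

/-- Multiplications by squares. -/
abbrev U : Set PG := {g : Equiv.Perm Cfsg.GolayPt | ∃ u : (ZMod 23)ˣ, IsSquare u ∧
  g = Equiv.optionCongr (Units.mulLeft u)}

theorem shift_eq : Equiv.optionCongr (Equiv.addRight (1 : ZMod 23)) = x23 :=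
  code_injective (by rw [code_x23]; decide +kernel)

theorem code_projInv : code projInv = 1795248432537898728475572672376535 := by decide +kernel

theorem U_sub : ∀ g ∈ U, g ∈ Subgroup.zpowers x11 := by
  rintro _ ⟨_, ⟨r, rfl⟩, rfl⟩
  rw [mem_zpowers_x11]
  revert r
  decide +kernel

theorem x11_mem_U : x11 ∈ U :=
  ⟨⟨2, 12, by decide, by decide⟩, ⟨⟨5, 14, by decide, by decide⟩, Units.ext (by decide)⟩,
    code_injective (by rw [code_x11]; decide +kernel)⟩

theorem closure_eq (S : Set PG) (gs : List ℕ) (h1 : ∀ g ∈ S, code g ∈ gs)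
    (h2 : 983435072843990828779021698901151808 ∈ gs)
    (h3 : ∀ c ∈ gs, c = 983435072843990828779021698901151808 ∨ ∃ g ∈ S, code g = c) :
    Subgroup.closure (S ∪ U) = clo gs := by
  apply le_antisymm
  · rw [Subgroup.closure_le]
    rintro g (hg | hg)
    · exact Subgroup.subset_closure (h1 g hg)
    · exact (Subgroup.zpowers_le (H := clo gs)).2
        (Subgroup.subset_closure (show code x11 ∈ gs by rwa [code_x11])) (U_sub g hg)
  · refine Subgroup.closure_mono fun g hg => ?_
    rcases h3 _ hg with e | ⟨g', h, e⟩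
    · rw [← code_x11] at e
      exact Or.inr (code_injective e ▸ x11_mem_U)
    · exact Or.inl (code_injective e ▸ h)

/-- Generators of `L₂(23)`. -/
def gL : List ℕ := [956302485175575353788796878166559809, 1795248432537898728475572672376535, 983435072843990828779021698901151808]

/-- Generators of `23:11`. -/
def gB : List ℕ := [956302485175575353788796878166559809, 983435072843990828779021698901151808]

theorem L_eq : Subgroup.closure ({Equiv.optionCongr (Equiv.addRight (1 : ZMod 23)), projInv} ∪ U) =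
    clo gL := by
  rw [shift_eq]
  apply closure_eq <;> simp [gL, code_x23, code_projInv]

theorem B_eq : Subgroup.closure ({Equiv.optionCongr (Equiv.addRight (1 : ZMod 23))} ∪ U) =
    clo gB := by
  rw [shift_eq]
  apply closure_eq <;> simp [gB, code_x23]

theorem gens_gL : Gens M24 gL := gens_M24 (by decide +kernel)

theorem gens_gB : Gens G23 gB := (gens_M24 (by decide +kernel)).inf_pt (by decide +kernel)

theorem card_L : Nat.card (clo gL) = 6072 :=
  card_clo_of_bsgs ptD gens_gL [(23, 23, 0x11111111111111111111112), (0, 22, 0x1111111111111111111111), (1, 10, 0x1111111111)] _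
    (by decide +kernel) (by decide +kernel)

theorem card_B : Nat.card (clo gB) = 253 :=
  card_clo_of_bsgs ptD gens_gB [(0, 22, 0x1111111111111111111111), (1, 10, 0x1111111111)] _
    (by decide +kernel) (by decide +kernel)

theorem card_over_B {K : Subgroup PG} (hK : K ≤ G23) (h : Gens K gB) :
    Nat.card K = 253 ∨ Nat.card K = 10200960 :=
  card_over_253 hK (h.mem (by simp [gB, code_x23])) (h.mem (by simp [gB, code_x11]))

theorem card_over_L {K : Subgroup PG} (hK : K ≤ M24) (h : Gens K gL) :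
    Nat.card K = 6072 ∨ Nat.card K = 244823040 := by
  have h1 : orbF K (pt 23) = Finset.univ := Finset.eq_univ_iff_forall.2 fun q =>
    mem_orbF.2 (pt_trans h (by norm_num) 8 16777215 (by decide +kernel) q
      (by rw [unmask_full]; exact Finset.mem_univ q))
  have h2 := card_of_trans h1 (pt 23)
  rcases card_over_B (inf_le_inf_right _ hK) ((h.of_sub (by decide +kernel)).inf_pt
    (by decide +kernel)) with e | e <;> rw [e] at h2
  exacts [Or.inl h2, Or.inr h2]

/-- PSL(2, 23) = ⟨t ↦ t+1, t ↦ u t (u square), t ↦ −1/t⟩ is maximal of order 6072 in the group of the length-24 code, and its point stabiliser 23:11 (order 253) is maximal in the Mathieu group of degree 23. -/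
theorem result : (Subgroup.closure ({Equiv.optionCongr (Equiv.addRight (1 : ZMod 23)), Cfsg.projInv} ∪ {g : Equiv.Perm Cfsg.GolayPt | ∃ u : (ZMod 23)ˣ, IsSquare u ∧ g = Equiv.optionCongr (Units.mulLeft u)}) ≤ Cfsg.M24 ∧ Nat.card ↥(Subgroup.closure ({Equiv.optionCongr (Equiv.addRight (1 : ZMod 23)), Cfsg.projInv} ∪ {g : Equiv.Perm Cfsg.GolayPt | ∃ u : (ZMod 23)ˣ, IsSquare u ∧ g = Equiv.optionCongr (Units.mulLeft u)})) = 6072 ∧ IsCoatom ((Subgroup.closure ({Equiv.optionCongr (Equiv.addRight (1 : ZMod 23)), Cfsg.projInv} ∪ {g : Equiv.Perm Cfsg.GolayPt | ∃ u : (ZMod 23)ˣ, IsSquare u ∧ g = Equiv.optionCongr (Units.mulLeft u)})).subgroupOf Cfsg.M24)) ∧ (Subgroup.closure ({Equiv.optionCongr (Equiv.addRight (1 : ZMod 23))} ∪ {g : Equiv.Perm Cfsg.GolayPt | ∃ u : (ZMod 23)ˣ, IsSquare u ∧ g = Equiv.optionCongr (Units.mulLeft u)}) ≤ Cfsg.M24 ⊓ MulAction.stabilizer (Equiv.Perm Cfsg.GolayPt) (none : Cfsg.GolayPt) ∧ Nat.card ↥(Subgroup.closure ({Equiv.optionCongr (Equiv.addRight (1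 : ZMod 23))} ∪ {g : Equiv.Perm Cfsg.GolayPt | ∃ u : (ZMod 23)ˣ, IsSquare u ∧ g = Equiv.optionCongr (Units.mulLeft u)})) = 253 ∧ IsCoatom (((Subgroup.closure ({Equiv.optionCongr (Equiv.addRight (1 : ZMod 23))} ∪ {g : Equiv.Perm Cfsg.GolayPt | ∃ u : (ZMod 23)ˣ, IsSquare u ∧ g = Equiv.optionCongr (Units.mulLeft u)})).subgroupOf Cfsg.M24).subgroupOf (MulAction.stabilizer Cfsg.M24 (none : Cfsg.GolayPt)))) := by
  rw [L_eq, B_eq, ← pt_23]
  have c1 : Nat.card ((clo gL).subgroupOf M24) = 6072 := by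
    rw [Nat.card_congr (Subgroup.subgroupOfEquivOfLe gens_gL.clo_le).toEquiv, card_L]
  have c2 : Nat.card (((clo gB).subgroupOf M24).subgroupOf (stabilizer M24 (pt 23))) = 253 := by
    rw [← card_B]
    exact Nat.card_congr ⟨fun g => ⟨g.1.1.1, g.2⟩, fun g => ⟨⟨⟨g.1, (gens_gB.clo_le g.2).1⟩,
      (gens_gB.clo_le g.2).2⟩, g.2⟩, fun _ => rfl, fun _ => rfl⟩
  refine ⟨⟨gens_gL.clo_le, card_L, isCoatom_of_card (by rw [c1, card_M24]; norm_num)
    fun K hK => ?_⟩, gens_gB.clo_le, card_B, isCoatom_of_card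
      (by rw [c2, card_stabilizer_M24, card_G23]; norm_num) fun K hK => ?_⟩
  · rw [c1, card_M24, ← Subgroup.card_map_of_injective M24.subtype_injective]
    exact card_over_L (Subgroup.map_subtype_le K) (gens_gL.clo.mono fun g hg =>
      ⟨⟨g, gens_gL.clo_le hg⟩, hK hg, rfl⟩)
  · rw [c2, card_stabilizer_M24, card_G23,
      ← Subgroup.card_map_of_injective (stabilizer M24 (pt 23)).subtype_injective,
      ← Subgroup.card_map_of_injective M24.subtype_injective]
    refine card_over_B ?_ (gens_gB.clo.mono fun g hg =>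
      ⟨_, ⟨⟨⟨g, (gens_gB.clo_le hg).1⟩, (gens_gB.clo_le hg).2⟩, hK hg, rfl⟩, rfl⟩)
    rintro _ ⟨_, ⟨g, -, rfl⟩, rfl⟩
    exact ⟨g.1.2, g.2⟩

end Cfsg.Agent.S1643
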