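import Mathlib
import Cfsg.Statements.S1666
import Cfsg.Agent.Spor.LC.HSGraph

set_option autoImplicit false
open Cfsg

namespace Cfsg.Agent.S1666

/-- Recognition of the Higman–Sims group as a rank 3 permutation group: a transitive permutation group on 100 points in which the stabiliser of a point is isomorphic to the Mathieu group M₂₂ and has two further orbits, of sizes 22 and 77, is isomorphic to the Higman–Sims group. -/
theorem result {Ω : Type*} [Fintype Ω] [DecidableEq Ω] (hΩ : Fintype.card Ω = 100) (G : Subgroup (Equiv.Perm Ω)) [MulAction.IsPretransitive G Ω] (a : Ω)  (e : MulAction.stabilizer G a ≃* Cfsg.Spor.M22) (b c : Ω) (hb : (MulAction.orbit (MulAction.stabilizer G a) b).ncard = 22) (hc : (MulAction.orbit (MulAction.stabilizer G a) c).ncard = 77) : Cfsg.Spor.IsoHS G := by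
  classical
  obtain ⟨Γ, h1, h2, l, m, h3⟩ := Spor.Srg.exists_srg hb hc (by rw [hΩ]) (by norm_num) (by norm_num)
    (by norm_num)
  obtain ⟨rfl, rfl⟩ := Spor.Srg.srg100_params h3 ((h2 _).2 (MulAction.mem_orbit_self _))
  obtain ⟨φ, hφ⟩ := Spor.LC.exists_hom_HS h3
  have hψ := Spor.Srg.toAut_injective Γ h1
  have := Spor.LC.simple_HS
  have : IsSimpleGroup φ.range := (MonoidHom.ofInjective hφ).symm.isSimpleGroup
  have c1 : Nat.card φ.range = 44352000 :=
    (Nat.card_congr (MonoidHom.ofInjective hφ).toEquiv).symm.trans Spor.LC.card_HS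
  have c2 : Nat.card (Spor.Srg.toAut Γ h1).range = 44352000 := by
    rw [← Nat.card_congr (MonoidHom.ofInjective hψ).toEquiv,
      ← (MulAction.stabilizer G a).index_mul_card, MulAction.index_stabilizer_of_transitive,
      Nat.card_congr e.toEquiv, Spor.Golay.card_M22, Nat.card_eq_fintype_card, hΩ]
  have c3 := Spor.Srg.srg100_card_aut h3
  have : Finite (Γ ≃g Γ) := Nat.finite_of_card_ne_zero (by rw [c3]; norm_num)
  have e1 := Spor.Srg.eq_of_card_le_two_mul (c2.trans c1.symm) (by rw [c1, c3]) (by rw [c1]; norm_num)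
  exact ⟨(((MonoidHom.ofInjective hψ).trans (MulEquiv.subgroupCongr e1)).trans
    (MonoidHom.ofInjective hφ).symm).trans Spor.LC.hsEquiv⟩

end Cfsg.Agent.S1666
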