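import Cfsg.Statements.S1667
import Cfsg.Agent.Spor.R3.Mcl

set_option autoImplicit false
open Cfsg

namespace Cfsg.Agent.S1667

/-- Recognition of the McLaughlin group as a rank 3 permutation group: a transitive permutation group on 275 points in which the stabiliser of a point is isomorphic to the unitary group U₄(3) and has two further orbits, of sizes 112 and 162, is isomorphic to the McLaughlin group. -/
theorem result {Ω : Type*} [Fintype Ω] [DecidableEq Ω] (hΩ : Fintype.card Ω = 275) (G : Subgroup (Equiv.Perm Ω)) [MulAction.IsPretransitive G Ω] (a : Ω) (K : Type) [Field K] [Fintype K] (hK : Fintype.card K = 9) (e : MulAction.stabilizer G a ≃* Cfsg.PSU 4 K 3) (b c : Ω) (hb : (MulAction.orbit (MulAction.stabilizer G a) b).ncard = 112) (hc : (MulAction.orbit (MulAction.stabilizer G a) c).ncard = 162) : Cfsg.Spor.IsoMcL G := by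
  open Cfsg.Agent.Spor Cfsg.Agent.Spor.R3 Cfsg.Agent.Spor.R3.Mcl in
  obtain ⟨Γ0, h0, hD, hR0, hx, hy⟩ := model
  obtain ⟨f⟩ := equiv_H K hK
  have hs := LC.simple_McL
  obtain ⟨ψ⟩ := recog G hb hc hΩ (by decide) (by decide) (by decide) (fun _ _ _ _ h h' => Srg.srg275_params h h') h0
    (f.trans e.symm) (by rw [LC.card_McL, card_H]) (card_aut h0 hD) (by rw [LC.card_McL]; decide)
    fun _ hR => main h0 hD hR0 hx hy hR
  exact ⟨ψ.trans LC.mclEquiv⟩

end Cfsg.Agent.S1667
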