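import Cfsg.Statements.S1668
import Cfsg.Agent.Spor.R3.Suz

set_option autoImplicit false
open Cfsg

namespace Cfsg.Agent.S1668

/-- Recognition of the sporadic Suzuki group as a rank 3 permutation group: a transitive permutation group on 1782 points in which the stabiliser of a point is isomorphic to the Chevalley group G₂(4) and has two further orbits, of sizes 416 and 1365, is isomorphic to the sporadic Suzuki group. -/
theorem result {Ω : Type*} [Fintype Ω] [DecidableEq Ω] (hΩ : Fintype.card Ω = 1782) (G : Subgroup (Equiv.Perm Ω)) [MulAction.IsPretransitive G Ω] (a : Ω) (K : Type) [Field K] [Fintype K] (hK : Fintype.card K = 4) (e : MulAction.stabilizer G a ≃* Cfsg.Lie.chevG2.group K) (b c : Ω) (hb : (MulAction.orbit (MulAction.stabilizer G a) b).ncard = 416) (hc : (MulAction.orbit (MulAction.stabilizer G a) c).ncard = 1365) : Cfsg.Spor.IsoSuz G := by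
  open Cfsg.Agent.Spor Cfsg.Agent.Spor.R3 Cfsg.Agent.Spor.R3.Suz in
  obtain ⟨Γ0, h0, hD, hR0, hy, hx⟩ := model
  obtain ⟨f⟩ := equiv_St K hK
  exact recog G hb hc hΩ (by decide) (by decide) (by decide) (fun _ _ _ _ h h' => params h h') h0
    (f.trans e.symm) (by rw [MSuz.card, card_St]) (card_aut h0 hD) (by rw [MSuz.card]; decide)
    fun _ hR => main h0 hD hR0 hy hx hR

end Cfsg.Agent.S1668
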