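import Cfsg.Statements.S1717
import Cfsg.Agent.Rec.L52.Local
import Cfsg.Agent.Rec.L52.Models

set_option autoImplicit false
open Cfsg

namespace Cfsg.Agent.S1717

/-- Let G be a finite group with an involution z whose centraliser C is isomorphic to the centraliser of a transvection of SL(5, 2). Then a Sylow 2-subgroup of C, viewed in G, is a Sylow 2-subgroup of G (its index in G is odd). -/
theorem result {G : Type*} [Group G] [Finite G] (s : Matrix.SpecialLinearGroup (Fin 5) (ZMod 2)) (hs : (s : Matrix (Fin 5) (Fin 5) (ZMod 2)) = Matrix.transvection 0 1 1) (z : G) (hz : orderOf z = 2) (e : (Subgroup.centralizer ({z} : Set G)) ≃* Subgroup.centralizer ({s} : Set (Matrix.SpecialLinearGroup (Fin 5) (ZMod 2)))) (T : Sylow 2 (Subgroup.centralizer ({z} : Set G))) : ¬ 2 ∣ ((T : Subgroup (Subgroup.centralizer ({z} : Set G))).map (Subgroup.subtype (Subgroup.centralizer ({z} : Set G)))).index := by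
  obtain ⟨st, rfl⟩ := Rec.L52.exists_stH s hs hz e
  have h1 : Nat.card (Subgroup.centralizer ({st.z} : Set G)) = 2 ^ 10 * 21 := st.genH.2
  have h2 : Nat.card ((T : Subgroup _).map (Subgroup.centralizer ({st.z} : Set G)).subtype) = Nat.card st.T := by
    rw [Subgroup.card_map_of_injective Subtype.val_injective, T.card_eq_multiplicity, h1, st.genT.2,
      Nat.factorization_mul (by norm_num) (by norm_num), Nat.Prime.factorization_pow Nat.prime_two]
    simp [Nat.factorization_eq_zero_of_not_dvd (show ¬ 2 ∣ 21 by norm_num)]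
  have h3 := ((T : Subgroup _).map (Subgroup.centralizer ({st.z} : Set G)).subtype).card_mul_index
  rw [h2, ← st.T.card_mul_index] at h3
  rw [Nat.eq_of_mul_eq_mul_left Nat.card_pos h3]
  exact st.T_syl.toSylowTop.not_dvd_index

end Cfsg.Agent.S1717
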