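import Mathlib
import Cfsg.Statements.S1755
import Cfsg.Agent.Spor.ESSympl

set_option autoImplicit false
open Cfsg

namespace Cfsg.Agent.S1755

open Cfsg.Agent.Spor Subgroup

/-- Let G be a finite group and let z be an involution of G such that Q, the generalized Fitting subgroup of the centralizer C of z, is a 2-group of symplectic type (every characteristic abelian subgroup of Q is cyclic). Let B be a characteristic abelian subgroup of Q, viewed as a subgroup of G. Then for every g in G, the conjugate of B by g either equals B or meets B trivially. -/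
theorem result {G : Type*} [Group G] [Finite G] (z : G) (hz : orderOf z = 2) (hQ : Cfsg.IsOfSymplecticType ↥(Cfsg.generalizedFittingSubgroup ↥(Subgroup.centralizer ({z} : Set G))))
    (B : Subgroup ↥(Cfsg.generalizedFittingSubgroup ↥(Subgroup.centralizer ({z} : Set G)))) (hBc : B.Characteristic) (hBa : IsMulCommutative ↥B) (g : G) :
    ((B.map (Cfsg.generalizedFittingSubgroup ↥(Subgroup.centralizer ({z} : Set G))).subtype).map (Subgroup.centralizer ({z} : Set G)).subtype).map (MulAut.conj g).toMonoidHom =
        (B.map (Cfsg.generalizedFittingSubgroup ↥(Subgroup.centralizer ({z} : Set G))).subtype).map (Subgroup.centralizer ({z} : Set G)).subtype ∨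
      ((B.map (Cfsg.generalizedFittingSubgroup ↥(Subgroup.centralizer ({z} : Set G))).subtype).map (Subgroup.centralizer ({z} : Set G)).subtype).map (MulAut.conj g).toMonoidHom ⊓
        (B.map (Cfsg.generalizedFittingSubgroup ↥(Subgroup.centralizer ({z} : Set G))).subtype).map (Subgroup.centralizer ({z} : Set G)).subtype = ⊥ := by
  obtain ⟨hz1, hzz⟩ := orderOf_eq_two_iff'.1 hz
  obtain ⟨⟨z', hz', e⟩, -, -⟩ := fstar_facts (z := z) rfl (hQ.1.map _)
  haveI := fstar_normal (G := centralizer ({z} : Set G))
  haveI hn : (B.map (generalizedFittingSubgroup ↥(centralizer ({z} : Set G))).subtype).Normal :=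
    ConjAct.normal_of_characteristic_of_normal
  have key : ∀ a ∈ (B.map (generalizedFittingSubgroup ↥(centralizer ({z} : Set G))).subtype).map
      (centralizer ({z} : Set G)).subtype, a * a = 1 → a = 1 ∨ a = z := by
    rintro _ ⟨_, ⟨a, ha, rfl⟩, rfl⟩ haa
    rcases sympl_invol hQ (z := ⟨z', hz'⟩)
      (fun e' => hz1 (by rw [← e, show z' = 1 from congrArg Subtype.val e', map_one]))
      (Subtype.ext (Subtype.ext (by rw [← e] at hzz; exact hzz)))
      (mem_center_iff.2 fun x => Subtype.ext (Subtype.ext (by
        have := mem_centralizer_singleton.1 x.1.2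
        show (x.1 : G) * z' = z' * x.1
        rw [show (z' : G) = z from e]; exact this.symm))) hBa ha (Subtype.ext (Subtype.ext haa)) with e' | e'
    · left; rw [e']; rfl
    · right; rw [e']; exact e
  have h2 : IsPGroup 2 ((B.map (generalizedFittingSubgroup ↥(centralizer ({z} : Set G))).subtype).map
      (centralizer ({z} : Set G)).subtype) := ((hQ.1.to_subgroup B).map _).map _
  have hN : centralizer ({z} : Set G) ≤ normalizer (((B.map (generalizedFittingSubgroup
      ↥(centralizer ({z} : Set G))).subtype).map (centralizer ({z} : Set G)).subtype : Subgroup G) : Set G) := by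
    intro c hc
    refine mem_normalizer_fintype ?_
    rintro _ ⟨b, hb, rfl⟩
    exact ⟨_, hn.conj_mem b hb ⟨c, hc⟩, rfl⟩
  generalize (B.map (generalizedFittingSubgroup ↥(centralizer ({z} : Set G))).subtype).map
      (centralizer ({z} : Set G)).subtype = A at *
  refine or_iff_not_imp_right.2 fun hne => ?_
  have h3 : IsPGroup 2 ↥(A.map (MulAut.conj g).toMonoidHom ⊓ A) := h2.to_le inf_le_right
  haveI := (Subgroup.nontrivial_iff_ne_bot _).2 hne
  obtain ⟨w, hw⟩ := exists_prime_orderOf_dvd_card' (G := ↥(A.map (MulAut.conj g).toMonoidHom ⊓ A)) 2 (by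
    obtain ⟨n, hn0, hn⟩ := h3.nontrivial_iff_card.1 inferInstance
    rw [hn]; exact dvd_pow_self 2 hn0.ne')
  obtain ⟨hw1, hww⟩ := orderOf_eq_two_iff'.1 hw
  have hw1' : (w : G) ≠ 1 := fun e => hw1 (Subtype.ext e)
  have hww' : (w : G) * w = 1 := congrArg Subtype.val hww
  have e1 := (key w w.2.2 hww').resolve_left hw1'
  have e2 := (key _ (mem_map_conj_iff.1 w.2.1) (by
    calc g⁻¹ * w * g * (g⁻¹ * w * g) = g⁻¹ * ((w : G) * w) * g := by group
      _ = 1 := by rw [hww']; group)).resolve_left (fun e => hw1' (by
      calc (w : G) = g * (g⁻¹ * w * g) * g⁻¹ := by group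
        _ = 1 := by rw [e]; group))
  rw [e1] at e2
  have hg : g ∈ normalizer (A : Set G) := hN (mem_centralizer_singleton.2 (by
    calc z * g = g * (g⁻¹ * z * g) := by group
      _ = _ := by rw [e2]))
  ext x
  rw [mem_map_conj_iff]
  exact (mem_normalizer_iff''.1 hg x).symm

end Cfsg.Agent.S1755
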