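import Mathlib
import Cfsg.Statements.S1756
import Cfsg.Agent.Spor.ESLarge

set_option autoImplicit false
open Cfsg

namespace Cfsg.Agent.S1756

open Cfsg.Agent.Spor Subgroup

/-- Let Q be an extraspecial 2-subgroup of the finite group G (special with centre of order 2) and t an involution of G normalizing Q such that the centralizer of t in Q has index at most 2 in Q. Then t lies in the product of Q with the centralizer of Q. -/
theorem result {G : Type*} [Group G] [Finite G] (Q : Subgroup G)
    (hQ : Cfsg.IsExtraspecial 2 ↥Q) (t : G) (ht : orderOf t = 2) (htN : t ∈ Subgroup.normalizer (Q : Set G))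
    (hi : (Subgroup.centralizer ({t} : Set G) ⊓ Q).relIndex Q ≤ 2) :
    t ∈ Q ⊔ Subgroup.centralizer (Q : Set G) := by
  obtain ⟨z, h⟩ := exists_ES2 hQ
  have htt := (orderOf_eq_two_iff'.1 ht).2
  have hti : t⁻¹ = t := inv_eq_self_of_sq htt
  have hn : ∀ q ∈ Q, t * q * t⁻¹ ∈ Q := fun q hq => (mem_normalizer_iff.1 htN q).1 hq
  have htz : t * z = z * t := by
    have := h.conj_z_of_norm htN
    rw [← mul_inv_eq_iff_eq_mul]; exact this
  obtain ⟨x, hx, H⟩ := h.exists_comm_iff le_rfl (centralizer {t}) (by
    intro a ha b hb h1 h2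
    have h0 : (centralizer ({t} : Set G) ⊓ Q).relIndex Q ≠ 0 := by
      rw [relIndex]; exact index_ne_zero_of_finite
    have h3 : (centralizer ({t} : Set G) ⊓ Q).relIndex Q ≠ 1 := by
      rw [Ne, relIndex_eq_one]
      intro hle
      exact h1 (hle ha).1
    have h4 : ((centralizer ({t} : Set G) ⊓ Q).subgroupOf Q).index = 2 := by
      rw [relIndex] at hi h0 h3; omega
    have := (mul_mem_iff_of_index_two h4 (a := ⟨a, ha⟩) (b := ⟨b, hb⟩)).2
      (iff_of_false (fun e => h1 e.1) (fun e => h2 e.1))
    exact this.1) (fun _ => mem_centralizer_singleton.2 htz)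
  have hc : ∀ p ∈ Q, p * x = x * p → t * p = p * t := fun p hp e =>
    mem_centralizer_singleton.1 ((H p hp).1 e.symm)
  obtain ⟨y, hy, H2⟩ := h.exists_inner (g := t) (fun q hq => by
    rcases h.comm_of_centralizes hx hn hc hq with e | ⟨e, h1, h2⟩
    · exact e
    · exfalso
      have e2 := e.conj htz.symm
      have e3 : t * (t * q * t⁻¹) * t⁻¹ = q := by
        rw [hti]
        calc t * (t * q * t) * t = (t * t) * q * (t * t) := by group
          _ = q := by rw [htt]; simp
      have e4 : t * (x * q) * t⁻¹ = x * (t * q * t⁻¹) := by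
        calc t * (x * q) * t⁻¹ = (t * x) * q * t⁻¹ := by group
          _ = _ := by rw [hc x hx rfl]; group
      rw [e3, e4] at e2
      -- `t q t⁻¹ = w x q` with `w ∈ {1, z}`
      have hzx := h.z_comm x hx
      rcases e with e | e
      · have : q = t * (t * q * t⁻¹) * t⁻¹ := e3.symm
        rw [e, e4, e, ← mul_assoc, h2] at this
        exact h.z_ne (by simpa using this.symm)
      · have : q = t * (t * q * t⁻¹) * t⁻¹ := e3.symm
        have e5 : t * (z * (x * q)) * t⁻¹ = z * (t * (x * q) * t⁻¹) := by
          calc t * (z * (x * q)) * t⁻¹ = (t * z) * (x * q) * t⁻¹ := by group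
            _ = _ := by rw [htz]; group
        rw [e, e5, e4, e] at this
        have e6 : z * (x * (z * (x * q))) = z * q := by
          calc z * (x * (z * (x * q))) = z * (x * z) * (x * q) := by group
            _ = (z * z) * (x * x) * q := by rw [← hzx]; group
            _ = _ := by rw [h.z_sq, h2, one_mul]
        rw [e6] at this
        exact h.z_ne (by simpa using this.symm))
  have : y⁻¹ * t ∈ centralizer (Q : Set G) := by
    rw [mem_centralizer_iff]
    intro q hq
    have := H2 q hq
    calc q * (y⁻¹ * t) = y⁻¹ * (y * q * y⁻¹) * t := by group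
      _ = _ := by rw [← this]; group
  simpa using mul_mem_sup hy this

end Cfsg.Agent.S1756
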