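import Mathlib
import Cfsg.Statements.S1774
import Cfsg.Agent.Spor.ESSympl

set_option autoImplicit false
open Cfsg

namespace Cfsg.Agent.S1774

open Cfsg.Agent.Spor Subgroup

/-- Let G be a finite group and let z be an involution of G such that Q, the generalized Fitting subgroup of the centralizer C of z, is a 2-group of symplectic type (every characteristic abelian subgroup of Q is cyclic); suppose every element of Q has order dividing 4. Let g ∈ G with z' = g z g⁻¹ ≠ z and z' ∈ Q. Then z lies in the conjugate g Q g⁻¹, and the subgroup X generated by Q and g Q g⁻¹ induces every automorphism of the four-group generated by z and z': for any two distinct non-identity elements u, v of that four-group there is x ∈ X with x z x⁻¹ = u and x z' x⁻¹ = v. -/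
theorem result {G : Type*} [Group G] [Finite G] (z : G) (hz : orderOf z = 2) (hQ : Cfsg.IsOfSymplecticType ↥(Cfsg.generalizedFittingSubgroup ↥(Subgroup.centralizer ({z} : Set G))))
    (h4 : ∀ q ∈ (Cfsg.generalizedFittingSubgroup ↥(Subgroup.centralizer ({z} : Set G))).map (Subgroup.centralizer ({z} : Set G)).subtype, q ^ 4 = 1) (g : G) (hne : g * z * g⁻¹ ≠ z) (hin : g * z * g⁻¹ ∈ (Cfsg.generalizedFittingSubgroup ↥(Subgroup.centralizer ({z} : Set G))).map (Subgroup.centralizer ({z} : Set G)).subtype) :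
    z ∈ ((Cfsg.generalizedFittingSubgroup ↥(Subgroup.centralizer ({z} : Set G))).map (Subgroup.centralizer ({z} : Set G)).subtype).map (MulAut.conj g).toMonoidHom ∧
      ∀ u ∈ Subgroup.closure ({z, g * z * g⁻¹} : Set G), ∀ v ∈ Subgroup.closure ({z, g * z * g⁻¹} : Set G),
        u ≠ 1 → v ≠ 1 → u ≠ v →
          ∃ x ∈ (Cfsg.generalizedFittingSubgroup ↥(Subgroup.centralizer ({z} : Set G))).map (Subgroup.centralizer ({z} : Set G)).subtype ⊔ ((Cfsg.generalizedFittingSubgroup ↥(Subgroup.centralizer ({z} : Set G))).map (Subgroup.centralizer ({z} : Set G)).subtype).map (MulAut.conj g).toMonoidHom, x * z * x⁻¹ = u ∧ x * (g * z * g⁻¹) * x⁻¹ = v := by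
  obtain ⟨hz1, hzz⟩ := orderOf_eq_two_iff'.1 hz
  obtain ⟨h1, h2, h3⟩ := fstar_facts (z := z) rfl (hQ.1.map _)
  have ha : AES ((generalizedFittingSubgroup ↥(centralizer ({z} : Set G))).map
      (centralizer ({z} : Set G)).subtype) z := by
    obtain ⟨z', hz', e⟩ := h1
    have := (sympl_aes_top hQ (fun x => Subtype.ext (Subtype.ext (h4 _ ⟨x, x.2, rfl⟩))) (z := ⟨z', hz'⟩)
      (fun e' => hz1 (by rw [← e, show z' = 1 from congrArg Subtype.val e', map_one]))
      (Subtype.ext (Subtype.ext (by rw [← e] at hzz; exact hzz)))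
      (mem_center_iff.2 fun x => Subtype.ext (Subtype.ext (by
        have := mem_centralizer_singleton.1 x.1.2
        show (x.1 : G) * z' = z' * x.1
        rw [show (z' : G) = z from e]; exact this.symm)))).map_injective
      ((centralizer ({z} : Set G)).subtype.comp (generalizedFittingSubgroup _).subtype)
      (fun a _ b _ e => Subtype.ext (Subtype.ext e))
    rw [← map_map, ← MonoidHom.range_eq_map, range_subtype] at this
    convert this using 1
    exact e.symm
  generalize (generalizedFittingSubgroup ↥(centralizer ({z} : Set G))).map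
      (centralizer ({z} : Set G)).subtype = Q at *
  have hl := ha.lg_of_pCore h2 h3
  have hzR := hl.sym_of_pCore h3.ge g hin
  have hb := ha.conj g
  generalize Q.map (MulAut.conj g).toMonoidHom = R at *
  generalize g * z * g⁻¹ = s at *
  refine ⟨hzR, ?_⟩
  have hzs := ha.z_comm s hin
  obtain ⟨q, hq, hqs⟩ : ∃ q ∈ Q, s * q ≠ q * s := by
    by_contra hc
    push Not at hc
    exact (ha.omega s hin hb.z_sq hc).elim hb.z_ne hne
  obtain ⟨r, hr, hrz⟩ : ∃ r ∈ R, z * r ≠ r * z := by
    by_contra hc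
    push Not at hc
    exact (hb.omega z hzR hzz hc).elim hz1 hne.symm
  have q1 : q * z * q⁻¹ = z := mul_inv_eq_iff_eq_mul.2 (ha.z_comm q hq).symm
  have q2 : q * s * q⁻¹ = z * s := ha.conj_of_ne hq hin hqs.symm
  have r1 : r * z * r⁻¹ = s * z := hb.conj_of_ne hr hzR hrz.symm
  have r2 : r * s * r⁻¹ = s := mul_inv_eq_iff_eq_mul.2 (hb.z_comm r hr).symm
  have q3 : q * (z * s) * q⁻¹ = s := by
    calc q * (z * s) * q⁻¹ = (q * z * q⁻¹) * (q * s * q⁻¹) := by group
      _ = s := by rw [q1, q2, ha.z_mul_z_mul]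
  have r3 : r * (z * s) * r⁻¹ = z := by
    calc r * (z * s) * r⁻¹ = (r * z * r⁻¹) * (r * s * r⁻¹) := by group
      _ = z := by rw [r1, r2, ← hzs, mul_assoc, hb.z_sq, mul_one]
  have hq' : q ∈ Q ⊔ R := mem_sup_left hq
  have hr' : r ∈ Q ⊔ R := mem_sup_right hr
  have cj : ∀ a b c : G, a * b * c * (a * b)⁻¹ = a * (b * c * b⁻¹) * a⁻¹ := fun a b c => by group
  rw [← hzs] at r1
  intro u hu v hv hu1 hv1 huv
  rw [mem_closure_pair_iff_four hzz hb.z_sq hzs] at hu hv
  rcases hu with e | e | e | e <;> rcases hv with e' | e' | e' | e' <;>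
    first
    | exact absurd e hu1
    | exact absurd e' hv1
    | exact absurd (e.trans e'.symm) huv
    | rw [e, e']
  · exact ⟨1, one_mem _, by simp, by simp⟩
  · exact ⟨q, hq', q1, q2⟩
  · exact ⟨r * (q * r), mul_mem hr' (mul_mem hq' hr'), by rw [cj, cj, r1, q3, r2], by rw [cj, cj, r2, q2, r3]⟩
  · exact ⟨q * r, mul_mem hq' hr', by rw [cj, r1, q3], by rw [cj, r2, q2]⟩
  · exact ⟨r * q, mul_mem hr' hq', by rw [cj, q1, r1], by rw [cj, q2, r3]⟩
  · exact ⟨r, hr', r1, r2⟩

end Cfsg.Agent.S1774
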