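import Mathlib
import Cfsg.Statements.S1775
import Cfsg.Agent.GT.PComponentsOf
import Cfsg.Agent.GT.PConstrained
import Cfsg.Agent.GT.Conj
import Cfsg.Agent.GT.FStar
import Cfsg.Agent.Inv.SylowElt

set_option autoImplicit false
open Cfsg

namespace Cfsg.Agent.S1775

open Subgroup Cfsg.Agent.GT

private theorem orderOf_map_two {H H' : Type*} [Group H] [Group H'] [Finite H] (f : H →* H')
    (hk : (Nat.card f.ker).Coprime 2) {x : H} (hx : orderOf x = 2) : orderOf (f x) = 2 := by
  have : Fact (Nat.Prime 2) := ⟨Nat.prime_two⟩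
  refine orderOf_eq_prime (by rw [← map_pow, ← hx, pow_orderOf_eq_one, map_one]) fun h => ?_
  have h1 := (f.ker).orderOf_dvd_natCard (show x ∈ f.ker from h)
  rw [hx] at h1
  exact absurd (Nat.Coprime.eq_one_of_dvd hk.symm h1) (by norm_num)

/-- Let G be a finite group whose generalized Fitting subgroup is a non-abelian simple group and in which every proper section (every quotient H/N of a proper subgroup H, or of G by a nontrivial normal subgroup) has the B-property. Let x, y be commuting involutions, let D be the intersection of the 2-layer of C_G(x) with C_G(y), and let J be a 2-component of D. Write Q for the quotient of C_G(y) by its largest normal odd-order subgroup. Then (i) the image of J in Q is a component of the centralizer in Q of the image of x; and (ii) for every J-invariant subgroup E of odd order of C_G(x) ∩ C_G(y), the commutator subgroup [J, E] lies in the largest normal odd-order subgroup of C_G(y). -/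
theorem result {G : Type*} [Group G] [Finite G]
    (hF : IsSimpleGroup ↥(Cfsg.generalizedFittingSubgroup G)) (hF' : ¬ IsMulCommutative ↥(Cfsg.generalizedFittingSubgroup G))
    (hsec : ∀ (H : Subgroup G) (N : Subgroup ↥H) [N.Normal], (H ≠ ⊤ ∨ N ≠ ⊥) → Cfsg.HasBProperty (↥H ⧸ N))
    (x y : G) (hx : orderOf x = 2) (hy : orderOf y = 2) (hxy : x * y = y * x)
    (J : Subgroup ↥((Cfsg.pLayer 2 ↥(Subgroup.centralizer ({x} : Set G))).map (Subgroup.centralizer ({x} : Set G)).subtype ⊓ Subgroup.centralizer ({y} : Set G)))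
    (hJ : Cfsg.IsPComponent 2 J) :
    Cfsg.IsComponent
        ((((J.map (Subgroup.subtype _)).subgroupOf (Subgroup.centralizer ({y} : Set G))).map (QuotientGroup.mk' (Cfsg.oddCore ↥(Subgroup.centralizer ({y} : Set G))))).subgroupOf
          (Subgroup.centralizer ({(QuotientGroup.mk' (Cfsg.oddCore ↥(Subgroup.centralizer ({y} : Set G))) ⟨x, Subgroup.mem_centralizer_singleton_iff.mpr hxy⟩ : ↥(Subgroup.centralizer ({y} : Set G)) ⧸ Cfsg.oddCore ↥(Subgroup.centralizer ({y} : Set G)))} : Set _))) ∧
      ∀ E : Subgroup G, E ≤ Subgroup.centralizer ({x} : Set G) ⊓ Subgroup.centralizer ({y} : Set G) → Odd (Nat.card ↥E) →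
        (∀ j ∈ J.map (Subgroup.subtype _), ∀ e ∈ E, j * e * j⁻¹ ∈ E) →
          ⁅J.map (Subgroup.subtype _), E⁆ ≤ (Cfsg.oddCore ↥(Subgroup.centralizer ({y} : Set G))).map (Subgroup.centralizer ({y} : Set G)).subtype := by
  have : Fact (Nat.Prime 2) := ⟨Nat.prime_two⟩
  have hp := Nat.prime_two
  have hY : centralizer ({y} : Set G) ≠ ⊤ := by
    intro h
    have hz : y ∈ center G := by
      rw [mem_center_iff]
      intro g
      exact mem_centralizer_singleton_iff.1 (h ▸ mem_top g)
    have hz' : (⟨y, center_le_genFitting hz⟩ : generalizedFittingSubgroup G) ∈ center _ :=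
      mem_center_iff.2 fun g => Subtype.ext (mem_center_iff.1 hz g)
    rcases Normal.eq_bot_or_eq_top (inferInstance : (center (generalizedFittingSubgroup G)).Normal)
      with h1 | h1
    · rw [h1, mem_bot, Subtype.ext_iff] at hz'
      rw [show y = 1 from hz', orderOf_one] at hy
      exact absurd hy (by norm_num)
    · exact hF' ⟨⟨fun a b => (mem_center_iff.1 (h1 ▸ mem_top b) a)⟩⟩
  have hB := hsec _ (oddCore (centralizer ({y} : Set G))) (Or.inl hY)
  have h1 := hJ.isPComponentOf_map_subtype
  generalize J.map (Subgroup.subtype _) = J₀ at h1 ⊢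
  clear hJ J
  set Y := centralizer ({y} : Set G) with hYdef
  have h2 : IsPComponentOf 2 J₀ (centralizer ({x} : Set G) ⊓ Y) := by
    refine h1.trans hp (SubnormalIn.of_le_normalizer (inf_le_inf_right _ (pLayerOf_le _)) ?_)
    exact (inf_le_inf (le_normalizer_pLayerOf _) le_normalizer).trans
      inf_normalizer_le_normalizer_inf
  set x' : Y := ⟨x, mem_centralizer_singleton_iff.mpr hxy⟩ with hx'
  have hx'o : orderOf x' = 2 := by rw [← hx, ← Subgroup.orderOf_coe]
  have e1 : (centralizer ({x} : Set G) ⊓ Y).subgroupOf Y = centralizer ({x'} : Set Y) := by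
    ext g
    rw [inf_subgroupOf_right, mem_subgroupOf, mem_centralizer_singleton_iff,
      mem_centralizer_singleton_iff, Subtype.ext_iff]
    rfl
  set f := QuotientGroup.mk' (oddCore Y) with hf
  have hk : (Nat.card f.ker).Coprime 2 := coprime_card_ker_mk'_pPrimeCore
  have e2 : (centralizer ({x'} : Set Y)).map f = centralizer ({f x'} : Set _) := by
    rw [← GT.centralizer_zpowers, map_centralizer_of_coprime_ker (p := 2)
      (QuotientGroup.mk'_surjective _) hk
      (Inv.isPGroup_zpowers_of_orderOf (k := 1) (by rw [hx'o, pow_one])), MonoidHom.map_zpowers,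
      GT.centralizer_zpowers]
  have h3 := (h2.subgroupOf hp inf_le_right).map_of_coprime hp (f := f)
    (Nat.Coprime.coprime_dvd_left (card_dvd_of_le inf_le_left) hk)
  rw [e1, e2] at h3
  have h4 := hB (f x') (orderOf_map_two f hk hx'o)
  rw [show oddCore (Y ⧸ oddCore Y) = ⊥ from pPrimeCore_quotient_pPrimeCore, map_commutator,
    le_bot_iff] at h4
  have h5 : IsComponentOf ((J₀.subgroupOf Y).map f) (centralizer ({f x'} : Set _)) := by
    refine (h3.isComponentOf_iff hp).2 ?_
    rw [eq_bot_iff, ← h4]
    exact commutator_mono h3.le_pLayerOf h3.pPrimeCoreOf_le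
  refine ⟨h5.2, fun E hE hEo hJE => ?_⟩
  have hJY : J₀ ≤ Y := h2.le.trans inf_le_right
  have hEY : E ≤ Y := hE.trans inf_le_right
  have h6 : (E.subgroupOf Y).map f ≤ centralizer ({f x'} : Set _) := by
    rw [← e2, ← e1]
    exact map_mono (subgroupOf_mono Y hE)
  have h7 : J₀.subgroupOf Y ≤ normalizer ((E.subgroupOf Y : Subgroup Y) : Set Y) := fun j hj =>
    mem_normalizer_of_map_conj_le (map_conj_le_iff_forall.2 fun e he => hJE j hj e he)
  have h8 := (h5.le_or_commutator_eq_bot_of_le_normalizer h6
    ((map_mono h7).trans (le_normalizer_map f))).resolve_left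
    ((h3.isPQuasisimple hp).not_le_of_coprime (Nat.Coprime.coprime_dvd_left (card_map_dvd _ f) (by
      rw [card_subgroupOf_of_le hEY]
      exact (Nat.coprime_two_right).2 hEo)))
  rw [← map_commutator, map_mk'_eq_bot_iff] at h8
  have h9 := map_mono (f := Y.subtype) h8
  rwa [map_commutator, map_subgroupOf_eq_of_le hJY, map_subgroupOf_eq_of_le hEY] at h9

end Cfsg.Agent.S1775
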