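import Mathlib
import Cfsg.Statements.S1780
import Cfsg.Agent.Spor.TI

set_option autoImplicit false
open Cfsg

namespace Cfsg.Agent.S1780

open Cfsg.Agent.Spor Subgroup SemidirectProduct

/-- Let A be a finite abelian 2-group and t an automorphism of A whose order is a power of 2. If every element of A fixed by t² is fixed by t, then t fixes every element of A. -/
theorem result {A : Type*} [CommGroup A] [Finite A]
    (hA : IsPGroup 2 A) (t : MulAut A) (ht : ∃ k : ℕ, orderOf t = 2 ^ k) (hC : ∀ a : A, t (t a) = a → t a = a) :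
    ∀ a : A, t a = a := by
  haveI : Finite (A ⋊[MonoidHom.id (MulAut A)] MulAut A) :=
    Finite.of_equiv _ (SemidirectProduct.equivProd).symm
  have e : ∀ (s : MulAut A) (a : A), (inr s : A ⋊[MonoidHom.id (MulAut A)] MulAut A) * inl a = inl a * inr s ↔
      s a = a := by
    intro s a
    rw [← mul_inv_eq_iff_eq_mul, ← map_inv, ← inl_aut, inl_inj]; rfl
  obtain ⟨k, hk⟩ := ht
  have := comm_of_sq_fix (A := (inl : A →* A ⋊[MonoidHom.id (MulAut A)] MulAut A).range)
    (hA.of_surjective _ (MonoidHom.rangeRestrict_surjective _)) inferInstance (t := inr t)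
    ⟨k, by rw [← map_pow, ← hk, pow_orderOf_eq_one, map_one]⟩
    (by rw [range_inl_eq_ker_rightHom, normalizer_eq_top]; trivial)
    (by
      rintro _ ⟨a, rfl⟩ h
      rw [← map_mul, e] at h
      exact (e t a).2 (hC a h))
  exact fun a => (e t a).1 (this _ ⟨a, rfl⟩)

end Cfsg.Agent.S1780
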