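import Mathlib
import Cfsg.Statements.S1781
import Cfsg.Agent.Spor.TI

set_option autoImplicit false
open Cfsg

namespace Cfsg.Agent.S1781

open Cfsg.Agent.Spor Subgroup

/-- Let A be an abelian 2-subgroup of the finite group G such that every conjugate of A equals A or meets A trivially, and let g ∈ G with g A g⁻¹ ≠ A. Then either the subgroup of those elements of A that normalize g A g⁻¹ is an elementary abelian 2-group, or A and g A g⁻¹ commute elementwise. -/
theorem result {G : Type*} [Group G] [Finite G] (A : Subgroup G)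
    (hA2 : IsPGroup 2 ↥A) (hAa : IsMulCommutative ↥A)
    (hti : ∀ h : G, A.map (MulAut.conj h).toMonoidHom = A ∨ A.map (MulAut.conj h).toMonoidHom ⊓ A = ⊥)
    (g : G) (hg : A.map (MulAut.conj g).toMonoidHom ≠ A) :
    Cfsg.IsElementaryAbelian 2 (A ⊓ Subgroup.normalizer ((A.map (MulAut.conj g).toMonoidHom : Subgroup G) : Set G)) ∨
      ⁅A, A.map (MulAut.conj g).toMonoidHom⁆ = ⊥ := by
  refine or_iff_not_imp_left.2 fun hne => ?_
  have hAB := (hti g).resolve_left hg
  rw [inf_comm] at hAB
  have hB2 := hA2.map (MulAut.conj g).toMonoidHom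
  have hBa : IsMulCommutative (A.map (MulAut.conj g).toMonoidHom) := inferInstance
  have hBti : ∀ a, ∀ b ∈ A.map (MulAut.conj g).toMonoidHom, b ≠ 1 → a * b = b * a →
      a ∈ normalizer ((A.map (MulAut.conj g).toMonoidHom : Subgroup G) : Set G) := by
    rintro a _ ⟨b, hb, rfl⟩ h1 hc
    have := ti_norm (hti (g⁻¹ * a * g)) hb (fun e => h1 (by simp [e])) (conj_comm_iff.1 hc.symm).symm
    refine mem_normalizer_fintype fun x hx => ?_
    rw [SetLike.mem_coe, mem_map_conj_iff] at hx ⊢
    have := (mem_normalizer_iff.1 this _).1 hx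
    convert this using 1; group
  have hcard := card_map_conj A g
  generalize A.map (MulAut.conj g).toMonoidHom = B at *
  obtain ⟨t, ht, htt⟩ : ∃ t ∈ A ⊓ normalizer (B : Set G), t ^ 2 ≠ 1 := by
    by_contra hc
    push Not at hc
    exact hne ⟨GT.PG.isMulCommutative_of_le inf_le_left hAa, hc⟩
  have ht1 : t ≠ 1 := fun e => htt (by simp [e])
  rw [pow_two] at htt
  have h1 := comm_of_sq_fix hB2 hBa (GT.PG.exists_pow_pow_eq_one_of_mem hA2 ht.1) ht.2 fun b hb hc =>
    comm_of_norm_norm hAB ht.1 hb ht.2 (ti_norm (hti b) (A.mul_mem ht.1 ht.1) htt hc.symm)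
  exact commutator_eq_bot_of_comm (ti_comm hA2 hB2 (fun a _ => hBti a) hcard.ge hAB
    fun b hb => ti_norm (hti b) ht.1 ht1 (h1 b hb).symm)

end Cfsg.Agent.S1781
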