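import Mathlib
import Cfsg.Statements.S1782
import Cfsg.Agent.Spor.TI

set_option autoImplicit false
open Cfsg

namespace Cfsg.Agent.S1782

open Cfsg.Agent.Spor Subgroup

/-- Let S be a finite 2-group and Δ a set of subgroups of S closed under conjugation by S, all of the same order, each with nontrivial Frattini subgroup, and such that two distinct members of Δ meet trivially. Then any two distinct members of Δ commute elementwise. -/
theorem result {S : Type*} [Group S] [Finite S] (hS : IsPGroup 2 S)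
    (Δ : Set (Subgroup S)) (hinv : ∀ s : S, ∀ R ∈ Δ, R.map (MulAut.conj s).toMonoidHom ∈ Δ)
    (hΦ : ∀ R ∈ Δ, frattini ↥R ≠ ⊥) (hord : ∀ R ∈ Δ, ∀ T ∈ Δ, Nat.card ↥R = Nat.card ↥T)
    (hti : ∀ R ∈ Δ, ∀ T ∈ Δ, R = T ∨ R ⊓ T = ⊥) :
    ∀ R ∈ Δ, ∀ T ∈ Δ, R ≠ T → ⁅R, T⁆ = ⊥ := by
  refine fun R hR T hT hne => commutator_eq_bot_of_comm (ti_set_comm (hS.to_subgroup ⊤) Δ
    (fun s _ => hinv s) (fun R hR => ?_) hord hti R hR T hT le_top le_top hne)
  by_contra hc
  push Not at hc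
  refine hΦ R hR ((GT.PG.frattini_eq_bot_iff (hS.to_subgroup R)).2 ⟨⟨⟨fun x y => Subtype.ext ?_⟩⟩,
    fun y => Subtype.ext (by rw [pow_two]; exact hc y y.2)⟩)
  have := comm_mem_of_sq_mem (R := R) (E := ⊥) (fun x _ e he => by simp [mem_bot.1 he])
    (fun x hx => hc x hx) x.2 y.2
  exact mul_inv_eq_iff_eq_mul.1 (mul_inv_eq_one.1 (mem_bot.1 this))

end Cfsg.Agent.S1782
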