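import Mathlib
import Cfsg.Statements.S1783
import Cfsg.Agent.Spor.TI
import Cfsg.Agent.GT.FStar
import Cfsg.Agent.GT.PLength2

set_option autoImplicit false
open Cfsg

namespace Cfsg.Agent.S1783

open Cfsg.Agent.Spor Subgroup

theorem conj_ti {X : Type*} [Group X] {A : Subgroup X}
    (hti : ∀ h : X, A.map (MulAut.conj h).toMonoidHom = A ∨ A.map (MulAut.conj h).toMonoidHom ⊓ A = ⊥)
    (g h : X) : A.map (MulAut.conj g).toMonoidHom = A.map (MulAut.conj h).toMonoidHom ∨
      A.map (MulAut.conj g).toMonoidHom ⊓ A.map (MulAut.conj h).toMonoidHom = ⊥ := by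
  have e : A.map (MulAut.conj g).toMonoidHom =
      (A.map (MulAut.conj (h⁻¹ * g)).toMonoidHom).map (MulAut.conj h).toMonoidHom := by
    rw [map_conj_map_conj, mul_inv_cancel_left]
  rcases hti (h⁻¹ * g) with e' | e'
  · left; rw [e, e']
  · right; rw [e, ← map_inf _ _ _ (MulAut.conj h).injective, e', Subgroup.map_bot]

theorem conj_comm {X : Type*} [Group X] [Finite X] {A S : Subgroup X} (hS : IsPGroup 2 S)
    (hAa : IsMulCommutative A) (hsq : ∃ a ∈ A, a * a ≠ 1)
    (hti : ∀ h : X, A.map (MulAut.conj h).toMonoidHom = A ∨ A.map (MulAut.conj h).toMonoidHom ⊓ A = ⊥)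
    {g h : X} (hg : A.map (MulAut.conj g).toMonoidHom ≤ S) (hh : A.map (MulAut.conj h).toMonoidHom ≤ S)
    {a b : X} (ha : a ∈ A.map (MulAut.conj g).toMonoidHom) (hb : b ∈ A.map (MulAut.conj h).toMonoidHom) :
    a * b = b * a := by
  by_cases e : A.map (MulAut.conj g).toMonoidHom = A.map (MulAut.conj h).toMonoidHom
  · rw [← e] at hb
    exact GT.PG.isMulCommutative_iff_forall.1 inferInstance a ha b hb
  refine ti_set_comm hS {R | ∃ g, R = A.map (MulAut.conj g).toMonoidHom} ?_ ?_ ?_ ?_ _ ⟨g, rfl⟩ _ ⟨h, rfl⟩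
    hg hh e a ha b hb
  · rintro s - _ ⟨g, rfl⟩
    exact ⟨_, map_conj_map_conj A g s⟩
  · rintro _ ⟨g, rfl⟩
    obtain ⟨a, ha, haa⟩ := hsq
    refine ⟨_, conj_mem_map_conj g ha, fun e => haa ?_⟩
    calc a * a = g⁻¹ * (g * a * g⁻¹ * (g * a * g⁻¹)) * g := by group
      _ = 1 := by rw [e]; group
  · rintro _ ⟨g, rfl⟩ _ ⟨h, rfl⟩
    rw [card_map_conj, card_map_conj]
  · rintro _ ⟨g, rfl⟩ _ ⟨h, rfl⟩
    exact conj_ti hti g h

/-- Let X be a finite group whose generalized Fitting subgroup equals its largest normal 2-subgroup Q, and let A be an abelian 2-subgroup of X such that every conjugate of A equals A or meets A trivially. Let B be the subgroup generated by the squares of the elements of A. Then B lies in Q, and if B is not an elementary abelian 2-group then the normal closure of B in X is commutative. -/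
theorem result {X : Type*} [Group X] [Finite X]
    (hX : Cfsg.generalizedFittingSubgroup X = Cfsg.pCore 2 X) (A : Subgroup X) (hA2 : IsPGroup 2 ↥A) (hAa : IsMulCommutative ↥A)
    (hti : ∀ h : X, A.map (MulAut.conj h).toMonoidHom = A ∨ A.map (MulAut.conj h).toMonoidHom ⊓ A = ⊥) :
    Subgroup.closure ((fun a : X => a ^ 2) '' (A : Set X)) ≤ Cfsg.pCore 2 X ∧
      (¬ Cfsg.IsElementaryAbelian 2 (Subgroup.closure ((fun a : X => a ^ 2) '' (A : Set X))) →
        IsMulCommutative ↥(Subgroup.normalClosure ((fun a : X => a ^ 2) '' (A : Set X)))) := by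
  have hc := GT.PG.isMulCommutative_iff_forall.1 hAa
  have hB : ∀ b ∈ Subgroup.closure ((fun a : X => a ^ 2) '' (A : Set X)), ∃ a ∈ A, a ^ 2 = b := by
    intro b hb
    induction hb using closure_induction with
    | mem x hx => exact hx
    | one => exact ⟨1, one_mem _, one_pow _⟩
    | mul x y _ _ h1 h2 =>
      obtain ⟨a, ha, rfl⟩ := h1
      obtain ⟨b, hb, rfl⟩ := h2
      exact ⟨a * b, mul_mem ha hb, Commute.mul_pow (hc a ha b hb) 2⟩
    | inv x _ h1 =>
      obtain ⟨a, ha, rfl⟩ := h1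
      exact ⟨a⁻¹, inv_mem ha, inv_pow a 2⟩
  have hBA : Subgroup.closure ((fun a : X => a ^ 2) '' (A : Set X)) ≤ A := fun b hb => by
    obtain ⟨a, ha, rfl⟩ := hB b hb
    exact pow_mem ha 2
  have h1 : Subgroup.closure ((fun a : X => a ^ 2) '' (A : Set X)) ≤ pCore 2 X := by
    by_cases hsq : ∃ a ∈ A, a * a ≠ 1
    swap
    · push Not at hsq
      intro b hb
      obtain ⟨a, ha, rfl⟩ := hB b hb
      rw [pow_two, hsq a ha]; exact one_mem _
    refine GT.le_pCore_of_commutator_le_frattini ((GT.genFitting_eq_pCore_iff Nat.prime_two).1 hX) ?_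
    rw [commutator_le]
    intro q hq b hb
    obtain ⟨a, ha, rfl⟩ := hB b hb
    have h2 : (q * a * q⁻¹) * a⁻¹ = a⁻¹ * (q * a * q⁻¹) :=
      conj_comm (IsPGroup.to_sup_of_normal_right hA2 (GT.isPGroup_pCore 2)) hAa hsq hti (g := q) (h := 1)
        (by
          rintro _ ⟨x, hx, rfl⟩
          exact mul_mem (mul_mem (mem_sup_right hq) (mem_sup_left hx)) (inv_mem (mem_sup_right hq)))
        (by rw [map_conj_one]; exact le_sup_left) (conj_mem_map_conj q ha)
        (by rw [map_conj_one]; exact inv_mem ha)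
    have h3 : q * a * q⁻¹ * a⁻¹ ∈ pCore 2 X := by
      have := mul_mem hq ((inferInstance : (pCore 2 X).Normal).conj_mem _ (inv_mem hq) a)
      simpa only [mul_assoc] using this
    refine ⟨⟨_, h3⟩ ^ 2, GT.PG.pow_mem_frattini (GT.isPGroup_pCore 2) _, ?_⟩
    show (q * a * q⁻¹ * a⁻¹) ^ 2 = _
    rw [Commute.mul_pow h2, commutatorElement_def, conj_pow, inv_pow]
  refine ⟨h1, fun hne => ?_⟩
  have hBa := GT.PG.isMulCommutative_of_le hBA hAa
  have hsq : ∃ b ∈ Subgroup.closure ((fun a : X => a ^ 2) '' (A : Set X)), b * b ≠ 1 := by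
    by_contra hc
    push Not at hc
    exact hne ⟨hBa, fun b hb => by rw [pow_two, hc b hb]⟩
  have hBti : ∀ h : X, (Subgroup.closure ((fun a : X => a ^ 2) '' (A : Set X))).map (MulAut.conj h).toMonoidHom =
      Subgroup.closure ((fun a : X => a ^ 2) '' (A : Set X)) ∨
      (Subgroup.closure ((fun a : X => a ^ 2) '' (A : Set X))).map (MulAut.conj h).toMonoidHom ⊓
        Subgroup.closure ((fun a : X => a ^ 2) '' (A : Set X)) = ⊥ := by
    intro h
    rcases hti h with e | e
    · left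
      refine map_conj_eq_of_mem_normalizer (mem_normalizer_fintype fun b hb => ?_)
      obtain ⟨a, ha, rfl⟩ := hB b hb
      exact subset_closure ⟨_, (mem_normalizer_iff.1 (mem_normalizer_of_map_conj_eq e) a).1 ha,
        conj_pow⟩
    · right
      exact eq_bot_iff.2 (e ▸ inf_le_inf (map_mono hBA) hBA)
  have hle : ∀ g : X, (Subgroup.closure ((fun a : X => a ^ 2) '' (A : Set X))).map
      (MulAut.conj g).toMonoidHom ≤ pCore 2 X := by
    rintro g _ ⟨x, hx, rfl⟩
    exact (inferInstance : (pCore 2 X).Normal).conj_mem _ (h1 hx) g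
  refine Subgroup.isMulCommutative_closure fun x hx y hy => ?_
  obtain ⟨a, ha, hx⟩ := Group.mem_conjugatesOfSet_iff.1 hx
  obtain ⟨b, hb, hy⟩ := Group.mem_conjugatesOfSet_iff.1 hy
  obtain ⟨g, rfl⟩ := isConj_iff.1 hx
  obtain ⟨h, rfl⟩ := isConj_iff.1 hy
  exact conj_comm (GT.isPGroup_pCore 2) hBa hsq hBti (hle g) (hle h)
    (conj_mem_map_conj g (subset_closure ha)) (conj_mem_map_conj h (subset_closure hb))

end Cfsg.Agent.S1783
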