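import Mathlib
import Cfsg.Statements.S1784
import Cfsg.Agent.Spor.ESFstar

set_option autoImplicit false
open Cfsg

namespace Cfsg.Agent.S1784

open Cfsg.Agent.Spor Subgroup

/-- Let G be a finite group and let z be an involution of G such that Q, the generalized Fitting subgroup of the centralizer C of z, is a 2-group of symplectic type (every characteristic abelian subgroup of Q is cyclic); suppose Q is extraspecial, and view Q inside G. Let α be an involution of C that is not in Q, and let Q₀ be the subgroup of those q ∈ Q whose commutator with α lies in the subgroup generated by z. Then (a) the subgroup generated by the commutators α q α⁻¹ q⁻¹, q ∈ Q, equals the centre of Q₀; and (b) if Q₀ is not contained in the product of the centralizer of α in Q with the subgroup generated by z, then some element of Q conjugates α to α z. -/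
theorem result {G : Type*} [Group G] [Finite G] (z : G) (hz : orderOf z = 2) (hQ : Cfsg.IsOfSymplecticType ↥(Cfsg.generalizedFittingSubgroup ↥(Subgroup.centralizer ({z} : Set G)))) (hE : Cfsg.IsExtraspecial 2 ↥(Cfsg.generalizedFittingSubgroup ↥(Subgroup.centralizer ({z} : Set G))))
    (α : G) (hα : orderOf α = 2) (hαC : α ∈ Subgroup.centralizer ({z} : Set G)) (hαQ : α ∉ (Cfsg.generalizedFittingSubgroup ↥(Subgroup.centralizer ({z} : Set G))).map (Subgroup.centralizer ({z} : Set G)).subtype)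
    (Q₀ : Subgroup G) (hQ₀ : ∀ q : G, q ∈ Q₀ ↔ (q ∈ (Cfsg.generalizedFittingSubgroup ↥(Subgroup.centralizer ({z} : Set G))).map (Subgroup.centralizer ({z} : Set G)).subtype ∧ α * q * α⁻¹ * q⁻¹ ∈ Subgroup.zpowers z)) :
    Subgroup.closure ((fun q : G => α * q * α⁻¹ * q⁻¹) '' ((Cfsg.generalizedFittingSubgroup ↥(Subgroup.centralizer ({z} : Set G))).map (Subgroup.centralizer ({z} : Set G)).subtype : Set G)) = (Subgroup.center ↥Q₀).map Q₀.subtype ∧
      (¬ Q₀ ≤ ((Cfsg.generalizedFittingSubgroup ↥(Subgroup.centralizer ({z} : Set G))).map (Subgroup.centralizer ({z} : Set G)).subtype ⊓ Subgroup.centralizer ({α} : Set G)) ⊔ Subgroup.zpowers z →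
        ∃ q ∈ (Cfsg.generalizedFittingSubgroup ↥(Subgroup.centralizer ({z} : Set G))).map (Subgroup.centralizer ({z} : Set G)).subtype, q * α * q⁻¹ = α * z) := by
  obtain ⟨h, hl, -⟩ := es2_lg_of_fstar hz rfl (isExtraspecial_map_subtype hE)
  generalize (generalizedFittingSubgroup ↥(centralizer ({z} : Set G))).map
    (centralizer ({z} : Set G)).subtype = Q at *
  have hαα := (orderOf_eq_two_iff'.1 hα).2
  have hαi := inv_eq_self_of_sq hαα
  have hzα := mem_centralizer_singleton.1 hαC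
  have hn := hl.norm α hzα
  have hb : ∀ q ∈ Q, α * q * α⁻¹ * q⁻¹ ∈ Q := fun q hq => Q.mul_mem (hn q hq) (Q.inv_mem hq)
  constructor
  · set B := Subgroup.closure ((fun q : G => α * q * α⁻¹ * q⁻¹) '' (Q : Set G)) with hB
    have hBQ : B ≤ Q := by
      rw [hB, closure_le]; rintro _ ⟨q, hq, rfl⟩; exact hb q hq
    have hmem : ∀ q ∈ Q, α * q * α⁻¹ * q⁻¹ ∈ B := fun q hq => subset_closure ⟨q, hq, rfl⟩
    have hzB : z ∈ B := by
      by_contra hzB
      refine hαQ (hl.triv α hzα fun q hq => ?_)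
      suffices hc : ∀ y ∈ Q, α * q * α⁻¹ * q⁻¹ * y = y * (α * q * α⁻¹ * q⁻¹) by
        rcases h.center _ (hb q hq) hc with e | e
        · exact Or.inl (mul_inv_eq_one.1 e)
        · exact Or.inr (mul_inv_eq_iff_eq_mul.1 e)
      intro y hy
      by_contra hne
      apply hzB
      have e := h.aes.conj_of_ne hy (hb q hq) (fun e => hne e.symm)
      have h1 : y * (α * q * α⁻¹ * q⁻¹) * y⁻¹ ∈ B := by
        have := mul_mem (inv_mem (hmem y hy)) (hmem _ (Q.mul_mem hy hq))
        convert this using 1; group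
      rw [e] at h1
      simpa only [mul_inv_cancel_right] using mul_mem h1 (inv_mem (hmem q hq))
    have hbf : ∀ x ∈ Q, ∀ q ∈ Q, bf x (α * q * α⁻¹ * q⁻¹) = bf (α * x * α⁻¹ * x⁻¹) q := by
      intro x hx q hq
      rw [h.aes.bf_mul_right (hn q hq) (Q.inv_mem hq) hx, h.aes.bf_mul_left (hn x hx) (Q.inv_mem hx) hq,
        bf_inv_right, bf_inv_left, bf_comm x (α * q * α⁻¹), bf_conj, bf_comm q, hαi]
    have hC : ∀ x ∈ Q, (∀ a ∈ B, x * a = a * x) ↔ x ∈ Q₀ := by
      intro x hx
      rw [hQ₀, mem_zpowers_iff_of_sq h.z_sq]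
      constructor
      · intro hc
        exact ⟨hx, h.center _ (hb x hx) fun q hq => by
          rw [← bf_eq_zero, ← hbf x hx q hq, bf_eq_zero]; exact hc _ (hmem q hq)⟩
      · rintro ⟨-, e⟩ a ha
        have : B ≤ centralizer {x} := by
          rw [hB, closure_le]
          rintro _ ⟨q, hq, rfl⟩
          show _ ∈ centralizer {x}
          rw [mem_centralizer_singleton, ← bf_eq_zero, hbf x hx q hq, bf_eq_zero]
          rcases e with e | e <;> rw [e]
          · simp
          · exact h.z_comm q hq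
        exact mem_centralizer_singleton.1 (this ha)
    have hBQ₀ : B ≤ Q₀ := by
      rw [hB, closure_le]
      rintro _ ⟨q, hq, rfl⟩
      refine (hQ₀ _).2 ⟨hb q hq, ?_⟩
      have e : α * (α * q * α⁻¹ * q⁻¹) * α⁻¹ * (α * q * α⁻¹ * q⁻¹)⁻¹ =
          ((α * q * α⁻¹ * q⁻¹) * (α * q * α⁻¹ * q⁻¹))⁻¹ := by
        calc _ = (α * α) * (q * α⁻¹ * q⁻¹) * α⁻¹ * (α * q * α⁻¹ * q⁻¹)⁻¹ := by group
          _ = (q * α⁻¹⁻¹ * q⁻¹) * α⁻¹ * (α * q * α⁻¹ * q⁻¹)⁻¹ := by rw [hαα, one_mul, hαi, hαi]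
          _ = _ := by group
      show α * (α * q * α⁻¹ * q⁻¹) * α⁻¹ * (α * q * α⁻¹ * q⁻¹)⁻¹ ∈ _
      rw [e]
      exact inv_mem ((mem_zpowers_iff_of_sq h.z_sq).2 (h.sq _ (hb q hq)))
    apply le_antisymm
    · intro b hbB
      refine ⟨⟨b, hBQ₀ hbB⟩, mem_center_iff.2 fun x => Subtype.ext ?_, rfl⟩
      exact (hC x ((hQ₀ _).1 x.2).1).2 x.2 b hbB
    · rintro _ ⟨y, hy, rfl⟩
      refine h.mem_of_comm_centralizer hBQ hzB ((hQ₀ _).1 y.2).1 fun x hx hc => ?_
      exact congrArg Subtype.val (mem_center_iff.1 hy ⟨x, (hC x hx).1 hc⟩)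
  · intro hle
    obtain ⟨q, hq, hq'⟩ := SetLike.not_le_iff_exists.1 hle
    obtain ⟨hqQ, e⟩ := (hQ₀ q).1 hq
    refine ⟨q, hqQ, ?_⟩
    rcases (mem_zpowers_iff_of_sq h.z_sq).1 e with e | e
    · refine absurd (mem_sup_left (mem_inf.2 ⟨hqQ, mem_centralizer_singleton.2 ?_⟩)) hq'
      exact mul_inv_eq_iff_eq_mul.1 (mul_inv_eq_one.1 e)
    · rw [← e, hαi, ← mul_assoc, ← mul_assoc, ← mul_assoc, hαα, one_mul]

end Cfsg.Agent.S1784
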