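import Mathlib
import Cfsg.Statements.S1786
import Cfsg.Agent.Loc.TILem
import Cfsg.Agent.Loc.PUSec2
import Cfsg.Agent.GT.FStar

set_option autoImplicit false
open Cfsg

namespace Cfsg.Agent.S1786

open Cfsg.Agent.Loc.Mss Cfsg.Agent.Loc.TIL Cfsg.Agent.Loc.PU Cfsg.Agent.GT Subgroup
open scoped commutatorElement MatrixGroups

theorem sl2 {G : Type*} [Group G] [Finite G] {V U : Subgroup G} (h : Hyp V) (hU : Adj V U)
    (hn : PP V ⊔ PP U ≤ 𝐍[V ⊔ U]) [hN : ((𝐂[V ⊔ U]).subgroupOf (PP V ⊔ PP U)).Normal] :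
    ∃ (F : Type) (_ : Field F) (_ : Fintype F), Fintype.card F = Nat.card V ∧
      Nonempty (↥(PP V ⊔ PP U) ⧸ (𝐂[V ⊔ U]).subgroupOf (PP V ⊔ PP U) ≃* SL(2, F)) := by
  have h' := h.of_cj hU.1
  have hs := h.symm hU
  have ti : ∀ {A B : Subgroup G}, Hyp A → Cj A B → ∀ g : G, cj(g, A) ⊓ B ≤ ⊥ ∨ cj(g, A) ≤ B :=
    fun {A B} hA hB g => by
      by_cases e : cj(g, A) = B
      · exact Or.inr e.le
      · exact Or.inl ((hA.of_cj hB).inf_eq (Cj.of_ne hB.1 ⟨g, rfl⟩ e)).le
  obtain ⟨K, _, ρ, φ, D⟩ := exists_natU (L := PP V ⊔ PP U) (V := V ⊔ U) (V₀ := ⊥) (X := V) (Y := U)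
    (A := PP V) (B := PP U) (comm_eq_bot_iff.2 (h.sup_comm' hU)).le hn (norm_normal _ _) bot_le
    bot_le le_sup_left le_sup_right (h'.inf_eq hs.1).le le_rfl
    (fun e => hU.1.ne_bot (eq_bot_iff.2 e)) (fun e => hs.1.ne_bot (eq_bot_iff.2 e))
    (fun g _ => ti h hU.1 g) (fun g _ => ti h' hs.1 g) le_sup_left le_sup_right le_rfl
    ((commutator_mono le_rfl (h.sup_le_PP hU)).trans h.comm_le)
    (comm_eq_bot_iff.2 (PP_le_cent V)).le
    ((commutator_mono le_rfl (sup_le hs.2 h'.le_PP)).trans h'.comm_le)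
    (comm_eq_bot_iff.2 (PP_le_cent U)).le
    (fun y hy hy1 x hx => by
      obtain ⟨a, ha, e⟩ := h.exists_comm' hU hy (fun e => hy1 (mem_bot.2 e)) hx
      exact ⟨a, ha, by rw [e, mul_inv_cancel]; exact one_mem _⟩)
    (fun y hy hy1 x hx => by
      obtain ⟨a, ha, e⟩ := h'.exists_comm' hs hy (fun e => hy1 (mem_bot.2 e)) hx
      exact ⟨a, ha, by rw [e, mul_inv_cancel]; exact one_mem _⟩)
  haveI := D.toNatD.finite
  have hK : Nat.card K = Nat.card V := by rw [D.card_X, card_bot, mul_one]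
  obtain ⟨n, hn'⟩ := h.ea.card_eq_pow
  have hn0 : n ≠ 0 := by
    rintro rfl
    exact hU.1.ne_bot (card_eq_one.1 hn')
  have hF : Nat.card (GaloisField 2 n) = 2 ^ n := GaloisField.card 2 n hn0
  obtain ⟨e⟩ := nonempty_ringEquiv (K := K) (F := GaloisField 2 n) (by rw [hK, hn', hF])
  have D' := D.toNatD.congr e
  refine ⟨GaloisField 2 n, inferInstance, Fintype.ofFinite _, by
    rw [Fintype.card_eq_nat_card, hF, hn'], ⟨(QuotientGroup.quotientMulEquivOfEq ?_).trans
      (QuotientGroup.quotientKerEquivOfSurjective D'.hom D'.hom_surj)⟩⟩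
  ext g
  rw [MonoidHom.mem_ker, D'.hom_apply, D'.ker_iff g.2, mem_subgroupOf, mem_cent]
  refine forall₂_congr fun v _ => ?_
  rw [mem_bot, commutatorElement_eq_one_iff_mul_comm, eq_comm]

theorem main {G : Type*} [Group G] [Finite G] {V : Subgroup G} {g : G} (h : Hyp V)
    (hU : Adj V cj(g, V)) :
    V ≤ cj(g, PP V) ∧
      (∀ w ∈ V ⊔ cj(g, V), w ≠ 1 →
        ∃! U : Subgroup G, (∃ x : G, U = cj(x, V)) ∧ U ≤ V ⊔ cj(g, V) ∧ w ∈ U) ∧
      PP V ⊔ cj(g, PP V) ≤ 𝐍[V ⊔ cj(g, V)] ∧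
      (∀ _ : ((𝐂[V ⊔ cj(g, V)]).subgroupOf (PP V ⊔ cj(g, PP V))).Normal,
        ∃ (F : Type) (_ : Field F) (_ : Fintype F), Fintype.card F = Nat.card V ∧
        Nonempty (↥(PP V ⊔ cj(g, PP V)) ⧸ (𝐂[V ⊔ cj(g, V)]).subgroupOf (PP V ⊔ cj(g, PP V)) ≃*
          SL(2, F))) ∧
      PP V = PP V ∧ (frattini (PP V)).map (PP V).subtype = V ∧
      (center (PP V)).map (PP V).subtype = V ∧ (commutator (PP V)).map (PP V).subtype = V := by
  have hs := h.symm hU
  have hn : PP V ⊔ PP cj(g, V) ≤ 𝐍[V ⊔ cj(g, V)] := by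
    refine sup_le (h.norm_sup' hU) ?_
    rw [sup_comm]
    exact (h.cj g).norm_sup' hs
  rw [cj_PP]
  refine ⟨hs.2, fun w hw hw1 => ?_, hn, fun hN => sl2 h hU hn, rfl, ?_, ?_, ?_⟩
  · have key : ∃ U : Subgroup G, (∃ x : G, U = cj(x, V)) ∧ U ≤ V ⊔ cj(g, V) ∧ w ∈ U := by
      by_cases hwV : w ∈ V
      · exact ⟨V, ⟨1, (cj_one V).symm⟩, le_sup_left, hwV⟩
      · obtain ⟨y, hy, e⟩ := h.exists_mem_cj hU hw hwV
        exact ⟨_, ⟨y * g, cj_cj _ _ _⟩, cj_le_of_norm le_sup_right (h.norm_sup' hU hy), e⟩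
    obtain ⟨U, hU1⟩ := key
    exact ⟨U, hU1, fun U' hU' => h.eq_of_mem hU1.1 hU'.1 hw1 hU1.2.2 hU'.2.2⟩
  · refine le_antisymm ((PG.map_frattini_subtype_le_iff (pg_PP V)).2
      ⟨h.comm_le, fun x hx => by rw [pow_two]; exact h.sq_mem hx⟩) ?_
    rw [PG.map_frattini_subtype (pg_PP V), h.comm_eq hU]
    exact le_sup_left
  · rw [← cent_top, map_subtype_cent, map_subtype_top]
    exact le_antisymm h.center_le (le_inf h.le_PP (cent_comm (PP_le_cent V)))
  · rw [commutator_def, map_commutator, map_subtype_top, h.comm_eq hU]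

/-- Let G be a finite group, V an elementary abelian 2-subgroup of G and M the normalizer of V; write Q for the largest normal 2-subgroup of M. Suppose (1) the generalized Fitting subgroup of M equals Q; (2) V is a maximal abelian normal subgroup of M; (3) every conjugate of V equals V or meets V trivially, and for some g ∈ G the conjugate V' = g V g⁻¹ is different from V and contained in Q. Let P be the centralizer of V in Q, W the subgroup generated by V and V', and H the subgroup generated by P and g P g⁻¹. Then: (a) V is contained in g Q g⁻¹; (b) every non-identity element of W lies in exactly one conjugate of V contained in W, H normalizes W, and H modulo the centralizer of W in H is isomorphic to the special linear group of dimension 2 over the field with |V| elements; (c) P = Q, and V equals the Frattini subgroup, the centre and the commutator subgroup of Q. -/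
theorem result {G : Type*} [Group G] [Finite G] (V : Subgroup G)
    (hV : Cfsg.IsElementaryAbelian 2 V)
    (h1 : (Cfsg.generalizedFittingSubgroup ↥(Subgroup.normalizer (V : Set G))).map (Subgroup.normalizer (V : Set G)).subtype =
      (Cfsg.pCore 2 ↥(Subgroup.normalizer (V : Set G))).map (Subgroup.normalizer (V : Set G)).subtype)
    (h2 : ∀ A : Subgroup G, V ≤ A → A ≤ Subgroup.normalizer (V : Set G) → IsMulCommutative ↥A →
      (∀ m ∈ Subgroup.normalizer (V : Set G), ∀ a ∈ A, m * a * m⁻¹ ∈ A) → A = V)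
    (hti : ∀ x : G, V.map (MulAut.conj x).toMonoidHom = V ∨ V.map (MulAut.conj x).toMonoidHom ⊓ V = ⊥)
    (g : G) (hg : V.map (MulAut.conj g).toMonoidHom ≠ V)
    (hgQ : V.map (MulAut.conj g).toMonoidHom ≤ (Cfsg.pCore 2 ↥(Subgroup.normalizer (V : Set G))).map (Subgroup.normalizer (V : Set G)).subtype) :
    let Q : Subgroup G := (Cfsg.pCore 2 ↥(Subgroup.normalizer (V : Set G))).map (Subgroup.normalizer (V : Set G)).subtype
    let P : Subgroup G := Q ⊓ Subgroup.centralizer (V : Set G)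
    let W : Subgroup G := V ⊔ V.map (MulAut.conj g).toMonoidHom
    let H : Subgroup G := P ⊔ P.map (MulAut.conj g).toMonoidHom
    V ≤ Q.map (MulAut.conj g).toMonoidHom ∧
      (∀ w ∈ W, w ≠ 1 → ∃! U : Subgroup G, (∃ x : G, U = V.map (MulAut.conj x).toMonoidHom) ∧ U ≤ W ∧ w ∈ U) ∧
      H ≤ Subgroup.normalizer (W : Set G) ∧
      (∀ hN : ((Subgroup.centralizer (W : Set G)).subgroupOf H).Normal, ∃ (F : Type) (_ : Field F) (_ : Fintype F), Fintype.card F = Nat.card ↥V ∧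
        Nonempty (↥H ⧸ (Subgroup.centralizer (W : Set G)).subgroupOf H ≃* Matrix.SpecialLinearGroup (Fin 2) F)) ∧
      P = Q ∧ (frattini ↥Q).map Q.subtype = V ∧ (Subgroup.center ↥Q).map Q.subtype = V ∧ (commutator ↥Q).map Q.subtype = V := by
  have h : Hyp V := ⟨hV, hti, fun A a1 a2 a3 a4 => (h2 A a1 a2
    ⟨⟨fun x y => Subtype.ext (mem_cent.1 (a3 y.2) x x.2)⟩⟩
    fun m hm a ha => conj_mem_of_norm (a4 hm) ha).le, (genFittingOf_eq_pCoreOf_iff Nat.prime_two).1 h1⟩
  have hc : Cj V cj(g, V) := ⟨⟨g, rfl⟩, hg⟩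
  have hU : Adj V cj(g, V) := ⟨hc, le_inf hgQ (h.le_cent_of_norm hc (hgQ.trans (pCoreOf_le _)))⟩
  have hPQ : PP V = pCoreOf 2 𝐍[V] := inf_eq_left.2 (h.core_le hU)
  have hm := main h hU
  intro Q P W H
  have hQ : Q = PP V := hPQ.symm
  have hP : P = PP V := rfl
  have hW : W = V ⊔ cj(g, V) := rfl
  have hH : H = PP V ⊔ cj(g, PP V) := rfl
  clear_value Q P W H
  subst hQ hP hW hH
  exact hm

end Cfsg.Agent.S1786
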