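import Mathlib
import Cfsg.Statements.S1823
import Cfsg.Agent.QT.Push

set_option autoImplicit false
open Cfsg

namespace Cfsg.Agent.S1823

open Cfsg.Agent.GT Cfsg.Agent.Loc Cfsg.Agent.Loc.Mss Cfsg.Agent.Loc.Blk Cfsg.Agent.QT Subgroup

/-- A common nontrivial normal 2-subgroup for a pair of 2-local-type subgroups over a Sylow 2-subgroup of a simple QTKE-group. Let G be a non-abelian finite simple QTKE-group and T a Sylow 2-subgroup of G. Let M₀ and H be subgroups of G containing T with O₂(M₀) ≠ 1 and O₂(H) ≠ 1, such that T lies in a unique maximal subgroup of H. Let R be a nontrivial subgroup of T that is a Sylow 2-subgroup of O²(H)R and is normalized by M₀. Then some nontrivial subgroup R₀ of R is normalized by both M₀ and H (that is, R₀ is normal in ⟨M₀, H⟩). -/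
theorem result {G : Type*} [Group G] [Finite G] [IsSimpleGroup G]
    (hG : ¬ IsMulCommutative G) (hQ : Cfsg.IsQTKE G) (T : Sylow 2 G) (M₀ H : Subgroup G)
    (hM₀ : M₀ ∈ Cfsg.calHOver (T : Subgroup G)) (hH : H ∈ Cfsg.calHOver (T : Subgroup G))
    (hU : ∃! K : Subgroup ↥H, IsCoatom K ∧ (T : Subgroup G).subgroupOf H ≤ K)
    (R : Subgroup G) (hR : R ≠ ⊥) (hRT : R ≤ (T : Subgroup G))
    (hRS : ∃ P : Sylow 2 ↥(Cfsg.oddGenerated H ⊔ R),
      (P : Subgroup ↥(Cfsg.oddGenerated H ⊔ R)) = R.subgroupOf (Cfsg.oddGenerated H ⊔ R))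
    (hRM : M₀ ≤ Subgroup.normalizer (R : Set G)) :
    ∃ R₀ : Subgroup G, R₀ ≠ ⊥ ∧ R₀ ≤ R ∧ M₀ ⊔ H ≤ Subgroup.normalizer (R₀ : Set G) := by
  by_contra hcon
  push Not at hcon
  obtain ⟨K, ⟨hK, hTK⟩, hu⟩ := hU
  have hT := Syl.of_sylow T
  have hTH : (T : Subgroup G) ≤ H := hH.2
  have hTM : (T : Subgroup G) ≤ M₀ := hM₀.2
  have hmax : ∀ U : Subgroup G, U ≠ ⊥ → U ≤ R → M₀ ≤ 𝐍[U] → H ⊓ 𝐍[U] ≤ K.map H.subtype :=
    fun U h1 h2 h3 => by
      rcases eq_top_or_exists_le_coatom ((𝐍[U]).subgroupOf H) with e | ⟨Y, hY, h4⟩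
      · exact absurd (sup_le h3 (subgroupOf_eq_top.1 e)) (hcon U h1 h2)
      · rw [hu Y ⟨hY, (comap_mono (hTM.trans h3)).trans h4⟩] at h4
        exact fun x hx => ⟨⟨x, hx.1⟩, h4 hx.2, rfl⟩
  rw [oddGenerated_eq_pResidualOf] at hRS
  obtain ⟨P, hP⟩ := hRS
  have hRS : Syl 2 R (pResidualOf 2 H ⊔ R) := by
    have := Syl.of_sylow_sub P
    rwa [hP, map_subgroupOf_eq_of_le le_sup_right] at this
  have hle : pResidualOf 2 H ⊔ R ≤ H := sup_le (res_le H) (hRT.trans hTH)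
  obtain ⟨U, h1, h2, h3, h4⟩ := push_main (M' := K.map H.subtype) (hev_of_even hQ.2.2 T) hT hTM
    hRS hRT (norm_sup (hTH.trans (le_norm_res H)) (hTM.trans hRM))
    ((chP_of_even hQ.2.2 T hH.1 hTH).of_subnormal (subnormalIn_of_res_le hle le_sup_left))
    (norm_bB hRM) ((inf_le_inf hle (cent_le_norm _)).trans (hmax _ (fun e => by
      obtain ⟨x, hx, hxc, hx1, hxp⟩ := th_exists_center_order hRS.pg hR
      exact hx1 (mem_bot.1 (e.le (mem_oz.2 ⟨hx, hxc, hxp⟩)))) (oz_le R) (norm_oz hRM)))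
    (fun C a1 a2 a3 => (inf_le_inf_right _ hle).trans
      (hmax C a2 (a1.trans (bB_le R)) ((norm_bB hRM).trans a3)))
    (fun l => hK.1 (top_le_iff.1 (by
      have : H ≤ K.map H.subtype := (hT.mono hTH le_top).le_of_res_le (le_sup_left.trans l)
        ((subgroupOf_le_iff hTH).1 hTK)
      intro x _
      obtain ⟨y, hy, e⟩ := this x.2
      rwa [← Subtype.ext e])))
  exact h4 ((inf_le_inf_right _ hle).trans (hmax U h1 (h2.trans (bB_le R)) h3))

end Cfsg.Agent.S1823
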