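import Cfsg.Statements.S1824
import Cfsg.Agent.QT.QrcCub

set_option autoImplicit false
open Cfsg

namespace Cfsg.Agent.S1824

open Cfsg.Agent.GT Cfsg.Agent.Loc Cfsg.Agent.Loc.Mss Cfsg.Agent.Loc.Blk Cfsg.Agent.Loc.BH
  Cfsg.Agent.QT Subgroup

/-- The qrc-lemma in the form used for simple QTKE-groups. Let G be a non-abelian finite simple QTKE-group, T a Sylow 2-subgroup of G and M a maximal 2-local subgroup of G containing T. Let T ≤ M₀ ≤ M, let H be a minimal member of the set of subgroups of G with nontrivial 2-core that contain T and are not contained in M, and let V be a 2-reduced elementary abelian normal 2-subgroup of M₀ with O₂(M₀) = C_T(V). Suppose H ∩ M normalizes O²(M₀) or normalizes V. Then one of the following holds: (1) some nontrivial subgroup of O₂(M₀) is normalized by both M₀ and H; (2) V ≰ O₂(H) and q̂(M₀/C_{M₀}(V), V) ≤ 2; (3) q(M₀/C_{M₀}(V), V) ≤ 2. Here q (resp. q̂) ≤ 2 means that some subgroup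 of M₀ inducing a nontrivial elementary abelian 2-group A on V acts quadratically (resp. cubically) on V with |V : C_V(A)| ≤ |A|². -/
theorem result {G : Type*} [Group G] [Finite G] [IsSimpleGroup G]
    (hG : ¬ IsMulCommutative G) (hQ : Cfsg.IsQTKE G) (T : Sylow 2 G) (M M₀ H V : Subgroup G)
    (hM : M ∈ Cfsg.maxTwoLocalsContaining (T : Subgroup G))
    (hTM₀ : (T : Subgroup G) ≤ M₀) (hM₀M : M₀ ≤ M) (hH : H ∈ Cfsg.calHMin (T : Subgroup G) M)
    (hV : V ∈ Cfsg.calR2 M₀)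
    (hR : (Cfsg.pCore 2 ↥M₀).map M₀.subtype = (T : Subgroup G) ⊓ Subgroup.centralizer (V : Set G))
    (hI : H ⊓ M ≤ Subgroup.normalizer (Cfsg.oddGenerated M₀ : Set G) ∨
      H ⊓ M ≤ Subgroup.normalizer (V : Set G)) :
    (∃ R₀ : Subgroup G, R₀ ≠ ⊥ ∧ R₀ ≤ (Cfsg.pCore 2 ↥M₀).map M₀.subtype ∧
        M₀ ⊔ H ≤ Subgroup.normalizer (R₀ : Set G)) ∨
      (¬ V ≤ (Cfsg.pCore 2 ↥H).map H.subtype ∧ Cfsg.CubicParamLE M₀ V 2) ∨
      Cfsg.QuadParamLE M₀ V 2 := by
  by_contra hcon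
  simp only [not_or] at hcon
  obtain ⟨n1, n2, n3⟩ := hcon
  obtain ⟨⟨⟨hO, hTH⟩, hHM⟩, hmin⟩ := hH
  obtain ⟨hVM, hMV, hVe, -⟩ := hV
  have hT := Syl.of_sylow T
  have hch := chP_of_even hQ.2.2 T hO hTH
  have hTM := hTM₀.trans hM₀M
  change pCoreOf 2 M₀ = _ at hR
  change ¬ (¬ V ≤ pCoreOf 2 H ∧ _) at n2
  set R := pCoreOf 2 M₀ with hRd
  have hTH' := hT.mono hTH le_top
  have hO' : pCoreOf 2 H ≠ ⊥ := fun e => hO ((map_eq_bot_iff_of_injective _ H.subtype_injective).1 e)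
  have huniq : ∀ K, (T : Subgroup G) ≤ K → K ≤ H → K ≤ M ∨ K = H := fun K k1 k2 => by
    by_cases k3 : K ≤ M
    · exact Or.inl k3
    refine Or.inr (hmin K ⟨⟨fun e => hO' (eq_bot_iff.2 ((core_le_core_of_le k2
      (hTH'.core_le.trans k1)).trans ?_)), k1⟩, k3⟩ k2)
    change (pCore 2 K).map K.subtype ≤ ⊥
    rw [e, Subgroup.map_bot]
  have hT0 : (T : Subgroup G) ≠ ⊥ := fun e => hO' (eq_bot_iff.2 (hTH'.core_le.trans e.le))
  have hRT : R ≤ T := hR.le.trans inf_le_left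
  have hRV : R ≤ 𝐂[V] := hR.le.trans inf_le_right
  have hVR : V ≤ R := le_core_of_norm hVe.isPGroup hVM hMV
  have hVT := hVR.trans hRT
  have hMR : M₀ ≤ 𝐍[R] := le_norm_core M₀
  have hno : ∀ U : Subgroup G, U ≠ ⊥ → U ≤ R → M₀ ≤ 𝐍[U] → H ⊓ 𝐍[U] ≤ M := fun U h1 h2 h3 =>
    (huniq _ (le_inf hTH (hTM₀.trans h3)) inf_le_left).resolve_right fun e =>
      n1 ⟨U, h1, h2, sup_le h3 (e.ge.trans inf_le_right)⟩
  have quad : ∀ B ≤ (T : Subgroup G), TwoF V B → ⁅⁅V, B⁆, B⁆ ≠ ⊥ := fun B h1 h2 h3 =>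
    n3 ⟨B, h1.trans hTM₀, induces_of_quad hVe (h1.trans (hTM₀.trans hMV)) h2.1 h3, h3, by
      rw [inf_relIndex_left]; exact h2.2⟩
  have hJ : thJ 2 (T : Subgroup G) ≤ 𝐂[V] := thJ_le_iff.2 fun A hA => by
    by_contra hc
    obtain ⟨A', a1, -, a2, a3⟩ := exists_quad hA hVT hVe (hA.1.trans (hTM₀.trans hMV)) hc
    exact quad A' a1.1 (TwoF.of_le a2 (rI_le_of_abFam a1 hVT hVe)) a3
  have hBR : 𝐁[2, (T : Subgroup G)] ≤ R :=
    (le_inf (bB_le _) (bB_cent' hVT (cent_comm hJ) hVe.2)).trans hR.ge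
  obtain ⟨eJ, eB⟩ := thJ_bB_of_le hT (pg_core M₀) hBR
  have hJR : thJ 2 (T : Subgroup G) ≤ R := (thJ_le_bB _).trans hBR
  have hNJ : H ⊓ 𝐍[thJ 2 (T : Subgroup G)] ≤ M := hno _ (thJ_ne_bot dvd_rfl hT.pg hT0) hJR
    (eJ ▸ hMR.trans (normalizer_le_normalizer_thJ 2 R))
  have hMB : M₀ ≤ 𝐍[𝐁[2, (T : Subgroup G)]] := eB ▸ norm_bB hMR
  by_cases hVQ : V ≤ pCoreOf 2 H
  · have hZ : H ≤ 𝐂[ΩZ[2, (T : Subgroup G)]] := by
      rcases huniq (H ⊓ 𝐂[ΩZ[2, (T : Subgroup G)]]) (le_inf hTH (le_cent_oz _)) inf_le_left with l | e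
      · obtain ⟨U, u1, u2, u3, u4⟩ := push_main (hev_of_even hQ.2.2 T) hT hTM₀ hTH' le_rfl
          (norm_of_le hTH) hch hMB l (fun C c1 c2 c3 => hno C c2 (c1.trans hBR) (hMB.trans c3)) hHM
        exact absurd (hno U u1 (u2.trans hBR) u3) u4
      · exact e.ge.trans inf_le_right
    have hi := H.subtype_injective
    have eT : ((T : Subgroup G).subgroupOf H).map H.subtype = T := map_subgroupOf_eq_of_le hTH
    have eV : (V.subgroupOf H).map H.subtype = V := map_subgroupOf_eq_of_le (hVT.trans hTH)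
    have hNJ' : 𝐍[thJ 2 ((T : Subgroup G).subgroupOf H)] ≤ M.subgroupOf H := fun x hx => by
      rw [thJ_subgroupOf hTH, norm_subgroupOf ((thJ_le _ _).trans hTH)] at hx
      exact hNJ ⟨x.2, hx⟩
    have h : PM 2 ((T : Subgroup G).subgroupOf H) (M.subgroupOf H) := by
      obtain ⟨S, e, -⟩ := hTH'.exists_sylow
      refine ⟨e ▸ Am.isSylowOf_top S, comap_mono hTM, fun e => hHM (subgroupOf_eq_top.1 e),
        fun K hK => (huniq (K.map H.subtype) (eT.ge.trans (map_mono hK)) (map_subtype_le K)).imp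
          (fun l => map_le_iff_le_comap.1 l) fun e => top_le_iff.1 (map_subtype_le_iff.1 ?_),
        (normalizer_le_normalizer_thJ 2 _).trans hNJ'⟩
      rw [Mss.map_subtype_top, e]
    have hQT : pCore 2 H ≤ (T : Subgroup G).subgroupOf H := map_le_iff_le_comap.1 hTH'.core_le
    have hZ' : pResidualOf 2 ⊤ ≤ 𝐂[ΩZ[2, pCore 2 H]] := by
      by_contra hc
      have : (ΩZ[2, pCore 2 H]).Normal := normal_of_top (norm_oz (norm_normal _ _))
      have a1 := le_of_not_res_le h (norm_normal _ _) hc (norm_normal _ _)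
      obtain ⟨A, a2, a3⟩ := h.exists_abFam_not_le a1 hNJ'
      refine moves_of_off h (ea_oz _) (le_cent_oz _) a1 (ea_of_abFam a2) a3
        (rI_le_of_abFam a2 ((oz_le _).trans hQT) (ea_oz _)) ?_
      rw [← map_le_cent_iff hi, Mss.map_subtype_top]
      refine le_trans (map_mono (le_oz ((ea_oz _).mono inf_le_left)
        (inf_le_left.trans ((oz_le _).trans hQT)) inf_le_right)) ?_
      rw [CG.map_oz hi, eT]
      exact cent_comm hZ
    obtain ⟨B, b1, b2, b3⟩ := qrc_caseA (V := V.subgroupOf H) h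
      ⟨le_centralizer_iff_isMulCommutative.1 (by
        rw [← map_le_cent_iff hi, eV]; exact ea_le_cent hVe), fun a ha => Subtype.ext (hVe.2 a ha)⟩
      ((subgroupOf_le_iff (hVT.trans hTH)).2 hVQ)
      (by rw [← map_le_norm_iff hi, eV, eT]; exact hTM₀.trans hMV) (fun l => by
        rw [← map_le_norm_iff hi, eV, Mss.map_subtype_top] at l
        by_cases e : V = ⊥
        · have a1 : (T : Subgroup G) ≤ R := (le_inf le_rfl (by rw [e, cent_bot]; exact le_top)).trans hR.ge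
          have a2 : ΩZ[2, (T : Subgroup G)] = ΩZ[2, R] := by rw [le_antisymm a1 hRT]
          exact hHM ((le_inf le_rfl (norm_of_cent hZ)).trans (hno _ (oz_ne_bot hT.pg hT0)
            ((oz_le _).trans a1) (a2 ▸ norm_oz hMR)))
        · exact hHM ((le_inf le_rfl l).trans (hno V e hVR hMV)))
      (by rw [← map_le_cent_iff hi, eV, ← thJ_map_of_injective _ hi, eT]; exact hJ) hNJ' hZ'
    have b4 := b2.map hi
    rw [eV] at b4
    refine quad _ ((map_mono b1).trans hTH'.core_le) b4 ?_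
    rw [← eV, ← Subgroup.map_commutator, ← Subgroup.map_commutator, b3, Subgroup.map_bot]
  obtain ⟨N, N1, N2, N3⟩ : ∃ N : Subgroup G, R ≤ N ∧ (T : Subgroup G) ⊓ N ≤ R ∧ H ⊓ M ≤ 𝐍[N] := by
    rcases hI with l | l
    swap
    · exact ⟨𝐂[V], hRV, hR.ge, norm_cent l⟩
    rw [oddGenerated_eq_pResidualOf] at l
    set K := pResidualOf 2 M₀ with hK
    have k1 : M₀ ≤ 𝐍[K] := le_norm_res M₀
    have k2 : R ≤ cmod K (pCoreOf 2 K) := le_cmod.2 ⟨norm_core ((core_le M₀).trans k1),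
      le_core_of_norm ((pg_core M₀).to_le (comm_le_right ((res_le M₀).trans hMR)))
        (comm_le_left ((core_le M₀).trans k1)) (ncl_left _ _)⟩
    have k3 : pCoreOf 2 K ≤ R :=
      le_core_of_norm (pg_core K) ((core_le K).trans (res_le M₀)) (norm_core k1)
    refine ⟨_, k2, le_core_of_norm hT.pg.to_inf_left (inf_le_left.trans hTM₀)
      ((hT.mono hTM₀ le_top).le_of_res_le (norm_of_comm_le le_rfl ?_) (norm_inf le_normalizer
        (norm_cmod (hTM₀.trans k1) (norm_core (hTM₀.trans k1))))), norm_cmod l (norm_core l)⟩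
    rw [commutator_comm]
    exact ((commutator_mono le_rfl inf_le_right).trans (comm_cmod_le _ _)).trans
      (k3.trans (le_inf hRT k2))
  have hw : ∀ g ∈ H, cj(g, R) ≤ (T : Subgroup G) → g ∈ 𝐍[R] := fun g g1 g2 => by
    have a1 : g ∈ 𝐍[thJ 2 (T : Subgroup G)] := mem_norm_of_cj_le (Mss.cj_le_iff_le_inv.2
      (thJ_le_iff.2 fun A hA => Mss.cj_le_iff_le_inv.1 (le_thJ (mem_abFam_of_card_le hA
        ((cj_mono g ((le_thJ hA).trans hJR)).trans g2) (th_comm_map _ (abFam_comm hA))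
        (ea_map _ (ea_of_abFam hA)).2 (Mss.card_cj A g).ge))))
    exact mem_norm_of_cj_le ((le_inf g2 (cj_le_of_norm N1 (N3 ⟨g1, hNJ ⟨g1, a1⟩⟩))).trans N2)
  have hVY : V ≤ ΩZ[2, R] := le_oz hVe hVR (cent_comm hRV)
  obtain ⟨B, b1, b2, b3, b4, b5⟩ := qrc_cub hch (hRT.trans hTH) (pg_core M₀) (ea_oz R) (oz_le R)
    (le_cent_oz R) (fun P p1 p2 p3 => by
      obtain ⟨g, g1, g2⟩ := hTH'.le_conj p2 p1
      have a1 := inv_mem (hw _ (inv_mem g1) (Mss.le_cj_iff_inv_le.1 (p3.trans g2)))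
      rw [inv_inv] at a1
      exact norm_oz (g2.trans (cj_le_of_mem (hTM₀.trans hMR) a1))) fun l => hVQ (hVY.trans l)
  obtain ⟨g, g1, g2⟩ := hTH'.conj_le b2 (sup_le (hRT.trans hTH) b1)
  have g3 := hw g g1 ((cj_mono g le_sup_left).trans g2)
  have g4 : cj(g, B) ≤ (T : Subgroup G) := (cj_mono g le_sup_right).trans g2
  have g5 : cj(g, ΩZ[2, R]) = ΩZ[2, R] := cj_of_norm (norm_oz le_rfl g3)
  have c1 := b4.map (cj_inj g)
  rw [g5] at c1
  have c2 : 𝐂[V] ⊓ cj(g, B) ≤ 𝐂[ΩZ[2, R]] :=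
    ((le_inf (inf_le_right.trans g4) inf_le_left).trans hR.ge).trans (le_cent_oz R)
  refine n2 ⟨hVQ, cj(g, B), g4.trans hTM₀, induces_of_ea (ea_map _ b3)
    fun l => c1.1 ((le_inf l le_rfl).trans c2), ?_, ?_⟩
  · refine eq_bot_iff.2 ((commutator_mono (commutator_mono (commutator_mono hVY le_rfl) le_rfl)
      le_rfl).trans ?_)
    conv_lhs => rw [← g5]
    rw [← Mss.cj_comm, ← Mss.cj_comm, ← Mss.cj_comm, b5, Mss.cj_bot]
  · rw [inf_relIndex_left]
    exact (rI_right hVY).trans (c1.2.trans (Nat.pow_le_pow_left (rI_left c2) 2))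

end Cfsg.Agent.S1824
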