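import Mathlib
import Cfsg.Statements.S1850
import Cfsg.Agent.Loc.CharP
import Cfsg.Agent.GT.TransferSylow

set_option autoImplicit false
open Cfsg

namespace Cfsg.Agent.S1850

private theorem up {G : Type*} [Group G] [Finite G] {p : ℕ} [Fact p.Prime] {U : Subgroup G}
    (hU : IsPGroup p U) (V : Subgroup G) (hV : V ≤ U)
    (h : Loc.Am.IsCharP p (Subgroup.normalizer (V : Set G))) :
    Loc.Am.IsCharP p (Subgroup.normalizer (U : Set G)) := by
  induction V using WellFoundedGT.induction with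
  | ind V ih =>
    rcases hV.eq_or_lt with rfl | hlt
    · exact h
    · refine ih _ (GT.Tr.lt_inf_normalizer hU hlt) inf_le_left ?_
      exact (Loc.CP.isCharP_normalizer_centralizer_of_normal (hU.to_le inf_le_left)
        (GT.Tr.lt_inf_normalizer hU hlt).le inf_le_right h).1

/-- Let G be a non-abelian finite simple QTKE-group and T a Sylow 2-subgroup of G. If U is a nontrivial 2-subgroup of G with U ∩ Z(T) ≠ 1, then F*(N_G(U)) = O₂(N_G(U)). -/
theorem result {G : Type*} [Group G] [Finite G] [IsSimpleGroup G]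
    (hG : ¬ IsMulCommutative G) (hQ : Cfsg.IsQTKE G) (T : Sylow 2 G) (U : Subgroup G)
    (hU : IsPGroup 2 ↥U) (hZ : U ⊓ ((T : Subgroup G) ⊓ Subgroup.centralizer ((T : Subgroup G) : Set G)) ≠ ⊥) :
    Subgroup.normalizer (U : Set G) ∈ Cfsg.calHe G := by
  refine Loc.CP.isCharP_iff_genFitting.1 (up (p := 2) hU
    (U ⊓ ((T : Subgroup G) ⊓ Subgroup.centralizer ((T : Subgroup G) : Set G))) inf_le_left ?_)
  refine Loc.Am.isCharP_iff.2 (hQ.2.2 _ ⟨_, hU.to_le inf_le_left, hZ, rfl⟩ ⟨T, ?_⟩)
  refine le_trans ?_ (Subgroup.centralizer_le_normalizer _)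
  rw [Subgroup.le_centralizer_iff]
  exact inf_le_right.trans inf_le_right

end Cfsg.Agent.S1850
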