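import Mathlib
import Cfsg.Statements.S1851
import Cfsg.Agent.Loc.CharP
import Cfsg.Agent.Loc.MssSyl
import Cfsg.Agent.GT.PElementClosure
import Cfsg.Agent.GT.PGroupChain
import Cfsg.Agent.GT.PGroupElemAb

set_option autoImplicit false
open Cfsg

namespace Cfsg.Agent.S1851

open Subgroup Cfsg.Agent.GT

private theorem exists_sub {G : Type*} [Group G] [Finite G] {p : ℕ} [Fact p.Prime]
    {L R : Subgroup G} (hL : ⁅L, L⁆ = L) (hR : IsPGroup p R) (hRL : R ≤ normalizer (L : Set G))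
    (hLR : L ≤ normalizer (R : Set G)) (V : Subgroup G) (hV : IsPGroup p V)
    (h1 : L ≤ normalizer (V : Set G)) (h2 : R ≤ normalizer (V : Set G))
    (h3 : ⁅⁅R, L⁆, V⁆ = ⊥) (h4 : ⁅V, L⁆ ≠ ⊥) :
    ∃ W ≤ V, ⁅W, L⁆ = W ∧ W ≠ ⊥ ∧ ⁅W, R⁆ = ⊥ := by
  induction V using WellFoundedLT.induction with
  | ind V ih =>
    have hne : V ≠ ⊥ := by
      rintro rfl
      exact h4 (commutator_bot_left L)
    have hle : ⁅V, L⁆ ≤ V := le_normalizer_iff_commutator_le_left.1 h1
    have key : ∀ W, W < V → L ≤ normalizer (W : Set G) → R ≤ normalizer (W : Set G) →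
        ⁅W, L⁆ ≠ ⊥ → ∃ W ≤ V, ⁅W, L⁆ = W ∧ W ≠ ⊥ ∧ ⁅W, R⁆ = ⊥ := by
      intro W hW a b c
      obtain ⟨U, hU, hU'⟩ := ih W hW (hV.to_le hW.le) a b
        (le_bot_iff.1 ((commutator_mono le_rfl hW.le).trans h3.le)) c
      exact ⟨U, hU.trans hW.le, hU'⟩
    rcases hle.eq_or_lt with he | hlt
    · have hlt := PG.commutator_lt_of_isPGroup hV hR h2 hne
      by_cases hc : ⁅⁅V, R⁆, L⁆ = ⊥
      · refine ⟨V, le_rfl, he, hne, ?_⟩
        have := commutator_commutator_eq_bot_of_rotate hc h3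
        rwa [commutator_comm L V, he] at this
      · exact key _ hlt (le_normalizer_commutator h1 hLR) (le_normalizer_commutator h2 le_normalizer)
          hc
    · refine key _ hlt (le_normalizer_commutator h1 le_normalizer)
        (le_normalizer_commutator h2 hRL) fun hc => h4 ?_
      have := commutator_commutator_eq_bot_of_rotate (H₁ := L) (H₂ := L) (H₃ := V)
        (by rwa [commutator_comm L V]) hc
      rwa [hL, commutator_comm] at this

private theorem of_calL {G : Type*} [Group G] {T K : Subgroup G} (h : K ∈ calL T) :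
    K ≠ ⊥ ∧ ⁅K, K⁆ = K ∧ SubnormalIn K (K ⊔ T) := by
  obtain ⟨⟨h1, h2, h3, -⟩, -, -⟩ := h
  refine ⟨?_, ?_, le_sup_left, h3⟩
  · rintro rfl
    exact h1 (bot_subgroupOf _)
  · have := congrArg (Subgroup.map (K ⊔ T).subtype) h2
    rwa [map_commutator, map_subgroupOf_eq_of_le le_sup_left] at this

/-- Let G be a non-abelian finite simple QTKE-group and T a Sylow 2-subgroup of G, and let L be a member of ℒ_f(G, T) (a member of ℒ(G, T) that lies in 𝒳 — L ≠ 1, L = O²(L), F*(L) = O₂(L) — and acts nontrivially on Ω₁(Z(O₂(L)))). Then (1) every member K of ℒ(G, T) containing L is again in ℒ_f(G, T) (a sharper form of (1) also compares the modules [Ω₁(Z(R)), L] and [Ω₁(Z(R')), K] for suitable 2-subgroups R, R'; that comparison is not included); and (2) if L is maximal under inclusion among the members of ℒ_f(G, T), then L is a maximal member of ℒ(G, T), hence a member of ℒ_f*(G, T). -/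
theorem result {G : Type*} [Group G] [Finite G] [IsSimpleGroup G]
    (hG : ¬ IsMulCommutative G) (hQ : Cfsg.IsQTKE G) (T : Sylow 2 G) (L : Subgroup G)
    (hL : L ∈ Cfsg.calLf (T : Subgroup G)) :
    (∀ K ∈ Cfsg.calL (T : Subgroup G), L ≤ K → K ∈ Cfsg.calLf (T : Subgroup G)) ∧
    ((∀ K ∈ Cfsg.calLf (T : Subgroup G), L ≤ K → K = L) → L ∈ Cfsg.calLfMax (T : Subgroup G)) := by
  have : Fact (Nat.Prime 2) := ⟨Nat.prime_two⟩
  have main : ∀ K ∈ Cfsg.calL (T : Subgroup G), L ≤ K → K ∈ Cfsg.calLf (T : Subgroup G) := by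
    intro K hK hLK
    obtain ⟨hK1, hK2, hK3⟩ := of_calL hK
    obtain ⟨hL1, hL2, hL3⟩ := of_calL hL.1
    set H := K ⊔ (T : Subgroup G) with hH
    set R := pCoreOf 2 H with hR
    have hRp : IsPGroup 2 R := isPGroup_pCoreOf 2 H
    have hR1 : R ≠ ⊥ := fun e => hK.2.2 (pCoreOf_eq_bot_iff.1 e)
    have hHN : H ≤ normalizer (R : Set G) := le_normalizer_pCoreOf H
    have hN : Loc.Am.IsCharP 2 (normalizer (R : Set G)) :=
      Loc.Am.isCharP_iff.2 (hQ.2.2 _ ⟨R, hRp, hR1, rfl⟩ ⟨T, le_sup_right.trans hHN⟩)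
    have hHc : Loc.Am.IsCharP 2 H :=
      hN.of_le ((pCoreOf_le_sylow_of_le T (le_sup_right.trans hHN)).trans le_sup_right) hHN
    have hKc := Loc.CP.isCharP_of_subnormalIn hHc hK3
    have hKres : pResidualOf 2 K = K := pResidualOf_eq_self_of_perfect Nat.prime_two hK2
    have hLres : pResidualOf 2 L = L := pResidualOf_eq_self_of_perfect Nat.prime_two hL2
    refine ⟨hK, ⟨hK1, (oddGenerated_eq_pResidualOf K).trans hKres,
      Loc.CP.isCharP_iff_genFitting.1 hKc⟩, ?_⟩
    have hLH : L ⊔ (T : Subgroup G) ≤ H := sup_le_sup_right hLK _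
    have hRT : R ≤ T := pCoreOf_le_sylow_of_le T le_sup_right
    have hRL : R ≤ normalizer (L : Set G) := by
      have h1 := Loc.Mss.core_le_norm_res (p := 2) hL3
      rw [hLres] at h1
      exact (le_pCoreOf (hRT.trans le_sup_right) (hLH.trans hHN) hRp).trans h1
    have hRK : R ≤ normalizer (K : Set G) := by
      have h1 := Loc.Mss.core_le_norm_res (p := 2) hK3
      rwa [hKres] at h1
    have hLR : L ≤ normalizer (R : Set G) := (le_sup_left.trans hLH).trans hHN
    have hV := hL.2.2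
    unfold moduleV at hV ⊢
    change ⁅omegaOne 2 (pCoreOf 2 L ⊓ centralizer (pCoreOf 2 L : Set G)), L⁆ ≠ ⊥ at hV
    change ⁅omegaOne 2 (pCoreOf 2 K ⊓ centralizer (pCoreOf 2 K : Set G)), K⁆ ≠ ⊥
    set Z := pCoreOf 2 L ⊓ centralizer (pCoreOf 2 L : Set G) with hZ
    have hn : normalizer (L : Set G) ≤ normalizer (omegaOne 2 Z : Set G) := by
      refine le_trans ?_ (PG.normalizer_le_normalizer_omegaOne Z)
      refine (normalizer_le_normalizer_pCoreOf (p := 2) L).trans ?_
      exact (le_inf le_rfl (normalizer_le_normalizer_centralizer _)).trans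
        inf_normalizer_le_normalizer_inf
    have hZc : IsMulCommutative Z := ⟨⟨fun a b => Subtype.ext (b.2.2 a a.2.1)⟩⟩
    have hRL' : ⁅R, L⁆ ≤ pCoreOf 2 L :=
      le_pCoreOf (le_normalizer_iff_commutator_le_right.1 hRL)
        (le_normalizer_commutator hLR le_normalizer)
        (hRp.to_le (le_normalizer_iff_commutator_le_left.1 hLR))
    obtain ⟨W, hW1, hW2, hW3, hW4⟩ := exists_sub hL2 hRp hRL hLR (omegaOne 2 Z)
      ((isPGroup_pCoreOf 2 L).to_le ((PG.omegaOne_le Z).trans inf_le_left))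
      (le_normalizer.trans hn) (hRL.trans hn) (by
        rw [commutator_comm, commutator_eq_bot_iff_le_centralizer]
        exact ((PG.omegaOne_le Z).trans inf_le_right).trans (centralizer_anti hRL')) hV
    have hWL : W ≤ L := hW1.trans (((PG.omegaOne_le Z).trans inf_le_left).trans (pCoreOf_le L))
    have hWC : W ≤ centralizer (R : Set G) := commutator_eq_bot_iff_le_centralizer.1 hW4
    have hWR : W ≤ R := (le_inf (hWL.trans (le_sup_left.trans hLH)) hWC).trans
      (Loc.CP.isCharP_def.1 hHc)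
    have hW5 : W ≤ omegaOne 2 (pCoreOf 2 K ⊓ centralizer (pCoreOf 2 K : Set G)) := by
      intro w hw
      refine PG.mem_omegaOne ⟨?_, ?_⟩ ((PG.mem_omegaOne_iff hZc).1 (hW1 hw)).2
      · rw [hK3.pCoreOf_eq]
        exact ⟨hWR hw, hLK (hWL hw)⟩
      · exact centralizer_anti hK3.pCoreOf_le (hWC hw)
    intro hc
    exact hW3 (hW2 ▸ le_bot_iff.1 ((commutator_mono hW5 hLK).trans hc.le))
  exact ⟨main, fun h => ⟨⟨hL.1, fun K hK hLK => h K (main K hK hLK) hLK⟩, hL.2⟩⟩

end Cfsg.Agent.S1851
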