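import Mathlib
import Cfsg.Statements.S1957
import Cfsg.Agent.GT.CoprimeGen
import Cfsg.Agent.GT.PConstrained
import Cfsg.Agent.GT.Conj
import Cfsg.Agent.GT.PGroupElemAb
import Cfsg.Agent.Inv.Basic
import Cfsg.Agent.Inv.SylowTools
import Cfsg.Agent.GT.TransferSylow

set_option autoImplicit false
open Cfsg

namespace Cfsg.Agent.S1957

open Subgroup Cfsg.Agent.GT Cfsg.Agent.Inv
open scoped commutatorElement

theorem aux3 {G : Type*} [Group G] [Finite G] {R A Q : Subgroup G}
    (hQR : Q ≤ normalizer (R : Set G)) (hcop : (Nat.card Q).Coprime (Nat.card R))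
    (hAR : A ≤ normalizer (R : Set G)) (hAQ : ⁅Q, A⁆ = Q)
    (h : Q ≤ centralizer ((⁅R, A⁆ : Subgroup G) : Set G)) : Q ≤ centralizer (R : Set G) := by
  have h3 : ⁅⁅A, Q⁆, R⁆ ≤ ⁅R, A⁆ := by
    apply three_subgroups_of_le_normalizer (normalizer_commutator_ge_right _ _)
      (h.trans (centralizer_le_normalizer _)) (normalizer_commutator_ge_left _ _)
    · refine commutator_mono ?_ le_rfl
      rw [commutator_comm]; exact CopAct.commutator_le_of_le_normalizer hQR
    · rw [CopAct.commutator_eq_bot_iff.2 h]; exact bot_le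
  rw [commutator_comm A Q, hAQ, commutator_comm] at h3
  exact CopAct.le_centralizer_of_commutator_le
    (CopAct.coprime_mono hcop le_rfl (CopAct.commutator_le_of_le_normalizer hAR)) h3 h

/-- Let `G` be a finite non-abelian simple group in which every local subgroup is solvable and which is of characteristic 2 type. Let `P` be a Sylow 2-subgroup of `G` and `U` a normal subgroup of `P` that is a four-group, with `U` central in `P` if the centre of `P` is not cyclic. Then `U` centralizes every subgroup of odd order of `G` that it normalizes. -/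
theorem result {G : Type*} [Group G] [Finite G]
    [IsSimpleGroup G] (hna : ¬ IsMulCommutative G) (hN : Cfsg.IsNGroup G) (h2 : Cfsg.IsCharacteristicTwoType G)
    (P : Sylow 2 G) (U : Subgroup G) (hUP : U ≤ (P : Subgroup G)) (hUn : (P : Subgroup G) ≤ Subgroup.normalizer (U : Set G))
    (hU4 : IsKleinFour ↥U)
    (hUZ : ¬ IsCyclic ↥((P : Subgroup G) ⊓ Subgroup.centralizer ((P : Subgroup G) : Set G)) →
      U ≤ Subgroup.centralizer ((P : Subgroup G) : Set G))
    (K : Subgroup G) (hK : Odd (Nat.card K)) (hUK : U ≤ Subgroup.normalizer (K : Set G)) :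
    U ≤ Subgroup.centralizer (K : Set G) := by
  have : Fact (Nat.Prime 2) := ⟨Nat.prime_two⟩
  have hUe : IsElementaryAbelian 2 U := IsElementaryAbelian.of_card_sq hU4.card_four
    IsKleinFour.not_isCyclic
  have hcop : (Nat.card U).Coprime (Nat.card K) :=
    (CopAct.coprime_of_isPGroup_right hK.coprime_two_right hUe.isPGroup).symm
  set P₀ : Subgroup G := (P : Subgroup G) ⊓ centralizer (U : Set G) with hP₀
  have hidx : Nat.card P ≤ 2 * Nat.card P₀ := by
    have h1 : (centralizer (U : Set G)).relIndex P ∣ 6 := by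
      have := (CopAct.conjHom hUn).ker.index_dvd_card
      rw [relIndex, ← CopAct.conjHom_ker hUn, index_ker]
      refine (card_subgroup_dvd_card _).trans ?_
      rw [PG.card_mulAut_of_elementary_sq (p := 2) hUe.1 (fun x => Subtype.ext (hUe.2 x x.2))
        hU4.card_four]
      norm_num
    obtain ⟨n, hn⟩ := PG.relIndex_eq_pow_of_isPGroup P.isPGroup' (centralizer (U : Set G))
    have h2 := card_inf_mul_relIndex (centralizer (U : Set G)) (P : Subgroup G)
    rw [inf_comm] at h2
    have h3 : (centralizer (U : Set G)).relIndex P ≤ 2 := by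
      rw [hn] at h1 ⊢
      rcases n with _ | _ | n
      · norm_num
      · norm_num
      · exfalso
        have : 4 ∣ 6 := Dvd.dvd.trans ⟨2 ^ n, by ring⟩ h1
        omega
    change Nat.card (P : Subgroup G) ≤ _
    rw [← h2, mul_comm]
    exact Nat.mul_le_mul_right _ h3
  rw [← CopAct.commutator_eq_bot_iff, eq_bot_iff]
  refine CopAct.commutator_le_of_centralizer_elt hUe.1 IsKleinFour.not_isCyclic hUK hcop ?_
  intro u hu hu1
  have hu2 := hUe.orderOf_eq hu hu1
  set C := centralizer ({u} : Set G) with hC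
  have hUC : U ≤ C := hUe.le_centralizer.trans (centralizer_le_centralizer_singleton hu)
  have hchar : C ⊓ centralizer (pCoreOf 2 C : Set G) ≤ pCoreOf 2 C := by
    have h1 := h2.2 (zpowers u) (hUe.isPGroup.to_le (zpowers_le.2 hu)) (by simpa using hu1)
    have h3 : normalizer ((zpowers u : Subgroup G) : Set G) = C := by
      refine le_antisymm (fun g hg => ?_) (by rw [hC, ← centralizer_zpowers]; exact centralizer_le_normalizer _)
      rw [hC, mem_centralizer_singleton_iff, ← mul_inv_eq_iff_eq_mul]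
      exact involution_unique_of_mem_zpowers (by rw [orderOf_conj, hu2]) hu2
        (Tr.conj_mem_of_mem_normalizer hg (mem_zpowers u)) (mem_zpowers u)
    rw [h3] at h1
    exact charP_iff_pCoreOf.1 h1
  obtain ⟨P₁, h01, h1C, h1p, h1i⟩ := Tr.exists_sylowIn_ge (p := 2) (T := P₀) (H := C)
    P.isPGroup'.to_inf_left (inf_le_right.trans (centralizer_le_centralizer_singleton hu))
  have hR1 : pCoreOf 2 C ≤ P₁ := by
    have := pCoreOf_le_sylow (Tr.sylowOfRel h1p h1i)
    rwa [Tr.map_sylowOfRel h1p h1i h1C] at this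
  have hcomm : ⁅P₁, U⁆ ≤ zpowers u := by
    rw [commutator_le]
    intro r hr v hv
    by_cases hr0 : r ∈ P₀
    · have : ⁅r, v⁆ = 1 := commutatorElement_eq_one_iff_mul_comm.2 (hr0.2 v hv).symm
      rw [this]; exact one_mem _
    have hlt : P₀ < P₁ := lt_of_le_of_ne h01 fun h => hr0 (h ▸ hr)
    have hc1 := ST.card_le_card_sylow P h1p
    have hrel : P₀.relIndex P₁ = 2 := by
      obtain ⟨n, hn⟩ := PG.relIndex_eq_pow_of_isPGroup h1p P₀
      have h4 := card_mul_relIndex h01
      have h5 := card_lt_of_lt hlt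
      have h6 : 0 < Nat.card P₀ := Nat.card_pos
      have h7 : P₀.relIndex P₁ ≤ 2 := by nlinarith
      have h8 : 1 < P₀.relIndex P₁ := by nlinarith
      omega
    have hc2 : Nat.card P₁ = Nat.card P := by
      have h4 := card_mul_relIndex h01
      rw [hrel] at h4
      omega
    have hcyc : IsCyclic ((P : Subgroup G) ⊓ centralizer ((P : Subgroup G) : Set G) : Subgroup G) := by
      by_contra hnc
      have : P₀ = P := inf_eq_left.2 (le_centralizer_iff.1 (hUZ hnc))
      have h5 := card_lt_of_lt hlt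
      rw [this, hc2] at h5
      exact lt_irrefl _ h5
    obtain ⟨g, hg⟩ := Tr.exists_conj_le_sylow P h1p
    have hg' : P₁.map (MulAut.conj g).toMonoidHom = P :=
      eq_of_le_of_card_eq (Tr.map_conj_le_iff.2 hg) (by rw [Tr.card_map_conj, hc2])
    have hcyc1 : IsCyclic (P₁ ⊓ centralizer (P₁ : Set G) : Subgroup G) := by
      rw [← hg', Tr.centralizer_map_conj, ← Tr.map_conj_inf] at hcyc
      exact isCyclic_of_surjective (conjEquiv _ g).symm.toMonoidHom (conjEquiv _ g).symm.surjective
    have hn0 : P₁ ≤ normalizer (P₀ : Set G) := PG.le_normalizer_of_relIndex_prime h1p h01 hrel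
    have hvv : v * v = 1 := by rw [← pow_two]; exact hUe.2 v hv
    have hv0 : v ∈ P₀ ⊓ centralizer (P₀ : Set G) :=
      ⟨⟨hUP hv, hUe.le_centralizer hv⟩, fun y hy => (hy.2 v hv).symm⟩
    have hw0 : r * v * r⁻¹ ∈ P₀ ⊓ centralizer (P₀ : Set G) :=
      Tr.conj_mem_of_mem_normalizer
        (CopAct.le_normalizer_inf hn0 (CopAct.le_normalizer_centralizer hn0) hr) hv0
    have hvw : v * (r * v * r⁻¹) = (r * v * r⁻¹) * v := hw0.2 v hv0.1
    have hrr : (r * r) * v = v * (r * r) := by
      have := PG.pow_mem_of_relIndex_prime h1p h01 hrel hr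
      rw [pow_two] at this
      exact hv0.2 _ this
    have hw : ⁅r, v⁆ = r * v * r⁻¹ * v := by rw [commutatorElement_def, inv_of_mul_self hvv]
    have hwZ : ⁅r, v⁆ ∈ P₁ ⊓ centralizer (P₁ : Set G) := by
      rw [hw]
      refine ⟨h01 (mul_mem hw0 hv0).1, ?_⟩
      rw [← PG.sup_zpowers_eq_of_relIndex_prime Nat.prime_two h01 hrel hr hr0, centralizer_sup,
        centralizer_zpowers]
      refine ⟨(mul_mem hw0 hv0).2, mem_centralizer_singleton_iff.2 ?_⟩
      calc r * v * r⁻¹ * v * r = v * (r * v * r⁻¹) * r := by rw [hvw]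
        _ = (v * (r * r)) * r⁻¹ * v := by group
        _ = r * (r * v * r⁻¹ * v) := by rw [← hrr]; group
    by_cases hw1 : ⁅r, v⁆ = 1
    · rw [hw1]; exact one_mem _
    have hw2 : orderOf ⁅r, v⁆ = 2 := by
      refine orderOf_two_of ?_ hw1
      rw [hw]
      calc r * v * r⁻¹ * v * (r * v * r⁻¹ * v) = r * v * r⁻¹ * (v * (r * v * r⁻¹)) * v := by group
        _ = r * (v * v) * r⁻¹ * (v * v) := by rw [hvw]; group
        _ = 1 := by rw [hvv]; group
    have huZ : u ∈ P₁ ⊓ centralizer (P₁ : Set G) :=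
      ⟨h01 ⟨hUP hu, hUe.le_centralizer hu⟩, fun y hy => mem_centralizer_singleton_iff.1 (h1C hy)⟩
    obtain ⟨c, hc⟩ := (Subgroup.isCyclic_iff_exists_zpowers_eq_top _).1 hcyc1
    rw [← hc] at hwZ huZ
    rw [involution_unique_of_mem_zpowers hw2 hu2 hwZ huZ]
    exact mem_zpowers u
  set Q := ⁅K ⊓ C, U⁆ with hQ
  have hUKC : U ≤ normalizer ((K ⊓ C : Subgroup G) : Set G) :=
    CopAct.le_normalizer_inf hUK (hUC.trans le_normalizer)
  have hQKC : Q ≤ K ⊓ C := CopAct.commutator_le_of_le_normalizer hUKC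
  have hQc : (Nat.card Q).Coprime 2 :=
    Nat.Coprime.coprime_dvd_left (card_dvd_of_le (hQKC.trans inf_le_left)) hK.coprime_two_right
  have h4 := aux3 (R := pCoreOf 2 C) (A := U) (Q := Q)
    ((hQKC.trans inf_le_right).trans (le_normalizer_pCoreOf C))
    (CopAct.coprime_of_isPGroup_right hQc (isPGroup_pCoreOf 2 C))
    (hUC.trans (le_normalizer_pCoreOf C))
    (CopAct.commutator_commutator_eq hUKC (CopAct.coprime_mono hcop le_rfl inf_le_left))
    (((hQKC.trans inf_le_right).trans (centralizer_zpowers u).ge).trans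
      (centralizer_anti ((commutator_mono hR1 le_rfl).trans hcomm)))
  have h5 : Q ≤ pCoreOf 2 C := (le_inf (hQKC.trans inf_le_right) h4).trans hchar
  rw [← CopAct.inf_eq_bot_of_coprime (CopAct.coprime_of_isPGroup_right hQc (isPGroup_pCoreOf 2 C))]
  exact le_inf le_rfl h5

end Cfsg.Agent.S1957
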