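import Mathlib
import Cfsg.Statements.S1958
import Cfsg.Agent.Loc.TechBasic

set_option autoImplicit false
open Cfsg

namespace Cfsg.Agent.S1958

open Subgroup Cfsg.Agent.GT Cfsg.Agent.Loc

/-- Let `G` be a finite group, `p` a prime, and `x, y` commuting elements of order `p` whose centralizers `C_G(x)` and `C_G(y)` are both solvable. Then `O_{p'}(C_G(x)) ∩ C_G(y) = O_{p'}(C_G(y)) ∩ C_G(x)` (balance). -/
theorem result {G : Type*} [Group G] [Finite G]
    (p : ℕ) [Fact p.Prime] (x y : G) (hx : orderOf x = p) (hy : orderOf y = p) (hxy : x * y = y * x)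
    (hCx : Group.IsSolvable ↥(Subgroup.centralizer ({x} : Set G))) (hCy : Group.IsSolvable ↥(Subgroup.centralizer ({y} : Set G))) :
    Cfsg.centralizerPPrimeCore p x ⊓ Subgroup.centralizer {y} = Cfsg.centralizerPPrimeCore p y ⊓ Subgroup.centralizer {x} := by
  have key : ∀ a b : G, orderOf a = p → a * b = b * a →
      Group.IsSolvable ↥(Subgroup.centralizer ({b} : Set G)) →
      Cfsg.centralizerPPrimeCore p b ⊓ Subgroup.centralizer {a} =
        pPrimeCoreOf p (centralizer {b} ⊓ centralizer {a}) := by
    intro a b ha hab hs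
    have hle : zpowers a ≤ centralizer ({b} : Set G) := by
      rw [zpowers_le, mem_centralizer_singleton_iff]; exact hab
    have := pPrimeCoreOf_inf_centralizer (isPConstrained_of_isSolvable (p := p) hs)
      (isPGroup_zpowers_of_orderOf_eq ha) hle
    rw [centralizer_zpowers_eq] at this
    rw [this, centralizerPPrimeCore_eq]
  rw [key y x hy hxy.symm hCx, key x y hx hxy hCy, inf_comm]

end Cfsg.Agent.S1958
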