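import Mathlib
import Cfsg.Statements.S1966
import Cfsg.Agent.Loc.CFBasic
import Cfsg.Agent.GT.Cores

set_option autoImplicit false
open Cfsg

namespace Cfsg.Agent.S1966

/-- Let p be a prime, G a finite group with Sylow p-subgroup S and 𝓕 a conjugation family for S in G. Then the members of 𝓕 containing O_p(G) still form a conjugation family for S in G. -/
theorem result {G : Type*} [Group G] [Finite G] {p : ℕ} [Fact p.Prime] (S : Sylow p G) (𝓕 : Set (Subgroup G)) (h : Cfsg.IsConjugationFamily 𝓕 (S : Subgroup G)) : Cfsg.IsConjugationFamily {T : Subgroup G | T ∈ 𝓕 ∧ Cfsg.pCore p G ≤ T} (S : Subgroup G) := by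
  rw [Loc.CF.isConjugationFamily_iff] at h ⊢
  refine ⟨fun T hT => h.1 T hT.1, fun A g h1 h2 h3 => ?_⟩
  have hO : Cfsg.pCore p G ≤ (S : Subgroup G) := GT.pCore_le_sylow S
  have hc : ∀ c : G, Loc.CF.cj c (Cfsg.pCore p G : Set G) = (Cfsg.pCore p G : Set G) := fun c =>
    Loc.CF.cj_eq_of_mem_normalizer (by rw [Subgroup.normalizer_eq_top]; trivial)
  have hu : ∀ c : G, Loc.CF.cj c (A ∪ (Cfsg.pCore p G : Set G)) =
      Loc.CF.cj c A ∪ (Cfsg.pCore p G : Set G) := fun c => by
    rw [Loc.CF.cj_def, Set.image_union, ← Loc.CF.cj_def, ← Loc.CF.cj_def, hc c]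
  have h4 := h.2 (A ∪ (Cfsg.pCore p G : Set G)) g (h1.mono Set.subset_union_left)
    (Set.union_subset h2 hO) (by rw [hu]; exact Set.union_subset h3 hO)
  refine Loc.CF.Chain.anti (h4.bind fun c x hx => Loc.CF.Chain.single ?_) Loc.CF.okC_anti
    Set.subset_union_left
  obtain ⟨T, hT, h5, h6⟩ := hx
  refine ⟨T, ⟨hT, ?_⟩, h5, h6⟩
  rw [hu] at h5
  exact Set.subset_union_right.trans h5

end Cfsg.Agent.S1966
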