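import Mathlib
import Cfsg.Statements.S1985
import Cfsg.Agent.Loc.CFWeak
import Cfsg.Agent.Loc.CFGlaub

set_option autoImplicit false
universe u
open Cfsg

namespace Cfsg.Agent.S1985

/-- Let p be an odd prime and G a finite group. Then the lower K-infinity subgroup controls weak closure of elements in G: the lower K-infinity subgroup of every p-subgroup P of G contains Z(P), and for some (equivalently, every) Sylow p-subgroup S of G, with K the lower K-infinity subgroup of S, every element of S commuting with all of N_G(K) is weakly closed in S with respect to G (every G-conjugate of it lying in S equals it). -/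
theorem result {G : Type u} [Group G] [Finite G] {p : ℕ} [Fact p.Prime] (hp : p ≠ 2) : Cfsg.ControlsWeakClosureOfElementsIn p (Cfsg.inducedFunctor (G := G) Cfsg.kInfLower) ⊤ := by
  have hW := Loc.CF.isCharPFunctor_kInfLower.{u} (p := p)
  refine Loc.CF.weakClosure_of_criterion (Loc.CF.isConjugacyFunctor_induced hW)
    (fun P _ => Loc.CF.zc_le_induced_kInfLower P) (fun H S h => ?_) ⊤
  have hf := H.subtype_injective
  obtain ⟨u, h1, h2, -, h3, -⟩ := Loc.CF.exists_of_kInf_not_normal S (Or.inl fun h1 => h (by
    rw [← Loc.CF.map_induced_of_injective hW S.2 hf]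
    refine le_trans ?_ (Subgroup.le_normalizer_map _)
    rw [Subgroup.normalizer_eq_top, ← MonoidHom.range_eq_map, Subgroup.range_subtype]))
  refine ⟨u, h1, h2, fun U V h4 h5 => ?_⟩
  have := h4.2.2.1
  have h6 := (Fact.out : p.Prime).two_le
  exact Loc.CF.iterCommutator_le_of_le (i := 2) (by omega) ((Subgroup.commutator_mono
    (Subgroup.commutator_mono h5 le_rfl) le_rfl).trans (h3.le.trans bot_le))

end Cfsg.Agent.S1985
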