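import Mathlib
import Cfsg.Statements.S1986
import Cfsg.Agent.Loc.CFWeak
import Cfsg.Agent.Loc.CFGlaub

set_option autoImplicit false
universe u
open Cfsg

namespace Cfsg.Agent.S1986

/-- Let p be a prime, G a finite group with Sylow p-subgroup S, K the lower K-infinity subgroup of S, and Z the subgroup of p-th powers of elements of Z(S). Then every element of Z commuting with all of N_G(K) is weakly closed in S with respect to G, and every subgroup of Z that is normal in N_G(K) is weakly closed in S with respect to G. -/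
theorem result {G : Type u} [Group G] [Finite G] {p : ℕ} [Fact p.Prime] (S : Sylow p G) (Z : Subgroup G) (hZ : Z = Subgroup.closure ((fun z : G => z ^ p) '' (((S : Subgroup G) ⊓ Subgroup.centralizer (((S : Subgroup G) : Subgroup G) : Set G) : Subgroup G) : Set G))) : (∀ x ∈ Z ⊓ Subgroup.centralizer ((Subgroup.normalizer ((Cfsg.inducedFunctor Cfsg.kInfLower (S : Subgroup G) : Subgroup G) : Set G) : Subgroup G) : Set G), ∀ g : G, g * x * g⁻¹ ∈ (S : Subgroup G) → g * x * g⁻¹ = x) ∧ ∀ A : Subgroup G, A ≤ Z → Subgroup.normalizer ((Cfsg.inducedFunctor Cfsg.kInfLower (S : Subgroup G) : Subgroup G) : Set G) ≤ Subgroup.normalizer ((A : Subgroup G) : Set G) → Cfsg.IsWeaklyClosed A (S : Subgroup G) := by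
  subst hZ
  have hW := Loc.CF.isCharPFunctor_kInfLower.{u} (p := p)
  refine Loc.CF.weaklyClosed_of_wc_mhoZ (Loc.CF.wc_mhoZ_of_criterion
    (Loc.CF.isConjugacyFunctor_induced hW) (fun P _ => Loc.CF.zc_le_induced_kInfLower P)
    (fun H S h => ?_) ⊤) S
  have hf := H.subtype_injective
  obtain ⟨u, h1, h2, -, h3, -⟩ := Loc.CF.exists_of_kInf_not_normal S (Or.inl fun h1 => h (by
    rw [← Loc.CF.map_induced_of_injective hW S.2 hf]
    refine le_trans ?_ (Subgroup.le_normalizer_map _)
    rw [Subgroup.normalizer_eq_top, ← MonoidHom.range_eq_map, Subgroup.range_subtype]))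
  exact ⟨u, h1, h2, h3⟩

end Cfsg.Agent.S1986
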