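import Mathlib
import Cfsg.Statements.S1989
import Cfsg.Agent.Loc.CFQd

set_option autoImplicit false
universe u
open Cfsg

namespace Cfsg.Agent.S1989

open Cfsg.Agent.Loc.CF

/-- Let p be an odd prime and G a finite group. Then Qd(p) (the natural semidirect product of an elementary abelian group of order p² by SL₂(p)) is not involved in G if and only if, in every section K/R of G and for every Sylow p-subgroup T of K/R, the lower K-infinity subgroup of T controls strong fusion in K/R. -/
theorem result {G : Type u} [Group G] [Finite G] {p : ℕ} [Fact p.Prime] (hp : p ≠ 2) : ¬ Cfsg.Involves ↥(Cfsg.qd p) G ↔ ∀ (K R : Subgroup G) [hR : (R.subgroupOf K).Normal], ∀ T : Sylow p (↥K ⧸ R.subgroupOf K), Cfsg.ControlsStrongFusion p (Cfsg.inducedFunctor (G := (↥K ⧸ R.subgroupOf K)) Cfsg.kInfLower (T : Subgroup (↥K ⧸ R.subgroupOf K))) := by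
  refine ⟨fun h K R _ T => (kInf_controlsStrongFusion (fun H _ _ hH =>
    GT.isNormalizerPStable_of_not_involves_qd hp fun h' => h (involves_trans h' hH)) _
      (involves_section K R) T).1, ?_⟩
  rintro h ⟨K, R, hR, ⟨e⟩⟩
  refine qd_not_family e (𝓥 := {inducedFunctor kInfLower}) ?_ (family_of_controlsStrongFusion
    (isConjugacyFunctor_induced isCharPFunctor_kInfLower) (h K R default))
  rintro _ rfl T
  exact isCharPFunctor_kInfLower.qd_char e T

end Cfsg.Agent.S1989
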