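import Mathlib
import Cfsg.Statements.S1990
import Cfsg.Agent.Loc.CFNilp

set_option autoImplicit false
universe u
open Cfsg

namespace Cfsg.Agent.S1990

/-- Let p be an odd prime, G a finite group with Sylow p-subgroup S, and W an isomorphism-invariant p-group functor (W assigns to every group Q a subgroup W(Q), nontrivial whenever Q is a nontrivial finite p-group, and every isomorphism from a finite p-group Q onto a group R carries W(Q) onto W(R)). Suppose N_G(W(S)) has a normal p-complement, and W(T) controls strong fusion in every section G* = K/R of G all of whose sections are p-stable in the normalizer form, for every Sylow p-subgroup T of G*. Then G has a normal p-complement. -/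
theorem result {G : Type u} [Group G] [Finite G] {p : ℕ} [Fact p.Prime] (hp : p ≠ 2) (W : ∀ (Q : Type u) [Group Q], Subgroup Q) (hW : Cfsg.IsCharPFunctor.{u} p W) (S : Sylow p G) (hN : Cfsg.HasNormalPComplement p ↥(Subgroup.normalizer ((Cfsg.inducedFunctor (G := G) W (S : Subgroup G) : Subgroup G) : Set G))) (hctl : ∀ (K R : Subgroup G) [hR : (R.subgroupOf K).Normal], (∀ (K' R' : Subgroup (↥K ⧸ R.subgroupOf K)) [hR' : (R'.subgroupOf K').Normal], Cfsg.IsNormalizerPStable p (↥K' ⧸ R'.subgroupOf K')) → ∀ T : Sylow p (↥K ⧸ R.subgroupOf K), Cfsg.ControlsStrongFusion p (Cfsg.inducedFunctor (G := (↥K ⧸ R.subgroupOf K)) W (T : Subgroup (↥K ⧸ R.subgroupOf K)))) : Cfsg.HasNormalPComplement p G := by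
  refine Loc.CF.npc_of_functor hW (fun H _ _ hH T hT => Loc.CF.controlsStrongFusion_of_family
    (Loc.CF.isConjugacyFunctor_induced hW) (Loc.CF.forall_involves_of_sections
    (P := fun H _ _ => Loc.CF.PAP p H →
      FamilyControlsStrongFusionIn p {inducedFunctor (G := H) W} ⊤)
    (fun H H' _ _ _ _ e h h1 => ?_)
    (fun K R _ h1 => Loc.CF.family_of_controlsStrongFusion (Loc.CF.isConjugacyFunctor_induced hW)
      (hctl K R (fun K' R' _ => (h1.of_involves (Loc.CF.involves_section K' R')).pStable hp)
        default)) H hH hT.pap) T) S hN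
  have h2 := h (h1.of_injective (f := (e : H →* H')) e.injective)
  rw [← Loc.CF.ind_singleton] at h2 ⊢
  exact Loc.CF.familyFusion_of_equiv (by simpa using hW) h2 e

end Cfsg.Agent.S1990
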