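import Mathlib
import Cfsg.Statements.S1992
import Cfsg.Agent.S1991
import Cfsg.Agent.Ch.Burnside
import Cfsg.Agent.GT.HallTools

set_option autoImplicit false
open Cfsg

namespace Cfsg.Agent.S1992

/-- Let G be a finite group in which, for every prime q dividing the order of G, every Sylow q-subgroup is its own normalizer. Then the order of G is a power of a single prime (G is a q-group for some prime q; for G trivial any prime works). -/
theorem result {G : Type*} [Group G] [Finite G] (h : ∀ q : ℕ, q.Prime → q ∣ Nat.card G → ∀ Q : Sylow q G, Subgroup.normalizer ((Q : Subgroup G) : Set G) = Q) : ∃ q : ℕ, q.Prime ∧ IsPGroup q G := by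
  rcases subsingleton_or_nontrivial G with hG | hG
  · exact ⟨2, Nat.prime_two, fun g => ⟨0, Subsingleton.elim _ _⟩⟩
  obtain ⟨N, hN, hq⟩ : ∃ N : Subgroup G, N.Normal ∧ N.index.Prime := by
    by_cases h1 : ∃ q : ℕ, q.Prime ∧ q ∣ Nat.card G ∧ 5 ≤ q
    · obtain ⟨q, h2, h3, h4⟩ := h1
      have := Fact.mk h2
      obtain ⟨S⟩ : Nonempty (Sylow q G) := inferInstance
      have h5 : (S : Subgroup G) ≠ ⊥ := S.ne_bot_of_dvd_card h3
      obtain ⟨N, h6, h7⟩ := S1991.result h4 S h5 fun g hg h6 => by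
        rw [h q h2 h3 S] at hg
        obtain ⟨k, hk⟩ := S.2 ⟨g, hg⟩
        have h7 : orderOf g ∣ q ^ k := orderOf_dvd_of_pow_eq_one (congrArg Subtype.val hk)
        rw [orderOf_eq_one_iff.1 (Nat.Coprime.eq_one_of_dvd (h6.pow_right k) h7)]
        exact one_mem _
      exact ⟨N, h6, h7 ▸ h2⟩
    · have : Group.IsSolvable G := Ch.burnside_isSolvable_of_primes (p := 2) Nat.prime_three
        fun r h2 h3 => by
          have h4 : ¬ 5 ≤ r := fun h4 => h1 ⟨r, h2, h3, h4⟩
          have h5 := h2.two_le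
          have h6 : r ≠ 4 := by rintro rfl; exact absurd h2 (by norm_num)
          omega
      exact GT.HT.exists_normal_index_prime G
  refine ⟨_, hq, ?_⟩
  have := Fact.mk hq
  rw [IsPGroup.iff_card]
  refine ⟨_, Nat.eq_prime_pow_of_unique_prime_dvd Nat.card_pos.ne' fun {r} h1 h2 => ?_⟩
  by_contra h3
  have := Fact.mk h1
  obtain ⟨R, hR⟩ := GT.Tr.exists_sylow_le_of_not_dvd_index (p := r) (H := N)
    fun h4 => h3 ((Nat.prime_dvd_prime_iff_eq h1 hq).1 h4)
  have h4 : Subgroup.normalizer ((R : Subgroup G) : Set G) ⊔ N = ⊤ := R.normalizer_sup_eq_top' hR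
  rw [h r h1 h2 R, sup_of_le_right hR] at h4
  rw [h4, Subgroup.index_top] at hq
  exact Nat.not_prime_one hq

end Cfsg.Agent.S1992
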