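import Mathlib
import Cfsg.Statements.S1996
import Cfsg.Agent.Loc.CFStrong

set_option autoImplicit false
universe u
open Cfsg

namespace Cfsg.Agent.S1996

open Loc.CF in
theorem aux {G : Type u} [Group G] [Finite G] {p : ℕ} [Fact p.Prime]
    {W₁ W₂ : ∀ (Q : Type u) [Group Q], Subgroup Q} (hW₁ : Cfsg.IsCharPFunctor.{u} p W₁)
    (hW₂ : Cfsg.IsCharPFunctor.{u} p W₂) (T : Sylow p G)
    (h : ∀ x : G, ∃ a ∈ Subgroup.normalizer ((inducedFunctor W₁ (T : Subgroup G) : Subgroup G) : Set G),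
      ∃ b ∈ Subgroup.normalizer ((inducedFunctor W₂ (T : Subgroup G) : Subgroup G) : Set G),
        x = a * b) : FamilyControlsStrongFusionIn p (ind {W₁, W₂} G) ⊤ := by
  refine familyFusion_iff.2 ⟨T, sylIn_top T, (fctl_of_factorization (sylIn_top T)
    ((isConjugacyFunctor_induced hW₁).le_normalizer T.2)
    ((isConjugacyFunctor_induced hW₂).le_normalizer T.2) h).mono ?_⟩
  rintro x (hx | hx)
  · exact ⟨_, ⟨W₁, by simp, rfl⟩, trivial, hx⟩
  · exact ⟨_, ⟨W₂, by simp, rfl⟩, trivial, hx⟩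

/-- Let p be a prime, G a finite group and W₁, W₂ two isomorphism-invariant p-group functors (W assigns to every group Q a subgroup W(Q), nontrivial whenever Q is a nontrivial finite p-group, and every isomorphism from a finite p-group Q onto a group R carries W(Q) onto W(R)). Suppose that G* = N_{G*}(W₁(S*)) N_{G*}(W₂(S*)) whenever G* = K/R is a section of G with C_{G*}(O_p(G*)) ≤ O_p(G*) and S* is a Sylow p-subgroup of G*. Then the pair {W₁, W₂} controls strong fusion in G. -/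
theorem result {G : Type u} [Group G] [Finite G] {p : ℕ} [Fact p.Prime] (W₁ W₂ : ∀ (Q : Type u) [Group Q], Subgroup Q) (hW₁ : Cfsg.IsCharPFunctor.{u} p W₁) (hW₂ : Cfsg.IsCharPFunctor.{u} p W₂) (hfac : ∀ (K R : Subgroup G) [hR : (R.subgroupOf K).Normal], Subgroup.centralizer ((Cfsg.pCore p (↥K ⧸ R.subgroupOf K) : Subgroup (↥K ⧸ R.subgroupOf K)) : Set (↥K ⧸ R.subgroupOf K)) ≤ Cfsg.pCore p (↥K ⧸ R.subgroupOf K) → ∀ T : Sylow p (↥K ⧸ R.subgroupOf K), ∀ x : (↥K ⧸ R.subgroupOf K), ∃ a ∈ Subgroup.normalizer ((Cfsg.inducedFunctor (G := (↥K ⧸ R.subgroupOf K)) W₁ (T : Subgroup (↥K ⧸ R.subgroupOf K)) : Subgroup (↥K ⧸ R.subgroupOf K)) : Set (↥K ⧸ R.subgroupOf K)), ∃ b ∈ Subgroup.normalizer ((Cfsg.inducedFunctor (G := (↥K ⧸ R.subgroupOf K)) W₂ (T : Subgroup (↥K ⧸ R.subgroupOf K)) : Subgroup (↥K ⧸ R.subgroupOf K)) : Set (↥K ⧸ R.subgroupOf K)), x = a * b) : Cfsg.FamilyControlsStrongFusionIn p {Cfsg.inducedFunctor (G := G) W₁,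 Cfsg.inducedFunctor (G := G) W₂} ⊤ := by
  have h𝓦 : ∀ W ∈ ({W₁, W₂} : Set (∀ (Q : Type u) [Group Q], Subgroup Q)), IsCharPFunctor p W := by
    rintro W (rfl | rfl)
    exacts [hW₁, hW₂]
  have := Loc.CF.family_fusion_of_constrained h𝓦 (Loc.CF.forall_involves_of_sections
    (P := fun H _ _ => Loc.CF.Con p H → FamilyControlsStrongFusionIn p (Loc.CF.ind {W₁, W₂} H) ⊤)
    (fun H H' _ _ _ _ e h hc => Loc.CF.familyFusion_of_equiv h𝓦 (h (hc.of_equiv e.symm)) e)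
    fun K R _ hc => aux hW₁ hW₂ default (hfac K R hc default)) G (Loc.CF.involves_refl G)
  rwa [Loc.CF.ind, Set.image_pair] at this

end Cfsg.Agent.S1996
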