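import Mathlib
import Cfsg.Statements.S1997
import Cfsg.Agent.Loc.CFFactor
import Cfsg.Agent.S1996

set_option autoImplicit false
universe u
open Cfsg

namespace Cfsg.Agent.S1997

open Subgroup Loc.CF GT.Tr

theorem map_normalClosure {G : Type*} [Group G] {Z N : Subgroup G} (h : Z ≤ N) :
    (normalClosure ((Z.subgroupOf N : Subgroup N) : Set N)).map N.subtype =
      closure {y | ∃ n ∈ N, ∃ z ∈ Z, n * z * n⁻¹ = y} := by
  rw [normalClosure, MonoidHom.map_closure]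
  congr 1
  ext y
  constructor
  · rintro ⟨x, hx, rfl⟩
    obtain ⟨z, hz, h1⟩ := Group.mem_conjugatesOfSet_iff.1 hx
    obtain ⟨n, rfl⟩ := isConj_iff.1 h1
    exact ⟨n, n.2, z, hz, rfl⟩
  · rintro ⟨n, hn, z, hz, rfl⟩
    exact ⟨⟨n, hn⟩ * ⟨z, h hz⟩ * ⟨n, hn⟩⁻¹, Group.mem_conjugatesOfSet_iff.2
      ⟨⟨z, h hz⟩, hz, isConj_iff.2 ⟨_, rfl⟩⟩, rfl⟩

theorem conj_subset {G : Type*} [Group G] {Z N₁ N₂ : Subgroup G}
    (h : ∀ x ∈ N₁, ∃ a ∈ centralizer (Z : Set G), ∃ b ∈ N₂, x = a * b) :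
    {y | ∃ n ∈ N₁, ∃ z ∈ Z, n * z * n⁻¹ = y} ⊆ {y | ∃ n ∈ N₂, ∃ z ∈ Z, n * z * n⁻¹ = y} := by
  rintro _ ⟨n, hn, z, hz, rfl⟩
  obtain ⟨a, ha, b, hb, h1⟩ := h _ (inv_mem hn)
  refine ⟨b⁻¹, inv_mem hb, z, hz, ?_⟩
  rw [← inv_inv n, h1, inv_inv, inv_inv, mul_inv_rev, mul_assoc (b⁻¹ * a⁻¹), ← mul_assoc z, ha z hz]
  group

theorem le_normalizer_closure {G : Type*} [Group G] [Finite G] (Z N : Subgroup G) :
    N ≤ normalizer ((closure {y | ∃ n ∈ N, ∃ z ∈ Z, n * z * n⁻¹ = y} : Subgroup G) : Set G) := by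
  intro m hm
  refine GT.mem_normalizer_of_map_conj_le ?_
  rw [← closure_cj]
  refine closure_mono ?_
  rintro _ ⟨_, ⟨n, hn, z, hz, rfl⟩, rfl⟩
  exact ⟨m * n, mul_mem hm hn, z, hz, by group⟩

/-- Let p be a prime, G a finite group with Sylow p-subgroup S, and W₁, W₂ two isomorphism-invariant p-group functors (W assigns to every group Q a subgroup W(Q), nontrivial whenever Q is a nontrivial finite p-group, and every isomorphism from a finite p-group Q onto a group R carries W(Q) onto W(R)). Suppose that G* = C_{G*}(Ω₁Z(S*)) N_{G*}(W₁(S*)) = C_{G*}(Ω₁Z(S*)) N_{G*}(W₂(S*)) = N_{G*}(W₁(S*)) N_{G*}(W₂(S*)) whenever G* = K/R is a section of G with C_{G*}(O_p(G*)) ≤ O_p(G*) and S* is a Sylow p-subgroup of G*, where Ω₁Z denotes the subgroup generated by the elements of order dividing p in the centre. Suppose also Ω₁Z(S) ≤ W₁(S) ∩ W₂(S), and let A be the normal closure of Ω₁Z(S) in N_G(W₁(S)).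 Then A is an elementary abelian subgroup of S, strongly closed in S with respect to G, and A controls strong fusion in G. -/
theorem result {G : Type u} [Group G] [Finite G] {p : ℕ} [Fact p.Prime] (S : Sylow p G) (W₁ W₂ : ∀ (Q : Type u) [Group Q], Subgroup Q) (hW₁ : Cfsg.IsCharPFunctor.{u} p W₁) (hW₂ : Cfsg.IsCharPFunctor.{u} p W₂) (hfac : ∀ (K R : Subgroup G) [hR : (R.subgroupOf K).Normal], Subgroup.centralizer ((Cfsg.pCore p (↥K ⧸ R.subgroupOf K) : Subgroup (↥K ⧸ R.subgroupOf K)) : Set (↥K ⧸ R.subgroupOf K)) ≤ Cfsg.pCore p (↥K ⧸ R.subgroupOf K) → ∀ T : Sylow p (↥K ⧸ R.subgroupOf K), (∀ x : (↥K ⧸ R.subgroupOf K), ∃ a ∈ Subgroup.centralizer ((Cfsg.omegaOne p ((T : Subgroup (↥K ⧸ R.subgroupOf K)) ⊓ Subgroup.centralizer (((T : Subgroup (↥K ⧸ R.subgroupOf K)) : Subgroup (↥K ⧸ R.subgroupOf K)) : Set (↥K ⧸ R.subgroupOf K))) : Subgroup (↥K ⧸ R.subgroupOf K)) : Set (↥K ⧸ R.subgroupOf K)),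 ∃ b ∈ Subgroup.normalizer ((Cfsg.inducedFunctor (G := (↥K ⧸ R.subgroupOf K)) W₁ (T : Subgroup (↥K ⧸ R.subgroupOf K)) : Subgroup (↥K ⧸ R.subgroupOf K)) : Set (↥K ⧸ R.subgroupOf K)), x = a * b) ∧ (∀ x : (↥K ⧸ R.subgroupOf K), ∃ a ∈ Subgroup.centralizer ((Cfsg.omegaOne p ((T : Subgroup (↥K ⧸ R.subgroupOf K)) ⊓ Subgroup.centralizer (((T : Subgroup (↥K ⧸ R.subgroupOf K)) : Subgroup (↥K ⧸ R.subgroupOf K)) : Set (↥K ⧸ R.subgroupOf K))) : Subgroup (↥K ⧸ R.subgroupOf K)) : Set (↥K ⧸ R.subgroupOf K)), ∃ b ∈ Subgroup.normalizer ((Cfsg.inducedFunctor (G := (↥K ⧸ R.subgroupOf K)) W₂ (T : Subgroup (↥K ⧸ R.subgroupOf K)) : Subgroup (↥K ⧸ R.subgroupOf K)) : Set (↥K ⧸ R.subgroupOf K)), x = a * b) ∧ (∀ x : (↥K ⧸ R.subgroupOf K), ∃ a ∈ Subgroup.normalizer ((Cfsg.inducedFunctor (G := (↥K ⧸ R.subgroupOf K)) W₁ (T : Subgroup (↥K ⧸ R.subgroupOf K)) : Subgroup (↥K ⧸ R.subgroupOf K)) : Set (↥K ⧸ R.subgroupOf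 K)), ∃ b ∈ Subgroup.normalizer ((Cfsg.inducedFunctor (G := (↥K ⧸ R.subgroupOf K)) W₂ (T : Subgroup (↥K ⧸ R.subgroupOf K)) : Subgroup (↥K ⧸ R.subgroupOf K)) : Set (↥K ⧸ R.subgroupOf K)), x = a * b)) (hZ : Cfsg.omegaOne p ((S : Subgroup G) ⊓ Subgroup.centralizer (((S : Subgroup G) : Subgroup G) : Set G)) ≤ Cfsg.inducedFunctor (G := G) W₁ (S : Subgroup G) ⊓ Cfsg.inducedFunctor (G := G) W₂ (S : Subgroup G)) (N₁ : Subgroup G) (hN₁ : N₁ = Subgroup.normalizer ((Cfsg.inducedFunctor (G := G) W₁ (S : Subgroup G) : Subgroup G) : Set G)) (A : Subgroup G) (hA : A = (Subgroup.normalClosure (((Cfsg.omegaOne p ((S : Subgroup G) ⊓ Subgroup.centralizer (((S : Subgroup G) : Subgroup G) : Set G))).subgroupOf N₁ : Subgroup ↥N₁) : Set ↥N₁)).map N₁.subtype) : A ≤ (S : Subgroup G) ∧ Cfsg.IsElementaryAbelian p A ∧ Cfsg.IsStronglyClosed A (S : Subgroup G) ∧ Cfsg.ControlsStrongFusion p A := by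
  have hZF := isCharPFunctor_ozF.{u} (p := p)
  have hc₁ := isConjugacyFunctor_induced (G := G) hW₁
  have hc₂ := isConjugacyFunctor_induced (G := G) hW₂
  have key : ∀ W : ∀ (Q : Type u) [Group Q], Subgroup Q, IsCharPFunctor p W →
      (∀ (K R : Subgroup G) [(R.subgroupOf K).Normal], Con p (K ⧸ R.subgroupOf K) →
        ∀ (T : Sylow p (K ⧸ R.subgroupOf K)) x,
          FacAt (ozF p) W (T : Subgroup (K ⧸ R.subgroupOf K)) x) →
      ∀ Q : Subgroup G, IsPGroup p Q → (S : Subgroup G) ≤ normalizer (Q : Set G) →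
        omegaOne p (zc (S : Subgroup G)) ≤ Q → ∀ x ∈ normalizer (Q : Set G),
        ∃ a ∈ centralizer (omegaOne p (zc (S : Subgroup G)) : Set G),
          ∃ b ∈ normalizer (inducedFunctor W (S : Subgroup G) : Set G), x = a * b := by
    intro W hW h Q h1 h2 h3 x hx
    rw [← induced_ozF] at h3 ⊢
    exact facAt_of_mem_normalizer hZF hW (forall_involves_of_sections
      (P := fun H _ _ => Con p H → ∀ (T : Sylow p H) x, FacAt (ozF p) W (T : Subgroup H) x)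
      (fun H H' _ _ _ _ e h hc => forall_facAt_of_equiv hZF hW e (h (hc.of_equiv e.symm))) h)
      S h1 h2 h3 hx
  have h1 := conj_subset (key W₂ hW₂ (fun K R _ hc T x => by
    rw [FacAt, induced_ozF]; exact (hfac K R hc T).2.1 x) _ (hc₁.isPGroup S.2)
    (hc₁.le_normalizer S.2) (hZ.trans inf_le_left))
  have h2 := conj_subset (key W₁ hW₁ (fun K R _ hc T x => by
    rw [FacAt, induced_ozF]; exact (hfac K R hc T).1 x) _ (hc₂.isPGroup S.2)
    (hc₂.le_normalizer S.2) (hZ.trans inf_le_right))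
  set Z := omegaOne p (zc (S : Subgroup G)) with hZdef
  have hZ1 : Z ≤ inducedFunctor W₁ (S : Subgroup G) := hZ.trans inf_le_left
  rw [map_normalClosure (hZ1.trans (hN₁ ▸ le_normalizer)), hN₁] at hA
  have h3 := le_normalizer_closure Z (normalizer (inducedFunctor W₁ (S : Subgroup G) : Set G))
  have h4 := le_normalizer_closure Z (normalizer (inducedFunctor W₂ (S : Subgroup G) : Set G))
  rw [← h1.antisymm h2, ← hA] at h4
  rw [← hA] at h3
  have h5 : ∀ n ∈ normalizer (inducedFunctor W₁ (S : Subgroup G) : Set G), ∀ z ∈ Z,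
      n * z * n⁻¹ ∈ (S : Subgroup G) :=
    fun n hn z hz => hc₁.le S.2 (conj_mem_of_mem_normalizer hn (hZ1 hz))
  have h6 : A ≤ S := hA ▸ (closure_le _).2 (by rintro _ ⟨n, hn, z, hz, rfl⟩; exact h5 n hn z hz)
  have hzc : IsMulCommutative (zc (S : Subgroup G)) := ⟨⟨fun a b => Subtype.ext (b.2.2 a a.2.1)⟩⟩
  have h7 : IsMulCommutative A := by
    rw [hA]
    refine isMulCommutative_closure ?_
    rintro _ ⟨n, hn, z, hz, rfl⟩ _ ⟨m, hm, y, hy, rfl⟩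
    have := (GT.PG.omegaOne_le _ hz).2 _ (h5 _ (mul_mem (inv_mem hn) hm) y hy)
    calc n * z * n⁻¹ * (m * y * m⁻¹) = n * (z * (n⁻¹ * m * y * (n⁻¹ * m)⁻¹)) * n⁻¹ := by group
      _ = _ := by rw [← this]; group
  have h8 : FCtl (normalizer (A : Set G) : Subgroup G) ⊤ (S : Subgroup G) := by
    refine ((S1996.result W₁ W₂ hW₁ hW₂ fun K R _ hc T => (hfac K R hc T).2.2).fctl
      (by rintro W (rfl | rfl); exacts [hc₁, hc₂]) (sylIn_top S)).mono ?_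
    rintro x ⟨W, rfl | rfl, hx⟩
    exacts [h3 hx.2, h4 hx.2]
  refine ⟨h6, ⟨h7, fun a ha => ((GT.PG.mem_omegaOne_iff h7).1 (?_ : a ∈ omegaOne p A)).2⟩,
    ⟨h6, fun x hx g hg => ?_⟩, controlsStrongFusion_of_fctl S h6 h8⟩
  · refine (hA.le.trans ((closure_le _).2 ?_)) ha
    rintro _ ⟨n, hn, z, hz, rfl⟩
    refine GT.PG.mem_omegaOne (hA ▸ subset_closure ⟨n, hn, z, hz, rfl⟩) ?_
    rw [conj_pow, ((GT.PG.mem_omegaOne_iff hzc).1 hz).2, mul_one, mul_inv_cancel]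
  · obtain ⟨u, h9, h10⟩ := fctl_iff_exists.1 h8 {x} g trivial (Set.singleton_subset_iff.2 (h6 hx))
      (cj_subset_iff.2 fun a ha => ha ▸ hg)
    exact h10 x rfl ▸ conj_mem_of_mem_normalizer h9 hx

end Cfsg.Agent.S1997
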