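import Mathlib
import Cfsg.Statements.S2004
import Cfsg.Agent.GT.PStable
import Cfsg.Agent.Loc.CFSection

set_option autoImplicit false
open Cfsg

namespace Cfsg.Agent.S2004

open Subgroup Loc.CF GT.Tr

theorem exists_lift {G H : Type*} [Group G] [Group H] [Finite G] {p : ℕ} [Fact p.Prime]
    {f : G →* H} (hf : Function.Surjective f) {P : Subgroup H} (hP : IsPGroup p P) :
    ∃ P₀ : Subgroup G, IsPGroup p P₀ ∧ P₀.map f = P ∧
      normalizer (P : Set H) ≤ (normalizer (P₀ : Set G)).map f := by
  have := Finite.of_surjective f hf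
  obtain ⟨P₀, h⟩ := exists_sylIn (p := p) (P.comap f)
  have h1 := h.map f
  rw [map_comap_eq_self_of_surjective hf] at h1
  have h2 : P₀.map f = P := by
    obtain ⟨g, hg, h2⟩ := h1.exists_conj (T' := P) ⟨le_rfl, hP, by
      rw [relIndex_self]; exact (Fact.out : p.Prime).one_lt.ne' ∘ Nat.dvd_one.1⟩
    exact eq_of_le_of_card_ge h1.le (by rw [← card_map_conj (P₀.map f) g, h2])
  refine ⟨P₀, h.isPGroup, h2, fun y hy => ?_⟩
  obtain ⟨x, rfl⟩ := hf y
  obtain ⟨m, hm, k, hk, rfl⟩ := frattini_sylowIn h.isPGroup h.le h.not_dvd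
    (le_normalizer_comap f hy)
  obtain ⟨v, hv, h3⟩ := h2.ge hm
  exact ⟨v * k, mul_mem (le_normalizer hv) hk, by rw [map_mul, map_mul, h3]⟩

/-- Let p be an odd prime and G a finite group such that SL₂(p) is not involved in N_G(P) for any nonidentity p-subgroup P of G. Then every section of G is p-stable in the normalizer form: in each section, whenever an element of the normalizer of a p-subgroup Q acts quadratically on Q, its image in N(Q)/C(Q) lies in O_p(N(Q)/C(Q)). -/
theorem result {G : Type*} [Group G] [Finite G] {p : ℕ} [Fact p.Prime] (hp : p ≠ 2) (h : ∀ P : Subgroup G, IsPGroup p ↥P → P ≠ ⊥ → ¬ Cfsg.Involves (Matrix.SpecialLinearGroup (Fin 2) (ZMod p)) ↥(Subgroup.normalizer ((P : Subgroup G) : Set G))) : ∀ (K R : Subgroup G) [hR : (R.subgroupOf K).Normal], Cfsg.IsNormalizerPStable p (↥K ⧸ R.subgroupOf K) := by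
  intro K R _ P hP g hg hq
  rcases eq_or_ne P ⊥ with rfl | hb
  · rw [(QuotientGroup.eq_one_iff _).2 (by simp [mem_subgroupOf, mem_centralizer_iff])]
    exact one_mem _
  refine GT.mk_mem_pCore_normalizer_of_quadratic hp hP (fun h1 => ?_) ⟨g, hg⟩ hq
  obtain ⟨P₀, h2, h3, h4⟩ := exists_lift (QuotientGroup.mk'_surjective (R.subgroupOf K)) hP
  refine h (P₀.map K.subtype) (h2.map _) (fun h5 => hb ?_) (involves_trans h1 (involves_trans
    (involves_of_injective _ (inclusion_injective h4)) (involves_trans
      (involves_of_surjective _ (MonoidHom.subgroupMap_surjective _ _))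
      (involves_trans (involves_of_injective
        (K.subtype.subgroupMap (normalizer (P₀ : Set K))) fun a b hab => ?_)
      (involves_of_injective _ (inclusion_injective (le_normalizer_map K.subtype)))))))
  · rw [← h3, (map_eq_bot_iff_of_injective _ K.subtype_injective).1 h5, Subgroup.map_bot]
  · have h6 := congrArg Subtype.val hab
    exact Subtype.ext (Subtype.ext h6)

end Cfsg.Agent.S2004
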