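import Mathlib
import Cfsg.Statements.S2009
import Cfsg.Agent.Inv.Basic

set_option autoImplicit false
open Cfsg

namespace Cfsg.Agent.S2009

theorem inverts {H : Type*} [Group H] [Finite H] (N : Subgroup H) [hN : N.Normal] (e : H) (he : e * e = 1)
    (h : N ⊓ Subgroup.centralizer ({e} : Set H) = ⊥) (x : H) (hx : x ∈ N) : e * x * e⁻¹ = x⁻¹ := by
  have h1 : MonoidHom.FixedPointFree (MulAut.conjNormal (H := N) e) := by
    intro y hy
    have : (y : H) ∈ N ⊓ Subgroup.centralizer ({e} : Set H) := by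
      refine ⟨y.2, Subgroup.mem_centralizer_singleton_iff.2 ?_⟩
      have := congrArg Subtype.val hy
      rw [MulAut.conjNormal_apply] at this
      exact (mul_inv_eq_iff_eq_mul.1 this).symm
    rw [h] at this
    exact Subtype.ext this
  have h2 : Function.Involutive (MulAut.conjNormal (H := N) e) := by
    intro y
    rw [← MulAut.mul_apply, ← map_mul, he, map_one, MulAut.one_apply]
  have := congrFun (h1.coe_eq_inv_of_involutive h2) ⟨x, hx⟩
  exact congrArg Subtype.val this

theorem exists_other {H : Type*} [Group H] (z : H) (E : Subgroup H) (hE : IsKleinFour ↥E) (hzE : z ∈ E) :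
    ∃ e ∈ E, e ≠ 1 ∧ e ≠ z := by
  by_contra h
  push Not at h
  have : Finite E := Nat.finite_of_card_ne_zero (by rw [hE.card_four]; norm_num)
  have h1 : (E : Set H) ⊆ {1, z} := fun e he => by
    by_cases h1 : e = 1
    · exact Or.inl h1
    · exact Or.inr (h e he h1)
  have h2 := Set.ncard_le_ncard h1
  have h3 : (E : Set H).ncard = 4 := hE.card_four
  have h4 := Set.ncard_insert_le (1 : H) {z}
  rw [Set.ncard_singleton] at h4
  omega

/-- Let H be a finite group and z an involution such that every proper normal subgroup of H meets the centralizer of z trivially, and suppose z lies in a Klein four-subgroup E of H all three of whose involutions are conjugate to z in H. Then H is simple. -/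
theorem result {H : Type*} [Group H] [Finite H] (z : H) (hz : orderOf z = 2) (hN : ∀ N : Subgroup H, N.Normal → N ≠ ⊤ → N ⊓ Subgroup.centralizer ({z} : Set H) = ⊥) (E : Subgroup H) (hE : IsKleinFour ↥E) (hzE : z ∈ E) (hc : ∀ e ∈ E, e ≠ 1 → IsConj z e) : IsSimpleGroup H := by
  have : Nontrivial H := ⟨⟨z, 1, Inv.ne_one_of_two hz⟩⟩
  refine ⟨fun N hNn => ?_⟩
  by_cases hT : N = ⊤
  · exact Or.inr hT
  left
  have h1 : ∀ e ∈ E, e ≠ 1 → N ⊓ Subgroup.centralizer ({e} : Set H) = ⊥ := by
    intro e he he1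
    obtain ⟨g, rfl⟩ := isConj_iff.1 (hc e he he1)
    rw [eq_bot_iff]
    rintro x ⟨hx, hxc⟩
    have h2 : g⁻¹ * x * g ∈ N ⊓ Subgroup.centralizer ({z} : Set H) := by
      refine ⟨hNn.conj_mem' x hx g, Subgroup.mem_centralizer_singleton_iff.2 ?_⟩
      have := Subgroup.mem_centralizer_singleton_iff.1 hxc
      calc g⁻¹ * x * g * z = g⁻¹ * (x * (g * z * g⁻¹)) * g := by group
        _ = _ := by rw [this]; group
    rw [hN N hNn hT, Subgroup.mem_bot] at h2
    rw [Subgroup.mem_bot]
    calc x = g * (g⁻¹ * x * g) * g⁻¹ := by group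
      _ = 1 := by rw [h2]; group
  obtain ⟨e, he, he1, hez⟩ := exists_other z E hE hzE
  have hsq : ∀ e ∈ E, e * e = 1 := fun e he => congrArg Subtype.val (IsKleinFour.mul_self (⟨e, he⟩ : E))
  have hze : z * e ≠ 1 := fun h => hez (by
    rw [eq_inv_of_mul_eq_one_right h, Inv.inv_of_two hz])
  rw [← h1 (z * e) (mul_mem hzE he) hze, eq_comm, inf_eq_left]
  intro x hx
  rw [Subgroup.mem_centralizer_singleton_iff, eq_comm, ← mul_inv_eq_iff_eq_mul]
  have h2 := inverts N e (hsq e he) (h1 e he he1) x hx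
  have h3 := inverts N z (hsq z hzE) (h1 z hzE (Inv.ne_one_of_two hz)) x⁻¹ (inv_mem hx)
  calc z * e * x * (z * e)⁻¹ = z * (e * x * e⁻¹) * z⁻¹ := by group
    _ = x := by rw [h2, h3, inv_inv]

end Cfsg.Agent.S2009
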