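import Cfsg.Statements.S2036
import Cfsg.Agent.Spor.MX.M22Gen
import Cfsg.Agent.Spor.MX.M22Cov

set_option autoImplicit false
open Cfsg

namespace Cfsg.Agent.S2036

open Cfsg.Agent.Spor Cfsg.Agent.Spor.MX

/-- The Schur multiplier of the Mathieu group M₂₂ (the permutations in the automorphism group of the length-24 binary code that fix each of two given points) is cyclic of order 12; here the Schur multiplier is described through stem extensions, as in the definitions: surjective homomorphisms onto the group from a finite group, whose kernel is central in that finite group and contained in that finite group's commutator subgroup. -/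
theorem result : Cfsg.HasCyclicSchurMultiplier ↥Cfsg.Spor.M22 12 := by
  obtain ⟨g, ht, hg⟩ := m22_gen
  exact cyclic_top (cyclic_of_bounds hg.2.2 [(2, 7, 2), (3, 2, 1)] [5, 7, 11] (by decide +kernel)
    (forall_mem_cons' (hg.not_dvd 2 3 (m22_l8 hg.2.1) (by decide +kernel))
      (forall_mem_cons' (hg.not_dvd 3 2 (m22_l9 hg.2.1) (by decide +kernel))
      forall_mem_nil'))
    (Nat.Coprime.mul_dvd_of_dvd_of_dvd (m := 4) (n := 3) (by norm_num)
      (m22a_cover hg (commute_of_base ht (PC.isBase_range _) (by decide +kernel)))
      (m22b_cover hg (commute_of_base ht (PC.isBase_range _) (by decide +kernel)))))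

end Cfsg.Agent.S2036
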