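import Cfsg.Statements.S2042
import Cfsg.Agent.Spor.MX.Sect3
import Cfsg.Agent.Spor.J4.Main
import Cfsg.Agent.S2038
-- import your own Cfsg.Agent.* helpers here

set_option autoImplicit false
open Cfsg

namespace Cfsg.Agent.S2042

open Cfsg.Agent.Spor Cfsg.Agent.Spor.MX Cfsg.Agent.Spor.J4C Cfsg.Agent.Ch Cfsg.Agent.Chev Cfsg.Spor
open Cfsg.Agent.Spor.MB Cfsg.Agent.Spor.Am Cfsg.Agent.Spor.NM

/-- A word. -/
def wU : List ℕ := [1, 0, 1, 0, 2, 0, 2, 0, 1, 0, 1, 0, 1]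

/-- A word. -/
def wB : List ℕ := [1, 0, 2, 0, 2, 0, 2, 0, 2, 0, 2, 0, 1, 0, 2, 0, 2, 0]

/-- A word. -/
def wE : List ℕ := [0, 1, 0, 1, 0, 2, 0, 1, 0, 1, 0, 1, 0, 1, 0, 2, 0, 1, 0, 2, 0, 1, 0, 1, 0, 2, 0, 1, 0, 1, 0, 1]

/-- A word. -/
def wC1 : List ℕ := [1, 3, 1, 0, 1, 0, 1, 0, 1, 0, 2, 0, 2, 0, 1, 0, 1, 0, 2, 0, 1, 0, 2, 0, 2, 0, 1, 0, 1, 0, 1, 0, 2, 0, 2, 3, 2, 3, 1, 3, 1, 0, 1, 0, 1, 0, 1, 0, 2, 0, 2, 0, 1, 0, 1, 0, 2, 0, 1, 0, 2, 0, 2, 0, 1, 0, 1, 0, 1, 0, 2, 0, 2, 3, 2, 3, 1, 3, 1, 0, 1, 0]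

/-- A word. -/
def wC2 : List ℕ := [2, 0, 1, 0, 1, 0, 2, 0, 1, 0, 2, 0, 1, 0, 2, 0, 2, 0, 1, 3, 0, 2, 0, 1, 0, 1, 0, 2, 0, 1, 0, 2, 0, 1, 0, 2, 0, 2, 0, 1, 3, 0, 2, 0, 1, 0, 1, 0, 2, 0, 1]

/-- A word. -/
def wC3 : List ℕ := [1, 0, 2, 0, 2, 0, 1, 0, 2, 0, 1, 0, 2, 0, 2, 0, 2, 0, 1, 0, 1, 0, 2, 0, 2, 0, 1, 0, 1, 0, 1, 0, 2, 0, 1, 0, 2, 0, 1, 0, 1, 0, 2, 3, 1, 0, 2, 0, 2, 0, 2, 0, 2, 0, 2, 0, 1, 0, 2, 0, 2, 0, 3, 0, 1, 0, 1, 0, 2, 0, 1, 0, 1, 0, 1, 0, 1, 0, 2, 0, 1, 0, 2, 0, 1, 0, 1, 0, 2, 0, 1, 0, 1, 0, 2, 0, 2, 0, 2, 0, 1, 0, 2, 0, 1, 0, 2, 0, 2, 0, 2, 0, 1, 0, 1, 0, 2, 0, 2, 0, 1, 0, 1, 0, 1, 0, 2, 0, 1, 0, 2, 0, 1, 0, 1, 0, 2, 3, 1, 0, 2, 0, 2, 0, 2, 0, 2, 0, 2, 0, 1, 0, 2, 0, 2, 0, 3, 0, 1, 0, 1, 0, 2, 0, 1, 0, 1, 0, 1, 0, 1, 0, 2, 0, 1, 0, 2, 0, 1, 0, 1, 0, 2, 0, 1, 0, 1, 0, 2, 0, 2, 0, 2, 0, 1, 0, 2, 0, 1, 0, 2, 0, 2, 0, 2, 0, 1, 0, 1]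

/-- A code. -/
def cB : ℕ := 918072382143668164792672286242394465

/-- A code. -/
def cE : ℕ := 375432081394094848973015881246523794

/-- A code. -/
def cP : ℕ := 595831421798010849847484355768194372

theorem four {G : Type*} [Group G] {t a : G} (ht : t * t = 1) (ha : a⁻¹ = a * a) :
    t * a * (t * a * (t * a * 1)) = 1 ↔ t * (a * t * a⁻¹) = a⁻¹ * t * a := by
  have h1 := inv_eq_of_mul_eq_one_right ht
  rw [← mul_inv_eq_one (a := t * _), show t * (a * t * a⁻¹) * (a⁻¹ * t * a)⁻¹ = t * a * t * (a⁻¹ * a⁻¹) * t⁻¹ * a by group,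
    h1, ← mul_inv_rev, ← ha, inv_inv]
  simp only [mul_assoc, mul_one]

theorem two {G : Type*} [Group G] {t b p : G} (ht : t * t = 1) :
    t * b * (t * (b⁻¹ * p) * (t * b * (t * (b⁻¹ * p) * 1))) = 1 ↔
      b * t * b⁻¹ * (p * t) * (b * t * b⁻¹)⁻¹ = (p * t)⁻¹ := by
  have h1 := inv_eq_of_mul_eq_one_right ht
  rw [← mul_inv_eq_one (b := (p * t)⁻¹), show b * t * b⁻¹ * (p * t) * (b * t * b⁻¹)⁻¹ * (p * t)⁻¹⁻¹ =
    t⁻¹ * (t * b * (t * (b⁻¹ * p) * (t * b * (t⁻¹ * (b⁻¹ * p) * 1)))) * t⁻¹⁻¹ by group, conj_eq_one_iff, h1]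

theorem words_eq {E : Type} [Group E] {π : E →* J4} {x y t : E} (hx : π x = jx) (hy : π y = jy) (ht : π t = jt)
    {v w : List ℕ} (h : band (lettersLt 4 v) (band (lettersLt 4 w)
      (Nat.beq (evN mM mI m5 v) (evN mM mI m5 w))) = true) : π (evalW (g4 x y t) v) = π (evalW (g4 x y t) w) := by
  have h1 : ∀ {w : List ℕ}, lettersLt 4 w = true → π (evalW (g4 x y t) w) = evalW j5 w := fun h => by
    rw [map_evalW, map_g4, hx, hy, ht]
    exact J4C.evalW_congr (fun i hi => (if_neg (by omega)).symm) h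
  have h2 := (m5_lets.mono (m' := 4) (by norm_num)).eq h
  rw [band_iff, band_iff] at h
  rw [h1 h.1, h1 h.2.1]
  exact phi_injective (by rw [phi_word, phi_word, h2])

theorem c1_ok : band (lettersLt 4 (appL [3] wC1)) (band (lettersLt 4 (appL wC1 (powW 2 wU)))
    (Nat.beq (evN mM mI m5 (appL [3] wC1)) (evN mM mI m5 (appL wC1 (powW 2 wU))))) = true := by decide +kernel

theorem c2_ok : band (lettersLt 4 (appL [3, 0] wC2)) (band (lettersLt 4 (appL wC2 [0]))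
    (Nat.beq (evN mM mI m5 (appL [3, 0] wC2)) (evN mM mI m5 (appL wC2 [0])))) = true := by decide +kernel

theorem c3_ok : band (lettersLt 4 (appL (3 :: appL wB (3 :: wE)) wC3)) (band (lettersLt 4 (appL wC3 [0]))
    (Nat.beq (evN mM mI m5 (appL (3 :: appL wB (3 :: wE)) wC3)) (evN mM mI m5 (appL wC3 [0])))) = true := by
  decide +kernel

theorem exists_setup {p : ℕ} (hp : p.Prime) {E : Type} [Group E] {π : E →* J4} (hc : IsCE π) (hk : Nat.card π.ker = p)
    {ψ : M24 →* E} (hψ : π.comp ψ = psi) : ∃ t, π t = jt ∧ Setup ψ t := by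
  have S := setup_J4
  have h0 : ∀ g, π (ψ g) = psi g := DFunLike.congr_fun hψ
  have hv : ∀ c, π (valN ψ c) = valN psi c := fun c => by
    unfold valN J4C.ext
    split_ifs
    exacts [h0 _, map_one _]
  have hA : ∀ {G : Type} [Group G] (ψ : M24 →* G), (valN ψ cA)⁻¹ = valN ψ cA * valN ψ cA := fun ψ =>
    (valN_eq_inv ψ (c := MB.inv cA) (by decide +kernel)).symm.trans (valN_eq ψ (by decide +kernel))
  have hE : ∀ {G : Type} [Group G] (ψ : M24 →* G), valN ψ cE = (valN ψ cB)⁻¹ * valN ψ cP := fun ψ => by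
    rw [← valN_eq_inv ψ (a := cB) (c := MB.inv cB) (by decide +kernel)]
    exact valN_eq ψ (by decide +kernel)
  have h4 : ∀ c, band (band (band (inM24 c) (inM24 c)) (Nat.beq (MB.mul c c) (MB.mul c c)))
      (band (band (inM24 (MB.mul c c)) (inM24 (MB.mul c c))) (Nat.beq (MB.mul (MB.mul c c) (MB.mul c c)) idc)) = true →
      (valN ψ c * valN ψ c) ^ 2 = 1 := fun c h => by
    rw [band_iff] at h
    rw [← valN_eq ψ h.1, sq, ← valN_eq ψ h.2, valN_one]
  have r1 := S.r1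
  have r2 : W (valN psi) jt [cB, cE, cB, cE] = 1 := S.r2
  simp only [W_cons, W_nil] at r1 r2
  by_cases h2 : p = 2
  · subst h2
    have k2 : ∀ a, π a = 1 → a ^ 2 = 1 := fun a => pow_ker hk
    obtain ⟨s, hs⟩ := hc.surj jt
    obtain ⟨u, hu⟩ : ∃ u, u = (s * valN ψ cA) ^ 3 := ⟨_, rfl⟩
    have u1 : π u = 1 := by rw [hu, map_pow, map_mul, hs, hv, ← r1]; simp only [pow_succ', pow_zero]
    obtain ⟨t, ht⟩ : ∃ t, t = u * s := ⟨_, rfl⟩
    have t1 : π t = jt := by rw [ht, map_mul, u1, hs, one_mul]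
    have hx := (h0 xb).trans psi_x
    have hy := (h0 yb).trans psi_y
    have e : ∀ {w : List ℕ} {c : ℕ}, band (lettersLt 3 w) (Nat.beq (evC c3 w) c) = true →
        evalW (g4 (ψ xb) (ψ yb) t) w = valN ψ c := fun h => by
      rw [band_iff] at h
      rw [valN_word rfl rfl h.2]
      exact J4C.evalW_congr (fun i hi => if_neg (by omega)) h.1
    have eX : ψ xb = valN ψ cX := by simpa using e (w := [0]) (c := cX) (by decide +kernel)
    have xx : valN ψ cX * valN ψ cX = 1 := by rw [← valN_eq ψ (c := idc) (by decide +kernel), valN_one]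
    have a1 := words_eq hx hy t1 c1_ok
    have a2 := words_eq hx hy t1 c2_ok
    have a3 := words_eq hx hy t1 c3_ok
    rw [evalW_appL, evalW_appL] at a1 a2 a3
    have b1 := pow_of_conj hc k2 a1 (by
      rw [evalW_powW, e (c := cU) (by decide +kernel), sq (valN ψ cU)]; exact h4 cU (by decide +kernel))
    have b2 := pow_of_conj hc k2 a2 (by simpa [eX, sq] using xx)
    have b3 := pow_of_conj hc k2 a3 (by simpa [eX, sq] using xx)
    rw [evalW_cons, evalW_appL, evalW_cons, e (c := cB) (by decide +kernel), e (c := cE) (by decide +kernel)] at b3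
    simp only [evalW_cons, evalW_nil, g4_3, g4_0, mul_one, sq, eX] at b1 b2 b3
    have c1 : Commute (valN ψ cX) t := by
      rw [Commute, SemiconjBy, eq_inv_of_mul_eq_one_left b2, mul_inv_rev, inv_eq_of_mul_eq_one_left b1,
        inv_eq_of_mul_eq_one_left xx]
    have c2 : Commute t (valN ψ cX * valN ψ cU) := commute_of_coprime hc (m := 2) (n := 21)
      (by rw [map_mul, hv, hv, t1]; exact (S.tx.mul_left S.tu).symm) (by rw [t1, sq, S.tt]) (by
        rw [map_mul, hv, hv, valN_word psi_x psi_y (w := [0]) (by decide +kernel),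
          valN_word psi_x psi_y (w := wU) (by decide +kernel), ← evalW_appL, ← evalW_powW,
          ← valN_word psi_x psi_y (c := idc) (by decide +kernel), valN_one]) (by decide)
    refine ⟨t, t1, b1, c1, ?_, ?_, ?_⟩
    · simpa using (c1.inv_left.mul_left c2.symm)
    · have := (hc.commute u1 (s * valN ψ cA)).mul_pow 3
      rw [← hu, ← mul_assoc, ← ht, ← pow_succ, show 3 + 1 = 2 * 2 from rfl, pow_mul, k2 u u1, one_pow] at this
      simpa only [W_cons, W_nil, pow_succ', pow_zero] using this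
    · show W (valN ψ) t [cB, cE, cB, cE] = 1
      simpa only [W_cons, W_nil, mul_assoc, mul_one] using b3
  · have n2 : Nat.Coprime 2 p := (Nat.coprime_primes Nat.prime_two hp).2 (Ne.symm h2)
    obtain ⟨t, t1, t2⟩ := exists_lift_pow hc hk n2 (g := jt) (by rw [sq, S.tt])
    have c0 : ∀ c, Commute (valN psi c) jt → Commute (valN ψ c) t := fun c h =>
      (commute_of_card hc hk n2 (by rw [t1, hv]; exact h.symm) (by rw [← map_pow, t2, map_one])).symm
    have tt : t * t = 1 := by rw [← sq, t2]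
    refine ⟨t, t1, tt, c0 _ S.tx, c0 _ S.tu, ?_, ?_⟩
    · simp only [W_cons, W_nil]
      have a1 := (four S.tt (hA psi)).1 r1
      have a2 : ∀ {G : Type} [Group G] (t a : G), t * t = 1 → a * t * a⁻¹ * (a * t * a⁻¹) = 1 := fun t a h => by
        rw [conj_mul, h]; group
      refine (four tt (hA ψ)).2 (mul_eq_of_card hc hk n2 ?_ t2 (by rw [sq, a2 _ _ tt])
        (by simpa [sq] using a2 t (valN ψ cA)⁻¹ tt) (by simpa [t1, hv] using a1))
      simp only [map_mul, map_inv, t1, hv]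
      have a3 := a2 jt (valN psi cA)⁻¹ S.tt
      rw [inv_inv, ← a1] at a3
      rw [Commute, SemiconjBy, eq_inv_of_mul_eq_one_left a3, mul_inv_rev, inv_eq_of_mul_eq_one_left S.tt,
        inv_eq_of_mul_eq_one_left (a2 jt (valN psi cA) S.tt)]
    · show W (valN ψ) t [cB, cE, cB, cE] = 1
      simp only [W_cons, W_nil]
      rw [hE] at r2 ⊢
      have a1 : (valN ψ cP * t) ^ 4 = 1 := by
        rw [(c0 cP (S.sT.th (okN_of (by decide +kernel)) (by decide +kernel)).2).mul_pow, show 4 = 2 * 2 from rfl,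
          pow_mul, pow_mul, t2, sq (valN ψ cP), h4 cP (by decide +kernel), one_pow, one_mul]
      exact (two tt).2 (conj_eq_of_card hc hk (n := 4) (by simpa using n2.pow_left 2) a1 (by rw [inv_pow, a1, inv_one])
        (by simpa only [map_mul, map_inv, t1, hv] using (two S.tt).1 r2))

/-- The Schur multiplier of the Janko group J₄ (the finitely presented group of the definitions) is trivial; here the Schur multiplier is described through stem extensions, as in the definitions: surjective homomorphisms onto the group from a finite group, whose kernel is central in that finite group and contained in that finite group's commutator subgroup. -/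
theorem result : Cfsg.HasCyclicSchurMultiplier Cfsg.Spor.J4 1 := by
  have := finite_J4
  refine one_of_sections_prime fun p hp E _ _ π hc hk => ?_
  have := Golay.simple_M24
  have : Group.IsPerfect M24 := Group.isPerfect_def.2 (perfect_of_simple Golay.card_M24 (by decide +kernel))
  obtain ⟨ψ, hψ⟩ := exists_lift_of_trivial_multiplier S2038.result psi hc.surj hc.cen
  obtain ⟨t, t1, S⟩ := exists_setup hp hc hk hψ
  obtain ⟨s, s1, s2⟩ := S.exists_hom
  have h0 : ∀ g, π (s (psi g)) = psi g := fun g => (congrArg π (s1 g)).trans (DFunLike.congr_fun hψ g)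
  exact ⟨s, fun g => (eq_top_J4 (L := (π.comp s).eqLocus (MonoidHom.id J4)) (psi_x ▸ h0 _) (psi_y ▸ h0 _)
    ((congrArg π s2).trans t1)).ge (Subgroup.mem_top g)⟩

end Cfsg.Agent.S2042
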