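import Cfsg.Statements.S2055
import Cfsg.Agent.Spor.MX.F24U
import Cfsg.Agent.Spor.MX.F24RC0
import Cfsg.Agent.Spor.MX.F24RC1
import Cfsg.Agent.Spor.MX.F24RC2
-- import your own Cfsg.Agent.* helpers here

set_option autoImplicit false
set_option maxRecDepth 100000
set_option exponentiation.threshold 1000000
open Cfsg

namespace Cfsg.Agent.S2055

open Cfsg.Agent.Spor Cfsg.Agent.Spor.MFi24.Mu Cfsg.Agent.Spor.MX.F4S Cfsg.Agent.Ch Cfsg.Spor Subgroup
open Cfsg.Agent.Spor.MFi24 (g k R24 hL)

/-- A word. -/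
def wZ : List ℕ := [0, 1, 4, 8, 11, 10, 0, 3, 6, 7, 9, 0, 2, 5]

/-- A word. -/
def wY : List ℕ := [2, 6, 3, 0, 1, 4, 8]

/-- Involutions that invert `w` and satisfy the relations of Fi24 up to `w`. -/
structure Data {M : Type} [Monoid M] (v : ℕ → M) (w : M) : Prop where
  sq : ∀ x < 12, v x * v x = 1
  rel : ∀ y < 12, ∀ x < y, if edge x y then v x * v y * v x = v y * (v x * v y) else v x * v y = v y * v x
  cube : w * (w * w) = 1
  ne : w ≠ 1
  inv : ∀ x < 12, v x * w = w * w * v x
  e7 : v 10 * evalW v wY ^ 9 = 1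
  top : evalW v wZ ^ 17 = w

theorem Data.units {M : Type} [Monoid M] {v : ℕ → M} {w : M} (h : Data v w) : ∃ (γ : ℕ → Mˣ) (ω : Mˣ), Data γ ω := by
  classical
  let γ : ℕ → Mˣ := fun x => if h : v x * v x = 1 then ⟨v x, v x, h, h⟩ else 1
  have h1 : ∀ x < 12, (γ x : M) = v x := fun x hx => by simp only [γ, dif_pos (h.sq x hx)]
  have h2 : ∀ u, lettersLt 12 u = true → ((evalW γ u : Mˣ) : M) = evalW v u := fun u hu =>
    (map_evalW (Units.coeHom M) γ u).trans (evalW_congr fun x hx => h1 x ((lettersLt_iff _ _).1 hu x hx))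
  refine ⟨γ, ⟨w, w * w, h.cube, by rw [mul_assoc, h.cube]⟩, fun x hx => ?_, fun y hy x hx => ?_, Units.ext h.cube,
    fun h3 => h.ne (congrArg Units.val h3), fun x hx => ?_, ?_, ?_⟩
  · exact Units.ext (by simpa [h1 x hx] using h.sq x hx)
  · have h3 := h.rel y hy x hx
    split_ifs at h3 ⊢ <;> exact Units.ext (by simpa [h1 y hy, h1 x (hx.trans hy)] using h3)
  · exact Units.ext (by simpa [h1 x hx] using h.inv x hx)
  · exact Units.ext (by simpa [h1 10 (by decide), h2 wY rfl] using h.e7)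
  · exact Units.ext (by simpa [h2 wZ rfl] using h.top)

theorem rels {Q : Type} [Group Q] {v : ℕ → Q} (h1 : ∀ x < 12, v x * v x = 1)
    (h2 : ∀ y < 12, ∀ x < y, if edge x y then v x * v y * v x = v y * (v x * v y) else v x * v y = v y * v x)
    (h3 : v 10 * evalW v wY ^ 9 = 1) (h4 : evalW v wZ ^ 17 = 1) (i : ℕ) : evalW v (R24.get i) = 1 := by
  have h := LT.all_get (t := R24) (f := fun w => force (hdL w) fun x => force (hdL (tlL w)) fun y =>
    bor (band (blt x 12) (beqL w [x, x])) (bor (band (band (blt x y) (blt y 12))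
      (beqL w (Bool.rec [x, y, x, y] [x, y, x, y, x, y] (edge x y))))
      (bor (beqL w (10 :: powW 9 wY)) (beqL w (powW 17 wZ))))) (by decide +kernel) i
  simp only [force_eq, bor_iff, band_iff, blt_iff] at h
  generalize hdL (R24.get i) = x at h
  generalize hdL (tlL (R24.get i)) = y at h
  rcases h with ⟨a, b⟩ | ⟨⟨a, a'⟩, b⟩ | b | b <;> rw [eq_of_beqL b]
  · simpa using h1 x a
  · have h5 := h2 y a' x a
    have h6 := h1 x (a.trans a')
    have h7 := h1 y a'
    cases h8 : edge x y <;> simp only [h8, Bool.false_eq_true, if_false, if_true] at h5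
    · show v x * (v y * (v x * (v y * 1))) = 1
      rw [mul_one, h5, ← mul_assoc (v y), h7, one_mul, h6]
    · show v x * (v y * (v x * (v y * (v x * (v y * 1))))) = 1
      rw [mul_one, ← h5, ← mul_assoc, ← mul_assoc, mul_assoc (v x * v y), ← mul_assoc (v x), ← mul_assoc (v x), h6, one_mul,
        mul_assoc, ← mul_assoc (v y), h7, one_mul, h6]
  · rw [evalW_cons, evalW_powW, h3]
  · rw [evalW_powW, h4]

theorem Data.stem {Y : Type} [Group Y] {γ : ℕ → Y} {ω : Y} (h : Data γ ω) :
    ∃ (Γ : Type) (_ : Group Γ) (τ : Γ →* Fi24'), IsStemExtension τ ∧ Nat.card τ.ker = 3 := by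
  classical
  have : Fact (Nat.Prime 3) := ⟨Nat.prime_three⟩
  have o3 : orderOf ω = 3 := orderOf_eq_prime (by rw [← h.cube, pow_three]) h.ne
  have : Finite (zpowers ω : Set Y) := Nat.finite_of_card_ne_zero ((Nat.card_zpowers ω).trans o3 ▸ by decide)
  have h0 : ∀ x < 12, γ x * ω * (γ x)⁻¹ = ω ^ 2 := fun x hx => by rw [h.inv x hx, mul_inv_cancel_right, pow_two]
  have h1 : ∀ x < 12, γ x ∈ normalizer (zpowers ω : Set Y) := fun x hx => mem_normalizer_fintype (S := (zpowers ω : Set Y)) (by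
    rintro _ ⟨n, rfl⟩
    rw [← conj_zpow, h0 x hx]
    exact zpow_mem (pow_mem (mem_zpowers ω) 2) n)
  let N := (zpowers ω).subgroupOf (normalizer (zpowers ω : Set Y))
  let δ : ℕ → normalizer (zpowers ω : Set Y) := fun x => if hx : x < 12 then ⟨γ x, h1 x hx⟩ else 1
  have d1 : ∀ x < 12, (δ x : Y) = γ x := fun x hx => by simp only [δ, dif_pos hx]
  have d2 : ∀ u, lettersLt 12 u = true → ((evalW δ u : normalizer (zpowers ω : Set Y)) : Y) = evalW γ u := fun u hu =>
    (map_evalW (Subgroup.subtype _) δ u).trans (evalW_congr fun x hx => d1 x ((lettersLt_iff _ _).1 hu x hx))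
  have d3 : ∀ x < 12, δ x * δ x = 1 := fun x hx => Subtype.ext (by simpa [d1 x hx] using h.sq x hx)
  have d4 : ∀ y < 12, ∀ x < y, if edge x y then δ x * δ y * δ x = δ y * (δ x * δ y) else δ x * δ y = δ y * δ x :=
    fun y hy x hx => by
      have h3 := h.rel y hy x hx
      split_ifs at h3 ⊢ <;> exact Subtype.ext (by simpa [d1 y hy, d1 x (hx.trans hy)] using h3)
  obtain ⟨φ, hφ⟩ : ∃ φ : Fi24 →* _ ⧸ N, ∀ x < 12, φ (g x) = QuotientGroup.mk' N (δ x) :=
    exists_presHom hL (t := R24) (rels (fun x hx => by rw [← map_mul, d3 x hx, map_one]) (fun y hy x hx => by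
      have h3 := d4 y hy x hx
      split_ifs at h3 ⊢ <;> simp only [← map_mul, h3])
      (by rw [← map_evalW, ← map_pow, ← map_mul]
          exact (QuotientGroup.eq_one_iff _).2 (by simp [N, mem_subgroupOf, d1 10 (by decide), d2 wY rfl, h.e7]))
      (by rw [← map_evalW, ← map_pow]
          exact (QuotientGroup.eq_one_iff _).2 (by simp [N, mem_subgroupOf, d2 wZ rfl, h.top])))
      (by decide +kernel) (by decide +kernel) (by decide +kernel)
  let X := pullback φ (QuotientGroup.mk' N)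
  let f : X →* Fi24 := pullbackFst _ _
  have fs : Function.Surjective f := pullbackFst_surjective (QuotientGroup.mk'_surjective N)
  let ε : ℕ → X := fun x => if hx : x < 12 then ⟨(g x, δ x), hφ x hx⟩ else 1
  let s : X →* normalizer (zpowers ω : Set Y) := pullbackSnd _ _
  have e1 : ∀ x < 12, f (ε x) = g x ∧ s (ε x) = δ x := fun x hx => by
    simp only [ε, dif_pos hx]
    exact ⟨rfl, rfl⟩
  have e2 : ∀ u, lettersLt 12 u = true → f (evalW ε u) = evalW g u ∧
      (s (evalW ε u) : Y) = evalW γ u := fun u hu => by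
    rw [map_evalW, map_evalW, ← d2 u hu]
    exact ⟨evalW_congr fun x hx => (e1 x ((lettersLt_iff _ _).1 hu x hx)).1,
      congrArg _ (evalW_congr fun x hx => (e1 x ((lettersLt_iff _ _).1 hu x hx)).2)⟩
  have ext : ∀ a b : X, f a = f b → (s a : Y) = s b → a = b := fun a b a1 a2 =>
    Subtype.ext (Prod.ext a1 (Subtype.ext a2))
  let w : X := evalW ε wZ ^ 17
  have w1 : f w = 1 := by
    rw [map_pow, (e2 wZ rfl).1, ← evalW_powW]
    exact MFi24.hW _ (mem_of_memW (by decide +kernel))
  have w2 : (s w : Y) = ω := by rw [map_pow, coe_pow, (e2 wZ rfl).2, h.top]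
  have k1 : f.ker = zpowers w := le_antisymm (fun a ha => by
    obtain ⟨n, hn⟩ : s a ∈ N := (QuotientGroup.eq_one_iff _).1
      ((pullback_comm a).symm.trans ((congrArg φ ha).trans (map_one φ)))
    exact ⟨n, ext _ _ (by rw [map_zpow, w1, one_zpow, ha]) (by rw [map_zpow, coe_zpow, w2]; exact hn)⟩) (zpowers_le.2 w1)
  have w3 : orderOf w = 3 := orderOf_eq_prime (ext _ _ (by rw [map_pow, w1, one_pow, map_one])
    (by rw [map_pow, coe_pow, w2, ← o3, pow_orderOf_eq_one, map_one, coe_one])) fun a => h.ne (by rw [← w2, a, map_one, coe_one])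
  let Γ := (commutator Fi24).comap f
  let τ : Γ →* Fi24' := f.subgroupComap _
  have ts : Function.Surjective τ := f.subgroupComap_surjective_of_surjective _ fs
  have tk : ∀ a : Γ, a ∈ τ.ker ↔ (a : X) ∈ zpowers w := fun a => by rw [← k1]; exact Subtype.ext_iff
  have c1 : Γ ≤ centralizer {w} := by
    have c2 : commutator Fi24 ≤ (centralizer {w}).map f := MFi24.commutator_eq ▸ genLt_le fun x hx => by
      have c3 := (allLt_iff 12 fun x => force (hdL (MFi24.Kw.get x)) fun y => force (hdL (tlL (MFi24.Kw.get x))) fun z =>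
        band (band (blt y 12) (blt z 12)) (beqL (MFi24.Kw.get x) [y, z])).1 (by decide +kernel) x hx
      simp only [force_eq, band_iff, blt_iff] at c3
      generalize hdL (MFi24.Kw.get x) = y at c3
      generalize hdL (tlL (MFi24.Kw.get x)) = z at c3
      refine ⟨ε y * ε z, mem_centralizer_singleton_iff.2 (ext _ _ (by simp only [map_mul, w1, mul_one, one_mul]) ?_), ?_⟩
      · simp only [map_mul, coe_mul, w2, (e1 y c3.1.1).2, (e1 z c3.1.2).2, d1 y c3.1.1, d1 z c3.1.2]
        rw [mul_assoc, h.inv z c3.1.2, ← mul_assoc, ← mul_assoc, h.inv y c3.1.1, mul_assoc _ (γ y), h.inv y c3.1.1,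
          ← mul_assoc, ← mul_assoc, mul_assoc ω, h.cube, one_mul, mul_assoc]
      · rw [k, eq_of_beqL c3.2, map_mul, (e1 y c3.1.1).1, (e1 z c3.1.2).1]; simp
    refine (comap_mono c2).trans ?_
    rw [comap_map_eq, k1]
    exact sup_le le_rfl (zpowers_le.2 (mem_centralizer_singleton_iff.2 rfl))
  let D := (commutator Γ).map Γ.subtype
  have := MFi24.simple'
  have pf : commutator Fi24' = ⊤ := MX.perfect_of_simple MFi24.card' (by decide +kernel)
  have q1 : ∀ x < 12, ∀ y < 12, g x * g y = g y * g x → δ x * δ y = δ y * δ x → g x * g y ∈ commutator Fi24 →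
      QuotientGroup.mk' D (ε x) = QuotientGroup.mk' D (ε y) := fun x hx y hy a1 a2 a3 => by
    have r : ∀ x < 12, ε x * ε x = 1 := fun x hx => ext _ _ (by rw [map_mul, (e1 x hx).1, MFi24.sq x hx, map_one])
      (by rw [map_mul, (e1 x hx).2, d3 x hx, map_one])
    have b1 : Commute (ε x) (ε y) := ext _ _ (by simp only [map_mul, (e1 x hx).1, (e1 y hy).1, a1])
      (by simp only [map_mul, (e1 x hx).2, (e1 y hy).2, a2])
    obtain ⟨d, hd, b2⟩ : (⟨_, a3⟩ : Fi24') ∈ (commutator Γ).map τ := by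
      rw [map_commutator_of_surjective τ ts, pf]; trivial
    have b3 : ε x * ε y * (d : X)⁻¹ ∈ zpowers w := k1 ▸ by
      rw [MonoidHom.mem_ker, map_mul, map_mul, map_inv, (e1 x hx).1, (e1 y hy).1, mul_inv_eq_one]
      exact (congrArg Subtype.val b2).symm
    have b4 := congrArg (QuotientGroup.mk' D) (orderOf_dvd_iff_pow_eq_one.1 (w3 ▸ orderOf_dvd_of_mem_zpowers b3))
    rw [map_pow, map_mul _ _ (d : X)⁻¹, map_inv, show QuotientGroup.mk' D (d : X) = 1 from
      (QuotientGroup.eq_one_iff _).2 ⟨d, hd, rfl⟩, inv_one, mul_one, ← map_pow, b1.mul_pow, pow_three, pow_three, r x hx, r y hy,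
      mul_one, mul_one, map_mul, map_one] at b4
    rw [eq_inv_of_mul_eq_one_left b4, ← map_inv, inv_eq_of_mul_eq_one_right (r y hy)]
  have q2 : ∀ x < 10, g x * g 10 ∈ commutator Fi24 := fun x hx =>
    MFi24.commutator_eq ▸ MFi24.k_eq x hx ▸ mem_genLt k (by omega)
  have q3 : ∀ x < 10, QuotientGroup.mk' D (ε x) = QuotientGroup.mk' D (ε 10) := fun x hx =>
    q1 x (by omega) 10 (by decide) (MFi24.l_comm x hx).symm (by
      have := d4 10 (by decide) x hx
      rwa [if_neg (by simpa using (allLt_iff 10 fun x => !edge x 10).1 (by decide +kernel) x hx)] at this) (q2 x hx)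
  have q4 : QuotientGroup.mk' D (ε 0) = QuotientGroup.mk' D (ε 11) :=
    q1 0 (by decide) 11 (by decide) (by simpa using MFi24.tabs0.eq_of_base MFi24.baseg (by decide +kernel) (v := [0, 11]) (w := [11, 0]) (by decide +kernel)) (by
      have := d4 11 (by decide) 0 (by decide)
      rwa [if_neg (by decide +kernel)] at this) (by
      have := mul_mem (q2 0 (by decide)) (MFi24.commutator_eq ▸ mem_genLt k (show 11 < 12 by decide))
      rwa [k, show MFi24.Kw.get 11 = [10, 11] by decide +kernel, evalW_cons, evalW_cons, evalW_nil, mul_one, mul_assoc,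
        ← mul_assoc (g 10), MFi24.sq 10 (by decide), one_mul] at this)
  have q5 : w ∈ D := by
    rw [← QuotientGroup.ker_mk' D, MonoidHom.mem_ker, map_pow, map_evalW,
      evalW_congr (g' := fun _ => QuotientGroup.mk' D (ε 10)) fun x hx => ?_]
    · have r : QuotientGroup.mk' D (ε 10) * QuotientGroup.mk' D (ε 10) = 1 := by
        rw [← map_mul, ext (ε 10 * ε 10) 1 (by rw [map_mul, (e1 10 (by decide)).1, MFi24.sq 10 (by decide), map_one])
          (by rw [map_mul, (e1 10 (by decide)).2, d3 10 (by decide), map_one]), map_one]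
      simp only [wZ, evalW_cons, evalW_nil, ← mul_assoc, r, one_mul, one_pow]
    · have hx' := (lettersLt_iff 12 wZ).1 rfl x hx
      by_cases h5 : x < 10
      · exact q3 x h5
      · obtain rfl | rfl : x = 10 ∨ x = 11 := by omega
        exacts [rfl, q4.symm.trans (q3 0 (by decide))]
  refine ⟨Γ, inferInstance, τ, ⟨ts, fun a ha => ?_, fun a ha => ?_⟩, ?_⟩
  · obtain ⟨n, hn⟩ := (tk a).1 ha
    exact mem_center_iff.2 fun b => Subtype.ext (by
      rw [coe_mul, coe_mul, ← hn]
      exact Commute.zpow_right (mem_centralizer_singleton_iff.1 (c1 b.2)) n)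
  · obtain ⟨b, hb, h5⟩ := zpowers_le.2 q5 ((tk a).1 ha)
    exact (Subtype.ext h5 : b = a) ▸ hb
  · rw [← w3, ← Nat.card_zpowers, show τ.ker = (zpowers w).subgroupOf Γ from Subgroup.ext tk]
    exact Nat.card_congr (subgroupOfEquivOfLe (k1 ▸ fun a ha => show f a ∈ commutator Fi24 from
      (show f a = 1 from ha) ▸ one_mem _)).toEquiv

theorem val_one : val 783 (pack 613089 I 0 0) = 1 ∧ val 783 (pack 613089 I I 0) = lin 1 1 := by
  have h0 : I < 2 ^ (783 * 783) := by
    rw [I_eq]
    exact NM.pk_lt fun c hc => Nat.pow_lt_pow_right (by norm_num) hc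
  have h1 : NM.F2.mat 783 I = 1 := by rw [I_eq, NM.F2.mat_one]
  have h2 := fun b => val_pack h0 b (show 0 < 2 by decide)
  rw [show 613089 = 783 * 783 from rfl, h2, h2, h1, mat_zero, lin_one, pow_zero, mul_one, mul_one]
  exact ⟨rfl, rfl⟩

theorem rel_all (y : ℕ) (hy : y < 12) (x : ℕ) (hx : x < y) : rel x y = true := by
  interval_cases y <;> interval_cases x
  exacts [rel_0_1, rel_0_2, rel_1_2, rel_0_3, rel_1_3, rel_2_3, rel_0_4, rel_1_4, rel_2_4, rel_3_4, rel_0_5, rel_1_5, rel_2_5, rel_3_5, rel_4_5, rel_0_6, rel_1_6, rel_2_6, rel_3_6, rel_4_6, rel_5_6, rel_0_7, rel_1_7, rel_2_7, rel_3_7, rel_4_7, rel_5_7, rel_6_7, rel_0_8, rel_1_8, rel_2_8, rel_3_8, rel_4_8, rel_5_8, rel_6_8, rel_7_8, rel_0_9, rel_1_9, rel_2_9, rel_3_9, rel_4_9, rel_5_9, rel_6_9, rel_7_9, rel_8_9, rel_0_10, rel_1_10, rel_2_10, rel_3_10, rel_4_10, rel_5_10, rel_6_10, rel_7_10, rel_8_10, rel_9_10, rel_0_11, rel_1_11, rel_2_11, rel_3_11, rel_4_11, rel_5_11, rel_6_11, rel_7_11, rel_8_11, rel_9_11, rel_10_11]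

theorem data_of {M : Type} [Monoid M] (V : ℕ → M) (hV : ∀ a b, V (mu a b) = V a * V b) {w : M}
    (h2 : V (pack 613089 I 0 0) = 1) (h3 : V (pack 613089 I I 0) = w) (h5 : w * (w * w) = 1) (h6 : w ≠ 1)
    (h7 : ∀ x < 12, V (c x) * w = w * w * V (c x)) : Data (fun x => V (c x)) w := by
  have h4 : ∀ {a b : ℕ}, Nat.beq a b = true → V a = V b := fun h => congrArg _ ((nbeq_iff _ _).1 h)
  have h8 : ∀ a u, V (ev a u) = evalW (fun x => V (c x)) u * V a := fun a u => by
    induction u with
    | nil => exact (one_mul _).symm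
    | cons x u ih => rw [evalW_cons, mul_assoc, ← ih, ← hV]; rfl
  have h9 : ∀ a, V (p8 a) = V a ^ 8 := fun a => by
    rw [p8, force_eq, force_eq, force_eq, hV, hV, hV, ← pow_two, ← pow_two, ← pow_two, ← pow_mul, ← pow_mul]
  refine ⟨fun x hx => ?_, fun y hy x hx => ?_, h5, h6, h7, ?_, ?_⟩
  · rw [← hV, ← h2]
    exact h4 (allRange_zero (allRange_join (allRange_join (allRange_join sq0 sq1) sq2) sq3) x hx)
  · have h5 := rel_all y hy x hx
    unfold rel at h5
    cases h6 : edge x y <;> rw [h6] at h5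
    · have h7 := h4 h5
      rwa [hV, hV, ← if_neg Bool.false_ne_true (t := V (c x) * V (c y) * V (c x) = V (c y) * (V (c x) * V (c y)))
        (e := V (c x) * V (c y) = V (c y) * V (c x))] at h7
    · dsimp only at h5
      rw [force_eq] at h5
      have h7 := h4 h5
      simp only [hV] at h7
      exact (if_pos rfl).mpr h7
  · have a0 := h4 yc0
    have a1 := h4 yc1
    have a2 := h4 yc9
    rw [h8] at a0 a1
    rw [hV, hV, h2, ← h4 yc8, h9, ← pow_succ', ← a1, ← a0] at a2
    simpa only [wY, mul_assoc, evalW_cons, evalW_nil, mul_one] using a2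
  · have a0 := h4 zc0
    have a1 := h4 zc1
    have a2 := h4 zc2
    have a3 := h4 zc3
    have a4 := h4 zc4
    have a5 := h4 zc9
    rw [h8] at a0 a1 a2 a3 a4
    rw [hV, hV, h3, ← h4 zc8, h9, ← pow_add, ← pow_succ', ← a4, ← a3, ← a2, ← a1, ← a0] at a5
    simpa only [wZ, mul_assoc, evalW_cons, evalW_nil, mul_one] using a5

theorem val_w {n a : ℕ} (h : a &&& 1 = 1) : val n a * lin 1 1 = lin 1 1 * lin 1 1 * val n a := by
  rw [val, h, pow_one]
  exact semi_w add_self _ _

theorem data_n {n : ℕ} [NeZero n] (hV : ∀ a b, val n (mu a b) = val n a * val n b)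
    (h : val n (pack 613089 I 0 0) = 1 ∧ val n (pack 613089 I I 0) = lin 1 1) : Data (fun x => val n (c x)) (lin 1 1) :=
  data_of (val n) hV h.1 h.2 (w_cube add_self) w_ne fun x hx => val_w
    ((nbeq_iff _ _).1 ((allLt_iff 12 fun x => Nat.beq (Nat.land (c x) 1) 1).1 (by decide +kernel) x hx))

/-- The Schur multiplier of the Fischer group Fi₂₄′ (the commutator subgroup of the presented group Fi₂₄) is cyclic of order 3; here the Schur multiplier is described through stem extensions, as in the definitions: surjective homomorphisms onto the group from a finite group, whose kernel is central in that finite group and contained in that finite group's commutator subgroup. -/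
theorem result : Cfsg.HasCyclicSchurMultiplier Cfsg.Spor.Fi24' 3 := by
  obtain ⟨γ, ω, h⟩ := (data_n val_mu val_one).units
  obtain ⟨Γ, _, τ, h1, h2⟩ := h.stem
  have : Fact (Nat.Prime 3) := ⟨Nat.prime_three⟩
  exact hasSchurMultiplier_of_card_le τ h1 (mulEquivOfPrimeCardEq h2 (by simp)) fun Δ _ _ σ hσ =>
    (card_ker_le σ hσ).trans (by simp)

end Cfsg.Agent.S2055
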