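import Cfsg.Statements.S2056
import Cfsg.Agent.Spor.MX.Sect
import Cfsg.Agent.Spor.HN.Hs
import Cfsg.Agent.S2046
-- import your own Cfsg.Agent.* helpers here

set_option autoImplicit false
open Cfsg

namespace Cfsg.Agent.S2056

open Cfsg.Agent.Spor Cfsg.Agent.Spor.MX Cfsg.Agent.Spor.MHN Cfsg.Agent.Spor.DC Cfsg.Agent.Ch Cfsg.Spor

/-- The Schur multiplier of the Harada–Norton group (the finitely presented group of the definitions) is trivial; here the Schur multiplier is described through stem extensions, as in the definitions: surjective homomorphisms onto the group from a finite group, whose kernel is central in that finite group and contained in that finite group's commutator subgroup. -/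
theorem result : Cfsg.HasCyclicSchurMultiplier Cfsg.Spor.HN 1 := by
  obtain ⟨K, h2, hK⟩ := exists_double_cover
  have := LC.simple_SporHS
  have : Group.IsPerfect HS := Group.isPerfect_def.2 (perfect_of_simple LC.card_SporHS (by decide +kernel))
  obtain ⟨σ, hσ, hc⟩ := stem_of_nonsplit hK
  have := isPerfect_of_isStemExtension hσ
  have hM := hasCyclicSchurMultiplier_one_of_cover S2046.result hσ (hc.trans (card_multiplicative_zmod 2).symm)
  have r1 := K.one_mem
  have r2 := K.one_mem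
  rw [← rel (powW 3 [1, 2, 2, 0, 2, 2, 2])] at r1
  rw [← rel (4 :: powW 3 [3, 1, 3, 1, 3, 3, 3, 4, 2, 2, 2, 0, 2, 0, 2, 0])] at r2
  simp only [evalW_powW, evalW_cons, evalW_nil, mul_one, pow_succ, pow_zero, one_mul, x_inv, y_inv,
    K.mul_mem_iff_of_index_two h2, inv_mem_iff] at r1 r2
  have hx : g0 0 ∈ K := by tauto
  have hy : g0 2 ∈ K := by tauto
  have hz : g0 4 ∉ K := fun hz => by
    have h3 : K = ⊤ := top_unique (top0 ▸ genLt_le fun x h => by
      interval_cases x
      exacts [hx, x_inv ▸ K.inv_mem hx, hy, y_inv ▸ K.inv_mem hy, hz, z_inv ▸ K.inv_mem hz])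
    rw [h3, Subgroup.index_top] at h2
    omega
  have pg : ∀ x < 6, psi (g0 x) = gG x := fun x h => g_lt h ▸ psi_g h
  refine one_of_sections fun E _ _ π hp => ?_
  obtain ⟨η, hη⟩ := exists_lift_of_trivial_multiplier hM (psi.comp K.subtype) hp.surj hp.cen
  have e0 : π (η ⟨_, hx⟩) = gG 0 := (DFunLike.congr_fun hη _).trans (pg 0 (by decide))
  have e2 : π (η ⟨_, hy⟩) = gG 2 := (DFunLike.congr_fun hη _).trans (pg 2 (by decide))
  obtain ⟨t0, ht0⟩ := hp.surj (gG 6)
  obtain ⟨z0, hz0⟩ := hp.surj (gG 4)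
  obtain ⟨t, t1, t2, t3⟩ := exists_lift_five hp (x := η ⟨_, hx⟩) (t := t0)
    (by simpa [ht0, pow_succ, mul_assoc] using t5) (by simpa [ht0, e0, pow_succ, mul_assoc] using tx)
  rw [ht0] at t1
  have t4 : t * (t * (t * (t * t))) = 1 := by simpa [pow_succ, mul_assoc] using t2
  have t6 : (η ⟨_, hx⟩)⁻¹ * (t * (η ⟨_, hx⟩ * (t * t))) = 1 := by simpa [pow_succ, mul_assoc] using t3
  have a1 : η ⟨_, hx⟩ * η ⟨_, hx⟩ * (η ⟨_, hx⟩ * η ⟨_, hx⟩) = 1 := by
    rw [← map_mul, ← map_mul, ← map_one η]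
    exact congrArg η (Subtype.ext a_sq)
  have := K.normal_of_index_eq_two h2
  obtain ⟨z, z1, z2, z3⟩ := exists_lift_two_three hp (a := η ⟨_, hx⟩ * η ⟨_, hx⟩) (z := z0) (t := t)
    (by rw [inv_eq_of_mul_eq_one_right a1]; exact conj_a t4 t6 a1)
    (by
      have h3 : η (⟨_, hx⟩ * ⟨_, hx⟩) = _ := (congrArg η (Subtype.ext (mul_inv_eq_of_eq_mul (a_central _)).symm)).trans
        (lift_conj_normal hp hη (hz0.trans (pg 4 (by decide)).symm) (⟨_, hx⟩ * ⟨_, hx⟩))
      rw [eq_mul_inv_iff_mul_eq, map_mul] at h3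
      rw [h3, mul_inv_cancel_right])
    (by simpa [hz0, pow_succ] using relG [4, 4]) (by simpa [hz0, t1, pow_succ, mul_assoc] using zt)
  obtain ⟨ζ, b1, b2, b3⟩ := exists_lift_index_two hp h2 hη hz (z1.trans (hz0.trans (pg 4 (by decide)).symm))
    (by rw [← pow_two, z2, ← map_one η]; exact congrArg η (Subtype.ext z_sq.symm))
  have c0 : ζ (g0 0) = η ⟨_, hx⟩ := b3 ⟨_, hx⟩
  have c2 : ζ (g0 2) = η ⟨_, hy⟩ := b3 ⟨_, hy⟩
  have c3 : Commute t (η ⟨_, hy⟩) := commute_of_coprime hp (m := 5) (n := 6) (by rw [t1, e2]; exact ty)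
    (by rw [← map_pow, t2, map_one]) (by simpa [e2, pow_succ, mul_assoc] using relG [2, 2, 2, 2, 2, 2]) (by decide)
  obtain ⟨s, hs⟩ : ∃ s : HN →* E, ∀ x < 8, s (gG x) = if x < 6 then ζ (g0 x) else if x = 6 then t else t⁻¹ := by
    refine exists_presHom hLG (t := .node RH (.node (.node (.leaf [6, 7]) (.leaf [6, 6, 6, 6, 6]))
      (.node (.leaf [1, 6, 0, 6, 6]) (.node (.leaf [7, 3, 6, 2]) (.leaf [4, 6, 4, 6, 4, 6]))))) ?_
      (by decide +kernel) (by decide +kernel) (by decide +kernel)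
    have hn := @LT.forall_node fun w => evalW (fun x => if x < 6 then ζ (g0 x) else if x = 6 then t else t⁻¹) w = 1
    refine hn (fun i => ?_) (hn (hn ?_ ?_) (hn ?_ (hn ?_ ?_)))
    · rw [← map_one ζ, ← wq_rels RH 6 i, map_evalW]
      exact evalW_congr fun x hx =>
        if_pos ((lettersLt_iff _ _).1 (LT.all_get (show RH.all (lettersLt 6) = true by decide +kernel) i) x hx)
    · exact fun _ => show evalW _ [_, _] = 1 from (by simp)
    · exact fun _ => show evalW _ [_, _, _, _, _] = 1 by simpa using t4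
    · exact fun _ => show evalW _ [_, _, _, _, _] = 1 by simpa [x_inv, c0] using t6
    · exact fun _ => show evalW _ [_, _, _, _] = 1 by simp [y_inv, c2, c3.eq]
    · exact fun _ => show evalW _ [_, _, _, _, _, _] = 1 by simpa [b2, pow_succ, mul_assoc] using z3
  refine ⟨s, section_of_letters topG s fun x h => ?_⟩
  rw [hs x h]
  split_ifs with h1 h3
  · exact (DFunLike.congr_fun b1 _).trans (pg x h1)
  · rw [h3, t1]
  · rw [show x = 7 by omega, map_inv, t1, G7]

end Cfsg.Agent.S2056
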