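import Cfsg.Statements.S2057
import Cfsg.Agent.Spor.Th.Cent
import Cfsg.Agent.Spor.MX.ThR
import Cfsg.Agent.Spor.MX.Ext
import Cfsg.Agent.Spor.MX.Fuse

set_option autoImplicit false
open Cfsg

namespace Cfsg.Agent.S2057

open Cfsg.Agent.Spor Cfsg.Agent.Spor.MX Cfsg.Agent.Spor.MTh Cfsg.Agent.Spor.MTh.Mu Cfsg.Agent.Ch Cfsg.Agent.Chev
open Cfsg.Spor Subgroup

/-- The letters of the centraliser. -/
noncomputable abbrev gC (x : ℕ) : Th := evalW gG (wC x)

theorem mem_gC : ∀ x < 11, x ≠ 1 → gG x ∈ genLt gC 8 := by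
  have h : ∀ i < 8, ∀ x, wC i = [x] → gG x ∈ genLt gC 8 := fun i hi x e => by
    simpa [gC, e] using mem_genLt gC hi
  have h8 : gG 8 ∈ genLt gC 8 := by
    have h1 := one_of rT _ (List.mem_singleton_self _)
    rw [show [6, 6, 9, 5, 5, 5, 9, 6, 6, 9, 8] = [6, 6, 9, 5, 5, 5, 9, 6, 6, 9] ++ [8] from rfl, evalW_append] at h1
    have h2 := eq_inv_of_mul_eq_one_right h1
    simp only [evalW_cons, evalW_nil, mul_one] at h2
    have h5 := h 0 (by decide) 5 rfl
    have h6 := h 1 (by decide) 6 rfl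
    have h9 := h 6 (by decide) 9 rfl
    rw [h2]
    simp only [inv_mem_iff, mul_mem_cancel_left h5, mul_mem_cancel_left h6, mul_mem_cancel_left h9, h9]
  intro x hx h1
  interval_cases x
  exacts [h 5 (by decide) _ rfl, absurd rfl h1, h 4 (by decide) _ rfl, h 3 (by decide) _ rfl, h 2 (by decide) _ rfl,
    h 0 (by decide) _ rfl, h 1 (by decide) _ rfl,
    eq_inv_of_mul_eq_one_left (show gG 7 * gG 8 = 1 from hinvG 7 (by decide)) ▸ inv_mem h8, h8,
    h 6 (by decide) _ rfl, h 7 (by decide) _ rfl]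

theorem gen_C : Gen (centralizer {gG 0}) gC thc_rels 8 92897280 := by
  refine ⟨?_, relC, card_cent_a⟩
  have := alternatingGroup.isSimpleGroup (α := Fin 9) (by simp)
  have h3 : ((genLt q 8).subgroupOf (genLt q 8 ⊔ genLt gc 7)).Normal :=
    (normal_subgroupOf_iff_le_normalizer le_sup_left).2 (sup_le le_normalizer (genLt_le fun l _ => gc_norm l))
  obtain ⟨φ, h1, -⟩ := presA9.exists_sect (H := genLt q 8 ⊔ genLt gc 7) (fun l hl => mem_sup_right (mem_genLt gc hl))
    car_mem (x := 0) (by decide) fun h => (sb.es2.comm _ h _ (mem_genLt q (by decide))).elim gc_ne.1 gc_ne.2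
  have h4 := card_eq_card_quotient_mul_card_subgroup ((genLt q 8).subgroupOf (genLt q 8 ⊔ genLt gc 7))
  rw [Nat.card_congr (subgroupOfEquivOfLe le_sup_left).toEquiv, sb.card] at h4
  have h5 : genLt q 8 ⊔ genLt gc 7 ≤ genLt gC 8 := by
    refine sup_le (genLt_le fun i hi => evalW_mem fun x hx => ?_) (genLt_le fun l _ => gc_mem (mem_gC 3 (by decide)
      (by decide)) (mem_gC 4 (by decide) (by decide)) (mem_gC 5 (by decide) (by decide)) (mem_gC 9 (by decide) (by decide)) l)
    have h6 := (allL_iff _ _).1 ((allLt_iff _ _).1 (show allLt 8 (fun i => allL (qw.get i) fun x =>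
      band (blt x 11) (!Nat.beq x 1)) = true by decide +kernel) i hi) x hx
    rw [band_iff, blt_iff] at h6
    exact mem_gC x h6.1 (by rintro rfl; simp at h6)
  have h6 := (Nat.mul_dvd_mul_right (card_dvd_of_injective φ h1) _).trans (h4 ▸ card_dvd_of_le h5)
  refine eq_of_le_of_card_ge (genLt_le fun i hi => evalW_mem fun x hx => ?_) ?_
  · interval_cases i <;> obtain rfl := List.mem_singleton.1 hx <;> exact comm_a _ (by decide) (by decide)
  · rw [card_cent_a]
    rw [card_A9] at h6
    exact Nat.le_of_dvd Nat.card_pos h6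

theorem rel {w : List ℕ} (h : memLT (LT.node RH RZ) w = true := by decide +kernel) : evalW gG w = 1 := by
  obtain ⟨j, rfl⟩ := exists_get_of_memLT h
  exact relGA j

/-- In a double cover the lifts of an involution and of an element of its centraliser commute. -/
theorem br_a {E : Type} [Group E] {π : E →* Th} (hp : IsCE π) (h2 : ∀ z ∈ π.ker, z * z = 1) :
    centralizer {gG 0} ≤ hp.brSub (gG 0) := by
  have c : ∀ {x}, x ∈ centralizer ({gG 0} : Set Th) → Commute x (gG 0) := fun h => mem_centralizer_singleton_iff.1 h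
  have m : ∀ w, allL w (fun x => band (blt x 11) (!Nat.beq x 1)) = true → evalW gG w ∈ centralizer ({gG 0} : Set Th) :=
    fun w h => evalW_mem fun x hx => by
      have h6 := (allL_iff _ _).1 h x hx
      rw [band_iff, blt_iff] at h6
      exact comm_a x h6.1 (by rintro rfl; simp at h6)
  have sq2 : ∀ {x}, x ∈ centralizer ({gG 0} : Set Th) → x ^ 2 ∈ hp.brSub (gG 0) := fun h => by
    rw [hp.mem_brSub, hp.br_pow_left (c h), sq, h2 _ (hp.map_br_of_commute (c h))]
  have od : ∀ {x} k, x ∈ centralizer ({gG 0} : Set Th) → x ^ (2 * k + 1) ∈ hp.brSub (gG 0) → x ∈ hp.brSub (gG 0) :=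
    fun k h h1 => by rwa [pow_succ, pow_mul, mul_mem_cancel_left (pow_mem (sq2 h) k)] at h1
  have od1 : ∀ w k, allL w (fun x => band (blt x 11) (!Nat.beq x 1)) = true → evalW gG (powW (2 * k + 1) w) = 1 →
      evalW gG w ∈ hp.brSub (gG 0) := fun w k h h1 => od k (m w h) (by rw [← evalW_powW, h1]; exact one_mem _)
  have h0 : gG 0 ∈ hp.brSub (gG 0) := hp.br_self _
  have h5 : gG 5 ∈ hp.brSub (gG 0) := by simpa using od1 [5] 3 (by decide +kernel) rel
  have h6 : gG 6 ∈ hp.brSub (gG 0) := eq_inv_of_mul_eq_one_right (show gG 5 * gG 6 = 1 from hinvG 5 (by decide)) ▸ inv_mem h5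
  have h4 : gG 4 ∈ hp.brSub (gG 0) := by
    simpa [mul_mem_cancel_right h5] using od1 [4, 5] 3 (by decide +kernel) (eqH (w := []) (by decide +kernel))
  have h3 : gG 3 ∈ hp.brSub (gG 0) := by simpa [mul_mem_cancel_right h4] using od1 [3, 4] 1 (by decide +kernel) rel
  have h7 : gG 2 ∈ hp.brSub (gG 0) := by
    have e : gG 9 ^ 2 * (gG 2 * gG 0) = 1 := by simpa [sq, mul_assoc] using rel (w := [9, 9, 2, 0])
    have := inv_mem (sq2 (comm_a 9 (by decide) (by decide)))
    rwa [← eq_inv_of_mul_eq_one_right e, mul_mem_cancel_right h0] at this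
  have h10 : gG 10 ∈ hp.brSub (gG 0) := by
    have e : gG 0 * gG 2 * evalW gG [6, 10] ^ (2 * 1 + 1) = 1 := by
      simpa [pow_succ, mul_assoc] using rel (w := [0, 2, 6, 10, 6, 10, 6, 10])
    simpa [mul_mem_cancel_left h6] using od 1 (m [6, 10] (by decide +kernel))
      (eq_inv_of_mul_eq_one_right e ▸ inv_mem (mul_mem h0 h7))
  have h9 : gG 9 ∈ hp.brSub (gG 0) := eq_inv_of_mul_eq_one_left (show gG 9 * gG 10 = 1 from hinvG 9 (by decide)) ▸ inv_mem h10
  rw [← gen_C.1]
  refine genLt_le fun i hi => evalW_mem fun x hx => ?_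
  interval_cases i <;> obtain rfl := List.mem_singleton.1 hx <;> assumption

theorem not_two : ¬ 2 ∣ Nat.card (Mult Th) := by
  refine gen_C.not_two_dvd (thc_bnd (wp_rels _)) ?_ (gen_C.not_dvd 2 2 (thc_l4 relC) (by decide +kernel)) thv_cov
    (v := [6]) (w := [2]) ⟨by decide +kernel, by decide +kernel⟩ (by decide +kernel) fun Γ _ σ hs hc h2 x y hx hy => ?_
  · have h := (centralizer ({gG 0} : Set Th)).index_mul_card
    rw [card_cent_a, card] at h
    omega
  · have hp : IsCE σ := ⟨hs, hc⟩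
    obtain ⟨k, hk⟩ : ∃ k, k * gG 0 * k⁻¹ = gG 4 := by
      have h1 := one_of rE _ (List.mem_singleton_self _)
      simp only [evalW_cons _ _ [], evalW_nil, mul_one] at h1
      have h3 := evalW_red (v := appL (conjW inv0 [3, 4, 2, 3, 10, 1, 9, 1, 2, 3, 1, 10, 1] [0]) [4]) (by decide +kernel)
        |>.trans h1
      rw [evalW_appL, evalW_conjW (m := 11) hinvG rfl] at h3
      refine ⟨evalW gG [3, 4, 2, 3, 10, 1, 9, 1, 2, 3, 1, 10, 1], ?_⟩
      rw [← mul_left_inj (gG 4), show gG 4 * gG 4 = 1 by simpa using rel (w := [4, 4]), ← h3]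
      simp only [evalW_cons _ _ [], evalW_nil, mul_one]
    have h3 : Commute (gG 9) (gG 4) := by
      have h4 : gG 10 * (gG 4 * (gG 9 * gG 4)) = 1 := by simpa using rel (w := [10, 4, 9, 4])
      have h5 : gG 4 * gG 4 = 1 := by simpa using rel (w := [4, 4])
      rw [eq_inv_of_mul_eq_one_right (show gG 9 * gG 10 = 1 from hinvG 9 (by decide)), inv_mul_eq_one] at h4
      calc gG 9 * gG 4 = gG 4 * (gG 9 * gG 4) * gG 4 := by rw [← h4]
        _ = _ := by rw [mul_assoc, mul_assoc, h5, mul_one]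
    have h4 := hp.br_conj_eq_one (br_a hp h2 (show k⁻¹ * gG 9 * k ∈ _ from mem_centralizer_singleton_iff.2 (by
      rw [← hk] at h3
      simpa [mul_assoc] using (h3.conj k⁻¹).eq))) k
    rw [hk] at h4
    exact hp.commute_of_br (g := gG 9) (x := gG 4) (hx.trans (by simp [gC, wC])) (hy.trans (by simp [gC, wC]))
      (by simpa [mul_assoc] using h4)

theorem not_odd {p : ℕ} (hp : p.Prime) (h2 : Nat.Coprime 2 p) (hL : Lifts p gC 8 92897280) {L : LA}
    (c2 : L.ok ths_C = true) (hs : L.s = 0) (hq : L.q = p) : ¬ p ∣ Nat.card (Mult Th) := by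
  intro hd
  obtain ⟨E, _, _, π, hπ, hk⟩ := (prime_dvd_card_mult_iff hp).1 hd
  have hc : IsCE π := ⟨hπ.1, hπ.2.1⟩
  obtain ⟨η, hη⟩ := gen_C.exists_sect hL hc fun z => pow_ker hk
  obtain ⟨b, b1, b2⟩ := exists_lift_pow hc hk h2 (g := gG 1) (by simpa [sq] using rel (w := [1, 1]))
  classical
  let k : ℕ → centralizer ({gG 0} : Set Th) := fun x => if h : gG x ∈ centralizer {gG 0} then ⟨_, h⟩ else 1
  let P : ℕ → E := fun x => if x = 1 then b else η (k x)
  have k1 : ∀ x < 11, x ≠ 1 → (k x : Th) = gG x := fun x hx h => by simp only [k, dif_pos (comm_a x hx h)]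
  have P1 : ∀ x < 11, π (P x) = gG x := fun x hx => by
    by_cases h : x = 1
    · rw [h]; exact b1
    · simp only [P, if_neg h, hη, k1 x hx h]
  have P2 : ∀ w, lettersLt 11 w = true → π (evalW P w) = evalW gG w := fun w hw => by
    rw [map_evalW]
    exact evalW_congr fun x hx => P1 x ((lettersLt_iff _ _).1 hw x hx)
  have P3 : ∀ w, allL w (fun x => band (blt x 11) (!Nat.beq x 1)) = true →
      evalW P w = η (evalW k w) ∧ (evalW k w : centralizer ({gG 0} : Set Th)).1 = evalW gG w := fun w hw => by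
    have h : ∀ x ∈ w, x < 11 ∧ x ≠ 1 := fun x hx => by
      have h6 := (allL_iff _ _).1 hw x hx
      rw [band_iff, blt_iff] at h6
      exact ⟨h6.1, by rintro rfl; simp at h6⟩
    exact ⟨by rw [map_evalW]; exact evalW_congr fun x hx => if_neg (h x hx).2,
      (map_evalW (Subgroup.subtype _) k w).trans (evalW_congr fun x hx => k1 x (h x hx).1 (h x hx).2)⟩
  have P4 : ∀ w, allL w (fun x => band (blt x 11) (!Nat.beq x 1)) = true → evalW gG w = 1 → evalW P w = 1 :=
    fun w hw h => by rw [(P3 w hw).1, show evalW k w = 1 from Subtype.ext ((P3 w hw).2.trans h), map_one]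
  have P5 : ∀ w, band (allL w fun x => band (blt x 11) (!Nat.beq x 1)) (eqB w []) = true → evalW P w = 1 :=
    fun w hw => P4 w ((band_iff _ _).1 hw).1 (eqH ((band_iff _ _).1 hw).2)
  have i1 : P 1 * P 1 = 1 := by rw [← sq]; exact b2
  have i0 : P 0 * P 0 = 1 := by simpa using P5 [0, 0] (by decide +kernel)
  have i2 : P 2 * P 2 = 1 := by simpa using P5 [2, 2] (by decide +kernel)
  have i3 : P 3 * P 3 = 1 := by simpa using P5 [3, 3] (by decide +kernel)
  have i4 : P 4 * P 4 = 1 := by simpa using P5 [4, 4] (by decide +kernel)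
  have dh : ∀ x y n, P x * P x = 1 → P y * P y = 1 → band (lettersLt 11 (powW n [x, y]))
      (memLT (LT.node RH RZ) (powW n [x, y])) = true → evalW P (powW n [x, y]) = 1 := fun x y n hx hy h => by
    rw [band_iff] at h
    have h1 := (P2 _ h.1).trans (rel h.2)
    rw [evalW_powW, evalW_cons, evalW_cons, evalW_nil, mul_one] at h1 ⊢
    exact pow_dihedral hc hk h2 hx hy h1
  have cm : ∀ x, x < 9 → eqB [1, x] [x, 1] = true → P 1 * P x = P x * P 1 := fun x hx h =>
    commute_of_card hc hk h2 (by rw [P1 1 (by decide), P1 x (by omega), commute_iff_eq]; simpa using eqH h)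
      (by rw [← map_pow, sq, i1, map_one])
  have c3 := cm 3 (by decide) (by decide +kernel)
  have c4 := cm 4 (by decide) (by decide +kernel)
  have sw : ∀ {x y : E}, x * x = 1 → y * y = 1 → x * (y * (x * y)) = 1 → x * y = y * x := fun hx hy h => by
    rw [← mul_assoc] at h
    rw [eq_inv_of_mul_eq_one_left h, mul_inv_rev, inv_eq_of_mul_eq_one_left hx, inv_eq_of_mul_eq_one_left hy]
  have c24 : P 2 * P 4 = P 4 * P 2 := sw i2 i4 (by simpa using P5 [2, 4, 2, 4] (by decide +kernel))
  have c02 : P 0 * P 2 = P 2 * P 0 := sw i0 i2 (by simpa using P5 [0, 2, 0, 2] (by decide +kernel))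
  have cn : ∀ {x : E}, x * x = 1 → ∀ y, x * (x * y) = y := fun h y => by rw [← mul_assoc, h, one_mul]
  have cs : ∀ {x y : E}, x * y = y * x → ∀ z, x * (y * z) = y * (x * z) := fun h z => by
    rw [← mul_assoc, h, mul_assoc]
  obtain ⟨g', g1, g2, g3⟩ := LC.lift_rels hc (C := ths_C) (L := L) relS ths_b ths_up c2 hs
    (fun z => hq ▸ pow_ker hk) (H := η.range) (by
      rintro _ ⟨y, rfl⟩ h
      rw [show y = 1 from Subtype.ext ((hη y).symm.trans h), map_one]) (g0 := fun x => evalW P (wS x)) (fun x hx => by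
      have h : x < 6 := hx
      exact ⟨P2 _ (by interval_cases x <;> decide +kernel),
        _, (P3 _ (by interval_cases x <;> decide +kernel)).1.symm⟩)
  have g4 : g' 6 = evalW P (wS 6) := by
    have h1 : g' 6 * (g' 6 * 1) = 1 := g3 11 (by decide +kernel)
    simpa using conj_eq_of_card hc hk h2 (a := g' 6) (b := evalW P (wS 6)) (c := 1) (by simpa [sq] using h1)
      (by simp [wS, sq, mul_assoc, cn i1, cn i0, cn i2, cs c02, i1]) (by simpa [g1] using (P2 _ (by decide +kernel)).symm)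
  have g5 : ∀ i, band (inR ths_C.o ths_C.k i) (lettersLt 7 (ths_rels.get i)) = true →
      evalW P (expandW wS (ths_rels.get i)) = 1 := fun i hi => by
    rw [band_iff] at hi
    rw [evalW_expandW, ← g3 i hi.1]
    refine evalW_congr fun x hx => ?_
    rcases Nat.lt_succ_iff_lt_or_eq.1 ((lettersLt_iff _ _).1 hi.2 x hx) with h | rfl
    exacts [(g2 x h).symm, g4.symm]
  have R1 : evalW P [10, 1, 0, 2, 1, 9, 1, 0, 2, 1, 4] = 1 := g5 12 (by decide +kernel)
  have R2 : evalW P [3, 10, 3, 1, 0, 2, 1, 3, 9, 3, 1, 0, 2, 1, 2, 4, 3, 10, 3, 1, 0, 2, 1, 4, 10] = 1 :=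
    g5 13 (by decide +kernel)
  have R3 : evalW P (powW 8 [1, 2, 3, 4]) = 1 := by
    have e : P 1 * (P 4 * (P 2 * P 1)) * (P 1 * (P 4 * (P 3 * P 4))) = evalW P [1, 2, 3, 4] := by
      simp [mul_assoc, cn i1, ← cs c24, cn i4]
    have h1 := (P2 (powW 8 [1, 2, 3, 4]) (by decide +kernel)).trans rel
    rw [evalW_powW, ← e] at h1 ⊢
    exact pow_dihedral hc hk h2 (by simp [mul_assoc, cn i1, ← cs c24, cn i4, cn i2, i1])
      (by simp [mul_assoc, cs c4, cs c3, cn i1, cn i4, cn i3, i4]) h1
  have R4 : ∀ x y, P y * P x = 1 → P 1 * P x = P x * P 1 → evalW P [y, 1, x, 1] = 1 := fun x y h1 h3 => by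
    simp [cs h3, i1, h1]
  obtain ⟨s, hs⟩ := exists_hom (p := P) fun i => by
    have h := LT.all_get (show (LT.node RH RZ).all (fun w => bor (allL w fun x => band (blt x 11) (!Nat.beq x 1))
      (memW [[1, 1], powW 3 [0, 1], powW 3 [1, 2], powW 2 [1, 3], powW 2 [1, 4], powW 8 [1, 2, 3, 4], [6, 1, 5, 1],
        [8, 1, 7, 1], [10, 1, 2, 0, 1, 9, 1, 0, 2, 1, 4],
        [3, 10, 3, 1, 2, 0, 1, 3, 9, 3, 1, 0, 2, 1, 2, 4, 3, 10, 3, 1, 2, 0, 1, 4, 10]] w)) = true by decide +kernel) i
    rcases (bor_iff _ _).1 h with h | h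
    · exact P4 _ h (relGA i)
    refine (?_ : ∀ w ∈ _, evalW P w = 1) _ (mem_of_memW h)
    simp only [List.forall_mem_cons, List.not_mem_nil, IsEmpty.forall_iff, implies_true, and_true]
    refine ⟨by simpa using i1, dh _ _ _ i0 i1 (by decide +kernel), dh _ _ _ i1 i2 (by decide +kernel),
      dh _ _ _ i1 i3 (by decide +kernel), dh _ _ _ i1 i4 (by decide +kernel), R3,
      R4 _ _ (by simpa using P5 [6, 5] (by decide +kernel)) (cm 5 (by decide) (by decide +kernel)),
      R4 _ _ (by simpa using P5 [8, 7] (by decide +kernel)) (cm 7 (by decide) (by decide +kernel)), ?_, ?_⟩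
    · simpa only [evalW_cons, cs c02] using R1
    · simpa only [evalW_cons, cs c02] using R2
  rw [ker_eq_bot_of_section hπ s (section_of_letters topG s fun x hx => by rw [hs x hx, P1 x hx]), card_bot] at hk
  exact hp.one_lt.ne hk

/-- The Schur multiplier of the Thompson group (the finitely presented group of the definitions) is trivial; here the Schur multiplier is described through stem extensions, as in the definitions: surjective homomorphisms onto the group from a finite group, whose kernel is central in that finite group and contained in that finite group's commutator subgroup. -/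
theorem result : Cfsg.HasCyclicSchurMultiplier Cfsg.Spor.Th 1 := by
  exact cyclic_of_bounds card [(2, 15, 0), (3, 10, 0), (5, 3, 0), (7, 2, 0)] [13, 19, 31] (by decide +kernel)
    (forall_mem_cons' not_two
      (forall_mem_cons' (not_odd Nat.prime_three (by decide) (thc_l3 relC) ths_A3_ok rfl rfl)
      (forall_mem_cons' (not_odd Nat.prime_five (by decide) (thc_l5 relC) ths_A5_ok rfl rfl)
      (forall_mem_cons' (not_odd Nat.prime_seven (by decide) (thc_l7 relC) ths_A7_ok rfl rfl) forall_mem_nil'))))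
    (one_dvd _)

end Cfsg.Agent.S2057
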