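import Mathlib
import Cfsg.Statements.S2087
import Cfsg.Agent.Ch.MultSL2
import Cfsg.Agent.Cl.LinearIso
import Cfsg.Agent.Cl.PSL2Pairs

set_option autoImplicit false
set_option linter.style.haveILetI false
set_option linter.unusedVariables false
open Cfsg

namespace Cfsg.Agent.S2087

/-- Exceptional Schur multiplier: over the field with 2 elements, PSL₃ has Schur multiplier cyclic of order 2 (here the Schur multiplier is described through stem extensions, as in the definitions). -/
theorem result {F : Type*} [Field F] [Fintype F] (hF : Fintype.card F = 2) : Cfsg.HasCyclicSchurMultiplier (Matrix.ProjectiveSpecialLinearGroup (Fin 3) F) 2 := by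
  haveI : Fact (Nat.Prime 7) := ⟨by norm_num⟩
  have h7 : Nat.card (ZMod 7) = 7 := Nat.card_zmod 7
  obtain ⟨e⟩ := Cl.psl2_seven_equiv_psl3_two (F := ZMod 7) (K := F) h7
    (by rwa [Nat.card_eq_fintype_card])
  haveI := Cl.sl_isPerfect (ι := Fin 2) (F := ZMod 7) (Or.inr (Ch.exists_sq_ne_one_of_card (by omega)))
  have h1 := Ch.card_mult_quotient_center (G := Matrix.SpecialLinearGroup (Fin 2) (ZMod 7))
  rw [Cl.L2.card_center_SL, h7, Ch.card_mult_sl2 (by omega) (by omega)] at h1
  refine (Ch.hasCyclicSchurMultiplier_prime_iff_card Nat.prime_two).2 ?_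
  rw [← Ch.card_mult_congr e]
  exact h1

end Cfsg.Agent.S2087
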