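import Mathlib
import Cfsg.Statements.S2094
import Cfsg.Agent.Ch.MultO

set_option autoImplicit false
set_option linter.style.haveILetI false
set_option linter.unusedVariables false
open Cfsg

namespace Cfsg.Agent.S2094

/-- Schur multipliers of the odd-dimensional orthogonal groups: for m ≥ 3 and a field F of odd order q with (m, q) ≠ (3, 3), the Schur multiplier of PΩ_(2m+1)(F) (for the form x₀² + Σ xᵢyᵢ) is cyclic of order 2 = gcd(2, q − 1); here the Schur multiplier is described through stem extensions, as in the definitions. -/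
theorem result {F : Type*} [Field F] [Fintype F] {q : ℕ} (hF : Fintype.card F = q) (hq : Odd q) (m : ℕ) (hm : 3 ≤ m) (hexc : ¬ (m = 3 ∧ q = 3)) : Cfsg.HasCyclicSchurMultiplier (Cfsg.POmega F (Cfsg.quadFormOdd m F)) 2 := by
  subst hF
  have h2 := Cl.o_two_ne_zero_of_odd_card hq
  have hV := Ch.finrank_V0_eq (Ch.frameOdd m h2) Cl.o_finrank_odd
  refine (Ch.hasCyclic_pomega_two (Ch.frameOdd m h2) hm h2 (Ch.card_mult_omega_le (Ch.frameOdd m h2) hm
    (by omega) (fun e => Or.inr ⟨h2, ?_⟩) fun _ e => by rw [e, finrank_bot] at hV; omega).1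
    (Cl.negOne_notMem_commutator_of_odd (Cl.quad_odd_nondeg h2) h2 (by rw [Cl.o_finrank_odd]; exact odd_two_mul_add_one m))).congr
    (Cl.pomegaEquivOG (Cl.quad_odd m F)).symm
  have := Fintype.one_lt_card (α := F)
  rw [Nat.card_eq_fintype_card]
  obtain ⟨k, hk⟩ := hq
  omega

end Cfsg.Agent.S2094
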