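import Cfsg.Statements.S2095
import Cfsg.Agent.Spor.MX.O73Gen

set_option autoImplicit false
open Cfsg

namespace Cfsg.Agent.S2095

open Cfsg.Agent.Spor Cfsg.Agent.Spor.MX

/-- Exceptional Schur multiplier: over the field with 3 elements, PΩ₇ (for the form x₀² + Σ xᵢyᵢ) has Schur multiplier cyclic of order 6 (the product of cyclic groups of orders 3 and 2; here the Schur multiplier is described through stem extensions, as in the definitions). -/
theorem result {F : Type*} [Field F] [Fintype F] (hF : Fintype.card F = 3) : Cfsg.HasCyclicSchurMultiplier (Cfsg.POmega F (Cfsg.quadFormOdd 3 F)) 6 := by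
  obtain ⟨e⟩ := Cl.nonempty_ringEquiv_GF3 F hF
  refine HasSchurMultiplier.congr ?_ (Cl.pomegaMapEquiv e (Cl.quadFormOdd_comp 3 e)).symm
  exact cyclic_top (cyclic_of_bounds o7m_gen.2.2 [(2, 9, 1), (3, 9, 1)] [5, 7, 13] (by decide +kernel)
    (forall_mem_cons' (o7m_gen.not_dvd 2 2 (o73_l4 o7m_gen.2.1) (by decide +kernel))
      (forall_mem_cons' (o7m_gen.not_dvd 3 2 (o73_l9 o7m_gen.2.1) (by decide +kernel))
      forall_mem_nil'))
    (Nat.Coprime.mul_dvd_of_dvd_of_dvd (m := 2) (n := 3) (by norm_num)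
      (o732_cover o7m_gen o7m_comm0) (o733_cover o7m_gen o7m_comm1)))

end Cfsg.Agent.S2095
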