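import Mathlib
import Cfsg.Statements.S2096
import Cfsg.Agent.Ch.MultO

set_option autoImplicit false
set_option linter.style.haveILetI false
set_option linter.unusedVariables false
open Cfsg

namespace Cfsg.Agent.S2096

/-- Schur multipliers of the even-dimensional orthogonal groups of plus type and odd rank: for odd l ≥ 5 and a field F with q elements, the Schur multiplier of PΩ⁺_2l(F) (for the form Σ xᵢyᵢ) is cyclic of order gcd(4, q^l − 1); here the Schur multiplier is described through stem extensions, as in the definitions. -/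
theorem result {F : Type*} [Field F] [Fintype F] {q : ℕ} (hF : Fintype.card F = q) (l : ℕ) (hl : 5 ≤ l) (hodd : Odd l) : Cfsg.HasCyclicSchurMultiplier (Cfsg.POmega F (Cfsg.quadFormPlus l F)) (Nat.gcd 4 (q ^ l - 1)) := by
  subst hF
  have hV := Ch.finrank_V0_eq (n := 0) (Ch.framePlus l F) Cl.o_finrank_plus
  have hm : 3 ≤ l := by omega
  have hM := Ch.card_mult_omega_le (Ch.framePlus l F) hm (by omega) (by omega) (by omega)
  have h0 : 0 < Fintype.card F ^ l := by positivity
  refine HasSchurMultiplier.congr ?_ (Cl.pomegaEquivOG (Cl.quad_plus l F)).symm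
  by_cases h2 : (2 : F) = 0
  · refine Ch.hasSchurMultiplier_pomega_char_two (Ch.framePlus l F) hm h2 (hM.2 h2) ?_
    obtain ⟨k, hk⟩ := (Nat.even_pow.2 ⟨Ch.even_card_of_two_eq_zero h2, (by omega : l ≠ 0)⟩)
    rw [Ch.card_multiplicative_zmod]
    exact Nat.Coprime.pow_left 2 ((Nat.coprime_two_left).2 ⟨k - 1, by omega⟩)
  obtain ⟨k, hk⟩ := (Cl.o_odd_card_of_two_ne_zero h2).pow (n := l)
  by_cases h : Fintype.card F ^ l % 4 = 1
  · rw [Nat.gcd_eq_left (by omega : 4 ∣ Fintype.card F ^ l - 1)]
    exact Ch.hasCyclic_pomega_four (Ch.framePlus l F) hm h2 hM.1 ((Cl.negOne_mem_commutator_plus_iff h2 l).2 h)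
      Cl.o_finrank_plus hodd
  · rw [Nat.gcd_rec, show (Fintype.card F ^ l - 1) % 4 = 2 by omega]
    exact Ch.hasCyclic_pomega_two (Ch.framePlus l F) hm h2 hM.1 (mt (Cl.negOne_mem_commutator_plus_iff h2 l).1 h)

end Cfsg.Agent.S2096
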