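import Mathlib
import Cfsg.Statements.S2097
import Cfsg.Agent.Ch.MultO

set_option autoImplicit false
set_option linter.style.haveILetI false
set_option linter.unusedVariables false
open Cfsg

namespace Cfsg.Agent.S2097

/-- Schur multipliers of the even-dimensional orthogonal groups of plus type and even rank: for even l ≥ 4 and a field F with q elements, (l, q) ≠ (4, 2), the Schur multiplier of PΩ⁺_2l(F) (for the form Σ xᵢyᵢ) is the product of two cyclic groups of order gcd(2, q^l − 1) (so trivial for q even and a four-group for q odd; here the Schur multiplier is described through stem extensions, as in the definitions). -/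
theorem result {F : Type*} [Field F] [Fintype F] {q : ℕ} (hF : Fintype.card F = q) (l : ℕ) (hl : 4 ≤ l) (heven : Even l) (hexc : ¬ (l = 4 ∧ q = 2)) : Cfsg.HasSchurMultiplier (Cfsg.POmega F (Cfsg.quadFormPlus l F)) (Multiplicative (ZMod (Nat.gcd 2 (q ^ l - 1)) × ZMod (Nat.gcd 2 (q ^ l - 1)))) := by
  subst hF
  have hV := Ch.finrank_V0_eq (n := 0) (Ch.framePlus l F) Cl.o_finrank_plus
  have hm : 3 ≤ l := by omega
  have hM := Ch.card_mult_omega_le (Ch.framePlus l F) hm (by omega) (by omega)
    (fun e _ => by rw [Nat.card_eq_fintype_card]; omega)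
  have h0 : 0 < Fintype.card F ^ l := by positivity
  refine HasSchurMultiplier.congr ?_ (Cl.pomegaEquivOG (Cl.quad_plus l F)).symm
  by_cases h2 : (2 : F) = 0
  · refine Ch.hasSchurMultiplier_pomega_char_two (Ch.framePlus l F) hm h2 (hM.2 h2) ?_
    obtain ⟨k, hk⟩ := (Nat.even_pow.2 ⟨Ch.even_card_of_two_eq_zero h2, (by omega : l ≠ 0)⟩)
    rw [((Nat.coprime_two_left).2 ⟨k - 1, by omega⟩ : Nat.gcd 2 (Fintype.card F ^ l - 1) = 1)]
    simp
  obtain ⟨k, hk⟩ := (Cl.o_odd_card_of_two_ne_zero h2).pow (n := l)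
  rw [Nat.gcd_eq_left (by omega : 2 ∣ Fintype.card F ^ l - 1)]
  exact Ch.has_pomega_klein (Ch.framePlus l F) hm h2 hM.1 ((Cl.negOne_mem_commutator_plus_iff h2 l).2
    ((Cl.quad_pow_mod_four (Cl.o_odd_card_of_two_ne_zero h2) l).2.2 fun h =>
      Nat.not_odd_iff_even.2 heven h.1)) Cl.o_finrank_plus heven

end Cfsg.Agent.S2097
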