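import Cfsg.Statements.S2104
import Cfsg.Agent.Spor.MX.F42Gen
import Cfsg.Agent.Spor.MX.F42Cov

set_option autoImplicit false
open Cfsg

namespace Cfsg.Agent.S2104

open Cfsg.Agent.Spor Cfsg.Agent.Spor.MX

theorem field_congr (D : Lie.ChevalleyDatum) {F K : Type*} [Field F] [Field K] (e : F ≃+* K) {n : ℕ}
    (h : HasCyclicSchurMultiplier (D.group K) n) : HasCyclicSchurMultiplier (D.group F) n :=
  HasSchurMultiplier.congr h (Chev.fieldEquiv D e).symm

/-- Exceptional Schur multiplier: over the field with 2 elements the Chevalley group of type F₄ has Schur multiplier cyclic of order 2 (here the Schur multiplier is described through stem extensions, as in the definitions). -/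
theorem result {F : Type*} [Field F] [Fintype F] (hF : Fintype.card F = 2) : Cfsg.HasCyclicSchurMultiplier ↥(Cfsg.Lie.chevF4.group F) 2 := by
  obtain ⟨e⟩ : Nonempty (F ≃+* ZMod 2) := ⟨(ZMod.ringEquivOfPrime F Nat.prime_two hF).symm⟩
  refine field_congr Lie.chevF4 e ?_
  exact cyclic_top (cyclic_of_bounds f4m_gen.2.2 [(2, 24, 1), (3, 6, 0), (5, 2, 0), (7, 2, 0)] [13, 17] (by decide +kernel)
    (forall_mem_cons' (f4m_gen.not_dvd 2 2 (f42_l4 f4m_gen.2.1) (by decide +kernel))
      (forall_mem_cons' (f4m_gen.not_dvd 3 1 (f42_l3 f4m_gen.2.1) (by decide +kernel))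
      (forall_mem_cons' (f4m_gen.not_dvd 5 1 (f42_l5 f4m_gen.2.1) (by decide +kernel))
      (forall_mem_cons' (f4m_gen.not_dvd 7 1 (f42_l7 f4m_gen.2.1) (by decide +kernel))
      forall_mem_nil'))))
    (f422_cover f4m_gen ((f4m_link.words f4m_w).commute f4m_c0)))

end Cfsg.Agent.S2104
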