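import Mathlib
import Cfsg.Statements.S2106
import Cfsg.Agent.Chev.StEmb
import Cfsg.Agent.Chev.StData2
-- import your own Cfsg.Agent.* helpers here

set_option autoImplicit false
open Cfsg

namespace Cfsg.Agent.S2106

/-- Schur multipliers of the (adjoint, simple) Chevalley groups of type E₇: over a field with q elements the Schur multiplier is cyclic of order gcd(2, q − 1) (here the Schur multiplier is described through stem extensions, as in the definitions). -/
theorem result {F : Type*} [Field F] [Fintype F] {q : ℕ} (hF : Fintype.card F = q) : Cfsg.HasCyclicSchurMultiplier ↥(Cfsg.Lie.chevE7.group F) (Nat.gcd 2 (q - 1)) := by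
  subst hF
  have h := Cfsg.Agent.Chev.cyclic_card_of_equiv F (Cfsg.Agent.Chev.center_equiv_E7 F)
  exact (Cfsg.Agent.Chev.liftableE7 F).hasCyclicSchurMultiplier
    (Cfsg.Agent.Chev.commutator_st (by simp) fun h =>
      absurd h (Cfsg.Agent.Chev.not_mem_B2_G2 (by decide))) h.1 h.2

end Cfsg.Agent.S2106
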