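import Cfsg.Statements.S2115
import Cfsg.Agent.Spor.MX.TitsGen

set_option autoImplicit false
open Cfsg

namespace Cfsg.Agent.S2115

open Cfsg.Agent.Spor Cfsg.Agent.Spor.MX

/-- The Tits group, the commutator subgroup of ²F₄(2), has trivial Schur multiplier (here the Schur multiplier is described through stem extensions, as in the definitions). -/
theorem result : Cfsg.HasCyclicSchurMultiplier Cfsg.Lie.TitsGroup 1 := by
  change HasCyclicSchurMultiplier (commutator (Cfsg.Lie.twistedF4 (ZMod 2) 1)) 1
  rw [Chev.F4T.twistedF4_two]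
  exact cyclic_of_bounds titsm_gen.2.2 [(2, 11, 0), (3, 3, 0), (5, 2, 0)] [13] (by decide +kernel)
    (forall_mem_cons' (titsm_gen.not_dvd 2 1 ((tits_l4 titsm_gen.2.1).of_dvd (by decide)) (by decide +kernel))
      (forall_mem_cons' (titsm_gen.not_dvd 3 1 (tits_l3 titsm_gen.2.1) (by decide +kernel))
      (forall_mem_cons' (titsm_gen.not_dvd 5 1 (tits_l5 titsm_gen.2.1) (by decide +kernel))
      forall_mem_nil')))
    (one_dvd _)

end Cfsg.Agent.S2115
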