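import Mathlib
import Cfsg.Statements.S2141
import Cfsg.Agent.Cl.MinIdxSpD

set_option autoImplicit false
open Cfsg

namespace Cfsg.Agent.S2141

open Cl Cl.MI

/-- Minimal index of a proper subgroup of the symplectic groups over fields with at least 3 elements: for m ≥ 2 and a field F with q ≥ 3 elements, (m, q) ≠ (2, 3), every proper subgroup of PSp_2m(F) has index at least (q^(2m) − 1)/(q − 1), and that index is attained. -/
theorem result {F : Type*} [Field F] [Fintype F] {q : ℕ} (hF : Fintype.card F = q) (m : ℕ) (hm : 2 ≤ m) (hq : 3 ≤ q) (hexc : ¬ (m = 2 ∧ q = 3)) : (∀ H : Subgroup (Cfsg.PSp m F), H ≠ ⊤ → (q ^ (2 * m) - 1) / (q - 1) ≤ H.index) ∧ (∃ H : Subgroup (Cfsg.PSp m F), H.index = (q ^ (2 * m) - 1) / (q - 1)) := by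
  have hq' : Nat.card F = q := by rw [Nat.card_eq_fintype_card, hF]
  have hV : Nat.card (Fin m ⊕ Fin m → F) = q ^ (2 * m) := by
    rw [Module.natCard_eq_pow_finrank (K := F), sp_finrank_std, hq']
  have : Nonempty (Fin m) := ⟨⟨0, by omega⟩⟩
  obtain ⟨x, hx⟩ := exists_ne (0 : Fin m ⊕ Fin m → F)
  refine quot_min_index _ (fun H _ hH => Nat.div_le_of_le_mul ?_)
    ((pst F _ x).comap (spStdEquiv m F).toMonoidHom) (fun g hg => ?_) ?_
  · have := sp_index (H := H.comap (spStdEquiv m F).symm.toMonoidHom) spB_nondegenerate spB_isAlt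
      (by omega) (by rw [sp_finrank_std]; omega) (by rw [sp_finrank_std]; omega) fun e =>
        hH (eq_top_iff.2 fun g _ => (spStdEquiv m F).symm_apply_apply g ▸
          (e ▸ Subgroup.mem_top _ : spStdEquiv m F g ∈ H.comap (spStdEquiv m F).symm.toMonoidHom))
    rwa [H.index_comap_of_surjective (spStdEquiv m F).symm.surjective, hV, hq',
      mul_comm H.index] at this
  · have h1 : spStdEquiv m F g ∈ Subgroup.center _ := Subgroup.mem_center_iff.2 fun k => by
      obtain ⟨k, rfl⟩ := (spStdEquiv m F).surjective k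
      rw [← map_mul, ← map_mul, Subgroup.mem_center_iff.1 hg]
    rcases (sp_mem_center_iff spB_nondegenerate spB_isAlt _).1 h1 with h | h
    · exact Subgroup.mem_comap.2 (mem_pst_of_eq hx (a := 1) (by simp [h]))
    · exact Subgroup.mem_comap.2 (mem_pst_of_eq hx (a := -1) (by simp [h, spG_smul]))
  · have h1 := index_pst (F := F) (G := SpG (spB m F)) hx
    have h4 : corb F (⊤ : Subgroup (SpG (spB m F))) x = {0}ᶜ := by
      ext y
      constructor
      · rintro ⟨g, -, a, ha, rfl⟩
        exact smul_ne_zero ha ((smul_ne_zero_iff_ne g).2 hx)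
      · intro hy
        obtain ⟨g, hg, e⟩ := sp_transitive spB_nondegenerate spB_isAlt hx hy
        exact ⟨⟨g, hg⟩, trivial, 1, one_ne_zero, by rw [one_smul]; exact e.symm⟩
    rw [h4, Set.ncard_compl, Set.ncard_singleton, hV, hq'] at h1
    rw [Subgroup.index_comap_of_surjective _ (spStdEquiv m F).surjective, ← h1,
      Nat.mul_div_cancel _ (by omega)]

end Cfsg.Agent.S2141
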