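import Mathlib
import Cfsg.Statements.S2142
import Cfsg.Agent.Cl.MinIdxSpE

set_option autoImplicit false
open Cfsg

namespace Cfsg.Agent.S2142

open Cl Cl.MI

/-- Minimal index of a proper subgroup of the symplectic groups over the field with 2 elements: for m ≥ 3, every proper subgroup of Sp_2m(2) has index at least 2^(m−1)(2^m − 1), and that index is attained. -/
theorem result {F : Type*} [Field F] [Fintype F] (hF : Fintype.card F = 2) (m : ℕ) (hm : 3 ≤ m) : (∀ H : Subgroup (Cfsg.PSp m F), H ≠ ⊤ → 2 ^ (m - 1) * (2 ^ m - 1) ≤ H.index) ∧ (∃ H : Subgroup (Cfsg.PSp m F), H.index = 2 ^ (m - 1) * (2 ^ m - 1)) := by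
  have hq : Nat.card F = 2 := by rw [Nat.card_eq_fintype_card, hF]
  have h := two_cases hq
  have h2 := two_eq_zero_of h
  have hV : Nat.card (Fin m ⊕ Fin m → F) = (2 ^ m) ^ 2 := by
    rw [Module.natCard_eq_pow_finrank (K := F), sp_finrank_std, hq, ← pow_mul, mul_comm]
  obtain ⟨k, rfl⟩ := Nat.exists_eq_add_of_le' (show 1 ≤ m by omega)
  have e0 : 2 * (2 ^ (k + 1 - 1) * (2 ^ (k + 1) - 1)) + 2 ^ (k + 1) = (2 ^ (k + 1)) ^ 2 := by
    rw [Nat.add_sub_cancel, ← mul_assoc, ← pow_succ', ← mul_add_one,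
      Nat.sub_add_cancel Nat.one_le_two_pow, sq]
  obtain ⟨Q, hQ, hs⟩ : ∃ Q : (Fin (k + 1) ⊕ Fin (k + 1) → F) → F,
      (∀ u v, Q (u + v) = Q u + Q v + spB (k + 1) F u v) ∧ ∑ v, sg (Q v) = -2 ^ (k + 1) := by
    let Q : (Fin (k + 1) ⊕ Fin (k + 1) → F) → F := fun v => ∑ i, v (Sum.inl i) * v (Sum.inr i)
    have hQ : ∀ u v, Q (u + v) = Q u + Q v + spB (k + 1) F u v := fun u v => by
      simp only [Q, spB_eq_sum, ← Finset.sum_add_distrib, Pi.add_apply]
      exact Finset.sum_congr rfl fun i _ => by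
        linear_combination (u (Sum.inl i) * v (Sum.inr i)) * h2
    have h1 := sum_sg_sq h hQ spB_nondegenerate
    rw [hV] at h1
    push_cast at h1
    rcases sq_eq_sq_iff_eq_or_eq_neg.1 h1 with e | e
    · let z : Fin (k + 1) ⊕ Fin (k + 1) → F := Pi.single (Sum.inl 0) 1 + Pi.single (Sum.inr 0) 1
      refine ⟨fun v => Q v + spB _ F v z, fun u v => by
        beta_reduce; rw [hQ, map_add (spB _ F), LinearMap.add_apply]; ring, ?_⟩
      rw [sum_sg_shift h hQ, e]
      simp [Q, z, sg, Pi.single_apply]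
    · exact ⟨Q, hQ, e⟩
  refine quot_min_index _ (fun H _ hH => ?_)
    ((OQ _ Q).comap (spStdEquiv _ F).toMonoidHom) (fun g hg => ?_) ?_
  · have := sp_index_two (H := H.comap (spStdEquiv _ F).symm.toMonoidHom) spB_nondegenerate
      (by rw [sp_finrank_std]; omega) spB_isAlt hq hV fun e =>
        hH (eq_top_iff.2 fun g _ => (spStdEquiv _ F).symm_apply_apply g ▸
          (e ▸ Subgroup.mem_top _ : spStdEquiv _ F g ∈ H.comap (spStdEquiv _ F).symm.toMonoidHom))
    rw [H.index_comap_of_surjective (spStdEquiv _ F).symm.surjective] at this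
    omega
  · have h1 : spStdEquiv _ F g ∈ Subgroup.center _ := Subgroup.mem_center_iff.2 fun k => by
      obtain ⟨k, rfl⟩ := (spStdEquiv _ F).surjective k
      rw [← map_mul, ← map_mul, Subgroup.mem_center_iff.1 hg]
    rcases (sp_mem_center_iff spB_nondegenerate spB_isAlt _).1 h1 with h | h
    · exact Subgroup.mem_comap.2 (by simp [h])
    · exact Subgroup.mem_comap.2 (by simp [h, spNeg_eq_one_iff.2 h2])
  · have h1 := two_mul_zeros (Q := Q)
    rw [← index_OQ h hQ spB_isAlt spB_nondegenerate, hs, hV, ← e0] at h1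
    rw [Subgroup.index_comap_of_surjective _ (spStdEquiv _ F).surjective]
    generalize 2 ^ (k + 1 - 1) * (2 ^ (k + 1) - 1) = n at h1
    push_cast at h1
    zify
    linarith

end Cfsg.Agent.S2142
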