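import Mathlib
import Cfsg.Statements.S2143
import Cfsg.Agent.Cl.OrthMinH

set_option autoImplicit false
open Cfsg

namespace Cfsg.Agent.S2143

open Cfsg.Agent.Cl

/-- Minimal index of a proper subgroup of the odd-dimensional orthogonal groups: for m ≥ 3 and a field F with q elements, q odd and q ≥ 5, every proper subgroup of PΩ_(2m+1)(F) (for the form x₀² + Σ xᵢyᵢ) has index at least (q^(2m) − 1)/(q − 1), and that index is attained. -/
theorem result {F : Type*} [Field F] [Fintype F] {q : ℕ} (hF : Fintype.card F = q) (hodd : Odd q) (h5 : 5 ≤ q) (m : ℕ) (hm : 3 ≤ m) : (∀ H : Subgroup (Cfsg.POmega F (Cfsg.quadFormOdd m F)), H ≠ ⊤ → (q ^ (2 * m) - 1) / (q - 1) ≤ H.index) ∧ (∃ H : Subgroup (Cfsg.POmega F (Cfsg.quadFormOdd m F)), H.index = (q ^ (2 * m) - 1) / (q - 1)) := by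
  obtain ⟨j, rfl⟩ := Nat.exists_eq_add_of_le' hm
  obtain ⟨r, rfl⟩ : ∃ r, q = r + 1 := ⟨q - 1, by omega⟩
  have h2 := o_two_ne_zero_of_odd_card (hF ▸ hodd)
  have hq : Nat.card F = r + 1 := Nat.card_eq_fintype_card.trans hF
  obtain ⟨N, hN⟩ : r ∣ (r + 1) ^ (2 * (j + 3)) - 1 := by
    simpa using Nat.sub_dvd_pow_sub_pow (r + 1) 1 (2 * (j + 3))
  have h1 : 1 ≤ (r + 1) ^ (2 * (j + 3)) := Nat.one_le_pow _ _ (by omega)
  rw [hN, Nat.add_sub_cancel, Nat.mul_div_cancel_left _ (by omega)]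
  obtain ⟨e, he⟩ := exists_odd_eq_oH (F := F) (j + 2)
  obtain ⟨h3, h4⟩ := ominH_odd (τ := N) (N₀ := N) h2 hq (j := j) rfl
    (by rw [← hN, Nat.sub_add_cancel h1]; ring)
  exact pomega_min_index (quad_odd (j + 3) F) e he
    (o_prod_nondeg quad_plus_nondeg (osq_nondeg h2)) (by simp; omega) (h4 le_rfl (by omega))
    oe_ne_zero (by rw [h3, hq, Nat.add_sub_cancel, mul_comm])

end Cfsg.Agent.S2143
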