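import Mathlib
import Cfsg.Statements.S2144
import Cfsg.Agent.Cl.OrthMinH

set_option autoImplicit false
open Cfsg

namespace Cfsg.Agent.S2144

open Cfsg.Agent.Cl

/-- Minimal index of a proper subgroup of the odd-dimensional orthogonal groups over the field with 3 elements: for m ≥ 3, every proper subgroup of PΩ_(2m+1)(3) (for the form x₀² + Σ xᵢyᵢ) has index at least 3^m(3^m − 1)/2, and that index is attained. -/
theorem result {F : Type*} [Field F] [Fintype F] (hF : Fintype.card F = 3) (m : ℕ) (hm : 3 ≤ m) : (∀ H : Subgroup (Cfsg.POmega F (Cfsg.quadFormOdd m F)), H ≠ ⊤ → 3 ^ m * (3 ^ m - 1) / 2 ≤ H.index) ∧ (∃ H : Subgroup (Cfsg.POmega F (Cfsg.quadFormOdd m F)), H.index = 3 ^ m * (3 ^ m - 1) / 2) := by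
  obtain ⟨j, rfl⟩ := Nat.exists_eq_add_of_le' hm
  have h2 : (2 : F) ≠ 0 := o_two_ne_zero_of_odd_card (hF ▸ by decide)
  have hq : Nat.card F = 2 + 1 := Nat.card_eq_fintype_card.trans hF
  obtain ⟨t, ht⟩ : Odd (3 ^ j) := Odd.pow (by decide)
  have h1 : 3 ^ (j + 3) * (3 ^ (j + 3) - 1) / 2 = 27 * (2 * t + 1) * (27 * t + 13) := by
    rw [pow_add, ht, show (2 * t + 1) * 3 ^ 3 - 1 = 2 * (27 * t + 13) by omega,
      mul_left_comm, Nat.mul_div_cancel_left _ two_pos]
    ring
  rw [h1]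
  obtain ⟨e, he⟩ := exists_odd_eq_oH (F := F) (j + 2)
  obtain ⟨-, h4⟩ := ominH_odd (τ := 27 * (2 * t + 1) * (27 * t + 13))
    (N₀ := 1458 * t ^ 2 + 1458 * t + 364) h2 hq (j := j) ht (by ring)
  have h5 : oH ((quad_plus (j + 2) F).prod (QuadraticMap.sq (R := F) (A := F)))
      ((1, -1), 0) = -1 := by simp
  refine pomega_min_index (quad_odd (j + 3) F) e he
    (o_prod_nondeg quad_plus_nondeg (osq_nondeg h2)) (by simp; omega)
    (h4 (by ring_nf; omega) fun _ => by ring_nf; omega) (a := ((1, -1), 0)) (by simp) ?_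
  have h6 : ocnt (QuadraticMap.sq (R := F) (A := F)) (-1) = 0 := by
    refine Nat.card_eq_zero.2 (.inl ⟨fun ⟨v, hv⟩ => ?_⟩)
    have hv0 : v ≠ 0 := by rintro rfl; simp at hv
    have := FiniteField.pow_card_sub_one_eq_one v hv0
    rw [hF] at this
    rw [QuadraticMap.sq_apply] at hv
    exact h2 (by linear_combination hv - this)
  have h7 := ocnt_odd (F := F) (j + 2) (-1)
  rw [ncard_ocls_of_card_le_three hq.le (by rw [h5]; simp), h5, ocnt_oH,
    Module.natCard_eq_pow_finrank (K := F) (V := _ × F), Module.finrank_prod, o_finrank_plus,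
    Module.finrank_self, hq]
  rw [h6, hq] at h7
  rw [show 2 * (j + 2) + 1 = j * 2 + 5 by ring, pow_add, pow_mul]
  rw [show 2 * (j + 2) = j * 2 + 4 by ring, pow_add, pow_add, pow_mul] at h7
  norm_num at h7 ⊢
  rw [ht] at h7 ⊢
  nlinarith

end Cfsg.Agent.S2144
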