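import Mathlib
import Cfsg.Statements.S2145
import Cfsg.Agent.Cl.OrthMinH

set_option autoImplicit false
open Cfsg

namespace Cfsg.Agent.S2145

open Cfsg.Agent.Cl

/-- Minimal index of a proper subgroup of the even-dimensional orthogonal groups of plus type: for m ≥ 4 and a field F with q ≥ 4 elements, every proper subgroup of PΩ⁺_2m(F) (for the form Σ xᵢyᵢ) has index at least (q^m − 1)(q^(m−1) + 1)/(q − 1), and that index is attained (the singular points). -/
theorem result {F : Type*} [Field F] [Fintype F] {q : ℕ} (hF : Fintype.card F = q) (hq : 4 ≤ q) (m : ℕ) (hm : 4 ≤ m) : (∀ H : Subgroup (Cfsg.POmega F (Cfsg.quadFormPlus m F)), H ≠ ⊤ → (q ^ m - 1) * (q ^ (m - 1) + 1) / (q - 1) ≤ H.index) ∧ (∃ H : Subgroup (Cfsg.POmega F (Cfsg.quadFormPlus m F)), H.index = (q ^ m - 1) * (q ^ (m - 1) + 1) / (q - 1)) := by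
  obtain ⟨j, rfl⟩ := Nat.exists_eq_add_of_le' hm
  obtain ⟨r, rfl⟩ : ∃ r, q = r + 1 := ⟨q - 1, by omega⟩
  have hq' : Nat.card F = r + 1 := Nat.card_eq_fintype_card.trans hF
  obtain ⟨N, hN⟩ : r ∣ (r + 1) ^ (j + 4) - 1 := by
    simpa using Nat.sub_dvd_pow_sub_pow (r + 1) 1 (j + 4)
  have h1 : 1 ≤ (r + 1) ^ (j + 4) := Nat.one_le_pow _ _ (by omega)
  rw [hN, Nat.add_sub_cancel, mul_assoc, Nat.mul_div_cancel_left _ (by omega)]
  obtain ⟨h3, h4⟩ := ominH_plus (τ := N * ((r + 1) ^ (j + 4 - 1) + 1))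
    (N₀ := N * ((r + 1) ^ (j + 4 - 1) + 1)) hq' (j := j) rfl (by
      rw [← mul_assoc, ← hN, show j + 4 - 1 = j + 3 from rfl]
      zify [h1]
      ring)
  exact pomega_min_index (quad_plus (j + 4) F) (oplusSucc F (j + 3)) (oplusSucc_form _)
    quad_plus_nondeg (by simp; omega) (h4 le_rfl (by omega))
    oe_ne_zero (by rw [h3, hq', Nat.add_sub_cancel, mul_comm])

end Cfsg.Agent.S2145
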