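import Mathlib
import Cfsg.Statements.S2146
import Cfsg.Agent.Cl.OrthMinH

set_option autoImplicit false
open Cfsg

namespace Cfsg.Agent.S2146

open Cfsg.Agent.Cl

/-- Minimal index of a proper subgroup of the even-dimensional orthogonal groups of plus type over the field with 2 elements: for m ≥ 4, every proper subgroup of Ω⁺_2m(2) (for the form Σ xᵢyᵢ) has index at least 2^(m−1)(2^m − 1), and that index is attained. -/
theorem result {F : Type*} [Field F] [Fintype F] (hF : Fintype.card F = 2) (m : ℕ) (hm : 4 ≤ m) : (∀ H : Subgroup (Cfsg.POmega F (Cfsg.quadFormPlus m F)), H ≠ ⊤ → 2 ^ (m - 1) * (2 ^ m - 1) ≤ H.index) ∧ (∃ H : Subgroup (Cfsg.POmega F (Cfsg.quadFormPlus m F)), H.index = 2 ^ (m - 1) * (2 ^ m - 1)) := by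
  obtain ⟨j, rfl⟩ := Nat.exists_eq_add_of_le' hm
  have hq : Nat.card F = 1 + 1 := Nat.card_eq_fintype_card.trans hF
  obtain ⟨t, ht⟩ : ∃ t, 2 ^ j = t + 1 := Nat.exists_eq_add_one.2 (by positivity)
  have h1 : 2 ^ (j + 4 - 1) * (2 ^ (j + 4) - 1) = 8 * (t + 1) * (16 * t + 15) := by
    rw [show j + 4 - 1 = j + 3 from rfl, pow_add, pow_add, ht,
      show (t + 1) * 2 ^ 4 - 1 = 16 * t + 15 by omega]
    ring
  rw [h1]
  obtain ⟨-, h4⟩ := ominH_plus (τ := 8 * (t + 1) * (16 * t + 15))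
    (N₀ := (16 * t + 15) * (8 * t + 9)) hq (j := j) ht (by ring)
  have h5 : oH (quad_plus (j + 3) F) ((1, 1), 0) = 1 := by simp
  refine pomega_min_index (quad_plus (j + 4) F) (oplusSucc F (j + 3)) (oplusSucc_form _)
    quad_plus_nondeg (by simp; omega) (h4 (by ring_nf; omega) fun _ => ⟨rfl, by ring_nf; omega⟩)
    (a := ((1, 1), 0)) (by simp) ?_
  have h7 := ocnt_plus (F := F) (j + 2) one_ne_zero
  rw [ncard_ocls_of_card_le_three (by omega) (by rw [h5]; simp), h5, ocnt_oH,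
    Module.natCard_eq_pow_finrank (K := F) (V := _ → F), o_finrank_plus, hq]
  rw [hq] at h7
  rw [show 2 * (j + 3) = j * 2 + 6 by ring, pow_add, pow_mul]
  rw [show 2 * (j + 2) + 1 = j * 2 + 5 by ring, pow_add, pow_add, pow_mul] at h7
  norm_num at h7 ⊢
  rw [ht] at h7 ⊢
  change _ = _ + 2 * ocnt (quad_plus (j + 2 + 1) F) 1
  nlinarith

end Cfsg.Agent.S2146
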