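import Mathlib
import Cfsg.Statements.S2147
import Cfsg.Agent.Cl.OrthMinH

set_option autoImplicit false
open Cfsg

namespace Cfsg.Agent.S2147

open Cfsg.Agent.Cl

/-- Minimal index of a proper subgroup of the even-dimensional orthogonal groups of minus type: for m ≥ 4 and a field F with q elements, every proper subgroup of PΩ⁻_2m(F) (for the form Σ_{i<m−1} xᵢyᵢ + z₁² + a z₁z₂ + b z₂² with anisotropic binary part) has index at least (q^m + 1)(q^(m−1) − 1)/(q − 1), and that index is attained. -/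
theorem result {F : Type*} [Field F] [Fintype F] {q : ℕ} (hF : Fintype.card F = q) (m : ℕ) (hm : 4 ≤ m) (a b : F) (hab : ∀ z₁ z₂ : F, z₁ ^ 2 + a * z₁ * z₂ + b * z₂ ^ 2 = 0 → z₁ = 0 ∧ z₂ = 0) : (∀ H : Subgroup (Cfsg.POmega F (Cfsg.quadFormMinus (m - 1) F a b)), H ≠ ⊤ → (q ^ m + 1) * (q ^ (m - 1) - 1) / (q - 1) ≤ H.index) ∧ (∃ H : Subgroup (Cfsg.POmega F (Cfsg.quadFormMinus (m - 1) F a b)), H.index = (q ^ m + 1) * (q ^ (m - 1) - 1) / (q - 1)) := by
  obtain ⟨j, rfl⟩ := Nat.exists_eq_add_of_le' hm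
  have hq1 : 1 < q := hF ▸ Fintype.one_lt_card
  obtain ⟨r, rfl⟩ : ∃ r, q = r + 1 := ⟨q - 1, by omega⟩
  have hq' : Nat.card F = r + 1 := Nat.card_eq_fintype_card.trans hF
  obtain ⟨N, hN⟩ : r ∣ (r + 1) ^ (j + 4 - 1) - 1 := by
    simpa using Nat.sub_dvd_pow_sub_pow (r + 1) 1 (j + 4 - 1)
  have h1 : 1 ≤ (r + 1) ^ (j + 4 - 1) := Nat.one_le_pow _ _ (by omega)
  rw [hN, Nat.add_sub_cancel, mul_left_comm, Nat.mul_div_cancel_left _ (by omega)]
  obtain ⟨h3, h4⟩ := ominH_minus hab (N₀ := ((r + 1) ^ (j + 4) + 1) * N) hq' (j := j) rfl (by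
      rw [mul_left_comm, ← hN]
      zify [h1]
      rw [show j + 4 - 1 = j + 3 from rfl]
      ring)
  obtain ⟨e, he⟩ := exists_minus_eq_oH (j + 2) a b
  exact pomega_min_index (quad_minus (j + 3) F a b) e he
    (o_prod_nondeg quad_plus_nondeg (obin_nondeg (o_disc_ne_zero_of_anisotropic hab)))
    (by simp; omega) h4 oe_ne_zero (by rw [h3, hq', Nat.add_sub_cancel, mul_comm])

end Cfsg.Agent.S2147
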