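import Mathlib
import Cfsg.Statements.S2151
import Cfsg.Agent.Cl.MinIdxUC

set_option autoImplicit false
open Cfsg

namespace Cfsg.Agent.S2151
open Cl Cl.MI.U

/-- Minimal index of a proper subgroup of the unitary groups of odd dimension n ≥ 5: for a field F with q² elements, every proper subgroup of PSU_n(q) has index at least (q^n + 1)(q^(n−1) − 1)/(q² − 1), and that index is attained. -/
theorem result {F : Type*} [Field F] [Fintype F] (q : ℕ) (hF : Fintype.card F = q ^ 2) (hq : 2 ≤ q) (n : ℕ) (hn : 5 ≤ n) (hodd : Odd n) : (∀ H : Subgroup (Cfsg.PSU n F q), H ≠ ⊤ → (q ^ n + 1) * (q ^ (n - 1) - 1) / (q ^ 2 - 1) ≤ H.index) ∧ (∃ H : Subgroup (Cfsg.PSU n F q), H.index = (q ^ n + 1) * (q ^ (n - 1) - 1) / (q ^ 2 - 1)) := by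
  have hu := uField_uConj hF
  have h0 : 0 < q ^ 2 - 1 := Nat.sub_pos_of_lt (by nlinarith)
  have h1 : uIsoNum q n = (q ^ n + 1) * (q ^ (n - 1) - 1) := if_neg (Nat.not_even_iff_odd.2 hodd)
  refine ⟨psu_lower hu (by omega) fun H hH _ h => Nat.div_le_of_le_mul ?_,
    psu_iso hu (by omega) ?_⟩
  · have h2 := su_index (hu.isHerm_uStd (Fin n)) hu hH (by simpa) h
    rw [Module.finrank_fin_fun, h1, uUnitNum, if_neg (Nat.not_even_iff_odd.2 hodd)] at h2
    rw [mul_comm (q ^ 2 - 1)]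
    refine h2.elim id fun h2 => ?_
    rw [← one_pow 2, Nat.sq_sub_sq, ← mul_assoc]
    refine le_trans ?_ ((Nat.le_mul_of_pos_right _ (show 0 < q - 1 by omega)).trans'  h2)
    rw [mul_comm]
    exact Nat.mul_le_mul_right _ (Nat.sub_le _ _)
  · obtain ⟨k, rfl⟩ := hodd
    rw [h1, Nat.div_mul_cancel (Dvd.dvd.mul_left ?_ _)]
    simpa [pow_mul] using Nat.sub_dvd_pow_sub_pow (q ^ 2) 1 k

end Cfsg.Agent.S2151
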