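import Mathlib
import Cfsg.Statements.S2153
import Cfsg.Agent.Cl.MinIdxUC

set_option autoImplicit false
open Cfsg

namespace Cfsg.Agent.S2153
open Cl Cl.MI.U

/-- Minimal index of a proper subgroup of the unitary groups PSU_n(2) with n divisible by 6, realised over the field with 4 elements: every proper subgroup has index at least 2^(n−1)(2^n − 1)/3, and that index is attained. -/
theorem result {F : Type*} [Field F] [Fintype F] (hF : Fintype.card F = 4) (n : ℕ) (hn : 6 ∣ n) (hpos : 6 ≤ n) : (∀ H : Subgroup (Cfsg.PSU n F 2), H ≠ ⊤ → 2 ^ (n - 1) * (2 ^ n - 1) / 3 ≤ H.index) ∧ (∃ H : Subgroup (Cfsg.PSU n F 2), H.index = 2 ^ (n - 1) * (2 ^ n - 1) / 3) := by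
  have hu := uField_uConj (q := 2) hF
  have heven : Even n := even_iff_two_dvd.2 (Dvd.dvd.trans (by norm_num) hn)
  have h1 : uUnitNum 2 n = 2 ^ (n - 1) * (2 ^ n - 1) := if_pos heven
  refine ⟨psu_lower hu (by omega) fun H hH _ h => Nat.div_le_of_le_mul ?_,
    psu_non hu (by omega) ?_⟩
  · have h2 := su_index (hu.isHerm_uStd (Fin n)) hu hH (by simpa using (show 5 ≤ n by omega)) h
    rw [Module.finrank_fin_fun, h1, uIsoNum, if_pos heven] at h2
    rw [mul_comm 3]
    refine h2.elim (fun h2 => le_trans ?_ h2) id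
    rw [mul_comm]
    exact Nat.mul_le_mul_left _ (by omega)
  · obtain ⟨k, rfl⟩ := heven
    rw [h1, Nat.div_mul_cancel (Dvd.dvd.mul_left ?_ _)]
    rw [← two_mul, pow_mul]
    simpa using Nat.sub_dvd_pow_sub_pow 4 1 k

end Cfsg.Agent.S2153
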