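import Mathlib
import Cfsg.Statements.S2156
import Cfsg.Agent.Chev.AutData
-- import your own Cfsg.Agent.* helpers here

set_option autoImplicit false
open Cfsg

namespace Cfsg.Agent.S2156

/-- Over a finite field, every automorphism of the Chevalley group of type G₂, B₂, D₄, F₄, E₆, E₇ or E₈ is the composite of a field automorphism, a graph automorphism, a diagonal automorphism and an inner automorphism: `θ y = x · d(g(f y)) · x⁻¹` for some group element `x`, diagonal `d`, graph `g` and field `f` (each possibly the identity; diagonal here includes conjugation by elements of the diagonal subgroup H). -/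
theorem result {F : Type*} [Field F] [Finite F] (D : Cfsg.Lie.ChevalleyDatum) (hD : D ∈ [Cfsg.Lie.chevG2, Cfsg.Lie.chevB2, Cfsg.Lie.chevD4, Cfsg.Lie.chevF4, Cfsg.Lie.chevE6, Cfsg.Lie.chevE7, Cfsg.Lie.chevE8]) (θ : ↥(D.group F) ≃* ↥(D.group F)) :
    ∃ (x : ↥(D.group F)) (d g f : ↥(D.group F) ≃* ↥(D.group F)),
      D.IsDiagonalAut d ∧ D.IsGraphAut g ∧ D.IsFieldAut f ∧ ∀ y : ↥(D.group F), θ y = x * d (g (f y)) * x⁻¹ := by
  have := Chev.good_of_mem hD
  obtain ⟨x, c, π, g, σ, h1, h2, rfl⟩ := (Chev.autOK_of_mem (F := F) hD).decomp θ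
  exact ⟨x, D.diagAut F c, g, D.fieldAutHom F σ, D.isDiagonalAut_iff.2 ⟨c, rfl⟩,
    Cfsg.Lie.ChevalleyDatum.isGraphAut_iff.2 ⟨π, h1, h2⟩, D.isFieldAut_iff.2 ⟨σ, rfl⟩, fun y => rfl⟩

end Cfsg.Agent.S2156
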