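import Mathlib
import Cfsg.Statements.S2158
import Cfsg.Agent.Chev.StTab
import Cfsg.Agent.Chev.Good
-- import your own Cfsg.Agent.* helpers here

set_option autoImplicit false
open Cfsg

namespace Cfsg.Agent.S2158

/-- In a Chevalley group of type G₂, B₂, D₄, F₄, E₆, E₇ or E₈ over any field, an element of the group whose matrix is the diagonal matrix `ĥ(χ)` of a character `χ` of the root lattice already lies in the diagonal subgroup H (the non-trivial inclusion of the statement that the group meets the group of all such diagonal matrices in H). -/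
theorem result {F : Type*} [Field F] (D : Cfsg.Lie.ChevalleyDatum) (hD : D ∈ [Cfsg.Lie.chevG2, Cfsg.Lie.chevB2, Cfsg.Lie.chevD4, Cfsg.Lie.chevF4, Cfsg.Lie.chevE6, Cfsg.Lie.chevE7, Cfsg.Lie.chevE8]) (χ : ℕ → Fˣ) (hχ : D.IsRootCharacter χ) (g : GL D.Idx F) (hg : g ∈ D.group F)
    (hgχ : (g : Matrix D.Idx D.Idx F) = D.charDiag F χ) : g ∈ D.diagonalSubgroup F := by
  have := Chev.good_of_mem hD
  have hm := D.isModel_X F
  obtain rfl : g = D.charG F χ := Units.ext hgχ
  have hmono : D.stRoot.Mono (fun r : D.Rt => D.X F r) (D.charG F χ) 1 (fun r => χ r) :=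
    ⟨D.stRoot.isAut_one, fun s u => D.charG_conj_X F hχ s u, fun s => by
      rw [D.stRoot_ng, Cfsg.Lie.ChevalleyDatum.IsRootCharacter.map_ng D hχ]; simp⟩
  obtain ⟨b, hb, n, hn, u, hu, e⟩ := hm.bruhat (g := D.charG F χ) (by rw [D.st_XS_univ]; exact hg)
  have hnH : n ∈ D.stRoot.HH (fun r : D.Rt => D.X F r) := hm.mem_HH_of_conj_mem_UU hn fun i => by
    have h1 := hmono.conj_mem_XS (T := {r | D.stRoot.Pos r}) (fun r hr => hr)
      (mul_mem (mul_mem (inv_mem hu) (Chev.StRoot.x_mem_UU (D.stRoot.pos_sr i) 1)) hu)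
    have h2 := Chev.conj_mem_of_le_normalizer hm.BB_le_normalizer_UU (inv_mem hb) h1
    convert h2 using 1
    rw [e]; group
  have hB : D.charG F χ ∈ D.stRoot.BB (fun r : D.Rt => D.X F r) := by
    rw [e]; exact mul_mem (mul_mem hb (Chev.StRoot.HH_le_BB hnH)) (Chev.StRoot.UU_le_BB hu)
  obtain ⟨v, hv, a, ha, e'⟩ := hm.exists_mul_of_mem_BB hB
  rw [D.st_HH] at ha
  obtain ⟨ψ, hψ, rfl⟩ := D.exists_char_of_mem_diagonal F ha
  have hv' : v = D.charG F (χ * ψ⁻¹) := by rw [D.charG_mul, D.charG_inv, e']; group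
  rw [D.st_UU, D.posUnipotent_eq_XS] at hv
  have h1 : D.charG F (χ * ψ⁻¹) = D.charG F 1 := by
    rw [D.charG_eq_iff]
    intro r
    have := D.XS_entry_of_pos F D.ht (fun r hr => (D.isPos_iff_ht r).1 hr) hv
      (a := Sum.inr r) (b := Sum.inr r) le_rfl
    rw [hv', D.coe_charG, if_pos rfl] at this
    exact Units.ext (by simpa [Cfsg.Lie.ChevalleyDatum.charDiag] using this)
  rw [e', hv', h1, D.charG_one, one_mul]
  exact ha

end Cfsg.Agent.S2158
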