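import Mathlib
import Cfsg.Statements.S2159
import Cfsg.Agent.Chev.AutData
-- import your own Cfsg.Agent.* helpers here

set_option autoImplicit false
open Cfsg

namespace Cfsg.Agent.S2159

/-- Structure of the outer automorphism group of the Chevalley group `G` of type G₂, B₂, D₄, F₄, E₆, E₇ or E₈ over a finite field. Let `D̄` be the image in `Out(G)` of the subgroup generated by the diagonal automorphisms and `F̄` the image of the subgroup generated by the field automorphisms. Then `D̄` is a normal abelian subgroup of `Out(G)`, `F̄` is cyclic, `D̄F̄` is a normal subgroup, and the quotient of `Out(G)` by `D̄F̄` is trivial, of order 2, or non-abelian of order 6 (so isomorphic to the symmetric group on three letters): its index is 1 or 2, or it is 6 with the commutator subgroup of `Out(G)` not inside `D̄F̄`. -/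
theorem result {F : Type*} [Field F] [Finite F] (D : Cfsg.Lie.ChevalleyDatum) (hD : D ∈ [Cfsg.Lie.chevG2, Cfsg.Lie.chevB2, Cfsg.Lie.chevD4, Cfsg.Lie.chevF4, Cfsg.Lie.chevE6, Cfsg.Lie.chevE7, Cfsg.Lie.chevE8])
    (Dbar Fbar : Subgroup (Cfsg.Out ↥(D.group F)))
    (hDbar : Dbar = (Subgroup.closure {φ : MulAut ↥(D.group F) | D.IsDiagonalAut φ}).map (QuotientGroup.mk' (Cfsg.Inn ↥(D.group F))))
    (hFbar : Fbar = (Subgroup.closure {φ : MulAut ↥(D.group F) | D.IsFieldAut φ}).map (QuotientGroup.mk' (Cfsg.Inn ↥(D.group F)))) :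
    Dbar.Normal ∧ IsMulCommutative ↥Dbar ∧ IsCyclic ↥Fbar ∧ (Dbar ⊔ Fbar).Normal ∧
      ((Dbar ⊔ Fbar).index = 1 ∨ (Dbar ⊔ Fbar).index = 2 ∨
        ((Dbar ⊔ Fbar).index = 6 ∧ ¬ commutator (Cfsg.Out ↥(D.group F)) ≤ Dbar ⊔ Fbar)) := by
  have := Chev.good_of_mem hD
  have hA := Chev.autOK_of_mem (F := F) hD
  rw [Cfsg.Lie.ChevalleyDatum.closure_isDiagonalAut] at hDbar
  rw [Cfsg.Lie.ChevalleyDatum.closure_isFieldAut] at hFbar
  subst hDbar hFbar
  refine ⟨Cfsg.Lie.ChevalleyDatum.normal_diagOut, ⟨⟨?_⟩⟩, ?_, ?_, ?_⟩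
  · rintro ⟨_, _, ⟨a, rfl⟩, rfl⟩ ⟨_, _, ⟨b, rfl⟩, rfl⟩
    apply Subtype.ext
    simp only [Subgroup.coe_mul, ← map_mul, mul_comm a b]
  · rw [MonoidHom.map_range]
    exact isCyclic_of_surjective _ (MonoidHom.rangeRestrict_surjective _)
  · rw [← hA.ker_piOut]; infer_instance
  · rw [← hA.ker_piOut, Subgroup.index_ker]
    have e : Nat.card hA.piOut.range = Nat.card (D.GrSet F) := by
      rw [← hA.range_piOut]; rfl
    rw [e]
    simp only [List.mem_cons, List.not_mem_nil, or_false] at hD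
    rcases hD with rfl | rfl | rfl | rfl | rfl | rfl | rfl
    · rw [Chev.card_grSet_G2]; split_ifs <;> simp
    · rw [Chev.card_grSet_B2]; split_ifs <;> simp
    · refine Or.inr (Or.inr ⟨Chev.card_grSet_D4, fun h => ?_⟩)
      have h1 : ∀ π : Equiv.Perm (Fin 4), Cfsg.Lie.chevD4.IsDiagramSymmetry π → ∃ θ, hA.piOut θ = π :=
        fun π hπ => by
          have : π ∈ Cfsg.Lie.chevD4.GrSet F := by rw [Chev.grSet_D4]; exact hπ
          rwa [← hA.range_piOut] at this
      obtain ⟨a, ha⟩ := h1 (Equiv.swap 0 2) (by unfold Cfsg.Lie.ChevalleyDatum.IsDiagramSymmetry; decide +kernel)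
      obtain ⟨b, hb⟩ := h1 (Equiv.swap 0 3) (by unfold Cfsg.Lie.ChevalleyDatum.IsDiagramSymmetry; decide +kernel)
      have h2 := h (Subgroup.commutator_mem_commutator (Subgroup.mem_top a) (Subgroup.mem_top b))
      rw [MonoidHom.mem_ker, map_commutatorElement, commutatorElement_def, ha, hb] at h2
      exact (by decide : Equiv.swap (0 : Fin 4) 2 * Equiv.swap (0 : Fin 4) 3 * (Equiv.swap (0 : Fin 4) 2)⁻¹ *
        (Equiv.swap (0 : Fin 4) 3)⁻¹ ≠ 1) h2
    · rw [Chev.card_grSet_F4]; split_ifs <;> simp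
    · rw [Chev.card_grSet_E6]; simp
    · rw [Chev.grSet_E7]; simp
    · rw [Chev.grSet_E8]; simp

end Cfsg.Agent.S2159
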