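import Mathlib
import Cfsg.Statements.S2160
import Cfsg.Agent.Chev.StTab
import Cfsg.Agent.Chev.Good
-- import your own Cfsg.Agent.* helpers here

set_option autoImplicit false
open Cfsg

namespace Cfsg.Agent.S2160

/-- In a Chevalley group of type G₂, B₂, D₄, F₄, E₆, E₇ or E₈ over a finite field, every field automorphism commutes with every graph automorphism. -/
theorem result {F : Type*} [Field F] [Finite F] (D : Cfsg.Lie.ChevalleyDatum) (hD : D ∈ [Cfsg.Lie.chevG2, Cfsg.Lie.chevB2, Cfsg.Lie.chevD4, Cfsg.Lie.chevF4, Cfsg.Lie.chevE6, Cfsg.Lie.chevE7, Cfsg.Lie.chevE8]) (f g : ↥(D.group F) ≃* ↥(D.group F))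
    (hf : D.IsFieldAut f) (hg : D.IsGraphAut g) (y : ↥(D.group F)) : f (g y) = g (f y) := by
  have := Chev.good_of_mem hD
  obtain ⟨σ, hσ⟩ := hf
  obtain ⟨π, -, hπ⟩ := hg
  have hm := D.isModel_XG F
  have hy : y ∈ Chev.XS (fun r : D.Rt => D.XG F r) Set.univ := by rw [D.XS_XG_univ]; trivial
  rw [hm.XS_univ_eq] at hy
  have hf' : ∀ (r : D.Rt) t, f (D.XG F r t) = D.XG F r (σ t) := fun r t =>
    D.eq_XG F (hσ _ r t r.2 rfl)
  refine Chev.XS_induction (P := fun y => f (g y) = g (f y)) (by simp) ?_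
    (fun a b ha hb => by simp only [map_mul, ha, hb]) (fun a ha => by simp only [map_inv, ha]) hy
  rintro r ⟨i, rfl | rfl⟩ t
  · have h1 : ∀ t, g (D.XG F (D.sr i) t) = D.XG F (D.sr (π i)) (t ^ D.graphExp (ringChar F) i (π i)) :=
      fun t => D.eq_XG F ((hπ _ i t).1 rfl)
    show f (g (D.XG F (D.sr i) t)) = g (f (D.XG F (D.sr i) t))
    rw [h1, hf', hf', h1, map_pow]
  · have h1 : ∀ t, g (D.XG F (D.ng (D.sr i)) t) =
        D.XG F (D.ng (D.sr (π i))) (t ^ D.graphExp (ringChar F) i (π i)) :=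
      fun t => D.eq_XG F ((hπ _ i t).2 rfl)
    show f (g (D.XG F (D.ng (D.sr i)) t)) = g (f (D.XG F (D.ng (D.sr i)) t))
    rw [h1, hf', hf', h1, map_pow]

end Cfsg.Agent.S2160
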