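import Mathlib
import Cfsg.Statements.S2161
import Cfsg.Agent.Chev.StGraph
-- import your own Cfsg.Agent.* helpers here

set_option autoImplicit false
open Cfsg

namespace Cfsg.Agent.S2161

/-- For the Chevalley groups of types D₄ and E₆ (one root length) over any field: if `π` is a symmetry of the Dynkin diagram and `φ` is an automorphism sending `x_{p_i}(t)` to `x_{p_{π i}}(t)` and `x_{-p_i}(t)` to `x_{-p_{π i}}(t)` for every fundamental root `p_i`, then for every root `r` there is a sign `ε = ±1` with `φ(x_r(t)) = x_{π·r}(ε t)` for all `t`, where `π·r` is the root whose coefficients are those of `r` permuted by `π`. -/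
theorem result {F : Type*} [Field F] (D : Cfsg.Lie.ChevalleyDatum) (hD : D ∈ [Cfsg.Lie.chevD4, Cfsg.Lie.chevE6])
    (π : Equiv.Perm (Fin D.rank)) (hπ : D.IsDiagramSymmetry π) (φ : ↥(D.group F) ≃* ↥(D.group F))
    (hφ : ∀ (g : ↥(D.group F)) (i : Fin D.rank) (t : F),
      (((g : GL D.Idx F) : Matrix D.Idx D.Idx F) = D.x F (D.simple i) t →
        ((φ g : GL D.Idx F) : Matrix D.Idx D.Idx F) = D.x F (D.simple (π i)) t) ∧
      (((g : GL D.Idx F) : Matrix D.Idx D.Idx F) = D.x F (D.neg (D.simple i)) t →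
        ((φ g : GL D.Idx F) : Matrix D.Idx D.Idx F) = D.x F (D.neg (D.simple (π i))) t))
    (r : ℕ) (hr : r < D.nroots) :
    ∃ ε : F, (ε = 1 ∨ ε = -1) ∧ ∀ (g : ↥(D.group F)) (t : F),
      ((g : GL D.Idx F) : Matrix D.Idx D.Idx F) = D.x F r t →
        ((φ g : GL D.Idx F) : Matrix D.Idx D.Idx F) = D.x F (D.permRoot π r) (ε * t) := by
  have key : ∀ (D : Cfsg.Lie.ChevalleyDatum) [D.Good], D.stRoot.SL →
      ∀ (π : Equiv.Perm (Fin D.rank)) (_ : D.IsDiagramSymmetry π) (φ : ↥(D.group F) ≃* ↥(D.group F))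
      (_ : Chev.IsGr D F π φ) (r : ℕ) (_ : r < D.nroots),
      ∃ ε : F, (ε = 1 ∨ ε = -1) ∧ ∀ (g : ↥(D.group F)) (t : F),
      ((g : GL D.Idx F) : Matrix D.Idx D.Idx F) = D.x F r t →
        ((φ g : GL D.Idx F) : Matrix D.Idx D.Idx F) = D.x F (D.permRoot π r) (ε * t) := by
    intro D _ hL π hπ φ h r hr
    obtain ⟨s, ε, h1, -, h3, h4⟩ := h.exists_sign (Chev.cartan_eq_of_symmetry hL hπ) ⟨r, hr⟩
    refine ⟨ε, h3, fun g t e => ?_⟩
    have e2 := Chev.permRoot_eq π h1
    rw [D.eq_XG F (r := r) e]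
    erw [h4]
    erw [e2]
    rfl
  simp only [List.mem_cons, List.not_mem_nil, or_false] at hD
  rcases hD with rfl | rfl
  · exact key _ Chev.slD4 π hπ φ (Chev.isGr_of_matrix hφ) r hr
  · exact key _ Chev.slE6 π hπ φ (Chev.isGr_of_matrix hφ) r hr

end Cfsg.Agent.S2161
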