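import Mathlib
import Cfsg.Statements.S2299
import Cfsg.Agent.Cl.CharSL2Table

set_option autoImplicit false
open Cfsg

namespace Cfsg.Agent.S2299

open Cfsg.Agent.Cl.GL2 Cfsg.Agent.Ch Cfsg.Agent.Cl.CT


/-- Over a finite field F with q elements, q odd, every irreducible complex character of SL₂ has degree 1, q, q + 1, q − 1, (q + 1)/2 or (q − 1)/2; and when q ≥ 5 (so that these six numbers are distinct) there are exactly one irreducible character of degree 1, one of degree q, (q − 3)/2 of degree q + 1, (q − 1)/2 of degree q − 1, two of degree (q + 1)/2 and two of degree (q − 1)/2. -/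
theorem result {F : Type*} [Field F] [Fintype F] (hodd : Odd (Fintype.card F)) :
    (∀ χ : Matrix.SpecialLinearGroup (Fin 2) F → ℂ, Cfsg.IsIrrCharacter (Matrix.SpecialLinearGroup (Fin 2) F) χ →
      χ 1 = 1 ∨ χ 1 = (Fintype.card F : ℂ) ∨ χ 1 = (Fintype.card F : ℂ) + 1 ∨ χ 1 = (Fintype.card F : ℂ) - 1 ∨
        χ 1 = (((Fintype.card F + 1) / 2 : ℕ) : ℂ) ∨ χ 1 = (((Fintype.card F - 1) / 2 : ℕ) : ℂ)) ∧
    (5 ≤ Fintype.card F →
      Nat.card {χ : Cfsg.IrrCharacter (Matrix.SpecialLinearGroup (Fin 2) F) // (χ : Matrix.SpecialLinearGroup (Fin 2) F → ℂ) 1 = 1} = 1 ∧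
      Nat.card {χ : Cfsg.IrrCharacter (Matrix.SpecialLinearGroup (Fin 2) F) // (χ : Matrix.SpecialLinearGroup (Fin 2) F → ℂ) 1 = (Fintype.card F : ℂ)} = 1 ∧
      Nat.card {χ : Cfsg.IrrCharacter (Matrix.SpecialLinearGroup (Fin 2) F) // (χ : Matrix.SpecialLinearGroup (Fin 2) F → ℂ) 1 = (Fintype.card F : ℂ) + 1} = (Fintype.card F - 3) / 2 ∧
      Nat.card {χ : Cfsg.IrrCharacter (Matrix.SpecialLinearGroup (Fin 2) F) // (χ : Matrix.SpecialLinearGroup (Fin 2) F → ℂ) 1 = (Fintype.card F : ℂ) - 1} = (Fintype.card F - 1) / 2 ∧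
      Nat.card {χ : Cfsg.IrrCharacter (Matrix.SpecialLinearGroup (Fin 2) F) // (χ : Matrix.SpecialLinearGroup (Fin 2) F → ℂ) 1 = (((Fintype.card F + 1) / 2 : ℕ) : ℂ)} = 2 ∧
      Nat.card {χ : Cfsg.IrrCharacter (Matrix.SpecialLinearGroup (Fin 2) F) // (χ : Matrix.SpecialLinearGroup (Fin 2) F → ℂ) 1 = (((Fintype.card F - 1) / 2 : ℕ) : ℂ)} = 2) := by
  classical
  obtain ⟨e, he⟩ := exists_isEll (F := F)
  have h2 := ringChar_ne_two_of_odd hodd
  rw [cast_half_add hodd, cast_half_sub hodd]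
  refine ⟨fun χ hχ => ?_, fun hq => ⟨?_, ?_, ?_, ?_, ?_, ?_⟩⟩
  · obtain ⟨i, hi⟩ := famSL_complete he hχ
    rw [famSL_deg he i χ hi]
    fin_cases i <;> simp [degSL]
  · exact (card_irr_deg_SL2 he (by omega) 0).trans (ncard_famSL_zero he)
  · exact (card_irr_deg_SL2 he (by omega) 1).trans (ncard_famSL_one he)
  · refine (card_irr_deg_SL2 he (by omega) 2).trans ?_
    have := ncard_famSL_two he
    rw [if_neg h2] at this; omega
  · refine (card_irr_deg_SL2 he (by omega) 3).trans ?_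
    have := ncard_famSL_three he
    rw [if_neg h2] at this; omega
  · exact (card_irr_deg_SL2 he (by omega) 4).trans ((ncard_famSL_four he).trans (if_neg h2))
  · exact (card_irr_deg_SL2 he (by omega) 5).trans ((ncard_famSL_five he).trans (if_neg h2))

end Cfsg.Agent.S2299
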