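import Mathlib
import Cfsg.Statements.S2300
import Cfsg.Agent.Cl.CharSL2Table

set_option autoImplicit false
open Cfsg

namespace Cfsg.Agent.S2300

open Cfsg.Agent.Cl.GL2 Cfsg.Agent.Ch Cfsg.Agent.Cl.CT


/-- Over a finite field F with q elements, q even, every irreducible complex character of SL₂ has degree 1, q − 1, q or q + 1; and when q ≥ 4 (so that these four numbers are distinct) there are exactly one irreducible character of degree 1, one of degree q, (q − 2)/2 of degree q + 1 and q/2 of degree q − 1. -/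
theorem result {F : Type*} [Field F] [Fintype F] [CharP F 2] :
    (∀ χ : Matrix.SpecialLinearGroup (Fin 2) F → ℂ, Cfsg.IsIrrCharacter (Matrix.SpecialLinearGroup (Fin 2) F) χ →
      χ 1 = 1 ∨ χ 1 = (Fintype.card F : ℂ) - 1 ∨ χ 1 = (Fintype.card F : ℂ) ∨ χ 1 = (Fintype.card F : ℂ) + 1) ∧
    (4 ≤ Fintype.card F →
      Nat.card {χ : Cfsg.IrrCharacter (Matrix.SpecialLinearGroup (Fin 2) F) // (χ : Matrix.SpecialLinearGroup (Fin 2) F → ℂ) 1 = 1} = 1 ∧
      Nat.card {χ : Cfsg.IrrCharacter (Matrix.SpecialLinearGroup (Fin 2) F) // (χ : Matrix.SpecialLinearGroup (Fin 2) F → ℂ) 1 = (Fintype.card F : ℂ)} = 1 ∧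
      Nat.card {χ : Cfsg.IrrCharacter (Matrix.SpecialLinearGroup (Fin 2) F) // (χ : Matrix.SpecialLinearGroup (Fin 2) F → ℂ) 1 = (Fintype.card F : ℂ) + 1} = (Fintype.card F - 2) / 2 ∧
      Nat.card {χ : Cfsg.IrrCharacter (Matrix.SpecialLinearGroup (Fin 2) F) // (χ : Matrix.SpecialLinearGroup (Fin 2) F → ℂ) 1 = (Fintype.card F : ℂ) - 1} = Fintype.card F / 2) := by
  classical
  obtain ⟨e, he⟩ := exists_isEll (F := F)
  have h2 : ringChar F = 2 := ringChar.eq F 2
  refine ⟨fun χ hχ => ?_, fun hq => ⟨?_, ?_, ?_, ?_⟩⟩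
  · rcases irr_cases_sl he hχ with rfl | rfl | ⟨α, -, rfl⟩ | ⟨θ, -, rfl⟩ | h | ⟨θ, -, -, h⟩
    · exact Or.inl rfl
    · exact Or.inr (Or.inr (Or.inl stS_one))
    · exact Or.inr (Or.inr (Or.inr (prS_one α)))
    · exact Or.inr (Or.inl (cuS_one he θ))
    · exact absurd h2 h.ringChar_ne_two
    · exact absurd h2 h.ringChar_ne_two
  · exact (card_irr_deg_SL2 he hq 0).trans (ncard_famSL_zero he)
  · exact (card_irr_deg_SL2 he hq 1).trans (ncard_famSL_one he)
  · refine (card_irr_deg_SL2 he hq 2).trans ?_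
    have := ncard_famSL_two he
    rw [if_pos h2] at this; omega
  · refine (card_irr_deg_SL2 he hq 3).trans ?_
    have := ncard_famSL_three he
    rw [if_pos h2] at this; omega

end Cfsg.Agent.S2300
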