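import Mathlib
import Cfsg.Statements.S2301
import Cfsg.Agent.Cl.CharSL2Conj
import Cfsg.Agent.FG.ClassCount

set_option autoImplicit false
open Cfsg

namespace Cfsg.Agent.S2301

open Cfsg.Agent.Cl.GL2


/-- Over a finite field with q elements of odd characteristic p, the elements of order p of SL₂ (the non-identity unipotent elements) fall into exactly two conjugacy classes, each of size (q² − 1)/2; two upper unitriangular matrices with non-zero off-diagonal entries b and b′ are conjugate exactly when bb′ is a square. -/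
theorem result {F : Type*} [Field F] [Fintype F] (p : ℕ) [Fact p.Prime] [CharP F p] (hp : p ≠ 2) :
    Nat.card {C : ConjClasses (Matrix.SpecialLinearGroup (Fin 2) F) // ∃ g : Matrix.SpecialLinearGroup (Fin 2) F, orderOf g = p ∧ ConjClasses.mk g = C} = 2 ∧
    (∀ g : Matrix.SpecialLinearGroup (Fin 2) F, orderOf g = p → Nat.card (ConjClasses.mk g).carrier = (Fintype.card F ^ 2 - 1) / 2) ∧
    ∀ g h : Matrix.SpecialLinearGroup (Fin 2) F, (g : Matrix (Fin 2) (Fin 2) F) 0 0 = 1 → (g : Matrix (Fin 2) (Fin 2) F) 1 1 = 1 → (g : Matrix (Fin 2) (Fin 2) F) 1 0 = 0 → (g : Matrix (Fin 2) (Fin 2) F) 0 1 ≠ 0 →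
      (h : Matrix (Fin 2) (Fin 2) F) 0 0 = 1 → (h : Matrix (Fin 2) (Fin 2) F) 1 1 = 1 → (h : Matrix (Fin 2) (Fin 2) F) 1 0 = 0 → (h : Matrix (Fin 2) (Fin 2) F) 0 1 ≠ 0 →
      (IsConj g h ↔ IsSquare ((g : Matrix (Fin 2) (Fin 2) F) 0 1 * (h : Matrix (Fin 2) (Fin 2) F) 0 1)) := by
  classical
  have hc : ringChar F ≠ 2 := by rw [ringChar.eq F p]; exact hp
  have h2 : (2 : F) ≠ 0 := Ring.two_ne_zero hc
  refine ⟨?_, fun g hg => ?_, fun g h g00 g11 g10 g01 h00 h11 h10 h01 =>
    isConj_par_sl_iff g10 (g00.trans g11.symm) g01 h10 (h00.trans g00.symm) h01⟩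
  · obtain ⟨ν, hν⟩ := FiniteField.exists_nonsquare hc
    have hν0 : ν ≠ 0 := by rintro rfl; exact hν IsSquare.zero
    rw [Nat.card_eq_two_iff]
    refine ⟨⟨ConjClasses.mk (uniS 1), _, orderOf_uniS p one_ne_zero, rfl⟩,
      ⟨ConjClasses.mk (uniS ν), _, orderOf_uniS p hν0, rfl⟩, fun h => hν ?_, ?_⟩
    · have := (isConj_uniS_iff one_ne_zero hν0).mp
        (ConjClasses.mk_eq_mk_iff_isConj.mp (congrArg Subtype.val h))
      rwa [one_mul] at this
    · rw [Set.eq_univ_iff_forall]
      rintro ⟨_, g, hg, rfl⟩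
      obtain ⟨y, hy, hgy⟩ := exists_isConj_uniS p hg
      simp only [Set.mem_insert_iff, Set.mem_singleton_iff, Subtype.mk.injEq,
        ConjClasses.mk_eq_mk_iff_isConj]
      by_cases hs : IsSquare y
      · exact Or.inl (hgy.trans ((isConj_uniS_iff hy one_ne_zero).mpr (by rwa [mul_one])))
      · refine Or.inr (hgy.trans ((isConj_uniS_iff hy hν0).mpr ?_))
        rw [← quadraticChar_one_iff_isSquare (mul_ne_zero hy hν0), map_mul,
          quadraticChar_neg_one_iff_not_isSquare.mpr hs,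
          quadraticChar_neg_one_iff_not_isSquare.mpr hν]
        norm_num
  · obtain ⟨y, hy, hgy⟩ := exists_isConj_uniS p hg
    rw [ConjClasses.mk_eq_mk_iff_isConj.mpr hgy, FG.natCard_carrier_mk]
    have h3 := (Subgroup.centralizer {uniS y}).card_mul_index
    rw [card_centralizer_par_sl rfl rfl hy, card_sq_eq_one_of_ne h2, card_SL2, mul_comm 2,
      Nat.card_eq_fintype_card, mul_assoc, mul_assoc] at h3
    have h4 := Nat.eq_of_mul_eq_mul_left Fintype.card_pos h3
    rw [mul_comm (_ - 1), ← Nat.sq_sub_sq, one_pow] at h4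
    omega

end Cfsg.Agent.S2301
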