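import Mathlib
import Cfsg.Statements.S2302
import Cfsg.Agent.Cl.CharSL2Conj
import Cfsg.Agent.FG.ClassCount

set_option autoImplicit false
open Cfsg

namespace Cfsg.Agent.S2302

open Cfsg.Agent.Cl.GL2


/-- Over a finite field with q elements of characteristic 2, the involutions of SL₂ (the non-identity unipotent elements) form a single conjugacy class, of size q² − 1. -/
theorem result {F : Type*} [Field F] [Fintype F] [CharP F 2] (g h : Matrix.SpecialLinearGroup (Fin 2) F) (hg : orderOf g = 2) (hh : orderOf h = 2) :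
    IsConj g h ∧ Nat.card (ConjClasses.mk g).carrier = Fintype.card F ^ 2 - 1 := by
  have : Fact (Nat.Prime 2) := ⟨Nat.prime_two⟩
  obtain ⟨y, hy, hgy⟩ := exists_isConj_uniS 2 hg
  obtain ⟨z, hz, hhz⟩ := exists_isConj_uniS 2 hh
  have h2 : (2 : F) = 0 := by exact_mod_cast CharP.cast_eq_zero F 2
  refine ⟨hgy.trans (((isConj_uniS_iff hy hz).mpr
    (FiniteField.isSquare_of_char_two (ringChar.eq F 2) _)).trans hhz.symm), ?_⟩
  rw [ConjClasses.mk_eq_mk_iff_isConj.mpr hgy, FG.natCard_carrier_mk]
  have h3 := (Subgroup.centralizer {uniS y}).card_mul_index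
  rw [card_centralizer_par_sl rfl rfl hy, card_sq_eq_one_of_eq h2, card_SL2, one_mul,
    Nat.card_eq_fintype_card, mul_assoc] at h3
  rw [Nat.eq_of_mul_eq_mul_left Fintype.card_pos h3, mul_comm, ← Nat.sq_sub_sq, one_pow]

end Cfsg.Agent.S2302
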