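import Mathlib
import Cfsg.Statements.S2308
import Cfsg.Agent.Cl.CharGL2Princ
import Cfsg.Agent.Ch.Mackey

set_option autoImplicit false
open Cfsg

namespace Cfsg.Agent.S2308

open Cfsg.Agent.Cl.GL2 Cfsg.Agent.Ch Cfsg.Agent.Cl.CT


/-- Values of the permutation character of GL₂ over a finite field F with q elements on the cosets of its upper triangular subgroup (equivalently, the number of lines of F² that an element maps to themselves): q + 1 at a scalar matrix, 2 at a diagonal matrix with two different diagonal entries, 0 at an element with no eigenvector in F², and 1 at an upper triangular matrix with equal diagonal entries and non-zero upper right entry. -/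
theorem result {F : Type*} [Field F] [Fintype F] (g : Matrix.GeneralLinearGroup (Fin 2) F) :
    ((∃ a : F, (g : Matrix (Fin 2) (Fin 2) F) = a • (1 : Matrix (Fin 2) (Fin 2) F)) → Cfsg.fixedPointCharacter (Cfsg.upperTriangularGL 2 F) g = Fintype.card F + 1) ∧
    ((g : Matrix (Fin 2) (Fin 2) F) 0 1 = 0 → (g : Matrix (Fin 2) (Fin 2) F) 1 0 = 0 → (g : Matrix (Fin 2) (Fin 2) F) 0 0 ≠ (g : Matrix (Fin 2) (Fin 2) F) 1 1 →
      Cfsg.fixedPointCharacter (Cfsg.upperTriangularGL 2 F) g = 2) ∧
    ((∀ (c : F) (v : Fin 2 → F), v ≠ 0 → (g : Matrix (Fin 2) (Fin 2) F).mulVec v ≠ c • v) → Cfsg.fixedPointCharacter (Cfsg.upperTriangularGL 2 F) g = 0) ∧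
    ((g : Matrix (Fin 2) (Fin 2) F) 1 0 = 0 → (g : Matrix (Fin 2) (Fin 2) F) 0 0 = (g : Matrix (Fin 2) (Fin 2) F) 1 1 → (g : Matrix (Fin 2) (Fin 2) F) 0 1 ≠ 0 →
      Cfsg.fixedPointCharacter (Cfsg.upperTriangularGL 2 F) g = 1) := by
  classical
  have key : fixedPointCharacter (upperTriangularGL 2 F) g = princ 1 1 g := by
    rw [fixedPointCharacter, ← indFun_one_eq_card_fixedBy, princ]
    congr 1
    funext b
    have := upper_ne_zero _ ((mem_borel_iff _).mp b.2)
    rw [MulChar.one_apply this.1.isUnit, MulChar.one_apply this.2.isUnit, mul_one]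
  rw [key]
  refine ⟨fun h => ?_, fun _ h10 h => ?_, fun h => princ_ell _ _ h, fun h10 h h01 => ?_⟩
  · have h' := isScal_iff_exists.mpr h
    rw [princ_scal _ _ h', MulChar.one_apply (upper_ne_zero _ h'.2.1).1.isUnit]; ring
  · have := upper_ne_zero _ h10
    rw [princ_hyp _ _ h10 h, MulChar.one_apply this.1.isUnit, MulChar.one_apply this.2.isUnit]
    ring
  · rw [princ_par _ _ h10 h h01, MulChar.one_apply (upper_ne_zero _ h10).1.isUnit]; ring

end Cfsg.Agent.S2308
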