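import Mathlib
import Cfsg.Statements.S2309
import Cfsg.Agent.Cl.CharGL2Table

set_option autoImplicit false
open Cfsg

namespace Cfsg.Agent.S2309

open Cfsg.Agent.Cl.GL2 Cfsg.Agent.Ch Cfsg.Agent.Cl.CT


/-- Over a finite field F with q elements: every irreducible complex character of GL₂ of degree q − 1 vanishes at every diagonal matrix with two distinct entries, and every irreducible complex character of degree q + 1 vanishes at every element with no eigenvector in F². -/
theorem result {F : Type*} [Field F] [Fintype F] (χ : Matrix.GeneralLinearGroup (Fin 2) F → ℂ) (hχ : Cfsg.IsIrrCharacter (Matrix.GeneralLinearGroup (Fin 2) F) χ) (g : Matrix.GeneralLinearGroup (Fin 2) F) :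
    (χ 1 = (Fintype.card F : ℂ) - 1 → (g : Matrix (Fin 2) (Fin 2) F) 0 1 = 0 → (g : Matrix (Fin 2) (Fin 2) F) 1 0 = 0 → (g : Matrix (Fin 2) (Fin 2) F) 0 0 ≠ (g : Matrix (Fin 2) (Fin 2) F) 1 1 → χ g = 0) ∧
    (χ 1 = (Fintype.card F : ℂ) + 1 → (∀ (c : F) (v : Fin 2 → F), v ≠ 0 → (g : Matrix (Fin 2) (Fin 2) F).mulVec v ≠ c • v) → χ g = 0) := by
  classical
  obtain ⟨e, he⟩ := exists_isEll (F := F)
  obtain ⟨i, hi⟩ := famGL_complete he hχ
  have hd := famGL_deg he i χ hi
  refine ⟨fun h1 _ h10 h => ?_, fun h1 h => ?_⟩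
  · have hq : 3 ≤ Fintype.card F := by
      have h0 := upper_ne_zero _ h10
      have := Finset.card_le_univ ({0, (g : Mat F) 0 0, (g : Mat F) 1 1} : Finset F)
      rwa [Finset.card_eq_three.mpr ⟨_, _, _, h0.1.symm, h0.2.symm, h, rfl⟩] at this
    obtain rfl : i = 3 := degGL_injective hq (hd.symm.trans h1)
    obtain ⟨φ, -, rfl⟩ := hi
    exact cusp_hyp he φ h10 h
  · rw [h1] at hd
    have h2 := card_ne_zero (F := F)
    fin_cases i
    · simp [degGL] at hd
    · simp [degGL] at hd
    · obtain ⟨p, -, rfl⟩ := hi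
      exact princ_ell _ _ h
    · simp only [degGL] at hd
      have : (2 : ℂ) = 0 := by simp at hd; linear_combination hd
      norm_num at this

end Cfsg.Agent.S2309
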