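import Mathlib
import Cfsg.Statements.S2310
import Cfsg.Agent.Cl.CharGL2Table

set_option autoImplicit false
open Cfsg

namespace Cfsg.Agent.S2310

open Cfsg.Agent.Cl.GL2 Cfsg.Agent.Ch Cfsg.Agent.Cl.CT


/-- Over a finite field F with q ≥ 3 elements, let u be the upper unitriangular matrix of GL₂ with off-diagonal entry 1. An irreducible complex character χ of GL₂ takes at u the value 1 if χ has degree 1 or q + 1, the value −1 if χ has degree q − 1, and the value 0 if χ has degree q. -/
theorem result {F : Type*} [Field F] [Fintype F] (hq : 3 ≤ Fintype.card F) (χ : Matrix.GeneralLinearGroup (Fin 2) F → ℂ) (hχ : Cfsg.IsIrrCharacter (Matrix.GeneralLinearGroup (Fin 2) F) χ)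
    (u : Matrix.GeneralLinearGroup (Fin 2) F) (hu : (u : Matrix (Fin 2) (Fin 2) F) = !![1, 1; 0, 1]) :
    (χ 1 = 1 → χ u = 1) ∧ (χ 1 = (Fintype.card F : ℂ) + 1 → χ u = 1) ∧
    (χ 1 = (Fintype.card F : ℂ) - 1 → χ u = -1) ∧ (χ 1 = (Fintype.card F : ℂ) → χ u = 0) := by
  classical
  obtain ⟨e, he⟩ := exists_isEll (F := F)
  obtain ⟨i, hi⟩ := famGL_complete he hχ
  have hd := famGL_deg he i χ hi
  have hv := famGL_unip he (u := u) (by simp [hu]) (by simp [hu]) (by simp [hu]) (by simp [hu]) i χ hi
  refine ⟨fun h => ?_, fun h => ?_, fun h => ?_, fun h => ?_⟩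
  · obtain rfl : i = 0 := degGL_injective hq (hd.symm.trans h)
    exact hv
  · obtain rfl : i = 2 := degGL_injective hq (hd.symm.trans h)
    exact hv
  · obtain rfl : i = 3 := degGL_injective hq (hd.symm.trans h)
    exact hv
  · obtain rfl : i = 1 := degGL_injective hq (hd.symm.trans h)
    exact hv

end Cfsg.Agent.S2310
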