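import Mathlib
import Cfsg.Statements.S2312
import Cfsg.Agent.Chev.ChevBN
import Cfsg.Agent.Chev.Good
import Cfsg.Agent.Chev.BNStValue
import Cfsg.Agent.S2311
import Cfsg.Agent.S2327
import Cfsg.Agent.Blk.Contrib
import Cfsg.Agent.Ch.Integrality

set_option autoImplicit false
open Cfsg

namespace Cfsg.Agent.S2312

open Cfsg.Agent.Chev

theorem exists_st_eq {F : Type*} [Field F] [Finite F] (p : ℕ) [Fact p.Prime] [CharP F p]
    (D : Cfsg.Lie.ChevalleyDatum) [D.Good] [Fintype (D.group F)] [Fintype (D.bnPair F).S]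
    (g : D.group F) (hg : ¬ p ∣ orderOf g) : ∃ e a : ℕ, (D.bnPair F).st g = (-1) ^ e * (p ^ a : ℕ) ∧
      p ^ a ∣ Nat.card (Subgroup.centralizer {g}) := by
  obtain ⟨x, J, hx, hmin⟩ := BNPair.exists_min_par (P := D.bnPair F) g
  have hJ := D.isLongest_nS F J
  have h0 := D.isLongest_nS F Set.univ
  set S := D.nodeEquiv F ⁻¹' J with hS
  have hn1 := (D.rootBN F).nS_mem_N S
  have hn0 := (D.rootBN F).nS_mem_N (D.nodeEquiv F ⁻¹' Set.univ)
  have hn := mul_mem hn1 hn0
  have hUm : (D.rootBN F).Um ((D.rootBN F).nS S * (D.rootBN F).nS (D.nodeEquiv F ⁻¹' Set.univ))⁻¹ =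
      (D.rootBN F).Q S := by
    rw [← D.Up_nS_inv F S, RootBN.Um, RootBN.Up]
    congr 1
    ext r
    rw [RootBN.mem_Inv, mul_inv_rev, RootBN.w_mul_apply (inv_mem hn0) (inv_mem hn1)]
    refine and_congr_right fun _ => ?_
    have h1 := RootBN.w_eq_of_Inv_eq (R := D.rootBN F) hn0 RootBN.n0_mem (by
      rw [RootBN.Inv_nS, RootBN.Inv_n0]; simp)
    rw [RootBN.w_inv hn0, h1, ← RootBN.w_inv RootBN.n0_mem, RootBN.pos_w_n0_inv, not_not]
  have hQU : ((D.rootBN F).Q S).subgroupOf (D.group F) ≤ D.UG F := fun q hq =>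
    (D.rootBN F).Q_le_U S hq
  have hp : IsPGroup p (((D.rootBN F).Q S).subgroupOf (D.group F)) :=
    (D.isPGroup_UG F p).to_le hQU
  obtain ⟨y, e, h⟩ := BNPair.exists_st_eq hx hmin hJ h0 (n := D.mkN F hn) (by rw [← map_mul]; rfl)
    (Q := ((D.rootBN F).Q S).subgroupOf (D.group F)) (hQU.trans (D.UG_le_B F))
    (fun z hz => by
      rw [D.mem_bn_par F] at hz
      refine Subgroup.mem_normalizer_iff.2 fun q => ⟨fun hq => RootBN.conj_P_Q hz hq, fun hq => ?_⟩
      have := RootBN.conj_P_Q (inv_mem hz) hq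
      rw [Subgroup.mem_subgroupOf]
      simpa [mul_assoc] using this)
    (fun q hq hq' => Subtype.ext (RootBN.eq_one_of_mem_Um_Up (R := D.rootBN F) (inv_mem hn)
      (hUm.ge hq) ((D.mem_Bw_inf_UG F hn).1 ⟨hq', hQU hq⟩)))
    (fun b hb => by
      obtain ⟨u, hu, h, hh, rfl⟩ := D.exists_UG_mul_HG F hb
      obtain ⟨a, ha, c, hc, e⟩ := RootBN.factor (R := D.rootBN F) (inv_mem hn) hu
      have ha' : a ∈ D.group F := (D.rootBN F).U_le_G (RootBN.Um_le_U _ ha)
      have hc' : c ∈ D.group F := (D.rootBN F).U_le_G (RootBN.Up_le_U _ hc)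
      refine ⟨⟨a, ha'⟩, hUm.le ha, ⟨c, hc'⟩ * h, mul_mem
        ((D.mem_Bw_inf_UG F hn (x := ⟨c, hc'⟩)).2 hc).1 (D.HG_le_Bw F _ hh), ?_⟩
      rw [← mul_assoc]
      congr 1
      exact Subtype.ext e)
    (by have := hp.isNilpotent; infer_instance)
    (by
      obtain ⟨k, hk⟩ := hp.exists_card_eq
      have : orderOf (x⁻¹ * g * x) = orderOf g := by
        simpa using (MulAut.conj x⁻¹).orderOf_eq g
      rw [hk, this]
      exact ((Nat.Prime.coprime_iff_not_dvd Fact.out).2 hg).symm.pow_right _)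
  obtain ⟨a, ha⟩ := (hp.to_le (inf_le_left (b := Subgroup.centralizer
    {y⁻¹ * (x⁻¹ * g * x) * y}))).exists_card_eq
  refine ⟨e, a, ?_, ?_⟩
  · rw [← ha, ← h]
    exact (BNPair.stK_conj _ _ (by rw [Finset.coe_univ, BNPair.par_univ]; trivial)).symm
  · rw [← ha]
    refine (Subgroup.card_dvd_of_le inf_le_right).trans (dvd_of_eq ?_)
    refine Nat.card_congr ((MulAut.conj (x * y)).toEquiv.subtypeEquiv fun z => ?_)
    simp only [Subgroup.mem_centralizer_singleton_iff, MulEquiv.toEquiv_eq_coe, EquivLike.coe_coe,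
      MulAut.conj_apply]
    constructor
    · intro h
      have := congrArg (fun t => x * y * t * (x * y)⁻¹) h
      simpa [mul_assoc] using this
    · intro h
      have := congrArg (fun t => (x * y)⁻¹ * t * (x * y)) h
      simpa [mul_assoc] using this

/-- In a Chevalley group of type G₂, B₂, D₄, F₄, E₆, E₇ or E₈ over a finite field of characteristic p, the value of the Steinberg character at an element g of order prime to p (a semisimple element) is, up to sign, the largest power of p dividing the order of the centralizer of g. -/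
theorem result {F : Type*} [Field F] [Fintype F] (p : ℕ) [Fact p.Prime] [CharP F p] (D : Cfsg.Lie.ChevalleyDatum) (hD : D ∈ [Cfsg.Lie.chevG2, Cfsg.Lie.chevB2, Cfsg.Lie.chevD4, Cfsg.Lie.chevF4, Cfsg.Lie.chevE6, Cfsg.Lie.chevE7, Cfsg.Lie.chevE8]) (g : ↥(D.group F)) (hg : ¬ p ∣ orderOf g) :
    D.steinbergCharacter F g = ((p ^ (Nat.card ↥(Subgroup.centralizer ({g} : Set ↥(D.group F)))).factorization p : ℕ) : ℂ) ∨
      D.steinbergCharacter F g = -((p ^ (Nat.card ↥(Subgroup.centralizer ({g} : Set ↥(D.group F)))).factorization p : ℕ) : ℂ) := by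
  have := good_of_mem hD
  have := Fintype.ofFinite (D.group F)
  have := Fintype.ofFinite (D.bnPair F).S
  have hp : p.Prime := Fact.out
  obtain ⟨e, a, h1, h2⟩ := exists_st_eq p D g hg
  rw [← D.steinbergCharacter_eq F] at h1
  have h3 := (S2311.result D hD).isIntegral_centralChar g
  set c := Nat.card (Subgroup.centralizer {g}) with hc
  have hc0 : c ≠ 0 := Nat.card_pos.ne'
  have hG0 : Nat.card (D.group F) ≠ 0 := Nat.card_pos.ne'
  rw [Blk.Om.centralChar_eq_div, h1, S2327.result D hD, ← Nat.cast_pow, ← Nat.card_eq_fintype_card,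
    ← D.pow_factorization_card_group F p, ← hc,
    ← Nat.cast_div_charZero (Nat.ordProj_dvd _ _)] at h3
  have h4 : IsIntegral ℤ ((algebraMap ℚ ℂ) (((Nat.card (D.group F) /
      p ^ (Nat.card (D.group F)).factorization p * p ^ a : ℕ) : ℚ) / c)) := by
    have h5 : IsIntegral ℤ ((-1 : ℂ) ^ e) := (isIntegral_one.neg).pow e
    have h6 := h5.mul h3
    rw [mul_div_assoc', mul_left_comm, ← mul_assoc ((-1 : ℂ) ^ e), ← mul_pow] at h6
    simpa using h6
  rw [isIntegral_algebraMap_iff (algebraMap ℚ ℂ).injective, IsIntegrallyClosed.isIntegral_iff] at h4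
  obtain ⟨z, hz⟩ := h4
  have h5 : c ∣ Nat.card (D.group F) / p ^ (Nat.card (D.group F)).factorization p * p ^ a := by
    rw [eq_div_iff (Nat.cast_ne_zero.2 hc0)] at hz
    exact Int.natCast_dvd_natCast.1 ⟨z, by
      rw [eq_intCast] at hz
      apply Int.cast_injective (α := ℚ)
      rw [Int.cast_natCast, ← hz, Int.cast_mul, Int.cast_natCast, mul_comm]⟩
  have h6 : p ^ c.factorization p ∣ p ^ a :=
    ((Nat.coprime_ordCompl hp hG0).pow_left _).dvd_of_dvd_mul_left ((Nat.ordProj_dvd _ _).trans h5)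
  have h7 : p ^ a ∣ p ^ c.factorization p :=
    pow_dvd_pow _ ((hp.pow_dvd_iff_le_factorization hc0).1 h2)
  rw [h1, Nat.dvd_antisymm h6 h7]
  rcases neg_one_pow_eq_or ℂ e with h | h <;> simp [h]

end Cfsg.Agent.S2312
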