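import Mathlib
import Cfsg.Statements.S2313
import Cfsg.Agent.Chev.ChevBN
import Cfsg.Agent.Chev.Good

set_option autoImplicit false
open Cfsg

namespace Cfsg.Agent.S2313

open Cfsg.Agent.Chev

/-- In a Chevalley group of type G₂, B₂, D₄, F₄, E₆, E₇ or E₈ over a finite field, the restriction of the Steinberg character to the subgroup B = UH is the permutation character of B on the cosets of the diagonal subgroup H: at b ∈ B its value is the number of cosets xH, x ∈ B, with bxH = xH. -/
theorem result {F : Type*} [Field F] [Fintype F] (D : Cfsg.Lie.ChevalleyDatum) (hD : D ∈ [Cfsg.Lie.chevG2, Cfsg.Lie.chevB2, Cfsg.Lie.chevD4, Cfsg.Lie.chevF4, Cfsg.Lie.chevE6, Cfsg.Lie.chevE7, Cfsg.Lie.chevE8]) (b : ↥((D.borelSubgroup F).subgroupOf (D.group F))) :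
    D.steinbergCharacter F ((((D.borelSubgroup F).subgroupOf (D.group F)).subtype) b) =
      Cfsg.fixedPointCharacter (((D.diagonalSubgroup F).subgroupOf (D.group F)).subgroupOf ((D.borelSubgroup F).subgroupOf (D.group F))) b := by
  have := good_of_mem hD
  have := Fintype.ofFinite (D.group F)
  have := Fintype.ofFinite (D.bnPair F).S
  obtain ⟨n, hn⟩ := BNPair.exists_isLongest_toW (P := D.bnPair F) (Finset.univ : Finset (D.bnPair F).S)
  have hb : (b : D.group F) ∈ (D.bnPair F).B := (D.mem_bnPair_B F).2 b.2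
  have hHB : D.diagonalSubgroup F ≤ D.borelSubgroup F := le_sup_right
  rw [D.steinbergCharacter_eq F, fixedPointCharacter_subgroupOf
    (Subgroup.subgroupOf_mono _ hHB), BNPair.st, Subgroup.coe_subtype,
    BNPair.stK_of_mem_B _ hn hb, D.Bw_longest F (by simpa using hn), D.bnPair_B F]

end Cfsg.Agent.S2313
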