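import Mathlib
import Cfsg.Statements.S2315
import Cfsg.Agent.Cl.ClassSpOStb
import Cfsg.Agent.Cl.CharBlockSL
import Cfsg.Agent.Cl.LinearSylow

set_option autoImplicit false
open Cfsg

namespace Cfsg.Agent.S2315

/-- Steinberg's count of unipotent elements for the general linear group: over a finite field with q elements of characteristic p, the number of elements of GL_n of p-power order (the unipotent matrices) is q^(n(n−1)). -/
theorem result {F : Type*} [Field F] [Fintype F] (p : ℕ) [Fact p.Prime] [CharP F p] (n : ℕ) :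
    Nat.card {g : Matrix.GeneralLinearGroup (Fin n) F // ∃ k : ℕ, orderOf g = p ^ k} = Fintype.card F ^ (n * (n - 1)) := by
  have hp : p.Prime := Fact.out
  rcases n with _ | m
  · simp only [Nat.zero_mul, pow_zero]
    exact Nat.card_eq_one_iff_unique.2 ⟨inferInstance, ⟨1, 0, by simp⟩⟩
  have h := Cl.CT.isStrong_xA (K := F) (m := m)
  have h1 := Cl.SpO.card_pElts_rootBN (p := p) h.rootBN Ch.XS_xA_univ
    (Cl.CT.isPGroup_UU h.toIsModel) fun _ ha => Cl.CT.eq_one_of_mem_HH h.toIsSt ha
  obtain ⟨P⟩ : Nonempty (Sylow p (Matrix.SpecialLinearGroup (Fin (m + 1)) F)) := inferInstance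
  rw [← P.card_eq_multiplicity, Cl.card_sylow_sl, ← pow_mul, Fintype.card_fin,
    Nat.div_mul_cancel (Nat.even_mul_pred_self _).two_dvd, Nat.card_eq_fintype_card (α := F)] at h1
  rw [← h1]
  symm
  have h2 : ∀ g : Matrix.SpecialLinearGroup (Fin (m + 1)) F,
      orderOf (Matrix.SpecialLinearGroup.toGL g) = orderOf g :=
    orderOf_injective _ Matrix.SpecialLinearGroup.toGL_injective
  refine Nat.card_eq_of_bijective (fun g => ⟨Matrix.SpecialLinearGroup.toGL g.1, by
    simpa only [h2] using g.2⟩) ⟨fun a b e => Subtype.ext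
      (Matrix.SpecialLinearGroup.toGL_injective (congrArg Subtype.val e)), ?_⟩
  rintro ⟨g, k, hk⟩
  have h3 : (g : Matrix (Fin (m + 1)) (Fin (m + 1)) F).det = 1 := by
    have h4 : (g : Matrix (Fin (m + 1)) (Fin (m + 1)) F).det ^ p ^ k = 1 := by
      rw [← Matrix.det_pow, ← Units.val_pow_eq_pow_val, ← hk, pow_orderOf_eq_one]
      simp
    have h5 := sub_pow_char_pow (g : Matrix (Fin (m + 1)) (Fin (m + 1)) F).det 1 (p := p) k
    rw [h4, one_pow, sub_self] at h5
    exact sub_eq_zero.1 (pow_eq_zero_iff (pow_pos hp.pos k).ne' |>.1 h5)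
  have h6 : Matrix.SpecialLinearGroup.toGL ⟨g, h3⟩ = g := Units.ext rfl
  exact ⟨⟨⟨g, h3⟩, k, (h2 _).symm.trans (h6.symm ▸ hk)⟩, Subtype.ext h6⟩

end Cfsg.Agent.S2315
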