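import Mathlib
import Cfsg.Statements.S2316
import Cfsg.Agent.Cl.ClassSpOStb
import Cfsg.Agent.Cl.EichClass
import Cfsg.Agent.Cl.SpOrder

set_option autoImplicit false
open Cfsg

namespace Cfsg.Agent.S2316

/-- Steinberg's count of unipotent elements for the symplectic group: over a finite field with q elements of characteristic p, the number of elements of Sp_{2m} of p-power order is q^(2m²). -/
theorem result {F : Type*} [Field F] [Fintype F] (p : ℕ) [Fact p.Prime] [CharP F p] (m : ℕ) :
    Nat.card {g : ↥(Matrix.symplecticGroup (Fin m) F) // ∃ k : ℕ, orderOf g = p ^ k} = Fintype.card F ^ (2 * m ^ 2) := by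
  have hp : p.Prime := Fact.out
  obtain ⟨R, hG, hL, -⟩ := Cl.EB.clLie_sp (K := F) (p := p) m
  obtain ⟨k, -, hk⟩ := FiniteField.card F p
  have h1 : 2 ≤ Nat.card F := Finite.one_lt_card
  rw [Cl.SpO.card_pElts_rootBN R hG hL.pU hL.pH, Cl.sp_card_std,
    Nat.factorization_mul (by positivity) (Cl.sp_prod_pos _ h1 _ _ (by simp)).ne', Finsupp.add_apply,
    Nat.factorization_eq_zero_of_not_dvd (p := p) (n := ∏ _ ∈ _, _) fun h => ?_, add_zero,
    Nat.card_eq_fintype_card, hk, ← pow_mul p k, ← pow_mul p k, Nat.Prime.factorization_pow hp,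
    Finsupp.single_eq_same, ← pow_mul]
  · congr 1
    ring
  · obtain ⟨i, -, hi⟩ := (hp.prime.dvd_finsetProd_iff _).1 h
    rw [Nat.card_eq_fintype_card, hk, ← pow_mul] at hi
    have h2 : p ∣ p ^ (k * (2 * (i + 1))) := dvd_pow_self p (by positivity)
    have h3 := (Nat.dvd_sub_iff_right (Nat.one_le_pow _ _ hp.pos) h2).1 hi
    exact hp.one_lt.ne' (Nat.dvd_one.1 h3)

end Cfsg.Agent.S2316
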