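import Mathlib
import Cfsg.Statements.S2317
import Cfsg.Agent.Cl.ClassUnip

set_option autoImplicit false
open Cfsg

namespace Cfsg.Agent.S2317

/-- Over a finite field of characteristic p, the conjugacy classes of GL_n consisting of elements of p-power order (the unipotent classes) are as many as the partitions of n. -/
theorem result {F : Type*} [Field F] [Fintype F] (p : ℕ) [Fact p.Prime] [CharP F p] (n : ℕ) :
    Nat.card {C : ConjClasses (Matrix.GeneralLinearGroup (Fin n) F) //
      ∃ g : Matrix.GeneralLinearGroup (Fin n) F, (∃ k : ℕ, orderOf g = p ^ k) ∧ ConjClasses.mk g = C} =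
      Fintype.card (Nat.Partition n) := by
  rw [Cl.Cls.card_conjClasses_eq' _
      (fun g : GL (Fin n) F => Cl.Cls.edM (g : Matrix (Fin n) (Fin n) F))
      fun a b _ _ => Cl.Cls.isConj_GL_iff_edM_eq,
    Cl.Cls.card_partition_eq n _ _ (fun _ => True)]
  · simp
  · rintro g ⟨k, hk⟩
    obtain ⟨s, h1, h2, h3⟩ := Cl.Cls.exists_edM_eq_jt_of_pow_char p
      (A := (g : Matrix (Fin n) (Fin n) F)) (k := k)
      (by rw [← Units.val_pow_eq_pow_val, ← hk, pow_orderOf_eq_one, Units.val_one])
    exact ⟨s, h1, by simpa using h2, h3, trivial⟩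
  · intro s h1 h2 _
    obtain ⟨g, hg⟩ := Cl.Cls.exists_GL_edM_eq_jt (F := F) (n := Fin n) one_ne_zero h1 (by simpa)
    refine ⟨g, ?_, hg⟩
    rw [← orderOf_units, Cl.Cls.exists_orderOf_eq_iff, ← Cl.Cls.aeval_X_sub_C_one,
      Cl.Cls.isNilpotent_iff_exists_jt]
    exact ⟨s, hg⟩

end Cfsg.Agent.S2317
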