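import Mathlib
import Cfsg.Statements.S2318
import Cfsg.Agent.Chev.DefZeroUnique
import Cfsg.Agent.Chev.Good
import Cfsg.Agent.S2311
import Cfsg.Agent.S2327

set_option autoImplicit false
open Cfsg

namespace Cfsg.Agent.S2318

/-- In a Chevalley group of type G₂, B₂, D₄, F₄, E₆, E₇ or E₈ over a finite field of characteristic p (for types G₂ and B₂ the field is assumed to have at least 3 elements, so that the group is perfect), the Steinberg character is the only irreducible complex character whose degree is divisible by the full power of p dividing the group order (the only irreducible character of p-defect zero). -/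
theorem result {F : Type*} [Field F] [Fintype F] (p : ℕ) [Fact p.Prime] [CharP F p] (D : Cfsg.Lie.ChevalleyDatum) (hD : D ∈ [Cfsg.Lie.chevG2, Cfsg.Lie.chevB2, Cfsg.Lie.chevD4, Cfsg.Lie.chevF4, Cfsg.Lie.chevE6, Cfsg.Lie.chevE7, Cfsg.Lie.chevE8]) (hq : (D = Cfsg.Lie.chevG2 ∨ D = Cfsg.Lie.chevB2) → 3 ≤ Fintype.card F)
    (χ : ↥(D.group F) → ℂ) (hχ : Cfsg.IsIrrCharacter ↥(D.group F) χ)
    (hdeg : ∃ d : ℕ, χ 1 = (d : ℂ) ∧ p ^ (Nat.card ↥(D.group F)).factorization p ∣ d) :
    χ = D.steinbergCharacter F := by
  have := Chev.good_of_mem hD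
  have hp : p.Prime := Fact.out
  refine D.eq_of_defect_zero F p hχ (S2311.result D hD) ?_ ?_
  · obtain ⟨d, h1, h2⟩ := hdeg
    have h3 := hχ.charDegree_pos.ne'
    have h4 := hχ.charDegree_dvd_card
    rw [Ch.charDegree_of_apply_one h1] at h3 h4 ⊢
    exact le_antisymm ((Nat.factorization_le_iff_dvd h3 Nat.card_pos.ne').2 h4 p)
      ((hp.pow_dvd_iff_le_factorization h3).1 h2)
  · have h : charDegree (D.steinbergCharacter F) = Fintype.card F ^ (D.nroots / 2) := by
      apply Ch.charDegree_of_apply_one
      rw [S2327.result D hD, Nat.cast_pow]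
    rw [h, ← Nat.card_eq_fintype_card, ← D.pow_factorization_card_group F p,
      Nat.factorization_pow_self hp]

end Cfsg.Agent.S2318
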