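import Mathlib
import Cfsg.Statements.S2319
import Cfsg.Agent.Chev.HeckeConst
import Cfsg.Agent.Chev.WeylCoxTypes
import Cfsg.Agent.Chev.Good
import Cfsg.Agent.FG.ClassCount

set_option autoImplicit false
open Cfsg

namespace Cfsg.Agent.S2319

theorem aux {F : Type*} [Field F] [Fintype F] (D : Cfsg.Lie.ChevalleyDatum) [D.Good] {B : Type*}
    {M : CoxeterMatrix B} (cs : CoxeterSystem M D.weyl) :
    Nat.card {χ : Cfsg.IrrCharacter ↥(D.group F) //
      ∃ φ : ↥(D.group F) → ℂ, Cfsg.IsCharacter ↥(D.group F) φ ∧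
        Cfsg.fixedPointCharacter ((D.borelSubgroup F).subgroupOf (D.group F)) =
          (χ : ↥(D.group F) → ℂ) + φ} = Nat.card (ConjClasses M.Group) := by
  have := Fintype.ofFinite (D.group F)
  rw [← FG.card_conjClasses_congr ((D.weylEquiv F).trans cs.mulEquiv), ← D.bnPair_B F]
  exact BNPair.card_constituents (P := D.bnPair F) (D.cq_simple F)
    (Nat.cast_ne_zero.2 Nat.card_pos.ne')

/-- In a Chevalley group of type G₂, B₂, D₄, F₄, E₆, E₇ or E₈ over a finite field, the number of distinct irreducible constituents of the permutation character on the cosets of B = UH equals the number of conjugacy classes (equivalently, of irreducible characters) of the Weyl group, the Coxeter group of the type with nodes numbered as the fundamental roots. -/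
theorem result {F : Type*} [Field F] [Fintype F]
    (dw : Cfsg.Lie.ChevalleyDatum × (Σ n : ℕ, CoxeterMatrix (Fin n)))
    (hdw : dw ∈ [(Cfsg.Lie.chevG2, ⟨2, CoxeterMatrix.G₂⟩), (Cfsg.Lie.chevB2, ⟨2, CoxeterMatrix.B 2⟩), (Cfsg.Lie.chevD4, ⟨4, Cfsg.Lie.coxeterD4⟩), (Cfsg.Lie.chevF4, ⟨4, CoxeterMatrix.F₄⟩),
      (Cfsg.Lie.chevE6, ⟨6, CoxeterMatrix.E₆⟩), (Cfsg.Lie.chevE7, ⟨7, CoxeterMatrix.E₇⟩), (Cfsg.Lie.chevE8, ⟨8, CoxeterMatrix.E₈⟩)]) :
    Nat.card {χ : Cfsg.IrrCharacter ↥(dw.1.group F) //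
      ∃ φ : ↥(dw.1.group F) → ℂ, Cfsg.IsCharacter ↥(dw.1.group F) φ ∧
        Cfsg.fixedPointCharacter ((dw.1.borelSubgroup F).subgroupOf (dw.1.group F)) = (χ : ↥(dw.1.group F) → ℂ) + φ} =
      Nat.card (ConjClasses dw.2.2.Group) := by
  simp only [List.mem_cons, List.not_mem_nil, or_false] at hdw
  rcases hdw with rfl | rfl | rfl | rfl | rfl | rfl | rfl
  · exact aux _ Chev.exists_weylCs_G2.choose
  · exact aux _ Chev.exists_weylCs_B2.choose
  · exact aux _ Chev.exists_weylCs_D4.choose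
  · exact aux _ Chev.exists_weylCs_F4.choose
  · exact aux _ Chev.exists_weylCs_E6.choose
  · exact aux _ Chev.exists_weylCs_E7.choose
  · exact aux _ Chev.exists_weylCs_E8.choose

end Cfsg.Agent.S2319
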