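import Mathlib
import Cfsg.Statements.S2320
import Cfsg.Agent.Cl.CharGL2Table

set_option autoImplicit false
open Cfsg

namespace Cfsg.Agent.S2320

open Cfsg.Agent.Cl.GL2 Cfsg.Agent.Ch Cfsg.Agent.Cl.CT


/-- Over a finite field F with q elements, every irreducible complex character of GL₂ of degree q takes a value of absolute value 1 at every diagonal matrix with two different diagonal entries and at every element with no eigenvector in F². -/
theorem result {F : Type*} [Field F] [Fintype F] (χ : Matrix.GeneralLinearGroup (Fin 2) F → ℂ) (hχ : Cfsg.IsIrrCharacter (Matrix.GeneralLinearGroup (Fin 2) F) χ) (hdeg : χ 1 = (Fintype.card F : ℂ)) (g : Matrix.GeneralLinearGroup (Fin 2) F) :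
    ((g : Matrix (Fin 2) (Fin 2) F) 0 1 = 0 → (g : Matrix (Fin 2) (Fin 2) F) 1 0 = 0 → (g : Matrix (Fin 2) (Fin 2) F) 0 0 ≠ (g : Matrix (Fin 2) (Fin 2) F) 1 1 → ‖χ g‖ = 1) ∧
    ((∀ (c : F) (v : Fin 2 → F), v ≠ 0 → (g : Matrix (Fin 2) (Fin 2) F).mulVec v ≠ c • v) → ‖χ g‖ = 1) := by
  classical
  obtain ⟨e, he⟩ := exists_isEll (F := F)
  have h2 := card_sub_one_ne_zero (F := F)
  have hl : ∀ α : MulChar F ℂ, ‖lin α g‖ = 1 := fun α =>
    norm_mulChar α g.det_ne_zero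
  rcases irr_cases he hχ with ⟨α, rfl⟩ | ⟨α, rfl⟩ | ⟨α, β, -, rfl⟩ | ⟨φ, -, rfl⟩
  · rw [lin_one] at hdeg; exact absurd (by rw [← hdeg, sub_self]) h2
  · refine ⟨fun _ h10 h => ?_, fun h => ?_⟩
    · rw [stb_hyp _ h10 h, hl]
    · rw [stb_ell _ h, norm_neg, hl]
  · rw [princ_one] at hdeg; simp at hdeg
  · rw [cusp_one he] at hdeg; simp at hdeg

end Cfsg.Agent.S2320
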