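import Mathlib
import Cfsg.Statements.S2322
import Cfsg.Agent.Cl.CharSL2More

set_option autoImplicit false
open Cfsg

namespace Cfsg.Agent.S2322

open Cfsg.Agent.Cl.GL2 Cfsg.Agent.Ch Cfsg.Agent.Cl.CT


/-- Over a finite field F with q elements, q odd: every irreducible complex character of SL₂ of degree q − 1 or (q − 1)/2 vanishes at every diagonal matrix whose diagonal entry a has a² ≠ 1, and every irreducible complex character of degree q + 1 or (q + 1)/2 vanishes at every element with no eigenvector in F². -/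
theorem result {F : Type*} [Field F] [Fintype F] (hodd : Odd (Fintype.card F)) (χ : Matrix.SpecialLinearGroup (Fin 2) F → ℂ) (hχ : Cfsg.IsIrrCharacter (Matrix.SpecialLinearGroup (Fin 2) F) χ) (g : Matrix.SpecialLinearGroup (Fin 2) F) :
    ((χ 1 = (Fintype.card F : ℂ) - 1 ∨ χ 1 = (((Fintype.card F - 1) / 2 : ℕ) : ℂ)) →
      (g : Matrix (Fin 2) (Fin 2) F) 0 1 = 0 → (g : Matrix (Fin 2) (Fin 2) F) 1 0 = 0 → (g : Matrix (Fin 2) (Fin 2) F) 0 0 ^ 2 ≠ 1 → χ g = 0) ∧
    ((χ 1 = (Fintype.card F : ℂ) + 1 ∨ χ 1 = (((Fintype.card F + 1) / 2 : ℕ) : ℂ)) →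
      (∀ (c : F) (v : Fin 2 → F), v ≠ 0 → (g : Matrix (Fin 2) (Fin 2) F).mulVec v ≠ c • v) → χ g = 0) := by
  classical
  obtain ⟨e, he⟩ := exists_isEll (F := F)
  rw [cast_half_add hodd, cast_half_sub hodd]
  refine ⟨fun h _ h10 ha => ?_, fun h hg => ?_⟩
  · have hq := three_lt_card_of_hyp h10 ha
    have hb : (g : Mat F) 0 0 ≠ (g : Mat F) 1 1 := fun h' => ha ((upper_sq_eq_one h10).mp h')
    rcases h with h | h
    · obtain ⟨θ, -, rfl⟩ := mem_famSL_of_deg he hq hχ 3 h
      exact cuS_hyp he θ h10 hb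
    · obtain ⟨θ, -, -, hp⟩ := mem_famSL_of_deg he hq hχ 5 h
      rw [half_of_eq (hp.eq_hyp h10 hb), cuS_hyp he θ h10 hb, zero_div]
  · by_cases hq : 4 ≤ Fintype.card F
    · rcases h with h | h
      · obtain ⟨α, -, rfl⟩ := mem_famSL_of_deg he hq hχ 2 h
        exact prS_ell α hg
      · have hp : HalfPair χ (prS (quadC F) - χ) := mem_famSL_of_deg he hq hχ 4 h
        rw [half_of_eq (hp.eq_ell hg), prS_ell _ hg, zero_div]
    · have h3 : Fintype.card F = 3 := by
        have := two_le_card (F := F)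
        obtain ⟨k, hk⟩ := hodd
        omega
      rcases irr_cases_sl he hχ with rfl | rfl | ⟨α, -, rfl⟩ | ⟨θ, hθ, rfl⟩ | hp | ⟨θ, -, -, hp⟩
      · simp [degSL, h3] at h; norm_num at h
      · simp [degSL, h3, stS_one] at h; norm_num at h
      · exact prS_ell α hg
      · exact cuS_ell_of_card_three he h3 hθ hg
      · rw [half_of_eq (hp.eq_ell hg), prS_ell _ hg, zero_div]
      · rw [half_of_eq hp.eq_one, cuS_one] at h
        simp [degSL, h3] at h; norm_num at h

end Cfsg.Agent.S2322
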