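import Mathlib
import Cfsg.Statements.S2324
import Cfsg.Agent.Cl.CharSL2More

set_option autoImplicit false
open Cfsg

namespace Cfsg.Agent.S2324

open Cfsg.Agent.Cl.GL2 Cfsg.Agent.Ch Cfsg.Agent.Cl.CT


/-- Over a finite field F with q elements, q odd and q ≥ 5, let u be the upper unitriangular matrix of SL₂ with off-diagonal entry 1 and let δ = (−1)^((q−1)/2). Every irreducible complex character χ of SL₂ of degree (q + 1)/2 satisfies (2χ(u) − 1)² = δq, and every irreducible complex character χ of degree (q − 1)/2 satisfies (2χ(u) + 1)² = δq; that is, χ(u) = (1 ± √(δq))/2 in the first case and χ(u) = (−1 ± √(δq))/2 in the second. Moreover two different irreducible characters of degree (q + 1)/2 take the two different values (their values at u add up to 1), and likewise for degree (q − 1)/2 (values adding up to −1). -/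
theorem result {F : Type*} [Field F] [Fintype F] (hodd : Odd (Fintype.card F)) (hq : 5 ≤ Fintype.card F)
    (u : Matrix.SpecialLinearGroup (Fin 2) F) (hu : (u : Matrix (Fin 2) (Fin 2) F) = !![1, 1; 0, 1]) :
    (∀ χ : Matrix.SpecialLinearGroup (Fin 2) F → ℂ, Cfsg.IsIrrCharacter (Matrix.SpecialLinearGroup (Fin 2) F) χ → χ 1 = (((Fintype.card F + 1) / 2 : ℕ) : ℂ) → (2 * χ u - 1) ^ 2 = (-1 : ℂ) ^ ((Fintype.card F - 1) / 2) * (Fintype.card F : ℂ)) ∧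
    (∀ χ : Matrix.SpecialLinearGroup (Fin 2) F → ℂ, Cfsg.IsIrrCharacter (Matrix.SpecialLinearGroup (Fin 2) F) χ → χ 1 = (((Fintype.card F - 1) / 2 : ℕ) : ℂ) → (2 * χ u + 1) ^ 2 = (-1 : ℂ) ^ ((Fintype.card F - 1) / 2) * (Fintype.card F : ℂ)) ∧
    (∀ χ₁ χ₂ : Matrix.SpecialLinearGroup (Fin 2) F → ℂ, Cfsg.IsIrrCharacter (Matrix.SpecialLinearGroup (Fin 2) F) χ₁ → Cfsg.IsIrrCharacter (Matrix.SpecialLinearGroup (Fin 2) F) χ₂ → χ₁ ≠ χ₂ →
      χ₁ 1 = (((Fintype.card F + 1) / 2 : ℕ) : ℂ) → χ₂ 1 = (((Fintype.card F + 1) / 2 : ℕ) : ℂ) → χ₁ u + χ₂ u = 1) ∧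
    (∀ χ₁ χ₂ : Matrix.SpecialLinearGroup (Fin 2) F → ℂ, Cfsg.IsIrrCharacter (Matrix.SpecialLinearGroup (Fin 2) F) χ₁ → Cfsg.IsIrrCharacter (Matrix.SpecialLinearGroup (Fin 2) F) χ₂ → χ₁ ≠ χ₂ →
      χ₁ 1 = (((Fintype.card F - 1) / 2 : ℕ) : ℂ) → χ₂ 1 = (((Fintype.card F - 1) / 2 : ℕ) : ℂ) → χ₁ u + χ₂ u = -1) := by
  classical
  obtain ⟨e, he⟩ := exists_isEll (F := F)
  obtain rfl : u = uniS 1 := by simp [sl_ext_iff, hu]
  rw [cast_half_add hodd, cast_half_sub hodd]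
  have h4 : 4 ≤ Fintype.card F := by omega
  refine ⟨fun χ hχ h => ?_, fun χ hχ h => ?_, fun χ₁ χ₂ h1 h2 hne e1 e2 => ?_,
    fun χ₁ χ₂ h1 h2 hne e1 e2 => ?_⟩
  · have hp : HalfPair χ (prS (quadC F) - χ) := mem_famSL_of_deg he h4 hχ 4 h
    rw [← hp.sub_sq one_ne_zero, Pi.sub_apply, prS_uniS _ one_ne_zero]; ring
  · obtain ⟨θ, -, -, hp⟩ := mem_famSL_of_deg he h4 hχ 5 h
    rw [← hp.sub_sq one_ne_zero, Pi.sub_apply, cuS_uniS he _ one_ne_zero]; ring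
  · have p1 : HalfPair χ₁ (prS (quadC F) - χ₁) := mem_famSL_of_deg he h4 h1 4 e1
    have p2 : HalfPair χ₂ (prS (quadC F) - χ₂) := mem_famSL_of_deg he h4 h2 4 e2
    rw [p1.eq_sub p2 hne, Pi.sub_apply, prS_uniS _ one_ne_zero]; ring
  · obtain ⟨θ, a1, a2, p1⟩ := mem_famSL_of_deg he h4 h1 5 e1
    obtain ⟨θ', b1, b2, p2⟩ := mem_famSL_of_deg he h4 h2 5 e2
    obtain rfl := hom_order_two_unique he (ringChar_ne_two_of_odd hodd) a1 a2 b1 b2
    rw [p1.eq_sub p2 hne, Pi.sub_apply, cuS_uniS he _ one_ne_zero]; ring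

end Cfsg.Agent.S2324
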