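import Mathlib
import Cfsg.Statements.S2328
import Cfsg.Agent.Chev.ChevBN
import Cfsg.Agent.Chev.Good
import Cfsg.Agent.S2311
import Cfsg.Agent.S2327
import Cfsg.Agent.Ch.BrauerPi

set_option autoImplicit false
open Cfsg

namespace Cfsg.Agent.S2328

open Cfsg.Agent.Chev

/-- In a Chevalley group of type G₂, B₂, D₄, F₄, E₆, E₇ or E₈ over a finite field of characteristic p, the Steinberg character vanishes at every element whose order is divisible by p (every element that is not semisimple). -/
theorem result {F : Type*} [Field F] [Fintype F] (p : ℕ) [Fact p.Prime] [CharP F p] (D : Cfsg.Lie.ChevalleyDatum) (hD : D ∈ [Cfsg.Lie.chevG2, Cfsg.Lie.chevB2, Cfsg.Lie.chevD4, Cfsg.Lie.chevF4, Cfsg.Lie.chevE6, Cfsg.Lie.chevE7, Cfsg.Lie.chevE8]) (g : ↥(D.group F)) (hg : p ∣ orderOf g) :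
    D.steinbergCharacter F g = 0 := by
  have := good_of_mem hD
  refine Ch.apply_eq_zero_of_defect_zero Fact.out (S2311.result D hD) ?_ hg
  have h : charDegree (D.steinbergCharacter F) = Fintype.card F ^ (D.nroots / 2) := by
    apply Ch.charDegree_of_apply_one
    rw [S2327.result D hD, Nat.cast_pow]
  rw [h, D.pow_factorization_card_group F p, Nat.card_eq_fintype_card]

end Cfsg.Agent.S2328
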