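import Mathlib
import Cfsg.Statements.S2362
import Cfsg.Agent.Cl.SpecOmega
import Cfsg.Agent.NT.Zsigmondy

set_option autoImplicit false
open Cfsg Polynomial

namespace Cfsg.Agent.S2362

open Cfsg.Agent.Cl

theorem three {K : Type*} [Field K] [DecidableEq K] {R : Multiset K} (hc : R.card = 3)
    (hR : R.map (fun ν => ν⁻¹) = R) (h1 : R.prod = 1) (h : ¬ ∀ ν, R.count ν ≤ 1) :
    R = {1, 1, 1} ∨ R = {-1, -1, 1} := by
  push Not at h
  obtain ⟨a, ha⟩ := h
  obtain ⟨S, rfl⟩ := Multiset.le_iff_exists_add.1 (Multiset.le_count_iff_replicate_le.1 ha)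
  obtain ⟨b, rfl⟩ := Multiset.card_eq_one.1 (show S.card = 1 by simpa using hc)
  have h2 := spec_count_iterate inv_injective hR a 1
  have h3 : a⁻¹ = a := by
    by_contra h3
    have h4 := Multiset.count_le_card a⁻¹ {b}
    rw [Function.iterate_one, Multiset.count_add, Multiset.count_replicate, if_neg (Ne.symm h3)]
      at h2
    rw [Multiset.card_singleton] at h4
    omega
  have h0 : a ≠ 0 := spec_ne_zero_of_prod_eq_one h1 a (by simp)
  have h4 : a * a = 1 := by nth_rewrite 2 [← h3]; exact mul_inv_cancel₀ h0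
  have h5 : b = 1 := by simpa [← mul_assoc, h4] using h1
  subst h5
  exact (mul_self_eq_one_iff.1 h4).imp (by rintro rfl; rfl) (by rintro rfl; rfl)

variable {F : Type*} [Field F] [Fintype F] (p : ℕ) [Fact p.Prime] [CharP F p]

theorem sq_sub (a m : ℕ) : a ^ (2 * m) - 1 = (a ^ m + 1) * (a ^ m - 1) := by
  rw [← Nat.sq_sub_sq, one_pow, ← pow_mul, mul_comm]

theorem not_omega (hp : p ≠ 2) (h2 : (2 : F) ≠ 0) {m : ℕ} (hm : 2 ≤ m)
    {g : OG (quad_odd (m + 1) F)} (hg : g ∈ commutator (OG (quad_odd (m + 1) F))) :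
    orderOf g ≠ p * (Fintype.card F ^ m + 1) := by
  classical
  intro h
  have hpp : p.Prime := Fact.out
  have hq := spec_odd_card (F := F) p hp
  have hQ := quad_odd_nondeg (m := m + 1) h2
  have hcop := (spec_coprime_card_pow (F := F) p (show 0 < m by omega)).2
  obtain ⟨r, hr, h1, -⟩ := NT.zsigmondy' (a := Fintype.card F) (n := 2 * m) Fintype.one_lt_card
    (by omega) (fun h => by rw [h.1] at hq; exact absurd hq (by decide)) (by omega)
  have h3 : r ∣ Fintype.card F ^ m + 1 := by
    have h4 := (h1 _).2 dvd_rfl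
    rw [sq_sub, hr.dvd_mul] at h4
    exact h4.resolve_right fun h5 => absurd (Nat.le_of_dvd (by omega) ((h1 _).1 h5)) (by omega)
  have hr2 : 2 < r := lt_of_le_of_ne hr.two_le fun h4 =>
    absurd (Nat.le_of_dvd one_pos ((h1 1).1 (by
      rw [← h4, pow_one]; exact (Nat.Odd.sub_odd hq odd_one).two_dvd))) (by omega)
  rw [← orderOf_specO] at h
  set x := specO (quad_odd (m + 1) F) g with hx
  have hxu : IsUnit x := (Group.isUnit g).map _
  obtain ⟨μ, hμ, h4⟩ := spec_exists_dvd_orderOf (K := AlgebraicClosure F) p (x := x) hr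
    (by rintro rfl; exact hr.ne_one (hcop.symm.eq_one_of_dvd h3)) (h ▸ h3.mul_left _)
  have h0 := ne_zero_of_mem_evs hxu hμ
  have hne := spec_ne_inv_of_dvd hr2 h4 h0
  have hall : ∀ ν ∈ evs (AlgebraicClosure F) x, ν ^ (Fintype.card F ^ m + 1) = 1 := fun ν hν =>
    spec_eq_one_of_pow_char_pow p (b := 1) (by
      rw [← pow_mul, pow_one, mul_comm, ← h]
      exact pow_eq_one_of_mem_evs (pow_orderOf_eq_one _) hν)
  obtain ⟨e, R, he0, he, hnd, hmin, hR, hR', hdis⟩ := spec_split
    (spec_pow_card_injective (F := F)) (evs_map_frob x) (evs_specO_map hQ g) hμ hne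
  obtain rfl : e = m := by
    refine Nat.dvd_antisymm (hmin m (Or.inr ((spec_pow_eq_inv_iff h0).2 (hall μ hμ))))
      (Nat.dvd_of_mul_dvd_mul_left two_pos ((h1 _).1 ?_))
    rw [sq_sub]
    exact (spec_orderOf_dvd_pm h0 he).elim (fun h => (h4.trans h).mul_left _)
      fun h => (h4.trans h).mul_right _
  have hc : R.card = 3 := by
    have := congrArg Multiset.card hR
    rw [evs_card, o_finrank_odd, Multiset.card_add, card_specPM] at this
    omega
  have hprod : R.prod = 1 := by
    have := evs_prod_of_mem (K := AlgebraicClosure F) h2 hQ hg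
    rwa [hR, Multiset.prod_add, prod_specPM h0, one_mul] at this
  have hcount : ∀ S ≤ R, (∀ ν, S.count ν ≤ 1) → ∀ ν,
      (specPM (Fintype.card F) μ e + S).count ν ≤ 1 := fun S hS h5 ν => by
    rw [Multiset.count_add]
    by_cases hν : ν ∈ S
    · rw [Multiset.count_eq_zero_of_notMem (hdis (by omega) ν (Multiset.mem_of_le hS hν)), zero_add]
      exact h5 ν
    · rw [Multiset.count_eq_zero_of_notMem hν]
      exact Multiset.nodup_iff_count_le_one.1 hnd ν
  have hss : aeval x (X ^ (Fintype.card F ^ e + 1) - 1 : F[X]) ^ 1 ≠ 0 := fun h5 => by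
    rw [pow_one, map_sub, map_pow, aeval_X, map_one, sub_eq_zero, ← orderOf_dvd_iff_pow_eq_one,
      h] at h5
    exact hpp.ne_one (hcop.symm.eq_one_of_dvd ((dvd_mul_right _ _).trans h5))
  have hall' : ∀ ν ∈ evs (AlgebraicClosure F) x,
      aeval ν (X ^ (Fintype.card F ^ e + 1) - 1 : F[X]) = 0 := fun ν hν => by simp [hall ν hν]
  rcases three hc hR' hprod (fun h5 => hss (aeval_pow_eq_zero_of_count_le
    (hR ▸ hcount R le_rfl h5) hall')) with rfl | rfl
  · obtain ⟨t, ht⟩ := (hq.pow (n := e)).add_one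
    have h5 := (spec_ospin_orbit h2 hQ (k := 3) (t := t) (by rintro rfl; simp at hne)
      (Or.inr (by omega)) (by rw [two_mul, ← ht, hall μ hμ]) hR).1
      ((mem_commutator_OG_iff_of_two_ne_zero hQ h2 g).1 hg).2
    have h6 := pow_mul_eq_of_evs (K := AlgebraicClosure F) p (x := x) (k := t) (c := 1)
      (fun ν hν => by
        rw [hR, Multiset.mem_add] at hν
        rw [map_one]
        rcases hν with hν | hν
        · exact (SpecOrb.of_mem_specPM hν).pow_eq_one h5
        · rw [Multiset.eq_of_mem_replicate (n := 3) hν, one_pow]) (Nat.lt_pow_self hpp.one_lt).le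
    rw [one_pow, map_one, ← orderOf_dvd_iff_pow_eq_one, h] at h6
    have h7 := Nat.le_of_dvd (by omega) ((hcop.pow_right _).dvd_of_dvd_mul_right
      ((dvd_mul_left _ _).trans h6))
    omega
  · refine hss (spec_aeval_pow_eq_zero_erase h2 hQ.1 (fun u v => QuadraticMap.polar_comm _ u v)
      (specO_isometry g) (a := -1) (by simp) (by simp [det_specO_of_mem h2 hQ hg]) ?_ hall')
    have hm1 := spec_neg_one_ne_one (K := AlgebraicClosure F) p hp
    rw [hR, map_neg, map_one, Multiset.erase_add_right_pos _ (by simp)]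
    refine hcount _ (Multiset.erase_le _ _) fun ν => ?_
    rw [Multiset.insert_eq_cons, Multiset.erase_cons_head]
    exact Multiset.nodup_iff_count_le_one.1 (by simpa using hm1) ν

/-- Let F be a finite field of odd order and n ≥ 3. The simple orthogonal group PΩ(2n+1, F) (type B_n) and the projective symplectic group PSp(2n, F) (type C_n), which have the same order, do not have the same set of element orders. -/
theorem result {F : Type*} [Field F] [Fintype F] (hodd : Odd (Fintype.card F)) (n : ℕ) (hn : 3 ≤ n) :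
    Set.range (orderOf : Cfsg.POmega F (Cfsg.quadFormOdd n F) → ℕ) ≠ Set.range (orderOf : Cfsg.PSp n F → ℕ) := by
  obtain ⟨p, hp⟩ := CharP.exists F
  have hpp : p.Prime := CharP.char_is_prime F p
  have := Fact.mk hpp
  have hp2 : p ≠ 2 := by
    rintro rfl
    obtain ⟨k, -, hk⟩ := FiniteField.card F 2
    exact (Nat.not_even_iff_odd.2 hodd) (even_iff_two_dvd.2 (hk ▸ dvd_pow_self 2 k.ne_zero))
  have h2 : (2 : F) ≠ 0 := fun h => hp2 ((Nat.prime_dvd_prime_iff_eq hpp Nat.prime_two).1
    ((CharP.cast_eq_zero_iff F p 2).1 (by exact_mod_cast h)))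
  obtain ⟨m, rfl⟩ := Nat.exists_eq_add_one_of_ne_zero (show n ≠ 0 by omega)
  intro h
  obtain ⟨μ, h0, h1, -⟩ := spec_exists_torus_gen (F := F) p (AlgebraicClosure F)
    (show 0 < m by omega) (Or.inr dvd_rfl)
  obtain ⟨x, c, -, h3, h4, h5⟩ := spec_exists_PSp_block (F := F) (n := m + 1) (e := m) p hp2
    (neg_ne_zero.2 h0) (by omega) (Or.inr (by
      rw [hodd.pow.neg_pow, (spec_pow_eq_inv_iff h0).2 (h1 ▸ pow_orderOf_eq_one μ), inv_neg]))
  have h6 : μ ^ orderOf x = 1 := by
    have := (h3 (by omega)).trans (h4 (by omega)).symm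
    rwa [neg_pow, mul_eq_left₀ (pow_ne_zero _ (by simp))] at this
  have h7 := spec_mem_of_dvd x ((spec_coprime_card_pow (F := F) p
    (show 0 < m by omega)).2.symm.mul_dvd_of_dvd_of_dvd
    (by simpa using h5 0 (by rw [pow_zero]; omega)) (h1 ▸ orderOf_dvd_of_pow_eq_one h6))
  rw [← h, specOm_iff h2 (by omega)] at h7
  obtain ⟨g, hg, h8⟩ := h7
  have := spec_finite_OG (Q := quad_odd (m + 1) F)
  obtain ⟨y, hy⟩ := spec_exists_of_dvd (⟨g, hg⟩ : commutator (OG (quad_odd (m + 1) F)))
    (n := p * (Fintype.card F ^ m + 1)) (by rwa [← Subgroup.orderOf_coe])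
  exact not_omega p hp2 h2 (by omega) y.2 (by rwa [Subgroup.orderOf_coe])

end Cfsg.Agent.S2362
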