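import Mathlib
import Cfsg.Statements.S2364
import Cfsg.Agent.Cl.ClassOrd

set_option autoImplicit false
open Cfsg

namespace Cfsg.Agent.S2364

/-- Let F be a finite field of characteristic p, n ≥ 4, and let a, b be commuting elements of PSL(n, F) with a of order p. Then every prime divisor of the order of b divides the order of SL(n − 2, F). -/
theorem result {F : Type*} [Field F] [Fintype F] (p : ℕ) [Fact p.Prime] [CharP F p] (n : ℕ) (hn : 4 ≤ n)
    (a b : Matrix.ProjectiveSpecialLinearGroup (Fin n) F) (ha : orderOf a = p) (hab : Commute a b) :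
    (orderOf b).primeFactors ⊆ (Nat.card (Matrix.SpecialLinearGroup (Fin (n - 2)) F)).primeFactors := by
  rw [Cl.Cls.card_SL_eq]
  exact Cl.Cls.primeFactors_subset_eOrd (Cl.Cls.zpow_card_injective F (AlgebraicClosure F))
    (Cl.Cls.char_dvd_card F p) (Cl.Cls.two_le_natAbs_card F) hn
    ((Cl.Cls.range_orderOf_PSL _ p).trans (by rw [Fintype.card_fin])) ha hab

end Cfsg.Agent.S2364
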