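import Cfsg.Statements.S2367
import Cfsg.Agent.Sym.Order

set_option autoImplicit false
open Cfsg

namespace Cfsg.Agent.S2367

/-- The sporadic orders with their `2`-adic valuations. -/
def ords : List (ℕ × ℕ) :=
  [(7920, 4),
    (95040, 6),
    (443520, 7),
    (10200960, 7),
    (244823040, 10),
    (175560, 3),
    (604800, 7),
    (50232960, 7),
    (86775571046077562880, 21),
    (4157776806543360000, 21),
    (42305421312000, 18),
    (495766656000, 10),
    (64561751654400, 17),
    (4089470473293004800, 18),
    (1255205709190661721292800, 21),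
    (44352000, 9),
    (898128000, 7),
    (4030387200, 10),
    (145926144000, 14),
    (448345497600, 13),
    (460815505920, 9),
    (273030912000000, 14),
    (51765179004000000, 8),
    (90745943887872000, 15),
    (4154781481226426191177580544000000, 41),
    (808017424794512875886459904961710757005754368000000000, 46)]

theorem ords_spec : ∀ x ∈ ords, x.1 ≠ 0 ∧ x.1 ∣ (Nat.factorial 71) ^ 46 ∧ 2 ^ x.2 ∣ x.1 ∧
    ∀ p ∈ [3, 5, 7, 11, 13, 17, 19, 23, 29, 31, 37, 41, 43, 47, 53, 59, 61, 67, 71],
      p ^ 3 ∣ x.1 → ¬ p ^ 4 ∣ x.1 → p ^ 3 < 2 ^ x.2 := by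
  decide +kernel

theorem cube_lt (p : ℕ) (hp : 5 ≤ p) : p ^ 3 < 2 ^ (2 * p - 1) := by
  induction p, hp using Nat.le_induction with
  | base => norm_num
  | succ p hp ih =>
    rw [show 2 * (p + 1) - 1 = 2 * p - 1 + 2 by omega, pow_add]
    nlinarith [Nat.mul_le_mul_right (p * p) hp, Nat.mul_le_mul_right p hp]

/-- Let G be an alternating group of degree at least 5 or a simple group with the order of one of the 26 sporadic groups, and let p be an odd prime such that p³ is the exact power of p dividing the order of G. Then p³ is less than the 2-part of the order of G. -/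
theorem result {G : Type*} [Group G] [Finite G] (hG : Cfsg.IsAlternating G ∨ Cfsg.IsSporadic G)
    (p : ℕ) (hp : p.Prime) (hodd : p ≠ 2) (h3 : (Nat.card G).factorization p = 3) :
    p ^ 3 < 2 ^ (Nat.card G).factorization 2 := by
  rcases hG with ⟨n, hn, ⟨e⟩⟩ | hG
  · haveI : Nontrivial (Fin n) := Fin.nontrivial_iff_two_le.2 (by omega)
    have h1 : 2 * Nat.card G = n.factorial := by
      rw [Nat.card_congr e.toEquiv, two_mul_nat_card_alternatingGroup, Nat.card_perm]
      simp
    have h0 : Nat.card G ≠ 0 := Nat.card_pos.ne'
    have h2 : ∀ q, n.factorial.factorization q =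
        (Nat.factorization 2) q + (Nat.card G).factorization q := fun q => by
      rw [← h1, Nat.factorization_mul two_ne_zero h0, Finsupp.add_apply]
    have h4 := h2 p
    have h5 := h2 2
    rw [Nat.prime_two.factorization, Finsupp.single_eq_of_ne hodd, h3,
      Sym.factorization_factorial_eq hp] at h4
    rw [Nat.prime_two.factorization_self, Sym.factorization_factorial_eq Nat.prime_two,
      Sym.factorization_factorial_eq Nat.prime_two] at h5
    have h6 : 5 ≤ p ∧ n / p = 3 := by
      have h7 : n / p ≤ 3 := by omega
      have h8 := hp.two_le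
      have h9 : p ≠ 4 := by rintro rfl; norm_num at hp
      rcases Nat.lt_or_ge (n / p) p with h | h
      · rw [Nat.factorization_eq_zero_of_not_dvd (by rwa [hp.dvd_factorial, not_le])] at h4
        omega
      · obtain rfl : p = 3 := by omega
        have h10 : n / 3 = 3 := by omega
        rw [h10, Sym.factorization_factorial_eq hp] at h4
        omega
    have h7 : 3 * p ≤ n := by rw [← h6.2]; exact Nat.div_mul_le_self n p
    exact (cube_lt p h6.1).trans_le (Nat.pow_le_pow_right two_pos (by omega))
  · obtain ⟨k, hk⟩ : ∃ k, (Nat.card G, k) ∈ ords := by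
      rcases hG with h | h | h | h | h | h | h | h | h | h | h | h | h | h | h | h | h | h | h |
        h | h | h | h | h | h | h <;> rw [h.2] <;> simp [ords]
    obtain ⟨h0, h1, h2, h4⟩ := ords_spec _ hk
    have h5 : p ^ 3 ∣ Nat.card G := (hp.pow_dvd_iff_le_factorization h0).2 h3.ge
    have h6 : p ≤ 71 := hp.dvd_factorial.1
      (hp.dvd_of_dvd_pow (((dvd_pow_self p three_ne_zero).trans h5).trans h1))
    have h7 : p ∈ [3, 5, 7, 11, 13, 17, 19, 23, 29, 31, 37, 41, 43, 47, 53, 59, 61, 67, 71] := by
      clear h5 h3
      interval_cases p <;> first | decide | exact absurd rfl hodd | norm_num at hp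
    refine (h4 p h7 h5 ?_).trans_le (Nat.pow_le_pow_right two_pos
      ((Nat.prime_two.pow_dvd_iff_le_factorization h0).1 h2))
    rw [hp.pow_dvd_iff_le_factorization h0]
    simp [h3]

end Cfsg.Agent.S2367
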