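import Mathlib
import Cfsg.Statements.S2368
import Cfsg.Agent.Cl.LinearSylow

set_option autoImplicit false
open Cfsg

namespace Cfsg.Agent.S2368

/-- Let F be a finite field of characteristic p and m ≥ 1. Every element of GL(m, F) of p-power order has order less than p·m, and GL(m, F) has an element of p-power order at least m; so the largest order of a p-element of GL(m, F) is the least power of p that is at least m. -/
theorem result {F : Type*} [Field F] [Fintype F] (p : ℕ) [Fact p.Prime] [CharP F p] (m : ℕ) (hm : 1 ≤ m) :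
    (∀ g : Matrix.GeneralLinearGroup (Fin m) F, (∃ j : ℕ, orderOf g = p ^ j) → orderOf g < p * m) ∧
      ∃ g : Matrix.GeneralLinearGroup (Fin m) F, (∃ j : ℕ, orderOf g = p ^ j) ∧ m ≤ orderOf g := by
  have hp : p.Prime := Fact.out
  refine ⟨?_, Cl.regUnip F m, ⟨_, Cl.orderOf_regUnip p m⟩, ?_⟩
  · rintro g ⟨j, hj⟩
    have hu := (Cl.gl_exists_pow_eq_one_iff p g).1 ⟨j, by rw [← hj, pow_orderOf_eq_one]⟩
    have h1 := Cl.gl_pow_clog_eq_one p hu
    rw [Fintype.card_fin] at h1
    refine (orderOf_le_of_pow_eq_one (pow_pos hp.pos _) h1).trans_lt ?_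
    rcases hm.eq_or_lt with rfl | hm
    · simpa using hp.one_lt
    · have h2 := Nat.pow_pred_clog_lt_self hp.one_lt hm
      have h3 := Nat.clog_pos hp.one_lt hm
      obtain ⟨c, hc⟩ : ∃ c, Nat.clog p m = c + 1 := ⟨Nat.clog p m - 1, by omega⟩
      rw [hc] at h2 ⊢
      rw [pow_succ']
      exact Nat.mul_lt_mul_of_pos_left h2 hp.pos
  · rw [Cl.orderOf_regUnip p m]
    exact Nat.le_pow_clog hp.one_lt m

end Cfsg.Agent.S2368
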