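import Cfsg.Statements.S2369
import Cfsg.Agent.Chev.F4TwSyl

set_option autoImplicit false
open Cfsg

namespace Cfsg.Agent.S2369

/-- Let q = 2^(2m+1) with m ≥ 1 and let a, b be commuting elements of the large Ree group ²F₄(q) with a an involution. Then every prime divisor of the order of b divides q(q⁴ − 1). -/
theorem result {K : Type*} [Field K] [Fintype K] (m : ℕ) (hm : 1 ≤ m) (hK : Fintype.card K = 2 ^ (2 * m + 1))
    (a b : ↥(Cfsg.Lie.twistedF4 K (2 ^ m))) (ha : orderOf a = 2) (hab : Commute a b) :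
    (orderOf b).primeFactors ⊆ (2 ^ (2 * m + 1) * ((2 ^ (2 * m + 1)) ^ 4 - 1)).primeFactors := by
  have := Chev.F4T.charP_of_card hK
  revert a b
  rw [Chev.F4T.twistedF4_eq_frob hK]
  intro a b ha hab r hr
  have h1 := Nat.prime_of_mem_primeFactors hr
  have h2 := (Chev.F4T.frobTw hK).dvd_of_commute (ha ▸ dvd_rfl) hab h1 (Nat.dvd_of_mem_primeFactors hr)
  rw [Nat.card_eq_fintype_card, hK] at h2
  refine Nat.mem_primeFactors.2 ⟨h1, h2, mul_ne_zero (by positivity) ?_⟩
  have : 1 < (2 ^ (2 * m + 1)) ^ 4 := Nat.one_lt_pow (by norm_num) (Nat.one_lt_pow (by omega) (by norm_num))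
  omega

end Cfsg.Agent.S2369
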