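import Cfsg.Statements.S2370
import Cfsg.Agent.Chev.F4TwCount

set_option autoImplicit false
open Cfsg

namespace Cfsg.Agent.S2370

/-- Let q = 2^(2m+1) with m ≥ 1. Every element of 2-power order of the large Ree group ²F₄(q) has order at most 32. -/
theorem result {K : Type*} [Field K] [Fintype K] (m : ℕ) (hm : 1 ≤ m) (hK : Fintype.card K = 2 ^ (2 * m + 1))
    (x : ↥(Cfsg.Lie.twistedF4 K (2 ^ m))) (hx : ∃ j : ℕ, orderOf x = 2 ^ j) : orderOf x ≤ 32 := by
  have := Chev.F4T.charP_of_card hK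
  obtain ⟨j, hj⟩ := hx
  have h1 : (x : Chev.F4T.Γ K) ∈ Lie.chevF4.group K := by
    have := x.2
    generalize (x : Chev.F4T.Γ K) = y at this
    rw [Chev.F4T.twistedF4_eq_frob hK] at this
    exact this.1
  have h0 : x ^ 2 ^ j = 1 := by rw [← hj]; exact pow_orderOf_eq_one x
  have h2 : (⟨x, h1⟩ : Lie.chevF4.group K) ^ 2 ^ j = 1 := Subtype.ext (by
    have h4 := congrArg Subtype.val h0
    rw [Subgroup.coe_pow, Subgroup.coe_one] at h4 ⊢
    exact h4)
  have h3 : x ^ 2 ^ 5 = 1 := Subtype.ext (by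
    have h4 := congrArg Subtype.val (Chev.F4T.pow_thirtytwo h2)
    rw [Subgroup.coe_pow, Subgroup.coe_one] at h4 ⊢
    exact h4)
  exact Nat.le_of_dvd (by norm_num) (orderOf_dvd_of_pow_eq_one h3)

end Cfsg.Agent.S2370
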