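import Cfsg.Statements.S2372
import Cfsg.Agent.Chev.TwTab

set_option autoImplicit false
open Cfsg

namespace Cfsg.Agent.S2372

open Cfsg.Agent.Chev Cfsg.Lie

/-- The word. -/
def wrd : List (Fin 4) := [1, 0, 3, 2, 1, 2]

/-- The certificate. -/
def tb : TorTab :=
  { V := [[1, 0, 0, 0], [0, -1, 1, 0], [-1, 0, 1, -1], [0, -1, 1, -1], [-1, 0, 0, 0]]
    B := [[1, 0, 0, 0], [1, 0, 1, -1], [1, 1, 1, -1], [0, 1, 0, -1]]
    G := [[1, 0, -1, 2], [0, -1, 2, -1], [0, 0, -2, 0], [-2, 2, 0, 0]]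
    p := [1, 0, 0, 0]
    g := [2, 3, 2, 1]
    C := 2, m := 2, d := 1, a := 0, q0 := 2, q1 := 5 }

theorem ok1 : tb.OK1 chevF4.rank (chevF4.lwL (wrd.map Fin.val)) := by decide +kernel

theorem ok2 : tb.OK2 chevF4 (chevF4.lwL (wrd.map Fin.val)) := by decide +kernel

/-- The group F₄(q) contains a cyclic subgroup of order q⁴ + 1 which is its own centralizer. -/
theorem result {F : Type*} [Field F] [Fintype F] (q : ℕ) (hF : Fintype.card F = q) :
    ∃ H : Subgroup ↥(Cfsg.Lie.chevF4.group F), IsCyclic ↥H ∧ Nat.card ↥H = q ^ 4 + 1 ∧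
      Subgroup.centralizer (H : Set ↥(Cfsg.Lie.chevF4.group F)) = H := by
  refine TorTab.exists_selfCent_finite F (stTor_injective_F4 _) wrd hF tb ok1 ok2
    (hF ▸ Fintype.one_lt_card) (N := q ^ 4 + 1) ?_ ?_ (one_mul _).symm (fun _ _ => one_dvd _)
    fun k hk => ?_
  · change _ = tb.N 4 q
    simp [TorTab.N, tb, sumL, List.range_succ]
  · intro h
    obtain ⟨t, rfl⟩ := Nat.exists_eq_add_of_le h
    change 2 * 2 * ∑ k ∈ Finset.range 4, _ < _
    simp only [tb, Finset.sum_range_succ, Finset.sum_range_zero]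
    push_cast
    rw [← sub_pos]; ring_nf; positivity
  · exact_mod_cast (by simpa [tb] using hk : ((q ^ 4 + 1 : ℕ) : ℤ) ∣ k)

end Cfsg.Agent.S2372
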