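import Cfsg.Statements.S2374
import Cfsg.Agent.Chev.TwTab

set_option autoImplicit false
open Cfsg

namespace Cfsg.Agent.S2374

open Cfsg.Agent.Chev Cfsg.Lie

/-- The word. -/
def wrd : List (Fin 7) := [3, 4, 3, 1, 2, 1, 5, 0, 3, 2, 4, 1, 5, 6, 5, 0, 6]

/-- The certificate. -/
def tb : TorTab :=
  { V := [[0, 0, 0, 0, 0, 0, 1], [0, 1, 1, -1, 0, 0, 0], [0, 1, 0, -1, 0, 1, 0], [1, 1, 0, -1, 0, 0, 0], [0, 0, 0, -1, 1, 0, 0], [0, 0, 0, 0, 0, -1, 1], [-1, -1, 1, 0, 0, 0, 0], [-1, 0, 0, 1, -1, 0, 0]]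
    B := [[1, 0, -1, 1, 0, -1, 0], [0, 1, 0, -1, 0, 0, -1], [1, 1, -1, 0, 0, -1, 0], [1, 1, -1, -1, 0, -1, -1], [1, 1, -1, -1, 1, -1, -1], [1, 0, 0, 0, 0, -1, 0], [1, 0, 0, 0, 0, 0, 0]]
    G := [[-1, 1, 1, -2, 0, 1, 0], [0, 0, -1, 0, 0, 0, 0], [0, -1, 0, 0, 0, 0, -1], [0, 1, 0, 0, 1, 0, 0], [0, -1, 1, 1, -2, 0, 1], [1, 0, -1, 0, 1, 0, 0], [-1, 0, 0, 0, 0, -1, 0]]
    p := [1, 0, -1, 1, 1, -1, 0]
    g := [2, 3, 4, 6, 5, 4, 3]
    C := 2, m := 1, d := 2, a := 5, q0 := 2, q1 := 6 }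

theorem ok1 : tb.OK1 chevE7.rank (chevE7.lwL (wrd.map Fin.val)) := by decide +kernel

theorem ok2 : tb.OK2 chevE7 (chevE7.lwL (wrd.map Fin.val)) := by decide +kernel

/-- The group E₇(q) (the simple Chevalley group of type E₇) contains a cyclic subgroup of order (q⁴ − q² + 1)(q³ + 1)/gcd(2, q − 1) which is its own centralizer. -/
theorem result {F : Type*} [Field F] [Fintype F] (q : ℕ) (hF : Fintype.card F = q) :
    ∃ H : Subgroup ↥(Cfsg.Lie.chevE7.group F), IsCyclic ↥H ∧ Nat.card ↥H = (q ^ 4 - q ^ 2 + 1) * (q ^ 3 + 1) / Nat.gcd 2 (q - 1) ∧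
      Subgroup.centralizer (H : Set ↥(Cfsg.Lie.chevE7.group F)) = H := by
  have hq : 2 ≤ q := hF ▸ Fintype.one_lt_card
  have hN : (((q ^ 4 - q ^ 2 + 1) * (q ^ 3 + 1) : ℕ) : ℤ) = (q ^ 4 - q ^ 2 + 1) * (q ^ 3 + 1) := by
    have h1 : q ^ 2 ≤ q ^ 4 := Nat.pow_le_pow_right (by omega) (by omega)
    push_cast [h1]; ring
  have hp : Nat.Prime 2 := by norm_num
  have h1 : ((q - 1 : ℕ) : ℤ) = q - 1 := by push_cast [show 1 ≤ q by omega]; ring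
  have hz : 2 ∣ q - 1 ↔ (q : ZMod 2) = 1 := by
    rw [← ZMod.natCast_eq_zero_iff, Nat.cast_sub (by omega), Nat.cast_one, sub_eq_zero]
  have hd : 2 ∣ (q ^ 4 - q ^ 2 + 1) * (q ^ 3 + 1) ↔ 2 ∣ q - 1 := by
    rw [hz, ← ZMod.natCast_eq_zero_iff, ← Int.cast_natCast, hN]
    push_cast
    generalize (q : ZMod 2) = x
    revert x; decide
  have hg : Nat.gcd 2 (q - 1) ∣ (q ^ 4 - q ^ 2 + 1) * (q ^ 3 + 1) := by
    rcases (Nat.dvd_prime hp).1 (Nat.gcd_dvd_left 2 (q - 1)) with e | e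
    · rw [e]; exact one_dvd _
    · rw [e]; exact hd.2 (e ▸ Nat.gcd_dvd_right _ _)
  refine TorTab.exists_selfCent_finite F (stTor_injective_E7 _) wrd hF tb ok1 ok2 hq
    (N := (q ^ 4 - q ^ 2 + 1) * (q ^ 3 + 1)) ?_ ?_ (Nat.mul_div_cancel' hg).symm (fun i hi => ?_) fun k hk => ?_
  · rw [hN]
    change _ = tb.N 7 q
    simp [TorTab.N, tb, sumL, List.range_succ]; ring
  · intro h
    rw [hN]
    obtain ⟨t, rfl⟩ := Nat.exists_eq_add_of_le h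
    change 2 * 2 * ∑ k ∈ Finset.range 7, _ < _
    simp only [tb, Finset.sum_range_succ, Finset.sum_range_zero]
    push_cast
    rw [← sub_pos]; ring_nf; positivity
  · rcases (Nat.dvd_prime hp).1 (Nat.gcd_dvd_left 2 (q - 1)) with e | e
    · rw [e]; exact one_dvd _
    · have h2 := hz.1 (e ▸ Nat.gcd_dvd_right _ _)
      have h3 : ∀ i < chevE7.rank, (2 : ℤ) ∣ chevE7.expL tb.B 1 (chevE7.simple i) := by
        decide +kernel
      have h4 := (ZMod.intCast_zmod_eq_zero_iff_dvd _ 2).2 (h3 i hi)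
      rw [e, ← ZMod.intCast_zmod_eq_zero_iff_dvd, ← h4]
      simp only [ChevalleyDatum.expL, sumL_eq]
      push_cast
      rw [h2]
  · have h2 : tb.d = (2 : ℕ) := rfl
    rw [h2] at hk
    have h3 : (q ^ 4 - q ^ 2 + 1) * (q ^ 3 + 1) ∣ 2 * k := by exact_mod_cast hk
    rcases (Nat.dvd_prime hp).1 (Nat.gcd_dvd_left 2 (q - 1)) with e | e
    · rw [e, Nat.div_one]
      refine Nat.Coprime.dvd_of_dvd_mul_left (Nat.Coprime.symm ((Nat.Prime.coprime_iff_not_dvd hp).2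
        fun h => ?_)) h3
      have := Nat.dvd_gcd (dvd_refl 2) (hd.1 h)
      rw [e] at this
      omega
    · rw [e] at hg ⊢
      exact (Nat.div_dvd_iff_dvd_mul hg hp.pos).2 h3

end Cfsg.Agent.S2374
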