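import Cfsg.Statements.S2375
import Cfsg.Agent.Chev.TwTab

set_option autoImplicit false
open Cfsg

namespace Cfsg.Agent.S2375

open Cfsg.Agent.Chev Cfsg.Lie

/-- The word. -/
def wrd : List (Fin 8) := [4, 3, 2, 0, 1, 6, 7, 5]

/-- The certificate. -/
def tb : TorTab :=
  { V := [[0, 0, 0, 0, 0, 0, 0, 1], [0, 0, 0, 0, 0, 1, -1, 0], [0, 0, 0, 1, -1, 0, 0, 0], [0, 1, 1, -1, 0, 0, 0, 0], [1, 0, 0, 0, -1, 1, 0, 0], [0, 1, 0, 0, -1, 1, -1, 1], [0, 0, 1, 0, -1, 1, -1, 0], [1, 1, 0, 0, -1, 0, 0, 0], [0, 1, 1, -1, -1, 1, 0, 0]]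
    B := [[1, 1, 0, 0, 0, -1, 0, 1], [0, 1, 1, 1, 0, 0, -1, 0], [1, 1, 1, 1, 0, -1, 0, 0], [1, 2, 2, 1, 0, -1, -1, 0], [1, 2, 1, 1, 0, -1, -1, 0], [0, 1, 1, 1, 1, 0, -1, -1], [0, 0, 1, 1, 1, 0, -1, -1], [1, 0, 0, 0, 0, 0, 0, 0]]
    G := [[-1, -1, 1, 1, 0, 1, 0, -2], [1, 0, 0, -1, 0, -1, 1, 0], [0, 1, 0, -1, 0, 0, -1, 1], [0, 0, -1, 1, 0, 0, 0, 0], [-1, -1, 1, 0, 1, 1, 0, -1], [1, 0, 0, 0, -1, -1, 0, 1], [1, 1, -1, -1, -1, 0, 1, 1], [-2, 0, 1, 1, 1, 0, -1, -1]]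
    p := [1, 1, 0, -1, -1, -1, 0, 1]
    g := [2, 3, 4, 6, 5, 4, 3, 2]
    C := 2, m := 1, d := 1, a := 0, q0 := 2, q1 := 5 }

theorem ok1 : tb.OK1 chevE8.rank (chevE8.lwL (wrd.map Fin.val)) := by decide +kernel

theorem ok2 : tb.OK2 chevE8 (chevE8.lwL (wrd.map Fin.val)) := by decide +kernel

/-- The group E₈(q) contains a cyclic subgroup of order q⁸ + q⁷ − q⁵ − q⁴ − q³ + q + 1 which is its own centralizer. -/
theorem result {F : Type*} [Field F] [Fintype F] (q : ℕ) (hF : Fintype.card F = q) :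
    ∃ H : Subgroup ↥(Cfsg.Lie.chevE8.group F), IsCyclic ↥H ∧ Nat.card ↥H = q ^ 8 + q ^ 7 - q ^ 5 - q ^ 4 - q ^ 3 + q + 1 ∧
      Subgroup.centralizer (H : Set ↥(Cfsg.Lie.chevE8.group F)) = H := by
  have hq : 2 ≤ q := hF ▸ Fintype.one_lt_card
  have hN : ((q ^ 8 + q ^ 7 - q ^ 5 - q ^ 4 - q ^ 3 + q + 1 : ℕ) : ℤ) =
      q ^ 8 + q ^ 7 - q ^ 5 - q ^ 4 - q ^ 3 + q + 1 := by
    have h1 : q ^ 5 + q ^ 4 + q ^ 3 ≤ q ^ 8 + q ^ 7 := by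
      obtain ⟨t, rfl⟩ := Nat.exists_eq_add_of_le hq
      zify
      rw [← sub_nonneg]; ring_nf; positivity
    have h2 : q ^ 8 + q ^ 7 - q ^ 5 - q ^ 4 - q ^ 3 = q ^ 8 + q ^ 7 - (q ^ 5 + q ^ 4 + q ^ 3) := by
      omega
    rw [h2]; push_cast [h1]; ring
  refine TorTab.exists_selfCent_finite F (stTor_injective_E8 _) wrd hF tb ok1 ok2 hq
    (N := q ^ 8 + q ^ 7 - q ^ 5 - q ^ 4 - q ^ 3 + q + 1) ?_ ?_ (one_mul _).symm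
    (fun _ _ => one_dvd _) fun k hk => ?_
  · rw [hN]
    change _ = tb.N 8 q
    simp [TorTab.N, tb, sumL, List.range_succ]; ring
  · intro h
    rw [hN]
    obtain ⟨t, rfl⟩ := Nat.exists_eq_add_of_le h
    change 2 * 2 * ∑ k ∈ Finset.range 8, _ < _
    simp only [tb, Finset.sum_range_succ, Finset.sum_range_zero]
    push_cast
    rw [← sub_pos]; ring_nf; positivity
  · have : tb.d = 1 := rfl
    rw [this, one_mul] at hk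
    exact_mod_cast hk

end Cfsg.Agent.S2375
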