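import Cfsg.Statements.S2379
import Cfsg.Agent.Cl.GLSyl
import Cfsg.Agent.S2380
-- import your own Cfsg.Agent.* helpers here

set_option autoImplicit false
open Cfsg

namespace Cfsg.Agent.S2379

open Cfsg.Agent.Cl Equiv

/-- Sylow subgroups of `SL_n(q)` for large primes. Let `F` be a field with `q` elements and `r` a prime with `r > n` and `r ∤ q` (so `r` does not divide the order `n!` of the Weyl group). Let `d` be the multiplicative order of `q` modulo `r`, `a` the number of integers `i` with `2 ≤ i ≤ n` divisible by `d` (the degrees of the Weyl group are `2, …, n`), and `m` the `r`-part of the value at `q` of the `d`-th cyclotomic polynomial. Then every Sylow `r`-subgroup of `SL_n(q)` is a direct product of `a` cyclic groups of order `m`. -/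
theorem result {F : Type*} [Field F] [Fintype F] {q : ℕ} (hq : Fintype.card F = q) (n : ℕ)
    (r : ℕ) [Fact r.Prime] (hrn : n < r) (hrq : ¬ r ∣ q) (P : Sylow r (Matrix.SpecialLinearGroup (Fin n) F)) :
    Nonempty (↥(P : Subgroup (Matrix.SpecialLinearGroup (Fin n) F)) ≃*
      (Fin ((Finset.Icc 2 n).filter (fun i => orderOf (q : ZMod r) ∣ i)).card →
        Multiplicative (ZMod (r ^ padicValNat r ((Polynomial.cyclotomic (orderOf (q : ZMod r)) ℤ).eval (q : ℤ)).natAbs)))) := by
  subst hq
  have hr : r.Prime := Fact.out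
  have h1 : 2 ≤ Fintype.card F := Fintype.one_lt_card
  have h2 : ((Fintype.card F : ℕ) : ZMod r) ≠ 0 := by rwa [Ne, ZMod.natCast_eq_zero_iff]
  have h0 := SpO.orderOf_cast_pos h2
  rcases n with _ | n
  · have : Subsingleton (P : Subgroup (Matrix.SpecialLinearGroup (Fin 0) F)) :=
      ⟨fun _ _ => Subtype.ext (Subtype.ext (Subsingleton.elim _ _))⟩
    have h3 : ((Finset.Icc 2 0).filter (fun i => orderOf (Fintype.card F : ZMod r) ∣ i)).card = 0 := by
      simp
    rw [h3]
    have := uniqueOfSubsingleton (1 : (P : Subgroup (Matrix.SpecialLinearGroup (Fin 0) F)))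
    exact ⟨MulEquiv.ofUnique⟩
  by_cases he : orderOf (Fintype.card F : ZMod r) = 1
  · have h3 : ((Finset.Icc 2 (n + 1)).filter
        (fun i => orderOf (Fintype.card F : ZMod r) ∣ i)).card =
        n / orderOf (Fintype.card F : ZMod r) := by
      simp [he]
    rw [h3]
    obtain ⟨f, hf⟩ := GLS.exists_gl_to_sl (F := F) n
    obtain ⟨Q⟩ : Nonempty (Sylow r (GL (Fin n) F)) := inferInstance
    obtain ⟨e⟩ := GLS.sylow_equiv_of_injective f hf (by
      have h4 := GLS.fact_sl (F := F) (r := r) n
      rw [GLS.fact_gl hrq, Finset.sum_range_succ] at h4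
      rw [GLS.fact_gl hrq]
      have h5 : padicValNat r (Fintype.card F ^ (n + 1) - 1) = padicValNat r (Fintype.card F - 1) := by
        rcases Nat.eq_zero_or_pos n with rfl | hn
        · simp
        · rw [SpO.padicValNat_pow_sub_one h1 h2 (by omega)
            (fun h => by have := Nat.le_of_dvd (by omega) h; omega), he, if_pos (one_dvd _), pow_one]
      omega) Q P
    obtain ⟨e'⟩ := S2380.result rfl n r (by omega) hrq Q
    exact ⟨e.symm.trans e'⟩
  · have h3 : ((Finset.Icc 2 (n + 1)).filter
        (fun i => orderOf (Fintype.card F : ZMod r) ∣ i)).card =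
        (n + 1) / orderOf (Fintype.card F : ZMod r) := by
      rw [← Nat.Ioc_filter_dvd_card_eq_div]
      congr 1
      ext i
      simp only [Finset.mem_filter, Finset.mem_Icc, Finset.mem_Ioc]
      refine and_congr_left fun h => and_congr_left' ⟨fun _ => by omega, fun h' => ?_⟩
      by_contra h''
      obtain rfl : i = 1 := by omega
      exact he (Nat.dvd_one.1 h)
    rw [h3]
    obtain ⟨Q⟩ : Nonempty (Sylow r (GL (Fin (n + 1)) F)) := inferInstance
    obtain ⟨e⟩ := GLS.sylow_equiv_of_injective Matrix.SpecialLinearGroup.toGL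
      Matrix.SpecialLinearGroup.toGL_injective (by
      have h4 := GLS.fact_sl (F := F) (r := r) n
      rw [padicValNat.eq_zero_of_not_dvd (fun h => he (Nat.dvd_one.1
        ((Der.dvd_pow_sub_one_iff (by omega) 1).1 (by rwa [pow_one])))), zero_add] at h4
      exact h4) P Q
    obtain ⟨e'⟩ := S2380.result rfl (n + 1) r hrn hrq Q
    exact ⟨e.trans e'⟩

end Cfsg.Agent.S2379
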