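import Mathlib
import Cfsg.Statements.S2381
import Cfsg.Agent.Cl.ClassSpOSyl

set_option autoImplicit false
open Cfsg

namespace Cfsg.Agent.S2381

/-- Sylow subgroups of `Sp_{2n}(q)` for large primes. Let `F` be a field with `q` elements and `r` an odd prime with `r > n` and `r ∤ q` (so `r` does not divide the order `2^n n!` of the Weyl group). Let `d` be the multiplicative order of `q` modulo `r`, `a` the number of `i` with `1 ≤ i ≤ n` and `d ∣ 2i` (the degrees being `2, 4, …, 2n`), and `m` the `r`-part of the value at `q` of the `d`-th cyclotomic polynomial. Then every Sylow `r`-subgroup of the symplectic group `Sp_{2n}(q)` is a direct product of `a` cyclic groups of order `m`. -/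
theorem result {F : Type*} [Field F] [Fintype F] {q : ℕ} (hq : Fintype.card F = q) (n : ℕ)
    (r : ℕ) [Fact r.Prime] (hr2 : r ≠ 2) (hrn : n < r) (hrq : ¬ r ∣ q) (P : Sylow r ↥(Matrix.symplecticGroup (Fin n) F)) :
    Nonempty (↥(P : Subgroup ↥(Matrix.symplecticGroup (Fin n) F)) ≃*
      (Fin ((Finset.Icc 1 n).filter (fun i => orderOf (q : ZMod r) ∣ 2 * i)).card →
        Multiplicative (ZMod (r ^ padicValNat r ((Polynomial.cyclotomic (orderOf (q : ZMod r)) ℤ).eval (q : ℤ)).natAbs)))) := by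
  subst hq
  have hr : r.Prime := Fact.out
  have h1 : 2 ≤ Fintype.card F := Fintype.one_lt_card
  have h2 : ((Fintype.card F : ℕ) : ZMod r) ≠ 0 := by rwa [Ne, ZMod.natCast_eq_zero_iff]
  have h0 := Cl.SpO.orderOf_cast_pos h2
  rw [Cl.SpO.padicValNat_cyclotomic h1 h2]
  set v := padicValNat r (Fintype.card F ^ orderOf (Fintype.card F : ZMod r) - 1) with hv
  obtain ⟨η, hη⟩ : ∃ η, Odd (orderOf (Fintype.card F : ZMod r)) ∧
      η = orderOf (Fintype.card F : ZMod r) ∨ Even (orderOf (Fintype.card F : ZMod r)) ∧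
      2 * η = orderOf (Fintype.card F : ZMod r) := by
    rcases Nat.even_or_odd (orderOf (Fintype.card F : ZMod r)) with ⟨k, h⟩ | h
    · exact ⟨k, .inr ⟨⟨k, h⟩, by omega⟩⟩
    · exact ⟨_, .inl ⟨h, rfl⟩⟩
  have h3 : 0 < η := by omega
  have h4 : ((Finset.Icc 1 n).filter
      fun i => orderOf (Fintype.card F : ZMod r) ∣ 2 * i).card = n / η := by
    simp only [← Cl.SpO.eta_dvd_iff hη]
    exact Nat.Ioc_filter_dvd_card_eq_div n η
  obtain ⟨A, hA⟩ := Cl.SpO.exists_sp_orderOf (F := F) h3 ((hr.odd_of_ne_two hr2).pow (n := v)) (by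
    rcases hη with ⟨-, rfl⟩ | ⟨-, h5⟩
    · exact .inl pow_padicValNat_dvd
    · have h6 : r ^ v ∣ (Fintype.card F ^ η + 1) * (Fintype.card F ^ η - 1) := by
        rw [← Nat.sq_sub_sq, one_pow, ← pow_mul', h5]
        exact pow_padicValNat_dvd
      refine .inr ((Nat.Coprime.pow_left _ (hr.coprime_iff_not_dvd.2 fun h => ?_)).dvd_of_dvd_mul_right h6)
      have := Nat.le_of_dvd h3 ((Cl.Der.dvd_pow_sub_one_iff (by omega) _).1 h)
      omega)
  obtain ⟨f, hf⟩ := Cl.SpO.exists_hom_pi_sp (F := F) h3 (Nat.div_mul_le_self n η)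
  obtain ⟨g, hg⟩ := Cl.SpO.exists_hom_zmod A
  rw [h4, ← hA]
  refine (Cl.wr_nonempty_equiv_sylow (f.comp (g.compLeft _)) (hf.comp hg.comp_left) ?_ P).map
    MulEquiv.symm
  rw [Nat.card_fun, Nat.card_fin, Nat.card_congr Multiplicative.toAdd, Nat.card_zmod, hA,
    ← pow_mul, Cl.sp_card_std, Nat.card_eq_fintype_card,
    Nat.factorization_mul (by positivity) (Cl.sp_prod_pos _ h1 _ _ (by simp)).ne',
    Nat.factorization_prod fun i _ => (Cl.SpO.pow_sub_one_pos h1 (by omega)).ne', Finsupp.add_apply,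
    Nat.factorization_eq_zero_of_not_dvd fun h => hrq (hr.dvd_of_dvd_pow h), zero_add,
    Finsupp.finsetSum_apply, Finset.sum_congr rfl fun i hi => (Nat.factorization_def _ hr).trans
      (Cl.SpO.padicValNat_pow_sub_one h1 h2 hr2 fun h => by
        have := Nat.le_of_dvd (by omega)
          ((hr.odd_of_ne_two hr2).coprime_two_right.dvd_of_dvd_mul_left h)
        have := Finset.mem_range.1 hi
        omega), ← Finset.sum_filter, Finset.sum_const, smul_eq_mul, mul_comm]
  simp only [← Cl.SpO.eta_dvd_iff hη, Nat.card_multiples, hv]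

end Cfsg.Agent.S2381
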