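import Mathlib
import Cfsg.Statements.S2384
import Cfsg.Agent.Cl.ClassSemis

set_option autoImplicit false
open Cfsg

namespace Cfsg.Agent.S2384

/-- In `SL_n(q)`, `q` a power of the prime `p`, the number of conjugacy classes of elements of order prime to `p` (the semisimple classes) is `q^(n-1)`. -/
theorem result {F : Type*} [Field F] [Fintype F] {q : ℕ} (hq : Fintype.card F = q) (p : ℕ) [Fact p.Prime] [CharP F p] (n : ℕ) (hn : 1 ≤ n) :
    Nat.card {c : ConjClasses (Matrix.SpecialLinearGroup (Fin n) F) //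
      ∃ g : Matrix.SpecialLinearGroup (Fin n) F, ConjClasses.mk g = c ∧ (orderOf g).Coprime p} = q ^ (n - 1) := by
  rw [Cl.Cls.card_conjClasses_eq_of_range _
    (fun g : Matrix.SpecialLinearGroup (Fin n) F => (g : Matrix (Fin n) (Fin n) F).charpoly)
    (fun f => f.Monic ∧ f.natDegree = n ∧ f.coeff 0 = (-1) ^ n),
    Cl.Cls.card_monic_coeff_zero_eq n hn, Nat.card_eq_fintype_card, hq]
  · intro a b ha hb
    have ha' := (Cl.Cls.isSS_SL_iff p a).2 ha
    rw [← ha'.isConj_iff ((Cl.Cls.isSS_SL_iff p b).2 hb)]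
    exact ⟨((Units.coeHom (Matrix (Fin n) (Fin n) F)).comp
      Matrix.SpecialLinearGroup.toGL).map_isConj, ha'.isConj_SL⟩
  · intro f
    constructor
    · rintro ⟨h1, h2, h3⟩
      obtain ⟨g, h4, h5⟩ := Cl.Cls.exists_SL_isSS_charpoly (n := Fin n) h1 (by simpa) (by simpa)
      exact ⟨g, (Cl.Cls.isSS_SL_iff p g).1 h4, h5⟩
    · rintro ⟨g, -, rfl⟩
      exact ⟨Matrix.charpoly_monic _, by simp, by simp [Cl.Cls.coeff_zero_charpoly]⟩

end Cfsg.Agent.S2384
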