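import Mathlib
import Cfsg.Statements.S2391
import Cfsg.Agent.Cl.LinearSylow

set_option autoImplicit false
open Cfsg

namespace Cfsg.Agent.S2391

open Matrix

variable {F : Type*} [Field F] {n : ℕ}

/-- The vectors fixed by `U` modulo `W`. -/
def next (U : Subgroup (SpecialLinearGroup (Fin n) F)) (W : Submodule F (Fin n → F)) :
    Submodule F (Fin n → F) where
  carrier := {v | ∀ u ∈ U, (u : Matrix (Fin n) (Fin n) F) *ᵥ v - v ∈ W}
  add_mem' {a b} ha hb u hu := by
    rw [mulVec_add, add_sub_add_comm]; exact W.add_mem (ha u hu) (hb u hu)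
  zero_mem' u _ := by simp
  smul_mem' c v hv u hu := by
    rw [mulVec_smul, ← smul_sub]; exact W.smul_mem c (hv u hu)

/-- The ascending flag of `U`. -/
def flag (U : Subgroup (SpecialLinearGroup (Fin n) F)) : ℕ → Submodule F (Fin n → F)
  | 0 => ⊥
  | i + 1 => next U (flag U i)

variable (U : Subgroup (SpecialLinearGroup (Fin n) F))

theorem flag_zero : flag U 0 = ⊥ := rfl

theorem flag_succ (i : ℕ) : flag U (i + 1) = next U (flag U i) := rfl

theorem mem_flag_succ (i : ℕ) (v : Fin n → F) :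
    v ∈ flag U (i + 1) ↔ ∀ u ∈ U, (u : Matrix (Fin n) (Fin n) F) *ᵥ v - v ∈ flag U i := Iff.rfl

theorem flag_le_succ (i : ℕ) : flag U i ≤ flag U (i + 1) := by
  induction i with
  | zero => exact bot_le
  | succ i ih => exact fun v hv u hu => ih (hv u hu)

theorem flag_eq_of_eq {i : ℕ} (h : flag U i = flag U (i + 1)) (j : ℕ) :
    flag U (i + j) = flag U i := by
  induction j with
  | zero => rfl
  | succ j ih => rw [← add_assoc, flag_succ, ih, ← flag_succ, ← h]

theorem flag_inv {g : SpecialLinearGroup (Fin n) F}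
    (hg : g ∈ Subgroup.normalizer (U : Set (SpecialLinearGroup (Fin n) F))) (i : ℕ) :
    ∀ v ∈ flag U i, (g : Matrix (Fin n) (Fin n) F) *ᵥ v ∈ flag U i := by
  induction i with
  | zero =>
    intro v hv
    rw [flag_zero, Submodule.mem_bot] at hv ⊢
    rw [hv, mulVec_zero]
  | succ i ih =>
    intro v hv u hu
    have h1 : g⁻¹ * u * g ∈ U := by
      simpa using (Subgroup.mem_normalizer_iff.1 (Subgroup.inv_mem _ hg) u).1 hu
    have := ih _ (hv _ h1)
    rwa [mulVec_sub, mulVec_mulVec, ← Matrix.SpecialLinearGroup.coe_mul, ← mul_assoc, ← mul_assoc,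
      _root_.mul_inv_cancel, one_mul, Matrix.SpecialLinearGroup.coe_mul, ← mulVec_mulVec] at this

theorem flag_top [Finite F] (p : ℕ) [Fact p.Prime] [CharP F p] (hU : IsPGroup p U) :
    flag U n = ⊤ := by
  obtain ⟨g, hg⟩ := Cl.exists_conj_le_unipRad p (Function.injective_id (α := Fin n))
    (hU.map Matrix.SpecialLinearGroup.toGL)
  have key : ∀ m : ℕ, ∀ v : Fin n → F,
      (∀ i : Fin n, m ≤ (i : ℕ) → ((g : Matrix (Fin n) (Fin n) F) *ᵥ v) i = 0) → v ∈ flag U m := by
    intro m
    induction m with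
    | zero =>
      intro v hv
      rw [flag_zero, Submodule.mem_bot]
      exact Matrix.eq_zero_of_mulVec_eq_zero g.det_ne_zero (funext fun i => hv i (Nat.zero_le _))
    | succ m ih =>
      intro v hv u hu
      refine ih _ fun i hi => ?_
      have h1 := Cl.mem_unipRad.1 (hg _ ⟨u, hu, rfl⟩)
      have e : (g : Matrix (Fin n) (Fin n) F) *ᵥ ((u : Matrix (Fin n) (Fin n) F) *ᵥ v) =
          ((g * Matrix.SpecialLinearGroup.toGL u * g⁻¹ : GL (Fin n) F) : Matrix (Fin n) (Fin n) F) *ᵥ
            ((g : Matrix (Fin n) (Fin n) F) *ᵥ v) := by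
        rw [mulVec_mulVec, mulVec_mulVec, ← Units.val_mul, inv_mul_cancel_right]
        rfl
      rw [mulVec_sub, e, Pi.sub_apply, sub_eq_zero]
      nth_rw 2 [← one_mulVec ((g : Matrix (Fin n) (Fin n) F) *ᵥ v)]
      generalize (g : Matrix (Fin n) (Fin n) F) *ᵥ v = w at hv ⊢
      simp only [mulVec, dotProduct]
      refine Finset.sum_congr rfl fun j _ => ?_
      rcases le_or_gt j i with h | h
      · exact congrArg (· * _) (h1 i j h)
      · rw [hv j (by have : (i : ℕ) < j := h; omega), mul_zero, mul_zero]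
  rw [eq_top_iff]
  exact fun v _ => key n v fun i hi => absurd i.2 (by omega)

/-- The Borel–Tits property of `SL_n(q)` in flag form: for a field `F` of characteristic `p` with finitely many elements and a non-trivial `p`-subgroup `U` of `SL_n(F)`, there is a flag `0 = V₀ < V₁ < ⋯ < V_{k+1} = F^n` with at least one proper non-zero member such that every element of the normaliser of `U` maps each `V_i` onto itself and every element of `U` acts trivially on each quotient `V_{i+1}/V_i` (so the normaliser lies in the parabolic subgroup of the flag and `U` in its unipotent radical). -/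
theorem result {F : Type*} [Field F] [Fintype F] (p : ℕ) [Fact p.Prime] [CharP F p] (n : ℕ)
    (U : Subgroup (Matrix.SpecialLinearGroup (Fin n) F)) (hU : IsPGroup p ↥U) (hne : U ≠ ⊥) :
    ∃ (k : ℕ) (V : Fin (k + 2) → Submodule F (Fin n → F)), 1 ≤ k ∧ StrictMono V ∧ V 0 = ⊥ ∧ V (Fin.last (k + 1)) = ⊤ ∧
      (∀ g ∈ Subgroup.normalizer (U : Set (Matrix.SpecialLinearGroup (Fin n) F)), ∀ i, (V i).map (Matrix.mulVecLin (g : Matrix (Fin n) (Fin n) F)) = V i) ∧
      (∀ u ∈ U, ∀ i : Fin (k + 1), ∀ v ∈ V i.succ, (u : Matrix (Fin n) (Fin n) F).mulVec v - v ∈ V (Fin.castSucc i)) := by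
  classical
  have hex : ∃ m, flag U m = ⊤ := ⟨n, flag_top U p hU⟩
  have h1 : flag U 1 ≠ ⊤ := fun h => hne ((Subgroup.eq_bot_iff_forall _).2 fun u hu => by
    apply Cl.sl_ext
    refine Matrix.toLin'.injective (LinearMap.ext fun v => ?_)
    have := (mem_flag_succ U 0 v).1 (h ▸ Submodule.mem_top) u hu
    rw [flag_zero, Submodule.mem_bot, sub_eq_zero] at this
    simpa using this)
  have h2 : 2 ≤ Nat.find hex := by
    rw [Nat.le_find_iff]
    intro m hm h
    interval_cases m
    · exact h1 (top_le_iff.1 (h ▸ flag_le_succ U 0))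
    · exact h1 h
  obtain ⟨k, hk⟩ : ∃ k, Nat.find hex = k + 1 := ⟨Nat.find hex - 1, by omega⟩
  have htop : flag U (k + 1) = ⊤ := hk ▸ Nat.find_spec hex
  refine ⟨k, fun i => flag U i, by omega, ?_, rfl, htop, ?_, ?_⟩
  · rw [Fin.strictMono_iff_lt_succ]
    intro i
    refine lt_of_le_of_ne (flag_le_succ U i) fun h => ?_
    have h3 := flag_eq_of_eq U (i := i) h (k + 1 - i)
    rw [Nat.add_sub_cancel' i.2.le, htop] at h3
    exact Nat.find_min hex (by rw [hk]; exact i.2) h3.symm
  · intro g hg i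
    refine le_antisymm ?_ fun v hv => ⟨_, flag_inv U (Subgroup.inv_mem _ hg) i v hv, ?_⟩
    · rintro _ ⟨v, hv, rfl⟩
      exact flag_inv U hg i v hv
    · rw [Matrix.mulVecLin_apply, Matrix.mulVec_mulVec, ← Matrix.SpecialLinearGroup.coe_mul,
        _root_.mul_inv_cancel, Matrix.SpecialLinearGroup.coe_one, Matrix.one_mulVec]
  · intro u hu i v hv
    exact hv u hu

end Cfsg.Agent.S2391
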