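import Mathlib
import Cfsg.Statements.S2393
import Cfsg.Agent.Cl.FormWeights
import Cfsg.Agent.Cl.SpSylow
-- import your own Cfsg.Agent.* helpers here

set_option autoImplicit false
open scoped MatrixGroups
open Cfsg

namespace Cfsg.Agent.S2393

open Matrix

theorem mul_eq_zero_or {F V : Type*} [Field F] [AddCommGroup V] [Module F V] (u w : V →ₗ[F] F)
    (h : ∀ x, u x * w x = 0) : u = 0 ∨ w = 0 := by
  by_contra hn
  rw [not_or] at hn
  obtain ⟨x, hx⟩ : ∃ x, u x ≠ 0 := not_forall.1 fun h => hn.1 (LinearMap.ext h)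
  obtain ⟨y, hy⟩ : ∃ y, w y ≠ 0 := not_forall.1 fun h => hn.2 (LinearMap.ext h)
  have h1 := (mul_eq_zero.1 (h x)).resolve_left hx
  have h2 := (mul_eq_zero.1 (h y)).resolve_right hy
  have h3 := h (x + y)
  rw [map_add, map_add, h1, h2, add_zero, zero_add] at h3
  exact mul_ne_zero hx hy h3

theorem exists_gl {F : Type*} [Field F] {m : ℕ} (f : Fin (m + 1) → F) (hf : 1 + f 0 ≠ 0) :
    ∃ X : GL (Fin (m + 1)) F, ∀ x, X.1 *ᵥ x = x + (f ⬝ᵥ x) • Pi.single 0 1 := by
  have h : ∀ x : Fin (m + 1) → F, (1 + vecMulVec (Pi.single (0 : Fin (m + 1)) (1 : F)) f) *ᵥ x =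
      x + (f ⬝ᵥ x) • Pi.single 0 1 := fun x => by
    rw [add_mulVec, one_mulVec, vecMulVec_mulVec]; simp
  have hu : IsUnit (1 + vecMulVec (Pi.single (0 : Fin (m + 1)) (1 : F)) f) := by
    rw [← Matrix.mulVec_injective_iff_isUnit]
    refine (injective_iff_map_eq_zero (Matrix.mulVecLin _)).2 fun x hx => ?_
    rw [mulVecLin_apply, h] at hx
    have h1 := congrArg (fun y => f ⬝ᵥ y) hx
    simp only [dotProduct_add, dotProduct_smul, dotProduct_single, mul_one, dotProduct_zero,
      smul_eq_mul] at h1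
    have h2 : f ⬝ᵥ x = 0 := (mul_eq_zero.1 (by linear_combination h1)).resolve_right hf
    rwa [h2, zero_smul, add_zero] at hx
  exact ⟨hu.unit, h⟩

/-- Congruence of matrices. -/
def cong {F : Type*} [Field F] {n : Type*} [Fintype n] (X : Matrix n n F) :
    Multiplicative (Matrix n n F) →* Multiplicative (Matrix n n F) :=
  MonoidHom.mk' (fun M => Multiplicative.ofAdd (X * M.toAdd * Xᵀ)) fun a b => by
    simp [Matrix.mul_add, Matrix.add_mul]

theorem fiber {F : Type*} [Field F] {m : ℕ} {L : Type*} [Monoid L]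
    (χ : Multiplicative (Matrix (Fin (m + 1)) (Fin (m + 1)) F) →* L)
    (hχ : χ (Multiplicative.ofAdd (vecMulVec (Pi.single 0 1) (Pi.single 0 1))) ≠ 1)
    (X : {f : Fin (m + 1) → F // 1 + f 0 ≠ 0} → GL (Fin (m + 1)) F)
    (hX : ∀ f x, (X f).1 *ᵥ x = x + (f.1 ⬝ᵥ x) • Pi.single 0 1) :
    ∃ τ : (Fin (m + 1) → F) → (Fin (m + 1) → F), ∀ f f',
      χ.comp (cong (X f).1) = χ.comp (cong (X f').1) → f.1 = f'.1 ∨ f.1 = τ f'.1 := by
  set e : Fin (m + 1) → F := Pi.single 0 1 with he
  obtain ⟨β, hβ, hβ0⟩ := Cl.exists_dual_weightKer (F := F) hχ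
  set b : (Fin (m + 1) → F) →ₗ[F] F :=
    { toFun := fun x => β (vecMulVec x e + vecMulVec e x)
      map_add' := fun x y => by
        rw [add_vecMulVec, vecMulVec_add, ← map_add]; congr 1; abel
      map_smul' := fun c x => by
        rw [smul_vecMulVec, vecMulVec_smul, ← smul_add, map_smul]; rfl } with hb
  have key : ∀ f f', χ.comp (cong (X f).1) = χ.comp (cong (X f').1) → f.1 = f'.1 ∨
      f.1 = fun i => -f'.1 i - (β (vecMulVec e e))⁻¹ * b (Pi.single i 1) := by
    intro f f' h
    have h1 : ∀ x, (dotProductBilin F F (f.1 - f'.1)) x *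
        (b + β (vecMulVec e e) • dotProductBilin F F (f.1 + f'.1)) x = 0 := fun x => by
      have h3 : ∀ (g : {f : Fin (m + 1) → F // 1 + f 0 ≠ 0}) (c : F),
          χ.comp (cong (X g).1) (Multiplicative.ofAdd (c • vecMulVec x x)) =
            χ (Multiplicative.ofAdd (c • vecMulVec ((X g).1 *ᵥ x) ((X g).1 *ᵥ x))) := fun g c => by
        change χ (Multiplicative.ofAdd ((X g).1 * (c • vecMulVec x x) * (X g).1ᵀ)) = _
        rw [Matrix.mul_smul, Matrix.smul_mul, mul_vecMulVec, vecMulVec_mul, vecMul_transpose]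
      have h4 := hβ0 _ (Cl.sub_mem_weightKer (F := F) (χ := χ)
        (x := vecMulVec ((X f).1 *ᵥ x) ((X f).1 *ᵥ x))
        (y := vecMulVec ((X f').1 *ᵥ x) ((X f').1 *ᵥ x)) fun c => by rw [← h3, ← h3, h])
      rw [hX, hX] at h4
      simp only [add_vecMulVec, vecMulVec_add, smul_vecMulVec, vecMulVec_smul, map_sub, map_add,
        map_smul, smul_eq_mul] at h4
      simp only [dotProductBilin_apply_apply, LinearMap.add_apply, LinearMap.smul_apply, hb,
        LinearMap.coe_mk, AddHom.coe_mk, map_add, sub_dotProduct, add_dotProduct, smul_eq_mul]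
      linear_combination h4
    rcases mul_eq_zero_or _ _ h1 with h3 | h3
    · refine Or.inl (funext fun i => ?_)
      simpa [sub_eq_zero] using LinearMap.congr_fun h3 (Pi.single i 1)
    · refine Or.inr (funext fun i => ?_)
      have h4 := LinearMap.congr_fun h3 (Pi.single i 1)
      simp only [dotProductBilin_apply_apply, LinearMap.add_apply, LinearMap.smul_apply,
        dotProduct_single, mul_one, Pi.add_apply, smul_eq_mul, LinearMap.zero_apply] at h4
      field_simp
      linear_combination h4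
  exact ⟨fun f i => -f i - (β (vecMulVec e e))⁻¹ * b (Pi.single i 1), key⟩

theorem card_le_two_mul {α β : Type*} {p : α → Prop} [Fintype {a // p a}] {S : Set β}
    (hS : S.Finite) (Φ : {a // p a} → β) (hΦ : ∀ a, Φ a ∈ S) (τ : α → α)
    (key : ∀ a a', Φ a = Φ a' → a.1 = a'.1 ∨ a.1 = τ a'.1) :
    Fintype.card {a // p a} ≤ 2 * S.ncard := by
  classical
  have hle := Finset.card_le_mul_card_image_of_maps_to (s := Finset.univ) (t := hS.toFinset)
    (f := Φ) (fun f _ => hS.mem_toFinset.2 (hΦ f)) 2 (fun ψ _ => by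
      rcases Finset.eq_empty_or_nonempty (Finset.univ.filter fun f => Φ f = ψ) with h | ⟨f', hf'⟩
      · rw [h]; simp
      · refine le_trans (Finset.card_le_card_of_injOn (t := {f'.1, τ f'.1}) Subtype.val
          (fun f hf => ?_) Subtype.val_injective.injOn) Finset.card_le_two
        simp only [Finset.coe_filter, Finset.mem_univ, true_and, Set.mem_setOf_eq,
          Finset.mem_filter] at hf hf'
        simpa using key f f' (hf.trans hf'.symm))
  rwa [← Set.ncard_eq_toFinset_card S hS, Finset.card_univ] at hle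

/-- A lower bound for representations in cross characteristic: for `n ≥ 2` and a field `F` with `q` elements, `q` odd, every homomorphism from the symplectic group `Sp_{2n}(F)` to `GL_d(K)`, `K` a field of characteristic different from that of `F`, whose kernel is central has `d ≥ q^(n-1)(q-1)/2`. -/
theorem result {F : Type*} [Field F] [Fintype F] {q : ℕ} (hq : Fintype.card F = q) (hodd : Odd q) (n : ℕ) (hn : 2 ≤ n)
    {K : Type*} [Field K] (hK : ringChar K ≠ ringChar F) {d : ℕ}
    (ρ : ↥(Matrix.symplecticGroup (Fin n) F) →* GL (Fin d) K) (hker : ρ.ker ≤ Subgroup.center ↥(Matrix.symplecticGroup (Fin n) F)) :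
    q ^ (n - 1) * (q - 1) / 2 ≤ d := by
  classical
  obtain ⟨m, rfl⟩ : ∃ m, n = m + 1 := ⟨n - 1, by omega⟩
  have h2 : (2 : F) ≠ 0 := Cl.sp_two_ne_zero_of_odd (by rwa [Nat.card_eq_fintype_card, hq])
  obtain ⟨S, hS, hcard, hsep, hnorm⟩ := Cl.exists_weight_set ρ
    (A := Multiplicative (Matrix (Fin (m + 1)) (Fin (m + 1)) F)) (by
      have := Cl.weight_natCast_ne_zero hK ((m + 1) * (m + 1))
      rwa [show Nat.card (Multiplicative (Matrix (Fin (m + 1)) (Fin (m + 1)) F)) =
        Nat.card F ^ ((m + 1) * (m + 1)) by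
          change Nat.card (Fin (m + 1) → Fin (m + 1) → F) = _
          rw [Nat.card_fun, Nat.card_fun, Nat.card_fin, pow_mul]])
    (Cl.spSiegel (Fin (m + 1)) F)
  set e : Fin (m + 1) → F := Pi.single 0 1 with he
  obtain ⟨χ, hχS, hχ⟩ := hsep (Multiplicative.ofAdd (vecMulVec e e)) fun h => by
    have h1 := congrFun (congrFun (Cl.spSiegel_mem_center (hker h)) 0) 0
    simp only [Matrix.add_apply, transpose_apply, vecMulVec_apply, he, Pi.single_eq_same, mul_one,
      Matrix.zero_apply] at h1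
    exact h2 (by linear_combination h1)
  choose X hX using fun f : {f : Fin (m + 1) → F // 1 + f 0 ≠ 0} => exists_gl f.1 f.2
  obtain ⟨τ, key⟩ := fiber χ hχ X hX
  have hmem : ∀ f, χ.comp (cong (X f).1) ∈ S := fun f =>
    hnorm (Cl.spLevi _ F (X f)) (cong (X f).1)
      (fun a => Cl.spSiegel_mul_spLevi (X f) a.toAdd) χ hχS
  have hle := card_le_two_mul (p := fun f : Fin (m + 1) → F => 1 + f 0 ≠ 0) hS
    (fun f => χ.comp (cong (X f).1)) hmem τ key
  rw [Fintype.card_fin] at hcard
  have hc : Fintype.card {f : Fin (m + 1) → F // 1 + f 0 ≠ 0} = q ^ m * (q - 1) := by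
    let E : {f : Fin (m + 1) → F // 1 + f 0 ≠ 0} ≃ (Fin m → F) × Fˣ :=
      { toFun := fun f => (Fin.tail f.1, Units.mk0 _ f.2)
        invFun := fun x => ⟨Fin.cons (x.2.1 - 1) x.1, by simp⟩
        left_inv := fun f => Subtype.ext (by simp)
        right_inv := fun x => by simp }
    rw [Fintype.card_congr E]
    simp [Fintype.card_units, hq]
  rw [hc] at hle
  exact Nat.div_le_of_le_mul (hle.trans (Nat.mul_le_mul_left 2 hcard))

end Cfsg.Agent.S2393
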