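import Mathlib
import Cfsg.Statements.S2394
import Cfsg.Agent.Cl.SpOrder
import Cfsg.Agent.Cl.LinearBasic
import Cfsg.Agent.NT.Zsigmondy
-- import your own Cfsg.Agent.* helpers here

set_option autoImplicit false
open scoped MatrixGroups
open Cfsg

namespace Cfsg.Agent.S2394

/-- The smallest degree of a faithful representation of the symplectic group `Sp_{2n}(q)` over its own field `F_q` is `2n`: every injective homomorphism from `Sp_{2n}(F)` to `GL_d(F)`, `F` the field with `q` elements, has `d ≥ 2n`. -/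
theorem result {F : Type*} [Field F] [Fintype F] (n : ℕ) {d : ℕ}
    (ρ : ↥(Matrix.symplecticGroup (Fin n) F) →* GL (Fin d) F) (hρ : Function.Injective ρ) : 2 * n ≤ d := by
--PROOF--
  by_contra hlt
  push Not at hlt
  have hdvd := Subgroup.card_dvd_of_injective ρ hρ
  rw [Cl.sp_card_std, Cl.card_gl', Fintype.card_fin] at hdvd
  have hq : 1 < Nat.card F := Finite.one_lt_card
  set q := Nat.card F
  rcases Nat.lt_or_ge 1 n with hn | hn
  · by_cases h6 : q = 2 ∧ 2 * n = 6
    · obtain ⟨hq2, hn3⟩ := h6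
      obtain rfl : n = 3 := by omega
      rw [hq2] at hdvd
      interval_cases d <;> revert hdvd <;> decide
    obtain ⟨r, hr, h1, h2⟩ := NT.zsigmondy (a := q) (n := 2 * n) hq (by omega) h6 (by omega)
    have h3 : r ∣ q ^ (n ^ 2) * ∏ i ∈ Finset.range n, (q ^ (2 * (i + 1)) - 1) := by
      refine Dvd.dvd.mul_left (h1.trans ?_) _
      have := Finset.dvd_prod_of_mem (fun i => q ^ (2 * (i + 1)) - 1)
        (Finset.mem_range.2 (show n - 1 < n by omega))
      rwa [show n - 1 + 1 = n by omega] at this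
    rcases (Nat.Prime.dvd_mul hr).1 (h3.trans hdvd) with h | h
    · have h4 : r ∣ q ^ (2 * n) := (hr.dvd_of_dvd_pow h).trans (dvd_pow_self _ (by omega))
      have h5 := Nat.dvd_sub h4 h1
      rw [Nat.sub_sub_self (Nat.one_le_pow _ _ (by omega))] at h5
      exact hr.one_lt.ne' (Nat.dvd_one.1 h5)
    · obtain ⟨i, hi, h⟩ := (Prime.dvd_finsetProd_iff hr.prime _).1 h
      exact h2 (i + 1) (by omega) (by have := Finset.mem_range.1 hi; omega) h
  · obtain rfl : n = 1 := by omega
    have h1 : q ∣ q ^ (d * (d - 1) / 2) * ∏ i ∈ Finset.range d, (q ^ (i + 1) - 1) :=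
      (Dvd.dvd.mul_right (by simp) _).trans hdvd
    interval_cases d
    · simp at h1; omega
    · simp at h1; omega

end Cfsg.Agent.S2394
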