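import Mathlib
import Cfsg.Statements.S2399
import Cfsg.Agent.Chev.StData2
-- import your own Cfsg.Agent.* helpers here

set_option autoImplicit false
open scoped MatrixGroups
open Cfsg

namespace Cfsg.Agent.S2399

/-- Projective representations in the natural characteristic lift: for each of the types G₂, B₂, D₄, F₄, E₆, E₇, E₈ over any field `K` (for types B₂ and G₂ the field must have more than two elements — the cases where the Chevalley group is not simple are set aside), every homomorphism from the Chevalley group to `PGL_n(L) = GL_n(L)/Z`, `L` a field of the same characteristic as `K`, lifts uniquely to a homomorphism from the group Δ presented by (R1), (R2) to `GL_n(L)`, compatibly with the projection Δ → Chevalley group sending x̄_r(t) to x_r(t). -/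
theorem result {K : Type*} [Field K] (D : Cfsg.Lie.ChevalleyDatum) (hD : D ∈ [Cfsg.Lie.chevG2, Cfsg.Lie.chevB2, Cfsg.Lie.chevD4, Cfsg.Lie.chevF4, Cfsg.Lie.chevE6, Cfsg.Lie.chevE7, Cfsg.Lie.chevE8]) (hK : D ∈ [Cfsg.Lie.chevB2, Cfsg.Lie.chevG2] → ∃ x : K, x ≠ 0 ∧ x ≠ 1)
    (θ : D.SteinbergCover K →* ↥(D.group K))
    (hθ : ∀ (r : ℕ) (t : K), r < D.nroots → ((θ (D.scGen K r t) : GL D.Idx K) : Matrix D.Idx D.Idx K) = D.x K r t)
    {L : Type*} [Field L] (hL : ringChar L = ringChar K) {n : ℕ}
    (φ : ↥(D.group K) →* GL (Fin n) L ⧸ Subgroup.center (GL (Fin n) L)) :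
    ∃! ψ : D.SteinbergCover K →* GL (Fin n) L, (QuotientGroup.mk' (Subgroup.center (GL (Fin n) L))).comp ψ = φ.comp θ := by
  open Cfsg.Agent.Chev Cfsg.Agent.Ch Cfsg.Lie.ChevalleyDatum in
  have := good_of_mem hD
  have hP : Group.IsPerfect (D.SteinbergCover K) := Group.isPerfect_def.2 (commutator_sc hD hK)
  have hP' : Group.IsPerfect (D.group K) := Group.isPerfect_def.2 (commutator_group hD hK)
  obtain rfl : θ = D.scProj K := D.sc_hom_ext fun r t => by
    rw [scProj_scGen]; exact D.eq_XG K (hθ r t r.2)
  have hπ : IsCE (QuotientGroup.mk' (Subgroup.center (GL (Fin n) L))) :=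
    ⟨QuotientGroup.mk'_surjective _, (QuotientGroup.ker_mk' _).le⟩
  have h1 := (hπ.pullbackFst φ).restrict_commutator
  suffices ∃ η : D.SteinbergCover K →* _, ((pullbackFst φ _).comp (commutator (pullback φ
      (QuotientGroup.mk' (Subgroup.center (GL (Fin n) L))))).subtype).comp η = D.scProj K by
    obtain ⟨η, hη⟩ := this
    have h2 : (QuotientGroup.mk' (Subgroup.center (GL (Fin n) L))).comp
        (((pullbackSnd φ _).comp (Subgroup.subtype _)).comp η) = φ.comp (D.scProj K) := by
      rw [← hη, ← MonoidHom.comp_assoc, ← MonoidHom.comp_assoc, ← pullback_comp]; rfl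
    exact ⟨_, h2, fun τ hτ => lift_unique_of_isPerfect hπ.cen (hτ.trans h2.symm)⟩
  by_cases h0 : ringChar K = 0
  · have : CharZero K := (CharP.ringChar_zero_iff_CharZero K).1 h0
    have : Infinite K := Infinite.of_injective _ Nat.cast_injective
    exact (liftable_of_mem hD ((Infinite.exists_subset_card_eq K 5).imp fun _ h => by omega)).exists_sc h1
  have hp : (ringChar K).Prime := (CharP.char_is_prime_or_zero K _).resolve_right h0
  have := Fact.mk hp
  have : CharP L (ringChar K) := hL ▸ ringChar.charP L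
  have key : ∀ z : commutator (pullback φ (QuotientGroup.mk' (Subgroup.center (GL (Fin n) L)))),
      ((pullbackFst φ _).comp (Subgroup.subtype _)) z = 1 → ∃ c : Lˣ,
        z.1.1.2 = Matrix.GeneralLinearGroup.scalar (Fin n) c ∧ c ^ n = 1 ∧ z.1.1.1 = 1 := by
    intro z hz
    have hz1 : z.1.1.1 = 1 := hz
    have h2 := pullback_comm z.1
    rw [hz1, map_one, eq_comm, ← MonoidHom.mem_ker, QuotientGroup.ker_mk'] at h2
    obtain ⟨c, hc⟩ := Matrix.GeneralLinearGroup.center_eq_range_scalar.le h2
    refine ⟨c, hc.symm, ?_, hz1⟩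
    have h3 : commutator _ ≤ (Matrix.GeneralLinearGroup.det.comp (pullbackSnd φ
      (QuotientGroup.mk' (Subgroup.center (GL (Fin n) L))))).ker :=
      Abelianization.commutator_subset_ker _
    have h4 : Matrix.GeneralLinearGroup.det z.1.1.2 = 1 := h3 z.2
    rw [← hc] at h4
    apply Units.ext
    simpa [Matrix.GeneralLinearGroup.scalar] using congrArg Units.val h4
  have ht : ∀ z : commutator (pullback φ (QuotientGroup.mk' (Subgroup.center (GL (Fin n) L)))),
      ((pullbackFst φ _).comp (Subgroup.subtype _)) z = 1 → z ^ ringChar K = 1 → z = 1 := by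
    intro z hz hq
    obtain ⟨c, h2, -, h3⟩ := key z hz
    refine Subtype.ext (Subtype.ext (Prod.ext h3 ?_))
    have h4 : z.1.1.2 ^ ringChar K = 1 := congrArg (fun w => w.1.1.2) hq
    rw [h2, ← map_pow] at h4
    rw [h2]
    ext i j
    have h6 := congrArg (fun w : GL (Fin n) L => (w : Matrix (Fin n) (Fin n) L) i i) h4
    have h7 : (c : L) ^ ringChar K = 1 := by
      rw [← Units.val_pow_eq_pow_val]
      generalize c ^ ringChar K = d at h6
      simpa [Matrix.GeneralLinearGroup.scalar] using h6
    have h8 : ((c : L) - 1) ^ ringChar K = 0 := by rw [sub_pow_char, h7, one_pow, sub_self]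
    have h9 : c = 1 := Units.ext (sub_eq_zero.1 (pow_eq_zero_iff hp.ne_zero |>.1 h8))
    rw [h9, map_one]; rfl
  obtain ⟨y, hy, h⟩ := (D.isModel_XG K).exists_isAB_of_torsion h1 (q := ringChar K)
    (ringChar.Nat.cast_ringChar) ht fun z hz => by
      have hc : (ringChar K).Coprime (orderOf z) := by
        rw [hp.coprime_iff_not_dvd]
        intro hd
        obtain ⟨c, h2, h3, h4⟩ := key z hz
        have hfin : orderOf z ≠ 0 := by
          rw [← Nat.pos_iff_ne_zero, orderOf_pos_iff]
          rcases Nat.eq_zero_or_pos n with rfl | hn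
          · rw [show z = 1 from Subtype.ext (Subtype.ext (Prod.ext h4 (Subsingleton.elim _ _)))]
            exact IsOfFinOrder.one
          · refine isOfFinOrder_iff_pow_eq_one.2 ⟨n, hn, Subtype.ext (Subtype.ext (Prod.ext ?_ ?_))⟩
            · change z.1.1.1 ^ n = 1
              rw [h4, one_pow]
            · change z.1.1.2 ^ n = 1
              rw [h2, ← map_pow, h3, map_one]
        have h5 := orderOf_pow_orderOf_div hfin hd
        rw [ht (z ^ (orderOf z / ringChar K)) (by rw [map_pow, hz, one_pow])
          (by rw [← pow_mul, Nat.div_mul_cancel hd, pow_orderOf_eq_one]), orderOf_one] at h5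
        exact hp.one_lt.ne h5
      obtain ⟨m, hm⟩ := exists_pow_eq_self_of_coprime hc
      exact ⟨z ^ m, by rw [map_pow, hz, one_pow], by rw [← pow_mul, mul_comm, pow_mul, hm]⟩
  exact exists_sc_of_isAB hy h

end Cfsg.Agent.S2399
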