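import Mathlib
import Cfsg.Statements.S2400
import Cfsg.Agent.Chev.StSmall
-- import your own Cfsg.Agent.* helpers here

set_option autoImplicit false
open Cfsg

namespace Cfsg.Agent.S2400

/-- Over a finite field `K`, the group presented by Steinberg's relators (R1)–(R3) (the universal Chevalley group) of type E₆ or E₇, or of type B₂ or D₄ with `K` of more than two elements, has trivial Schur multiplier: every finite stem extension of it is an isomorphism (Schur multiplier described through stem extensions as in the definitions). Types G₂, F₄ and E₈ are not covered here. -/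
theorem result {K : Type*} [Field K] [Fintype K] (e : Cfsg.Lie.ChevalleyDatum × ℕ)
    (he : e ∈ [(Cfsg.Lie.chevE6, 0), (Cfsg.Lie.chevE7, 0), (Cfsg.Lie.chevB2, 2), (Cfsg.Lie.chevD4, 2)]) (hK : Fintype.card K ≠ e.2) :
    Cfsg.HasCyclicSchurMultiplier (e.1.SteinbergGroup K) 1 := by
  open Cfsg.Agent.Chev in
  simp only [List.mem_cons, List.not_mem_nil, or_false] at he
  rcases he with rfl | rfl | rfl | rfl
  · exact (liftableE6 K).multiplier_st (commutator_st (by simp) fun h => absurd h (not_mem_B2_G2 (by decide)))
  · exact (liftableE7 K).multiplier_st (commutator_st (by simp) fun h => absurd h (not_mem_B2_G2 (by decide)))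
  · exact (liftable_of_three_le (by simp) (by rwa [Nat.card_eq_fintype_card])).multiplier_st
      (commutator_st (by simp) fun _ => exists_ne_zero_ne_one ⟨Finset.univ, by
        have := Fintype.one_lt_card (α := K)
        rw [Finset.card_univ]
        change _ ≠ 2 at hK
        omega⟩)
  · exact (liftable_of_three_le (by simp) (by rwa [Nat.card_eq_fintype_card])).multiplier_st
      (commutator_st (by simp) fun h => absurd h (not_mem_B2_G2 (by decide)))

end Cfsg.Agent.S2400
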