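import Cfsg.Statements.S2404
import Cfsg.Agent.Chev.CRSt
import Cfsg.Agent.Chev.FldFix
import Cfsg.Agent.Chev.Good

set_option autoImplicit false
open Cfsg

namespace Cfsg.Agent.S2404

open Cfsg.Agent.Chev Cfsg.Lie

/-- Steinberg's count of semisimple classes for type E₆ when the finite simply connected group has trivial centre: over a field with `q` elements of characteristic `p` with `q ≢ 1 (mod 3)`, the simply connected group E₆(q) coincides with the Chevalley group, and the conjugacy classes of elements of order prime to `p` in the Chevalley group of type E₆ number exactly `q^6`. -/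
theorem result {F : Type*} [Field F] [Fintype F] {q : ℕ} (hq : Fintype.card F = q) (hq3 : q % 3 ≠ 1) (p : ℕ) [Fact p.Prime] [CharP F p] :
    Nat.card {c : ConjClasses ↥(Cfsg.Lie.chevE6.group F) // ∃ g : ↥(Cfsg.Lie.chevE6.group F), ConjClasses.mk g = c ∧ (orderOf g).Coprime p} = q ^ 6 := by
  classical
  subst hq
  refine chevE6.card_regClasses_group F p ?_
  have h3 : ∀ x : Fˣ, x ^ 3 = 1 ↔ x = 1 := fun x => ⟨fun h => by
    have h1 : orderOf x ∣ Fintype.card F - 1 := by
      rw [← Fintype.card_units]; exact orderOf_dvd_card
    have h2 := (Nat.dvd_prime Nat.prime_three).1 (orderOf_dvd_of_pow_eq_one h)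
    have h4 : 1 ≤ Fintype.card F := Fintype.card_pos
    rcases h2 with h2 | h2
    · exact orderOf_eq_one_iff.1 h2
    · rw [h2] at h1; omega, by rintro rfl; simp⟩
  rw [← Subgroup.card_eq_one, card_ker_torus_E6]
  simp [Fin.prod_univ_succ, h3]

end Cfsg.Agent.S2404
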