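import Cfsg.Statements.S2406
import Cfsg.Agent.Chev.TwGen
import Cfsg.Agent.Chev.TwE6

set_option autoImplicit false
open Cfsg

namespace Cfsg.Agent.S2406

open Cfsg.Lie Cfsg.Lie.ChevalleyDatum Cfsg.Lie.ChevalleyDatum.Twist Cfsg.Agent.Chev

set_option backward.isDefEq.respectTransparency false

/-- A Coxeter word. -/
def cw : List chevE6.Nd := [e6n 1, e6n 3, e6n 2, e6n 4, e6n 0, e6n 5]

/-- The reflection in a short simple root. -/
def sw : List chevE6.Nd := [e6n 2, e6n 4]

theorem aux {K : Type*} [Field K] [Fintype K] {q : ℕ} (hq : 2 ≤ q) (hK : Fintype.card K = q ^ 2)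
    {f : RingAut K} (hf : ∀ t, f t = t ^ q) :
    ∃ a b : (twE6 f).G1, Subgroup.closure ({a, b} : Set (twE6 f).G1) = ⊤ := by
  obtain ⟨g, hg⟩ := IsCyclic.exists_generator (α := Kˣ)
  have hg2 : (g : K) ^ 2 ≠ 1 := fun h => by
    have h1 := Nat.le_of_dvd two_pos (orderOf_dvd_of_pow_eq_one (Units.ext h : g ^ 2 = 1))
    rw [orderOf_eq_card_of_forall_mem_zpowers hg, Nat.card_units, Nat.card_eq_fintype_card, hK] at h1
    have : 4 ≤ q ^ 2 := by nlinarith
    omega
  have hf2 := twE6_f_sq hK hf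
  set T := twE6 f
  have hn : T.t 0 * T.t 1 * T.t 2 * T.t 3 ∈ chevE6.monomialSubgroup K :=
    mul_mem (mul_mem (mul_mem (T.t_mem_N _) (T.t_mem_N _)) (T.t_mem_N _)) (T.t_mem_N _)
  have hn' : T.t 0 * T.t 1 * T.t 2 * T.t 3 ∈ T.G1 :=
    mul_mem (mul_mem (mul_mem (T.t_mem_G1 _) (T.t_mem_G1 _)) (T.t_mem_G1 _)) (T.t_mem_G1 _)
  have hw : chevE6.wOf K (T.t 0 * T.t 1 * T.t 2 * T.t 3) = chevE6.wordW cw := by
    rw [chevE6.wOf_mul K (mul_mem (mul_mem (T.t_mem_N _) (T.t_mem_N _)) (T.t_mem_N _)) (T.t_mem_N _),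
      chevE6.wOf_mul K (mul_mem (T.t_mem_N _) (T.t_mem_N _)) (T.t_mem_N _),
      chevE6.wOf_mul K (T.t_mem_N _) (T.t_mem_N _)]
    simp only [wOf_t_eq, ← wordW_append]
    rfl
  refine T.two_generated (T.hh_mem_G1 2 (hf2 g)) (mul_mem (T.y_mem_G1 2 (map_one _)) hn') fun M hM ha hb => ?_
  have h1 := T.y_mem_of_two 2 hg hg2 (hf2 g) hn hn' (r := e6r 41) (Fin.ext (by
    rw [hw, wordW_val]; change _ = 42; decide +kernel)) (χ := (g : K)⁻¹) (by
      rw [show T.hh 2 g = chevE6.hE K (e6r 42) g * chevE6.hE K (e6r 37) (f g) from cprod_two_eq _,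
        show ∀ a b x : GL chevE6.Idx K, a * b * x * (a * b)⁻¹ = a * (b * x * b⁻¹) * a⁻¹ from fun _ _ _ => by group,
        hE_conj_X _ _ _ _ ((map_ne_zero f).2 g.ne_zero), hE_conj_X _ _ _ _ g.ne_zero,
        show chevE6.pairing (e6r 42) (e6r 41) = -1 by decide +kernel,
        show chevE6.pairing (e6r 37) (e6r 41) = 0 by decide +kernel]
      simp) (fun h => hg2 (by rw [inv_eq_one.1 h, one_pow])) ha hb
  have hp : ∀ j, T.pl j = ![[46], [39], [42, 37], [56, 36]] j := by
    simp only [pl_eq, T, twE6_lw]; decide +kernel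
  have hm : ∀ j, T.ml j = ![[25], [32], [29, 34], [15, 35]] j := by
    simp only [ml_eq, T, twE6_lw]; decide +kernel
  have h2 : T.RG M [42, 37] := (hp 2 ▸ T.RG_of_y h1 :)
  have h3 : chevE6.wordW cw ∈ (chevE6.rootBN K).WK M :=
    RootBN.mem_WK.2 ⟨_, hn, by simpa using mul_mem (inv_mem (h1 1)) hb, hw⟩
  have h4 : T.RG M [29, 34] :=
    h2.move hM (wordW_two h3 h3 [false, false, false, false, false, false]) (by decide +kernel)
  have h5 := wordW_two h3 (s := sw) (T.lw_mem_WK (j := 2) (by rw [hp]; exact h2) (by rw [hm]; exact h4))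
  obtain ⟨m, hmN, hmM, e⟩ := RootBN.mem_WK.1 (h5 [false, false, false, true])
  obtain ⟨α, hα, -⟩ := chevE6.exists_conj_X_wOf K hmN (e6r 42)
  obtain ⟨β, hβ, -⟩ := chevE6.exists_conj_X_wOf K hmN (e6r 37)
  rw [show chevE6.wOf K m = _ from e, wordW_val] at hα hβ
  rw [show chevE6.actN _ (e6r 42) = 40 by decide +kernel] at hα
  rw [show chevE6.actN _ (e6r 37) = 43 by decide +kernel] at hβ
  have h6 : chevE6.X K 40 α * chevE6.X K 43 β ∈ M := by
    convert mul_mem (mul_mem hmM (h1 1)) (inv_mem hmM) using 1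
    rw [(twE6_y f 1).2.2.1, map_one, show ∀ a b : GL chevE6.Idx K, m * (a * b) * m⁻¹ = m * a * m⁻¹ * (m * b * m⁻¹) from
      fun _ _ => by group, show m * chevE6.X K 42 1 * m⁻¹ = _ from hα 1, show m * chevE6.X K 37 1 * m⁻¹ = _ from hβ 1,
      mul_one, mul_one]
  have k : ∀ a ∈ [42, 37, 40, 43], chevE6.KOK 44 a 44 0 := by decide +kernel
  have h7 : ∀ t, chevE6.X K 44 (t * -α + f t * β) ∈ M := fun t => by
    have c1 := ((show chevE6.KOK 44 42 40 (-1) by decide +kernel).cr (k _ (by simp)) (k _ (by simp)) t α).mul_right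
      ((show chevE6.KOK 44 42 43 0 by decide +kernel).cr (k _ (by simp)) (k _ (by simp)) t β) ((k _ (by simp)).cz _)
    have c2 := ((show chevE6.KOK 44 37 40 0 by decide +kernel).cr (k _ (by simp)) (k _ (by simp)) (f t) α).mul_right
      ((show chevE6.KOK 44 37 43 1 by decide +kernel).cr (k _ (by simp)) (k _ (by simp)) (f t) β) ((k _ (by simp)).cz _)
    simpa using (c1.mul_left c2 ((k _ (by simp)).cz _)).mem ((twE6_y f t).2.2.1 ▸ h1 t) h6
  obtain ⟨c, hc⟩ := exists_ne_zero_of_poly (l := [(-(α : K), 1), (β, q)]) (by simp; omega)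
    (by simp only [List.mem_cons, List.not_mem_nil, or_false, forall_eq_or_imp, forall_eq, hK]; constructor <;> nlinarith)
    (p := (β, q)) (by simp) β.ne_zero
  have h8 : T.RG M [44] := T.RG_single hM (θ := e6r 44) hc fun a ha => by
    convert h7 (a * c) using 2
    · rfl
    rw [map_mul, show f a = a from ha, hf]
    simp; ring
  refine T.G1_le_of_RG fun j => ?_
  rw [hp, hm]
  fin_cases j
  · exact ⟨h8.move hM (h5 [true, false]) (O' := [46]) (by decide +kernel),
      h8.move hM (h5 [true, false, false, false, true, false]) (O' := [25]) (by decide +kernel)⟩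
  · exact ⟨h8.move hM (h5 [true]) (O' := [39]) (by decide +kernel),
      h8.move hM (h5 [true, false, false, false, true]) (O' := [32]) (by decide +kernel)⟩
  · exact ⟨h2, h4⟩
  · exact ⟨h2.move hM (h5 [true, false, false, true, false]) (O' := [56, 36]) (by decide +kernel),
      h2.move hM (h5 [false, false, true, false]) (O' := [15, 35]) (by decide +kernel)⟩

/-- The twisted group ²E₆(q) (realised inside E₆ over the field with `q²` elements) is generated by two of its elements. -/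
theorem result {K : Type*} [Field K] [Fintype K] {q : ℕ} (hq : IsPrimePow q) (hK : Fintype.card K = q ^ 2) :
    ∃ a b : ↥(Cfsg.Lie.twistedE6 K q), Subgroup.closure ({a, b} : Set ↥(Cfsg.Lie.twistedE6 K q)) = ⊤ := by
  obtain ⟨f, hf⟩ := tw_exists_frob hq two_ne_zero hK
  rw [← twE6_G1 hK hf]
  exact aux hq.two_le hK hf

end Cfsg.Agent.S2406
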