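import Cfsg.Statements.S2407
import Cfsg.Agent.Chev.TwGen
import Cfsg.Agent.Chev.TwD4

set_option autoImplicit false
open Cfsg

namespace Cfsg.Agent.S2407

open Cfsg.Lie Cfsg.Lie.ChevalleyDatum Cfsg.Lie.ChevalleyDatum.Twist Cfsg.Agent.Chev

set_option backward.isDefEq.respectTransparency false

/-- A Coxeter word. -/
def cw : List chevD4.Nd := [d4n 0, d4n 2, d4n 3, d4n 1]

theorem aux {K : Type*} [Field K] [Fintype K] {q : ℕ} (hq : 2 ≤ q) (hK : Fintype.card K = q ^ 3)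
    {f : RingAut K} (hf : ∀ t, f t = t ^ q) :
    ∃ a b : (twD4 f).G1, Subgroup.closure ({a, b} : Set (twD4 f).G1) = ⊤ := by
  obtain ⟨g, hg⟩ := IsCyclic.exists_generator (α := Kˣ)
  have ho : orderOf g = q ^ 3 - 1 := by
    rw [orderOf_eq_card_of_forall_mem_zpowers hg, Nat.card_units, Nat.card_eq_fintype_card, hK]
  have hq3 : q + q ^ 2 + 2 ≤ q ^ 3 := by nlinarith [Nat.mul_le_mul hq (le_refl (q ^ 2))]
  have hg2 : (g : K) ^ 2 ≠ 1 := fun h => by
    have h1 := Nat.le_of_dvd two_pos (orderOf_dvd_of_pow_eq_one (Units.ext h : g ^ 2 = 1))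
    omega
  have hf3 := twD4_f_cube hK hf
  have hf2 := tw_frob_pow hf 2
  set T := twD4 f
  have hn : T.t 1 * T.t 0 ∈ chevD4.monomialSubgroup K := mul_mem (T.t_mem_N _) (T.t_mem_N _)
  have hn' : T.t 1 * T.t 0 ∈ T.G1 := mul_mem (T.t_mem_G1 _) (T.t_mem_G1 _)
  have hw : chevD4.wOf K (T.t 1 * T.t 0) = chevD4.wordW cw := by
    rw [chevD4.wOf_mul K (T.t_mem_N _) (T.t_mem_N _)]
    simp only [wOf_t_eq, ← wordW_append]
    rfl
  refine T.two_generated (T.hh_mem_G1 1 (hf3 g)) (mul_mem (T.y_mem_G1 1 (map_one _)) hn') fun M hM ha hb => ?_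
  have h1 := T.y_mem_of_two 1 hg hg2 (hf3 g) hn hn' (r := d4r 4) (Fin.ext (by
    rw [hw, wordW_val]; change _ = 18; decide +kernel)) (χ := (g : K)⁻¹ * g ^ (q + q ^ 2)) (by
      rw [show T.hh 1 g = chevD4.hE K (d4r 18) g * (chevD4.hE K (d4r 13) (f g) * chevD4.hE K (d4r 12) ((f ^ 2) g))
        from cprod_three_eq _, show ∀ a b c x : GL chevD4.Idx K, a * (b * c) * x * (a * (b * c))⁻¹ =
          a * (b * (c * x * c⁻¹) * b⁻¹) * a⁻¹ from fun _ _ _ _ => by group,
        hE_conj_X _ _ _ _ ((map_ne_zero (f ^ 2)).2 g.ne_zero), hE_conj_X _ _ _ _ ((map_ne_zero f).2 g.ne_zero),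
        hE_conj_X _ _ _ _ g.ne_zero, show chevD4.pairing (d4r 18) (d4r 4) = -1 by decide +kernel,
        show chevD4.pairing (d4r 13) (d4r 4) = 1 by decide +kernel,
        show chevD4.pairing (d4r 12) (d4r 4) = 1 by decide +kernel, hf2, hf]
      simp [pow_add]) (fun h => by
        rw [inv_mul_eq_one₀ g.ne_zero] at h
        have h2 : g ^ 1 = g ^ (q + q ^ 2) := Units.ext (by simpa using h)
        have := pow_injOn_Iio_orderOf (x := g) (show 1 < _ by omega) (show q + q ^ 2 < _ by omega) h2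
        nlinarith) ha hb
  have hp : ∀ j, T.pl j = ![[14], [18, 13, 12]] j := by simp only [pl_eq, T, twD4_lw]; decide +kernel
  have hm : ∀ j, T.ml j = ![[9], [5, 10, 11]] j := by simp only [ml_eq, T, twD4_lw]; decide +kernel
  have h2 : T.RG M [18, 13, 12] := (hp 1 ▸ T.RG_of_y h1 :)
  have hnM : T.t 1 * T.t 0 ∈ M := by simpa using mul_mem (inv_mem (h1 1)) hb
  have h3 : chevD4.wordW cw ∈ (chevD4.rootBN K).WK M := RootBN.mem_WK.2 ⟨_, hn, hnM, hw⟩
  have h5 := wordW_two h3 h3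
  generalize T.t 1 * T.t 0 = m at hn hw hnM
  obtain ⟨α, hα, -⟩ := chevD4.exists_conj_X_wOf K hn (d4r 18)
  obtain ⟨β, hβ, -⟩ := chevD4.exists_conj_X_wOf K hn (d4r 13)
  obtain ⟨γ, hγ, -⟩ := chevD4.exists_conj_X_wOf K hn (d4r 12)
  rw [hw, wordW_val] at hα hβ hγ
  rw [show chevD4.actN cw (d4r 18) = 17 by decide +kernel] at hα
  rw [show chevD4.actN cw (d4r 13) = 20 by decide +kernel] at hβ
  rw [show chevD4.actN cw (d4r 12) = 21 by decide +kernel] at hγ
  have h6 : chevD4.X K 17 α * (chevD4.X K 20 β * chevD4.X K 21 γ) ∈ M := by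
    convert mul_mem (mul_mem hnM (h1 1)) (inv_mem hnM) using 1
    rw [(twD4_y f 1).2, map_one, map_one, show ∀ a b c : GL chevD4.Idx K, m * (a * (b * c)) * m⁻¹ =
      m * a * m⁻¹ * (m * b * m⁻¹ * (m * c * m⁻¹)) from fun _ _ _ => by group,
      show m * chevD4.X K 18 1 * m⁻¹ = _ from hα 1, show m * chevD4.X K 13 1 * m⁻¹ = _ from hβ 1,
      show m * chevD4.X K 12 1 * m⁻¹ = _ from hγ 1, mul_one, mul_one, mul_one]
  have k : ∀ a ∈ [18, 13, 12, 17, 20, 21], chevD4.KOK 22 a 22 0 := by decide +kernel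
  have k' : ∀ (a : ℕ) (x y z : ℤ), a ∈ [18, 13, 12, 17, 20, 21] → chevD4.KOK 22 a 17 x ∧ chevD4.KOK 22 a 20 y ∧
      chevD4.KOK 22 a 21 z → ∀ t : K, chevD4.CR K 22 (chevD4.X K a t) (chevD4.X K 17 α * (chevD4.X K 20 β *
        chevD4.X K 21 γ)) (x * t * α + (y * t * β + z * t * γ)) := fun a x y z ha h t =>
    (h.1.cr (k _ ha) (k _ (by simp)) t α).mul_right ((h.2.1.cr (k _ ha) (k _ (by simp)) t β).mul_right
      (h.2.2.cr (k _ ha) (k _ (by simp)) t γ) ((k _ (by simp)).cz _)) ((k _ (by simp)).cz _)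
  have h7 : ∀ t, chevD4.X K 22 (t * -α + (f t * β + (f ^ 2) t * γ)) ∈ M := fun t => by
    have h7 := h1 t
    rw [(twD4_y f t).2] at h7
    have h8 := ((k' 18 (-1) 0 0 (by simp) (by decide +kernel) t).mul_left
      ((k' 13 0 1 0 (by simp) (by decide +kernel) (f t)).mul_left (k' 12 0 0 1 (by simp) (by decide +kernel) ((f ^ 2) t))
        ((k _ (by simp)).cz _)) ((k _ (by simp)).cz _)).mem h7 h6
    convert h8 using 2
    push_cast; ring
  have hq2 : q < q ^ 2 := by nlinarith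
  obtain ⟨c, hc⟩ := exists_ne_zero_of_poly (l := [(-(α : K), 1), (β, q), (γ, q ^ 2)]) (by simp; omega)
    (by simp only [List.mem_cons, List.not_mem_nil, or_false, forall_eq_or_imp, forall_eq, hK]; omega)
    (p := (β, q)) (by simp) β.ne_zero
  have h8 : T.RG M [22] := T.RG_single hM (θ := d4r 22) hc fun a ha => by
    convert h7 (a * c) using 2
    · rfl
    have ha' : f a = a := ha
    rw [map_mul, map_mul, sq f, RingAut.mul_apply, ha', ha', ← sq f, hf2, hf]
    simp; ring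
  refine T.G1_le_of_RG fun j => ?_
  rw [hp, hm]
  fin_cases j
  · exact ⟨h8.move hM (h5 [false, false, false, false]) (O' := [14]) (by decide +kernel),
      h8.move hM h3 (O' := [9]) (by decide +kernel)⟩
  · exact ⟨h2, h2.move hM (h5 [false, false, false]) (O' := [5, 10, 11]) (by decide +kernel)⟩

/-- The twisted group ³D₄(q) (realised inside D₄ over the field with `q³` elements) is generated by two of its elements. -/
theorem result {K : Type*} [Field K] [Fintype K] {q : ℕ} (hq : IsPrimePow q) (hK : Fintype.card K = q ^ 3) :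
    ∃ a b : ↥(Cfsg.Lie.twistedD4 K q), Subgroup.closure ({a, b} : Set ↥(Cfsg.Lie.twistedD4 K q)) = ⊤ := by
  obtain ⟨f, hf⟩ := tw_exists_frob hq three_ne_zero hK
  rw [← twD4_G1 hK hf]
  exact aux hq.two_le hK hf

end Cfsg.Agent.S2407
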