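import Mathlib
import Cfsg.Statements.S2410
import Cfsg.Agent.Chev.SzLocal
-- import your own Cfsg.Agent.* helpers here

set_option autoImplicit false
open Cfsg

namespace Cfsg.Agent.S2410

open Cfsg.Agent.Chev.Sz

/-- The Suzuki group over the field with `2^(2m+1)` elements, `m ≥ 1` (realised as the stabiliser in `SL₄` of the Suzuki–Tits ovoid), is generated by two of its elements. -/
theorem result {F : Type*} [Field F] [Fintype F] {m : ℕ} (hm : 1 ≤ m) (hF : Fintype.card F = 2 ^ (2 * m + 1)) :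
    ∃ a b : ↥(Cfsg.Sz F m), Subgroup.closure ({a, b} : Set ↥(Cfsg.Sz F m)) = ⊤ := by
  have := SzF.of_card hm hF
  obtain ⟨k, hk⟩ := IsCyclic.exists_generator (α := Fˣ)
  refine ⟨he k, ue 1 0 * we, ?_⟩
  set M := Subgroup.closure ({he k, ue 1 0 * we} : Set (Cfsg.Sz F m))
  have h1 : he k ∈ M := Subgroup.subset_closure (by simp)
  have h2 : ue 1 0 * we ∈ M := Subgroup.subset_closure (by simp)
  have hH : ∀ l : Fˣ, he l ∈ M := by
    intro l
    obtain ⟨n, rfl⟩ := Subgroup.mem_zpowers_iff.mp (hk l)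
    rw [he_zpow]
    exact zpow_mem h1 n
  obtain ⟨l, hl⟩ := exists_units_ne_one F
  have hl' : (l : F) + 1 ≠ 0 := fun h => hl (Units.ext (by simp only [Units.val_one]; grind))
  have h3 : he l * ((ue 1 0 * we) * he l * (ue 1 0 * we)⁻¹) ∈ M :=
    mul_mem (hH l) (mul_mem (mul_mem h2 (hH l)) (inv_mem h2))
  have h4 : (he l * ((ue 1 0 * we) * he l * (ue 1 0 * we)⁻¹) : Cfsg.Sz F m) =
      he l * ue 1 0 * (we * he l * we) * (ue 1 0)⁻¹ := by
    rw [mul_inv_rev, we_inv]
    group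
  rw [h4, we_conj_he, he_inv, he_conj_ue, ue_inv, ue_mul, mul_one] at h3
  have hU : sylU F m ≤ M := by
    apply sylU_le_of_forall_exists
    intro a
    by_cases ha : a = 0
    · exact ⟨0, by rw [ha, ue_zero]; exact one_mem _⟩
    · have h5 := mul_mem (mul_mem (hH (Units.mk0 (a / (l + 1)) (div_ne_zero ha hl'))) h3)
        (inv_mem (hH (Units.mk0 (a / (l + 1)) (div_ne_zero ha hl'))))
      rw [he_conj_ue, Units.val_mk0, div_mul_cancel₀ _ hl'] at h5
      exact ⟨_, h5⟩
  refine eq_top_of_gens (fun a b => hU (ue_mem_sylU a b)) hH ?_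
  simpa using mul_mem (inv_mem (hU (ue_mem_sylU 1 0))) h2

end Cfsg.Agent.S2410
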