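import Mathlib
import Cfsg.Statements.S2411
import Cfsg.Agent.Cl.TwoGenB

set_option autoImplicit false
open Cfsg

namespace Cfsg.Agent.S2411

/-- The projective symplectic group `PSp_{2m}(q)` with `m ≥ 2` (and `q > 2` if `m = 2`) is generated by two of its elements. -/
theorem result {F : Type*} [Field F] [Fintype F] (m : ℕ) (hm : 2 ≤ m) (hF : m = 2 → 2 < Fintype.card F) :
    ∃ a b : Cfsg.PSp m F, Subgroup.closure ({a, b} : Set (Cfsg.PSp m F)) = ⊤ := by
  exact Ch.twoGen_psp hm fun e => by rw [Nat.card_eq_fintype_card]; exact (hF e).ne'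

end Cfsg.Agent.S2411
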