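import Mathlib
import Cfsg.Statements.S2413
import Cfsg.Agent.Cl.TwoGenB

set_option autoImplicit false
open Cfsg

namespace Cfsg.Agent.S2413

/-- The simple orthogonal group `PΩ_{2m+1}(q)` (commutator subgroup of the orthogonal group of `x₀² + Σ x_i y_i` modulo its centre) with `m ≥ 2` and `q` odd is generated by two of its elements. -/
theorem result {F : Type*} [Field F] [Fintype F] (hodd : Odd (Fintype.card F)) (m : ℕ) (hm : 2 ≤ m) :
    ∃ a b : Cfsg.POmega F (Cfsg.quadFormOdd m F), Subgroup.closure ({a, b} : Set (Cfsg.POmega F (Cfsg.quadFormOdd m F))) = ⊤ := by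
  refine Ch.twoGen_pomegaOdd (fun h => ?_) hm
  have := CharTwo.of_one_ne_zero_of_two_eq_zero one_ne_zero h
  exact Nat.not_even_iff_odd.2 hodd
    (Nat.even_iff.2 (FiniteField.even_card_iff_char_two.1 (ringChar.eq F 2)))

end Cfsg.Agent.S2413
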