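import Mathlib
import Cfsg.Statements.S2416
import Cfsg.Agent.Chev.ChevGen
import Cfsg.Agent.Chev.Good

set_option autoImplicit false
open scoped MatrixGroups
open Cfsg

namespace Cfsg.Agent.S2416

open Cfsg.Agent.Chev Cfsg.Lie Cfsg.Lie.ChevalleyDatum

theorem cast_ne {K : Type*} [Field K] {p : ℕ} (hp : p.Prime) (h : ringChar K ≠ p) : (p : K) ≠ 0 :=
  fun h0 => h (CharP.ringChar_of_prime_eq_zero hp h0)

/-- A Chevalley group of type G₂, B₂, D₄, F₄, E₆, E₇ or E₈ over a finite field lies in (indeed equals) the subgroup generated by its monomial subgroup `N` and a single fundamental root subgroup `X_p`, where `p` is a short fundamental root if there are two root lengths (any fundamental root otherwise), provided the characteristic is not 2 for types B₂, F₄ and not 3 for type G₂ (and the field has more than two elements for B₂, G₂). -/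
theorem result {K : Type*} [Field K] [Finite K] (D : Cfsg.Lie.ChevalleyDatum) (hD : D ∈ [Cfsg.Lie.chevG2, Cfsg.Lie.chevB2, Cfsg.Lie.chevD4, Cfsg.Lie.chevF4, Cfsg.Lie.chevE6, Cfsg.Lie.chevE7, Cfsg.Lie.chevE8])
    (hK : D ∈ [Cfsg.Lie.chevB2, Cfsg.Lie.chevG2] → ∃ x : K, x ≠ 0 ∧ x ≠ 1)
    (h2 : D ∈ [Cfsg.Lie.chevB2, Cfsg.Lie.chevF4] → ringChar K ≠ 2) (h3 : D = Cfsg.Lie.chevG2 → ringChar K ≠ 3)
    (i : ℕ) (hi : i < D.rank) (hshort : D.isLong (D.simple i) = false) :
    D.group K ≤ D.monomialSubgroup K ⊔ D.rootSubgroup K (D.simple i) := by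
  have := good_of_mem hD
  have hN : D.monomialSubgroup K ≤ D.monomialSubgroup K ⊔ D.rootSubgroup K (D.simple i) :=
    le_sup_left
  have hX : D.rootSubgroup K (D.simple i) ≤ D.monomialSubgroup K ⊔ D.rootSubgroup K (D.simple i) :=
    le_sup_right
  generalize D.monomialSubgroup K ⊔ D.rootSubgroup K (D.simple i) = L at hN hX
  simp only [List.mem_cons, List.not_mem_nil, or_false] at hD
  rcases hD with rfl | rfl | rfl | rfl | rfl | rfl | rfl
  · have h3' : ((-3 : ℤ) : K) ≠ 0 := by
      have := cast_ne Nat.prime_three (h3 rfl)
      push_cast at this ⊢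
      exact neg_ne_zero.2 this
    obtain rfl : i = 0 := by clear hX; revert i; decide +kernel
    refine group_le_of_simple hN fun j hj => ?_
    change j < 2 at hj
    interval_cases j
    · exact hX
    · exact rootSubgroup_le_of_comm (r := chevG2.reflectRoot 0 (chevG2.simple 0))
        (s := chevG2.reflectRoot 1 (chevG2.simple 0)) (by decide +kernel) h3'
        (rootSubgroup_reflect_le hN (by decide) (by decide +kernel) hX)
        (rootSubgroup_reflect_le hN (by decide) (by decide +kernel) hX)
  · have h2' : ((-2 : ℤ) : K) ≠ 0 := by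
      have := cast_ne Nat.prime_two (h2 (by simp))
      push_cast at this ⊢
      exact neg_ne_zero.2 this
    obtain rfl : i = 0 := by clear hX; revert i; decide +kernel
    refine group_le_of_simple hN fun j hj => ?_
    change j < 2 at hj
    interval_cases j
    · exact hX
    · exact rootSubgroup_le_of_comm (r := chevB2.reflectRoot 0 (chevB2.simple 0))
        (s := chevB2.reflectRoot 1 (chevB2.simple 0)) (by decide +kernel) h2'
        (rootSubgroup_reflect_le hN (by decide) (by decide +kernel) hX)
        (rootSubgroup_reflect_le hN (by decide) (by decide +kernel) hX)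
  · exact group_le_of_simplyLaced hN (by decide +kernel) hi hX
  · have h2' : ((-2 : ℤ) : K) ≠ 0 := by
      have := cast_ne Nat.prime_two (h2 (by simp))
      push_cast at this ⊢
      exact neg_ne_zero.2 this
    have h1 : chevF4.rootSubgroup K (chevF4.simple 1) ≤ L := by
      obtain rfl | rfl : i = 0 ∨ i = 1 := by clear hX; revert i; decide +kernel
      · exact rootSubgroup_simple_le hN (by decide +kernel) hX
      · exact hX
    have h4 : chevF4.rootSubgroup K (chevF4.simple 2) ≤ L :=
      rootSubgroup_le_of_comm (r := chevF4.reflectRoot 1 (chevF4.simple 1))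
        (s := chevF4.reflectRoot 2 (chevF4.simple 1)) (by decide +kernel) h2'
        (rootSubgroup_reflect_le hN (by decide) (by decide +kernel) h1)
        (rootSubgroup_reflect_le hN (by decide) (by decide +kernel) h1)
    refine group_le_of_simple hN fun j hj => ?_
    change j < 4 at hj
    interval_cases j
    · exact rootSubgroup_simple_le hN (by decide +kernel) h1
    · exact h1
    · exact h4
    · exact rootSubgroup_simple_le hN (by decide +kernel) h4
  · exact group_le_of_simplyLaced hN (by decide +kernel) hi hX
  · exact group_le_of_simplyLaced hN (by decide +kernel) hi hX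
  · exact group_le_of_simplyLaced hN (by decide +kernel) hi hX

end Cfsg.Agent.S2416
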