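import Mathlib
import Cfsg.Statements.S2417
import Cfsg.Agent.Chev.ChevGen
import Cfsg.Agent.Chev.Good

set_option autoImplicit false
open scoped MatrixGroups
open Cfsg

namespace Cfsg.Agent.S2417

open Cfsg.Agent.Chev Cfsg.Lie Cfsg.Lie.ChevalleyDatum

/-- In the characteristics with an exceptional graph symmetry — type B₂ or F₄ in characteristic 2 (field of more than two elements for B₂) and type G₂ in characteristic 3 — the Chevalley group lies in the subgroup generated by its monomial subgroup `N` and the two fundamental root subgroups `X_a`, `X_b` of a short root `a` and a long root `b` joined in the Dynkin diagram. -/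
theorem result {K : Type*} [Field K] [Finite K] (e : Cfsg.Lie.ChevalleyDatum × ℕ)
    (he : e ∈ [(Cfsg.Lie.chevB2, 2), (Cfsg.Lie.chevF4, 2), (Cfsg.Lie.chevG2, 3)]) [CharP K e.2]
    (hK : e.1 = Cfsg.Lie.chevB2 → ∃ x : K, x ≠ 0 ∧ x ≠ 1)
    (i j : ℕ) (hi : i < e.1.rank) (hj : j < e.1.rank) (hshort : e.1.isLong (e.1.simple i) = false)
    (hlong : e.1.isLong (e.1.simple j) = true) (hbond : e.1.bonds i j ≠ 0) :
    e.1.group K ≤ e.1.monomialSubgroup K ⊔ e.1.rootSubgroup K (e.1.simple i) ⊔ e.1.rootSubgroup K (e.1.simple j) := by
  have hN : e.1.monomialSubgroup K ≤ e.1.monomialSubgroup K ⊔ e.1.rootSubgroup K (e.1.simple i) ⊔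
    e.1.rootSubgroup K (e.1.simple j) := le_sup_left.trans le_sup_left
  have hX : e.1.rootSubgroup K (e.1.simple i) ≤ e.1.monomialSubgroup K ⊔
    e.1.rootSubgroup K (e.1.simple i) ⊔ e.1.rootSubgroup K (e.1.simple j) :=
    le_sup_right.trans le_sup_left
  have hY : e.1.rootSubgroup K (e.1.simple j) ≤ e.1.monomialSubgroup K ⊔
    e.1.rootSubgroup K (e.1.simple i) ⊔ e.1.rootSubgroup K (e.1.simple j) := le_sup_right
  generalize e.1.monomialSubgroup K ⊔ e.1.rootSubgroup K (e.1.simple i) ⊔
    e.1.rootSubgroup K (e.1.simple j) = L at hN hX hY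
  simp only [List.mem_cons, List.not_mem_nil, or_false] at he
  rcases he with rfl | rfl | rfl <;> dsimp only at *
  · obtain rfl : i = 0 := by clear hX hbond; revert i; decide +kernel
    obtain rfl : j = 1 := by clear hY hbond; revert j; decide +kernel
    refine group_le_of_simple hN fun k hk => ?_
    change k < 2 at hk
    interval_cases k
    · exact hX
    · exact hY
  · have h1 : chevF4.rootSubgroup K (chevF4.simple 1) ≤ L := by
      obtain rfl | rfl : i = 0 ∨ i = 1 := by clear hX hbond; revert i; decide +kernel
      · exact rootSubgroup_simple_le hN (by decide +kernel) hX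
      · exact hX
    have h4 : chevF4.rootSubgroup K (chevF4.simple 2) ≤ L := by
      obtain rfl | rfl : j = 2 ∨ j = 3 := by clear hY hbond; revert j; decide +kernel
      · exact hY
      · exact rootSubgroup_simple_le hN (by decide +kernel) hY
    refine group_le_of_simple hN fun k hk => ?_
    change k < 4 at hk
    interval_cases k
    · exact rootSubgroup_simple_le hN (by decide +kernel) h1
    · exact h1
    · exact h4
    · exact rootSubgroup_simple_le hN (by decide +kernel) h4
  · obtain rfl : i = 0 := by clear hX hbond; revert i; decide +kernel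
    obtain rfl : j = 1 := by clear hY hbond; revert j; decide +kernel
    refine group_le_of_simple hN fun k hk => ?_
    change k < 2 at hk
    interval_cases k
    · exact hX
    · exact hY

end Cfsg.Agent.S2417
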