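import Mathlib
import Cfsg.Statements.S2418
import Cfsg.Agent.Chev.CoxWord
import Cfsg.Agent.Chev.Good

set_option autoImplicit false
open Cfsg

namespace Cfsg.Agent.S2418

open Cfsg.Agent.Chev Cfsg.Lie Cfsg.Lie.ChevalleyDatum

/-- For the Coxeter groups of types B₂, G₂, D₄, F₄, E₇, E₈ the centre has order 2 (the element acting as −1 on the root system) and is generated by a power of the Coxeter element `s₁ s₂ ⋯ s_l`; the Coxeter group of type E₆ has trivial centre. -/
theorem result (c : (Σ n : ℕ, CoxeterMatrix (Fin n)) × ℕ)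
    (hc : c ∈ [(⟨2, CoxeterMatrix.B 2⟩, 2), (⟨2, CoxeterMatrix.G₂⟩, 2), (⟨4, Cfsg.Lie.coxeterD4⟩, 2), (⟨4, CoxeterMatrix.F₄⟩, 2),
      (⟨6, CoxeterMatrix.E₆⟩, 1), (⟨7, CoxeterMatrix.E₇⟩, 2), (⟨8, CoxeterMatrix.E₈⟩, 2)]) :
    Nat.card (Subgroup.center c.1.2.Group) = c.2 ∧
      Subgroup.center c.1.2.Group ≤ Subgroup.zpowers ((List.finRange c.1.1).map c.1.2.simple).prod := by
  simp only [List.mem_cons, List.not_mem_nil, or_false] at hc
  rcases hc with rfl | rfl | rfl | rfl | rfl | rfl | rfl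
  · exact center_of_neg exists_weylCs_B2.choose_spec cartanRows_B2 _ 2 (by decide +kernel)
  · exact center_of_neg exists_weylCs_G2.choose_spec cartanRows_G2 _ 3 (by decide +kernel)
  · exact center_of_neg exists_weylCs_D4.choose_spec cartanRows_D4 _ 3 (by decide +kernel)
  · exact center_of_neg exists_weylCs_F4.choose_spec cartanRows_F4 _ 6 (by decide +kernel)
  · have h : Subgroup.center CoxeterMatrix.E₆.Group = ⊥ :=
      center_eq_bot (D := chevE6) exists_weylCs_E6.choose (![1, 0, 2, 0, 1, 2] : Fin 6 → ℤ) (by decide +kernel)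
        (0 : Fin 6) rfl
    change Nat.card (Subgroup.center CoxeterMatrix.E₆.Group) = 1 ∧
      Subgroup.center CoxeterMatrix.E₆.Group ≤ _
    rw [h]
    exact ⟨Subgroup.card_bot, bot_le⟩
  · exact center_of_neg exists_weylCs_E7.choose_spec cartanRows_E7 _ 9 (by decide +kernel)
  · exact center_of_neg exists_weylCs_E8.choose_spec cartanRows_E8 _ 15 (by decide +kernel)

end Cfsg.Agent.S2418
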