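import Mathlib
import Cfsg.Statements.S2419
import Cfsg.Agent.Chev.CoxWord
import Cfsg.Agent.Chev.Good

set_option autoImplicit false
set_option backward.isDefEq.respectTransparency false
open Cfsg

namespace Cfsg.Agent.S2419

open Cfsg.Agent.Chev Cfsg.Lie Cfsg.Lie.ChevalleyDatum

theorem aux {D : ChevalleyDatum} [D.Good] {M : CoxeterMatrix D.Nd}
    (hcs : ∃ cs : CoxeterSystem M D.weyl, ∀ i, cs.simple i = D.srefW i)
    {A : List (List ℤ)} (hA : D.cartanRows = A) (l I : List D.Nd) (g : List (List ℕ)) {k : ℕ}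
    (h : I.Nodup ∧ I.length = k ∧ ∀ i : D.Nd,
      actWord A ((g.getD i []).flatMap fun k => (l :: l.reverse :: I.map fun j => [j]).getD k [])
        (List.replicate D.rank 1) = actWord A [i] (List.replicate D.rank 1)) :
    ∃ T : Finset M.Group, T.card = k ∧
      (∀ t ∈ T, ∃ (g : M.Group) (i : D.Nd), t = g * M.simple i * g⁻¹) ∧
      Subgroup.closure (({(l.map M.simple).prod} : Set M.Group) ∪ ↑T) = ⊤ := by
  classical
  obtain ⟨cs, hcs⟩ := hcs
  have hinj : Function.Injective M.simple := fun i j hij => cs_simple_injective hcs (by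
    have h1 := mulEquiv_wordProd cs [i]
    have h2 := mulEquiv_wordProd cs [j]
    simp only [CoxeterSystem.wordProd_singleton, List.map_cons, List.map_nil, List.prod_cons,
      List.prod_nil, mul_one] at h1 h2
    exact cs.mulEquiv.injective (by rw [h1, h2, hij]))
  refine ⟨(I.map M.simple).toFinset, ?_, ?_, ?_⟩
  · rw [List.toFinset_card_of_nodup (h.1.map hinj), List.length_map, h.2.1]
  · intro t ht
    obtain ⟨i, -, rfl⟩ := List.mem_map.1 (List.mem_toFinset.1 ht)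
    exact ⟨1, i, by simp⟩
  · refine (wtAct hcs).closure_eq_top_of_words (hA ▸ cartanRows_getD) _ (fun i => g.getD i [])
      h.2.2 fun m hm => ?_
    have h1 : (l.map M.simple).prod ∈ Subgroup.closure
        (({(l.map M.simple).prod} : Set M.Group) ∪ ↑(I.map M.simple).toFinset) :=
      Subgroup.subset_closure (Or.inl rfl)
    simp only [List.mem_cons, List.mem_map] at hm
    rcases hm with rfl | rfl | ⟨j, hj, rfl⟩
    · exact h1
    · have h2 : (l.reverse.map M.simple).prod = (l.map M.simple).prod⁻¹ :=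
        M.toCoxeterSystem.wordProd_reverse l
      rw [h2]
      exact inv_mem h1
    · refine Subgroup.subset_closure (Or.inr ?_)
      simpa using ⟨j, hj, rfl⟩

/-- The Coxeter groups of types B₂, G₂, E₆, E₇, E₈ are generated by the Coxeter element `s₁ s₂ ⋯ s_l` together with one suitable reflection (a conjugate of a simple reflection); for types D₄ and F₄ the Coxeter element together with two suitable reflections suffices. -/
theorem result (c : (Σ n : ℕ, CoxeterMatrix (Fin n)) × ℕ)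
    (hc : c ∈ [(⟨2, CoxeterMatrix.B 2⟩, 1), (⟨2, CoxeterMatrix.G₂⟩, 1), (⟨4, Cfsg.Lie.coxeterD4⟩, 2), (⟨4, CoxeterMatrix.F₄⟩, 2),
      (⟨6, CoxeterMatrix.E₆⟩, 1), (⟨7, CoxeterMatrix.E₇⟩, 1), (⟨8, CoxeterMatrix.E₈⟩, 1)]) :
    ∃ T : Finset c.1.2.Group, T.card = c.2 ∧ (∀ t ∈ T, ∃ (g : c.1.2.Group) (i : Fin c.1.1), t = g * c.1.2.simple i * g⁻¹) ∧
      Subgroup.closure (({((List.finRange c.1.1).map c.1.2.simple).prod} : Set c.1.2.Group) ∪ ↑T) = ⊤ := by
  simp only [List.mem_cons, List.not_mem_nil, or_false] at hc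
  rcases hc with rfl | rfl | rfl | rfl | rfl | rfl | rfl
  · exact aux exists_weylCs_B2 cartanRows_B2 _ ([0] : List (Fin 2)) [[2], [2, 0]]
      (by decide +kernel)
  · exact aux exists_weylCs_G2 cartanRows_G2 _ ([0] : List (Fin 2)) [[2], [2, 0]]
      (by decide +kernel)
  · exact aux exists_weylCs_D4 cartanRows_D4 _ ([1, 2] : List (Fin 4))
      [[1, 2, 0], [2], [3], [0, 3, 2, 3, 1]] (by decide +kernel)
  · exact aux exists_weylCs_F4 cartanRows_F4 _ ([0, 2] : List (Fin 4))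
      [[2], [0, 2, 1], [3], [0, 3, 1]] (by decide +kernel)
  · exact aux exists_weylCs_E6 cartanRows_E6 _ ([3] : List (Fin 6))
      [[1, 1, 1, 1, 1, 2, 0, 0, 0, 0, 0], [2, 1, 1, 1, 2, 0, 0, 0, 2], [1, 1, 1, 1, 2, 0, 0, 0, 0],
        [2], [0, 2, 1], [0, 0, 2, 1, 1]] (by decide +kernel)
  · exact aux exists_weylCs_E7 cartanRows_E7 _ ([3] : List (Fin 7))
      [[1, 2, 1, 1, 1, 1, 2, 0, 0, 0, 0, 2, 0], [2, 0, 2, 1, 1, 1, 1, 2, 0, 0, 0, 0, 2, 1, 2],
        [2, 1, 1, 1, 1, 2, 0, 0, 0, 0, 2], [2], [0, 2, 1], [0, 0, 2, 1, 1], [0, 0, 0, 2, 1, 1, 1]]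
      (by decide +kernel)
  · exact aux exists_weylCs_E8 cartanRows_E8 _ ([3] : List (Fin 8))
      [[1, 2, 0, 0, 0, 0, 0, 0, 2, 1, 1, 1, 1, 1, 1, 2, 0],
        [2, 0, 2, 0, 0, 0, 0, 0, 0, 2, 1, 1, 1, 1, 1, 1, 2, 1, 2],
        [2, 0, 0, 0, 0, 0, 0, 2, 1, 1, 1, 1, 1, 1, 2], [2], [0, 2, 1], [0, 0, 2, 1, 1],
        [0, 0, 0, 2, 1, 1, 1], [0, 0, 0, 0, 2, 1, 1, 1, 1]] (by decide +kernel)

end Cfsg.Agent.S2419
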