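import Mathlib
import Cfsg.Statements.S2425
import Cfsg.Agent.Cl.StFlagC

set_option autoImplicit false
open scoped MatrixGroups
open Cfsg

namespace Cfsg.Agent.S2425

/-- Values of the Steinberg character of `GL_n(q)` (the partition-indexed character for `ν = (1,…,1)`, of degree `q^(n(n−1)/2)`) at elements of order prime to the characteristic: if the characteristic polynomial of such an element is `∏ f^(m_f)` over distinct monic irreducible `f`, the value is `∏_f (−1)^((deg f − 1) m_f) q^(deg f · m_f (m_f − 1)/2)`. (At elements of order divisible by the characteristic the value is 0; that is not part of this statement.) -/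
theorem result {F : Type*} [Field F] [Fintype F] [DecidableEq F] {q : ℕ} (hq : Fintype.card F = q) (p : ℕ) [Fact p.Prime] [CharP F p]
    {n : ℕ} (x : GL (Fin n) F) (hx : (orderOf x).Coprime p) :
    Cfsg.unipotentCharacterGL n F (fun _ => 1) x =
      ∏ f ∈ (UniqueFactorizationMonoid.normalizedFactors (x : Matrix (Fin n) (Fin n) F).charpoly).toFinset,
        (-1 : ℂ) ^ ((f.natDegree - 1) * (UniqueFactorizationMonoid.normalizedFactors (x : Matrix (Fin n) (Fin n) F).charpoly).count f) *
          (q : ℂ) ^ (f.natDegree * (UniqueFactorizationMonoid.normalizedFactors (x : Matrix (Fin n) (Fin n) F).charpoly).count f *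
            ((UniqueFactorizationMonoid.normalizedFactors (x : Matrix (Fin n) (Fin n) F).charpoly).count f - 1) / 2) := by
  let g : Module.End F (Fin n → F) := Matrix.toLin' (x : Matrix (Fin n) (Fin n) F)
  have hs : g.IsSemisimple := by
    refine Module.End.isSemisimple_of_squarefree_aeval_eq_zero (p := Polynomial.X ^ orderOf x - 1)
      (Polynomial.X_pow_sub_one_separable_iff.2 fun h => ?_).squarefree ?_
    · exact (Fact.out : p.Prime).one_lt.ne' (hx.symm.eq_one_of_dvd ((CharP.cast_eq_zero_iff F p _).1 h))
    · rw [map_sub, map_pow, Polynomial.aeval_X, map_one, ← Matrix.toLin'_pow, ← Units.val_pow_eq_pow_val,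
        pow_orderOf_eq_one, Units.val_one, Matrix.toLin'_one, sub_eq_zero]
      rfl
  have : IsSemisimpleModule (Polynomial F) (Module.AEval' g) := hs
  have : Finite (Module.AEval' g) := Finite.of_equiv _ (Module.AEval'.of g).toEquiv
  let b := (Pi.basisFun F (Fin n)).map (Module.AEval'.of g)
  have hb : ∀ v, Cl.StF.rho b x v = (Polynomial.X : Polynomial F) • v := fun v => by
    have : Cl.StF.rho b x = Algebra.lsmul F F (Module.AEval' g) (Polynomial.X : Polynomial F) :=
      b.ext fun l => b.ext_elem fun i => by
        rw [Cl.StF.repr_rho]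
        simp [b, Module.AEval'.X_smul_of, g]
    rw [this]
    rfl
  have hc : Cl.StF.ch F (Module.AEval' g) = (x : Matrix (Fin n) (Fin n) F).charpoly := by
    rw [← Matrix.charpoly_toLin', ← (Module.AEval'.of g).charpoly_conj, Cl.StF.ch]
    congr 1
    ext v
    obtain ⟨v, rfl⟩ := (Module.AEval'.of g).surjective v
    simp [LinearEquiv.conj_apply, Module.AEval'.X_smul_of, g]
  have hm := (x : Matrix (Fin n) (Fin n) F).charpoly_monic
  rw [Cl.StF.steinberg_eq b hb, hc, Nat.card_eq_fintype_card, hq, ← Cl.StF.sign_mul_gam _ _ _ fun f hf =>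
    (UniqueFactorizationMonoid.irreducible_of_normalized_factor f hf).natDegree_pos,
    ← Polynomial.natDegree_multiset_prod_of_monic _ fun f hf => ((Polynomial.mem_normalizedFactors_iff hm.ne_zero).1 hf).2.1,
    UniqueFactorizationMonoid.prod_normalizedFactors_eq hm.ne_zero, hm.normalize_eq_self,
    Matrix.charpoly_natDegree_eq_dim, Fintype.card_fin]

end Cfsg.Agent.S2425
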