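import Mathlib
import Cfsg.Statements.S2429
import Cfsg.Agent.Cl.CharSL2Norm

set_option autoImplicit false
open Cfsg

namespace Cfsg.Agent.S2429

open Cfsg.Agent.Cl.GL2


/-- Let F be a finite field with q elements, q odd. Then SL₂ over F contains a cyclic subgroup T′ of order q + 1 (a non-split torus) with the following properties: T′ is its own centraliser, and indeed the centraliser of each element of T′ other than 1 and −1 is exactly T′; every element of SL₂ having no eigenvector in F² is conjugate to an element of T′; the normaliser of T′ has order 2(q + 1) and exactly (q + 7)/2 conjugacy classes; and every element of that normaliser outside T′ has square −1. -/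
theorem result {F : Type*} [Field F] [Fintype F] (hodd : Odd (Fintype.card F)) :
    ∃ T' : Subgroup (Matrix.SpecialLinearGroup (Fin 2) F), IsCyclic T' ∧ Nat.card T' = Fintype.card F + 1 ∧
      Subgroup.centralizer ((T' : Set (Matrix.SpecialLinearGroup (Fin 2) F))) = T' ∧
      (∀ g : Matrix.SpecialLinearGroup (Fin 2) F, g ∈ T' → (g : Matrix (Fin 2) (Fin 2) F) ≠ 1 → (g : Matrix (Fin 2) (Fin 2) F) ≠ -1 → Subgroup.centralizer ({g} : Set (Matrix.SpecialLinearGroup (Fin 2) F)) = T') ∧
      (∀ g : Matrix.SpecialLinearGroup (Fin 2) F, (∀ (c : F) (v : Fin 2 → F), v ≠ 0 → (g : Matrix (Fin 2) (Fin 2) F).mulVec v ≠ c • v) → ∃ h : Matrix.SpecialLinearGroup (Fin 2) F, h * g * h⁻¹ ∈ T') ∧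
      Nat.card (Subgroup.normalizer (T' : Set (Matrix.SpecialLinearGroup (Fin 2) F))) = 2 * (Fintype.card F + 1) ∧
      Nat.card (ConjClasses (Subgroup.normalizer (T' : Set (Matrix.SpecialLinearGroup (Fin 2) F)))) = (Fintype.card F + 7) / 2 ∧
      ∀ g : Matrix.SpecialLinearGroup (Fin 2) F, g ∈ Subgroup.normalizer (T' : Set (Matrix.SpecialLinearGroup (Fin 2) F)) → g ∉ T' → ((g * g) : Matrix (Fin 2) (Fin 2) F) = -1 := by
  obtain ⟨e, he⟩ := exists_isEll (F := F)
  obtain ⟨t, ht⟩ := exists_not_isScal_torusSL he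
  have htE := isEll_of_mem_torusSL he t ht
  have h2 := two_ne_zero_of_odd hodd
  have hrs : IsRS (t : Matrix.SpecialLinearGroup (Fin 2) F) := isRS_of_isEll h2 htE
  have hc : Nat.card (Subgroup.centralizer ({(t : Matrix.SpecialLinearGroup (Fin 2) F)} : Set (Matrix.SpecialLinearGroup (Fin 2) F))) =
      Fintype.card F + 1 := by
    rw [centralizer_sl_eq]
    exact card_torusSL (e := Matrix.SpecialLinearGroup.toGL (t : Matrix.SpecialLinearGroup (Fin 2) F)) htE
  refine ⟨Subgroup.centralizer {(t : Matrix.SpecialLinearGroup (Fin 2) F)}, isCyclic_centralizer hrs,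
    hc, ?_, ?_, ?_, ?_, ?_, ?_⟩
  · exact centralizer_eq_of_le ht le_rfl (Subgroup.mem_centralizer_singleton_iff.2 rfl) ht
  · intro g hg h1 h1'
    refine centralizer_eq_of_mem ht hg ?_
    rw [isScal_sl_iff]
    rintro (rfl | rfl)
    · exact h1 rfl
    · exact h1' (by simp)
  · intro g hg
    obtain ⟨s, hs⟩ := exists_isConj_mem_torusSL
      (e := Matrix.SpecialLinearGroup.toGL (t : Matrix.SpecialLinearGroup (Fin 2) F)) htE (g := g) hg
    obtain ⟨c, hc⟩ := isConj_iff.1 hs
    refine ⟨c, ?_⟩
    rw [hc, centralizer_sl_eq]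
    exact s.2
  · rw [card_normalizer_centralizer hrs, hc]
  · have h := two_mul_card_conjClasses_normalizer h2 hrs
    rw [hc] at h
    omega
  · intro g hg hg'
    have h := congrArg Subtype.val (mul_self_of_mem_normalizer hrs hg hg')
    simpa using h

end Cfsg.Agent.S2429
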