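import Mathlib
import Cfsg.Statements.S2430
import Cfsg.Agent.Cl.CharSL2Norm

set_option autoImplicit false
open Cfsg

namespace Cfsg.Agent.S2430

open Cfsg.Agent.Cl.GL2


/-- Let F be a finite field with q elements, q odd, ℓ an odd prime, and P a Sylow ℓ-subgroup of SL₂ over F. If ℓ divides q − 1, the centraliser of P is cyclic of order q − 1 (a split torus) and the normaliser of P has order 2(q − 1); if ℓ divides q + 1, the centraliser of P is cyclic of order q + 1 (a non-split torus) and the normaliser of P has order 2(q + 1). -/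
theorem result {F : Type*} [Field F] [Fintype F] (hodd : Odd (Fintype.card F)) (ℓ : ℕ) [Fact ℓ.Prime] (hℓ : ℓ ≠ 2)
    (P : Sylow ℓ (Matrix.SpecialLinearGroup (Fin 2) F)) :
    (ℓ ∣ Fintype.card F - 1 →
      Nat.card (Subgroup.centralizer ((P : Subgroup (Matrix.SpecialLinearGroup (Fin 2) F)) : Set (Matrix.SpecialLinearGroup (Fin 2) F))) = Fintype.card F - 1 ∧
      IsCyclic (Subgroup.centralizer ((P : Subgroup (Matrix.SpecialLinearGroup (Fin 2) F)) : Set (Matrix.SpecialLinearGroup (Fin 2) F))) ∧
      Nat.card (Subgroup.normalizer ((P : Subgroup (Matrix.SpecialLinearGroup (Fin 2) F)) : Set (Matrix.SpecialLinearGroup (Fin 2) F))) = 2 * (Fintype.card F - 1)) ∧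
    (ℓ ∣ Fintype.card F + 1 →
      Nat.card (Subgroup.centralizer ((P : Subgroup (Matrix.SpecialLinearGroup (Fin 2) F)) : Set (Matrix.SpecialLinearGroup (Fin 2) F))) = Fintype.card F + 1 ∧
      IsCyclic (Subgroup.centralizer ((P : Subgroup (Matrix.SpecialLinearGroup (Fin 2) F)) : Set (Matrix.SpecialLinearGroup (Fin 2) F))) ∧
      Nat.card (Subgroup.normalizer ((P : Subgroup (Matrix.SpecialLinearGroup (Fin 2) F)) : Set (Matrix.SpecialLinearGroup (Fin 2) F))) = 2 * (Fintype.card F + 1)) := by
  have hq := two_le_card (F := F)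
  have hl : ℓ.Prime := Fact.out
  have key : ℓ ∣ (Fintype.card F - 1) * (Fintype.card F + 1) → ∃ z : Matrix.SpecialLinearGroup (Fin 2) F, IsRS z ∧ orderOf z = ℓ ∧
      Subgroup.centralizer ((P : Subgroup (Matrix.SpecialLinearGroup (Fin 2) F)) : Set (Matrix.SpecialLinearGroup (Fin 2) F)) = Subgroup.centralizer {z} ∧
      Subgroup.normalizer ((P : Subgroup (Matrix.SpecialLinearGroup (Fin 2) F)) : Set (Matrix.SpecialLinearGroup (Fin 2) F)) =
        Subgroup.normalizer ((Subgroup.centralizer {z} : Subgroup (Matrix.SpecialLinearGroup (Fin 2) F)) : Set (Matrix.SpecialLinearGroup (Fin 2) F)) := by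
    intro hd
    have hG : ℓ ∣ Nat.card (Matrix.SpecialLinearGroup (Fin 2) F) := by
      rw [card_SL2, mul_assoc]
      exact hd.mul_left _
    have hP : Nontrivial P := by
      rw [Subgroup.nontrivial_iff_ne_bot]
      exact P.ne_bot_of_dvd_card hG
    have hZ := P.isPGroup'.center_nontrivial
    have hZp := P.isPGroup'.to_subgroup (Subgroup.center P)
    obtain ⟨z, hz⟩ := exists_prime_orderOf_dvd_card' (G := Subgroup.center P) ℓ
      (by
        obtain ⟨k, hk, hk'⟩ := (hZp.nontrivial_iff_card).1 hZ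
        rw [hk']
        exact dvd_pow_self _ hk.ne')
    have hz' : orderOf ((z : P) : Matrix.SpecialLinearGroup (Fin 2) F) = ℓ := by
      rw [Subgroup.orderOf_coe, Subgroup.orderOf_coe, hz]
    have hcop : ℓ.Coprime (2 * Fintype.card F) := by
      rw [Nat.coprime_mul_iff_right]
      refine ⟨(Nat.coprime_primes hl Nat.prime_two).2 hℓ, ?_⟩
      rw [Nat.Prime.coprime_iff_not_dvd hl]
      intro h
      have h3 : (Fintype.card F - 1) * (Fintype.card F + 1) + 1 = Fintype.card F * Fintype.card F := by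
        obtain ⟨k, hk⟩ := Nat.exists_eq_add_of_le (show 1 ≤ Fintype.card F by omega)
        rw [hk, Nat.add_sub_cancel_left]
        ring
      have h4 : ℓ ∣ 1 := (Nat.dvd_add_right hd).1 (h3 ▸ h.mul_right _)
      exact hl.one_lt.ne' (Nat.dvd_one.1 h4)
    have hrs : IsRS ((z : P) : Matrix.SpecialLinearGroup (Fin 2) F) := by
      refine isRS_of_orderOf ?_ (by rw [hz']; exact hcop)
      intro h
      rw [h, orderOf_one] at hz'
      exact hl.one_lt.ne hz'
    have hle : (P : Subgroup (Matrix.SpecialLinearGroup (Fin 2) F)) ≤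
        Subgroup.centralizer {((z : P) : Matrix.SpecialLinearGroup (Fin 2) F)} := by
      intro x hx
      rw [Subgroup.mem_centralizer_singleton_iff]
      exact congrArg Subtype.val (Subgroup.mem_center_iff.1 z.2 ⟨x, hx⟩)
    exact ⟨_, hrs, hz', centralizer_eq_of_le hrs.not_isScal hle (z : P).2 hrs.not_isScal,
      normalizer_eq_of_le hrs hle (z : P).2 hrs.not_isScal⟩
  have hboth : ℓ ∣ Fintype.card F - 1 → ℓ ∣ Fintype.card F + 1 → False := by
    intro h1 h2
    have h3 : ℓ ∣ 2 := by
      have := Nat.dvd_sub h2 h1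
      rwa [show Fintype.card F + 1 - (Fintype.card F - 1) = 2 by omega] at this
    exact hℓ ((Nat.prime_dvd_prime_iff_eq hl Nat.prime_two).1 h3)
  have hdv : ∀ z : Matrix.SpecialLinearGroup (Fin 2) F, orderOf z ∣
      Nat.card (Subgroup.centralizer ({z} : Set (Matrix.SpecialLinearGroup (Fin 2) F))) :=
    fun z => Subgroup.orderOf_dvd_natCard _ (Subgroup.mem_centralizer_singleton_iff.2 rfl)
  constructor
  · intro h
    obtain ⟨z, hrs, hz, h1, h2⟩ := key (h.mul_right _)
    have hc := (card_centralizer_or hrs).resolve_right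
      (fun h' => hboth h (by rw [← h', ← hz]; exact hdv z))
    rw [h1, h2, card_normalizer_centralizer hrs, hc]
    exact ⟨rfl, isCyclic_centralizer hrs, rfl⟩
  · intro h
    obtain ⟨z, hrs, hz, h1, h2⟩ := key (h.mul_left _)
    have hc := (card_centralizer_or hrs).resolve_left
      (fun h' => hboth (by rw [← h', ← hz]; exact hdv z) h)
    rw [h1, h2, card_normalizer_centralizer hrs, hc]
    exact ⟨rfl, isCyclic_centralizer hrs, rfl⟩

end Cfsg.Agent.S2430
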