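import Mathlib
import Cfsg.Statements.S2434
import Cfsg.Agent.Cl.CharSL2More

set_option autoImplicit false
open Cfsg

namespace Cfsg.Agent.S2434

open Cfsg.Agent.Cl.GL2 Cfsg.Agent.Ch Cfsg.Agent.Cl.CT


/-- Let F be a finite field with q elements, q odd, and C a cyclic subgroup of order q + 1 of SL₂ over F (a non-split torus; it contains the centre). For every homomorphism θ from C to the non-zero complex numbers with θ² ≠ 1 there is an irreducible complex character χ of degree q − 1 such that χ(c) = −θ(c) − θ(c)⁻¹ for every non-central c in C, χ(zg) = θ(z)χ(g) for central z in C, χ vanishes at diagonal elements with entry a, a² ≠ 1, and χ takes the value −1 at every upper unitriangular element other than 1. Conversely every irreducible character of degree q − 1 has, for some such θ, the values −θ(c) − θ(c)⁻¹ at the non-central elements c of C (for q ≥ 5 these are exactly the cuspidal characters of degree q − 1). -/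
theorem result {F : Type*} [Field F] [Fintype F] (hodd : Odd (Fintype.card F))
    (C : Subgroup (Matrix.SpecialLinearGroup (Fin 2) F)) (hC : IsCyclic C) (hcard : Nat.card C = Fintype.card F + 1) :
    (∀ θ : C →* ℂˣ, (∃ c : C, θ c ^ 2 ≠ 1) →
      ∃ χ : Matrix.SpecialLinearGroup (Fin 2) F → ℂ, Cfsg.IsIrrCharacter (Matrix.SpecialLinearGroup (Fin 2) F) χ ∧ χ 1 = (Fintype.card F : ℂ) - 1 ∧
        (∀ c : C, (c : Matrix.SpecialLinearGroup (Fin 2) F) ∉ Subgroup.center (Matrix.SpecialLinearGroup (Fin 2) F) → χ c = -((θ c).val + (θ c)⁻¹.val)) ∧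
        (∀ c : C, (c : Matrix.SpecialLinearGroup (Fin 2) F) ∈ Subgroup.center (Matrix.SpecialLinearGroup (Fin 2) F) → ∀ g : Matrix.SpecialLinearGroup (Fin 2) F, χ ((c : Matrix.SpecialLinearGroup (Fin 2) F) * g) = (θ c).val * χ g) ∧
        (∀ g : Matrix.SpecialLinearGroup (Fin 2) F, (g : Matrix (Fin 2) (Fin 2) F) 0 1 = 0 → (g : Matrix (Fin 2) (Fin 2) F) 1 0 = 0 → (g : Matrix (Fin 2) (Fin 2) F) 0 0 ^ 2 ≠ 1 → χ g = 0) ∧
        (∀ g : Matrix.SpecialLinearGroup (Fin 2) F, (g : Matrix (Fin 2) (Fin 2) F) 1 0 = 0 → (g : Matrix (Fin 2) (Fin 2) F) 0 0 = 1 → (g : Matrix (Fin 2) (Fin 2) F) 1 1 = 1 → (g : Matrix (Fin 2) (Fin 2) F) 0 1 ≠ 0 → χ g = -1)) ∧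
    (∀ χ : Matrix.SpecialLinearGroup (Fin 2) F → ℂ, Cfsg.IsIrrCharacter (Matrix.SpecialLinearGroup (Fin 2) F) χ → χ 1 = (Fintype.card F : ℂ) - 1 →
      ∃ θ : C →* ℂˣ, (∃ c : C, θ c ^ 2 ≠ 1) ∧
        ∀ c : C, (c : Matrix.SpecialLinearGroup (Fin 2) F) ∉ Subgroup.center (Matrix.SpecialLinearGroup (Fin 2) F) → χ c = -((θ c).val + (θ c)⁻¹.val)) := by
  classical
  obtain ⟨e, he, rfl⟩ := exists_eq_torusSL hC hcard
  have key : ∀ (θ : torusSL e →* ℂˣ) (c : torusSL e),
      (c : Matrix.SpecialLinearGroup (Fin 2) F) ∉ Subgroup.center _ →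
        cuS he θ c = -((θ c).val + (θ c)⁻¹.val) := fun θ c hc => by
    rw [cuS_torus he θ c (fun h => hc (mem_center_sl_iff.mpr h)), map_inv]
  refine ⟨fun θ hθ => ⟨cuS he θ, isIrr_cuS he ((ne_inv_iff_exists θ).mpr hθ), cuS_one he θ, key θ,
    fun c hc g => ?_, fun g _ h10 h => cuS_hyp he θ h10 fun h' => h ((upper_sq_eq_one h10).mp h'),
    fun g h10 h00 _ h01 => cuS_unip he θ h10 h00 h01⟩, fun χ hχ h => ?_⟩
  · rcases isScal_sl_iff.mp (mem_center_sl_iff.mp hc) with h | h
    · obtain rfl : c = 1 := Subtype.ext h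
      simp
    · obtain rfl : c = negT e := Subtype.ext h
      rw [coe_negT, neg_one_mul, cuS_neg]
  · by_cases hq : 4 ≤ Fintype.card F
    · obtain ⟨θ, hθ, rfl⟩ := mem_famSL_of_deg he hq hχ 3 h
      exact ⟨θ, (ne_inv_iff_exists θ).mp hθ, key θ⟩
    · have h3 : Fintype.card F = 3 := by
        have := two_le_card (F := F)
        obtain ⟨k, hk⟩ := hodd
        omega
      rcases irr_cases_sl he hχ with rfl | rfl | ⟨α, -, rfl⟩ | ⟨θ, hθ, rfl⟩ | hp | ⟨θ, -, -, hp⟩
      · simp [h3] at h; norm_num at h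
      · simp [h3, stS_one] at h; norm_num at h
      · simp [h3, prS_one] at h; norm_num at h
      · exact ⟨θ, (ne_inv_iff_exists θ).mp hθ, key θ⟩
      · have h5 := ncard_famSL_three he
        rw [if_neg (ringChar_ne_two_of_odd hodd), h3] at h5
        obtain ⟨_, θ, hθ, -⟩ := Set.nonempty_of_ncard_ne_zero (s := famSL he 3) (by omega)
        refine ⟨θ, (ne_inv_iff_exists θ).mp hθ, fun c hc => ?_⟩
        have h6 : ¬ IsScal ((c : Matrix.SpecialLinearGroup (Fin 2) F) : Mat F) :=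
          fun h => hc (mem_center_sl_iff.mpr h)
        have h7 := isEll_of_mem_torusSL he c h6
        rw [half_of_eq (hp.eq_ell h7), prS_ell _ h7, ← map_inv,
          hom_add_inv_of_card_three he h3 hθ c h6]
        simp
      · rw [half_of_eq hp.eq_one, cuS_one] at h
        simp [h3] at h; norm_num at h

end Cfsg.Agent.S2434
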