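import Mathlib
import Cfsg.Statements.S2439
import Cfsg.Agent.Cl.CharPSL2
import Cfsg.Agent.Cl.CharBlocks
import Cfsg.Agent.Ch.Table

set_option autoImplicit false
open Cfsg

namespace Cfsg.Agent.S2439

open Cfsg.Agent.Cl.GL2 Cfsg.Agent.Ch Cfsg.Agent.Cl.CT Cfsg.Agent.Blk

open scoped MatrixGroups

section

variable {F : Type*} [Field F] [Fintype F]

theorem index_or (p : ℕ) [Fact p.Prime] [CharP F p] (g : SL(2, F)) :
    p ∣ (Subgroup.centralizer ({g} : Set SL(2, F))).index ∨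
      ∃ z ∈ Subgroup.center SL(2, F), ∃ u, (∃ k, orderOf u = p ^ k) ∧ IsConj g (u * z) := by
  have hq : p ∣ Fintype.card F := by
    rw [← CharP.cast_eq_zero_iff F p]; exact FiniteField.cast_card_eq_zero F
  have h2 := two_le_card (F := F)
  rcases four_types_sl g with h | h | ⟨b, h10, h, h01, hc⟩ | ⟨b, h10, h, hc⟩
  · exact Or.inr ⟨g, mem_center_sl_iff.mpr h, 1, ⟨0, by simp⟩, by rw [one_mul]⟩
  · left
    have h3 := (Subgroup.centralizer {g}).card_mul_index
    rw [card_SL2, centralizer_sl_eq, card_torusSL h, mul_comm] at h3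
    rw [centralizer_sl_eq, Nat.eq_of_mul_eq_mul_right (by omega) h3]
    exact hq.mul_right _
  · right
    obtain ⟨y, hy, rfl | rfl⟩ := par_cases h10 h h01
    · exact ⟨1, one_mem _, uniS y, ⟨1, by rw [orderOf_uniS p hy, pow_one]⟩, by simpa using hc⟩
    · exact ⟨-1, neg_one_mem_center, uniS y, ⟨1, by rw [orderOf_uniS p hy, pow_one]⟩,
        by simpa using hc⟩
  · left
    have h3 := (Subgroup.centralizer {g}).card_mul_index
    have h4 := card_comap_toGL_mul (torus (Matrix.SpecialLinearGroup.toGL b))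
      (exists_mem_torus_det_hyp h (by simp [Matrix.trace_fin_two])
        (by rw [Matrix.det_fin_two, coe_toGL, h10]; simp))
    rw [card_centralizer_upper_hyp h10 h, sq] at h4
    rw [card_SL2, card_centralizer_eq_of_isConj hc, centralizer_sl_eq,
      Nat.eq_of_mul_eq_mul_right (by omega) h4, mul_comm (Fintype.card F), mul_assoc] at h3
    rw [Nat.eq_of_mul_eq_mul_left (by omega) h3]
    exact hq.mul_right _

theorem not_dvd_degree (p : ℕ) [Fact p.Prime] [CharP F p] {χ : SL(2, F) → ℂ}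
    (hχ : IsIrrCharacter _ χ) (h : χ 1 ≠ (Fintype.card F : ℂ)) : ¬ p ∣ charDegree χ := by
  have hp : p.Prime := Fact.out
  have hq : p ∣ Fintype.card F := by
    rw [← CharP.cast_eq_zero_iff F p]; exact FiniteField.cast_card_eq_zero F
  intro hd
  have h2 : ∀ d, p ∣ d → d ≠ Fintype.card F + 1 ∧ d + 1 ≠ Fintype.card F := fun d hd =>
    ⟨fun h3 => hp.one_lt.ne' (Nat.dvd_one.mp ((Nat.dvd_add_right hq).mp (h3 ▸ hd))),
      fun h3 => hp.one_lt.ne' (Nat.dvd_one.mp ((Nat.dvd_add_right hd).mp (h3 ▸ hq)))⟩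
  rcases charDegree_SL2_cases hχ with h1 | h1 | h1 | h1 | ⟨-, h1 | h1⟩
  · exact absurd (Nat.dvd_one.mp (h1 ▸ hd)) hp.one_lt.ne'
  · exact h (by rw [← h1, hχ.coe_charDegree])
  · exact absurd h1 (h2 _ hd).1
  · exact absurd h1 (h2 _ hd).2
  · exact absurd h1 (h2 _ (hd.mul_left 2)).1
  · exact absurd h1 (h2 _ (hd.mul_left 2)).2

end


/-- Let F be a finite field with q elements of odd characteristic p, and M a maximal ideal of the algebraic integers containing p. Then SL₂ over F has exactly three p-blocks relative to M: the irreducible character of degree q (the Steinberg character) alone; the other irreducible characters taking the same value at −1 as at 1 (the principal block); and the irreducible characters χ with χ(−1) = −χ(1). Every Sylow p-subgroup is a defect group of each of the last two blocks. -/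
theorem result {F : Type*} [Field F] [Fintype F] (p : ℕ) [Fact p.Prime] [CharP F p] (hp : p ≠ 2)
    (M : Ideal Cfsg.AlgInt) (hM : Cfsg.IsPModular p M) :
    (∀ B : Set (Cfsg.IrrCharacter (Matrix.SpecialLinearGroup (Fin 2) F)), Cfsg.IsPBlock M B ↔
      (B = {χ : Cfsg.IrrCharacter (Matrix.SpecialLinearGroup (Fin 2) F) | (χ : Matrix.SpecialLinearGroup (Fin 2) F → ℂ) 1 = (Fintype.card F : ℂ)} ∨
       B = {χ : Cfsg.IrrCharacter (Matrix.SpecialLinearGroup (Fin 2) F) | (χ : Matrix.SpecialLinearGroup (Fin 2) F → ℂ) (-1) = (χ : Matrix.SpecialLinearGroup (Fin 2) F → ℂ) 1 ∧ (χ : Matrix.SpecialLinearGroup (Fin 2) F → ℂ) 1 ≠ (Fintype.card F : ℂ)} ∨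
       B = {χ : Cfsg.IrrCharacter (Matrix.SpecialLinearGroup (Fin 2) F) | (χ : Matrix.SpecialLinearGroup (Fin 2) F → ℂ) (-1) = -(χ : Matrix.SpecialLinearGroup (Fin 2) F → ℂ) 1})) ∧
    Nat.card {B : Set (Cfsg.IrrCharacter (Matrix.SpecialLinearGroup (Fin 2) F)) // Cfsg.IsPBlock M B} = 3 ∧
    ∀ P : Sylow p (Matrix.SpecialLinearGroup (Fin 2) F),
      Cfsg.IsDefectGroup p M {χ : Cfsg.IrrCharacter (Matrix.SpecialLinearGroup (Fin 2) F) | (χ : Matrix.SpecialLinearGroup (Fin 2) F → ℂ) (-1) = (χ : Matrix.SpecialLinearGroup (Fin 2) F → ℂ) 1 ∧ (χ : Matrix.SpecialLinearGroup (Fin 2) F → ℂ) 1 ≠ (Fintype.card F : ℂ)} (P : Subgroup (Matrix.SpecialLinearGroup (Fin 2) F)) ∧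
      Cfsg.IsDefectGroup p M {χ : Cfsg.IrrCharacter (Matrix.SpecialLinearGroup (Fin 2) F) | (χ : Matrix.SpecialLinearGroup (Fin 2) F → ℂ) (-1) = -(χ : Matrix.SpecialLinearGroup (Fin 2) F → ℂ) 1} (P : Subgroup (Matrix.SpecialLinearGroup (Fin 2) F)) := by
  classical
  have := hM.isMaximal
  have hpp : p.Prime := Fact.out
  have hq : p ∣ Fintype.card F := by
    rw [← CharP.cast_eq_zero_iff F p]; exact FiniteField.cast_card_eq_zero F
  have h2 := two_le_card (F := F)
  let St : IrrCharacter SL(2, F) := ⟨stS F, isIrr_stS⟩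
  have hSt : blockOf M (St : SL(2, F) → ℂ) = {St} := by
    rw [blockOf_eq_singleton_iff_factorization hM, card_SL2,
      charDegree_of_apply_one (n := Fintype.card F) stS_one,
      Nat.factorization_mul (by positivity [Nat.sub_pos_of_lt h2]) (by omega),
      Nat.factorization_mul (by omega) (by omega)]
    have h3 : ¬ p ∣ Fintype.card F + 1 := fun h =>
      hpp.one_lt.ne' (Nat.dvd_one.mp ((Nat.dvd_add_right hq).mp h))
    have h4 : ¬ p ∣ Fintype.card F - 1 := fun h => hpp.one_lt.ne' (Nat.dvd_one.mp (by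
      have := Nat.dvd_sub hq h
      rwa [Nat.sub_sub_self (by omega)] at this))
    simp [Nat.factorization_eq_zero_of_not_dvd h3, Nat.factorization_eq_zero_of_not_dvd h4]
  have hS : ∀ χ : IrrCharacter SL(2, F), (χ : SL(2, F) → ℂ) 1 = Fintype.card F ↔ χ = St :=
    fun χ => ⟨fun h => Subtype.ext (eq_stS_of_deg χ.2 h), fun h => h ▸ stS_one⟩
  have hne : ∀ χ : IrrCharacter SL(2, F), ¬ ((χ : SL(2, F) → ℂ) (-1) = (χ : SL(2, F) → ℂ) 1 ∧
      (χ : SL(2, F) → ℂ) (-1) = -(χ : SL(2, F) → ℂ) 1) := fun χ h =>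
    χ.2.apply_one_ne_zero (by linear_combination (h.2 - h.1) / 2)
  have hSt1 : (St : SL(2, F) → ℂ) (-1) = (St : SL(2, F) → ℂ) 1 := stS_neg 1
  have key : ∀ χ ψ : IrrCharacter SL(2, F), χ ≠ St → (SameBlock M (χ : SL(2, F) → ℂ) ψ ↔
      ψ ≠ St ∧ ((χ : SL(2, F) → ℂ) (-1) / (χ : SL(2, F) → ℂ) 1 =
        (ψ : SL(2, F) → ℂ) (-1) / (ψ : SL(2, F) → ℂ) 1)) := by
    intro χ ψ hχ
    constructor
    · intro h
      refine ⟨?_, ?_⟩
      · rintro rfl
        have : χ ∈ blockOf M (St : SL(2, F) → ℂ) := h.symm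
        rw [hSt] at this
        exact hχ this
      · have h3 := SameBlock.sub_center h neg_one_mem_center
        have h4 : ¬ MemLocalIdeal M 2 := fun h5 => hp ((Nat.prime_dvd_prime_iff_eq hpp
          Nat.prime_two).mp ((hM.natCast_mem_iff 2).mp (by exact_mod_cast h5)))
        have h5 := χ.2.apply_one_ne_zero
        have h6 := ψ.2.apply_one_ne_zero
        rcases irr_neg_one_cases χ.2 with a | a <;> rcases irr_neg_one_cases ψ.2 with b | b <;>
          simp only [a, b, neg_div, div_self h5, div_self h6] at h3 ⊢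
        · exact absurd (by convert h3 using 1; norm_num) h4
        · exact absurd (by convert h3.neg using 1; norm_num) h4
    · rintro ⟨h1, h3⟩
      refine sameBlock_of_not_dvd hM (index_or p) χ.2 ψ.2 (not_dvd_degree p χ.2 ((hS χ).not.mpr hχ))
        (not_dvd_degree p ψ.2 ((hS ψ).not.mpr h1)) fun z hz => ?_
      rcases isScal_sl_iff.mp (mem_center_sl_iff.mp hz) with rfl | rfl
      · rw [div_self χ.2.apply_one_ne_zero, div_self ψ.2.apply_one_ne_zero]
      · exact h3
  have b1 : blockOf M (St : SL(2, F) → ℂ) =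
      {χ : IrrCharacter SL(2, F) | (χ : SL(2, F) → ℂ) 1 = Fintype.card F} := by
    rw [hSt]; ext χ; exact (hS χ).symm
  have b2 : ∀ χ : IrrCharacter SL(2, F), χ ≠ St →
      (χ : SL(2, F) → ℂ) (-1) = (χ : SL(2, F) → ℂ) 1 → blockOf M (χ : SL(2, F) → ℂ) =
      {χ : IrrCharacter SL(2, F) | (χ : SL(2, F) → ℂ) (-1) = (χ : SL(2, F) → ℂ) 1 ∧
        (χ : SL(2, F) → ℂ) 1 ≠ Fintype.card F} := by
    intro χ h1 h3
    ext ψ
    refine (key χ ψ h1).trans ?_
    rw [h3, div_self χ.2.apply_one_ne_zero, eq_comm, div_eq_one_iff_eq ψ.2.apply_one_ne_zero,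
      and_comm, Ne, ← hS]
    rfl
  have b3 : ∀ χ : IrrCharacter SL(2, F),
      (χ : SL(2, F) → ℂ) (-1) = -(χ : SL(2, F) → ℂ) 1 → blockOf M (χ : SL(2, F) → ℂ) =
      {χ : IrrCharacter SL(2, F) | (χ : SL(2, F) → ℂ) (-1) = -(χ : SL(2, F) → ℂ) 1} := by
    intro χ h3
    ext ψ
    refine (key χ ψ (by rintro rfl; exact hne _ ⟨hSt1, h3⟩)).trans ?_
    rw [h3, neg_div, div_self χ.2.apply_one_ne_zero, eq_comm,
      div_eq_iff ψ.2.apply_one_ne_zero, neg_one_mul]
    exact ⟨fun h => h.2, fun h => ⟨by rintro rfl; exact hne _ ⟨hSt1, h⟩, h⟩⟩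
  have one_ne : irrOne SL(2, F) ≠ St := by
    rw [Ne, ← hS]
    intro h
    exact card_sub_one_ne_zero (F := F) (by rw [← h]; exact sub_self _)
  obtain ⟨μ, hμ⟩ := exists_irr_apply_ne (G := SL(2, F)) (g := -1) (fun h => by
    have h3 := congrArg (fun x : SL(2, F) => (x : Mat F) 0 0) h
    simp at h3
    exact Ring.two_ne_zero (by rw [ringChar.eq F p]; exact hp) (by linear_combination -h3))
  replace hμ := (irr_neg_one_cases μ.2).resolve_left hμ
  have c2 := b2 _ one_ne rfl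
  have c3 := b3 μ hμ
  rw [← b1, ← c2, ← c3]
  have main : ∀ B : Set (IrrCharacter SL(2, F)), IsPBlock M B ↔
      B = blockOf M (St : SL(2, F) → ℂ) ∨ B = blockOf M (irrOne SL(2, F) : SL(2, F) → ℂ) ∨
        B = blockOf M (μ : SL(2, F) → ℂ) := by
    intro B
    constructor
    · rintro ⟨χ, rfl⟩
      by_cases h1 : χ = St
      · exact Or.inl (h1 ▸ rfl)
      rcases irr_neg_one_cases χ.2 with h | h
      · exact Or.inr (Or.inl ((b2 χ h1 h).trans c2.symm))
      · exact Or.inr (Or.inr ((b3 χ h).trans c3.symm))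
    · rintro (rfl | rfl | rfl) <;> exact ⟨_, rfl⟩
  refine ⟨main, ?_, fun P => ⟨?_, ?_⟩⟩
  · change Nat.card ({B | IsPBlock M B} : Set _) = 3
    rw [Nat.card_coe_set_eq, Set.ncard_eq_three]
    refine ⟨_, _, _, ?_, ?_, ?_, Set.ext main⟩
    · intro h
      have h3 := mem_blockOf_self (M := M) St
      rw [h, c2] at h3
      exact h3.2 stS_one
    · intro h
      have h3 := mem_blockOf_self (M := M) St
      rw [h, c3] at h3
      exact hne _ ⟨hSt1, h3⟩
    · intro h
      have h3 := mem_blockOf_self (M := M) μ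
      rw [← h, c2] at h3
      exact hne _ ⟨h3.1, hμ⟩
  · exact isDefectGroup_principalBlock hM P
  · rw [(isPBlock_blockOf μ).isDefectGroup_sylow_iff hM, (isPBlock_blockOf μ).blockDefect_eq_iff hM]
    refine ⟨μ, mem_blockOf_self μ, not_dvd_degree p μ.2 ((hS μ).not.mpr ?_)⟩
    rintro rfl; exact hne _ ⟨hSt1, hμ⟩

end Cfsg.Agent.S2439
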