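import Mathlib
import Cfsg.Statements.S2441
import Cfsg.Agent.Cl.CharBlockSt
import Cfsg.Agent.Chev.Good
import Cfsg.Agent.Chev.StFin
import Cfsg.Agent.Chev.CoxWord

set_option autoImplicit false
open Cfsg

namespace Cfsg.Agent.S2441

open Cfsg.Agent.Chev Cfsg.Agent.Cl.CT Cfsg.Lie

theorem aux (D : ChevalleyDatum) [hD : D.Good] (p : ℕ) [Fact p.Prime] (M : Ideal Cfsg.AlgInt)
    (hM : Cfsg.IsPModular p M) :
    Nat.card {B : Set (Cfsg.IrrCharacter (D.group (ZMod p))) // Cfsg.IsPBlock M B} = 2 := by
  have := D.finite_group (ZMod p)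
  have : Nonempty D.Nd := ⟨⟨0, lt_of_lt_of_le (by norm_num) hD.two_le_rank⟩⟩
  rw [strong_card_blocks (D.isStrong_XG (ZMod p)) (D.XS_XG_univ _) (fun A h1 h2 => ?_) hM,
    D.center_group_eq_bot, Subgroup.card_bot]
  by_contra h
  push Not at h
  obtain ⟨i, hi⟩ := h1
  obtain ⟨j, hj⟩ := h2
  refine hj (ChevalleyDatum.node_induction (P := fun j => j ∈ A) (fun a b hab ha => ?_) hi j)
  by_contra hb
  have := D.stRoot.A_zero_comm (h a ha b hb)
  rw [D.stRoot_A_sr_sr] at this
  exact hab this


/-- For a prime p, the Chevalley groups of types G₂, F₄ and E₈ over the field with p elements (types for which the simply connected and adjoint groups coincide, so the group has trivial centre) each have exactly two p-blocks relative to any maximal ideal of the algebraic integers containing p (only the count is asserted; it arises as the defect-zero block of the Steinberg character plus a single block of maximal defect). -/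
theorem result (p : ℕ) [Fact p.Prime] (M : Ideal Cfsg.AlgInt) (hM : Cfsg.IsPModular p M) :
    Nat.card {B : Set (Cfsg.IrrCharacter (Cfsg.Lie.chevG2.group (ZMod p))) // Cfsg.IsPBlock M B} = 2 ∧
    Nat.card {B : Set (Cfsg.IrrCharacter (Cfsg.Lie.chevF4.group (ZMod p))) // Cfsg.IsPBlock M B} = 2 ∧
    Nat.card {B : Set (Cfsg.IrrCharacter (Cfsg.Lie.chevE8.group (ZMod p))) // Cfsg.IsPBlock M B} = 2 := by
  have := goodG2
  have := goodF4
  have := goodE8
  exact ⟨aux _ p M hM, aux _ p M hM, aux _ p M hM⟩

end Cfsg.Agent.S2441
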