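import Mathlib
import Cfsg.Statements.S2442
import Cfsg.Agent.Cl.CharCuspD
import Cfsg.Agent.Cl.LinearBasic

set_option autoImplicit false
open scoped MatrixGroups
open Cfsg

namespace Cfsg.Agent.S2442

open Cfsg.Agent.Cl Cfsg.Agent.Cl.Cu Finset Module Polynomial


open Classical in
/-- Let F be a finite field with q elements and n ≥ 2. Call a complex character χ of GL_n over F cuspidal when, for every 0 < m < n, the sum of χ over the subgroup of matrices that agree with the identity outside the upper right m × (n − m) block vanishes (the restriction of χ to the unipotent radical of each maximal standard parabolic subgroup contains no principal constituent). Then GL_n has at least φ(qⁿ − 1)/n distinct cuspidal irreducible characters of degree (q − 1)(q² − 1)⋯(q^(n−1) − 1), φ being Euler's function (in particular at least one). -/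
theorem result {F : Type*} [Field F] [Fintype F] [DecidableEq F] (n : ℕ) (hn : 2 ≤ n) :
    Nat.totient (Fintype.card F ^ n - 1) / n ≤
      Nat.card {χ : Cfsg.IrrCharacter (GL (Fin n) F) //
        (χ : GL (Fin n) F → ℂ) 1 = ∏ i ∈ Finset.Ico 1 n, ((Fintype.card F : ℂ) ^ i - 1) ∧
        ∀ m : ℕ, 0 < m → m < n →
          (∑ g : GL (Fin n) F,
            if (∀ i j : Fin n, ¬ (i.val < m ∧ m ≤ j.val) → (g : Matrix (Fin n) (Fin n) F) i j = (1 : Matrix (Fin n) (Fin n) F) i j)
            then (χ : GL (Fin n) F → ℂ) g else 0) = 0} := by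
  obtain ⟨p, _, f, hp, hf⟩ := FiniteField.card' F
  have := Fact.mk hp
  simp only [← Nat.card_eq_fintype_card] at hf ⊢
  have hq : 1 < Nat.card F := Finite.one_lt_card
  let D := ∏ i ∈ range n, (Nat.card F ^ (i + 1) - 1)
  have hD : (Nat.card F).Coprime D := Nat.Coprime.prod_right fun i _ =>
    Nat.Coprime.of_dvd_left (dvd_pow_self _ i.succ_ne_zero) ((Nat.coprime_self_sub_right (by
      exact Nat.one_le_pow _ _ (by omega))).2 (Nat.coprime_one_right _))
  have hD0 : 0 < D := prod_pos fun i _ => Nat.sub_pos_of_lt (Nat.one_lt_pow i.succ_ne_zero hq)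
  have : NeZero D.totient := ⟨(Nat.totient_pos.2 hD0).ne'⟩
  let K := FiniteField.Extension F p D.totient
  have : CharP K p := charP_of_injective_algebraMap (algebraMap F K).injective p
  have : Fintype Kˣ := Fintype.ofFinite _
  have hK : D ∣ Nat.card K - 1 := by
    rw [FiniteField.natCard_extension]
    exact (Nat.modEq_iff_dvd' (Nat.one_le_pow _ _ (by omega))).1 (Nat.ModEq.pow_totient hD).symm
  have hM : Nat.card F ^ n - 1 ∣ Nat.card K - 1 := by
    refine Dvd.dvd.trans ?_ hK
    have := dvd_prod_of_mem (fun i => Nat.card F ^ (i + 1) - 1) (mem_range.2 (by omega : n - 1 < n))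
    rwa [Nat.sub_add_cancel (by omega)] at this
  have : NeZero (Nat.card Kˣ) := ⟨Nat.card_pos.ne'⟩
  let θ : Kˣ →* ℂˣ := (rootsOfUnity (Nat.card Kˣ) ℂ).subtype.comp
    (mulEquivOfCyclicCardEq (Complex.card_rootsOfUnity _).symm).toMonoidHom
  have hθ : Function.Injective θ := Subtype.val_injective.comp (MulEquiv.injective _)
  let ψ : ℕ → (End F (Fin n → F))ˣ → ℂ := fun k g => J (sL fun α : Kˣ => θ (α ^ k)) _ g.1
  let χ : ℕ → GL (Fin n) F → ℂ := fun k g => (-1) ^ (n - 1) * ψ k (Matrix.GeneralLinearGroup.toLin g)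
  have h1 : ∀ k, IsGeneralizedCharacter _ (χ k) := fun k => by
    have := isGen_J (F := F) (V := Fin n → F) (s := sL fun α : Kˣ => θ (α ^ k)) (n := n) (fun V _ _ _ hV => ?_)
      (by simp)
    · convert (this.comp Matrix.GeneralLinearGroup.toLin.toMonoidHom).intCast_smul ((-1) ^ (n - 1)) using 1
      ext g
      simp [χ, ψ]
    · have := Module.Finite.of_finite (R := F) (M := V)
      refine isGen_sL hp (Ch.isCharacter_monoidHom_units (θ.comp (powMonoidHom k))).isGeneralizedCharacter
        (a := f * (finrank F V * (finrank F V - 1) / 2)) ?_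
      rw [← Nat.card_congr (Matrix.GeneralLinearGroup.toLin' (finBasis F V)).toEquiv, card_gl', Fintype.card_fin,
        pow_mul, ← hf]
      exact mul_dvd_mul_left _ ((prod_dvd_prod_of_subset _ _ _ (range_subset_range.2 hV)).trans hK)
  have h2 : ∀ k k', classInner (χ k) (χ k') =
      #{i ∈ range n | k ≡ k' * Nat.card F ^ i [MOD Nat.card F ^ n - 1]} := fun k k' => by
    rw [← classInner_J_sL (by omega) hM θ hθ, ← @Ch.classInner_comp_mulEquiv _ _ (_) _ _ _ (Matrix.GeneralLinearGroup.toLin (n := Fin n) (R := F))]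
    refine congrArg _ (sum_congr rfl fun g _ => ?_)
    simp only [χ, ψ, map_mul, map_pow, map_neg, map_one]
    rw [mul_mul_mul_comm, ← mul_pow]
    simp
  have h3 : ∀ k, χ k 1 = ∏ i ∈ Ico 1 n, ((Nat.card F : ℂ) ^ i - 1) := fun k => by
    simp only [χ, ψ, map_one, Units.val_one]
    rw [J_one (isAdd_sL _), finrank_fin_fun, if_neg (by omega), ← Nat.card_Ico 1 n, ← prod_const,
      ← prod_mul_distrib]
    · simp
    · rw [sL_of_map_eq _ (S := univ) (a := fun _ : Unit => 1) (by simp)]
      simp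
  have h4 : ∀ k, (Nat.card F ^ n - 1).Coprime k → classInner (χ k) (χ k) = 1 := fun k hk => by
    rw [h2, Nat.cast_eq_one, card_eq_one]
    refine ⟨0, eq_singleton_iff_unique_mem.2 ⟨by simp [Nat.ModEq.refl]; omega, fun i hi => ?_⟩⟩
    obtain ⟨hi, hi'⟩ := mem_filter.1 hi
    have h5 : 1 ≡ Nat.card F ^ i [MOD Nat.card F ^ n - 1] :=
      Nat.ModEq.cancel_left_of_coprime hk (by rwa [mul_one])
    have h6 := Nat.pow_lt_pow_right hq (mem_range.1 hi)
    have h7 := Nat.one_le_pow i (Nat.card F) (by omega)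
    have h8 := Nat.eq_zero_of_dvd_of_lt ((Nat.modEq_iff_dvd' h7).1 h5) (by omega)
    exact Nat.pow_right_injective hq (by simp only [pow_zero]; omega)
  have h5 : ∀ k, (Nat.card F ^ n - 1).Coprime k → IsIrrCharacter _ (χ k) := fun k hk =>
    (h1 k).isIrr_of_norm_one (h4 k hk) (by
      rw [h3, prod_congr rfl (g := fun i => ((Nat.card F ^ i - 1 : ℕ) : ℂ)) fun i _ => by
        rw [Nat.cast_pred (by positivity), Nat.cast_pow], ← Nat.cast_prod]
      exact Nat.cast_nonneg _)
  let S := {k ∈ range (Nat.card F ^ n - 1) | (Nat.card F ^ n - 1).Coprime k}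
  have h6 := card_le_mul_card_image (f := χ) S n fun φ hφ => by
    obtain ⟨k', hk', rfl⟩ := mem_image.1 hφ
    refine (card_le_card (t := (range n).image fun i => k' * Nat.card F ^ i % (Nat.card F ^ n - 1))
      fun k hk => ?_).trans (card_image_le.trans (card_range n).le)
    obtain ⟨hk, e⟩ := mem_filter.1 hk
    have := h4 k' (mem_filter.1 hk').2
    nth_rw 1 [← e] at this
    rw [h2, Nat.cast_eq_one] at this
    obtain ⟨i, hi⟩ := card_pos.1 (this ▸ one_pos)
    refine mem_image.2 ⟨i, (mem_filter.1 hi).1, ?_⟩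
    rw [← (mem_filter.1 hi).2, Nat.mod_eq_of_lt (mem_range.1 (mem_filter.1 hk).1)]
  refine (Nat.div_le_of_le_mul h6).trans ?_
  rw [← Nat.card_eq_finsetCard]
  have h7 : ∀ φ : ↥(S.image χ), ∃ k, (Nat.card F ^ n - 1).Coprime k ∧ χ k = φ := fun φ => by
    obtain ⟨k, hk, e⟩ := mem_image.1 φ.2
    exact ⟨k, (mem_filter.1 hk).2, e⟩
  choose κ hκ hκ' using h7
  refine Nat.card_le_card_of_injective (fun φ => ⟨⟨χ (κ φ), h5 _ (hκ φ)⟩, h3 _, fun m h0 hm => ?_⟩) fun φ φ' e => ?_
  · have := congrArg ((-1 : ℂ) ^ (n - 1) * ·) (sum_J_block h0 hm (isAdd_sL (F := F) fun α : Kˣ => θ (α ^ κ φ)))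
    simpa only [mul_sum, mul_ite, mul_zero] using this
  · exact Subtype.ext (by rw [← hκ', ← hκ']; exact congrArg (fun x => x.1.1) e)

end Cfsg.Agent.S2442
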