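import Mathlib
import Cfsg.Statements.S2531
import Cfsg.Agent.Cl.LinearBasic

set_option autoImplicit false
open Cfsg

namespace Cfsg.Agent.S2531

section Aux

open Projectivization

variable {F V : Type*} [Field F] [Finite F] [AddCommGroup V] [Module F V] [Finite V]

theorem card_pts (W : Submodule F V) (hW : W ≠ ⊥) :
    ((Nat.card {x : Projectivization F V // x.submodule ≤ W} : ℕ) : ZMod (Nat.card F)) = 1 := by
  have e : Nat.card (Projectivization F W) =
      Nat.card {x : Projectivization F V // x.submodule ≤ W} := by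
    refine Nat.card_eq_of_bijective (fun y => ⟨map W.subtype W.subtype_injective y, ?_⟩) ⟨?_, ?_⟩
    · induction y with | h w hw => simp [map_mk]
    · exact fun a b h => map_injective _ W.subtype_injective (congrArg Subtype.val h)
    · rintro ⟨x, hx⟩
      induction x with | h v hv =>
      rw [submodule_mk, Submodule.span_singleton_le_iff_mem] at hx
      exact ⟨mk F ⟨v, hx⟩ fun h => hv (congrArg Subtype.val h), rfl⟩
  obtain ⟨d, hd⟩ := Nat.exists_eq_succ_of_ne_zero (mt Submodule.finrank_eq_zero.1 hW)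
  rw [← e, card_of_finrank F W hd, Finset.sum_range_succ']
  simp [pow_succ]

theorem not_sharp (ω : Projectivization F V) (H : Submodule F V) (hH : H ≠ ⊥)
    (hω : ¬ ω.submodule ≤ H) (T : Set (Equiv.Perm (Projectivization F V)))
    (hT : ∀ s ∈ T, s ω = ω ∧ ∃ W : Submodule F V, W ≠ ⊥ ∧
      ∀ x, (x.submodule ≤ H ∧ (s x).submodule ≤ H) ↔ x.submodule ≤ W) :
    ¬ ∀ a c, a ≠ ω → c ≠ ω → ∃! s, s ∈ T ∧ s a = c := by
  classical
  intro h
  have hB : ∀ a : {x : Projectivization F V // x.submodule ≤ H}, a.1 ≠ ω := fun a e => hω (e ▸ a.2)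
  have : Fact (1 < Nat.card F) := ⟨Finite.one_lt_card⟩
  obtain ⟨v, hv, hv0⟩ := H.ne_bot_iff.1 hH
  have ha := hB ⟨mk F v hv0, by simpa using hv⟩
  have h1 : Nat.card T = Nat.card {c // c ≠ ω} :=
    Nat.card_eq_of_bijective (fun s => ⟨s.1 (mk F v hv0), fun e =>
      ha (s.1.injective (e.trans (hT s s.2).1.symm))⟩)
      ⟨fun s t e => Subtype.ext ((h _ _ ha (fun e => ha
        (t.1.injective (e.trans (hT t t.2).1.symm)))).unique
          ⟨s.2, congrArg Subtype.val e⟩ ⟨t.2, rfl⟩),
      fun c => by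
        obtain ⟨s, hs, -⟩ := h _ c.1 ha c.2
        exact ⟨⟨s, hs.1⟩, Subtype.ext hs.2⟩⟩
  have h2 : ((Nat.card T : ℕ) : ZMod (Nat.card F)) = 0 := by
    have h3 := card_pts (⊤ : Submodule F V) (fun e => hH (eq_bot_iff.2 (e ▸ le_top)))
    rw [Nat.card_congr (Equiv.subtypeUnivEquiv fun _ => le_top),
      ← Nat.card_congr (Equiv.optionSubtypeNe ω), Finite.card_option] at h3
    rw [h1]
    simpa using h3
  have h4 : Nat.card (Σ s : T, {x : Projectivization F V //
      x.submodule ≤ H ∧ (s.1 x).submodule ≤ H}) =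
      Nat.card ({x : Projectivization F V // x.submodule ≤ H} ×
        {x : Projectivization F V // x.submodule ≤ H}) := by
    refine Nat.card_eq_of_bijective (fun p => (⟨p.2.1, p.2.2.1⟩, ⟨p.1.1 p.2.1, p.2.2.2⟩)) ⟨?_, ?_⟩
    · rintro ⟨s, a, ha⟩ ⟨t, b, hb⟩ e
      simp only [Prod.mk.injEq, Subtype.mk.injEq] at e
      obtain ⟨rfl, e⟩ := e
      obtain rfl : s = t := Subtype.ext ((h _ _ (hB ⟨a, ha.1⟩) (hB ⟨_, hb.2⟩)).unique ⟨s.2, e⟩
        ⟨t.2, rfl⟩)
      rfl
    · rintro ⟨a, c⟩
      obtain ⟨s, hs, -⟩ := h _ _ (hB a) (hB c)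
      exact ⟨⟨⟨s, hs.1⟩, a.1, a.2, by rw [hs.2]; exact c.2⟩, Prod.ext rfl (Subtype.ext hs.2)⟩
  have := Fintype.ofFinite T
  have h5 := congrArg (Nat.cast : ℕ → ZMod (Nat.card F)) h4
  rw [Nat.card_sigma, Nat.card_prod, Nat.cast_mul, card_pts H hH, Nat.cast_sum,
    Finset.sum_congr rfl (g := fun _ => 1) fun s _ => by
      obtain ⟨W, hW, e⟩ := (hT s s.2).2
      rw [Nat.card_congr (Equiv.subtypeEquivRight e), card_pts W hW]] at h5
  rw [Finset.sum_const, Finset.card_univ, ← Nat.card_eq_fintype_card, nsmul_one, h2] at h5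
  simp at h5

end Aux

/-- Let `F` be a finite field and `n ≥ 3`. No set of permutations of the points of the projective space of `Fⁿ`, each induced by an invertible semilinear transformation of `Fⁿ` (so a subset of the full projective semilinear group), is sharply 2-transitive on the points: it is impossible that for all pairs of distinct points `(a, b)` and `(c, d)` exactly one member of the set sends `a` to `c` and `b` to `d`. -/
theorem result {F : Type*} [Field F] [Finite F]
    (n : ℕ) (hn : 3 ≤ n) (S : Set (Equiv.Perm (Projectivization F (Fin n → F))))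
    (hS : ∀ s ∈ S, ∃ (σ : F ≃+* F) (f : (Fin n → F) →ₛₗ[(σ : F →+* F)] (Fin n → F)) (hf : Function.Injective f),
      ∀ x, s x = Projectivization.map f hf x) :
    ¬ (∀ a b c d : Projectivization F (Fin n → F), a ≠ b → c ≠ d →
        ∃! s, s ∈ S ∧ s a = c ∧ s b = d) := by
  intro h
  let i : Fin n := ⟨0, by omega⟩
  let j : Fin n := ⟨1, by omega⟩
  have hij : i ≠ j := by simp [i, j]
  let ω := Projectivization.mk F (Pi.single i (1 : F) : Fin n → F) (by simp)
  let H : Submodule F (Fin n → F) := LinearMap.ker (LinearMap.proj i)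
  refine not_sharp ω H (H.ne_bot_iff.2 ⟨Pi.single j 1, by simp [H, hij], by simp⟩) (by simp [ω, H])
    {s | s ∈ S ∧ s ω = ω} (fun s hs => ⟨hs.2, ?_⟩) fun a c ha hc => ?_
  · obtain ⟨σ, f, hf, e⟩ := hS s hs.1
    refine ⟨H ⊓ H.comap f, fun hb => ?_, fun x => ?_⟩
    · have hi : Function.Injective (AddMonoidHom.mk' (fun v : Fin n → F => (v i, f v i))
          fun v w => by simp) := (injective_iff_map_eq_zero _).2 fun v hv => by
        have : v ∈ H ⊓ H.comap f := ⟨congrArg Prod.fst hv, congrArg Prod.snd hv⟩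
        rwa [hb] at this
      have h1 := Nat.card_le_card_of_injective _ hi
      rw [Nat.card_fun, Nat.card_prod, ← pow_two, Nat.card_eq_fintype_card (α := Fin n),
        Fintype.card_fin, Nat.pow_le_pow_iff_right Finite.one_lt_card] at h1
      omega
    · rw [e]
      induction x with | h v hv => simp [Projectivization.map_mk]
  · obtain ⟨s, hs, hu⟩ := h a ω c ω ha hc
    exact ⟨s, ⟨⟨hs.1, hs.2.2⟩, hs.2.1⟩, fun t ht => hu t ⟨ht.1.1, ht.2, ht.1.2⟩⟩

end Cfsg.Agent.S2531
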