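import Cfsg.Statements.S2532
import Cfsg.Agent.Sym.Orbits

set_option autoImplicit false
open Cfsg

namespace Cfsg.Agent.S2532

/-- There is a function `f` of two natural-number arguments such that, whenever `m ≥ f(n, r)`, every subgroup of order `n` of the alternating group of degree `m` centralizes some subgroup of that alternating group isomorphic to the alternating group of degree `r`. -/
theorem result :
    ∃ f : ℕ → ℕ → ℕ, ∀ (m r : ℕ) (H : Subgroup ↥(alternatingGroup (Fin m))), f (Nat.card H) r ≤ m →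
      ∃ K : Subgroup ↥(alternatingGroup (Fin m)), Nonempty (↥K ≃* ↥(alternatingGroup (Fin r))) ∧
        K ≤ Subgroup.centralizer (H : Set ↥(alternatingGroup (Fin m))) := by
  classical
  refine ⟨fun n r => 2 ^ n * r * n, fun m r H hm => ?_⟩
  let Q := MulAction.orbitRel.Quotient H (Fin m)
  have h1 : m ≤ Fintype.card Q * Nat.card H := by
    have := Nat.card_le_card_of_surjective (fun x : Q × H => x.2 • x.1.out) fun y => by
      obtain ⟨h, hh⟩ : y ∈ MulAction.orbit H (Quotient.mk'' y : Q).out :=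
        (Quotient.exact (Quotient.out_eq (Quotient.mk'' y : Q)).symm :)
      exact ⟨(_, h), hh⟩
    simpa using this
  obtain ⟨S, hS⟩ := Fintype.exists_le_card_fiber_of_mul_le_card
    (fun q : Q => (MulAction.stabilizer H q.out : Set H)) (n := r) (by
      rw [Fintype.card_set, ← Nat.card_eq_fintype_card]
      exact Nat.le_of_mul_le_mul_right (hm.trans h1) Nat.card_pos)
  obtain ⟨e⟩ : Nonempty (Fin r ↪ {q : Q // (MulAction.stabilizer H q.out : Set H) = S}) :=
    Function.Embedding.nonempty_of_card_le (by simpa [Fintype.card_subtype] using hS)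
  let T : Subgroup H := Subgroup.closure S
  have hT : ∀ i, MulAction.stabilizer H (e i).1.out = T := fun i =>
    (Subgroup.closure_eq _).symm.trans (congrArg Subgroup.closure (e i).2)
  let ι : Fin r × (H ⧸ T) ↪ Fin m := ⟨fun x => x.2.out • (e x.1).1.out, by
    rintro ⟨i, a⟩ ⟨j, b⟩ h
    have h2 : (e i).1 = (e j).1 := by
      rw [← Quotient.out_eq (e i).1, ← Quotient.out_eq (e j).1]
      exact Quotient.sound ⟨a.out⁻¹ * b.out, by simp only [mul_smul]; rw [inv_smul_eq_iff]; exact h.symm⟩
    obtain rfl : i = j := e.injective (Subtype.ext h2)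
    have h3 : a.out⁻¹ * b.out ∈ T := by
      apply (hT i).le
      rw [MulAction.mem_stabilizer_iff, mul_smul, inv_smul_eq_iff]; exact h.symm
    rw [← QuotientGroup.eq, QuotientGroup.out_eq', QuotientGroup.out_eq'] at h3
    rw [h3]⟩
  have hι : ∀ (h : H) i a, h • ι (i, a) = ι (i, h • a) := by
    intro h i a
    change h • a.out • (e i).1.out = (h • a).out • (e i).1.out
    rw [← mul_smul, eq_comm, ← inv_smul_eq_iff, ← mul_smul, ← MulAction.mem_stabilizer_iff, hT,
      ← QuotientGroup.eq, QuotientGroup.out_eq', ← smul_eq_mul, MulAction.Quotient.mk_smul_out]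
  let ψ : alternatingGroup (Fin r) →* Equiv.Perm (Fin r × (H ⧸ T)) :=
    { toFun := fun g => Equiv.prodCongrLeft fun _ => (g : Equiv.Perm (Fin r))
      map_one' := rfl
      map_mul' := fun _ _ => rfl }
  let φ : alternatingGroup (Fin r) →* alternatingGroup (Fin m) :=
    (Sym.altEmb ι).comp (ψ.codRestrict _ fun g => by
      rw [Equiv.Perm.mem_alternatingGroup]
      have := Equiv.Perm.sign_prodCongrLeft fun _ : H ⧸ T => (g : Equiv.Perm (Fin r))
      simp only [Equiv.Perm.mem_alternatingGroup.1 g.2, Finset.prod_const_one] at this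
      convert this
      rfl)
  have hφ : Function.Injective φ := by
    refine (Sym.altEmb_injective ι).comp fun g g' h => ?_
    ext i : 2
    exact congrArg (fun k : alternatingGroup _ => ((k : Equiv.Perm (Fin r × (H ⧸ T))) (i, ((1 : H) : H ⧸ T))).1) h
  refine ⟨φ.range, ⟨(MonoidHom.ofInjective hφ).symm⟩, ?_⟩
  rintro _ ⟨g, rfl⟩ h hh
  ext x : 2
  change (⟨h, hh⟩ : H) • (ψ g).viaEmbedding ι x = (ψ g).viaEmbedding ι ((⟨h, hh⟩ : H) • x)
  by_cases hx : x ∈ Set.range ι
  · obtain ⟨⟨i, a⟩, rfl⟩ := hx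
    rw [hι, Equiv.Perm.viaEmbedding_apply, Equiv.Perm.viaEmbedding_apply]
    exact hι _ _ _
  · rw [Equiv.Perm.viaEmbedding_apply_of_notMem _ _ _ hx,
      Equiv.Perm.viaEmbedding_apply_of_notMem]
    rintro ⟨⟨i, a⟩, h2⟩
    exact hx ⟨(i, (⟨h, hh⟩ : H)⁻¹ • a), by rw [← hι, h2, inv_smul_smul]⟩

end Cfsg.Agent.S2532
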