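import Mathlib
import Cfsg.Statements.S2533
import Cfsg.Agent.Cl.Transport

set_option autoImplicit false
open Cfsg

namespace Cfsg.Agent.S2533

section pre
open Matrix

/-- generalized dihedral group -/
@[ext] structure HH (F : Type) where
  e : ℤˣ
  x : Fin 3 → F

variable {F : Type} [Field F]

theorem sq_cast (e : ℤˣ) : ((e : ℤ) : F) * ((e : ℤ) : F) = 1 := by
  rcases Int.units_eq_one_or e with rfl | rfl <;> simp

instance : Group (HH F) where
  mul a b := ⟨a.e * b.e, a.x + ((a.e : ℤ) : F) • b.x⟩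
  one := ⟨1, 0⟩
  inv a := ⟨a.e⁻¹, -(((a.e : ℤ) : F) • a.x)⟩
  mul_assoc a b c := by
    refine HH.ext (mul_assoc _ _ _) ?_
    show a.x + _ • b.x + (((a.e * b.e : ℤˣ) : ℤ) : F) • c.x = a.x + _ • (b.x + _ • c.x)
    simp [smul_add, smul_smul, add_assoc]
  one_mul a := by
    refine HH.ext (one_mul _) ?_
    show 0 + (((1 : ℤˣ) : ℤ) : F) • a.x = _
    simp
  mul_one a := by
    refine HH.ext (mul_one _) ?_
    show a.x + _ • (0 : Fin 3 → F) = _
    simp
  inv_mul_cancel a := by
    refine HH.ext (inv_mul_cancel _) ?_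
    show -(_ • a.x) + (((a.e⁻¹ : ℤˣ) : ℤ) : F) • a.x = 0
    rw [Int.units_inv_eq_self, neg_add_cancel]

/-- as a product -/
def HH.equiv : HH F ≃ ℤˣ × (Fin 3 → F) := ⟨fun a => (a.e, a.x), fun a => ⟨a.1, a.2⟩,
  fun _ => rfl, fun _ => rfl⟩

/-- the three diagonals -/
def A (m : ℕ) (x : Fin 3 → F) : Matrix (Fin (m + 1)) (Fin m) F := of fun i j =>
  (if (i : ℕ) = j then x 0 else 0) + (if (i : ℕ) = j + 1 then x 1 else 0) +
    (if (i : ℕ) = j + 2 then x 2 else 0)

theorem A_add (m : ℕ) (x y : Fin 3 → F) (c : F) : A m (x + c • y) = A m x + c • A m y := by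
  ext i j
  simp only [A, of_apply, Matrix.add_apply, Matrix.smul_apply, Pi.add_apply, Pi.smul_apply,
    smul_eq_mul]
  split_ifs <;> ring

theorem A_zero (m : ℕ) : A m (0 : Fin 3 → F) = 0 := by
  ext i j
  simp [A]

theorem A_eq_zero {m : ℕ} (hm : 2 ≤ m) {x : Fin 3 → F} (h : A m x = 0) : x = 0 := by
  have h0 := congrFun (congrFun h ⟨0, by omega⟩) ⟨0, by omega⟩
  have h1 := congrFun (congrFun h ⟨1, by omega⟩) ⟨0, by omega⟩
  have h2 := congrFun (congrFun h ⟨2, by omega⟩) ⟨0, by omega⟩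
  simp [A] at h0 h1 h2
  ext i
  fin_cases i <;> simpa

theorem scalar_of {m : ℕ} {a : Matrix (Fin (m + 1)) (Fin (m + 1)) F} {d : Matrix (Fin m) (Fin m) F}
    (h0 : a * A (F := F) m ![1, 0, 0] = A (F := F) m ![1, 0, 0] * d)
    (h1 : a * A (F := F) m ![0, 1, 0] = A (F := F) m ![0, 1, 0] * d) :
    ∃ r : F, a = r • 1 ∧ d = r • 1 := by
  have e0 : ∀ i j, A (F := F) m ![1, 0, 0] i j = if i = j.castSucc then 1 else 0 := by
    intro i j
    simp [A, Fin.ext_iff]
  have e1 : ∀ i j, A (F := F) m ![0, 1, 0] i j = if i = j.succ then 1 else 0 := by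
    intro i j
    simp [A, Fin.ext_iff]
  have k0 : ∀ i j, a i.castSucc j.castSucc = d i j := fun i j => by
    simpa [mul_apply, e0] using congrFun (congrFun h0 i.castSucc) j
  have k1 : ∀ i j, a i.succ j.succ = d i j := fun i j => by
    simpa [mul_apply, e1] using congrFun (congrFun h1 i.succ) j
  have k2 : ∀ j, a (Fin.last m) (Fin.castSucc j) = 0 := fun j => by
    simpa [mul_apply, e0, (Fin.castSucc_lt_last _).ne'] using congrFun (congrFun h0 (Fin.last m)) j
  have k3 : ∀ j, a 0 (Fin.succ j) = 0 := fun j => by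
    simpa [mul_apply, e1, (Fin.succ_ne_zero _).symm] using congrFun (congrFun h1 0) j
  have l1 : ∀ i j, i < j → a i j = 0 := by
    intro i
    induction i using Fin.induction with
    | zero => intro j hj; obtain ⟨j, rfl⟩ := Fin.exists_succ_eq.2 hj.ne'; exact k3 j
    | succ i ih =>
      intro j hj
      obtain ⟨j, rfl⟩ := Fin.exists_succ_eq.2 ((Fin.zero_le _).trans_lt hj).ne'
      rw [k1, ← k0, ih _ (by simpa using hj)]
  have l2 : ∀ i j, j < i → a i j = 0 := by
    intro i
    induction i using Fin.reverseInduction with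
    | last => intro j hj; obtain ⟨j, rfl⟩ := Fin.exists_castSucc_eq.2 hj.ne; exact k2 j
    | cast i ih =>
      intro j hj
      obtain ⟨j, rfl⟩ := Fin.exists_castSucc_eq.2 (hj.trans_le (Fin.le_last _)).ne
      rw [k0, ← k1, ih _ (by simpa using hj)]
  have l3 : ∀ i, a i i = a 0 0 := by
    intro i
    induction i using Fin.induction with
    | zero => rfl
    | succ i ih => rw [k1, ← k0, ih]
  have l4 : a = a 0 0 • 1 := by
    ext i j
    rcases lt_trichotomy i j with h | rfl | h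
    · simp [l1 _ _ h, h.ne]
    · simp [l3 i]
    · simp [l2 _ _ h, h.ne']
  refine ⟨a 0 0, l4, ?_⟩
  ext i j
  rw [← k1, l4]
  simp [one_apply]

/-- the representation -/
def rho (k : ℕ) : HH F →* SpecialLinearGroup (Fin (2 * k + 1) ⊕ Fin (2 * k)) F where
  toFun a := ⟨fromBlocks 1 (((a.e : ℤ) : F) • A (2 * k) a.x) 0 (((a.e : ℤ) : F) • 1), by
    rw [det_fromBlocks_zero₂₁, det_one, one_mul, det_smul, det_one, mul_one, Fintype.card_fin,
      pow_mul, pow_two, sq_cast, one_pow]⟩
  map_one' := Subtype.ext (by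
    show fromBlocks 1 ((((1 : ℤˣ) : ℤ) : F) • A (2 * k) 0) 0 ((((1 : ℤˣ) : ℤ) : F) • 1) = 1
    simp [A_zero])
  map_mul' a b := Subtype.ext (by
    show fromBlocks 1 ((((a.e * b.e : ℤˣ) : ℤ) : F) • A (2 * k) (a.x + _ • b.x)) 0
      ((((a.e * b.e : ℤˣ) : ℤ) : F) • 1) = fromBlocks _ _ _ _ * fromBlocks _ _ _ _
    rw [fromBlocks_multiply, A_add]
    congr 1
    · simp
    · simp only [Units.val_mul, Int.cast_mul, smul_add, smul_smul, Matrix.one_mul, Matrix.mul_smul,
        Matrix.mul_one]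
      rw [mul_right_comm, sq_cast, one_mul, mul_comm ((a.e : ℤ) : F)]
      exact add_comm _ _
    · simp
    · simp [smul_smul, mul_comm])

theorem rho_neg (k : ℕ) (x : Fin 3 → F) : (rho k (⟨-1, x⟩ : HH F)).1 =
    fromBlocks 1 (-A (2 * k) x) 0 (-1) := by
  show fromBlocks 1 ((((-1 : ℤˣ) : ℤ) : F) • A (2 * k) x) 0 ((((-1 : ℤˣ) : ℤ) : F) • 1) = _
  simp

theorem main (h2 : (2 : F) ≠ 0) {k : ℕ} (hk : 1 ≤ k) :
    ∃ φ : HH F →* ProjectiveSpecialLinearGroup (Fin (2 * k + 1) ⊕ Fin (2 * k)) F,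
      Function.Injective φ ∧ ∀ g, (∀ h, φ h * g = g * φ h) → g = 1 := by
  refine ⟨(QuotientGroup.mk' _).comp (rho k), ?_, fun g hg => ?_⟩
  · rw [injective_iff_map_eq_one]
    rintro ⟨e, x⟩ h
    obtain ⟨r, -, hr⟩ := Matrix.SpecialLinearGroup.mem_center_iff.1 ((QuotientGroup.eq_one_iff _).1 h)
    have hr' : scalar _ r = fromBlocks 1 (((e : ℤ) : F) • A (2 * k) x) 0 (((e : ℤ) : F) • 1) := hr
    have h1 : r = 1 := by simpa using congrFun (congrFun hr' (Sum.inl 0)) (Sum.inl 0)
    have h3 : r = ((e : ℤ) : F) := by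
      simpa using congrFun (congrFun hr' (Sum.inr ⟨0, by omega⟩)) (Sum.inr ⟨0, by omega⟩)
    have h4 : A (2 * k) x = 0 := by
      ext i j
      have := congrFun (congrFun hr' (Sum.inl i)) (Sum.inr j)
      simpa [← h3, h1] using this.symm
    refine HH.ext ?_ (A_eq_zero (by omega) h4)
    rcases Int.units_eq_one_or e with rfl | rfl
    · rfl
    · exact absurd (by rw [h1] at h3; simp at h3; linear_combination h3) h2
  · obtain ⟨g, rfl⟩ := QuotientGroup.mk_surjective g
    have key : ∀ x : Fin 3 → F, g.1 * fromBlocks 1 (-A (2 * k) x) 0 (-1) =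
        fromBlocks 1 (-A (2 * k) x) 0 (-1) * g.1 := fun x => by
      have h1 : (g * rho k (⟨-1, x⟩ : HH F))⁻¹ * (rho k ⟨-1, x⟩ * g) ∈ Subgroup.center _ :=
        QuotientGroup.eq.1 (hg ⟨-1, x⟩).symm
      obtain ⟨r, -, hr⟩ := Matrix.SpecialLinearGroup.mem_center_iff.1 h1
      have h3 : (g * rho k (⟨-1, x⟩ : HH F)).1 * scalar _ r = (rho k (⟨-1, x⟩ : HH F) * g).1 := by
        rw [hr, ← Matrix.SpecialLinearGroup.coe_mul, mul_inv_cancel_left]
      have h4 : r • (g.1 * (rho k (⟨-1, x⟩ : HH F)).1) = (rho k (⟨-1, x⟩ : HH F)).1 * g.1 := by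
        rw [← Matrix.SpecialLinearGroup.coe_mul, ← Matrix.SpecialLinearGroup.coe_mul, ← h3, scalar_apply,
          ← smul_eq_mul_diagonal]
      have h5 := congrArg (fun M => trace (M * (g⁻¹).1)) h4
      simp only [Matrix.smul_mul, trace_smul] at h5
      rw [trace_mul_cycle, ← Matrix.SpecialLinearGroup.coe_mul g⁻¹, Matrix.mul_assoc,
        ← Matrix.SpecialLinearGroup.coe_mul g, inv_mul_cancel, mul_inv_cancel,
        Matrix.SpecialLinearGroup.coe_one, Matrix.one_mul, Matrix.mul_one, rho_neg] at h5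
      have h6 : trace (fromBlocks 1 (-A (2 * k) x) 0 (-1)) = 1 := by
        simp [trace, Fintype.sum_sum_type]
      rw [h6, smul_eq_mul, mul_one] at h5
      rwa [h5, one_smul, rho_neg] at h4
    rw [← fromBlocks_toBlocks g.1] at key
    simp only [fromBlocks_multiply, fromBlocks_inj, Matrix.mul_one, Matrix.one_mul, Matrix.mul_neg,
      Matrix.neg_mul, Matrix.mul_zero, Matrix.zero_mul, add_zero, zero_add] at key
    have hb : g.1.toBlocks₁₂ = 0 := by
      have := (key 0).2.1
      simp only [A_zero, Matrix.mul_zero, Matrix.zero_mul, neg_zero, add_zero, zero_add] at this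
      ext i j
      have := congrFun (congrFun this i) j
      simp only [Matrix.neg_apply] at this
      exact (mul_eq_zero.1 (show 2 * g.1.toBlocks₁₂ i j = 0 by linear_combination -this)).resolve_left h2
    have hc : g.1.toBlocks₂₁ = 0 := by
      have := (key 0).2.2.1
      ext i j
      have := congrFun (congrFun this i) j
      simp only [Matrix.neg_apply] at this
      exact (mul_eq_zero.1 (show 2 * g.1.toBlocks₂₁ i j = 0 by linear_combination this)).resolve_left h2
    obtain ⟨r, ha, hd⟩ := scalar_of (a := g.1.toBlocks₁₁) (d := g.1.toBlocks₂₂)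
      (by simpa [hb] using (key ![1, 0, 0]).2.1) (by simpa [hb] using (key ![0, 1, 0]).2.1)
    have : g.1 = r • 1 := by
      rw [← fromBlocks_toBlocks g.1, ha, hb, hc, hd, ← fromBlocks_one, fromBlocks_smul]
      simp
    refine (QuotientGroup.eq_one_iff _).2 (Subgroup.mem_center_iff.2 fun b => Subtype.ext ?_)
    show b.1 * g.1 = g.1 * b.1
    rw [this]
    simp

end pre

/-- For every odd prime `p` there is a finite group `H` of order `2p³` which, for infinitely many `n`, embeds in the projective special linear group `PSL(n, p)` as a subgroup with trivial centralizer. -/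
theorem result
    (p : ℕ) [Fact p.Prime] (hp : p ≠ 2) :
    ∃ (H : Type) (_ : Group H) (_ : Finite H), Nat.card H = 2 * p ^ 3 ∧
      ∀ N : ℕ, ∃ n, N ≤ n ∧ ∃ φ : H →* Matrix.ProjectiveSpecialLinearGroup (Fin n) (ZMod p),
        Function.Injective φ ∧ Subgroup.centralizer (φ.range : Set (Matrix.ProjectiveSpecialLinearGroup (Fin n) (ZMod p))) = ⊥ := by
  have h2 : (2 : ZMod p) ≠ 0 := fun h => hp (((Nat.prime_dvd_prime_iff_eq Fact.out Nat.prime_two).1
    ((ZMod.natCast_eq_zero_iff 2 p).1 h)))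
  refine ⟨HH (ZMod p), inferInstance, Finite.of_equiv _ HH.equiv.symm, ?_, fun N => ?_⟩
  · rw [Nat.card_congr HH.equiv, Nat.card_prod, Nat.card_fun, Nat.card_zmod]
    simp
  · obtain ⟨φ, h1, h3⟩ := main h2 (k := N + 1) (by omega)
    let e := Cl.pslReindexEquiv (ZMod p) (finSumFinEquiv (m := 2 * (N + 1) + 1) (n := 2 * (N + 1)))
    refine ⟨_, by omega, e.toMonoidHom.comp φ, e.injective.comp h1, eq_bot_iff.2 fun g hg => ?_⟩
    obtain ⟨g, rfl⟩ := e.surjective g
    rw [h3 g fun h => e.injective (by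
      rw [map_mul, map_mul]; exact hg _ ⟨h, rfl⟩), map_one]
    exact one_mem _

end Cfsg.Agent.S2533
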