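import Cfsg.Statements.S2534
import Cfsg.Agent.Sym.Hall2

set_option autoImplicit false
open Cfsg

namespace Cfsg.Agent.S2534
open Equiv in
theorem seven : ∀ f : Fin 7 → Bool, Fintype.card {x // f x = true} = 3 →
    (∀ x y, f x = f y ↔ f ((swap 0 1 * swap 1 2 : Perm (Fin 7)) x) =
      f ((swap 0 1 * swap 1 2 : Perm (Fin 7)) y)) →
    (∀ x y, f x = f y ↔ f ((swap 0 3 * swap 1 4 * swap 4 2 * swap 2 5 : Perm (Fin 7)) x) =
      f ((swap 0 3 * swap 1 4 * swap 4 2 * swap 2 5 : Perm (Fin 7)) y)) → False := by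
  decide +kernel

open Equiv in
theorem eight : ∀ f : Fin 8 → Bool, Fintype.card {x // f x = true} = 4 →
    (∀ x y, f x = f y ↔ f ((swap 0 1 * swap 1 2 : Perm (Fin 8)) x) =
      f ((swap 0 1 * swap 1 2 : Perm (Fin 8)) y)) →
    (∀ x y, f x = f y ↔ f ((swap 3 4 * swap 4 5 : Perm (Fin 8)) x) =
      f ((swap 3 4 * swap 4 5 : Perm (Fin 8)) y)) →
    (∀ x y, f x = f y ↔ f ((swap 0 1 * swap 6 7 : Perm (Fin 8)) x) =
      f ((swap 0 1 * swap 6 7 : Perm (Fin 8)) y)) → False := by
  decide +kernel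


/-- For `n ≥ 5` and a set of primes `π`, the alternating group of degree `n` satisfies the full Sylow analogue for `π` (its maximal `π`-subgroups are pairwise conjugate; for a finite group this says Hall `π`-subgroups exist, are all conjugate, and contain every `π`-subgroup up to conjugacy) if and only if either at most one prime of `π` divides its order or every prime dividing its order lies in `π`. -/
theorem result (n : ℕ) (hn : 5 ≤ n) (π : Set ℕ) :
    Cfsg.IsDPiGroup π ↥(alternatingGroup (Fin n)) ↔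
      ((∀ r s : ℕ, r.Prime → s.Prime → r ∈ π → s ∈ π → r ∣ Nat.card ↥(alternatingGroup (Fin n)) → s ∣ Nat.card ↥(alternatingGroup (Fin n)) → r = s) ∨
        ∀ r : ℕ, r.Prime → r ∣ Nat.card ↥(alternatingGroup (Fin n)) → r ∈ π) := by
  refine ⟨fun hD => ?_, fun h => h.elim Sym.isDPiGroup_of_single Sym.isDPiGroup_of_all⟩
  by_contra hc
  rw [not_or] at hc
  obtain ⟨h1, h2⟩ := hc
  push Not at h1
  obtain ⟨r, s, hr, hs, hrπ, hsπ, hrd, hsd, hrs⟩ := h1
  have key0 : ∀ K : Subgroup (Equiv.Perm (Fin n)), GT.IsPiNum π (Nat.card K) →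
      ∃ a, Sym.HallCase π n a ∧ ∃ f : Fin n → Bool, Nat.card {x // f x = true} = a ∧
        ∀ σ ∈ K, Equiv.Perm.sign σ = 1 → σ ∈ Sym.partStab f := by
    intro K hπ
    obtain ⟨H, hle, hH⟩ := Sym.exists_maximal_ge (π := π)
      (K := K.subgroupOf (alternatingGroup (Fin n))) (hπ.card_subgroupOf _)
    obtain ⟨a, ha, f, hf, h⟩ := (Sym.hall_main (Sym.IsDPi.isPiHall hD hH).map_subtype hr hs hrs
      hrπ hsπ (Sym.le_card_of_dvd hr hrd) (Sym.le_card_of_dvd hs hsd)).resolve_left
        fun h => h2 fun p hp hd => h p hp (Sym.le_card_of_dvd hp hd)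
    exact ⟨a, by simpa using ha, f, hf, fun σ h1 h2 => h ⟨⟨σ, h2⟩, hle h1, rfl⟩⟩
  obtain ⟨a, ha, -⟩ := key0 ⊥ (GT.isPiNum_card_bot π)
  have key : ∀ K : Subgroup (Equiv.Perm (Fin n)), GT.IsPiNum π (Nat.card K) →
      ∃ f : Fin n → Bool, Nat.card {x // f x = true} = a ∧
        ∀ σ ∈ K, Equiv.Perm.sign σ = 1 → σ ∈ Sym.partStab f := fun K hK => by
    obtain ⟨b, hb, h⟩ := key0 K hK
    rwa [hb.unique ha] at h
  have h23 : (∀ r : ℕ, r.Prime → r ≤ n → (r ∈ π ↔ (r = 2 ∨ r = 3))) →
      ∀ a b : ℕ, GT.IsPiNum π (2 ^ a * 3 ^ b) := fun h a b =>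
    (GT.isPiNum_prime_pow Nat.prime_two ((h 2 Nat.prime_two (by omega)).2 (by omega)) a).mul
      (GT.isPiNum_prime_pow Nat.prime_three ((h 3 Nat.prime_three (by omega)).2 (by omega)) b)
  rcases ha with ⟨rfl, -, h⟩ | ⟨⟨rfl, rfl⟩ | ⟨rfl, rfl⟩, h⟩
  · obtain ⟨m, rfl⟩ : ∃ m, n = m + 5 := ⟨n - 5, by omega⟩
    let g : Fin (m + 5) → Bool := fun x => decide (x.val < 2)
    have hg : ∀ i, Nat.card {x // g x = i} < m + 5 := fun i => by
      rw [Nat.card_eq_fintype_card]
      refine (Fintype.card_subtype_lt (x := ⟨if i then 2 else 0, by split_ifs <;> omega⟩) ?_).trans_eq (Fintype.card_fin _)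
      cases i <;> simp [g]
    obtain ⟨f, hf, hK⟩ := key (Sym.fiberStab g) (by
      rw [Sym.card_fiberStab, Fintype.prod_bool]
      exact (Sym.isPiNum_factorial fun p hp hle => (h p hp (by have := hg true; omega)).2
        (by have := hg true; omega)).mul (Sym.isPiNum_factorial fun p hp hle =>
          (h p hp (by have := hg false; omega)).2 (by have := hg false; omega)))
    obtain ⟨⟨x, hx⟩, hx'⟩ := Nat.card_eq_one_iff_exists.1 hf
    have hx2 : ∀ y, y ≠ x → f y = false := fun y hy => by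
      by_contra h
      exact hy (congrArg Subtype.val (hx' ⟨y, by simpa using h⟩))
    have hmove : ∀ u v y z : Fin (m + 5), g x = g u → g y = g z → g x ≠ g y → x ≠ u → y ≠ z →
        False := fun u v y z h1 h2 h3 h4 h5 => by
      have h6 := hK _ (mul_mem (Sym.swap_mem_fiberStab h1) (Sym.swap_mem_fiberStab h2))
        (by simp [Equiv.Perm.sign_swap, h4, h5]) x y
      have hxy : x ≠ y := fun h => h3 (h ▸ rfl)
      have hxz : x ≠ z := fun h => h3 (h2 ▸ h ▸ rfl)
      have huz : u ≠ z := fun h => h3 (h1 ▸ h2 ▸ h ▸ rfl)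
      rw [Equiv.Perm.mul_apply, Equiv.Perm.mul_apply, Equiv.swap_apply_of_ne_of_ne hxy hxz,
        Equiv.swap_apply_left, Equiv.swap_apply_left,
        Equiv.swap_apply_of_ne_of_ne hxz.symm huz.symm, hx, hx2 y hxy.symm, hx2 u h4.symm,
        hx2 z hxz.symm] at h6
      simp at h6
    by_cases h0 : x.val < 2
    · exact hmove ⟨1 - x.val, by omega⟩ x ⟨2, by omega⟩ ⟨3, by omega⟩
        (by simp only [g, decide_eq_decide]; omega) (by simp [g]) (by simp [g]; omega)
        (fun h => by have := congrArg Fin.val h; simp at this; omega) (by simp)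
    · exact hmove ⟨if x.val = 2 then 3 else 2, by split_ifs <;> omega⟩ x ⟨0, by omega⟩ ⟨1, by omega⟩
        (by simp only [g, decide_eq_decide]; split_ifs <;> omega) (by simp [g]) (by simp [g]; omega)
        (fun h => by have := congrArg Fin.val h; simp only at this; split_ifs at this <;> omega)
        (by simp)
  · obtain ⟨f, hf, hK⟩ := key (Sym.partStab (![0, 0, 0, 1, 1, 1, 2] : Fin 7 → Fin 3))
      ((h23 h 3 3).of_dvd ((Sym.card_partStab_dvd (by decide)).trans (by
        simp only [Nat.card_eq_fintype_card]; decide)))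
    rw [Nat.card_eq_fintype_card] at hf
    exact seven f hf (Sym.mem_partStab.1 (hK _ (Sym.mem_partStab.2 (by decide)) (by decide)))
      (Sym.mem_partStab.1 (hK _ (Sym.mem_partStab.2 (by decide)) (by decide)))
  · obtain ⟨f, hf, hK⟩ := key (Sym.partStab (![0, 0, 0, 1, 1, 1, 2, 2] : Fin 8 → Fin 3))
      ((h23 h 4 3).of_dvd ((Sym.card_partStab_dvd (by decide)).trans (by
        simp only [Nat.card_eq_fintype_card]; decide)))
    rw [Nat.card_eq_fintype_card] at hf
    exact eight f hf (Sym.mem_partStab.1 (hK _ (Sym.mem_partStab.2 (by decide)) (by decide)))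
      (Sym.mem_partStab.1 (hK _ (Sym.mem_partStab.2 (by decide)) (by decide)))
      (Sym.mem_partStab.1 (hK _ (Sym.mem_partStab.2 (by decide)) (by decide)))

end Cfsg.Agent.S2534
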