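import Mathlib
import Cfsg.Statements.S2537
import Cfsg.Agent.Cl.PSL2Max
import Cfsg.Agent.GT.Hall

set_option autoImplicit false
open Cfsg

set_option linter.unusedVariables false

namespace Cfsg.Agent.S2537

open Cfsg.Agent.Cl.L2 Matrix MulAction
open scoped MatrixGroups

lemma part_iff {q m x y i : ℕ} (h2 : ¬ 2 ∣ q) (h3 : ¬ 3 ∣ q) (hm : m ≠ 0)
    (h : q * m = 2 ^ x * 3 ^ y * i) :
    2 ^ m.factorization 2 * 3 ^ m.factorization 3 = 2 ^ x * 3 ^ y ↔ ¬ 2 ∣ i ∧ ¬ 3 ∣ i := by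
  have hq : q ≠ 0 := by rintro rfl; simp at h2
  have hi : i ≠ 0 := by rintro rfl; simp [hq, hm] at h
  have e := congrArg Nat.factorization h
  rw [Nat.factorization_mul hq hm, Nat.factorization_mul (by positivity) hi,
    Nat.factorization_mul (by positivity) (by positivity), Nat.prime_two.factorization_pow,
    Nat.prime_three.factorization_pow] at e
  have e2 := DFunLike.congr_fun e 2
  have e3 := DFunLike.congr_fun e 3
  simp [Nat.factorization_eq_zero_of_not_dvd h2, Nat.factorization_eq_zero_of_not_dvd h3] at e2 e3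
  rw [e2, e3, pow_add, pow_add, mul_mul_mul_comm, Nat.mul_eq_left (by positivity), mul_eq_one,
    Nat.pow_eq_one, Nat.pow_eq_one, Nat.factorization_eq_zero_iff, Nat.factorization_eq_zero_iff]
  simp [hi, Nat.prime_two, Nat.prime_three]

lemma mod_aux {q i : ℕ} (h2 : ¬ 2 ∣ q) (h3 : ¬ 3 ∣ q) :
    (i * 2 = q * (q + 1) → (¬ 2 ∣ i ∧ ¬ 3 ∣ i ↔ 3 ∣ q - 1 ∧ q % 4 = 1)) ∧
    (i * 2 = q * (q - 1) → (¬ 2 ∣ i ∧ ¬ 3 ∣ i ↔ 3 ∣ q + 1 ∧ q % 4 = 3)) := by
  obtain ⟨k, hk⟩ : ∃ k, q = 12 * k + 1 ∨ q = 12 * k + 5 ∨ q = 12 * k + 7 ∨ q = 12 * k + 11 :=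
    ⟨q / 12, by omega⟩
  rcases hk with rfl | rfl | rfl | rfl <;> constructor <;> intro h <;>
    (try simp only [Nat.add_one_sub_one] at h) <;> ring_nf at h <;>
    generalize k ^ 2 = l at h <;> omega

variable {F : Type*} [Field F] [Finite F]

lemma index_ntorS (h2 : (2 : F) ≠ 0) {g : PSL(2, F)} (ht : tau (emb g) ≠ 4) :
    (Nat.card (torS g) * 2 = Nat.card F - 1 →
      (ntorS g).index * 2 = Nat.card F * (Nat.card F + 1)) ∧
    (Nat.card (torS g) * 2 = Nat.card F + 1 →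
      (ntorS g).index * 2 = Nat.card F * (Nat.card F - 1)) := by
  have h1 := card_PSL_mul (F := F)
  have h3 := two_le_card (F := F)
  rw [gcd_of_two_ne_zero h2, ← (ntorS g).card_mul_index, card_ntorS ht, mul_comm 2] at h1
  constructor <;> intro h <;> rw [h] at h1
  · exact Nat.eq_of_mul_eq_mul_left (show 0 < Nat.card F - 1 by omega) (by linarith)
  · exact Nat.eq_of_mul_eq_mul_left (show 0 < Nat.card F + 1 by omega) (by linarith)

lemma isPiHall_iff {G : Type*} [Group G] {H : Subgroup G} : IsPiHall ({2, 3} : Set ℕ) H ↔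
    (∀ p : ℕ, p.Prime → p ∣ Nat.card H → p = 2 ∨ p = 3) ∧ ¬ 2 ∣ H.index ∧ ¬ 3 ∣ H.index :=
  ⟨fun h => ⟨h.1, h.2 2 Nat.prime_two (by simp), h.2 3 Nat.prime_three (by simp)⟩,
    fun h => ⟨h.1, by rintro p - (rfl | rfl); exacts [h.2.1, h.2.2]⟩⟩

lemma exists_hall {G : Type*} [Group G] [Finite G] {M : Subgroup G} (hM : Group.IsSolvable M)
    (h : ¬ 2 ∣ M.index ∧ ¬ 3 ∣ M.index) : ∃ H : Subgroup G, IsPiHall ({2, 3} : Set ℕ) H := by
  obtain ⟨H, h1, h2, h3⟩ := GT.exists_isPiHallOf ({2, 3} : Set ℕ) hM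
  refine ⟨H, h2, fun p hp hp' h4 => ?_⟩
  rw [← Subgroup.relIndex_mul_index h1] at h4
  rcases hp.dvd_mul.1 h4 with h4 | h4
  · exact h3 p hp hp' h4
  · rcases hp' with rfl | rfl
    exacts [h.1 h4, h.2 h4]
/-- Let `F` be a finite field with `q` elements of characteristic `p ≥ 5`, and `ε = 1` if `q ≡ 1 (mod 4)`, `ε = -1` otherwise. Then `PSL(2, F)` has a Hall `{2, 3}`-subgroup if and only if `3` divides `q − ε`, or the `{2,3}`-part of `q² − 1` is 24, or the `{2,3}`-part of `q² − 1` is 48 (the `{2,3}`-part of `m` being the largest divisor of `m` with no prime factor other than 2 and 3). -/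
theorem result {F : Type*} [Field F] [Fintype F] {p : ℕ} [Fact p.Prime] [CharP F p]
    (hp : 5 ≤ p) (q : ℕ) (hq : Fintype.card F = q) :
    (∃ H : Subgroup (Matrix.ProjectiveSpecialLinearGroup (Fin 2) F), Cfsg.IsPiHall ({2, 3} : Set ℕ) H) ↔
      (3 ∣ q - 1 ∧ q % 4 = 1) ∨ (3 ∣ q + 1 ∧ q % 4 = 3) ∨
        2 ^ (q ^ 2 - 1).factorization 2 * 3 ^ (q ^ 2 - 1).factorization 3 = 24 ∨
        2 ^ (q ^ 2 - 1).factorization 2 * 3 ^ (q ^ 2 - 1).factorization 3 = 48 := by
  rw [← Nat.card_eq_fintype_card] at hq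
  subst hq
  have h2 : (2 : F) ≠ 0 := two_ne_zero_of_char p (by omega)
  have hodd := two_ne_zero_iff_odd.1 h2
  have hp' : p.Prime := Fact.out
  have hq2 := two_le_card (F := F)
  have d2 : ¬ 2 ∣ Nat.card F := by omega
  have d3 : ¬ 3 ∣ Nat.card F := fun h => by
    obtain ⟨n, -, e⟩ := exists_card_eq_prime_pow (F := F) p
    have := (Nat.prime_dvd_prime_iff_eq Nat.prime_three hp').1 (Nat.prime_three.dvd_of_dvd_pow (e ▸ h))
    omega
  have hm : Nat.card F ^ 2 - 1 = (Nat.card F - 1) * (Nat.card F + 1) := by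
    rw [mul_comm, ← Nat.sq_sub_sq]
  have hm0 : Nat.card F ^ 2 - 1 ≠ 0 := by rw [hm]; exact mul_ne_zero (by omega) (by omega)
  have hG := card_PSL_mul (F := F)
  rw [gcd_of_two_ne_zero h2, mul_assoc, ← hm] at hG
  have k4 : ∀ H : Subgroup PSL(2, F), Nat.card H = 12 → (2 ^ (Nat.card F ^ 2 - 1).factorization 2 *
      3 ^ (Nat.card F ^ 2 - 1).factorization 3 = 24 ↔ ¬ 2 ∣ H.index ∧ ¬ 3 ∣ H.index) := fun H h =>
    part_iff (x := 3) (y := 1) d2 d3 hm0 (by rw [← hG, ← H.card_mul_index, h]; ring)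
  have k5 : ∀ H : Subgroup PSL(2, F), Nat.card H = 24 → (2 ^ (Nat.card F ^ 2 - 1).factorization 2 *
      3 ^ (Nat.card F ^ 2 - 1).factorization 3 = 48 ↔ ¬ 2 ∣ H.index ∧ ¬ 3 ∣ H.index) := fun H h =>
    part_iff (x := 4) (y := 1) d2 d3 hm0 (by rw [← hG, ← H.card_mul_index, h]; ring)
  constructor
  · rintro ⟨H, hH⟩
    obtain ⟨h1, h3⟩ := isPiHall_iff.1 hH
    have hpH : ¬ p ∣ Nat.card H := fun h => by have := h1 p hp' h; omega
    rcases dickson_psl p H with ⟨x, h⟩ | ⟨g, -, ht, h⟩ | ⟨-, ⟨⟨e⟩⟩ | ⟨⟨e⟩⟩ | ⟨⟨e⟩⟩⟩ | ⟨h, -⟩ |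
      ⟨k, c, h⟩
    · have := Subgroup.index_dvd_of_le h
      rw [index_stabilizerS] at this
      exact absurd (Dvd.dvd.trans (by omega) this) h3.1
    · have h5 := Subgroup.index_dvd_of_le h
      have h6 : ¬ 2 ∣ (ntorS g).index ∧ ¬ 3 ∣ (ntorS g).index :=
        ⟨fun h => h3.1 (h.trans h5), fun h => h3.2 (h.trans h5)⟩
      have h4 := card_torS_mul_or ht
      rw [gcd_of_two_ne_zero h2] at h4
      rcases h4 with h4 | h4
      · exact Or.inl (((mod_aux d2 d3).1 ((index_ntorS h2 ht).1 h4)).1 h6)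
      · exact Or.inr (Or.inl (((mod_aux d2 d3).2 ((index_ntorS h2 ht).2 h4)).1 h6))
    · exact Or.inr (Or.inr (Or.inl ((k4 H (card_of_A4 e)).2 h3)))
    · exact Or.inr (Or.inr (Or.inr ((k5 H (card_of_S4 e)).2 h3)))
    · have := h1 5 Nat.prime_five (by rw [card_of_A5 e]; norm_num)
      omega
    · omega
    · refine absurd ?_ hpH
      have h5 := Subgroup.card_dvd_of_le (cj_subPSL_le h)
      rw [card_cj, card_map_emb] at h5
      refine Dvd.dvd.trans ?_ h5
      have h6 := card_subPSL_mul k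
      rw [gcd_of_two_ne_zero (F := k) fun e => h2 (congrArg Subtype.val e)] at h6
      exact (Nat.Coprime.dvd_mul_right ((Nat.coprime_primes hp' Nat.prime_two).2 (by omega))).1
        (h6 ▸ ((char_dvd_card (F := k) p).mul_right _).mul_right _)
  · rintro (h | h | h | h)
    · obtain ⟨g, h1, h3, h4⟩ := exists_fixS (F := F)
      rw [gcd_of_two_ne_zero h2] at h4
      have ht : tau (emb g) ≠ 4 := tau_ne_four_of_two_fix (emb_ne_one.2 (by
        rintro rfl; rw [orderOf_one] at h4; omega)) (inf_ne_pt 0) ((emb_smul _ _).trans h1)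
        ((emb_smul _ _).trans h3)
      have h5 := card_torS_mul_of_fix ht h1
      rw [gcd_of_two_ne_zero h2] at h5
      exact exists_hall (isSolvable_ntorS ht)
        (((mod_aux d2 d3).1 ((index_ntorS h2 ht).1 h5)).2 h)
    · obtain ⟨g, h1, -⟩ := exists_nofixS (F := F)
      have ht := tauS_ne_four_of_nofix h1
      have h5 := card_torS_mul_of_nofix h1
      rw [gcd_of_two_ne_zero h2] at h5
      exact exists_hall (isSolvable_ntorS ht)
        (((mod_aux d2 d3).2 ((index_ntorS h2 ht).2 h5)).2 h)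
    · obtain ⟨H, ⟨e⟩⟩ := exists_A4S h2
      exact exists_hall (isSolvable_of_equiv e isSolvable_A4) ((k4 H (card_of_A4 e)).1 h)
    · have h16 : 16 ∣ Nat.card F ^ 2 - 1 := by
        have h1 : (Nat.card F ^ 2 - 1).factorization 2 = 4 := by
          have := congrArg (fun n => n.factorization 2) h
          simp only [Nat.factorization_mul (pow_ne_zero _ two_ne_zero) (pow_ne_zero _ three_ne_zero),
            Nat.prime_two.factorization_pow, Nat.prime_three.factorization_pow,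
            show 48 = 2 ^ 4 * 3 ^ 1 by rfl] at this
          simpa using this
        have := Nat.ordProj_dvd (Nat.card F ^ 2 - 1) 2
        rwa [h1] at this
      obtain ⟨H, ⟨e⟩⟩ := exists_S4S_iff.2 ((sixteen_dvd_iff hodd).1
        (by rw [mul_assoc, ← hm]; exact h16.mul_left _))
      exact exists_hall (isSolvable_of_equiv e isSolvable_S4) ((k5 H (card_of_S4 e)).1 h)

end Cfsg.Agent.S2537
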