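import Mathlib
import Cfsg.Statements.S2540
import Cfsg.Agent.Cl.LinearBasic
import Cfsg.Agent.Cl.Bridge

set_option autoImplicit false
open Cfsg

namespace Cfsg.Agent.S2540

open scoped commutatorElement

/-- Let F be a finite field and n ≥ 1, excluding the case n = 2 with #F ≤ 3. A subgroup of GL_n(F) that is normalized by every element of SL_n(F) either consists of scalar matrices or contains SL_n(F). -/
theorem result {F : Type*} [Field F] [Fintype F] (n : ℕ) (hn : 1 ≤ n) (hex : ¬ (n = 2 ∧ Fintype.card F ≤ 3)) (G : Subgroup (Matrix.GeneralLinearGroup (Fin n) F)) (hG : ∀ s : Matrix.SpecialLinearGroup (Fin n) F, ∀ g ∈ G, (Matrix.SpecialLinearGroup.toGL s) * g * (Matrix.SpecialLinearGroup.toGL s)⁻¹ ∈ G) : (∀ g ∈ G, ∃ c : F, (g : Matrix (Fin n) (Fin n) F) = c • (1 : Matrix (Fin n) (Fin n) F)) ∨ (Matrix.SpecialLinearGroup.toGL : Matrix.SpecialLinearGroup (Fin n) F →* _).range ≤ G := by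
  rcases eq_or_ne n 1 with rfl | hn1
  · exact Or.inl fun g _ => ⟨(g : Matrix (Fin 1) (Fin 1) F) 0 0, by
      ext i j
      rw [Subsingleton.elim i 0, Subsingleton.elim j 0]
      simp⟩
  have h : 3 ≤ Fintype.card (Fin n) ∨ ∃ a : F, a ≠ 0 ∧ a ^ 2 ≠ 1 := by
    rcases eq_or_ne n 2 with rfl | hn2
    · exact Or.inr (Cl.exists_sq_ne_one_of_four_le_card (by
        rw [Nat.card_eq_fintype_card]
        by_contra h
        exact hex ⟨rfl, by omega⟩))
    · exact Or.inl (by rw [Fintype.card_fin]; omega)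
  let ι : Matrix.SpecialLinearGroup (Fin n) F →* GL (Fin n) F := Matrix.SpecialLinearGroup.toGL
  have : (G.comap ι).Normal := ⟨fun a ha s => by simpa [ι] using hG s _ ha⟩
  refine (Cl.sl_normal_le_center_or_eq_top h (G.comap ι)).imp (fun h1 g hg => ?_) fun h1 => ?_
  · have h2 : ⁅⁅ι.range, G⁆, ι.range⁆ = ⊥ := by
      rw [Subgroup.commutator_eq_bot_iff_le_centralizer, Subgroup.commutator_le]
      rintro _ ⟨s, rfl⟩ x hx
      obtain ⟨z, hz⟩ : ⁅ι s, x⁆ ∈ ι.range := by
        rw [Cl.range_toGL, MonoidHom.mem_ker, map_commutatorElement,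
          commutatorElement_eq_one_iff_mul_comm, mul_comm]
      rw [← hz]
      rintro _ ⟨t, rfl⟩
      have h3 : z ∈ G.comap ι := by
        rw [Subgroup.mem_comap, hz]
        exact G.mul_mem (hG s x hx) (G.inv_mem hx)
      rw [← map_mul, ← map_mul, Subgroup.mem_center_iff.1 (h1 h3) t]
    have h3 := Subgroup.commutator_commutator_eq_bot_of_rotate h2
      (by rwa [Subgroup.commutator_comm G])
    rw [MonoidHom.range_eq_map, ← Subgroup.map_commutator, ← commutator_def,
      Cl.sl_commutator_eq_top h, Subgroup.commutator_comm,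
      Subgroup.commutator_eq_bot_iff_le_centralizer] at h3
    obtain ⟨c, hc⟩ := Matrix.mem_range_scalar_iff_commute_transvectionStruct.2 fun t =>
      (congrArg Units.val (h3 hg _ ⟨⟨t.toMatrix, t.det⟩, trivial, rfl⟩) :
        Commute t.toMatrix (g : Matrix (Fin n) (Fin n) F))
    exact ⟨c, by rw [← hc, Matrix.scalar_apply, Matrix.smul_one_eq_diagonal]⟩
  · rw [MonoidHom.range_eq_map, Subgroup.map_le_iff_le_comap]
    exact h1.ge

end Cfsg.Agent.S2540
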