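import Cfsg.Statements.S2541
import Cfsg.Agent.Sym.Order

set_option autoImplicit false
open Cfsg

namespace Cfsg.Agent.S2541

/-- Let F be a field with 9 elements. The symmetric group S_6 is not isomorphic to PGL_2(F) (although both have index-2 subgroups isomorphic to A_6). -/
theorem result {F : Type*} [Field F] [Fintype F] (hF : Fintype.card F = 9) : ¬ Nonempty (Equiv.Perm (Fin 6) ≃* Matrix.ProjGenLinGroup (Fin 2) F) := by
  rintro ⟨e⟩
  classical
  obtain ⟨a, ha⟩ := IsCyclic.exists_ofOrder_eq_natCard (α := Fˣ)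
  rw [Nat.card_units, Nat.card_eq_fintype_card, hF] at ha
  let D : Fˣ →* GL (Fin 2) F := Units.map
    { toFun := fun x : F => Matrix.diagonal ![x, 1]
      map_one' := by ext i j; fin_cases i <;> fin_cases j <;> simp
      map_mul' := fun x y => by
        rw [Matrix.diagonal_mul_diagonal]; congr 1; ext i; fin_cases i <;> simp }
  have h1 : ∀ g : Equiv.Perm (Fin 6), g ^ 60 = 1 := fun g => by
    rw [← orderOf_dvd_iff_pow_eq_one, ← Equiv.Perm.lcm_cycleType]
    exact Sym.forall_cycleType_of_partsLe (n := 6) (by simp) (P := fun m => m.lcm ∣ 60)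
      (by decide +kernel) g
  have h2 : Matrix.ProjGenLinGroup.mk (D (a ^ 60)) = 1 := by
    rw [map_pow, map_pow, ← e.apply_symm_apply (Matrix.ProjGenLinGroup.mk (D a)), ← map_pow, h1,
      map_one]
  rw [Matrix.ProjGenLinGroup.mk_eq_one, Matrix.GeneralLinearGroup.center_eq_range_scalar] at h2
  obtain ⟨u, hu⟩ := h2
  have h3 := congrArg (fun g : GL (Fin 2) F => (g : Matrix (Fin 2) (Fin 2) F) 0 0) hu
  have h4 := congrArg (fun g : GL (Fin 2) F => (g : Matrix (Fin 2) (Fin 2) F) 1 1) hu
  simp [D, -map_pow] at h3 h4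
  have h5 : a ^ 60 = 1 := Units.ext (by simp [← h3, h4])
  rw [← orderOf_dvd_iff_pow_eq_one, ha] at h5
  norm_num at h5

end Cfsg.Agent.S2541
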