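import Mathlib
import Cfsg.Statements.S2542
import Cfsg.Agent.Cl.PSL2MaxPGL

set_option autoImplicit false
open Cfsg

set_option linter.unusedVariables false

namespace Cfsg.Agent.S2542

open Cfsg.Agent.Cl.L2 Matrix MulAction
open scoped MatrixGroups

section
variable {G : Type*} [Group G] [Finite G] {p n : ℕ} [Fact p.Prime]

lemma exists_cj_le' {H P X : Subgroup G} (hP : Nat.card P = p ^ n) (hG : ¬ p ^ (n + 1) ∣ Nat.card G)
    (h1 : P ≤ H) (h2 : X ≤ H) (hX : p ^ n ∣ Nat.card X) : ∃ c ∈ H, cj c P ≤ X := by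
  obtain ⟨c, hc⟩ := exists_cj_le_of_card (P := P.subgroupOf H) (X := X.subgroupOf H)
    ((Nat.card_congr (Subgroup.subgroupOfEquivOfLe h1).toEquiv).trans hP)
    (fun h => hG (h.trans H.card_subgroup_dvd_card))
    (by rwa [Nat.card_congr (Subgroup.subgroupOfEquivOfLe h2).toEquiv])
  refine ⟨c, c.2, ?_⟩
  rintro _ ⟨x, hx, rfl⟩
  exact hc ⟨⟨x, h1 hx⟩, hx, rfl⟩

lemma mem_of_dvd {H P : Subgroup G} (hP : Nat.card P = p ^ n) (hG : ¬ p ^ (n + 1) ∣ Nat.card G)
    (h1 : P ≤ H) (hN : Subgroup.normalizer (P : Set G) ≤ H) {g : G}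
    (h : p ^ n ∣ Nat.card ↥(H ⊓ cj g H)) : g ∈ H := by
  obtain ⟨c, hc, h2⟩ := exists_cj_le' hP hG h1 inf_le_left h
  have h3 : cj (g⁻¹ * c) P ≤ H := by rw [← cj_cj, ← le_cj_iff]; exact h2.trans inf_le_right
  obtain ⟨d, hd, h4⟩ := exists_cj_le' hP hG h1 h3 (by rw [card_cj, hP])
  have h5 := Subgroup.eq_of_le_of_card_ge h4 (by rw [card_cj, card_cj])
  have h6 : (g⁻¹ * c)⁻¹ * d ∈ H := hN (cj_eq_self_iff.1 (by rw [← cj_cj, h5, cj_inv_cj]))
  rwa [H.mul_mem_cancel_right hd, inv_mem_iff, H.mul_mem_cancel_right hc, inv_mem_iff] at h6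

lemma two_trans {H : Subgroup G}
    (h : ∀ g ∉ H, Nat.card ↥(H ⊓ cj g H) * (H.index - 1) ≤ Nat.card H) :
    IsMultiplyPretransitive G (G ⧸ H) 2 := by
  have key : ∀ y z : G ⧸ H, y ≠ (1 : G) → z ≠ (1 : G) → ∃ h ∈ H, h • y = z := by
    intro y z hy hz
    obtain ⟨g, rfl⟩ := QuotientGroup.mk_surjective y
    have hg : g ∉ H := fun h => hy (QuotientGroup.eq.2 (by simpa using h))
    have h1 : Nat.card (stabilizer H (g : G ⧸ H)) = Nat.card ↥(H ⊓ cj g H) := by
      rw [← Subgroup.card_map_of_injective H.subtype_injective]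
      congr 2
      ext x
      simp only [Subgroup.mem_map, mem_stabilizer_iff, Subgroup.mem_inf, mem_cj]
      constructor
      · rintro ⟨x, hx, rfl⟩
        exact ⟨x.2, by simpa [mul_assoc] using QuotientGroup.eq.1 hx.symm⟩
      · rintro ⟨h1, h2⟩
        exact ⟨⟨x, h1⟩, (QuotientGroup.eq.2 (by simpa [mul_assoc] using h2)).symm, rfl⟩
    have h2 := (stabilizer H (g : G ⧸ H)).card_mul_index
    rw [index_stabilizer, h1] at h2
    have h3 : orbit H (g : G ⧸ H) = {((1 : G) : G ⧸ H)}ᶜ := by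
      refine Set.eq_of_subset_of_ncard_le ?_ ?_
      · rintro _ ⟨x, rfl⟩ h'
        exact hg ((H.mul_mem_cancel_left x.2).1 (by simpa using QuotientGroup.eq.1 (Eq.symm h')))
      · rw [Set.ncard_compl, Set.ncard_singleton]
        exact Nat.le_of_mul_le_mul_left ((h g hg).trans h2.ge) Nat.card_pos
    obtain ⟨x, hx⟩ : z ∈ orbit H (g : G ⧸ H) := h3 ▸ hz
    exact ⟨x, x.2, hx⟩
  rw [is_two_pretransitive_iff]
  intro a b c d hab hcd
  obtain ⟨x, hx⟩ := exists_smul_eq G a ((1 : G) : G ⧸ H)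
  obtain ⟨y, hy⟩ := exists_smul_eq G c ((1 : G) : G ⧸ H)
  obtain ⟨k, hk, e⟩ := key (x • b) (y • d) (by rw [← hx]; simpa using hab.symm)
    (by rw [← hy]; simpa using hcd.symm)
  refine ⟨y⁻¹ * k * x, ?_, by rw [mul_smul, mul_smul, e, inv_smul_smul]⟩
  rw [mul_smul, mul_smul, hx, inv_smul_eq_iff, hy]
  exact QuotientGroup.eq.2 (by simpa using hk)

end
/-- Let F be a field with 11 elements. PSL_2(F) has a subgroup H of index 11 isomorphic to the alternating group A_5, and the action of PSL_2(F) on the cosets of H is 2-transitive (of degree 11). -/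
theorem result {F : Type*} [Field F] [Fintype F] (hF : Fintype.card F = 11) : ∃ H : Subgroup (Matrix.ProjectiveSpecialLinearGroup (Fin 2) F), H.index = 11 ∧ Nonempty (H ≃* alternatingGroup (Fin 5)) ∧ MulAction.IsMultiplyPretransitive (Matrix.ProjectiveSpecialLinearGroup (Fin 2) F) ((Matrix.ProjectiveSpecialLinearGroup (Fin 2) F) ⧸ H) 2 := by
  rw [← Nat.card_eq_fintype_card] at hF
  have h2 : (2 : F) ≠ 0 := two_ne_zero_iff_odd.2 (by omega)
  have hG := card_PSL_mul (F := F)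
  rw [gcd_of_two_ne_zero h2, hF] at hG
  replace hG : Nat.card PSL(2, F) = 660 := by omega
  obtain ⟨H, ⟨e⟩⟩ := exists_A5S_iff.2 (show Nat.card F % 5 = 0 ∨ _ by omega)
  have hH := card_of_A5 e
  have hi := H.card_mul_index
  rw [hH, hG] at hi
  replace hi : H.index = 11 := by omega
  refine ⟨H, hi, ⟨e⟩, two_trans fun g hg => ?_⟩
  have h4 : ¬ 2 ^ 2 ∣ Nat.card ↥(H ⊓ cj g H) := fun h => by
    obtain ⟨L, hL, ⟨eL⟩⟩ := exists_A4_le_of_A5 e
    obtain ⟨φ, hφ, h1⟩ := exists_S4_of_A4S h2 eL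
    have h3 : v4.map φ ≤ A4.map φ := Subgroup.map_mono v4_le_alt
    obtain ⟨P, hP⟩ := exists_map_emb_eq (h3.trans (map_A4_le_psl φ))
    refine hg (mem_of_dvd (P := P) ?_ (by rw [hG]; norm_num)
      ((map_emb_le_iff.1 (by rw [hP, ← h1]; exact h3)).trans hL) (fun x hx => hL ?_) h)
    · rw [← card_map_emb, hP, Subgroup.card_map_of_injective hφ, card_v4]; rfl
    · rw [normalizer_eq_comap, hP, normalizer_map_v4 hφ] at hx
      have h5 : emb x ∈ L.map emb := by
        rw [← h1, ← range_inf_psl hφ fun h => by have := isSquare_two_iff.1 h; omega]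
        exact ⟨hx, emb_mem_psl x⟩
      exact (Subgroup.mem_map_iff_mem emb_injective).1 h5
  have h5 : ¬ 5 ^ 1 ∣ Nat.card ↥(H ⊓ cj g H) := fun h => by
    have := Fact.mk Nat.prime_five
    obtain ⟨φ, hφ, rfl⟩ := exists_range_eq e
    obtain ⟨x, s, ho, hs⟩ := exists_inv_A5 (Or.inr rfl)
    rw [← orderOf_injective φ hφ] at ho
    have ht := tauS_ne_four_of_coprime (h := φ x) (by rintro h; rw [h, orderOf_one] at ho; omega)
      (n := 10) (ho.dvd.trans (by norm_num)) (Or.inl (by rw [hF]))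
    have h1 := card_torS_mul_or ht
    have h3 := Subgroup.orderOf_dvd_natCard _ (self_mem_torS (φ x))
    rw [gcd_of_two_ne_zero h2, hF] at h1
    rw [ho] at h3
    have h6 : Nat.card (torS (φ x)) = 5 := by omega
    obtain ⟨c, hc⟩ := exists_cj_ntorS_le ht (by omega) (X := φ.range) ⟨x, rfl⟩ ⟨s, rfl⟩
      (ho.trans h6.symm) (by rw [← map_inv, ← map_mul, ← map_mul, hs, map_inv])
    refine hg (mem_of_dvd (P := cj c (torS (φ x))) (by rw [card_cj, h6]; rfl)
      (by rw [hG]; norm_num) ((cj_mono c (torS_le_ntorS _)).trans hc) ?_ h)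
    rwa [← cj_normalizer, normalizer_torS ht]
  have h6 := Subgroup.card_dvd_of_le (inf_le_left : H ⊓ cj g H ≤ H)
  rw [hH] at h6 ⊢
  rw [hi]
  generalize Nat.card ↥(H ⊓ cj g H) = m at *
  have := Nat.le_of_dvd (by norm_num) h6
  interval_cases m <;> omega

end Cfsg.Agent.S2542
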