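import Mathlib
import Cfsg.Statements.S2543
import Cfsg.Agent.Cl.PSL2Class

set_option autoImplicit false
open scoped Pointwise
open Cfsg

set_option linter.unusedVariables false

namespace Cfsg.Agent.S2543

open Cfsg.Agent.Cl.L2 Matrix MulAction
open scoped MatrixGroups

/-- Let F be a field with 11 elements. PSL_2(F) has exactly 22 subgroups isomorphic to the alternating group A_5, and they form two conjugacy classes: there are two such subgroups that are not conjugate, and every such subgroup is conjugate to one of these two. -/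
theorem result {F : Type*} [Field F] [Fintype F] (hF : Fintype.card F = 11) : Nat.card {H : Subgroup (Matrix.ProjectiveSpecialLinearGroup (Fin 2) F) // Nonempty (H ≃* alternatingGroup (Fin 5))} = 22 ∧ ∃ H K : Subgroup (Matrix.ProjectiveSpecialLinearGroup (Fin 2) F), Nonempty (H ≃* alternatingGroup (Fin 5)) ∧ Nonempty (K ≃* alternatingGroup (Fin 5)) ∧ (∀ g : Matrix.ProjectiveSpecialLinearGroup (Fin 2) F, MulAut.conj g • H ≠ K) ∧ ∀ L : Subgroup (Matrix.ProjectiveSpecialLinearGroup (Fin 2) F), Nonempty (L ≃* alternatingGroup (Fin 5)) → ∃ g : Matrix.ProjectiveSpecialLinearGroup (Fin 2) F, MulAut.conj g • L = H ∨ MulAut.conj g • L = K := by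
  have hq : Nat.card F = 11 := by rw [Nat.card_eq_fintype_card, hF]
  have h2 : (2 : F) ≠ 0 := two_ne_zero_iff_odd.2 (by rw [hq])
  have := Fact.mk (by norm_num : Nat.Prime 11)
  have : CharP F 11 := charP_of_card (n := 1) hq
  have h5 : (5 : F) ≠ 0 := fun h => absurd ((CharP.cast_eq_zero_iff F 11 5).1 h) (by norm_num)
  obtain ⟨H, ⟨e⟩⟩ := (exists_A5S_iff (F := F)).2 (by rw [hq]; norm_num)
  have hN := normalizer_A5 ((mapEmbEquiv H).symm.trans e) h5
  obtain ⟨c, hc⟩ := exists_not_mem_psl h2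
  refine ⟨?_, H, cjS c H, ⟨e⟩, ⟨(cjSEquiv c H).symm.trans e⟩,
    not_cj_cjS hc (hN.le.trans (map_emb_le_psl H)), fun L hL => ?_⟩
  · rw [card_subgroupS _ (nonempty_A5_iff_cj e), hN]
    have h1 := (H.map emb).index_mul_card
    rw [card_map_emb, Nat.card_congr e.toEquiv, card_A5, card_PGL, hq] at h1
    omega
  · obtain ⟨c', hc'⟩ := (nonempty_A5_iff_cj e L).1 hL
    rcases exists_cj_or hc hc' with ⟨g, rfl⟩ | ⟨g, rfl⟩
    · exact ⟨g⁻¹, Or.inl (cj_inv_cj g _)⟩
    · exact ⟨g⁻¹, Or.inr (cj_inv_cj g _)⟩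

end Cfsg.Agent.S2543
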