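import Mathlib
import Cfsg.Statements.S2551
import Cfsg.Agent.Cl.LinearParabCore
import Cfsg.Agent.Cl.LinearTransv
import Cfsg.Agent.Cl.LinearIsoA8
import Cfsg.Agent.Sym.Index
import Cfsg.Agent.Sym.Orbits

set_option autoImplicit false
open Cfsg

namespace Cfsg.Agent.S2551

section Aux

open Matrix Cfsg.Agent.Cl

variable {F : Type*} [Field F]

theorem exists_gl_mulVec_eq {ι κ : Type*} [Fintype ι] [DecidableEq ι] {v w : κ → ι → F}
    (hv : LinearIndependent F v) (hw : LinearIndependent F w) :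
    ∃ g : GL ι F, ∀ k, (g : Matrix ι ι F) *ᵥ v k = w k := by
  obtain ⟨e, he⟩ := Submodule.exists_linearEquiv_restrict_eq
    (hv.linearCombinationEquiv.symm.trans hw.linearCombinationEquiv)
  refine ⟨(glEquiv ι F).symm e, fun k => ?_⟩
  have := he (hv.linearCombinationEquiv (Finsupp.single k 1))
  rw [LinearEquiv.trans_apply, LinearEquiv.symm_apply_apply] at this
  rw [glEquiv_symm_mulVec]
  simpa using this.symm

theorem exists_equiv_tv (hF : Nat.card F = 2) :
    ∃ ψ : SpecialLinearGroup (Fin 4) F ≃* alternatingGroup (Fin 8), ∀ a φ : Fin 4 → F,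
      a ≠ 0 → φ ≠ 0 → φ ⬝ᵥ a = 0 → ∀ y : Fin 8, ψ (tv a φ) • y ≠ y := by
  have : Finite F := Nat.finite_of_card_ne_zero (by omega)
  obtain ⟨σ⟩ := nonempty_ringEquiv_of_natCard_eq (F := F) (K := ZMod 2) (by simp [hF])
  obtain ⟨φ₀, h₀⟩ := exists_sl4_zmod_two_equiv_alt
  have h01 : (0 : Fin 4) ≠ 1 := by decide
  have h1 : ∀ y : Fin 8, φ₀ (SpecialLinearGroup.transvection h01 1) • y ≠ y := fun y e => by
    have := h₀ (SpecialLinearGroup.transvection h01 1) y
    rw [e] at this
    simp only [isoFormAct, SpecialLinearGroup.transvection_coe, RingHom.coe_id, Matrix.map_id] at this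
    clear e
    revert y
    decide +kernel
  have h2 : slMapEquiv (Fin 4) σ (SpecialLinearGroup.transvection h01 1) =
      SpecialLinearGroup.transvection h01 1 := sl_ext (by
    ext i j
    change σ (Matrix.transvection 0 1 1 i j) = Matrix.transvection 0 1 1 i j
    simp [Matrix.transvection, one_apply, single_apply, apply_ite σ])
  refine ⟨(slMapEquiv _ σ).trans φ₀, fun a φ ha hφ h y e => ?_⟩
  obtain ⟨g, hg⟩ := exists_conj_transvection_eq_tv (by simp) h ha hφ h01
  rw [← one_smul F a, ← hg, map_mul, map_mul, map_inv, mul_smul, mul_smul, smul_eq_iff_eq_inv_smul,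
    MulEquiv.trans_apply _ _ (SpecialLinearGroup.transvection h01 1), h2] at e
  exact h1 _ e

theorem exists_mem_std (hF : Nat.card F = 2) (H : Subgroup (SpecialLinearGroup (Fin 4) F))
    (hH : H.index = 8) (g : SpecialLinearGroup (Fin 4) F) :
    ∃ h ∈ H, ∀ v : Fin 4 → F, v 3 = 0 →
      (h : Matrix (Fin 4) (Fin 4) F) *ᵥ v = (g : Matrix (Fin 4) (Fin 4) F) *ᵥ v := by
  have : Finite F := Nat.finite_of_card_ne_zero (by omega)
  obtain ⟨ψ, hψ⟩ := exists_equiv_tv hF
  obtain ⟨x, hx⟩ := Sym.exists_eq_stabilizer_alternating_of_index_eq (α := Fin 8) (by simp) (by simp)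
    (H := H.map ψ.toMonoidHom) ((H.index_map_equiv ψ).trans (by rw [hH, Fintype.card_fin]))
  have hd : ∀ a : {a : Fin 4 → F // a 3 = 0}, Pi.single 3 1 ⬝ᵥ a.1 = 0 := fun a => by simp [a.2]
  let f : {a : Fin 4 → F // a 3 = 0} → Fin 8 := fun a => ψ (tv a.1 (Pi.single 3 1)) • x
  have hf : Function.Injective f := fun a b hab => by
    by_contra hne
    refine hψ (-b.1 + a.1) (Pi.single 3 1) (fun e => hne (Subtype.ext (neg_add_eq_zero.1 e).symm))
      (by simp) (by simp [a.2, b.2]) x ?_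
    rw [tv_add_left (by simp [b.2]) (hd a), ← tv_inv, map_mul, map_inv, mul_smul, inv_smul_eq_iff]
    exact hab
  have hc : Nat.card {a : Fin 4 → F // a 3 = 0} = 8 := by
    have e : {a : Fin 4 → F // a 3 = 0} ≃ (Fin 3 → F) :=
      { toFun := fun a i => a.1 i.castSucc
        invFun := fun b => ⟨![b 0, b 1, b 2, 0], rfl⟩
        left_inv := fun a => Subtype.ext (by ext i; fin_cases i <;> simp [a.2])
        right_inv := fun b => by ext i; fin_cases i <;> rfl }
    rw [Nat.card_congr e, Nat.card_fun, hF]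
    simp
  obtain ⟨a, ha⟩ := (hf.bijective_of_nat_card_le (by simp [hc])).2 (ψ g⁻¹ • x)
  refine ⟨g * tv a.1 (Pi.single 3 1), ?_, fun v hv => ?_⟩
  · rw [← Subgroup.mem_map_iff_mem (f := ψ.toMonoidHom) ψ.injective, hx,
      MulAction.mem_stabilizer_iff, map_mul, mul_smul]
    change ψ g • f a = x
    rw [ha, map_inv, smul_inv_smul]
  · rw [Matrix.SpecialLinearGroup.coe_mul, ← mulVec_mulVec, tv_mulVec (hd a)]
    simp [hv]

theorem linInd (hF : Nat.card F = 2) {v w : Fin 4 → F} (hv : v ≠ 0) (hw : w ≠ 0) (h : v ≠ w) :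
    LinearIndependent F ![v, w] := by
  rw [LinearIndependent.pair_iff' hv]
  intro a e
  rcases eq_or_ne a 0 with rfl | ha
  · exact hw (by simpa using e.symm)
  · rw [eq_one_of_card_two hF ha, one_smul] at e
    exact h e

end Aux

/-- Let F be the field with 2 elements. GL_4(F) (≅ A_8) has a subgroup isomorphic to the alternating group A_7, and every such subgroup acts 2-transitively on the 15 non-zero vectors of F⁴: any ordered pair of distinct non-zero vectors is carried to any other by some element of the subgroup. -/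
theorem result {F : Type*} [Field F] [Fintype F] (hF : Fintype.card F = 2) : (∃ H : Subgroup (Matrix.GeneralLinearGroup (Fin 4) F), Nonempty (H ≃* alternatingGroup (Fin 7))) ∧ ∀ H : Subgroup (Matrix.GeneralLinearGroup (Fin 4) F), Nonempty (H ≃* alternatingGroup (Fin 7)) → ∀ v w v' w' : Fin 4 → F, v ≠ 0 → w ≠ 0 → v ≠ w → v' ≠ 0 → w' ≠ 0 → v' ≠ w' → ∃ g ∈ H, (g : Matrix (Fin 4) (Fin 4) F).mulVec v = v' ∧ (g : Matrix (Fin 4) (Fin 4) F).mulVec w = w' := by
  have hF' : Nat.card F = 2 := by rw [Nat.card_eq_fintype_card, hF]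
  obtain ⟨e⟩ := Cl.gl4_two_equiv_alt hF'
  refine ⟨⟨(e.symm.toMonoidHom.comp (Sym.altEmb (Fin.castSuccEmb : Fin 7 ↪ Fin 8))).range,
    ⟨(MonoidHom.ofInjective (e.symm.injective.comp (Sym.altEmb_injective _))).symm⟩⟩, ?_⟩
  rintro H ⟨eH⟩ v w v' w' hv hw hvw hv' hw' hvw'
  have hH : H.index = 8 := by
    have := H.card_mul_index
    rw [Nat.card_congr eH.toEquiv, Nat.card_congr e.toEquiv, nat_card_alternatingGroup,
      nat_card_alternatingGroup] at this
    simp [Nat.factorial] at this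
    omega
  have key : ∀ v w : Fin 4 → F, v ≠ 0 → w ≠ 0 → v ≠ w → ∃ h ∈ H,
      (h : Matrix (Fin 4) (Fin 4) F).mulVec (Pi.single 0 1) = v ∧
      (h : Matrix (Fin 4) (Fin 4) F).mulVec (Pi.single 1 1) = w := by
    intro v w hv hw hvw
    obtain ⟨g, hg⟩ := exists_gl_mulVec_eq (linInd hF' (v := Pi.single 0 1) (w := Pi.single 1 1)
      (by simp) (by simp) (fun e => by simpa using congrFun e 0)) (linInd hF' hv hw hvw)
    obtain ⟨g, rfl⟩ := (Cl.toGL_bijective_of_card_two hF').2 g
    obtain ⟨h, hh, h'⟩ := exists_mem_std hF' (H.comap Matrix.SpecialLinearGroup.toGL)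
      (by rw [Subgroup.index_comap_of_surjective _ (Cl.toGL_bijective_of_card_two hF').2, hH]) g
    exact ⟨_, hh, (h' _ (by simp)).trans (hg 0), (h' _ (by simp)).trans (hg 1)⟩
  obtain ⟨h, hh, rfl, rfl⟩ := key v w hv hw hvw
  obtain ⟨k, hk, rfl, rfl⟩ := key v' w' hv' hw' hvw'
  refine ⟨k * h⁻¹, mul_mem hk (inv_mem hh), ?_, ?_⟩ <;>
    rw [Units.val_mul, ← Matrix.mulVec_mulVec, Cl.gl_inv_mulVec_mulVec]

end Cfsg.Agent.S2551
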