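import Mathlib
import Cfsg.Statements.S2564
import Cfsg.Agent.Cl.QuadSym

set_option autoImplicit false
open Cfsg

namespace Cfsg.Agent.S2564

open Cfsg.Agent.Cl QuadraticMap

theorem exists_form {U : Type*} [AddCommGroup U] [Module (ZMod 2) U]
    (P : QuadraticForm (ZMod 2) U) (q : U → ZMod 2)
    (hq : ∀ u v, q (u + v) = q u + q v + polar P u v) :
    ∃ Q : QuadraticForm (ZMod 2) U, ⇑Q = q ∧ Q.polarBilin = P.polarBilin := by
  have hp : ∀ u v, polar q u v = polar P u v := fun u v => by rw [polar, hq]; ring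
  have h0 : q 0 = 0 := by simpa using hq 0 0
  refine ⟨QuadraticMap.ofPolar q
    (fun c u => by rcases quad_zmod2_cases c with rfl | rfl <;> simp [h0])
    (fun u v w => by simp [hp]) (fun c u v => by simp [hp]), rfl, ?_⟩
  ext u v
  exact hp u v


/-- On the 2m-dimensional space over the field of two elements (m ≥ 1) let f be the alternating form obtained by polarizing the plus-type form Σ xᵢyᵢ, and let q be any quadratic form polarizing to f. For a vector w, the function q + f(·, w) again polarizes to f, and it is equivalent to q under an invertible linear map (that is, has the same type) if and only if q(w) = 0. -/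
theorem result (m : ℕ) (hm : 1 ≤ m) (q : (Fin m ⊕ Fin m → ZMod 2) → ZMod 2) (hq : (∀ u v : (Fin m ⊕ Fin m → ZMod 2), q (u + v) = q u + q v + (Cfsg.quadFormPlus m (ZMod 2) (u + v) - Cfsg.quadFormPlus m (ZMod 2) u - Cfsg.quadFormPlus m (ZMod 2) v))) (w : (Fin m ⊕ Fin m → ZMod 2)) :
    (∀ u v : (Fin m ⊕ Fin m → ZMod 2), (q (u + v) + (Cfsg.quadFormPlus m (ZMod 2) (u + v + w) - Cfsg.quadFormPlus m (ZMod 2) (u + v) - Cfsg.quadFormPlus m (ZMod 2) w)) =
        (q u + (Cfsg.quadFormPlus m (ZMod 2) (u + w) - Cfsg.quadFormPlus m (ZMod 2) u - Cfsg.quadFormPlus m (ZMod 2) w)) + (q v + (Cfsg.quadFormPlus m (ZMod 2) (v + w) - Cfsg.quadFormPlus m (ZMod 2) v - Cfsg.quadFormPlus m (ZMod 2) w)) +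
        (Cfsg.quadFormPlus m (ZMod 2) (u + v) - Cfsg.quadFormPlus m (ZMod 2) u - Cfsg.quadFormPlus m (ZMod 2) v)) ∧
    ((∃ g : (Fin m ⊕ Fin m → ZMod 2) ≃ₗ[ZMod 2] (Fin m ⊕ Fin m → ZMod 2), ∀ v, q v + (Cfsg.quadFormPlus m (ZMod 2) (v + w) - Cfsg.quadFormPlus m (ZMod 2) v - Cfsg.quadFormPlus m (ZMod 2) w) = q (g v)) ↔ q w = 0) := by
  have hq' : ∀ u v, q (u + v) = q u + q v + polar (quad_plus m (ZMod 2)) u v := hq
  obtain ⟨Q, rfl, hQ⟩ := exists_form _ q hq'
  have hpol : ∀ u v, polar Q u v = polar (quad_plus m (ZMod 2)) u v := fun u v =>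
    LinearMap.congr_fun₂ hQ u v
  have hnd : Q.polarBilin.Nondegenerate := hQ ▸ quad_plus_nondeg
  refine ⟨fun u v => ?_, ?_⟩
  · change Q (u + v) + polar (quad_plus m (ZMod 2)) (u + v) w =
      Q u + polar (quad_plus m (ZMod 2)) u w + (Q v + polar (quad_plus m (ZMod 2)) v w) +
        polar (quad_plus m (ZMod 2)) u v
    rw [hq', polar_add_left]; ring
  · change (∃ g : (Fin m ⊕ Fin m → ZMod 2) ≃ₗ[ZMod 2] (Fin m ⊕ Fin m → ZMod 2),
      ∀ v, Q v + polar (quad_plus m (ZMod 2)) v w = Q (g v)) ↔ _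
    simp only [← hpol]
    constructor
    · rintro ⟨g, hg⟩
      have h1 := quad_gauss_congr (q := fun v => Q v + polar Q v w) (q' := Q) g.toEquiv
        fun v => (hg v).symm
      rw [quad_gauss_add_polar] at h1
      have h2 : quad_gauss Q ≠ 0 := by
        have : (0 : ℤ) < 2 ^ m := by positivity
        rcases quad_gauss_cases hnd hm o_finrank_plus with h | h <;> omega
      exact quad_sg_injective ((mul_eq_right₀ h2).1 h1)
    · intro hw
      have h2 : (2 : ZMod 2) = 0 := rfl
      let t : (Fin m ⊕ Fin m → ZMod 2) →ₗ[ZMod 2] (Fin m ⊕ Fin m → ZMod 2) :=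
        LinearMap.id + (Q.polarBilin w).smulRight w
      have ht : ∀ v, t v = v + polar Q w v • w := fun v => rfl
      refine ⟨LinearEquiv.ofInvolutive t fun v => ?_, fun v => ?_⟩
      · rw [ht, ht]
        simp [oexp, hw, add_assoc, quad_zmod2_add_self]
      · change _ = Q (t v)
        rw [ht]
        simp only [oexp, hw, polar_comm Q w v]
        rcases quad_zmod2_cases (polar Q v w) with h | h <;> simp [h]

end Cfsg.Agent.S2564
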