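import Mathlib
import Cfsg.Statements.S2561
import Cfsg.Agent.S2564

set_option autoImplicit false
open Cfsg

namespace Cfsg.Agent.S2561

open Cfsg.Agent.Cl QuadraticMap

theorem exists_eq {U : Type*} [AddCommGroup U] [Module (ZMod 2) U] [FiniteDimensional (ZMod 2) U]
    {P : QuadraticForm (ZMod 2) U} (hP : P.polarBilin.Nondegenerate) (q : U → ZMod 2)
    (hq : ∀ u v, q (u + v) = q u + q v + polar P u v) :
    ∃ w, q = fun v => P v + polar P v w := by
  let l : U →+ ZMod 2 := AddMonoidHom.mk' (fun v => q v - P v) fun u v => by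
    rw [hq, quad_add]; ring
  obtain ⟨w, hw⟩ := (LinearMap.BilinForm.toDual (polarBilin P) hP).surjective (l.toZModLinearMap 2)
  refine ⟨w, funext fun v => ?_⟩
  have : polar P w v = q v - P v := LinearMap.congr_fun hw v
  rw [polar_comm, this]; ring

theorem card_eq {U : Type*} [AddCommGroup U] [Module (ZMod 2) U] [FiniteDimensional (ZMod 2) U]
    {P : QuadraticForm (ZMod 2) U} (hP : P.polarBilin.Nondegenerate) (p : (U → ZMod 2) → Prop)
    (r : U → Prop) (h : ∀ w, p (fun v => P v + polar P v w) ↔ r w) :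
    Nat.card {q : U → ZMod 2 // (∀ u v, q (u + v) = q u + q v + polar P u v) ∧ p q} =
      Nat.card {w // r w} := by
  refine (Nat.card_congr (Equiv.ofBijective (fun w : {w // r w} =>
    (⟨fun v => P v + polar P v w.1, fun u v => by
      simp only [quad_add, polar_add_left]; ring, (h _).2 w.2⟩ :
      {q : U → ZMod 2 // (∀ u v, q (u + v) = q u + q v + polar P u v) ∧ p q}))
      ⟨fun a b hab => ?_, ?_⟩)).symm
  · refine Subtype.ext (o_eq_of_polar hP fun y => ?_)
    have := congrFun (congrArg Subtype.val hab) y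
    rw [polar_comm P a.1, polar_comm P b.1]
    exact add_left_cancel this
  · rintro ⟨q, hq, hp⟩
    obtain ⟨w, rfl⟩ := exists_eq hP q hq
    exact ⟨⟨w, (h w).1 hp⟩, rfl⟩


/-- Fix the non-singular alternating form on the 2m-dimensional space over the field of two elements obtained by polarizing the plus-type form Σ xᵢyᵢ (m ≥ 1). The functions q on the space with q(u + v) = q(u) + q(v) + f(u, v) (the quadratic forms polarizing to f) number 2^(2m); each is equivalent under an invertible linear map either to the plus-type form or to the minus-type form Σ xᵢyᵢ + (z₁² + z₁z₂ + z₂²); and those of plus type number 2^(2m−1) + 2^(m−1), those of minus type 2^(2m−1) − 2^(m−1). -/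
theorem result (m : ℕ) (hm : 1 ≤ m) :
    Nat.card {q : (Fin m ⊕ Fin m → ZMod 2) → ZMod 2 // (∀ u v : (Fin m ⊕ Fin m → ZMod 2), q (u + v) = q u + q v + (Cfsg.quadFormPlus m (ZMod 2) (u + v) - Cfsg.quadFormPlus m (ZMod 2) u - Cfsg.quadFormPlus m (ZMod 2) v))} = 2 ^ (2 * m) ∧
    (∀ q : (Fin m ⊕ Fin m → ZMod 2) → ZMod 2, (∀ u v : (Fin m ⊕ Fin m → ZMod 2), q (u + v) = q u + q v + (Cfsg.quadFormPlus m (ZMod 2) (u + v) - Cfsg.quadFormPlus m (ZMod 2) u - Cfsg.quadFormPlus m (ZMod 2) v)) →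
      (∃ g : (Fin m ⊕ Fin m → ZMod 2) ≃ₗ[ZMod 2] (Fin m ⊕ Fin m → ZMod 2), ∀ v, q v = Cfsg.quadFormPlus m (ZMod 2) (g v)) ∨
      (∃ g : (Fin m ⊕ Fin m → ZMod 2) ≃ₗ[ZMod 2] ((Fin (m - 1) ⊕ Fin (m - 1)) ⊕ Fin 2 → ZMod 2), ∀ v, q v = Cfsg.quadFormMinus (m - 1) (ZMod 2) 1 1 (g v))) ∧
    Nat.card {q : (Fin m ⊕ Fin m → ZMod 2) → ZMod 2 // (∀ u v : (Fin m ⊕ Fin m → ZMod 2), q (u + v) = q u + q v + (Cfsg.quadFormPlus m (ZMod 2) (u + v) - Cfsg.quadFormPlus m (ZMod 2) u - Cfsg.quadFormPlus m (ZMod 2) v)) ∧ ∃ g : (Fin m ⊕ Fin m → ZMod 2) ≃ₗ[ZMod 2] (Fin m ⊕ Fin m → ZMod 2), ∀ v, q v = Cfsg.quadFormPlus m (ZMod 2) (g v)} = 2 ^ (2 * m - 1) + 2 ^ (m - 1) ∧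
    Nat.card {q : (Fin m ⊕ Fin m → ZMod 2) → ZMod 2 // (∀ u v : (Fin m ⊕ Fin m → ZMod 2), q (u + v) = q u + q v + (Cfsg.quadFormPlus m (ZMod 2) (u + v) - Cfsg.quadFormPlus m (ZMod 2) u - Cfsg.quadFormPlus m (ZMod 2) v)) ∧ ∃ g : (Fin m ⊕ Fin m → ZMod 2) ≃ₗ[ZMod 2] ((Fin (m - 1) ⊕ Fin (m - 1)) ⊕ Fin 2 → ZMod 2), ∀ v, q v = Cfsg.quadFormMinus (m - 1) (ZMod 2) 1 1 (g v)} = 2 ^ (2 * m - 1) - 2 ^ (m - 1) := by
  have hP := quad_plus_nondeg (m := m) (F := ZMod 2)
  have hpos : (0 : ℤ) < 2 ^ m := by positivity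
  have hG : ∀ w, quad_gauss (fun v => quad_plus m (ZMod 2) v + polar (quad_plus m (ZMod 2)) v w) =
      quad_sg (quad_plus m (ZMod 2) w) * 2 ^ m := fun w => by
    rw [quad_gauss_add_polar]
    exact congrArg _ (quad_gauss_plus hm)
  have hcases : ∀ q : (Fin m ⊕ Fin m → ZMod 2) → ZMod 2,
      (∀ u v, q (u + v) = q u + q v + polar (quad_plus m (ZMod 2)) u v) →
      (quad_gauss q = 2 ^ m ∧ ∃ g : (Fin m ⊕ Fin m → ZMod 2) ≃ₗ[ZMod 2] (Fin m ⊕ Fin m → ZMod 2),
        ∀ v, q v = quadFormPlus m (ZMod 2) (g v)) ∨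
      (quad_gauss q = -2 ^ m ∧ ∃ g : (Fin m ⊕ Fin m → ZMod 2) ≃ₗ[ZMod 2]
        ((Fin (m - 1) ⊕ Fin (m - 1)) ⊕ Fin 2 → ZMod 2),
        ∀ v, q v = quadFormMinus (m - 1) (ZMod 2) 1 1 (g v)) := by
    intro q hq
    obtain ⟨Q, rfl, hQ⟩ := S2564.exists_form _ q hq
    rcases quad_gauss_cases (hQ ▸ hP) hm o_finrank_plus with ⟨h, g, hg⟩ | ⟨h, g, hg⟩
    · exact .inl ⟨h, g, fun v => (hg v).symm⟩
    · exact .inr ⟨h, g, fun v => (hg v).symm⟩
  have hw : ∀ w u v, quad_plus m (ZMod 2) (u + v) + polar (quad_plus m (ZMod 2)) (u + v) w =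
      (quad_plus m (ZMod 2) u + polar (quad_plus m (ZMod 2)) u w) +
      (quad_plus m (ZMod 2) v + polar (quad_plus m (ZMod 2)) v w) +
        polar (quad_plus m (ZMod 2)) u v := fun w u v => by
    rw [quad_add, polar_add_left]; ring
  have hz := S0289.result (ZMod.card 2) m hm
  have hall : Nat.card (Fin m ⊕ Fin m → ZMod 2) = 2 ^ (2 * m) := by simp [two_mul]
  obtain ⟨k, rfl⟩ := Nat.exists_eq_add_of_le' hm
  have hk : 2 ^ (2 * (k + 1)) = 2 * 2 ^ (2 * (k + 1) - 1) := by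
    rw [← pow_succ']; congr 1
  have hk' : 2 ^ (k + 1) = 2 * 2 ^ (k + 1 - 1) := by rw [← pow_succ']; rfl
  refine ⟨?_, fun q hq => (hcases q hq).imp (·.2) (·.2), ?_, ?_⟩
  · refine (Nat.card_congr (Equiv.subtypeEquivRight fun q => (and_iff_left trivial).symm)).trans
      ((card_eq hP (fun _ => True) (fun _ => True) fun _ => Iff.rfl).trans ?_)
    rw [← hall]
    exact Nat.card_congr (Equiv.subtypeUnivEquiv fun _ => trivial)
  · refine (card_eq hP _ (fun w => quadFormPlus (k + 1) (ZMod 2) w = 0) fun w => ?_).trans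
      (by omega)
    constructor
    · rintro ⟨g, hg⟩
      have h1 := quad_gauss_congr g.toEquiv fun v => (hg v).symm
      rw [hG, quad_gauss_plus hm, mul_eq_right₀ hpos.ne'] at h1
      exact quad_sg_injective h1
    · intro h
      have h1 := hG w
      rw [show quad_plus (k + 1) (ZMod 2) w = 0 from h, quad_sg_zero, one_mul] at h1
      rcases hcases (fun v => quad_plus _ (ZMod 2) v + polar (quad_plus _ (ZMod 2)) v w) (hw w) with h' | h'
      · exact h'.2
      · omega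
  · refine (card_eq hP _ (fun w => ¬ quadFormPlus (k + 1) (ZMod 2) w = 0) fun w => ?_).trans ?_
    · constructor
      · rintro ⟨g, hg⟩ h
        have h1 := quad_gauss_congr g.toEquiv fun v => (hg v).symm
        rw [hG, quad_gauss_minus hm, show quad_plus (k + 1) (ZMod 2) w = 0 from h, quad_sg_zero,
          one_mul] at h1
        omega
      · intro h
        have h1 := hG w
        rw [show quad_plus (k + 1) (ZMod 2) w = 1 from (quad_zmod2_cases _).resolve_left h,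
          quad_sg_one] at h1
        rcases hcases (fun v => quad_plus _ (ZMod 2) v + polar (quad_plus _ (ZMod 2)) v w) (hw w) with h' | h'
        · omega
        · exact h'.2
    · have := Nat.card_congr (Equiv.sumCompl fun w => quadFormPlus (k + 1) (ZMod 2) w = 0)
      rw [Nat.card_sum, hz, hall] at this
      omega

end Cfsg.Agent.S2561
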