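import Mathlib
import Cfsg.Statements.S2562
import Cfsg.Agent.Cl.QuadClassify

set_option autoImplicit false
open Cfsg

namespace Cfsg.Agent.S2562

open Cfsg.Agent.Cl QuadraticMap


/-- Witt indices over the field of two elements, m ≥ 1: for the plus-type form Σ xᵢyᵢ in dimension 2m some m-dimensional subspace is totally singular and no totally singular subspace has larger dimension; for the minus-type form Σ xᵢyᵢ + (z₁² + z₁z₂ + z₂²) in dimension 2m the maximal dimension of a totally singular subspace is m − 1. -/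
theorem result (m : ℕ) (hm : 1 ≤ m) :
    (∃ U : Submodule (ZMod 2) (Fin m ⊕ Fin m → ZMod 2), (∀ u ∈ U, Cfsg.quadFormPlus m (ZMod 2) u = 0) ∧ Module.finrank (ZMod 2) ↥U = m) ∧
    (∀ U : Submodule (ZMod 2) (Fin m ⊕ Fin m → ZMod 2), (∀ u ∈ U, Cfsg.quadFormPlus m (ZMod 2) u = 0) → Module.finrank (ZMod 2) ↥U ≤ m) ∧
    (∃ U : Submodule (ZMod 2) ((Fin (m - 1) ⊕ Fin (m - 1)) ⊕ Fin 2 → ZMod 2), (∀ u ∈ U, Cfsg.quadFormMinus (m - 1) (ZMod 2) 1 1 u = 0) ∧ Module.finrank (ZMod 2) ↥U = m - 1) ∧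
    (∀ U : Submodule (ZMod 2) ((Fin (m - 1) ⊕ Fin (m - 1)) ⊕ Fin 2 → ZMod 2), (∀ u ∈ U, Cfsg.quadFormMinus (m - 1) (ZMod 2) 1 1 u = 0) → Module.finrank (ZMod 2) ↥U ≤ m - 1) := by
  refine ⟨quad_plus_exists_singular m, fun U hU => ?_, ?_, fun U hU => ?_⟩
  · have := quad_two_mul_finrank_singular_le (Q := quad_plus m (ZMod 2)) quad_plus_nondeg hU
    simp only [Module.finrank_fintype_fun_eq_card, Fintype.card_sum, Fintype.card_fin] at this
    omega
  · let j : (Fin (m - 1) → ZMod 2) →ₗ[ZMod 2] ((Fin (m - 1) ⊕ Fin (m - 1)) ⊕ Fin 2 → ZMod 2) :=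
      LinearMap.pi (Sum.elim (Sum.elim (fun i => LinearMap.proj i) fun _ => 0) fun _ => 0)
    have hj : Function.Injective j := fun x y h => funext fun i => congrFun h (.inl (.inl i))
    refine ⟨LinearMap.range j, ?_, by simp [LinearMap.finrank_range_of_inj hj]⟩
    rintro _ ⟨x, rfl⟩
    simp [quadFormMinus, j]
  · exact quad_minus_singular_le (by decide) hU

end Cfsg.Agent.S2562
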