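import Mathlib
import Cfsg.Statements.S2565
import Cfsg.Agent.S0825
import Cfsg.Agent.Cl.QuadOmega

set_option autoImplicit false
open Cfsg

namespace Cfsg.Agent.S2565

open Cfsg.Agent.Cl


/-- The commutator subgroup of the full orthogonal group of the plus-type form Σ xᵢyᵢ in dimension 6 over the field of two elements (the group Ω⁺₆(2), of index 2) is isomorphic to the alternating group of degree 8. -/
theorem result :
    (Cfsg.Omega (ZMod 2) (Cfsg.quadFormPlus 3 (ZMod 2))).index = 2 ∧
    Nonempty (↥(Cfsg.Omega (ZMod 2) (Cfsg.quadFormPlus 3 (ZMod 2))) ≃* alternatingGroup (Fin 8)) := by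
  refine ⟨(index_Omega_eq (P := quad_plus 3 (ZMod 2))).trans (index_commutator_OG_of_two_eq_zero
    quad_plus_nondeg (not_oExc_of_finrank (by simp)) rfl (by simp)), ?_⟩
  obtain ⟨e⟩ := S0825.result (ZMod.card 2)
  exact ⟨(commutatorCongr e).trans (MulEquiv.subgroupCongr
    (alternatingGroup.commutator_perm_eq (by simp)))⟩

end Cfsg.Agent.S2565
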