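import Mathlib
import Cfsg.Statements.S2566
import Cfsg.Agent.Cl.QuadSym
import Cfsg.Agent.Cl.OrthDickson
import Cfsg.Agent.S0287

set_option autoImplicit false
open Cfsg

namespace Cfsg.Agent.S2566

open Cfsg.Agent.Cl QuadraticMap


/-- The full orthogonal group of the plus-type form x₁y₁ + x₂y₂ in dimension 4 over the field of two elements has order 72 and is isomorphic to the wreath product of the symmetric group of degree 3 by a group of order 2: it has a normal subgroup isomorphic to the direct product of two symmetric groups of degree 3, of index 2, whose two direct factors are interchanged by conjugation by some element. -/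
theorem result :
    Nat.card ↥(Cfsg.isometryGroup (ZMod 2) (Cfsg.quadFormPlus 2 (ZMod 2))) = 72 ∧
    ∃ (A B : Subgroup ↥(Cfsg.isometryGroup (ZMod 2) (Cfsg.quadFormPlus 2 (ZMod 2)))),
      Nonempty (↥A ≃* Equiv.Perm (Fin 3)) ∧ Nonempty (↥B ≃* Equiv.Perm (Fin 3)) ∧ A ⊓ B = ⊥ ∧ (∀ a ∈ A, ∀ b ∈ B, a * b = b * a) ∧
      (A ⊔ B).index = 2 ∧ ∃ g : ↥(Cfsg.isometryGroup (ZMod 2) (Cfsg.quadFormPlus 2 (ZMod 2))), A.map (MulAut.conj g).toMonoidHom = B := by
  have hcard : Nat.card ↥(Cfsg.isometryGroup (ZMod 2) (Cfsg.quadFormPlus 2 (ZMod 2))) = 72 :=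
    S0287.result (ZMod.card 2) 2 (by norm_num)
  refine ⟨hcard, ?_⟩
  set P := quad_evenForm (Fin 3) with hP
  have hnd : (polarBilin P).Nondegenerate := quad_evenForm_nondeg (by decide)
  have hdim : Module.finrank (ZMod 2) (quad_even (Fin 3)) = 2 := by
    have := quad_finrank_even (ι := Fin 3)
    rw [Fintype.card_fin] at this
    omega
  let d : quad_even (Fin 3) →ₗ[ZMod 2] quad_even (Fin 3) × quad_even (Fin 3) :=
    LinearMap.id.prod LinearMap.id
  obtain ⟨g, hg⟩ := quad_equiv_plus_of_singular (o_prod_nondeg hnd hnd) (m := 2)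
    (by rw [Module.finrank_prod, hdim]) (U := LinearMap.range d)
    (by rintro _ ⟨x, rfl⟩; exact quad_zmod2_add_self (P x))
    (by rw [LinearMap.finrank_range_of_inj fun x y h => congrArg Prod.fst h, hdim])
  let e : OG (P.prod P) ≃* Cfsg.isometryGroup (ZMod 2) (Cfsg.quadFormPlus 2 (ZMod 2)) :=
    (OG.congr (Q' := quad_plus 2 (ZMod 2)) g hg).trans (omatEquiv _).symm
  have hρ : Function.Injective (quad_evenPerm (Fin 3)) := by
    refine (injective_iff_map_eq_one _).2 fun σ h => ?_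
    have key : ∀ σ : Equiv.Perm (Fin 3), (∀ x : Fin 3 → ZMod 2, ∑ i, x i = 0 →
      ∀ i, x (σ.symm i) = x i) → σ = 1 := by decide
    refine key σ fun x hx i => ?_
    have := quad_evenPerm_app σ ⟨x, quad_mem_even.2 hx⟩ i
    rw [h] at this
    exact this.symm
  let ψ := e.toMonoidHom.comp ((OG.prodHom P P).comp
    ((quad_evenPerm (Fin 3)).prodMap (quad_evenPerm (Fin 3))))
  have hψ : Function.Injective ψ := e.injective.comp (OG.prodHom_injective.comp (hρ.prodMap hρ))
  let s : OG (P.prod P) := ⟨LinearEquiv.prodComm _ _ _, fun x => add_comm _ _⟩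
  have h1 : Function.Injective (ψ.comp (MonoidHom.inl _ _)) := fun a b h =>
    congrArg Prod.fst (hψ h)
  have h2 : Function.Injective (ψ.comp (MonoidHom.inr _ _)) := fun a b h =>
    congrArg Prod.snd (hψ h)
  have hs : ∀ a, e s * ψ (a, 1) * (e s)⁻¹ = ψ (1, a) := fun a => by
    rw [← map_inv]
    change e s * e _ * _ = e _
    rw [← map_mul, ← map_mul]
    congr 1
  refine ⟨(ψ.comp (MonoidHom.inl _ _)).range, (ψ.comp (MonoidHom.inr _ _)).range,
    ⟨(MonoidHom.ofInjective h1).symm⟩, ⟨(MonoidHom.ofInjective h2).symm⟩, ?_, ?_, ?_, e s, ?_⟩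
  · rw [Subgroup.eq_bot_iff_forall]
    rintro _ ⟨⟨a, rfl⟩, b, hb⟩
    have : a = 1 := (congrArg Prod.fst (hψ hb)).symm
    rw [this, map_one]
  · rintro _ ⟨a, rfl⟩ _ ⟨b, rfl⟩
    change ψ _ * ψ _ = ψ _ * ψ _
    rw [← map_mul, ← map_mul]
    simp
  · have h3 : (ψ.comp (MonoidHom.inl _ _)).range ⊔ (ψ.comp (MonoidHom.inr _ _)).range =
        ψ.range := by
      refine le_antisymm (sup_le ?_ ?_) ?_
      · rintro _ ⟨a, rfl⟩; exact ⟨_, rfl⟩
      · rintro _ ⟨a, rfl⟩; exact ⟨_, rfl⟩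
      · rintro _ ⟨⟨a, b⟩, rfl⟩
        rw [show (a, b) = (a, 1) * (1, b) by simp, map_mul]
        exact Subgroup.mul_mem_sup ⟨a, rfl⟩ ⟨b, rfl⟩
    have h4 := ψ.range.card_mul_index
    rw [← Nat.card_congr (MonoidHom.ofInjective hψ).toEquiv, hcard, Nat.card_prod, Nat.card_perm,
      Nat.card_fin] at h4
    rw [h3]
    norm_num [Nat.factorial] at h4
    omega
  · ext x
    constructor
    · rintro ⟨_, ⟨a, rfl⟩, rfl⟩
      exact ⟨a, (hs a).symm⟩
    · rintro ⟨a, rfl⟩
      exact ⟨_, ⟨a, rfl⟩, hs a⟩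

end Cfsg.Agent.S2566
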