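import Mathlib
import Cfsg.Statements.S2567
import Cfsg.Agent.Cl.LinearBasic

set_option autoImplicit false
open Cfsg

namespace Cfsg.Agent.S2567

/-- Lifting elements of prime order from PGL to GL: let F be a finite field with q elements, r a prime not dividing q − 1, and x an element of order r in GL_n(F) modulo its centre (the scalar matrices). Then x has exactly one preimage in GL_n(F) of order r. -/
theorem result {F : Type*} [Field F] [Fintype F] {q n r : ℕ} (hF : Fintype.card F = q) (hr : r.Prime) (hdiv : ¬ r ∣ q - 1) (x : GL (Fin n) F ⧸ Subgroup.center (GL (Fin n) F)) (hx : orderOf x = r) : ∃! g : GL (Fin n) F, (QuotientGroup.mk g : GL (Fin n) F ⧸ Subgroup.center (GL (Fin n) F)) = x ∧ orderOf g = r := by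
  have hc : (Nat.card (Subgroup.center (GL (Fin n) F))).Coprime r := by
    rcases Nat.eq_zero_or_pos n with rfl | hn
    · rw [Nat.card_unique]
      exact Nat.coprime_one_left r
    · have : Nonempty (Fin n) := ⟨⟨0, hn⟩⟩
      rw [Cl.card_center_gl, Nat.card_eq_fintype_card, hF]
      exact ((Nat.Prime.coprime_iff_not_dvd hr).2 hdiv).symm
  have := Fact.mk hr
  have hb := hc.pow_left_bijective
  obtain ⟨g, rfl⟩ := QuotientGroup.mk_surjective x
  have h1 : g ^ r ∈ Subgroup.center (GL (Fin n) F) := by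
    rw [← QuotientGroup.eq_one_iff, QuotientGroup.mk_pow, ← hx, pow_orderOf_eq_one]
  obtain ⟨w, hw⟩ := hb.2 ⟨_, h1⟩
  have hw' : (w : GL (Fin n) F) ^ r = g ^ r := congrArg Subtype.val hw
  have h2 : (QuotientGroup.mk (g * (w : GL (Fin n) F)⁻¹) :
      GL (Fin n) F ⧸ Subgroup.center (GL (Fin n) F)) = QuotientGroup.mk g :=
    QuotientGroup.mk_mul_of_mem g (inv_mem w.2)
  have h3 : (g * (w : GL (Fin n) F)⁻¹) ^ r = 1 := by
    rw [Commute.mul_pow (Subgroup.mem_center_iff.1 (inv_mem w.2) g), inv_pow, hw', mul_inv_cancel]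
  refine ⟨g * (w : GL (Fin n) F)⁻¹, ⟨h2, orderOf_eq_prime h3 fun h => ?_⟩, fun k hk => ?_⟩
  · rw [← h2, h, QuotientGroup.mk_one, orderOf_one] at hx
    exact hr.one_lt.ne hx
  · have h4 := QuotientGroup.eq.1 (h2.trans hk.1.symm)
    have h5 : (⟨_, h4⟩ : Subgroup.center (GL (Fin n) F)) = 1 := hb.1 (Subtype.ext (by
      have h6 := Commute.mul_pow (Subgroup.mem_center_iff.1 h4 (g * (w : GL (Fin n) F)⁻¹)) r
      rw [mul_inv_cancel_left, h3, one_mul, ← hk.2, pow_orderOf_eq_one, hk.2] at h6
      simpa using h6.symm))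
    exact (inv_mul_eq_one.1 (congrArg Subtype.val h5)).symm

end Cfsg.Agent.S2567
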