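import Mathlib
import Cfsg.Statements.S2568
import Cfsg.Agent.Cl.ClassCount

set_option autoImplicit false
open Cfsg

namespace Cfsg.Agent.S2568

/-- Number of conjugacy classes of elements of a given prime order r, coprime to the characteristic, in GL_n(q): if i is the multiplicative order of q modulo r and t = (r − 1)/i, the classes correspond to the non-zero t-tuples of natural numbers (a_1, …, a_t) with i(a_1 + ⋯ + a_t) ≤ n (a_j is the multiplicity of the j-th Frobenius orbit of nontrivial r-th roots of unity among the eigenvalues), so there are exactly C(⌊n/i⌋ + t, t) − 1 of them. -/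
theorem result {F : Type*} [Field F] [Fintype F] {p q : ℕ} [Fact p.Prime] [CharP F p] (hF : Fintype.card F = q) (n r i t : ℕ) (hr : r.Prime) (hrp : r ≠ p) (hi : i = orderOf (q : ZMod r)) (ht : t * i = r - 1) : Nat.card {C : ConjClasses (GL (Fin n) F) // ∃ g : GL (Fin n) F, ConjClasses.mk g = C ∧ orderOf g = r} = Nat.choose (n / i + t) t - 1 := by
  have hp : p.Prime := Fact.out
  have h := Cl.Cls.card_conjClasses_orderOf_prime (K := AlgebraicClosure F)
    (Units.coeHom (Matrix (Fin n) (Fin n) F)) (fun _ _ h => Units.ext h)
    (fun _ _ => Cl.Cls.isConj_units_iff.2) (u := q) (t := t)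
    (by simpa only [zpow_natCast, ← hF] using Cl.spec_pow_card_injective)
    (fun g => by simpa only [zpow_natCast, ← hF] using Cl.Cls.evM_map_frob _)
    (fun R h1 h2 h3 => Cl.Cls.exists_GL_isSS_evM (by simpa only [zpow_natCast, ← hF] using h1) h2 h3)
    hr (by rwa [Ne, CharP.cast_eq_zero_iff F p, Nat.prime_dvd_prime_iff_eq hp hr, eq_comm])
    (by rwa [Int.cast_natCast, ← hi])
  rwa [Int.cast_natCast, ← hi, Fintype.card_fin] at h

end Cfsg.Agent.S2568
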