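import Mathlib
import Cfsg.Statements.S2570
import Cfsg.Agent.Cl.ClassUnip

set_option autoImplicit false
open Cfsg

namespace Cfsg.Agent.S2570

/-- Number of conjugacy classes of elements of order p in GL_n over a finite field of characteristic p: they correspond to the Jordan types, that is, to the partitions of n with all parts at most p other than the partition into ones, so there are (number of partitions of n with parts ≤ p) − 1 of them. -/
theorem result {F : Type*} [Field F] [Fintype F] {p : ℕ} [Fact p.Prime] [CharP F p] (n : ℕ) : Nat.card {C : ConjClasses (GL (Fin n) F) // ∃ g : GL (Fin n) F, ConjClasses.mk g = C ∧ orderOf g = p} = (Finset.univ.filter (fun μ : Nat.Partition n => ∀ a ∈ μ.parts, a ≤ p)).card - 1 := by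
  have hp : p.Prime := Fact.out
  rw [Cl.Cls.card_conjClasses_eq _
      (fun g : GL (Fin n) F => Cl.Cls.edM (g : Matrix (Fin n) (Fin n) F))
      fun a b _ _ => Cl.Cls.isConj_GL_iff_edM_eq,
    Cl.Cls.card_partition_eq n _ _ (fun s => (∀ j ∈ s, j ≤ p) ∧ ¬ ∀ j ∈ s, j ≤ 1),
    Cl.Cls.card_partition_le_not_le_one n p hp.one_le]
  · intro g hk
    obtain ⟨s, h1, h2, h3⟩ := Cl.Cls.exists_edM_eq_jt_of_pow_char p
      (A := (g : Matrix (Fin n) (Fin n) F)) (k := 1)
      (by rw [← Units.val_pow_eq_pow_val, pow_one, ← hk, pow_orderOf_eq_one, Units.val_one])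
    exact ⟨s, h1, by simpa using h2, h3,
      (Cl.Cls.orderOf_eq_char_iff_of_jt p h3).1 (orderOf_units.trans hk)⟩
  · intro s h1 h2 h3
    obtain ⟨g, hg⟩ := Cl.Cls.exists_GL_edM_eq_jt (F := F) (n := Fin n) one_ne_zero h1 (by simpa)
    exact ⟨g, orderOf_units.symm.trans ((Cl.Cls.orderOf_eq_char_iff_of_jt p hg).2 h3), hg⟩

end Cfsg.Agent.S2570
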