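import Mathlib
import Cfsg.Statements.S2572
import Cfsg.Agent.Cl.ClassCentU

set_option autoImplicit false
open Cfsg

namespace Cfsg.Agent.S2572

/-- Centraliser of a transvection in GL_n(q), n ≥ 2: if t − 1 has rank one and square zero, the centraliser of t in GL_n(q) has order q^(2n−3) (q − 1) |GL_(n−2)(q)| (a group of order q^(2n−3) extended by GL_1(q) × GL_(n−2)(q)). -/
theorem result {F : Type*} [Field F] [Fintype F] {q n : ℕ} (hF : Fintype.card F = q) (hn : 2 ≤ n) (t : GL (Fin n) F) (ht : Cfsg.IsTransvection (t : Matrix (Fin n) (Fin n) F)) : Nat.card ↥(Subgroup.centralizer ({t} : Set (GL (Fin n) F))) = q ^ (2 * n - 3) * (q - 1) * ∏ i : Fin (n - 2), (q ^ (n - 2) - q ^ (i : ℕ)) := by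
  obtain ⟨m, rfl⟩ := Nat.exists_eq_add_of_le' hn
  have h := Cl.Cls.card_centralizer_GL_of_jt (g := t) (c := 1)
    (d := (Fin.cons 2 fun _ => 1 : Fin (m + 1) → ℕ)) (s := 3)
    (by rw [((Cl.Cls.transvection_iff_edM _).1 ht).2, Fin.univ_succ]
        simp
        rfl)
    (Fin.cases (by simp) (by simp))
  have h0 : ∀ i : ℕ, (Finset.univ.filter fun k =>
      (Fin.cons 2 fun _ => 1 : Fin (m + 1) → ℕ) k = i).card =
      (if 2 = i then 1 else 0) + if 1 = i then m else 0 := fun i => by
    rw [Fin.card_filter_univ_succ']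
    simp only [Fin.cons_zero, Fin.cons_succ]
    split_ifs <;> simp [*]
  have h1 : ∀ a : ℕ, Nat.card (GL (Fin a) F) = ∏ i ∈ Finset.range a, (q ^ a - q ^ i) := fun a => by
    rw [Matrix.card_GL_field, hF, Finset.prod_range]
  simp only [Cl.Cls.jExp, h1, Nat.card_eq_fintype_card (α := F), hF, h0,
    Finset.sum_range_succ, Finset.prod_range_succ, Finset.sum_range_zero,
    Finset.prod_range_zero] at h
  rw [h, show 2 * (m + 2) - 3 = 2 * m + 1 by omega,
    ← Finset.prod_range fun i => q ^ (m + 2 - 2) - q ^ i]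
  simp
  ring

end Cfsg.Agent.S2572
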