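import Mathlib
import Cfsg.Statements.S2574
import Cfsg.Agent.Cl.ClassCyc

set_option autoImplicit false
open Cfsg

namespace Cfsg.Agent.S2574

/-- A regular unipotent element of the symplectic group has totally isotropic small invariant subspaces: over a finite field, if u ∈ Sp_2m(F) satisfies (u − 1)^(2m) = 0 and rank(u − 1) = 2m − 1, and W is a u-invariant subspace with 2 dim W ≤ 2m, then the alternating form vanishes identically on W. -/
theorem result {F : Type*} [Field F] [Finite F] {m : ℕ} (u : Matrix.symplecticGroup (Fin m) F) (hnil : ((u : Matrix (Fin m ⊕ Fin m) (Fin m ⊕ Fin m) F) - 1) ^ (2 * m) = 0) (hreg : ((u : Matrix (Fin m ⊕ Fin m) (Fin m ⊕ Fin m) F) - 1).rank = 2 * m - 1) (W : Submodule F (Fin m ⊕ Fin m → F)) (hW : ∀ v ∈ W, (u : Matrix (Fin m ⊕ Fin m) (Fin m ⊕ Fin m) F).mulVec v ∈ W) (hdim : 2 * Module.finrank F W ≤ 2 * m) : ∀ v ∈ W, ∀ w ∈ W, Cfsg.sympForm m F v w = 0 := by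
  rcases Nat.eq_zero_or_pos m with rfl | hm
  · intro v _ w _
    simp [Cfsg.sympForm, dotProduct]
  set A : Matrix (Fin m ⊕ Fin m) (Fin m ⊕ Fin m) F := u.1 with hA
  have hc : Fintype.card (Fin m ⊕ Fin m) = 2 * m := by simp [two_mul]
  have h := (Cl.Cls.regular_iff_edM A (by omega)).1 (by rw [hc]; exact ⟨hnil, hreg⟩)
  have hB : ∀ x y, Cfsg.sympForm m F (A.mulVec x) (A.mulVec y) = Cfsg.sympForm m F x y := by
    intro x y
    have h1 : A.transpose * Matrix.J (Fin m) F * A = Matrix.J (Fin m) F :=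
      SymplecticGroup.mem_iff'.1 u.2
    rw [Cfsg.sympForm, Cfsg.sympForm, Matrix.mulVec_mulVec, ← Matrix.vecMul_transpose,
      ← Matrix.dotProduct_mulVec, Matrix.mulVec_mulVec, ← mul_assoc, h1]
  have hN : ∀ k x y, Cfsg.sympForm m F (((A - 1) ^ k).mulVec x) ((A ^ k).mulVec y) =
      (-1) ^ k * Cfsg.sympForm m F x (((A - 1) ^ k).mulVec y) := by
    intro k
    induction k with
    | zero => simp
    | succ k ih =>
      intro x y
      have h1 : ∀ x y, Cfsg.sympForm m F ((A - 1).mulVec x) (A.mulVec y) =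
          - Cfsg.sympForm m F x ((A - 1).mulVec y) := fun x y => by
        have := hB x y
        simp only [Cfsg.sympForm, Matrix.sub_mulVec, Matrix.one_mulVec, sub_dotProduct,
          Matrix.mulVec_sub, dotProduct_sub] at this ⊢
        rw [this]
        ring
      have h2 : (A - 1) ^ k * A = A * (A - 1) ^ k :=
        (((Commute.refl A).sub_left (Commute.one_left A)).pow_left k).eq
      rw [pow_succ, pow_succ, ← Matrix.mulVec_mulVec, ← Matrix.mulVec_mulVec, ih,
        Matrix.mulVec_mulVec, h2, ← Matrix.mulVec_mulVec, h1, Matrix.mulVec_mulVec, ← pow_succ',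
        ← pow_succ]
      ring
  intro v hv w hw
  set k := Module.finrank F W with hk
  have hW1 := Cl.Cls.eq_ker_of_invariant h W hW
  have hW2 := Cl.Cls.eq_ker_of_invariant h
    (LinearMap.range (Matrix.toLin' ((A - 1) ^ (2 * m - k)))) (by
      rintro _ ⟨x, rfl⟩
      refine ⟨A.mulVec x, ?_⟩
      rw [Matrix.toLin'_apply, Matrix.toLin'_apply, Matrix.mulVec_mulVec, Matrix.mulVec_mulVec,
        (((Commute.refl A).sub_left (Commute.one_left A)).pow_left _).eq])
  have h3 := Cl.Cls.rank_pow_of_edM_eq_jt h (2 * m - k)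
  rw [Cl.Cls.aeval_X_sub_C_one, Multiset.map_singleton, Multiset.sum_singleton, hc,
    min_eq_right (by omega)] at h3
  have h4 : Module.finrank F (LinearMap.range (Matrix.toLin' ((A - 1) ^ (2 * m - k)))) = k := by
    change ((A - 1) ^ (2 * m - k)).rank = k
    omega
  rw [h4, ← hW1] at hW2
  rw [Cl.Cls.aeval_X_sub_C_one, ← hk] at hW1
  obtain ⟨x, rfl⟩ : v ∈ LinearMap.range (Matrix.toLin' ((A - 1) ^ (2 * m - k))) := hW2 ▸ hv
  obtain ⟨B, hB1⟩ : ∃ B, A ^ k * B = 1 := by
    refine ⟨(u⁻¹ ^ k).1, ?_⟩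
    rw [hA, ← SubmonoidClass.coe_pow, ← Submonoid.coe_mul, inv_pow, mul_inv_cancel]
    rfl
  have hB2 : Commute ((A - 1) ^ k) B := by
    have h5 : Commute ((A - 1) ^ k) (A ^ k) :=
      ((Commute.refl A).sub_left (Commute.one_left A)).pow_pow k k
    calc (A - 1) ^ k * B = B * (A ^ k * (A - 1) ^ k) * B := by
          rw [← mul_assoc, mul_eq_one_comm.1 hB1, one_mul]
      _ = B * (A - 1) ^ k := by rw [← h5.eq, mul_assoc, mul_assoc, hB1, mul_one]
  have h6 : ((A - 1) ^ k).mulVec w = 0 := by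
    rw [hW1] at hw
    exact hw
  have h7 := hN k (((A - 1) ^ (2 * m - k - k)).mulVec x) (B.mulVec w)
  rw [Matrix.mulVec_mulVec, Matrix.mulVec_mulVec, Matrix.mulVec_mulVec, hB1, Matrix.one_mulVec,
    ← pow_add, hB2.eq, ← Matrix.mulVec_mulVec w B, h6,
    show k + (2 * m - k - k) = 2 * m - k by omega] at h7
  rw [Matrix.toLin'_apply, h7]
  simp [Cfsg.sympForm]

end Cfsg.Agent.S2574
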