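import Mathlib
import Cfsg.Statements.S2575
import Cfsg.Agent.Cl.ClassPow

set_option autoImplicit false
open Cfsg

namespace Cfsg.Agent.S2575

/-- Which diagonal involutions of PGL_n(q) lie in PSL_n(q), q odd: for the diagonal matrix t with i entries −1 and n − i entries 1, some non-zero scalar multiple of t has determinant one if and only if i is even or the 2-part of q − 1 exceeds the 2-part of n (that is, −1 is an n-th power in the field exactly in the latter case). -/
theorem result {F : Type*} [Field F] [Fintype F] {q : ℕ} (hF : Fintype.card F = q) (hq : Odd q) {n : ℕ} (hn : 1 ≤ n) (i : ℕ) (hi : i ≤ n) : (∃ c : F, c ≠ 0 ∧ (c • Matrix.diagonal (fun j : Fin n => if (j : ℕ) < i then (-1 : F) else 1)).det = 1) ↔ (Even i ∨ padicValNat 2 n < padicValNat 2 (q - 1)) := by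
  have hF' : Nat.card F = q := by rw [Nat.card_eq_fintype_card, hF]
  have h1 : (∏ j : Fin n, if (j : ℕ) < i then (-1 : F) else 1) = (-1) ^ i := by
    rw [Finset.prod_ite, Finset.prod_const_one, mul_one, Finset.prod_const, Fin.card_filter_val_lt,
      min_eq_right hi]
  have h2 : 1 < q := hF ▸ Fintype.one_lt_card
  have h3 := Cl.Cls.orderOf_neg_one_of_odd (F := F) (hF' ▸ hq)
  simp only [Matrix.det_smul, Matrix.det_diagonal, Fintype.card_fin, h1]
  rw [Cl.Cls.exists_pow_mul_eq_one_iff n (pow_ne_zero _ (neg_ne_zero.2 one_ne_zero)), ← pow_mul,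
    ← orderOf_dvd_iff_pow_eq_one, h3, Nat.prime_two.dvd_mul, ← even_iff_two_dvd, hF']
  refine or_congr_right ?_
  have h4 := Cl.Cls.pow_dvd_mul_div_gcd_iff 2 (k := 1) (m := q - 1) (n := n) (v := 1) one_ne_zero
    (by omega) (by omega)
  rw [pow_one, one_mul, padicValNat_one_right] at h4
  rw [h4]
  omega

end Cfsg.Agent.S2575
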