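import Mathlib
import Cfsg.Statements.S2576
import Cfsg.Agent.Cl.ClassPow

set_option autoImplicit false
open Cfsg

namespace Cfsg.Agent.S2576

/-- Which involutions of PGL_2m(q) coming from a scalar of the quadratic extension field lie in PSL_2m(q), q odd: let μ generate the Sylow 2-subgroup of the multiplicative group of the field with q elements (μ has order the 2-part of q − 1) and let t be the block-diagonal matrix with m diagonal blocks [[0, 1], [μ, 0]] (so t² is the scalar μ and t is an involution modulo scalars). Then some non-zero scalar multiple of t has determinant one if and only if q ≡ 3 (mod 4) or the 2-part of q − 1 is less than the 2-part of 2m. -/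
theorem result {F : Type*} [Field F] [Fintype F] {q : ℕ} (hF : Fintype.card F = q) (hq : Odd q) {m : ℕ} (hm : 1 ≤ m) (μ : F) (hμ : orderOf μ = 2 ^ padicValNat 2 (q - 1)) : (∃ c : F, c ≠ 0 ∧ (c • Matrix.blockDiagonal (fun _ : Fin m => !![(0 : F), 1; μ, 0])).det = 1) ↔ (q % 4 = 3 ∨ padicValNat 2 (q - 1) < padicValNat 2 (2 * m)) := by
  have hF' : Nat.card F = q := by rw [Nat.card_eq_fintype_card, hF]
  have h2 : 1 < q := hF ▸ Fintype.one_lt_card
  have h3 := Cl.Cls.orderOf_neg_one_of_odd (F := F) (hF' ▸ hq)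
  have hμ0 : μ ≠ 0 := by
    rintro rfl
    have h := pow_orderOf_eq_one (0 : F)
    rw [hμ, zero_pow (by positivity)] at h
    exact zero_ne_one h
  have h4 : 2 ∣ q - 1 := by obtain ⟨k, rfl⟩ := hq; omega
  obtain ⟨v, hv⟩ : ∃ v, padicValNat 2 (q - 1) = v + 1 :=
    ⟨_, (Nat.sub_add_cancel (one_le_padicValNat_of_dvd (by omega) h4)).symm⟩
  have h6 : μ ^ 2 ^ (v + 1) = 1 := by rw [← hv, ← hμ, pow_orderOf_eq_one]
  have h5 : μ ^ 2 ^ v = -1 := by
    rw [pow_succ, pow_mul, sq, mul_self_eq_one_iff] at h6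
    refine h6.resolve_left fun h => ?_
    have h7 := orderOf_dvd_of_pow_eq_one h
    rw [hμ, hv, Nat.pow_dvd_pow_iff_le_right one_lt_two] at h7
    omega
  have h7 : (4 : ℕ) ∣ q - 1 ↔ 2 ≤ v + 1 := by
    rw [← hv, ← padicValNat_dvd_iff_le (by omega)]
    rfl
  have h8 : (Matrix.blockDiagonal fun _ : Fin m => !![(0 : F), 1; μ, 0]).det = (-μ) ^ m := by
    simp [Matrix.det_blockDiagonal]
  simp only [Matrix.det_smul, h8, Fintype.card_prod, Fintype.card_fin]
  rw [Cl.Cls.exists_pow_mul_eq_one_iff _ (pow_ne_zero _ (neg_ne_zero.2 hμ0)), ← pow_mul, hF']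
  rcases v with _ | v
  · obtain rfl : μ = -1 := by simpa using h5
    obtain ⟨k, rfl⟩ := hq
    simp only [neg_neg, one_pow, true_iff]
    omega
  · have h9 : orderOf (-μ) = 2 ^ (v + 1 + 1) := orderOf_eq_prime_pow (by
      rw [Even.neg_pow (by simp [Nat.even_pow]), h5, ← orderOf_eq_one_iff, h3]
      omega) (by rw [Even.neg_pow (by simp [Nat.even_pow]), h6])
    rw [← orderOf_dvd_iff_pow_eq_one, h9,
      Cl.Cls.pow_dvd_mul_div_gcd_iff 2 (by omega) (by omega) (by omega), hv,
      padicValNat.mul two_ne_zero (by omega), padicValNat_self]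
    omega

end Cfsg.Agent.S2576
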