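import Mathlib
import Cfsg.Statements.S2670
import Cfsg.Agent.Cl.ClassProj

set_option autoImplicit false
open Cfsg

namespace Cfsg.Agent.S2670

/-- Number of conjugacy classes of elements of prime order r in PGL_n(q) = GL_n(q)/scalars when r divides q − 1 (n ≥ 2): the classes of elements with a diagonalisable lift correspond to the orbits of the cyclic rotation on the r-tuples of eigenvalue multiplicities (a_0, …, a_(r−1)) summing to n with every a_j < n, and when r divides n there are r − 1 further classes (lifts acting irreducibly on blocks of size r); in all (C(n+r−1, r−1) − r − [r ∣ n])/r + r·[r ∣ n] classes. -/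
theorem result {F : Type*} [Field F] [Fintype F] {q : ℕ} (hF : Fintype.card F = q) {n r : ℕ} (hn : 2 ≤ n) (hr : r.Prime) (hrq : r ∣ q - 1) : Nat.card {C : ConjClasses (GL (Fin n) F ⧸ Subgroup.center (GL (Fin n) F)) // ∃ g : GL (Fin n) F ⧸ Subgroup.center (GL (Fin n) F), ConjClasses.mk g = C ∧ orderOf g = r} = (Nat.choose (n + r - 1) (r - 1) - r - (if r ∣ n then 1 else 0)) / r + r * (if r ∣ n then 1 else 0) := by
  subst hF
  have : NeZero n := ⟨by omega⟩
  have h1 := Fintype.one_lt_card (α := F)
  have h2 : ((1 : ℤ) * ((Fintype.card F - 1 : ℕ) : ℤ) + 1) = (Fintype.card F : ℕ) := by omega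
  have h := Cl.Cls.card_conjClasses_proj_prime (K := AlgebraicClosure F)
    (Units.coeHom (Matrix (Fin n) (Fin n) F)) (fun _ _ h => Units.ext h)
    (fun _ _ => Cl.Cls.isConj_units_iff.2) (m := Fintype.card F - 1)
    (by rw [Nat.cast_sub h1.le, FiniteField.cast_card_eq_zero]; simp) (ε := 1) (Or.inl rfl)
    (fun g => by simpa only [h2, zpow_natCast] using Cl.Cls.evM_map_frob _)
    (fun R h3 h4 h5 => Cl.Cls.exists_GL_isSS_evM (by simpa only [h2, zpow_natCast] using h3) h4 h5)
    Cl.Cls.mem_center_GL_iff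
    (fun g a h => FiniteField.pow_card_sub_one_eq_one a (Cl.Cls.ne_zero_of_GL_eq_smul h))
    (fun c hc => by
      obtain ⟨a, ha, rfl⟩ := Cl.Cls.exists_algebraMap_eq_of_pow hc
      obtain ⟨g, hg⟩ := Cl.Cls.exists_GL_eq_smul (n := Fin n) ha
      exact ⟨g, a, hg, rfl⟩) hr hrq
  rwa [Fintype.card_fin] at h

end Cfsg.Agent.S2670
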