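import Mathlib
import Cfsg.Statements.S2578
import Cfsg.Agent.Cl.ClassCyc

set_option autoImplicit false
open Cfsg

namespace Cfsg.Agent.S2578

/-- Regular unipotent classes of SL_n(q): for n ≥ 2 over the field with q elements, the matrices u of determinant one with (u − 1)^n = 0 and rank(u − 1) = n − 1 form a single GL_n(q)-class which splits into exactly gcd(n, q − 1) conjugacy classes of SL_n(q). -/
theorem result {F : Type*} [Field F] [Fintype F] {q : ℕ} (hF : Fintype.card F = q) {n : ℕ} (hn : 2 ≤ n) : Nat.card {C : ConjClasses (Matrix.SpecialLinearGroup (Fin n) F) // ∃ u : Matrix.SpecialLinearGroup (Fin n) F, ConjClasses.mk u = C ∧ ((u : Matrix (Fin n) (Fin n) F) - 1) ^ n = 0 ∧ ((u : Matrix (Fin n) (Fin n) F) - 1).rank = n - 1} = Nat.gcd n (q - 1) := by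
  obtain ⟨x, hx⟩ := Cl.Cls.exists_SL_edM_eq_jt (F := F) (n := Fin n) (s := {n})
    (by simp; omega) (by simp)
  have h1 := Cl.Cls.card_conjClasses_split_ker
    (Matrix.SpecialLinearGroup.toGL : Matrix.SpecialLinearGroup (Fin n) F →* _)
    Matrix.SpecialLinearGroup.toGL_injective Matrix.GeneralLinearGroup.det Cl.range_toGL
    (x := Matrix.SpecialLinearGroup.toGL x) (Units.ext x.2)
  have : Nonempty (Fin n) := ⟨⟨0, by omega⟩⟩
  rw [Cl.Cls.map_det_centralizer_of_regular (g := Matrix.SpecialLinearGroup.toGL x) (c := 1)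
      (k := n) hx,
    MonoidHom.range_eq_top.2 Matrix.GeneralLinearGroup.det_surjective, Subgroup.relIndex_top_right,
    IsCyclic.index_powMonoidHom_range, Nat.card_units, Nat.card_eq_fintype_card (α := F), hF,
    Fintype.card_fin, Nat.gcd_comm] at h1
  rw [← h1]
  refine Nat.card_congr (Equiv.subtypeEquivRight fun C => exists_congr fun u =>
    and_congr_right fun _ => ?_)
  have h2 := Cl.Cls.regular_iff_edM (u : Matrix (Fin n) (Fin n) F) Fintype.card_pos
  rw [Fintype.card_fin] at h2
  rw [h2, Cl.Cls.isConj_GL_iff_edM_eq, ← hx]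
  exact eq_comm

end Cfsg.Agent.S2578
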