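import Mathlib
import Cfsg.Statements.S2579
import Cfsg.Agent.Cl.ClassUnip

set_option autoImplicit false
open Cfsg

namespace Cfsg.Agent.S2579

/-- In SL_n(F) with n ≥ 3, over a finite field F, any two transvections (matrices t with t − 1 of rank one and square zero) are conjugate by an element of SL_n(F). -/
theorem result {F : Type*} [Field F] [Finite F] {n : ℕ} (hn : 3 ≤ n) (s t : Matrix.SpecialLinearGroup (Fin n) F) (hs : Cfsg.IsTransvection (s : Matrix (Fin n) (Fin n) F)) (ht : Cfsg.IsTransvection (t : Matrix (Fin n) (Fin n) F)) : IsConj s t := by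
  exact Cl.Cls.isConj_SL_of_irreducible_mem (Polynomial.irreducible_X_sub_C 1)
    (Cl.Cls.X_sub_one_mem_edM_of_transvection hs (by simpa))
    (Cl.Cls.isConj_of_transvection hs ht)

end Cfsg.Agent.S2579
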