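import Mathlib
import Cfsg.Statements.S2582
import Cfsg.Agent.Cl.ClassSpOBlocks

set_option autoImplicit false
open Cfsg

namespace Cfsg.Agent.S2582

/-- Which unipotent Jordan types occur in the finite symplectic group: over a finite field, a unipotent matrix with Jordan block sizes d_1, …, d_t (sum 2m, all at least 1) is similar to an element of Sp_2m(F) if and only if every odd block size occurs an even number of times. -/
theorem result {F : Type*} [Field F] [Fintype F] {m t : ℕ} (d : Fin t → ℕ) (hd : ∀ k, 1 ≤ d k) (hsum : ∑ k, d k = 2 * m) : (∃ e : ((k : Fin t) × Fin (d k)) ≃ (Fin m ⊕ Fin m), ∃ A : Matrix.symplecticGroup (Fin m) F, IsConj (Matrix.reindex e e (Cfsg.jordanTypeMatrix d F)) (A : Matrix (Fin m ⊕ Fin m) (Fin m ⊕ Fin m) F)) ↔ ∀ j : ℕ, Odd j → Even (Finset.univ.filter (fun k : Fin t => d k = j)).card := by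
  simp only [Cl.SpO.card_filter_eq_count]
  constructor
  · rintro ⟨e, A, h⟩ j hj
    rw [Cl.Cls.isConj_iff_edM_eq, Cl.Cls.edM_reindex, Cl.Cls.edM_jordanTypeMatrix hd] at h
    exact Cl.SpO.even_count_alt Cl.spB_nondegenerate Cl.spB_isAlt (Cl.SpO.isIsom_specSp A)
      h.symm hj
  · intro h
    obtain ⟨A, hA⟩ := (Cl.SpO.rlz_unip_sp (F := F) (Finset.univ.val.map d) (fun j hj => by
      obtain ⟨k, -, rfl⟩ := Multiset.mem_map.1 hj
      exact hd k) h).exists_sp (m := m) (by rw [Cl.Cls.sum_natDegree_jt, ← hsum]; rfl)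
    refine ⟨Fintype.equivOfCardEq (by simp [hsum, two_mul]), A, ?_⟩
    rw [Cl.Cls.isConj_iff_edM_eq, Cl.Cls.edM_reindex, Cl.Cls.edM_jordanTypeMatrix hd, hA]

end Cfsg.Agent.S2582
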