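import Mathlib
import Cfsg.Statements.S2592
import Cfsg.Agent.Cl.ClassSpOReg

set_option autoImplicit false
open Cfsg

namespace Cfsg.Agent.S2592

/-- Over a finite field with q elements, q odd, the centraliser in Sp_2m(F) (m ≥ 1) of a regular unipotent element (u − 1 nilpotent of rank 2m − 1) has order 2 q^m. -/
theorem result {F : Type*} [Field F] [Fintype F] {q : ℕ} (hF : Fintype.card F = q) (hq : Odd q) {m : ℕ} (hm : 1 ≤ m) (u : Matrix.symplecticGroup (Fin m) F) (hnil : ((u : Matrix (Fin m ⊕ Fin m) (Fin m ⊕ Fin m) F) - 1) ^ (2 * m) = 0) (hreg : ((u : Matrix (Fin m ⊕ Fin m) (Fin m ⊕ Fin m) F) - 1).rank = 2 * m - 1) : Nat.card ↥(Subgroup.centralizer ({u} : Set ↥(Matrix.symplecticGroup (Fin m) F))) = 2 * q ^ m := by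
  subst hF
  have := Cl.Cls.regular_iff_edM (u : Matrix (Fin m ⊕ Fin m) (Fin m ⊕ Fin m) F) (by simp; omega)
  rw [Fintype.card_sum, Fintype.card_fin, ← two_mul] at this
  have he : Cl.Cls.ed (Cl.specSp F m u) = _ := this.1 ⟨hnil, hreg⟩
  obtain ⟨k, rfl⟩ : ∃ k, m = k + 1 := ⟨m - 1, by omega⟩
  rw [Cl.SpO.card_centralizer_sp, ← Nat.card_eq_fintype_card]
  exact Cl.SpO.card_centralizer_regular (Cl.o_two_ne_zero_of_odd_card hq) Cl.spB_nondegenerate
    (Cl.SpO.isEps_of_isAlt Cl.spB_isAlt) (by ring) (Cl.SpO.isIsom_specSp u) Cl.sp_finrank_std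
    ((Cl.SpO.pow_eq_zero_iff_of_jt he _).2 (by simp; omega))
    (by rw [Ne, Cl.SpO.pow_eq_zero_iff_of_jt he]; simp; omega)

end Cfsg.Agent.S2592
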