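import Mathlib
import Cfsg.Statements.S2594
import Cfsg.Agent.Cl.ClassSpOInv

set_option autoImplicit false
open Cfsg

namespace Cfsg.Agent.S2594

/-- Over a finite field with q elements, q even, an element t of Sp_2m(F) with rank(t − 1) = 1 (a symplectic transvection) has centraliser in Sp_2m(F) of order q^(2m−1) · |Sp_(2m−2)(q)| = q^(2m−1) · q^((m−1)²) · Π_(i=1)^(m−1) (q^(2i) − 1). -/
theorem result {F : Type*} [Field F] [Fintype F] [CharP F 2] {q : ℕ} (hF : Fintype.card F = q) {m : ℕ} (hm : 1 ≤ m) (t : Matrix.symplecticGroup (Fin m) F) (ht : ((t : Matrix (Fin m ⊕ Fin m) (Fin m ⊕ Fin m) F) - 1).rank = 1) : Nat.card ↥(Subgroup.centralizer ({t} : Set ↥(Matrix.symplecticGroup (Fin m) F))) = q ^ (2 * m - 1) * (q ^ ((m - 1) ^ 2) * ∏ i : Fin (m - 1), (q ^ (2 * ((i : ℕ) + 1)) - 1)) := by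
  have hA := Cl.spB_isAlt (m := m) (R := F)
  have hB := Cl.spB_nondegenerate (m := m) (R := F)
  let e := Cl.spStdEquiv m F
  have hr := (Cl.SpO.finrank_res_eq_rank t.1 (g := (e t).1) fun _ => rfl).trans ht
  have ha' := Cl.SpO.invol_of_rank_one hB hA (e t).2 hr
  obtain ⟨j, rfl⟩ : ∃ j, m = 1 + j := ⟨m - 1, by omega⟩
  rw [← Cl.SpO.card_centralizer_congr e, Cl.SpO.inv_card_centralizer_sp hB hA _ ha' hr
    Cl.sp_finrank_std, Cl.SpO.card_symm_odd (k := 0) (Cl.SpO.wallB_nondeg hB (e t).2)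
    (Cl.SpO.inv_wall_isSymm hA (e t).2 ha') hr, Cl.SpO.spOrd_zero, ← Cl.SpO.spOrd_eq_fin,
    Nat.card_eq_fintype_card, hF, mul_one, show 1 + j - 1 = j by omega,
    show 2 * (1 + j) - 1 = 1 * (1 + 1) / 2 + 2 * 1 * j by omega]

end Cfsg.Agent.S2594
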