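import Mathlib
import Cfsg.Statements.S2599
import Cfsg.Agent.Cl.ClassSpOInvO

set_option autoImplicit false
open Cfsg

namespace Cfsg.Agent.S2599

/-- An irreducible invariant subspace of a semisimple isometry is non-degenerate or totally singular: let Q be a quadratic form on F^n (F finite of characteristic p) with non-degenerate polar form f, x an isometry of Q of order prime to p, and U a non-zero x-invariant subspace containing no x-invariant subspace other than 0 and U. Then U meets its f-orthogonal trivially, or Q vanishes on U, or p = 2, U is a line spanned by a non-singular vector and x fixes U pointwise. -/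
theorem result {F : Type*} [Field F] [Fintype F] {p : ℕ} [Fact p.Prime] [CharP F p] {n : ℕ} (Q : QuadraticForm F (Fin n → F)) (hQ : (QuadraticMap.polarBilin Q).Nondegenerate) (x : ↥(Cfsg.isometryGroup F ⇑Q)) (hx : (orderOf x).Coprime p) (U : Submodule F (Fin n → F)) (hU0 : U ≠ ⊥) (hUx : ∀ u ∈ U, ((x : Matrix.GeneralLinearGroup (Fin n) F) : Matrix (Fin n) (Fin n) F).mulVec u ∈ U) (hirr : ∀ W : Submodule F (Fin n → F), W ≤ U → (∀ w ∈ W, ((x : Matrix.GeneralLinearGroup (Fin n) F) : Matrix (Fin n) (Fin n) F).mulVec w ∈ W) → W = ⊥ ∨ W = U) : U ⊓ LinearMap.BilinForm.orthogonal (QuadraticMap.polarBilin Q) U = ⊥ ∨ (∀ u ∈ U, Q u = 0) ∨ (p = 2 ∧ Module.finrank F U = 1 ∧ (∃ u ∈ U, Q u ≠ 0) ∧ ∀ u ∈ U, ((x : Matrix.GeneralLinearGroup (Fin n) F) : Matrix (Fin n) (Fin n) F).mulVec u = u) := by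
  let g := Cl.omatEquiv Q x
  have hsurj : ∀ u ∈ U, ∃ w ∈ U, g.1 w = u := fun u hu =>
    ⟨g.1.symm u, (Cl.SpO.mem_stabSub.1 (Cl.SpO.mem_stabSub_of_mapsTo (h := g.1) hUx) _).1
      (by simpa using hu), by simp⟩
  rcases hirr (U ⊓ LinearMap.BilinForm.orthogonal (QuadraticMap.polarBilin Q) U) inf_le_left
    (fun w hw => ⟨hUx w hw.1, fun u hu => by
      obtain ⟨u', hu', rfl⟩ := hsurj u hu
      exact (Cl.OG.polar_app g u' w).trans (hw.2 u' hu')⟩) with h | h
  · exact Or.inl h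
  have hUU : ∀ u ∈ U, ∀ v ∈ U, QuadraticMap.polarBilin Q u v = 0 := fun u hu v hv =>
    (h.ge hv).2 u hu
  by_cases hQU : ∀ u ∈ U, Q u = 0
  · exact Or.inr (Or.inl hQU)
  push Not at hQU
  obtain ⟨u₀, hu₀, hQu₀⟩ := hQU
  have h2 : (2 : F) = 0 := by
    have := hUU u₀ hu₀ u₀ hu₀
    rw [QuadraticMap.polarBilin_apply_apply, Cl.o_polar_self] at this
    exact (mul_eq_zero.1 this).resolve_right hQu₀
  have hp : p = 2 := (Nat.prime_dvd_prime_iff_eq Fact.out Nat.prime_two).1
    ((CharP.cast_eq_zero_iff F p 2).1 h2)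
  subst hp
  obtain ⟨l, hl⟩ := Cl.SpO.o_exists_sqrt U hUU
  have hlx : ∀ u (hu : u ∈ U), l ⟨g.1 u, hUx u hu⟩ = l ⟨u, hu⟩ := fun u hu =>
    Cl.SpO.sq_injective_charTwo (by rw [hl, hl]; exact g.2 u)
  have hker : (LinearMap.ker l).map U.subtype = ⊥ := by
    refine (hirr _ (Submodule.map_subtype_le _ _) ?_).resolve_right fun h' => hQu₀ ?_
    · rintro _ ⟨u, hu, rfl⟩
      exact ⟨⟨g.1 u, hUx u u.2⟩, (hlx u u.2).trans hu, rfl⟩
    · obtain ⟨u, hu, rfl⟩ := h'.ge hu₀
      rw [Submodule.subtype_apply, ← hl, LinearMap.mem_ker.1 hu]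
      simp
  have hinj : Function.Injective l := by
    rw [← LinearMap.ker_eq_bot]
    exact (Submodule.map_injective_of_injective U.subtype_injective (by simpa using hker))
  refine Or.inr (Or.inr ⟨rfl, le_antisymm ?_ ?_, ⟨u₀, hu₀, hQu₀⟩, fun u hu => ?_⟩)
  · simpa using LinearMap.finrank_le_finrank_of_injective hinj
  · exact Nat.one_le_iff_ne_zero.2 fun h0 => hU0 (Submodule.finrank_eq_zero.1 h0)
  · exact congrArg Subtype.val (hinj (hlx u hu))

end Cfsg.Agent.S2599
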