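import Mathlib
import Cfsg.Statements.S2611
import Cfsg.Agent.Cl.QuadOmega

set_option autoImplicit false
open Cfsg

namespace Cfsg.Agent.S2611

open Cfsg.Agent.Cl QuadraticMap


/-- For the hyperbolic quadratic form Σ x_i y_i on F^(2m) (F finite, m ≥ 1, excluding m = 2 over the field of two elements) and an invertible m × m matrix A, the block-diagonal isometry diag(A, (A⁻¹)ᵀ), which stabilises the two maximal totally singular subspaces x = 0 and y = 0, lies in Ω⁺_2m(F) (the commutator subgroup of the orthogonal group) if and only if det A is a square in F. -/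
theorem result {F : Type*} [Field F] [Fintype F] {m : ℕ} (hm : 1 ≤ m) (h : Fintype.card F ≠ 2 ∨ m ≠ 2) (A : GL (Fin m) F) : (∃ g : ↥(Cfsg.isometryGroup F (Cfsg.quadFormPlus m F)), g ∈ Cfsg.Omega F (Cfsg.quadFormPlus m F) ∧ ((g : Matrix.GeneralLinearGroup (Fin m ⊕ Fin m) F) : Matrix (Fin m ⊕ Fin m) (Fin m ⊕ Fin m) F) = Matrix.fromBlocks (A : Matrix (Fin m) (Fin m) F) 0 0 ((A : Matrix (Fin m) (Fin m) F)⁻¹).transpose) ↔ IsSquare (A : Matrix (Fin m) (Fin m) F).det := by
  refine (quad_exists_mat_mem_iff (P := quad_plus m F) (quad_levi m F A) _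
    (fun v => (quad_levi_app A v).symm)).trans ?_
  rw [mem_commutator_OG_iff quad_plus_nondeg (quad_not_oExc (h.imp_right fun h h' => h (by
    rw [o_finrank_plus] at h'; omega))), (quad_levi_invariants A).1, (quad_levi_invariants A).2,
    sqSign_eq_one_iff]
  simp

end Cfsg.Agent.S2611
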