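import Mathlib
import Cfsg.Statements.S2612
import Cfsg.Agent.Cl.QuadParity

set_option autoImplicit false
open Cfsg

namespace Cfsg.Agent.S2612

open Cfsg.Agent.Cl QuadraticMap


/-- For the hyperbolic quadratic form Σ x_i y_i on F^(2m) (F finite, m ≥ 1, excluding m = 2 over the field of two elements), Ω⁺_2m(F) (the commutator subgroup of the orthogonal group) contains an element interchanging the two complementary maximal totally singular subspaces {y = 0} and {x = 0} if and only if m is even (dimension divisible by 4). -/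
theorem result {F : Type*} [Field F] [Fintype F] {m : ℕ} (hm : 1 ≤ m) (h : Fintype.card F ≠ 2 ∨ m ≠ 2) : (∃ g : ↥(Cfsg.isometryGroup F (Cfsg.quadFormPlus m F)), g ∈ Cfsg.Omega F (Cfsg.quadFormPlus m F) ∧ (∀ v : Fin m ⊕ Fin m → F, (∀ i, v (Sum.inr i) = 0) → ∀ i, (((g : Matrix.GeneralLinearGroup (Fin m ⊕ Fin m) F) : Matrix (Fin m ⊕ Fin m) (Fin m ⊕ Fin m) F).mulVec v) (Sum.inl i) = 0) ∧ (∀ v : Fin m ⊕ Fin m → F, (∀ i, v (Sum.inl i) = 0) → ∀ i, (((g : Matrix.GeneralLinearGroup (Fin m ⊕ Fin m) F) : Matrix (Fin m ⊕ Fin m) (Fin m ⊕ Fin m) F).mulVec v) (Sum.inr i) = 0)) ↔ Even m := by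
  have hexc : ¬ OExc (quad_plus m F) := quad_not_oExc (h.imp_right fun h h' => h (by
    rw [o_finrank_plus] at h'; omega))
  constructor
  · rintro ⟨g, hg, h1, -⟩
    have h2 := ((mem_Omega_iff (P := quad_plus m F) quad_plus_nondeg hexc g).1 hg).1
    rw [quad_dickson_eq_one_iff_even quad_plus_nondeg hexc quad_plusU_singular
      (by rw [quad_finrank_plusU, o_finrank_plus]), quad_finrank_plusU] at h2
    have : quad_plusU m F ⊓ (quad_plusU m F).map
        ((omatEquiv (quad_plus m F) g).1 : (Fin m ⊕ Fin m → F) →ₗ[F] (Fin m ⊕ Fin m → F)) = ⊥ := by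
      rw [Submodule.eq_bot_iff]
      rintro _ ⟨h3, v, hv, rfl⟩
      ext (i | i)
      · exact h1 v (quad_mem_plusU.1 hv) i
      · exact quad_mem_plusU.1 h3 i
    rw [this] at h2
    simpa using h2
  · intro he
    let b : Fin m → (Fin m ⊕ Fin m → F) := fun i => Pi.single (.inl i) 1 - Pi.single (.inr i) 1
    have hb : ∀ i j, i ≠ j → polar (quad_plus m F) (b i) (b j) = 0 := by
      intro i j hij
      simp [b, o_polar_plus, Pi.single_apply, hij, hij.symm]
    have hbq : ∀ i, quad_plus m F (b i) = -1 := by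
      intro i
      simp [b, quad_plus_apply, Pi.single_apply]
    obtain ⟨l, h1, h2, h3, h4⟩ := quad_exists_list_orth b hb
    have hmem : (l.map (orefl (quad_plus m F))).prod ∈ commutator (OG (quad_plus m F)) := by
      rw [prod_orefl_mem_commutator_iff quad_plus_nondeg hexc
        (fun v hv => by obtain ⟨i, rfl⟩ := h1 v hv; simp [hbq]), h2, h3]
      simp [hbq, he, he.neg_one_pow]
    obtain ⟨g, hg⟩ := (omatEquiv (quad_plus m F)).surjective (l.map (orefl (quad_plus m F))).prod
    rw [← hg] at hmem h4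
    refine ⟨g, (omatEquiv_mem_commutator_iff g).1 hmem, fun v hv i => ?_, fun v hv i => ?_⟩
    · have := congrFun (h4 v) (.inl i)
      rw [omatEquiv_app] at this
      refine this.trans ?_
      simp [hbq, b, o_polar_plus, Pi.single_apply, hv, Finset.sum_apply]
    · have := congrFun (h4 v) (.inr i)
      rw [omatEquiv_app] at this
      refine this.trans ?_
      simp [hbq, b, o_polar_plus, Pi.single_apply, hv, Finset.sum_apply]

end Cfsg.Agent.S2612
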