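import Mathlib
import Cfsg.Statements.S2613
import Cfsg.Agent.Cl.QuadOmega

set_option autoImplicit false
open Cfsg

namespace Cfsg.Agent.S2613

open Cfsg.Agent.Cl QuadraticMap


/-- For the hyperbolic form Σ x_j y_j on F^(2m), F finite with q elements, q odd, and 1 ≤ i ≤ m: the involution negating the first i hyperbolic pairs (x_j, y_j ↦ −x_j, −y_j for j < i) and fixing the rest lies in Ω⁺_2m(q) (commutator subgroup of the orthogonal group) if and only if q^i ≡ 1 (mod 4); its (−1)-eigenspace is a hyperbolic 2i-space. -/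
theorem result {F : Type*} [Field F] [Fintype F] {q : ℕ} (hF : Fintype.card F = q) (hq : Odd q) {m : ℕ} (i : ℕ) (hi : 1 ≤ i) (him : i ≤ m) : (∃ g : ↥(Cfsg.isometryGroup F (Cfsg.quadFormPlus m F)), g ∈ Cfsg.Omega F (Cfsg.quadFormPlus m F) ∧ ((g : Matrix.GeneralLinearGroup (Fin m ⊕ Fin m) F) : Matrix (Fin m ⊕ Fin m) (Fin m ⊕ Fin m) F) = Matrix.diagonal (fun k : Fin m ⊕ Fin m => if (Sum.elim (fun j : Fin m => (j : ℕ)) (fun j : Fin m => (j : ℕ)) k) < i then (-1 : F) else 1)) ↔ q ^ i % 4 = 1 := by
  subst hF
  have h2 := quad_two_ne_zero_of_odd hq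
  set D : Matrix (Fin m ⊕ Fin m) (Fin m ⊕ Fin m) F := Matrix.diagonal (fun k : Fin m ⊕ Fin m =>
    if (Sum.elim (fun j : Fin m => (j : ℕ)) (fun j : Fin m => (j : ℕ)) k) < i then (-1 : F) else 1)
    with hD
  have hDD : D * D = 1 := by
    rw [hD, Matrix.diagonal_mul_diagonal, ← Matrix.diagonal_one]
    congr 1; ext k; split_ifs <;> simp
  have hP : ∀ v, quad_plus m F (D.mulVec v) = quad_plus m F v := by
    intro v
    simp only [quad_plus_apply, hD, Matrix.mulVec_diagonal, Sum.elim_inl, Sum.elim_inr]
    refine Finset.sum_congr rfl fun j _ => ?_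
    by_cases h : (j : ℕ) < i <;> simp [h]
  have hfam : QuadHypFamily (quad_plus m F)
      (fun j : Fin i => Pi.single (.inl (Fin.castLE him j)) 1)
      (fun j : Fin i => Pi.single (.inr (Fin.castLE him j)) 1) := by
    constructor <;> intros <;> simp [quad_plus_apply, o_polar_plus, Pi.single_apply, eq_comm]
  refine (quad_exists_mat_mem_iff (P := quad_plus m F) (quad_ofInvol _ D hDD hP) D
    fun v => rfl).trans ?_
  rw [hfam.neg_mem_iff h2 quad_plus_nondeg, Fintype.card_fin, quad_isSquare_neg_one_pow_iff _ hq]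
  · intro j
    ext k
    simp only [quad_ofInvol_app, hD, Matrix.mulVec_diagonal, Pi.neg_apply, Pi.single_apply]
    split_ifs with h1 h3 h3
    · simp
    · simp
    · subst h3; exact absurd j.2 h1
    · simp
  · intro j
    ext k
    simp only [quad_ofInvol_app, hD, Matrix.mulVec_diagonal, Pi.neg_apply, Pi.single_apply]
    split_ifs with h1 h3 h3
    · simp
    · simp
    · subst h3; exact absurd j.2 h1
    · simp
  · intro x hx
    ext k
    simp only [quad_ofInvol_app, hD, Matrix.mulVec_diagonal]
    split_ifs with h1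
    · rcases k with k | k
      · have : x (.inl k) = 0 := by
          have h := (hx ⟨k, h1⟩).2
          simp [o_polar_plus, Pi.single_apply] at h
          exact h
        simp [this]
      · have : x (.inr k) = 0 := by
          have h := (hx ⟨k, h1⟩).1
          simp [o_polar_plus, Pi.single_apply] at h
          exact h
        simp [this]
    · simp

end Cfsg.Agent.S2613
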