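import Mathlib
import Cfsg.Statements.S2614
import Cfsg.Agent.Cl.QuadOmega

set_option autoImplicit false
open Cfsg

namespace Cfsg.Agent.S2614

open Cfsg.Agent.Cl QuadraticMap


/-- For the form x_0² + Σ x_j y_j on F^(2m+1), F finite with q elements, q odd, and 1 ≤ i ≤ m: the involution of determinant one negating the first i hyperbolic pairs (and fixing x_0 and the other pairs) lies in Ω_(2m+1)(q) (commutator subgroup of the orthogonal group) if and only if q^i ≡ 1 (mod 4); its (−1)-eigenspace is a hyperbolic 2i-space. -/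
theorem result {F : Type*} [Field F] [Fintype F] {q : ℕ} (hF : Fintype.card F = q) (hq : Odd q) {m : ℕ} (i : ℕ) (hi : 1 ≤ i) (him : i ≤ m) : (∃ g : ↥(Cfsg.isometryGroup F (Cfsg.quadFormOdd m F)), g ∈ Cfsg.Omega F (Cfsg.quadFormOdd m F) ∧ ((g : Matrix.GeneralLinearGroup (Unit ⊕ (Fin m ⊕ Fin m)) F) : Matrix (Unit ⊕ (Fin m ⊕ Fin m)) (Unit ⊕ (Fin m ⊕ Fin m)) F) = Matrix.diagonal (fun k : Unit ⊕ (Fin m ⊕ Fin m) => if (Sum.elim (fun _ : Unit => i) (Sum.elim (fun j : Fin m => (j : ℕ)) (fun j : Fin m => (j : ℕ))) k) < i then (-1 : F) else 1)) ↔ q ^ i % 4 = 1 := by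
  subst hF
  have h2 := quad_two_ne_zero_of_odd hq
  set D : Matrix (Unit ⊕ (Fin m ⊕ Fin m)) (Unit ⊕ (Fin m ⊕ Fin m)) F :=
    Matrix.diagonal (fun k : Unit ⊕ (Fin m ⊕ Fin m) => if (Sum.elim (fun _ : Unit => i) (Sum.elim (fun j : Fin m => (j : ℕ)) (fun j : Fin m => (j : ℕ))) k) < i then (-1 : F) else 1)
    with hD
  have hDD : D * D = 1 := by
    rw [hD, Matrix.diagonal_mul_diagonal, ← Matrix.diagonal_one]
    congr 1; ext k; split_ifs <;> simp
  have hP : ∀ v, quad_odd m F (D.mulVec v) = quad_odd m F v := by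
    intro v
    simp only [quad_odd_apply, hD, Matrix.mulVec_diagonal, Sum.elim_inl, Sum.elim_inr]
    congr 1
    · simp
    refine Finset.sum_congr rfl fun j _ => ?_
    by_cases h : (j : ℕ) < i <;> simp [h]
  have hfam : QuadHypFamily (quad_odd m F)
      (fun j : Fin i => Pi.single (.inr (.inl (Fin.castLE him j))) 1)
      (fun j : Fin i => Pi.single (.inr (.inr (Fin.castLE him j))) 1) := by
    constructor <;> intros <;> simp [quad_odd_apply, o_polar_odd, Pi.single_apply, eq_comm]
  refine (quad_exists_mat_mem_iff (P := quad_odd m F) (quad_ofInvol _ D hDD hP) D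
    fun v => rfl).trans ?_
  rw [hfam.neg_mem_iff h2 (quad_odd_nondeg h2), Fintype.card_fin,
    quad_isSquare_neg_one_pow_iff _ hq]
  · intro j
    ext k
    simp only [quad_ofInvol_app, hD, Matrix.mulVec_diagonal, Pi.neg_apply, Pi.single_apply]
    split_ifs with h1 h3 h3
    · simp
    · simp
    · subst h3; exact absurd j.2 h1
    · simp
  · intro j
    ext k
    simp only [quad_ofInvol_app, hD, Matrix.mulVec_diagonal, Pi.neg_apply, Pi.single_apply]
    split_ifs with h1 h3 h3
    · simp
    · simp
    · subst h3; exact absurd j.2 h1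
    · simp
  · intro x hx
    ext k
    simp only [quad_ofInvol_app, hD, Matrix.mulVec_diagonal]
    split_ifs with h1
    · rcases k with k | k | k
      · simp at h1
      · have : x (.inr (.inl k)) = 0 := by
          have h := (hx ⟨k, h1⟩).2
          simp [o_polar_odd, Pi.single_apply] at h
          exact h
        simp [this]
      · have : x (.inr (.inr k)) = 0 := by
          have h := (hx ⟨k, h1⟩).1
          simp [o_polar_odd, Pi.single_apply] at h
          exact h
        simp [this]
    · simp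

end Cfsg.Agent.S2614
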