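import Mathlib
import Cfsg.Statements.S2615
import Cfsg.Agent.Cl.QuadOmega

set_option autoImplicit false
open Cfsg

namespace Cfsg.Agent.S2615

open Cfsg.Agent.Cl QuadraticMap


/-- For an elliptic form Σ_(j<m−1) x_j y_j + (z₁² + a z₁z₂ + b z₂²) (anisotropic binary part) on F^(2m), F finite with q elements, q odd, and 1 ≤ i ≤ m − 1: the involution negating the first i hyperbolic pairs and fixing the rest lies in Ω⁻_2m(q) (commutator subgroup of the orthogonal group) if and only if q^i ≡ 1 (mod 4). -/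
theorem result {F : Type*} [Field F] [Fintype F] {q : ℕ} (hF : Fintype.card F = q) (hq : Odd q) {m : ℕ} (a b : F) (hab : ∀ z₁ z₂ : F, z₁ ^ 2 + a * z₁ * z₂ + b * z₂ ^ 2 = 0 → z₁ = 0 ∧ z₂ = 0) (i : ℕ) (hi : 1 ≤ i) (him : i + 1 ≤ m) : (∃ g : ↥(Cfsg.isometryGroup F (Cfsg.quadFormMinus (m - 1) F a b)), g ∈ Cfsg.Omega F (Cfsg.quadFormMinus (m - 1) F a b) ∧ ((g : Matrix.GeneralLinearGroup ((Fin (m - 1) ⊕ Fin (m - 1)) ⊕ Fin 2) F) : Matrix ((Fin (m - 1) ⊕ Fin (m - 1)) ⊕ Fin 2) ((Fin (m - 1) ⊕ Fin (m - 1)) ⊕ Fin 2) F) = Matrix.diagonal (fun k : (Fin (m - 1) ⊕ Fin (m - 1)) ⊕ Fin 2 => if (Sum.elim (Sum.elim (fun j : Fin (m - 1) => (j : ℕ)) (fun j : Fin (m - 1) => (j : ℕ))) (fun _ : Fin 2 => i) k) < i then (-1 : F) else 1)) ↔ q ^ i % 4 = 1 := by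
  subst hF
  have h2 := quad_two_ne_zero_of_odd hq
  have him' : i ≤ m - 1 := by omega
  generalize m - 1 = n at him' ⊢
  set D : Matrix ((Fin n ⊕ Fin n) ⊕ Fin 2) ((Fin n ⊕ Fin n) ⊕ Fin 2) F :=
    Matrix.diagonal (fun k : (Fin n ⊕ Fin n) ⊕ Fin 2 => if (Sum.elim (Sum.elim (fun j : Fin n => (j : ℕ)) (fun j : Fin n => (j : ℕ))) (fun _ : Fin 2 => i) k) < i then (-1 : F) else 1)
    with hD
  have hDD : D * D = 1 := by
    rw [hD, Matrix.diagonal_mul_diagonal, ← Matrix.diagonal_one]
    congr 1; ext k; split_ifs <;> simp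
  have hP : ∀ v, quad_minus n F a b (D.mulVec v) = quad_minus n F a b v := by
    intro v
    simp only [quad_minus_apply, hD, Matrix.mulVec_diagonal, Sum.elim_inl, Sum.elim_inr]
    congr 1
    · refine Finset.sum_congr rfl fun j _ => ?_
      by_cases h : (j : ℕ) < i <;> simp [h]
    · simp
  have hfam : QuadHypFamily (quad_minus n F a b)
      (fun j : Fin i => Pi.single (.inl (.inl (Fin.castLE him' j))) 1)
      (fun j : Fin i => Pi.single (.inl (.inr (Fin.castLE him' j))) 1) := by
    constructor <;> intros <;> simp [quad_minus_apply, o_polar_minus, Pi.single_apply, eq_comm]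
  refine (quad_exists_mat_mem_iff (P := quad_minus n F a b) (quad_ofInvol _ D hDD hP) D
    fun v => rfl).trans ?_
  rw [hfam.neg_mem_iff h2 (o_minus_nondeg hab), Fintype.card_fin,
    quad_isSquare_neg_one_pow_iff _ hq]
  · intro j
    ext k
    simp only [quad_ofInvol_app, hD, Matrix.mulVec_diagonal, Pi.neg_apply, Pi.single_apply]
    split_ifs with h1 h3 h3
    · simp
    · simp
    · subst h3; exact absurd j.2 h1
    · simp
  · intro j
    ext k
    simp only [quad_ofInvol_app, hD, Matrix.mulVec_diagonal, Pi.neg_apply, Pi.single_apply]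
    split_ifs with h1 h3 h3
    · simp
    · simp
    · subst h3; exact absurd j.2 h1
    · simp
  · intro x hx
    ext k
    simp only [quad_ofInvol_app, hD, Matrix.mulVec_diagonal]
    split_ifs with h1
    · rcases k with (k | k) | k
      · have : x (.inl (.inl k)) = 0 := by
          have h := (hx ⟨k, h1⟩).2
          simp [o_polar_minus, Pi.single_apply] at h
          exact h
        simp [this]
      · have : x (.inl (.inr k)) = 0 := by
          have h := (hx ⟨k, h1⟩).1
          simp [o_polar_minus, Pi.single_apply] at h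
          exact h
        simp [this]
      · simp at h1
    · simp

end Cfsg.Agent.S2615
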