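import Mathlib
import Cfsg.Statements.S2620
import Cfsg.Agent.Cl.QuadDisc

set_option autoImplicit false
open Cfsg

namespace Cfsg.Agent.S2620

open Cfsg.Agent.Cl QuadraticMap


/-- Discriminant of the hyperbolic quadratic form Σ_(i<m) x_i y_i over a field with q elements, q odd, m ≥ 1: the determinant of the Gram matrix of its polar form in any basis is a square if and only if m(q − 1)/2 is even (equivalently q^m ≡ 1 (mod 4)). -/
theorem result {F : Type*} [Field F] [Fintype F] {q : ℕ} (hF : Fintype.card F = q) (hq : Odd q) {m : ℕ} (hm : 1 ≤ m) {ι : Type*} [Fintype ι] [DecidableEq ι] (b : Module.Basis ι F (Fin m ⊕ Fin m → F)) : IsSquare (Matrix.of (fun i j : ι => QuadraticMap.polar (Cfsg.quadFormPlus m F) (b i) (b j))).det ↔ Even (m * (q - 1) / 2) := by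
  subst hF
  obtain ⟨s, hs, h⟩ := quad_disc_change (quad_plus m F) (Pi.basisFun F _) b
  have h' : quad_disc (quad_plus m F) (Pi.basisFun F (Fin m ⊕ Fin m)) = (-1) ^ m := by
    rw [← quad_disc_plus m]; congr 1; ext1 i; simp
  change IsSquare (quad_disc (quad_plus m F) b) ↔ _
  rw [h, h', quad_isSquare_sq_mul hs, quad_isSquare_neg_one_pow_iff m hq]
  obtain ⟨k, hk⟩ := hq
  rw [hk, Nat.add_sub_cancel, mul_left_comm, Nat.mul_div_cancel_left _ two_pos, Nat.even_mul]
  rcases Nat.even_or_odd' k with ⟨l, rfl | rfl⟩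
  · have : (2 * (2 * l) + 1) % 4 = 1 := by omega
    simp [Nat.pow_mod, this]
  · have : (2 * (2 * l + 1) + 1) % 4 = 3 := by omega
    rcases Nat.even_or_odd' m with ⟨j, rfl | rfl⟩
    · simp [Nat.pow_mod, this, pow_mul]
    · simp [pow_succ, Nat.mul_mod, Nat.pow_mod, this, pow_mul]

end Cfsg.Agent.S2620
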