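import Mathlib
import Cfsg.Statements.S2621
import Cfsg.Agent.Cl.QuadDisc

set_option autoImplicit false
open Cfsg

namespace Cfsg.Agent.S2621

open Cfsg.Agent.Cl QuadraticMap


/-- Discriminant of an elliptic quadratic form Σ_(i<m−1) x_i y_i + z₁² + a z₁z₂ + c z₂² (binary part anisotropic) in dimension 2m over a field with q elements, q odd, m ≥ 1: the determinant of the Gram matrix of its polar form in any basis is a square if and only if m(q − 1)/2 is odd (equivalently q^m ≡ 3 (mod 4)). -/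
theorem result {F : Type*} [Field F] [Fintype F] {q : ℕ} (hF : Fintype.card F = q) (hq : Odd q) {m : ℕ} (hm : 1 ≤ m) (a c : F) (hac : ∀ z₁ z₂ : F, z₁ ^ 2 + a * z₁ * z₂ + c * z₂ ^ 2 = 0 → z₁ = 0 ∧ z₂ = 0) {ι : Type*} [Fintype ι] [DecidableEq ι] (b : Module.Basis ι F ((Fin (m - 1) ⊕ Fin (m - 1)) ⊕ Fin 2 → F)) : IsSquare (Matrix.of (fun i j : ι => QuadraticMap.polar (Cfsg.quadFormMinus (m - 1) F a c) (b i) (b j))).det ↔ ¬ Even (m * (q - 1) / 2) := by
  subst hF
  have h2 := quad_two_ne_zero_of_odd hq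
  rw [quad_aniso_iff] at hac
  obtain ⟨s, hs, h⟩ := quad_disc_change (quad_minus (m - 1) F a c) (Pi.basisFun F _) b
  have h' : quad_disc (quad_minus (m - 1) F a c) (Pi.basisFun F _) =
      (-1) ^ m * (a ^ 2 - 4 * c) := by
    have := quad_disc_minus (m - 1) a c
    rw [Nat.sub_add_cancel hm] at this
    rw [← this]; congr 1; ext1 i; simp
  change IsSquare (quad_disc (quad_minus (m - 1) F a c) b) ↔ _
  rw [h, h', quad_isSquare_sq_mul hs, quad_isSquare_mul_iff (pow_ne_zero _ (by simp))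
    (quad_aniso_disc_ne_zero hac), iff_false_intro (quad_aniso_disc_not_isSquare h2 hac),
    iff_false, quad_isSquare_neg_one_pow_iff m hq, not_iff_not]
  obtain ⟨k, hk⟩ := hq
  rw [hk, Nat.add_sub_cancel, mul_left_comm, Nat.mul_div_cancel_left _ two_pos, Nat.even_mul]
  rcases Nat.even_or_odd' k with ⟨l, rfl | rfl⟩
  · have : (2 * (2 * l) + 1) % 4 = 1 := by omega
    simp [Nat.pow_mod, this]
  · have : (2 * (2 * l + 1) + 1) % 4 = 3 := by omega
    rcases Nat.even_or_odd' m with ⟨j, rfl | rfl⟩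
    · simp [Nat.pow_mod, this, pow_mul]
    · simp [pow_succ, Nat.mul_mod, Nat.pow_mod, this, pow_mul]

end Cfsg.Agent.S2621
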