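import Mathlib
import Cfsg.Statements.S2622
import Cfsg.Agent.Cl.QuadClassify

set_option autoImplicit false
open Cfsg

namespace Cfsg.Agent.S2622

universe u

theorem exists_family {F : Type*} [Field F] [Finite F] [CharP F 2] (n : ℕ) :
    ∀ (V : Type u) [AddCommGroup V] [Module F V] [FiniteDimensional F V],
      Module.finrank F V = n → ∀ (B : LinearMap.BilinForm F V), B.IsSymm → B.Nondegenerate →
      (n ≠ 0 → ∃ v : V, B v v ≠ 0) →
      ∃ b : Fin n → V, ∀ i j, B (b i) (b j) = if i = j then 1 else 0 := by
  have h2 : (2 : F) = 0 := CharTwo.two_eq_zero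
  induction n with
  | zero => intro V _ _ _ _ B _ _ _; exact ⟨Fin.elim0, fun i => i.elim0⟩
  | succ n ih =>
    intro V _ _ _ hV B hS hB hna
    have hsym : ∀ x y, B x y = B y x := fun x y => hS.eq x y
    obtain ⟨v₀, hv₀⟩ := hna n.succ_ne_zero
    obtain ⟨s, hs⟩ := Cl.quad_isSquare_of_two_eq_zero h2 (B v₀ v₀)
    have hs0 : s ≠ 0 := by rintro rfl; exact hv₀ (by simpa using hs)
    have hv₁ : B (s⁻¹ • v₀) (s⁻¹ • v₀) = 1 := by
      simp only [map_smul, LinearMap.smul_apply, smul_eq_mul, hs]
      field_simp
    have hdim : ∀ v : V, B v v = 1 → Module.finrank F (B.orthogonal (F ∙ v)) = n := by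
      intro v hv
      have hv0 : v ≠ 0 := by rintro rfl; simp at hv
      rw [LinearMap.BilinForm.finrank_orthogonal hB, hV, finrank_span_singleton hv0]
      simp
    have hmem : ∀ v w : V, w ∈ B.orthogonal (F ∙ v) ↔ B v w = 0 := by
      intro v w
      rw [LinearMap.BilinForm.orthogonal_span_singleton_eq_toLin_ker]
      rfl
    obtain ⟨v, hv, hv'⟩ : ∃ v : V, B v v = 1 ∧ (n ≠ 0 → ∃ w : V, B v w = 0 ∧ B w w ≠ 0) := by
      by_cases h : n ≠ 0 → ∃ w : V, B (s⁻¹ • v₀) w = 0 ∧ B w w ≠ 0
      · exact ⟨_, hv₁, h⟩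
      · push Not at h
        obtain ⟨hn, h⟩ := h
        set v := s⁻¹ • v₀
        have hnd := LinearMap.BilinForm.restrict_nondegenerate_orthogonal_spanSingleton B hB
          hS.isRefl (x := v) (by rw [hv₁]; exact one_ne_zero)
        have : Nontrivial (B.orthogonal (F ∙ v)) :=
          Module.nontrivial_of_finrank_pos (R := F) (by rw [hdim v hv₁]; omega)
        obtain ⟨e, he⟩ := exists_ne (0 : B.orthogonal (F ∙ v))
        obtain ⟨f, hf⟩ : ∃ f : B.orthogonal (F ∙ v), B e f ≠ 0 := by
          by_contra! h'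
          exact he (hnd.1 e h')
        have he0 := (hmem _ _).1 e.2
        have hf0 := (hmem _ _).1 f.2
        refine ⟨v + e, ?_, fun _ => ⟨v + (B e f)⁻¹ • f, ?_, ?_⟩⟩
        · simp only [map_add, LinearMap.add_apply, hv₁, hsym e v, he0, h e he0, add_zero]
        · simp only [map_add, LinearMap.add_apply, map_smul, hv₁, hsym e v, he0, hf0,
            Submodule.coe_smul, smul_eq_mul, zero_add]
          field_simp
          linear_combination h2
        · simp only [map_add, LinearMap.add_apply, map_smul, LinearMap.smul_apply, hv₁, hsym f v,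
            hf0, h f hf0, Submodule.coe_smul, smul_eq_mul]
          simp
    have hnd := LinearMap.BilinForm.restrict_nondegenerate_orthogonal_spanSingleton B hB
      hS.isRefl (x := v) (by rw [hv]; exact one_ne_zero)
    obtain ⟨b, hb⟩ := ih (B.orthogonal (F ∙ v)) (hdim v hv) (B.restrict _) (hS.restrict _) hnd
      (fun hn => by
        obtain ⟨w, hw, hw'⟩ := hv' hn
        exact ⟨⟨w, (hmem _ _).2 hw⟩, hw'⟩)
    refine ⟨Fin.cons v fun i => b i, fun i j => ?_⟩
    cases i using Fin.cases <;> cases j using Fin.cases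
    · simpa using hv
    · simpa [(Fin.succ_ne_zero _).symm] using (hmem _ _).1 (b _).2
    · simpa [hsym _ v] using (hmem _ _).1 (b _).2
    · simpa using hb _ _


/-- Over a finite field of characteristic two, a non-degenerate symmetric bilinear form that is not alternating (some vector v has B(v, v) ≠ 0) admits an orthonormal basis. -/
theorem result {F V : Type*} [Field F] [Finite F] [CharP F 2] [AddCommGroup V] [Module F V] [FiniteDimensional F V] {n : ℕ} (hV : Module.finrank F V = n) (B : LinearMap.BilinForm F V) (hS : B.IsSymm) (hB : B.Nondegenerate) (hna : ∃ v : V, B v v ≠ 0) : ∃ b : Module.Basis (Fin n) F V, ∀ i j, B (b i) (b j) = if i = j then 1 else 0 := by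
  obtain ⟨b, hb⟩ := exists_family n V hV B hS hB fun _ => hna
  have hli : LinearIndependent F b :=
    LinearMap.BilinForm.linearIndependent_of_iIsOrtho (B := B)
      (fun i j hij => by simpa [hij] using hb i j) (fun i => by simp [hb])
  exact ⟨basisOfLinearIndependentOfCardEqFinrank' b hli (by simp [hV]), by simpa using hb⟩

end Cfsg.Agent.S2622
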