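import Mathlib
import Cfsg.Statements.S2624
import Cfsg.Agent.Cl.QuadDisc

set_option autoImplicit false
open Cfsg

namespace Cfsg.Agent.S2624

open Cfsg.Agent.Cl QuadraticMap


/-- For a quadratic form Q on F^n with non-degenerate polar form, F finite and n ≥ 2 even, every non-zero scalar c is the multiplier of some similarity: there is an invertible linear map g with Q(g v) = c·Q(v) for all v. -/
theorem result {F : Type*} [Field F] [Fintype F] {n : ℕ} (hn : 2 ≤ n) (he : Even n) (Q : QuadraticForm F (Fin n → F)) (hQ : (QuadraticMap.polarBilin Q).Nondegenerate) (c : F) (hc : c ≠ 0) : ∃ g : (Fin n → F) ≃ₗ[F] (Fin n → F), ∀ v, Q (g v) = c * Q v := by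
  by_cases h2 : (2 : F) = 0
  · obtain ⟨s, hs⟩ := quad_isSquare_of_two_eq_zero h2 c
    have hs0 : s ≠ 0 := by rintro rfl; exact hc (by simpa using hs)
    refine ⟨LinearEquiv.smulOfUnit (Units.mk0 s hs0), fun v => ?_⟩
    change Q (s • v) = _
    rw [quad_smul, hs, pow_two]
  · have hQ' : (c • Q).polarBilin.Nondegenerate := by
      rw [quad_nondeg_iff]
      intro x hx
      refine quad_eq_zero_of_polar hQ fun y => ?_
      have := hx y
      rw [QuadraticMap.coeFn_smul, polar_smul, smul_eq_mul] at this
      exact (mul_eq_zero.1 this).resolve_left hc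
    refine (quad_equiv_iff_disc h2 hQ' hQ rfl (Pi.basisFun F _) (Pi.basisFun F _)).2 ?_
    have := quad_disc_similar (Q := Q) (Q' := ⇑(c • Q)) LinearMap.id (c := c) (fun v => rfl)
      (Pi.basisFun F (Fin n))
    obtain ⟨k, rfl⟩ := he
    refine ⟨c ^ k * quad_disc Q (Pi.basisFun F _), ?_⟩
    simp only [LinearMap.id_coe, id_eq, Fintype.card_fin] at this
    rw [this]; ring

end Cfsg.Agent.S2624
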