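import Mathlib
import Cfsg.Statements.S2630
import Cfsg.Agent.Cl.QuadParity

set_option autoImplicit false
open Cfsg

namespace Cfsg.Agent.S2630

open Cfsg.Agent.Cl QuadraticMap


/-- For the hyperbolic form Σ x_i y_i on F^(2m) over a finite field of characteristic two (m ≥ 1, excluding m = 2 over the field of two elements), an isometry g preserves the class of the maximal totally singular subspace U₀ = {y = 0} (m − dim(U₀ ∩ gU₀) even) if and only if g lies in Ω (the commutator subgroup of the orthogonal group): the stabiliser of each class is Ω. -/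
theorem result {F : Type*} [Field F] [Fintype F] [CharP F 2] {m : ℕ} (hm : 1 ≤ m) (h : Fintype.card F ≠ 2 ∨ m ≠ 2) (g : ↥(Cfsg.isometryGroup F (Cfsg.quadFormPlus m F))) : Even (m - Module.finrank F ↥(LinearMap.ker (LinearMap.funLeft F F (Sum.inr : Fin m → Fin m ⊕ Fin m)) ⊓ (LinearMap.ker (LinearMap.funLeft F F (Sum.inr : Fin m → Fin m ⊕ Fin m))).map (Matrix.mulVecLin ((g : Matrix.GeneralLinearGroup (Fin m ⊕ Fin m) F) : Matrix (Fin m ⊕ Fin m) (Fin m ⊕ Fin m) F)))) ↔ g ∈ Cfsg.Omega F (Cfsg.quadFormPlus m F) := by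
  have hexc : ¬ OExc (quad_plus m F) := quad_not_oExc (h.imp_right fun h h' => h (by
    rw [o_finrank_plus] at h'; omega))
  have h1 := quad_dickson_eq_one_iff_even (Q := quad_plus m F) quad_plus_nondeg
    hexc quad_plusU_singular
    (by rw [quad_finrank_plusU, o_finrank_plus]) (omatEquiv (quad_plus m F) g)
  rw [quad_finrank_plusU] at h1
  refine h1.symm.trans (Iff.trans ?_ (mem_Omega_iff (P := quad_plus m F) quad_plus_nondeg hexc g).symm)
  rw [ospin_of_two_eq_zero _ (CharTwo.two_eq_zero)]
  simp

end Cfsg.Agent.S2630
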