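import Mathlib
import Cfsg.Statements.S2634
import Cfsg.Agent.Cl.QuadParity

set_option autoImplicit false
open Cfsg

namespace Cfsg.Agent.S2634

open Cfsg.Agent.Cl QuadraticMap


/-- Over a finite field of characteristic two, Ω (the commutator subgroup of the orthogonal group of a quadratic form Q on F^n with non-degenerate polar form; excluding dimension 4 over the field of two elements) acts transitively on the non-singular 1-spaces: for u, v with Q(u) ≠ 0 and Q(v) ≠ 0 some element of Ω carries the line through u to the line through v. -/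
theorem result {F : Type*} [Field F] [Fintype F] [CharP F 2] {n : ℕ} (h : Fintype.card F ≠ 2 ∨ n ≠ 4) (Q : QuadraticForm F (Fin n → F)) (hQ : (QuadraticMap.polarBilin Q).Nondegenerate) (u v : Fin n → F) (hu : Q u ≠ 0) (hv : Q v ≠ 0) : ∃ g : ↥(Cfsg.isometryGroup F ⇑Q), g ∈ Cfsg.Omega F ⇑Q ∧ (F ∙ ((g : Matrix.GeneralLinearGroup (Fin n) F) : Matrix (Fin n) (Fin n) F).mulVec u) = F ∙ v := by
  have hexc : ¬ OExc Q := quad_not_oExc (h.imp_right fun h => by simpa using h)
  have h2 : (2 : F) = 0 := CharTwo.two_eq_zero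
  obtain ⟨c, hc⟩ := quad_isSquare_of_two_eq_zero h2 (Q u / Q v)
  have hc0 : c ≠ 0 := by
    rintro rfl
    exact div_ne_zero hu hv (by simpa using hc)
  obtain ⟨g, hg⟩ := o_exists_map_eq hQ (x := u) (y := c • v)
    (by rw [quad_smul, pow_two, ← hc]; field_simp) (o_ne_zero_of_norm hu)
    (smul_ne_zero hc0 (o_ne_zero_of_norm hv))
  obtain ⟨k, hk, hgk⟩ := quad_exists_mul_mem_commutator hQ hexc (quad_stab Q (F ∙ u)) g
    (.inr ⟨_, quad_orefl_mem_stab_of_mem (Submodule.mem_span_singleton_self u), dickson_orefl hQ hu⟩)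
    (fun s _ => ⟨1, one_mem _, map_one _, by
      rw [map_one, sqSign_eq_one_iff.2 (quad_isSquare_of_two_eq_zero h2 s)]⟩)
  obtain ⟨g', hg', hm⟩ := quad_exists_mat_map (U := F ∙ u) (W := F ∙ v) (g * k) hgk (by
    rw [quad_map_mul, hk, Submodule.map_span, Set.image_singleton]
    change F ∙ g.1 u = _
    rw [hg, Submodule.span_singleton_smul_eq (IsUnit.mk0 c hc0)])
  refine ⟨g', hg', ?_⟩
  rw [← hm, Submodule.map_span, Set.image_singleton]
  rfl

end Cfsg.Agent.S2634
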