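import Mathlib
import Cfsg.Statements.S2635
import Cfsg.Agent.Cl.QuadParity

set_option autoImplicit false
open Cfsg

namespace Cfsg.Agent.S2635

open Cfsg.Agent.Cl QuadraticMap


/-- Over a finite field of characteristic two, for a quadratic form Q on F^n with non-degenerate polar form, n ≥ 2, other than dimension 4 over the field of two elements, Ω (the commutator subgroup of the orthogonal group) is exactly the subgroup generated by the products of two reflections (orthogonal transvections) x ↦ x − Q(v)⁻¹ f(x, v) v, Q(v) ≠ 0: the products of an even number of reflections. -/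
theorem result {F : Type*} [Field F] [Fintype F] [CharP F 2] {n : ℕ} (hn : 2 ≤ n) (h : Fintype.card F ≠ 2 ∨ n ≠ 4) (Q : QuadraticForm F (Fin n → F)) (hQ : (QuadraticMap.polarBilin Q).Nondegenerate) : Cfsg.Omega F ⇑Q = Subgroup.closure {g : ↥(Cfsg.isometryGroup F ⇑Q) | ∃ u v : Fin n → F, Q u ≠ 0 ∧ Q v ≠ 0 ∧ ((g : Matrix.GeneralLinearGroup (Fin n) F) : Matrix (Fin n) (Fin n) F) = Cfsg.reflectionMatrix ⇑Q u * Cfsg.reflectionMatrix ⇑Q v} := by
  have hexc : ¬ OExc Q := quad_not_oExc (h.imp_right fun h => by simpa using h)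
  have h2 : (2 : F) = 0 := CharTwo.two_eq_zero
  have hmat : ∀ (g : isometryGroup F ⇑Q) (u v : Fin n → F), omatEquiv Q g = orefl Q u * orefl Q v ↔
      ((g : GL (Fin n) F) : Matrix (Fin n) (Fin n) F) =
        Cfsg.reflectionMatrix ⇑Q u * Cfsg.reflectionMatrix ⇑Q v := fun g u v =>
    omatEquiv_eq_iff g _ _ fun x => by
      rw [← Matrix.mulVec_mulVec, reflectionMatrix_mulVec, reflectionMatrix_mulVec, OG.mul_app]
  refine le_antisymm (fun g hg => ?_) ((Subgroup.closure_le _).2 ?_)
  · obtain ⟨l, hl, hlg⟩ := exists_list_orefl hQ hexc (omatEquiv Q g)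
    have h1 := (omatEquiv_mem_commutator_iff g).2 hg
    have key : ∀ (k : ℕ) (l : List (Fin n → F)), l.length = 2 * k → (∀ v ∈ l, Q v ≠ 0) →
        (omatEquiv Q).symm (l.map (orefl Q)).prod ∈ Subgroup.closure {g : ↥(Cfsg.isometryGroup F ⇑Q) | ∃ u v : Fin n → F, Q u ≠ 0 ∧ Q v ≠ 0 ∧ ((g : Matrix.GeneralLinearGroup (Fin n) F) : Matrix (Fin n) (Fin n) F) = Cfsg.reflectionMatrix ⇑Q u * Cfsg.reflectionMatrix ⇑Q v} := by
      intro k
      induction k with
      | zero =>
        intro l hl _
        rw [List.length_eq_zero_iff.1 hl]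
        simp
      | succ k ih =>
        intro l hl hl0
        match l, hl, hl0 with
        | u :: v :: l, hl, hl0 =>
          rw [List.map_cons, List.map_cons, List.prod_cons, List.prod_cons, ← mul_assoc, map_mul]
          refine mul_mem (Subgroup.subset_closure ⟨u, v, hl0 u (by simp), hl0 v (by simp),
            (hmat _ u v).1 (by simp)⟩) (ih l (by simp at hl; omega) fun w hw => hl0 w (by simp [hw]))
    rw [← hlg, prod_orefl_mem_commutator_iff hQ hexc hl] at h1
    obtain ⟨k, hk⟩ := h1.1
    have := key k l (by omega) hl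
    rwa [hlg, MulEquiv.symm_apply_apply] at this
  · rintro g ⟨u, v, hu, hv, hg⟩
    change g ∈ Omega F ⇑Q
    rw [← omatEquiv_mem_commutator_iff, (hmat g u v).2 hg,
      orefl_mul_orefl_mem_commutator_iff hQ hexc hu hv]
    exact quad_isSquare_of_two_eq_zero h2 _

end Cfsg.Agent.S2635
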