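import Mathlib
import Cfsg.Statements.S2636
import Cfsg.Agent.Cl.ClassFix

set_option autoImplicit false
open Cfsg

namespace Cfsg.Agent.S2636

/-- Centraliser of a field automorphism in PGL_n: let F be the field with q = q₀^r elements, σ a field automorphism of F of prime order r (so its fixed field has q₀ elements) and n ≥ 1. The invertible matrices g whose entrywise image under σ is a scalar multiple of g — those whose coset modulo scalars is fixed by σ — number (q − 1)/(q₀ − 1) · |GL_n(q₀)|; equivalently the centraliser in PGL_n(q) of the induced automorphism has the order of PGL_n(q₀). -/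
theorem result {F : Type*} [Field F] [Fintype F] {q₀ r n : ℕ} (hr : r.Prime) (hn : 1 ≤ n) (hF : Fintype.card F = q₀ ^ r) (σ : F ≃+* F) (hσ : orderOf σ = r) : Nat.card {g : GL (Fin n) F // ∃ c : F, c ≠ 0 ∧ (g : Matrix (Fin n) (Fin n) F).map σ = c • (g : Matrix (Fin n) (Fin n) F)} = (q₀ ^ r - 1) / (q₀ - 1) * ∏ i : Fin n, (q₀ ^ n - q₀ ^ (i : ℕ)) := by
  have : Nonempty (Fin n) := ⟨⟨0, hn⟩⟩
  have he : ∀ a, σ a = a ↔ ∃ b, (Cl.Aut.fixF σ).subtype b = a := fun a =>
    ⟨fun h => ⟨⟨a, h⟩, rfl⟩, fun ⟨b, hb⟩ => hb ▸ b.2⟩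
  have h0 : Nat.card (Cl.Aut.fixF σ) = q₀ := by
    have h := Cl.Aut.card_eq_card_fixF_pow σ
    rw [Nat.card_eq_fintype_card, hF, hσ] at h
    exact (Nat.pow_left_injective hr.ne_zero h).symm
  have h1 := Cl.Cls.card_scal_mul_glMap (ι := Fin n) (Cl.Aut.fixF σ).subtype ⊤ ⊤ ⊤ (by simp)
    (by simp)
  have h2 : 1 < q₀ := h0 ▸ Finite.one_lt_card
  rw [Subgroup.card_top, Subgroup.card_top, Subgroup.card_top, Nat.card_units, Nat.card_units,
    Cl.card_gl, h0, Nat.card_eq_fintype_card (α := F), hF,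
    ← Nat.div_mul_cancel (Nat.sub_one_dvd_pow_sub_one q₀ r), mul_right_comm,
    ← Finset.prod_range fun i => q₀ ^ Fintype.card (Fin n) - q₀ ^ i, Fintype.card_fin,
    Finset.prod_range] at h1
  rw [← Nat.eq_of_mul_eq_mul_right (by omega) h1]
  refine Nat.card_congr (Equiv.subtypeEquivRight fun g => ⟨?_, ?_⟩)
  · rintro ⟨c, hc, h⟩
    obtain ⟨i, j, hij⟩ := Cl.Cls.exists_entry_ne_zero g
    obtain ⟨g₀, hg₀⟩ := Cl.Cls.exists_glMap_eq_scal_mul he h (a := (Units.mk0 _ hij)⁻¹) (by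
      have h1 := congrFun (congrFun h i) j
      simp only [Matrix.map_apply, Matrix.smul_apply, smul_eq_mul] at h1
      simp [h1, hc])
    exact ⟨Units.mk0 _ hij, trivial, g₀, trivial, by rw [hg₀, map_inv, mul_inv_cancel_left]⟩
  · rintro ⟨a, -, h, -, rfl⟩
    exact ⟨_, by simp, Cl.Cls.map_scal_mul_glMap he a h⟩

end Cfsg.Agent.S2636
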