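import Mathlib
import Cfsg.Statements.S2637
import Cfsg.Agent.Cl.ClassSpOPrime
import Cfsg.Agent.Cl.UTrace
import Cfsg.Agent.Cl.UOrder
import Cfsg.Agent.Cl.OrthNorm

set_option autoImplicit false
open Cfsg

namespace Cfsg.Agent.S2637

open Cl Cl.SpO Module Polynomial

theorem eq_of_cube {K : Type*} [Field K] {ζ : K} (hζ : IsPrimitiveRoot ζ 3) {q : ℕ}
    {R S : Multiset K} (hR : Stab q 3 R) (hS : Stab q 3 S) (h1 : 1 ∉ R) (h2 : 1 ∉ S)
    (h : R.card = S.card) : R = S := by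
  classical
  have hne : ζ ≠ ζ⁻¹ := fun h3 => by
    have := hζ.dvd_of_pow_eq_one 2 (by
      rw [pow_two]; nth_rw 2 [h3]; exact mul_inv_cancel₀ (hζ.ne_zero (by norm_num)))
    omega
  have key : ∀ T : Multiset K, Stab q 3 T → 1 ∉ T → (∀ a ∈ T, a ∈ ({ζ, ζ⁻¹} : Finset K)) ∧
      T.count ζ⁻¹ = T.count ζ ∧ T.count ζ + T.count ζ⁻¹ = T.card := fun T hT h0 => by
    have h3 : ∀ a ∈ T, a ∈ ({ζ, ζ⁻¹} : Finset K) := fun a ha => by
      obtain ⟨i, hi, rfl⟩ := hζ.eq_pow_of_pow_eq_one (hT.1 a ha)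
      interval_cases i
      · exact absurd ha (by simpa using h0)
      · simp
      · rw [show ζ ^ 2 = ζ⁻¹ from eq_inv_of_mul_eq_one_left (by rw [← pow_succ, hζ.pow_eq_one])]
        simp
    refine ⟨h3, ?_, by rw [← Multiset.sum_count_eq_card h3, Finset.sum_pair hne]⟩
    conv_lhs => rw [← hT.2.2]
    exact Multiset.count_map_eq_count' _ _ inv_injective ζ
  obtain ⟨a1, a2, a3⟩ := key R hR h1
  obtain ⟨b1, b2, b3⟩ := key S hS h2
  ext a
  by_cases ha : a ∈ ({ζ, ζ⁻¹} : Finset K)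
  · rcases Finset.mem_insert.1 ha with rfl | h4
    · omega
    · rw [Finset.mem_singleton.1 h4]
      omega
  · rw [Multiset.count_eq_zero.2 fun h => ha (a1 a h), Multiset.count_eq_zero.2 fun h => ha (b1 a h)]

theorem isConj_of_cube {F : Type*} [Field F] [Fintype F] (h3 : ((3 : ℕ) : F) ≠ 0) {m : ℕ}
    {x y : Matrix.symplecticGroup (Fin m) F} (hx : x ^ 3 = 1) (hy : y ^ 3 = 1)
    (hx' : IsUnit (specSp F m x - 1)) (hy' : IsUnit (specSp F m y - 1)) : IsConj x y := by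
  have : NeZero ((3 : ℕ) : AlgebraicClosure F) :=
    ⟨by rwa [← map_natCast (algebraMap F _), _root_.map_ne_zero]⟩
  obtain ⟨ζ, hζ⟩ := HasEnoughRootsOfUnity.exists_primitiveRoot (AlgebraicClosure F) 3
  have h1 : ∀ z : Matrix.symplecticGroup (Fin m) F, z ^ 3 = 1 → specSp F m z ^ 3 = 1 :=
    fun z hz => by rw [← map_pow, hz, map_one]
  have h2 : ∀ z : Matrix.symplecticGroup (Fin m) F, IsUnit (specSp F m z - 1) →
      1 ∉ evs (AlgebraicClosure F) (specSp F m z) := fun z hz h =>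
    ne_zero_of_mem_evs (K := AlgebraicClosure F) (x := aeval (specSp F m z) (X - 1 : F[X]))
      (by rwa [map_sub, aeval_X, map_one]) (by
        rw [evs_aeval]; exact Multiset.mem_map_of_mem _ h) (by simp)
  exact sp_isConj_of_sim h3 hx (sim_of_evs h3 (h1 x hx) (h1 y hy) (eq_of_cube hζ
    (stab_evs spB_nondegenerate (isIsom_specSp x) (h1 x hx))
    (stab_evs spB_nondegenerate (isIsom_specSp y) (h1 y hy)) (h2 x hx') (h2 y hy')
    (by rw [evs_card, evs_card])))

theorem cast_uOrd {q : ℕ} (hq : 1 ≤ q) (m : ℕ) : (uOrd q m : ℤ) = (q : ℤ) ^ (m * (m - 1) / 2) *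
    ∏ i : Fin m, ((q : ℤ) ^ ((i : ℕ) + 1) - (-1) ^ ((i : ℕ) + 1)) := by
  rw [uOrd, Nat.cast_mul, Nat.cast_pow, Nat.cast_prod, Finset.prod_range]
  refine congrArg _ (Finset.prod_congr rfl fun i _ => ?_)
  split_ifs with h
  · simp [h.add_one.neg_one_pow]
  · rw [(Nat.not_even_iff_odd.1 h).add_one.neg_one_pow, Nat.cast_sub (Nat.one_le_pow _ _ hq)]
    simp

/-- Centraliser of a fixed-point-free element of order three in Sp_2m(q) when q ≡ 2 (mod 3): if x ∈ Sp_2m(F) (|F| = q, m ≥ 1) satisfies x³ = 1 and x − 1 is invertible, then its centraliser in Sp_2m(F) has the order of the unitary group GU_m(q), namely q^(m(m−1)/2) Π_(i=1)^m (q^i − (−1)^i) (x lies in the centre of a subgroup GU_m(q) of Sp_2m(q)). -/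
theorem result {F : Type*} [Field F] [Fintype F] {q : ℕ} (hF : Fintype.card F = q) (hq : q % 3 = 2) {m : ℕ} (hm : 1 ≤ m) (x : Matrix.symplecticGroup (Fin m) F) (hx3 : x ^ 3 = 1) (hfpf : IsUnit ((x : Matrix (Fin m ⊕ Fin m) (Fin m ⊕ Fin m) F) - 1)) : (Nat.card ↥(Subgroup.centralizer ({x} : Set ↥(Matrix.symplecticGroup (Fin m) F))) : ℤ) = (q : ℤ) ^ (m * (m - 1) / 2) * ∏ i : Fin m, ((q : ℤ) ^ ((i : ℕ) + 1) - (-1) ^ ((i : ℕ) + 1)) := by
  obtain ⟨K, _, _, hK⟩ := exists_quadratic_extension F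
  rw [hF] at hK
  obtain ⟨σ, hσ⟩ := exists_uField hK
  have hF' : Nat.card F = q := by rw [Nat.card_eq_fintype_card, hF]
  obtain ⟨ι, hι⟩ := hσ.exists_embedding hF'
  let _ := ι.toAlgebra
  have hB := hσ.isHerm_uStd (Fin m)
  obtain ⟨θ, h1, h2⟩ := hB.exists_trace_zero
  obtain ⟨e, he⟩ := hB.exists_equiv_symplectic hσ hF' hι h1 h2 (m := m) (by simp)
  obtain ⟨φ, hφ, hφe⟩ := u_exists_hom_isom (B := uStd σ (Fin m)) e (sympForm m F)
    fun u v u' v' h3 h4 _ => (algebraMap F K).injective (by rw [he, he, h3, h4])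
  obtain ⟨k, rfl⟩ : ∃ k, q = 3 * k + 2 := ⟨q / 3, by omega⟩
  obtain ⟨ω, hω0, hω⟩ := spec_exists_orderOf_eq (E := K) (m := 3) ⟨(k + 1) * (3 * k + 1), by
    rw [hσ.card]; exact Nat.sub_eq_of_eq_add (by ring)⟩
  have hω3 : ω ^ 3 = 1 := hω ▸ pow_orderOf_eq_one ω
  have hω1 : ω ≠ 1 := fun h => by simp [h] at hω
  have hσω : σ ω = ω ^ 2 := by rw [hσ.pow, pow_add, pow_mul, hω3, one_pow, one_mul]
  have hne : ω - σ ω ≠ 0 := by
    rw [hσω, show ω - ω ^ 2 = ω * (1 - ω) by ring]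
    exact mul_ne_zero hω0 (sub_ne_zero.2 hω1.symm)
  let z : UG (uStd σ (Fin m)) := ⟨uScalar K _ (Units.mk0 ω hω0), uScalar_mem_UG (by
    rw [mem_uNormOne, Units.val_mk0, hσω, ← pow_succ', hω3])⟩
  have hz : ∀ v, z.1 v = ω • v := fun _ => rfl
  have h3 : ((3 : ℕ) : F) ≠ 0 := fun h => by
    have := FiniteField.cast_card_eq_zero F
    rw [hF] at this
    push_cast at this h
    exact one_ne_zero (by linear_combination h - this + k * h : (1 : F) = 0)
  have hspec : ∀ v, specSp F m ((symplecticEquiv m).symm (φ z)) (e v) = e (ω • v) := fun v => by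
    rw [← hz, ← hφe, ← (symplecticEquiv m).apply_symm_apply (φ z), MulEquiv.symm_apply_apply]
    rfl
  obtain ⟨c, hc⟩ := isConj_iff.1 (isConj_of_cube h3 (y := (symplecticEquiv m).symm (φ z)) hx3 (by
      rw [← map_pow, ← map_pow, show z ^ 3 = 1 from Subtype.ext (by
        rw [Subgroup.coe_pow, ← map_pow, show Units.mk0 ω hω0 ^ 3 = 1 from Units.ext hω3, map_one]
        rfl), map_one, map_one])
    (by rwa [specSp_eq, Module.End.one_eq_id, ← Matrix.toLin'_one, ← map_sub,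
      Cls.isUnit_toLin'_iff]) (by
      rw [LinearMap.isUnit_iff_ker_eq_bot, LinearMap.ker_eq_bot']
      intro v hv
      obtain ⟨v, rfl⟩ := e.surjective v
      rw [LinearMap.sub_apply, hspec, Module.End.one_apply, ← map_sub, e.map_eq_zero_iff] at hv
      rw [(smul_eq_zero.1 (by rw [sub_smul, one_smul, hv] : (ω - 1) • v = 0)).resolve_left
        (sub_ne_zero.2 hω1), map_zero]))
  rw [← card_centralizer_congr (MulAut.conj c), MulAut.conj_apply, hc, card_centralizer_congr,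
    ← cast_uOrd (by omega), ← hB.card_UG hσ (finrank_fin_fun K)]
  refine congrArg _ (Nat.card_congr (Equiv.ofBijective (fun g => ⟨φ g, by
    rw [Subgroup.mem_centralizer_singleton_iff, ← map_mul, ← map_mul]
    exact congrArg φ (Subtype.ext (uScalar_comm _ _))⟩)
    ⟨fun a b h => hφ (congrArg Subtype.val h), fun g => ?_⟩)).symm
  let g' := (e.trans g.1.1).trans e.symm
  have hg : ∀ v, e (g' v) = g.1.1 (e v) := fun v => e.apply_symm_apply _
  have h4 : ∀ v, g' (ω • v) = ω • g' v := fun v => e.injective (by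
    have := congrArg (fun a : isom F (sympForm m F) => a.1 (e v))
      (Subgroup.mem_centralizer_singleton_iff.1 g.2)
    rw [hg, ← hz, ← hz, ← hφe, ← hφe, hg]
    exact this)
  have h5 : ∀ (a : K) v, g' (a • v) = a • g' v := fun a v => by
    obtain ⟨t, ht⟩ := (hι ((a - σ a) / (ω - σ ω))).2 (by
      rw [map_div₀, map_sub, map_sub, hσ.invol.invol, hσ.invol.invol, ← neg_div_neg_eq, neg_sub,
        neg_sub])
    have ht' : σ (ι t) = ι t := (hι _).1 ⟨t, rfl⟩
    obtain ⟨s, hs⟩ := (hι (a - ι t * ω)).2 (by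
      rw [map_sub, map_mul, ht', ht]
      field_simp
      ring)
    have h6 : ∀ w : Fin m → K, a • w = s • w + t • ω • w := fun w => by
      rw [← algebraMap_smul K s, ← algebraMap_smul K t, smul_smul, ← add_smul]
      exact congrArg (· • w) (by linear_combination -hs : a = ι s + ι t * ω)
    rw [h6, h6, map_add, map_smul, map_smul, h4]
  have h7 : ∀ u v, uStd σ (Fin m) (g' u) (g' v) - uStd σ (Fin m) (g' v) (g' u) =
      uStd σ (Fin m) u v - uStd σ (Fin m) v u := fun u v =>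
    mul_left_cancel₀ h1 (by rw [← he, ← he, hg, hg, g.1.2])
  refine ⟨⟨{ g' with map_smul' := h5 }, fun u v => ?_⟩, Subtype.ext (Subtype.ext
    (LinearEquiv.ext fun v => ?_))⟩
  · have h8 := h7 (ω • u) v
    simp only [h4, map_smulₛₗ, LinearMap.smul_apply, smul_eq_mul, RingHom.id_apply] at h8
    exact mul_left_cancel₀ hne (by linear_combination h8 - σ ω * h7 u v)
  · obtain ⟨v, rfl⟩ := e.surjective v
    exact (hφe _ v).trans (hg v)

end Cfsg.Agent.S2637
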