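import Mathlib
import Cfsg.Statements.S2638
import Cfsg.Agent.Cl.ClassCyc

set_option autoImplicit false
open Cfsg

namespace Cfsg.Agent.S2638

/-- If an element x of GL_n(q), n ≥ 1, has prime order r and the multiplicative order of q modulo r is n (r is a primitive prime divisor of q^n − 1, so x acts irreducibly), then the centraliser of x in GL_n(q) is cyclic of order q^n − 1 (the multiplicative group of the field with q^n elements, a Singer cycle). -/
theorem result {F : Type*} [Field F] [Fintype F] {p q : ℕ} [Fact p.Prime] [CharP F p] (hF : Fintype.card F = q) {n r : ℕ} (hn : 1 ≤ n) (hr : r.Prime) (hrp : r ≠ p) (hi : orderOf (q : ZMod r) = n) (x : GL (Fin n) F) (hx : orderOf x = r) : IsCyclic ↥(Subgroup.centralizer ({x} : Set (GL (Fin n) F))) ∧ Nat.card ↥(Subgroup.centralizer ({x} : Set (GL (Fin n) F))) = q ^ n - 1 := by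
  have hp : p.Prime := Fact.out
  have h1 := (Cl.Cls.isSS_GL_iff p x).2 (hx ▸ (Nat.coprime_primes hr hp).2 hrp)
  obtain ⟨P, hP, hP1⟩ := Cl.Cls.exists_mem_edM_ne (A := (x : Matrix (Fin n) (Fin n) F)) (c := 1)
    (fun h => by
      have : x = 1 := Units.ext (h.trans (one_smul _ _))
      rw [this, orderOf_one] at hx
      exact hr.one_lt.ne hx)
  have h2 := Cl.Cls.orderOf_dvd_natDegree (Cl.Cls.isPP_of_mem_edM hP).monic (h1 P hP) hr
    ((Cl.Cls.GL_pow_eq_one_iff_edM x r).1 (hx ▸ pow_orderOf_eq_one x) P hP) hP1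
  rw [Nat.card_eq_fintype_card, hF, hi] at h2
  have h3 := Cl.Cls.edM_eq_singleton_of_le hP
    (by simpa using Nat.le_of_dvd (h1 P hP).natDegree_pos h2)
  have h4 : P.natDegree = n := by
    simpa [h3] using Cl.Cls.sum_natDegree_edM (x : Matrix (Fin n) (Fin n) F)
  obtain ⟨e⟩ := Cl.Cls.centralizer_equiv_of_edM h3
  have := Fact.mk (h1 P hP)
  have := Cl.Cls.finiteDimensional_adjoinRoot (h1 P hP).ne_zero
  have : Finite (AdjoinRoot P) := Module.finite_of_finite F
  refine ⟨isCyclic_of_surjective e.symm e.symm.surjective, ?_⟩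
  rw [Nat.card_congr e.toEquiv, Nat.card_units, Cl.Cls.card_adjoinRoot (h1 P hP).ne_zero, h4,
    Nat.card_eq_fintype_card, hF]

end Cfsg.Agent.S2638
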