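import Mathlib
import Cfsg.Statements.S2639
import Cfsg.Agent.Cl.UTrace

set_option autoImplicit false
open Cfsg

namespace Cfsg.Agent.S2639

open Cfsg.Agent.Cl

/-- The unitary group embeds in the symplectic group of twice the dimension over the subfield: for a field K with q² elements and a field F with q elements (isomorphic to the subfield of K of order q), there is an injective homomorphism GU_m(q) → Sp_2m(F). -/
theorem result {K F : Type*} [Field K] [Fintype K] [Field F] [Fintype F] {q : ℕ} (hK : Fintype.card K = q ^ 2) (hF : Fintype.card F = q) (m : ℕ) : ∃ φ : ↥(Cfsg.GU m K q) →* ↥(Matrix.symplecticGroup (Fin m) F), Function.Injective φ := by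
  obtain ⟨σ, hq⟩ := exists_uField hK
  have hF' : Nat.card F = q := by rw [Nat.card_eq_fintype_card, hF]
  obtain ⟨ι, hι⟩ := hq.exists_embedding hF'
  letI := ι.toAlgebra
  have hB := hq.isHerm_uStd (Fin m)
  obtain ⟨θ, h1, h2⟩ := hB.exists_trace_zero
  obtain ⟨e, he⟩ := hB.exists_equiv_symplectic hq hF' hι h1 h2 (m := m) (by simp)
  obtain ⟨φ, hφ, -⟩ := u_exists_hom_isom (B := uStd σ (Fin m)) e (sympForm m F)
    fun u v u' v' h3 h4 _ => (algebraMap F K).injective (by rw [he, he, h3, h4])
  exact ⟨((symplecticEquiv m).symm.toMonoidHom.comp φ).comp (hq.guEquiv m).toMonoidHom,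
    ((symplecticEquiv m).symm.injective.comp hφ).comp (hq.guEquiv m).injective⟩

end Cfsg.Agent.S2639
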