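import Mathlib
import Cfsg.Statements.S2640
import Cfsg.Agent.Cl.UTrace

set_option autoImplicit false
open Cfsg

namespace Cfsg.Agent.S2640

open Cfsg.Agent.Cl

/-- For m even, the unitary group GU_m(q) (over the field with q² elements) embeds in the orthogonal group O⁺_2m(q) of the hyperbolic form Σ x_i y_i over the field with q elements (there is an injective homomorphism). -/
theorem result {K F : Type*} [Field K] [Fintype K] [Field F] [Fintype F] {q : ℕ} (hK : Fintype.card K = q ^ 2) (hF : Fintype.card F = q) (m : ℕ) (hm : Even m) : ∃ φ : ↥(Cfsg.GU m K q) →* ↥(Cfsg.isometryGroup F (Cfsg.quadFormPlus m F)), Function.Injective φ := by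
  obtain ⟨σ, hq⟩ := exists_uField hK
  have hF' : Nat.card F = q := by rw [Nat.card_eq_fintype_card, hF]
  obtain ⟨ι, hι⟩ := hq.exists_embedding hF'
  letI := ι.toAlgebra
  have hB := hq.isHerm_uStd (Fin m)
  obtain ⟨e, he⟩ := hB.exists_equiv_plus hq hF' hι (m := m) (by simp) hm
  obtain ⟨φ, hφ, -⟩ := u_exists_hom_isom (B := uStd σ (Fin m)) e (fun u _ => quadFormPlus m F u)
    fun u v u' v' _ _ h5 => (algebraMap F K).injective (by rw [he, he, h5])
  let ψ := (isometryGroupEquiv (quadFormPlus m F)).trans (MulEquiv.subgroupCongr (isomQ_eq_isom _))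
  exact ⟨(ψ.symm.toMonoidHom.comp φ).comp (hq.guEquiv m).toMonoidHom,
    (ψ.symm.injective.comp hφ).comp (hq.guEquiv m).injective⟩

end Cfsg.Agent.S2640
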