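import Mathlib
import Cfsg.Statements.S2641
import Cfsg.Agent.Cl.UTrace

set_option autoImplicit false
open Cfsg

namespace Cfsg.Agent.S2641

open Cfsg.Agent.Cl

/-- For m odd, the unitary group GU_m(q) (over the field with q² elements) embeds in the orthogonal group O⁻_2m(q) of an elliptic form (Σ_(i<m−1) x_i y_i plus an anisotropic binary form) over the field with q elements (there is an injective homomorphism). -/
theorem result {K F : Type*} [Field K] [Fintype K] [Field F] [Fintype F] {q : ℕ} (hK : Fintype.card K = q ^ 2) (hF : Fintype.card F = q) (m : ℕ) (hm : Odd m) (a b : F) (hab : ∀ z₁ z₂ : F, z₁ ^ 2 + a * z₁ * z₂ + b * z₂ ^ 2 = 0 → z₁ = 0 ∧ z₂ = 0) : ∃ φ : ↥(Cfsg.GU m K q) →* ↥(Cfsg.isometryGroup F (Cfsg.quadFormMinus (m - 1) F a b)), Function.Injective φ := by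
  obtain ⟨σ, hq⟩ := exists_uField hK
  have hF' : Nat.card F = q := by rw [Nat.card_eq_fintype_card, hF]
  obtain ⟨ι, hι⟩ := hq.exists_embedding hF'
  letI := ι.toAlgebra
  have hB := hq.isHerm_uStd (Fin m)
  obtain ⟨e, he⟩ := hB.exists_equiv_minus hq hF' hι (m := m) (by simp) hm
    ((quad_aniso_iff a b).1 hab)
  obtain ⟨φ, hφ, -⟩ := u_exists_hom_isom (B := uStd σ (Fin m)) e (fun u _ => quadFormMinus (m - 1) F a b u)
    fun u v u' v' _ _ h5 => (algebraMap F K).injective (by rw [he, he, h5])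
  let ψ := (isometryGroupEquiv (quadFormMinus (m - 1) F a b)).trans (MulEquiv.subgroupCongr (isomQ_eq_isom _))
  exact ⟨(ψ.symm.toMonoidHom.comp φ).comp (hq.guEquiv m).toMonoidHom,
    (ψ.symm.injective.comp hφ).comp (hq.guEquiv m).injective⟩

end Cfsg.Agent.S2641
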