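import Mathlib
import Cfsg.Statements.S2642
import Cfsg.Agent.Cl.ClassUnip

set_option autoImplicit false
open Cfsg

namespace Cfsg.Agent.S2642

/-- Number of conjugacy classes of elements of order p in the general unitary group GU_n(q), q a power of p: every unipotent Jordan type occurs and the classes correspond to the partitions of n with all parts at most p other than the all-ones partition, exactly as in GL_n; so there are (number of partitions of n with parts ≤ p) − 1 classes. -/
theorem result {K : Type*} [Field K] [Fintype K] {p q n : ℕ} [Fact p.Prime] [CharP K p] (hK : Fintype.card K = q ^ 2) : Nat.card {C : ConjClasses ↥(Cfsg.GU n K q) // ∃ g : ↥(Cfsg.GU n K q), ConjClasses.mk g = C ∧ orderOf g = p} = (Finset.univ.filter (fun μ : Nat.Partition n => ∀ a ∈ μ.parts, a ≤ p)).card - 1 := by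
  have hp : p.Prime := Fact.out
  obtain ⟨σ, hσ⟩ := Cl.exists_uField hK
  have ho : ∀ g : Cfsg.GU n K q,
      orderOf ((g : GL (Fin n) K) : Matrix (Fin n) (Fin n) K) = orderOf g := fun g => by
    rw [orderOf_units, Subgroup.orderOf_coe]
  rw [Cl.Cls.card_conjClasses_eq _
      (fun g : Cfsg.GU n K q => Cl.Cls.edM ((g : GL (Fin n) K) : Matrix (Fin n) (Fin n) K))
      fun a b _ _ => Cl.Cls.isConj_GU_iff_edM_eq hσ a b,
    Cl.Cls.card_partition_eq n _ _ (fun s => (∀ j ∈ s, j ≤ p) ∧ ¬ ∀ j ∈ s, j ≤ 1),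
    Cl.Cls.card_partition_le_not_le_one n p hp.one_le]
  · intro g hk
    obtain ⟨s, h1, h2, h3⟩ := Cl.Cls.exists_edM_eq_jt_of_pow_char p
      (A := ((g : GL (Fin n) K) : Matrix (Fin n) (Fin n) K)) (k := 1)
      (by rw [pow_one, ← hk, ← ho, pow_orderOf_eq_one])
    exact ⟨s, h1, by simpa using h2, h3,
      (Cl.Cls.orderOf_eq_char_iff_of_jt p h3).1 ((ho g).trans hk)⟩
  · intro s h1 h2 h3
    obtain ⟨g, hg⟩ := Cl.Cls.exists_GU_edM_eq_jt hσ (c := 1) (by simp) h1 h2
    exact ⟨g, (ho g).symm.trans ((Cl.Cls.orderOf_eq_char_iff_of_jt p hg).2 h3), hg⟩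

end Cfsg.Agent.S2642
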