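import Mathlib
import Cfsg.Statements.S2643
import Cfsg.Agent.Cl.ClassCyc

set_option autoImplicit false
open Cfsg

namespace Cfsg.Agent.S2643

/-- Regular unipotent classes of SU_n(q), n ≥ 2: the elements u of the special unitary group (isometries of Σ u_i v_i^q of determinant one over the field with q² elements) with (u − 1)^n = 0 and rank(u − 1) = n − 1 form exactly gcd(n, q + 1) conjugacy classes of SU_n(q). -/
theorem result {K : Type*} [Field K] [Fintype K] {q n : ℕ} (hK : Fintype.card K = q ^ 2) (hn : 2 ≤ n) : Nat.card {C : ConjClasses ↥(Cfsg.SU n K q) // ∃ u : ↥(Cfsg.SU n K q), ConjClasses.mk u = C ∧ (((u : GL (Fin n) K) : Matrix (Fin n) (Fin n) K) - 1) ^ n = 0 ∧ (((u : GL (Fin n) K) : Matrix (Fin n) (Fin n) K) - 1).rank = n - 1} = Nat.gcd n (q + 1) := by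
  obtain ⟨σ, hσ⟩ := Cl.exists_uField hK
  obtain ⟨x, hx⟩ := Cl.Cls.exists_SU_edM_eq_jt hσ (N := n) (s := {n}) (by simp; omega) (by simp)
  have h1 := Cl.Cls.card_conjClasses_split_ker (Cl.Cls.suToGU K n q) Cl.Cls.suToGU_injective
    (Cl.Cls.detGU K n q) Cl.Cls.range_suToGU (x := Cl.Cls.suToGU K n q x) (Units.ext x.1.2)
  rw [Cl.Cls.range_detGU hσ (by omega), Subgroup.relIndex,
    Cl.Cls.map_detGU_centralizer_of_regular hσ (by omega) (g := Cl.Cls.suToGU K n q x) (c := 1)
      (k := n) hx,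
    IsCyclic.index_powMonoidHom_range, hσ.card_uNormOne, Nat.gcd_comm] at h1
  rw [← h1]
  refine Nat.card_congr (Equiv.subtypeEquivRight fun C => exists_congr fun u =>
    and_congr_right fun _ => ?_)
  have h2 := Cl.Cls.regular_iff_edM ((u : GL (Fin n) K) : Matrix (Fin n) (Fin n) K)
    (by simp; omega)
  rw [Fintype.card_fin] at h2
  rw [h2, Cl.Cls.isConj_GU_iff_edM_eq hσ, ← hx]
  exact eq_comm

end Cfsg.Agent.S2643
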