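import Cfsg.Statements.S2658
import Cfsg.Agent.Chev.AltSec
import Cfsg.Agent.Chev.G2Spec
import Cfsg.Agent.Cl.ClassSpOPrime

set_option autoImplicit false
open scoped MatrixGroups
open Cfsg

namespace Cfsg.Agent.S2658

open Cfsg.Agent.Chev Cfsg.Agent.Chev.G2 Cfsg.Agent.Cl Cfsg.Lie in
theorem g2_rat {F : Type*} [Field F] {x t : chevG2.group F} {m q : ℕ} (hm : (m : F) ≠ 0)
    (hx : x ^ m = 1) (hq : 0 < q) (h : t * x * t⁻¹ = x ^ q) :
    ∃ k ∈ [q ^ 2 - 1, q ^ 2 + q + 1, q ^ 2 - q + 1], x ^ k = 1 := by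
  obtain ⟨a, b, c, habc, he⟩ := exists_evs_rho (AlgebraicClosure F) x
  have h1 : evs (AlgebraicClosure F) (Matrix.toLin' (rho F (x ^ q))) =
      evs (AlgebraicClosure F) (Matrix.toLin' (rho F x)) := by
    rw [← h, evs, evs, Matrix.charpoly_toLin', Matrix.charpoly_toLin', map_mul,
      Matrix.charpoly_mul_comm, ← map_mul, ← mul_assoc, inv_mul_cancel, one_mul]
  rw [map_pow, Matrix.toLin'_pow, evs_pow, he, Multiset.map_cons, one_pow, Multiset.cons_inj_right,
    map_s6] at h1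
  obtain ⟨k, hk, h2⟩ := torus_cases habc hq h1
  refine ⟨k, hk, pow_eq_one_of_toLin' (SpO.pow_eq_one_of_evs (K := AlgebraicClosure F) hm
    (by rw [← Matrix.toLin'_pow, ← map_pow, hx, map_one, Matrix.toLin'_one]; rfl) fun μ hμ => ?_)⟩
  rw [he, Multiset.mem_cons] at hμ
  rcases hμ with rfl | hμ
  · exact one_pow _
  · exact h2 μ hμ

open Cfsg.Agent.Chev Cfsg.Agent.Chev.G2 Cfsg.Agent.Cl Cfsg.Lie in
theorem g2_count {F : Type*} [Field F] [DecidableEq (AlgebraicClosure F)] (h2 : (2 : F) ≠ 0)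
    {x : chevG2.group F} (hx : x * x = 1) (h1 : x ≠ 1) :
    ((rho F x).charpoly.aroots (AlgebraicClosure F)).count 1 ≤ 3 := by
  obtain ⟨a, b, c, habc, he⟩ := exists_evs_rho (AlgebraicClosure F) x
  have h3 : Matrix.toLin' (rho F x) ^ 2 = 1 := by
    rw [← Matrix.toLin'_pow, ← map_pow, pow_two, hx, map_one, Matrix.toLin'_one]; rfl
  have h4 : ∀ μ ∈ s6 a b c, μ = 1 ∨ μ = -1 := fun μ hμ => sq_eq_one_iff.1
    (pow_eq_one_of_mem_evs h3 (he ▸ Multiset.mem_cons_of_mem hμ))
  have h5 : (-1 : AlgebraicClosure F) ≠ 1 := fun e => h2 ((algebraMap F (AlgebraicClosure F)).injective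
    (by rw [map_ofNat, map_zero]; linear_combination -e))
  have h6 : ¬ (a = 1 ∧ b = 1 ∧ c = 1) := by
    rintro ⟨rfl, rfl, rfl⟩
    refine h1 ((pow_one x).symm.trans (pow_eq_one_of_toLin' (SpO.pow_eq_one_of_evs
      (K := AlgebraicClosure F) (by exact_mod_cast h2) h3 fun μ hμ => ?_)))
    simpa [he, s6, pr] using hμ
  rw [evs, Matrix.charpoly_toLin'] at he
  rw [he]
  rcases h4 a (mem_s6.2 (.inl (self_mem_pr a))) with rfl | rfl <;>
    rcases h4 b (mem_s6.2 (.inr (.inl (self_mem_pr b)))) with rfl | rfl <;>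
    rcases h4 c (mem_s6.2 (.inr (.inr (self_mem_pr c)))) with rfl | rfl <;>
    simp_all [s6, pr, h5.symm]


/-- Alternating sections of the groups of type G₂. Let `F` be a finite field of characteristic `p` and let `G` be the Chevalley group of type G₂ over `F`. If some subgroup of `G` has a quotient isomorphic to the alternating group of degree `r`, then `r` is at most 6, or 7 in characteristic 5. (Only an upper bound is asserted.) -/
theorem result {F : Type*} [Field F] [Fintype F] (p : ℕ) [Fact p.Prime] [CharP F p]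
    (r : ℕ) (H : Subgroup ↥(Cfsg.Lie.chevG2.group F)) (K : Subgroup ↥H) [K.Normal]
    (h : Nonempty (↥H ⧸ K ≃* ↥(alternatingGroup (Fin r)))) :
    r ≤ 6 + (if p = 5 then 1 else 0) := by
  classical
  obtain ⟨e⟩ := h
  have hc : ∀ n : ℕ, ¬ p ∣ n → (n : F) ≠ 0 := fun n hn => by rwa [Ne, CharP.cast_eq_zero_iff F p]
  split_ifs with hp
  · subst hp
    have h2 : (2 : F) ≠ 0 := by exact_mod_cast hc 2 (by norm_num)
    refine Chev.AS.not_sec_eight (fun E hE => ?_) ?_ H K e
    · have := Chev.AS.card_le_of_count (AlgebraicClosure F) h2 ((Chev.G2.rho F).comp E.subtype)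
        (fun x => Subtype.ext (hE x x.2)) fun x hx => g2_count h2 (hE x x.2) fun e => hx (Subtype.ext e)
      have h3 : 0 < Nat.card E := Nat.card_pos
      rw [Fintype.card_fin] at this
      omega
    · rintro ⟨x, t, hx, ht⟩
      obtain ⟨k, hk, h3⟩ := g2_rat (hc 14 (by norm_num)) (hx ▸ pow_orderOf_eq_one x) (by norm_num) ht
      rw [← orderOf_dvd_iff_pow_eq_one, hx] at h3
      simp only [List.mem_cons, List.not_mem_nil, or_false] at hk
      rcases hk with rfl | rfl | rfl <;> norm_num at h3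
  · refine Chev.AS.not_sec_seven ?_ H K e
    rintro ⟨x, t, hx, ht⟩
    obtain ⟨k, hk, h3⟩ := g2_rat (hc 5 fun h => hp ((Nat.prime_dvd_prime_iff_eq Fact.out
      (by norm_num)).1 h)) (hx ▸ pow_orderOf_eq_one x) (by norm_num) ht
    rw [← orderOf_dvd_iff_pow_eq_one, hx] at h3
    simp only [List.mem_cons, List.not_mem_nil, or_false] at hk
    rcases hk with rfl | rfl | rfl <;> norm_num at h3

end Cfsg.Agent.S2658
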