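import Cfsg.Statements.S2660
import Cfsg.Agent.Chev.AltD4

set_option autoImplicit false
open scoped MatrixGroups
open Cfsg

namespace Cfsg.Agent.S2660

/-- Alternating sections of the triality-twisted groups ³D₄. Let `q = p^a` be a prime power and `K` a field with `q³` elements, and let `G` be the twisted group ³D₄(q) realised over `K`. If some subgroup of `G` has a quotient isomorphic to the alternating group of degree `r`, then `r` is at most 6, or 7 in characteristic 5. (Only an upper bound is asserted.) -/
theorem result {K : Type*} [Field K] [Fintype K] (p a : ℕ) [Fact p.Prime] [CharP K p]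
    (ha : 1 ≤ a) (hK : Fintype.card K = (p ^ a) ^ 3) (r : ℕ) (H : Subgroup ↥(Cfsg.Lie.twistedD4 K (p ^ a))) (N : Subgroup ↥H) [N.Normal]
    (h : Nonempty (↥H ⧸ N ≃* ↥(alternatingGroup (Fin r)))) :
    r ≤ 6 + (if p = 5 then 1 else 0) := by
  classical
  obtain ⟨e⟩ := h
  split_ifs with hp
  · subst hp
    have h2 : (2 : K) ≠ 0 := by
      have := (CharP.cast_eq_zero_iff K 5 2).not.2 (by norm_num)
      exact_mod_cast this
    refine Chev.AS.not_sec_eight (fun E hE => ?_) (Chev.AS.not_ratEl_fourteen 5 ha hK (by norm_num))
      H N e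
    have := Chev.AS.card_le_of_count (AlgebraicClosure K) h2
      (((Units.coeHom _).comp (Subgroup.subtype _)).comp E.subtype)
      (fun x => Subtype.ext (hE x x.2)) fun x hx => Chev.AS.count_invol 5 ha hK (by norm_num)
        (hE x x.2) fun e => hx (Subtype.ext e)
    have h3 : 0 < Nat.card E := Nat.card_pos
    rw [show Fintype.card Lie.chevD4.Idx = 28 by decide] at this
    omega
  · exact Chev.AS.not_sec_seven (Chev.AS.not_ratEl_five p ha hK
      ((Nat.coprime_primes Fact.out (by norm_num)).2 hp)) H N e

end Cfsg.Agent.S2660
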