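import Mathlib
import Cfsg.Statements.S2668

set_option autoImplicit false
open Cfsg

namespace Cfsg.Agent.S2668

/-- Shintani descent and powers (abstract form). Let `σ` be an automorphism of a group `X`, `e ≥ 1` and `d ≥ 1`, let `g` be fixed by `σᵉ` and let `a` satisfy `g = a σ(a)⁻¹`, so that the Shintani map of `(X, σ, e)` sends the class of `g σ` to the class of `x = σᵉ(a)⁻¹ a`. Put `h = g σ(g) ⋯ σ^(d-1)(g)`, the part in `X` of the `d`-th power `(g σ)^d = h σ^d`. Then `h = a σ^d(a)⁻¹` (so `a` also serves for `h` with respect to `σ^d`), `h` is fixed by `(σ^d)ᵉ`, and `(σ^d)ᵉ(a)⁻¹ a = x^d`: the Shintani map of `(X, σ^d, e)` sends the class of `(g σ)^d` to the class of `x^d`. (When `d` divides `e`, the Shintani map of `(X, σ^d, e/d)` sends it to the class of `x` itself, since `(σ^d)^(e/d) = σᵉ`.) -/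
theorem result {X : Type*} [Group X] (σ : MulAut X) (e d : ℕ) (he : 1 ≤ e) (hd : 1 ≤ d)
    (g : X) (hg : g ∈ (MulEquiv.toMonoidHom (σ ^ e)).eqLocus (MonoidHom.id X)) (a : X) (ha : g = a * (σ a)⁻¹) :
    ((List.range d).map (fun i => (σ ^ i) g)).prod = a * ((σ ^ d) a)⁻¹ ∧
      ((List.range d).map (fun i => (σ ^ i) g)).prod ∈ (MulEquiv.toMonoidHom ((σ ^ d) ^ e)).eqLocus (MonoidHom.id X) ∧
      (((σ ^ d) ^ e) a)⁻¹ * a = (((σ ^ e) a)⁻¹ * a) ^ d := by
  have hg' : (σ ^ e) g = g := hg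
  have hcomm : ∀ (i j : ℕ) y, (σ ^ i) ((σ ^ j) y) = (σ ^ j) ((σ ^ i) y) := fun i j y => by
    rw [← MulAut.mul_apply, ← MulAut.mul_apply, ← pow_add, ← pow_add, add_comm]
  have h1 : ∀ d : ℕ, ((List.range d).map (fun i => (σ ^ i) g)).prod = a * ((σ ^ d) a)⁻¹ := by
    intro d
    induction d with
    | zero => simp
    | succ d ih =>
      rw [List.range_succ, List.map_append, List.prod_append, ih, ha]
      simp only [List.map_cons, List.map_nil, List.prod_cons, List.prod_nil, mul_one, map_mul,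
        map_inv, pow_succ, MulAut.mul_apply]
      group
  have hfix : ∀ j : ℕ, ((σ ^ e) ^ j) g = g := by
    intro j
    induction j with
    | zero => rfl
    | succ j ih => rw [pow_succ, MulAut.mul_apply, hg', ih]
  have hx : σ (((σ ^ e) a)⁻¹ * a) = ((σ ^ e) a)⁻¹ * a := by
    have h2 : (σ ^ e) (a * (σ a)⁻¹) = a * (σ a)⁻¹ := ha ▸ hg'
    have h3 := hcomm 1 e a
    rw [pow_one] at h3
    rw [map_mul, map_inv, ← h3] at h2
    rw [map_mul, map_inv]
    calc (σ ((σ ^ e) a))⁻¹ * σ a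
        = ((σ ^ e) a)⁻¹ * ((σ ^ e) a * (σ ((σ ^ e) a))⁻¹) * σ a := by group
      _ = _ := by rw [h2]; group
  have hx' : ∀ j : ℕ, (σ ^ j) (((σ ^ e) a)⁻¹ * a) = ((σ ^ e) a)⁻¹ * a := by
    intro j
    induction j with
    | zero => rfl
    | succ j ih => rw [pow_succ, MulAut.mul_apply, hx, ih]
  refine ⟨h1 d, ?_, ?_⟩
  · change ((σ ^ d) ^ e) _ = _
    rw [map_list_prod, List.map_map]
    congr 2
    funext i
    change ((σ ^ d) ^ e) ((σ ^ i) g) = (σ ^ i) g
    rw [← pow_mul, hcomm, mul_comm, pow_mul, hfix]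
  · rw [← pow_mul, mul_comm, pow_mul]
    clear hd
    induction d with
    | zero => simp
    | succ d ih =>
      have h4 := hx' (e * d)
      rw [map_mul, map_inv, pow_mul] at h4
      rw [pow_succ, MulAut.mul_apply, pow_succ', ← ih, ← h4]
      group

end Cfsg.Agent.S2668
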