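import Mathlib
import Cfsg.Statements.S2666
import Cfsg.Agent.S2668

set_option autoImplicit false
open Cfsg

namespace Cfsg.Agent.S2666

/-- Shintani descent, in an abstract form. Let `σ` be an automorphism of a group `X` such that the maps `a ↦ a·σ(a)⁻¹` and `a ↦ a·σᵉ(a)⁻¹` are surjective on `X` (the Lang–Steinberg property, which holds when `X` is a connected algebraic group and `σ` a Steinberg endomorphism), where `e ≥ 1`. Write `G` for the subgroup of fixed points of `σᵉ` and `H` for the subgroup of fixed points of `σ`. The `G`-conjugacy classes in the coset `G σ` of the semidirect product of `G` by `σ` correspond to the orbits of `G` on itself under twisted conjugation `g ↦ k g σ(k)⁻¹`, and the `e`-th power of `g σ` has `G`-part the norm `g σ(g) ⋯ σ^(e-1)(g)`. For `g` in `G` and any `a` with `g = a σ(a)⁻¹`, put `x = σᵉ(a)⁻¹ a`. Then: (1) `x` lies in `H`, and `a⁻¹ · (g σ(g) ⋯ σ^(e-1)(g)) · a = x`; (2) for `g, g'` in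 `G` with such elements `a, b` and `x, x'`, the elements `g, g'` are twisted-conjugate under `G` if and only if `x, x'` are conjugate in `H`; (3) every element of `H` arises as such an `x`. So `g ↦ x` induces a well-defined bijection from the twisted `G`-classes of `G` onto the conjugacy classes of `H` (the Shintani map). -/
theorem result {X : Type*} [Group X] (σ : MulAut X) (e : ℕ) (he : 1 ≤ e)
    (hL : ∀ g : X, ∃ a : X, g = a * (σ a)⁻¹) (hLe : ∀ g : X, ∃ a : X, g = a * ((σ ^ e) a)⁻¹) :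
    (∀ g ∈ (MulEquiv.toMonoidHom (σ ^ e)).eqLocus (MonoidHom.id X), ∀ a : X, g = a * (σ a)⁻¹ →
        ((σ ^ e) a)⁻¹ * a ∈ (MulEquiv.toMonoidHom σ).eqLocus (MonoidHom.id X) ∧
          a⁻¹ * ((List.range e).map (fun i => (σ ^ i) g)).prod * a = ((σ ^ e) a)⁻¹ * a) ∧
    (∀ g ∈ (MulEquiv.toMonoidHom (σ ^ e)).eqLocus (MonoidHom.id X), ∀ g' ∈ (MulEquiv.toMonoidHom (σ ^ e)).eqLocus (MonoidHom.id X), ∀ a b : X,
        g = a * (σ a)⁻¹ → g' = b * (σ b)⁻¹ →
          ((∃ k ∈ (MulEquiv.toMonoidHom (σ ^ e)).eqLocus (MonoidHom.id X), g' = k * g * (σ k)⁻¹) ↔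
            (∃ h ∈ (MulEquiv.toMonoidHom σ).eqLocus (MonoidHom.id X), ((σ ^ e) b)⁻¹ * b = h * (((σ ^ e) a)⁻¹ * a) * h⁻¹))) ∧
    (∀ x ∈ (MulEquiv.toMonoidHom σ).eqLocus (MonoidHom.id X), ∃ g ∈ (MulEquiv.toMonoidHom (σ ^ e)).eqLocus (MonoidHom.id X), ∃ a : X,
        g = a * (σ a)⁻¹ ∧ ((σ ^ e) a)⁻¹ * a = x) := by
  have hfix : ∀ h : X, σ h = h → (σ ^ e) h = h := fun h hh => by
    clear hLe he
    induction e with
    | zero => rfl
    | succ e ih => rw [pow_succ, MulAut.mul_apply, hh, ih]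
  have hcomm : ∀ y, σ ((σ ^ e) y) = (σ ^ e) (σ y) := fun y => by
    rw [← MulAut.mul_apply, ← MulAut.mul_apply, ← pow_succ, ← pow_succ']
  refine ⟨fun g hg a ha => ⟨?_, ?_⟩, fun g hg g' hg' a b ha hb => ⟨?_, ?_⟩, fun x hx => ?_⟩
  · have h2 : (σ ^ e) (a * (σ a)⁻¹) = a * (σ a)⁻¹ := ha ▸ (hg : (σ ^ e) g = g)
    rw [map_mul, map_inv, ← hcomm] at h2
    change σ _ = ((σ ^ e) a)⁻¹ * a
    rw [map_mul, map_inv]
    calc (σ ((σ ^ e) a))⁻¹ * σ a
        = ((σ ^ e) a)⁻¹ * ((σ ^ e) a * (σ ((σ ^ e) a))⁻¹) * σ a := by group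
      _ = _ := by rw [h2]; group
  · rw [(S2668.result σ e e he he g hg a ha).1]
    group
  · rintro ⟨k, hk, h⟩
    have hk' : (σ ^ e) k = k := hk
    have h1 : σ (b⁻¹ * k * a) = b⁻¹ * k * a := by
      rw [map_mul, map_mul, map_inv]
      calc (σ b)⁻¹ * σ k * σ a = b⁻¹ * (b * (σ b)⁻¹) * σ k * σ a := by group
        _ = _ := by rw [← hb, h, ha]; group
    refine ⟨b⁻¹ * k * a, h1, ?_⟩
    have h2 := hfix _ h1
    rw [map_mul, map_mul, map_inv, hk'] at h2
    conv_rhs => enter [1, 1]; rw [← h2]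
    group
  · rintro ⟨h, hh, h1⟩
    have hh' : σ h = h := hh
    refine ⟨b * h * a⁻¹, ?_, ?_⟩
    · change (σ ^ e) _ = b * h * a⁻¹
      rw [map_mul, map_mul, map_inv, hfix h hh']
      calc (σ ^ e) b * h * ((σ ^ e) a)⁻¹
          = (σ ^ e) b * (h * (((σ ^ e) a)⁻¹ * a) * h⁻¹) * h * a⁻¹ := by group
        _ = _ := by rw [← h1]; group
    · rw [hb, ha, map_mul, map_mul, map_inv, hh']
      group
  · obtain ⟨c, hc⟩ := hLe x⁻¹
    have hx' : σ x = x := hx
    have h1 : (σ ^ e) c = x * c := by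
      rw [← inv_inv x, hc]
      group
    refine ⟨_, ?_, c⁻¹, rfl, by rw [map_inv, h1]; group⟩
    change (σ ^ e) _ = c⁻¹ * (σ c⁻¹)⁻¹
    rw [map_mul, map_inv, map_inv, ← hcomm, map_inv, h1, map_inv, map_inv, map_mul, hx']
    group

end Cfsg.Agent.S2666
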