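import Mathlib
import Cfsg.Statements.S2669

set_option autoImplicit false
open Cfsg

namespace Cfsg.Agent.S2669

theorem card_pairs {X A : Type*} [Group X] (τ : MulAut X) (Y : Subgroup X)
    (hY : ∀ y ∈ Y, τ y ∈ Y) (hL : ∀ y ∈ Y, ∃ a ∈ Y, y = a * (τ a)⁻¹) (f : A → X) :
    Nat.card {a // f a ∈ Y} *
      Nat.card ↥(Y ⊓ (MulEquiv.toMonoidHom τ).eqLocus (MonoidHom.id X)) =
      Nat.card {p : A × X // p.2 ∈ Y ∧ f p.1 = p.2 * (τ p.2)⁻¹} := by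
  choose s hs1 hs2 using hL
  rw [← Nat.card_prod]
  refine Nat.card_congr (Equiv.ofBijective (fun x => ⟨(x.1.1, s _ x.1.2 * x.2.1),
    Y.mul_mem (hs1 _ _) x.2.2.1, ?_⟩) ⟨?_, ?_⟩)
  · have h : τ x.2.1 = x.2.1 := x.2.2.2
    simp only [map_mul, h]
    conv_lhs => rw [hs2 _ x.1.2]
    group
  · rintro ⟨⟨a, ha⟩, z⟩ ⟨⟨b, hb⟩, w⟩ h
    have h1 := Prod.ext_iff.1 (congrArg Subtype.val h)
    obtain rfl : a = b := h1.1
    rw [Subtype.ext (mul_left_cancel h1.2 : z.1 = w.1)]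
  · rintro ⟨⟨a, y⟩, hy, h⟩
    have ha : f a ∈ Y := h ▸ Y.mul_mem hy (Y.inv_mem (hY y hy))
    refine ⟨⟨⟨a, ha⟩, ⟨(s _ ha)⁻¹ * y, Y.mul_mem (Y.inv_mem (hs1 _ _)) hy, ?_⟩⟩,
      Subtype.ext (Prod.ext rfl (by simp))⟩
    change τ _ = (s _ ha)⁻¹ * y
    have h1 := (hs2 _ ha).symm.trans h
    rw [map_mul, map_inv]
    calc (τ (s _ ha))⁻¹ * τ y = (s _ ha)⁻¹ * (s _ ha * (τ (s _ ha))⁻¹) * τ y := by group
      _ = _ := by rw [h1]; group

/-- Shintani descent preserves numbers of fixed points on coset spaces (abstract form). Let `σ` be an automorphism of a group `X` and `e ≥ 1`; write `G` for the fixed points of `σᵉ` and `H` for the fixed points of `σ`, and assume `G` is finite. Let `Y` be a `σ`-stable subgroup of `X` on which the maps `a ↦ a σ(a)⁻¹` and `a ↦ a σᵉ(a)⁻¹` are surjective (as for a closed connected `σ`-stable subgroup of an algebraic group). Let `g ∈ G`, let `a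 ∈ X` satisfy `g = a σ(a)⁻¹` and put `x = σᵉ(a)⁻¹ a` (the Shintani image, an element of `H`). The element `g σ` of the semidirect product acts on the cosets of `Y ∩ G` in `G` by `k (Y ∩ G) ↦ g σ(k) (Y ∩ G)`, fixing that coset exactly when `k⁻¹ g σ(k) ∈ Y`; and `x` fixes the coset `h (Y ∩ H)` of `H` exactly when `h⁻¹ x h ∈ Y`. Then the two numbers of fixed cosets agree; in cross-multiplied form, `#{k ∈ G : k⁻¹ g σ(k) ∈ Y} · |Y ∩ H| = #{h ∈ H : h⁻¹ x h ∈ Y} · |Y ∩ G|`. -/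
theorem result {X : Type*} [Group X] (σ : MulAut X) (e : ℕ) (he : 1 ≤ e)
    [Finite ↥((MulEquiv.toMonoidHom (σ ^ e)).eqLocus (MonoidHom.id X))]
    (Y : Subgroup X) (hY : ∀ y : X, y ∈ Y ↔ σ y ∈ Y)
    (hYL : ∀ y ∈ Y, ∃ a ∈ Y, y = a * (σ a)⁻¹) (hYLe : ∀ y ∈ Y, ∃ a ∈ Y, y = a * ((σ ^ e) a)⁻¹)
    (g : X) (hg : g ∈ (MulEquiv.toMonoidHom (σ ^ e)).eqLocus (MonoidHom.id X)) (a : X) (ha : g = a * (σ a)⁻¹) :
    Nat.card {k : ↥((MulEquiv.toMonoidHom (σ ^ e)).eqLocus (MonoidHom.id X)) // (k : X)⁻¹ * g * σ k ∈ Y} *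
        Nat.card ↥(Y ⊓ (MulEquiv.toMonoidHom σ).eqLocus (MonoidHom.id X)) =
      Nat.card {h : ↥((MulEquiv.toMonoidHom σ).eqLocus (MonoidHom.id X)) // (h : X)⁻¹ * (((σ ^ e) a)⁻¹ * a) * h ∈ Y} *
        Nat.card ↥(Y ⊓ (MulEquiv.toMonoidHom (σ ^ e)).eqLocus (MonoidHom.id X)) := by
  have hfix : ∀ h : X, σ h = h → (σ ^ e) h = h := fun h hh => by
    clear hYLe he hg
    rename_i hfin
    clear hfin
    induction e with
    | zero => rfl
    | succ e ih => rw [pow_succ, MulAut.mul_apply, hh, ih]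
  have hYe : ∀ y ∈ Y, (σ ^ e) y ∈ Y := fun y hy => by
    clear hYLe he hg hfix
    rename_i hfin
    clear hfin
    induction e with
    | zero => exact hy
    | succ e ih => rw [pow_succ', MulAut.mul_apply, ← hY]; exact ih
  rw [card_pairs σ Y (fun y => (hY y).1) hYL, Nat.card_congr (Equiv.subtypeEquivRight
    fun h : (MulEquiv.toMonoidHom σ).eqLocus (MonoidHom.id X) => (Y.inv_mem_iff (x := (h : X)⁻¹ * (((σ ^ e) a)⁻¹ * a) * h)).symm),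
    card_pairs (σ ^ e) Y hYe hYLe]
  refine Nat.card_congr
    { toFun := fun p => ⟨(⟨a⁻¹ * p.1.1 * p.1.2, ?_⟩, p.1.2⁻¹), Y.inv_mem p.2.1, ?_⟩
      invFun := fun p => ⟨(⟨a * p.1.1 * p.1.2, ?_⟩, p.1.2⁻¹), Y.inv_mem p.2.1, ?_⟩
      left_inv := fun p => Subtype.ext (Prod.ext (Subtype.ext (by simp [mul_assoc])) (by simp))
      right_inv := fun p => Subtype.ext (Prod.ext (Subtype.ext (by simp [mul_assoc])) (by simp)) }
  · obtain ⟨⟨⟨k, hk⟩, y⟩, hy, h⟩ := p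
    change σ _ = a⁻¹ * k * y
    simp only [ha] at h
    rw [map_mul, map_mul, map_inv]
    calc (σ a)⁻¹ * σ k * σ y = a⁻¹ * k * (k⁻¹ * (a * (σ a)⁻¹) * σ k) * σ y := by group
      _ = _ := by rw [h]; group
  · obtain ⟨⟨⟨k, hk⟩, y⟩, hy, h⟩ := p
    have hk' : (σ ^ e) k = k := hk
    have h1 : σ (a⁻¹ * k * y) = a⁻¹ * k * y := by
      simp only [ha] at h
      rw [map_mul, map_mul, map_inv]
      calc (σ a)⁻¹ * σ k * σ y = a⁻¹ * k * (k⁻¹ * (a * (σ a)⁻¹) * σ k) * σ y := by group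
        _ = _ := by rw [h]; group
    have h2 := hfix _ h1
    rw [map_mul, map_mul, map_inv, hk'] at h2
    change ((a⁻¹ * k * y)⁻¹ * (((σ ^ e) a)⁻¹ * a) * (a⁻¹ * k * y))⁻¹ = y⁻¹ * ((σ ^ e) y⁻¹)⁻¹
    conv_lhs => enter [1, 1, 1]; rw [← h2]
    rw [map_inv]
    group
  · obtain ⟨⟨⟨h, hh⟩, y⟩, hy, h1⟩ := p
    have hh' : σ h = h := hh
    change (σ ^ e) _ = a * h * y
    simp only at h1
    rw [map_mul, map_mul, hfix h hh']
    calc (σ ^ e) a * h * (σ ^ e) y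
        = a * h * (h⁻¹ * (((σ ^ e) a)⁻¹ * a) * h)⁻¹ * (σ ^ e) y := by group
      _ = _ := by rw [h1]; group
  · obtain ⟨⟨⟨h, hh⟩, y⟩, hy, h1⟩ := p
    have hh' : σ h = h := hh
    change (a * h * y)⁻¹ * g * σ (a * h * y) = y⁻¹ * (σ y⁻¹)⁻¹
    rw [ha, map_mul, map_mul, hh', map_inv]
    group

end Cfsg.Agent.S2669
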