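import Mathlib
import Cfsg.Statements.S2672
import Cfsg.Agent.Cl.ClassProj

set_option autoImplicit false
open Cfsg

namespace Cfsg.Agent.S2672

/-- Number of conjugacy classes of elements of odd prime order r in PGU_n(q) = GU_n(q)/scalars (n ≥ 3) when r divides q + 1: as in the linear case with q − 1 replaced by q + 1, the classes correspond to the rotation orbits on r-tuples of eigenvalue multiplicities summing to n with every entry < n, plus r − 1 further classes when r divides n; in all (C(n+r−1, r−1) − r − [r ∣ n])/r + r·[r ∣ n]. -/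
theorem result {K : Type*} [Field K] [Fintype K] {q n r : ℕ} (hK : Fintype.card K = q ^ 2) (hn : 3 ≤ n) (hr : r.Prime) (hr2 : r ≠ 2) (hrq : r ∣ q + 1) : Nat.card {C : ConjClasses (↥(Cfsg.GU n K q) ⧸ Subgroup.center ↥(Cfsg.GU n K q)) // ∃ g : ↥(Cfsg.GU n K q) ⧸ Subgroup.center ↥(Cfsg.GU n K q), ConjClasses.mk g = C ∧ orderOf g = r} = (Nat.choose (n + r - 1) (r - 1) - r - (if r ∣ n then 1 else 0)) / r + r * (if r ∣ n then 1 else 0) := by
  have : NeZero n := ⟨by omega⟩
  obtain ⟨σ, hσ⟩ := Cl.exists_uField hK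
  have h2 : ((-1 : ℤ) * ((q + 1 : ℕ) : ℤ) + 1) = -(q : ℤ) := by omega
  have h := Cl.Cls.card_conjClasses_proj_prime (K := AlgebraicClosure K)
    ((Units.coeHom (Matrix (Fin n) (Fin n) K)).comp (Cfsg.GU n K q).subtype)
    (fun _ _ h => Subtype.ext (Units.ext h))
    (fun a b h => (Cl.Cls.isConj_GU_iff hσ a b).2 (Cl.Cls.isConj_units_iff.2 h)) (m := q + 1)
    (by rw [Nat.cast_succ, hσ.cast_eq_zero]; simp) (ε := -1) (Or.inr rfl)
    (fun g => by
      simp only [h2, zpow_neg, zpow_natCast]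
      exact Cl.Cls.evM_map_of_mem_GU hσ g)
    (fun R h3 h4 h5 => Cl.Cls.exists_GU_isSS_evM hσ
      (by simpa only [h2, zpow_neg, zpow_natCast] using h3) (by simpa using h4) h5)
    (fun g => hσ.mem_center_GU_iff) (fun g a h => Cl.Cls.pow_eq_one_of_GU_eq_smul hσ h)
    (fun c hc => Cl.Cls.exists_GU_eq_smul hσ hc) hr hrq
  rwa [Fintype.card_fin] at h

end Cfsg.Agent.S2672
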