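import Mathlib
import Cfsg.Statements.S2673
import Cfsg.Agent.Cl.ClassSpOPrime

set_option autoImplicit false
open Cfsg

namespace Cfsg.Agent.S2673

/-- Number of conjugacy classes of elements of odd prime order r ≠ p in the orthogonal group O_(2m+1)(q) of x_0² + Σ x_j y_j, q odd: with i the multiplicative order of q mod r and t = (r − 1)/i, there are C(⌊m/i⌋ + t/2, t/2) − 1 classes if i is odd (dual pairs of totally singular i-blocks) and C(⌊(2m+1)/i⌋ + t, t) − 1 if i is even (elliptic i-blocks). -/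
theorem result {F : Type*} [Field F] [Fintype F] {p q : ℕ} [Fact p.Prime] [CharP F p] (hF : Fintype.card F = q) (hq : Odd q) (m r i t : ℕ) (hr : r.Prime) (hr2 : r ≠ 2) (hrp : r ≠ p) (hi : i = orderOf (q : ZMod r)) (ht : t * i = r - 1) : Nat.card {C : ConjClasses ↥(Cfsg.isometryGroup F (Cfsg.quadFormOdd m F)) // ∃ g : ↥(Cfsg.isometryGroup F (Cfsg.quadFormOdd m F)), ConjClasses.mk g = C ∧ orderOf g = r} = if Odd i then Nat.choose (m / i + t / 2) (t / 2) - 1 else Nat.choose ((2 * m + 1) / i + t) t - 1 := by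
  subst hF hi
  have := Fact.mk hr
  have hr0 : (r : F) ≠ 0 := by
    rwa [Ne, CharP.cast_eq_zero_iff F p, Nat.prime_dvd_prime_iff_eq Fact.out hr, eq_comm]
  have h2 := Cl.o_two_ne_zero_of_odd_card hq
  refine (Cl.SpO.card_classes_omat (Cl.quad_odd m F) r).trans ?_
  split_ifs with h
  · rw [Cl.SpO.card_prime_classes_odd h2 hr2 hr0 (Cl.SpO.half_mul_hord hr2 h ht), Cl.SpO.hord,
      if_pos h, Nat.succ_div_of_not_dvd fun h3 => by
        have := (dvd_mul_right _ _).trans h3
        omega, Nat.mul_div_mul_left _ _ two_pos]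
  · rw [Cl.SpO.card_prime_classes_odd h2 hr2 hr0 (t := t) (by rwa [Cl.SpO.hord, if_neg h]),
      Cl.SpO.hord, if_neg h]

end Cfsg.Agent.S2673
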