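import Mathlib
import Cfsg.Statements.S2674
import Cfsg.Agent.Cl.ClassSpOPrime

set_option autoImplicit false
open Cfsg

namespace Cfsg.Agent.S2674

/-- Number of conjugacy classes of elements of odd prime order r ≠ p in the orthogonal group O⁺_2m(q) of Σ x_j y_j (m ≥ 1): with i the multiplicative order of q mod r and t = (r − 1)/i — if i is odd, C(⌊m/i⌋ + t/2, t/2) − 1; if i is even, C(⌊2m/i⌋ + t, t) − 1 minus, when i divides 2m with odd quotient, the C(2m/i + t − 1, t − 1) tuples using the whole space (an odd number of elliptic i-blocks fills an elliptic, not a hyperbolic, space). -/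
theorem result {F : Type*} [Field F] [Fintype F] {p q : ℕ} [Fact p.Prime] [CharP F p] (hF : Fintype.card F = q) (m r i t : ℕ) (hm : 1 ≤ m) (hr : r.Prime) (hr2 : r ≠ 2) (hrp : r ≠ p) (hi : i = orderOf (q : ZMod r)) (ht : t * i = r - 1) : Nat.card {C : ConjClasses ↥(Cfsg.isometryGroup F (Cfsg.quadFormPlus m F)) // ∃ g : ↥(Cfsg.isometryGroup F (Cfsg.quadFormPlus m F)), ConjClasses.mk g = C ∧ orderOf g = r} = if Odd i then Nat.choose (m / i + t / 2) (t / 2) - 1 else Nat.choose (2 * m / i + t) t - 1 - (if i ∣ 2 * m ∧ Odd (2 * m / i) then Nat.choose (2 * m / i + t - 1) (t - 1) else 0) := by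
  subst hF hi
  have := Fact.mk hr
  have hr0 : (r : F) ≠ 0 := by
    rwa [Ne, CharP.cast_eq_zero_iff F p, Nat.prime_dvd_prime_iff_eq Fact.out hr, eq_comm]
  obtain ⟨m, rfl⟩ := Nat.exists_eq_add_one_of_ne_zero (Nat.one_le_iff_ne_zero.1 hm)
  refine (Cl.SpO.card_classes_omat (Cl.quad_plus (m + 1) F) r).trans ?_
  have key := fun t => Cl.SpO.card_prime_classes_even hr2 hr0 Cl.quad_plus_nondeg
    Cl.o_finrank_plus (.inl ⟨Cl.ozeros_plus (F := F) m, rfl⟩) (t := t)
  simp only [Ne, ← orderOf_dvd_iff_pow_eq_one] at key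
  by_cases h : Odd (orderOf (Fintype.card F : ZMod r))
  · rw [if_pos h, key _ (Cl.SpO.half_mul_hord hr2 h ht), Cl.SpO.hord, if_pos h,
      Nat.mul_div_mul_left _ _ two_pos,
      if_neg fun h3 => h3.1 (Nat.dvd_of_mul_dvd_mul_left two_pos h3.2), Nat.sub_zero]
  · rw [if_neg h, key t (by rwa [Cl.SpO.hord, if_neg h]), Cl.SpO.hord, if_neg h]
    congr 1
    refine if_congr (and_comm.trans (and_congr_right ?_)) rfl rfl
    have h0 := Cl.SpO.orderOf_cast_pos (Cl.SpO.cast_card_ne_zero hr0)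
    obtain ⟨j, hj⟩ := Nat.not_odd_iff_even.1 h
    rw [hj, ← two_mul] at h0 ⊢
    rintro ⟨k, hk⟩
    rw [hk, Nat.mul_div_cancel_left _ h0, show m + 1 = j * k by linarith, mul_comm 2 j,
      Nat.mul_dvd_mul_iff_left (by omega), ← even_iff_two_dvd, Nat.not_even_iff_odd]

end Cfsg.Agent.S2674
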