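import Mathlib
import Cfsg.Statements.S2677
import Cfsg.Agent.Cl.ClassFix
import Cfsg.Agent.Cl.ClassU
import Cfsg.Agent.Cl.UOrder

set_option autoImplicit false
open Cfsg

namespace Cfsg.Agent.S2677

/-- Centraliser of a field automorphism of odd prime order in PGU_n(q): let q = q₀^r with r an odd prime, K the field with q² elements and σ a field automorphism of K of order r (fixed field of order q₀²). The elements g of GU_n(q) whose entrywise image under σ is a scalar multiple of g — those whose coset modulo the q + 1 unitary scalars is fixed by σ — number (q + 1)/(q₀ + 1) · |GU_n(q₀)|; equivalently the centraliser in PGU_n(q) of the induced automorphism has the order of PGU_n(q₀). -/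
theorem result {K : Type*} [Field K] [Fintype K] {q₀ q r n : ℕ} (hr : r.Prime) (hr2 : r ≠ 2) (hn : 1 ≤ n) (hq : q = q₀ ^ r) (hK : Fintype.card K = q ^ 2) (σ : K ≃+* K) (hσ : orderOf σ = r) : (Nat.card {g : ↥(Cfsg.GU n K q) // ∃ c : K, c ≠ 0 ∧ ((g : GL (Fin n) K) : Matrix (Fin n) (Fin n) K).map σ = c • ((g : GL (Fin n) K) : Matrix (Fin n) (Fin n) K)} : ℤ) = ((q + 1) / (q₀ + 1) : ℕ) * ((q₀ : ℤ) ^ (n * (n - 1) / 2) * ∏ i : Fin n, ((q₀ : ℤ) ^ ((i : ℕ) + 1) - (-1) ^ ((i : ℕ) + 1))) := by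
  have : Nonempty (Fin n) := ⟨⟨0, hn⟩⟩
  have hro : Odd r := hr.odd_of_ne_two hr2
  obtain ⟨τ, hτ⟩ := Cl.exists_uField hK
  have he : ∀ a, σ a = a ↔ ∃ b, (Cl.Aut.fixF σ).subtype b = a := fun a =>
    ⟨fun h => ⟨⟨a, h⟩, rfl⟩, fun ⟨b, hb⟩ => hb ▸ b.2⟩
  have := Fintype.ofFinite (Cl.Aut.fixF σ)
  have h0 : Fintype.card (Cl.Aut.fixF σ) = q₀ ^ 2 := by
    have h := Cl.Aut.card_eq_card_fixF_pow σ
    rw [Nat.card_eq_fintype_card, hK, hσ, hq, ← pow_mul, mul_comm, pow_mul,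
      Nat.card_eq_fintype_card] at h
    exact (Nat.pow_left_injective hr.ne_zero h).symm
  obtain ⟨τ₀, hτ₀⟩ := Cl.exists_uField h0
  set e := (Cl.Aut.fixF σ).subtype with he'
  have h3 : ∀ a, τ (e a) = e (τ₀ a) := fun a => by
    obtain ⟨k, hk⟩ := hro
    rw [hτ.pow, hτ₀.pow, hq, hk, pow_succ, pow_mul q₀, ← h0, pow_mul, ← map_pow,
      FiniteField.pow_card_pow, map_pow]
  have h4 : ∀ a, σ (τ a) = τ (σ a) := fun a => by rw [hτ.pow, hτ.pow, map_pow]
  have h5 : ∀ h : GL (Fin n) (Cl.Aut.fixF σ), Cl.Aut.glMap (Fin n) e h ∈ Cfsg.GU n K q ↔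
      h ∈ Cfsg.GU n (Cl.Aut.fixF σ) q₀ := fun h => by
    have h6 : Cl.Cls.uStar τ (h.val.map e) = (Cl.Cls.uStar τ₀ h.val).map e := by
      ext i j
      exact h3 _
    rw [Cl.Cls.mem_GU_iff_uStar hτ, Cl.Cls.mem_GU_iff_uStar hτ₀, Cl.Aut.coe_glMap, h6,
      ← Matrix.map_mul, ← (Matrix.map_injective e.injective).eq_iff]
    simp only [Matrix.map_one _ (map_zero e) (map_one e)]
  have h6 : ∀ a ∈ Cl.uNormOne τ, Cl.Aut.scal (Fin n) K a ∈ Cfsg.GU n K q := fun a ha => by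
    rw [Cl.Cls.mem_GU_iff_uStar hτ, Cl.Aut.coe_scal, Cl.Cls.uStar_smul, Cl.Cls.uStar_one,
      smul_mul_smul_comm, mul_comm, Cl.mem_uNormOne.1 ha, one_mul, one_smul]
  have h7 : ∀ c, c ∈ Cl.uNormOne τ₀ ↔ Units.map (e : Cl.Aut.fixF σ →* K) c ∈ Cl.uNormOne τ :=
    fun c => by
      rw [Cl.mem_uNormOne, Cl.mem_uNormOne, Units.coe_map, MonoidHom.coe_coe, h3, ← map_mul,
        map_eq_one_iff e e.injective]
  have h1 := Cl.Cls.card_scal_mul_glMap (ι := Fin n) e (Cl.uNormOne τ)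
    (Cfsg.GU n (Cl.Aut.fixF σ) q₀) (Cl.uNormOne τ₀) h7 fun c hc => by
      rw [← h5, Cl.Aut.glMap_scal]
      exact h6 _ ((h7 c).1 hc)
  have h8 : q₀ + 1 ∣ q + 1 := by simpa [hq] using hro.nat_add_dvd_pow_add_pow q₀ 1
  rw [hτ.card_uNormOne, hτ₀.card_uNormOne, hτ₀.card_GU, ← Nat.div_mul_cancel h8,
    mul_right_comm] at h1
  have h9 : (Cl.uOrd q₀ n : ℤ) = (q₀ : ℤ) ^ (n * (n - 1) / 2) *
      ∏ i : Fin n, ((q₀ : ℤ) ^ ((i : ℕ) + 1) - (-1) ^ ((i : ℕ) + 1)) := by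
    rw [Cl.uOrd, Finset.prod_range]
    push_cast
    refine congrArg _ (Finset.prod_congr rfl fun j _ => ?_)
    have := hτ₀.two_le
    split_ifs with hj
    · rw [hj.add_one.neg_one_pow, sub_neg_eq_add]
    · rw [(Nat.not_even_iff_odd.1 hj).add_one.neg_one_pow,
        Nat.cast_sub (Nat.one_le_pow _ _ (by omega))]
      simp
  rw [← h9, ← Nat.cast_mul, ← Nat.eq_of_mul_eq_mul_right (by omega) h1, Nat.cast_inj]
  refine Nat.card_congr ((Equiv.subtypeSubtypeEquivSubtypeInter (· ∈ Cfsg.GU n K q)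
    fun g : GL (Fin n) K => ∃ c : K, c ≠ 0 ∧ g.val.map σ = c • g.val).trans
    (Equiv.subtypeEquivRight fun g => ⟨?_, ?_⟩))
  · rintro ⟨hg, c, hc, h⟩
    obtain ⟨i, j, hij⟩ := Cl.Cls.exists_entry_ne_zero g
    have h10 : σ (g.val i j) = c * g.val i j := congrFun (congrFun h i) j
    have hg' := (Cl.Cls.mem_GU_iff_uStar hτ g).1 hg
    have h11 : c * τ c = 1 := by
      have h11 : Cl.Cls.uStar τ (g.val.map σ) * g.val.map σ = 1 := by
        have h12 : Cl.Cls.uStar τ (g.val.map σ) = (Cl.Cls.uStar τ g.val).map σ := by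
          ext i j
          exact (h4 _).symm
        rw [h12, ← Matrix.map_mul (f := σ), hg', Matrix.map_one _ (map_zero σ) (map_one σ)]
      rw [h, Cl.Cls.uStar_smul, smul_mul_smul_comm, hg'] at h11
      simpa [mul_comm] using congrFun (congrFun h11 i) i
    obtain ⟨N, hN⟩ := (he (g.val i j * τ (g.val i j))).1 (by
      rw [map_mul, h4, h10, map_mul, mul_mul_mul_comm, h11, one_mul])
    obtain ⟨b, hb⟩ := hτ₀.exists_norm_eq (a := N) (e.injective (by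
      rw [← h3, hN, hτ.invol.norm_fixed]))
    have hb1 : e b * τ (e b) = g.val i j * τ (g.val i j) := by rw [h3, ← map_mul, hb, hN]
    have hij' : τ (g.val i j) ≠ 0 := (map_ne_zero τ).2 hij
    have hb0 : e b ≠ 0 := left_ne_zero_of_mul (hb1 ▸ mul_ne_zero hij hij')
    have ha : Units.mk0 _ (div_ne_zero hb0 hij) ∈ Cl.uNormOne τ := by
      rw [Cl.mem_uNormOne, Units.val_mk0, map_div₀, div_mul_div_comm, hb1,
        div_self (mul_ne_zero hij hij')]
    obtain ⟨g₀, hg₀⟩ := Cl.Cls.exists_glMap_eq_scal_mul he h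
      (a := Units.mk0 _ (div_ne_zero hb0 hij)) (by
        rw [Units.val_mk0, map_div₀, h10, (he _).2 ⟨b, rfl⟩]
        field_simp)
    exact ⟨_, inv_mem ha, g₀, (h5 g₀).1 (hg₀ ▸ mul_mem (h6 _ ha) hg),
      by rw [hg₀, map_inv, inv_mul_cancel_left]⟩
  · rintro ⟨a, ha, h, hh, rfl⟩
    exact ⟨mul_mem (h6 a ha) ((h5 h).2 hh), _, by simp, Cl.Cls.map_scal_mul_glMap he a h⟩

end Cfsg.Agent.S2677
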