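import Mathlib
import Cfsg.Statements.S2679
import Cfsg.Agent.Cl.ClassSpOMisc
import Cfsg.Agent.Cl.Transport

set_option autoImplicit false
open Cfsg

namespace Cfsg.Agent.S2679

/-- An elliptic orthogonal group embeds in the hyperbolic orthogonal group of the same dimension over the quadratic extension: for a field F with q elements and a field K with q² elements there is an injective homomorphism from O⁻_2m(F) (isometries of Σ_(j<m−1) x_j y_j + z₁² + a z₁z₂ + c z₂², binary part anisotropic) to O⁺_2m(K) (isometries of Σ_(j<m) x_j y_j over K). -/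
theorem result {F K : Type*} [Field F] [Fintype F] [Field K] [Fintype K] {q : ℕ} (hF : Fintype.card F = q) (hK : Fintype.card K = q ^ 2) {m : ℕ} (hm : 1 ≤ m) (a c : F) (hac : ∀ z₁ z₂ : F, z₁ ^ 2 + a * z₁ * z₂ + c * z₂ ^ 2 = 0 → z₁ = 0 ∧ z₂ = 0) : ∃ φ : ↥(Cfsg.isometryGroup F (Cfsg.quadFormMinus (m - 1) F a c)) →* ↥(Cfsg.isometryGroup K (Cfsg.quadFormPlus m K)), Function.Injective φ := by
  obtain ⟨_, σ, -, h⟩ := Cl.exists_oQuadExt hF hK
  obtain ⟨k, hk⟩ := h.exists_equiv_binary hac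
  obtain ⟨t, ht⟩ : ∃ t : K, t ^ 2 + algebraMap F K a * t + algebraMap F K c = 0 := by
    have h1 := h.alg_onorm (k ![1, 0])
    have h2 := h.alg_onorm (k ![0, 1])
    have h3 := h.alg_onorm (k ![1, 1])
    have h4 : k ![1, 1] = k ![1, 0] + k ![0, 1] := by rw [← map_add]; simp
    rw [hk] at h1 h2 h3
    rw [h4, map_add σ] at h3
    simp only [Matrix.cons_val_zero, Matrix.cons_val_one, one_pow, mul_one, mul_zero, ne_eq,
      OfNat.ofNat_ne_zero, not_false_eq_true, zero_pow, add_zero, zero_add, zero_mul,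
      map_add, map_one] at h1 h2 h3
    refine ⟨-(k ![0, 1] * σ (k ![1, 0])), ?_⟩
    linear_combination (-(k ![0, 1] * σ (k ![1, 0]))) * h3 +
      (k ![0, 1] * σ (k ![1, 0]) + 1) * h2 +
      (k ![0, 1] * σ (k ![1, 0]) + k ![0, 1] * σ (k ![0, 1])) * h1
  obtain ⟨ψ, hψ, -⟩ := Cl.SpO.exists_isometry_map_hom (algebraMap F K)
    (Cfsg.quadFormMinus (m - 1) F a c)
    (Cl.quad_minus (m - 1) K (algebraMap F K a) (algebraMap F K c)) fun v => by
      simp [Cl.quad_minus_apply, Cfsg.quadFormMinus]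
  obtain ⟨L, hL, hLm⟩ := Cl.SpO.minus_exists_singular_of_root (m - 1) ht
  have hd : algebraMap F K a ^ 2 - 4 * algebraMap F K c ≠ 0 := by
    have := (map_ne_zero (algebraMap F K)).2 (Cl.o_disc_ne_zero_of_anisotropic hac)
    simpa [map_ofNat] using this
  obtain ⟨e, he⟩ := Cl.quad_equiv_plus_of_singular (Cl.quad_minus_nondeg hd) (m := m)
    (by rw [Cl.o_finrank_minus]; omega) hL (by omega)
  exact ⟨(Cl.isometryGroupCongr e he).toMonoidHom.comp ψ,
    (Cl.isometryGroupCongr e he).injective.comp hψ⟩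

end Cfsg.Agent.S2679
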