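import Mathlib
import Cfsg.Statements.S2680
import Cfsg.Agent.Cl.ClassSpOInv

set_option autoImplicit false
open Cfsg

namespace Cfsg.Agent.S2680

/-- Centraliser order of an involution t of Sp_2m(q), q even, with s = rank(t − 1) odd (type b_s): |C(t)| = q^(2ms − (3s² − s)/2) · |Sp_(s−1)(q)| · |Sp_(2m−2s)(q)|, where |Sp_2k(q)| = q^(k²) Π_(i=1)^k (q^(2i) − 1). -/
theorem result {F : Type*} [Field F] [Fintype F] [CharP F 2] {q : ℕ} (hF : Fintype.card F = q) {m s : ℕ} (t : Matrix.symplecticGroup (Fin m) F) (ht : t ^ 2 = 1) (hs : ((t : Matrix (Fin m ⊕ Fin m) (Fin m ⊕ Fin m) F) - 1).rank = s) (hodd : Odd s) : Nat.card ↥(Subgroup.centralizer ({t} : Set ↥(Matrix.symplecticGroup (Fin m) F))) = q ^ (2 * m * s - (3 * s ^ 2 - s) / 2) * ((q : ℕ) ^ (((s - 1) / 2) ^ 2) * ∏ i : Fin ((s - 1) / 2), (q ^ (2 * ((i : ℕ) + 1)) - 1)) * ((q : ℕ) ^ ((m - s) ^ 2) * ∏ i : Fin (m - s), (q ^ (2 * ((i : ℕ)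 + 1)) - 1)) := by
  have hA := Cl.spB_isAlt (m := m) (R := F)
  have hB := Cl.spB_nondegenerate (m := m) (R := F)
  let e := Cl.spStdEquiv m F
  have hr := (Cl.SpO.finrank_res_eq_rank t.1 (g := (e t).1) fun _ => rfl).trans hs
  have ha' := Cl.SpO.invol_of_sq (a := e t) (by rw [← map_pow, ht, map_one])
  have hle := Cl.SpO.inv_two_mul_le hB (e t).2 ha'
  rw [hr, Cl.sp_finrank_std] at hle
  obtain ⟨j, rfl⟩ : ∃ j, m = s + j := ⟨m - s, by omega⟩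
  obtain ⟨k, hk⟩ := hodd
  rw [← Cl.SpO.card_centralizer_congr e, Cl.SpO.inv_card_centralizer_sp hB hA _ ha' hr
    Cl.sp_finrank_std, Cl.SpO.card_symm_odd (k := k) (Cl.SpO.wallB_nondeg hB (e t).2)
    (Cl.SpO.inv_wall_isSymm hA (e t).2 ha') (hr.trans hk), ← Cl.SpO.spOrd_eq_fin,
    ← Cl.SpO.spOrd_eq_fin, Nat.card_eq_fintype_card, hF, show s + j - s = j by omega,
    show (s - 1) / 2 = k by omega, Cl.SpO.exp_inv_eq]
  ring

end Cfsg.Agent.S2680
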