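import Mathlib
import Cfsg.Statements.S2681
import Cfsg.Agent.Cl.ClassSpOInv

set_option autoImplicit false
open Cfsg

namespace Cfsg.Agent.S2681

/-- Centraliser order of an involution t of Sp_2m(q), q even, with s = rank(t − 1) even and f(v, tv) = 0 for every v, f the symplectic form (type a_s): |C(t)| = q^(2ms − (3s² − s)/2) · |Sp_s(q)| · |Sp_(2m−2s)(q)|. -/
theorem result {F : Type*} [Field F] [Fintype F] [CharP F 2] {q : ℕ} (hF : Fintype.card F = q) {m s : ℕ} (t : Matrix.symplecticGroup (Fin m) F) (ht : t ^ 2 = 1) (ht1 : t ≠ 1) (hs : ((t : Matrix (Fin m ⊕ Fin m) (Fin m ⊕ Fin m) F) - 1).rank = s) (heven : Even s) (halt : ∀ v : Fin m ⊕ Fin m → F, Cfsg.sympForm m F v ((t : Matrix (Fin m ⊕ Fin m) (Fin m ⊕ Fin m) F).mulVec v) = 0) : Nat.card ↥(Subgroup.centralizer ({t} : Set ↥(Matrix.symplecticGroup (Fin m) F))) = q ^ (2 * m * s - (3 * s ^ 2 - s) / 2) * ((q : ℕ) ^ ((s / 2) ^ 2) * ∏ i : Fin (s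 / 2), (q ^ (2 * ((i : ℕ) + 1)) - 1)) * ((q : ℕ) ^ ((m - s) ^ 2) * ∏ i : Fin (m - s), (q ^ (2 * ((i : ℕ) + 1)) - 1)) := by
  have hA := Cl.spB_isAlt (m := m) (R := F)
  have hB := Cl.spB_nondegenerate (m := m) (R := F)
  let e := Cl.spStdEquiv m F
  have hr := (Cl.SpO.finrank_res_eq_rank t.1 (g := (e t).1) fun _ => rfl).trans hs
  have ha' := Cl.SpO.invol_of_sq (a := e t) (by rw [← map_pow, ht, map_one])
  have hle := Cl.SpO.inv_two_mul_le hB (e t).2 ha'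
  rw [hr, Cl.sp_finrank_std] at hle
  obtain ⟨j, rfl⟩ : ∃ j, m = s + j := ⟨m - s, by omega⟩
  obtain ⟨k, hk⟩ := heven
  have hw := (Cl.SpO.wallB_isAlt_iff hA (e t).2).2 fun v => (Cl.spB_apply _ _).trans (halt v)
  rw [← Cl.SpO.card_centralizer_congr e, Cl.SpO.inv_card_centralizer_sp hB hA _ ha' hr
    Cl.sp_finrank_std, Cl.SpO.card_SpG (m := k) (Cl.SpO.wallB_nondeg hB (e t).2) hw
    (hr.trans (by omega)), ← Cl.SpO.spOrd_eq_fin,
    ← Cl.SpO.spOrd_eq_fin, Nat.card_eq_fintype_card, hF, show s + j - s = j by omega,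
    show s / 2 = k by omega, Cl.SpO.exp_inv_eq]
  ring

end Cfsg.Agent.S2681
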