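import Mathlib
import Cfsg.Statements.S2682
import Cfsg.Agent.Cl.ClassSpOInv

set_option autoImplicit false
open Cfsg

namespace Cfsg.Agent.S2682

/-- Centraliser order of an involution t of Sp_2m(q), q even, with s = rank(t − 1) even and f(v, tv) ≠ 0 for some v, f the symplectic form (type c_s): |C(t)| = q^(2ms − (3s² − 3s)/2 − 1) · |Sp_(s−2)(q)| · |Sp_(2m−2s)(q)|. -/
theorem result {F : Type*} [Field F] [Fintype F] [CharP F 2] {q : ℕ} (hF : Fintype.card F = q) {m s : ℕ} (t : Matrix.symplecticGroup (Fin m) F) (ht : t ^ 2 = 1) (hs : ((t : Matrix (Fin m ⊕ Fin m) (Fin m ⊕ Fin m) F) - 1).rank = s) (heven : Even s) (hna : ∃ v : Fin m ⊕ Fin m → F, Cfsg.sympForm m F v ((t : Matrix (Fin m ⊕ Fin m) (Fin m ⊕ Fin m) F).mulVec v) ≠ 0) : Nat.card ↥(Subgroup.centralizer ({t} : Set ↥(Matrix.symplecticGroup (Fin m) F))) = q ^ (2 * m * s - (3 * s ^ 2 - 3 * s) / 2 - 1) * ((q : ℕ) ^ (((s - 2) / 2) ^ 2)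 * ∏ i : Fin ((s - 2) / 2), (q ^ (2 * ((i : ℕ) + 1)) - 1)) * ((q : ℕ) ^ ((m - s) ^ 2) * ∏ i : Fin (m - s), (q ^ (2 * ((i : ℕ) + 1)) - 1)) := by
  have hA := Cl.spB_isAlt (m := m) (R := F)
  have hB := Cl.spB_nondegenerate (m := m) (R := F)
  let e := Cl.spStdEquiv m F
  have hr := (Cl.SpO.finrank_res_eq_rank t.1 (g := (e t).1) fun _ => rfl).trans hs
  have ha' := Cl.SpO.invol_of_sq (a := e t) (by rw [← map_pow, ht, map_one])
  have hle := Cl.SpO.inv_two_mul_le hB (e t).2 ha'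
  rw [hr, Cl.sp_finrank_std] at hle
  obtain ⟨j, rfl⟩ : ∃ j, m = s + j := ⟨m - s, by omega⟩
  obtain ⟨v, hv⟩ := hna
  have hw : ¬ (Cl.SpO.wallB (Cl.spB (s + j) F) (e t).1).IsAlt := fun h =>
    hv ((Cl.spB_apply _ _).symm.trans ((Cl.SpO.wallB_isAlt_iff hA (e t).2).1 h v))
  have hs0 : s ≠ 0 := by
    intro h0
    have := Cl.SpO.finrank_res_eq_zero_iff.1 (hr.trans h0)
    refine hw ((Cl.SpO.wallB_isAlt_iff hA (e t).2).2 fun v => ?_)
    rw [this]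
    exact hA.self_eq_zero v
  obtain ⟨k, hk⟩ : ∃ k, s = 2 * (k + 1) := by
    obtain ⟨k, hk⟩ := heven
    exact ⟨k - 1, by omega⟩
  have hexp : 2 * (s + j) * s - (3 * s ^ 2 - 3 * s) / 2 - 1 =
      s * (s + 1) / 2 + 2 * s * j + (2 * k + 1) := by
    obtain ⟨a, ha⟩ := Nat.even_mul_succ_self s
    have h1 : s ^ 2 + s = a + a := by rw [← ha]; ring
    have h2 : 2 * (s + j) * s = 2 * s ^ 2 + 2 * (s * j) := by ring
    have h3 : 2 * s * j = 2 * (s * j) := by ring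
    have h4 : s ≤ s ^ 2 := Nat.le_self_pow two_ne_zero s
    rw [h2, h3, ha]
    omega
  rw [← Cl.SpO.card_centralizer_congr e, Cl.SpO.inv_card_centralizer_sp hB hA _ ha' hr
    Cl.sp_finrank_std, Cl.SpO.card_symm_even (k := k) (Cl.SpO.wallB_nondeg hB (e t).2)
    (Cl.SpO.inv_wall_isSymm hA (e t).2 ha') hw (hr.trans hk), ← Cl.SpO.spOrd_eq_fin,
    ← Cl.SpO.spOrd_eq_fin, Nat.card_eq_fintype_card, hF, show s + j - s = j by omega,
    show (s - 2) / 2 = k by omega, hexp]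
  ring

end Cfsg.Agent.S2682
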