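import Mathlib
import Cfsg.Statements.S2683
import Cfsg.Agent.Cl.ClassSpOCentO

set_option autoImplicit false
open Cfsg

namespace Cfsg.Agent.S2683

/-- For the hyperbolic form Σ x_j y_j on F^(2m) over a finite field with q elements, q even (excluding m = 2 over the field of two elements), and an involution x of the orthogonal group with s = rank(x − 1) odd (type b_s; such x lie outside Ω): the elements of Ω (the commutator subgroup of the orthogonal group) commuting with x number q^(2m(s−1) − (3s² − 3s)/2) · |Sp_(s−1)(q)| · |Sp_(2m−2s)(q)|, where |Sp_2k(q)| = q^(k²) Π_(i=1)^k (q^(2i) − 1). -/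
theorem result {F : Type*} [Field F] [Fintype F] [CharP F 2] {q : ℕ} (hF : Fintype.card F = q) {m s : ℕ} (h : Fintype.card F ≠ 2 ∨ m ≠ 2) (x : ↥(Cfsg.isometryGroup F (Cfsg.quadFormPlus m F))) (hx : x ^ 2 = 1) (hs : (((x : Matrix.GeneralLinearGroup (Fin m ⊕ Fin m) F) : Matrix (Fin m ⊕ Fin m) (Fin m ⊕ Fin m) F) - 1).rank = s) (hodd : Odd s) : Nat.card {g : ↥(Cfsg.Omega F (Cfsg.quadFormPlus m F)) // (g : ↥(Cfsg.isometryGroup F (Cfsg.quadFormPlus m F))) * x = x * (g : ↥(Cfsg.isometryGroup F (Cfsg.quadFormPlus m F)))} = q ^ (2 * m * (s - 1) - (3 * s ^ 2 - 3 * s) / 2) * ((q : ℕ) ^ (((s - 1) / 2) ^ 2) * ∏ i : Fin ((s - 1) / 2), (q ^ (2 * ((i : ℕ) + 1)) - 1)) * ((q : ℕ) ^ ((m - s) ^ 2) * ∏ i : Fin (m - s), (q ^ (2 * ((i : ℕ) + 1)) - 1)) := by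
  have hQ := Cl.quad_plus_nondeg (m := m) (F := F)
  have hexc : ¬ Cl.OExc (Cl.quad_plus m F) := Cl.quad_not_oExc (by rw [Cl.o_finrank_plus]; omega)
  have hr := (Cl.SpO.finrank_res_omat (P := Cl.quad_plus m F) x).trans hs
  have hg := fun u v => Cl.OG.polar_app (Cl.omatEquiv (Cl.quad_plus m F) x) u v
  have ha' := Cl.SpO.invol_of_sq (a := Cl.omatEquiv (Cl.quad_plus m F) x)
    ((map_pow _ _ _).symm.trans ((congrArg _ hx).trans (map_one _)))
  have hle := Cl.SpO.inv_two_mul_le hQ hg ha'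
  rw [hr, Cl.o_finrank_plus] at hle
  obtain ⟨a, rfl⟩ := hodd
  obtain ⟨j, rfl⟩ : ∃ j, m = 2 * a + j + 1 := ⟨m - (2 * a + 1), by omega⟩
  refine (Cl.SpO.card_comm_Omega_plus_nonalt hexc x hx hr fun h => ?_).trans ?_
  · have := Cl.SpO.even_of_alt hQ (Cl.SpO.polar_isAlt _) hg h
    rw [hr] at this
    exact Nat.not_even_two_mul_add_one a this
  obtain ⟨b, hb1, hb2⟩ := Cl.SpO.exp_choose_eq (2 * a)
  have hexp : 2 * (2 * a + j + 1) * (2 * a + 1 - 1) - (3 * (2 * a + 1) ^ 2 - 3 * (2 * a + 1)) / 2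
      = b + 2 * (2 * a) * j := by
    have h1 : 2 * (2 * a + j + 1) * (2 * a + 1 - 1) = 8 * a ^ 2 + 4 * (a * j) + 4 * a := by
      rw [Nat.add_sub_cancel]; ring
    have h2 : (2 * a + 1) ^ 2 = 4 * a ^ 2 + 4 * a + 1 := by ring
    have h3 : (2 * a) ^ 2 = 4 * a ^ 2 := by ring
    have h4 : 2 * (2 * a) * j = 4 * (a * j) := by ring
    rw [h1, h2, h4]
    omega
  rw [Cl.SpO.card_symm_odd (k := a) (Cl.SpO.wallB_nondeg hQ hg)
    (Cl.SpO.inv_wall_isSymm (Cl.SpO.polar_isAlt _) hg ha') hr, ← Cl.SpO.spOrd_eq_fin,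
    ← Cl.SpO.spOrd_eq_fin, Nat.card_eq_fintype_card, hF, hexp, hb1,
    show 2 * a + j + 1 - (2 * a + 1) = j by omega, show (2 * a + 1 - 1) / 2 = a by omega]
  ring

end Cfsg.Agent.S2683
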