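import Mathlib
import Cfsg.Statements.S2684
import Cfsg.Agent.Cl.ClassSpOCentO

set_option autoImplicit false
open Cfsg

namespace Cfsg.Agent.S2684

/-- For the hyperbolic form Q = Σ x_j y_j on F^(2m) over a finite field with q elements, q even (excluding m = 2 over the field of two elements), and an involution x ≠ 1 of the orthogonal group with s = rank(x − 1) even and Q vanishing on the image of x − 1 (equivalently f(v, xv) = 0 for all v, where f(u, w) = Q(u + w) − Q(u) − Q(w) is the bilinear form of Q; type a_s, which lies in Ω): its centraliser in Ω (the commutator subgroup of the orthogonal group) has order q^(2ms − (3s² + s)/2) · |Sp_s(q)| · |Ω⁺_(2m−2s)(q)|, where |Ω⁺_2k(q)| = q^(k(k−1)) (q^k − 1) Π_(i=1)^(k−1) (q^(2i) − 1) for k ≥ 1 and the last factor is 1 when s = m. -/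
theorem result {F : Type*} [Field F] [Fintype F] [CharP F 2] {q : ℕ} (hF : Fintype.card F = q) {m s : ℕ} (h : Fintype.card F ≠ 2 ∨ m ≠ 2) (x : ↥(Cfsg.isometryGroup F (Cfsg.quadFormPlus m F))) (hx : x ^ 2 = 1) (hx1 : x ≠ 1) (hs : (((x : Matrix.GeneralLinearGroup (Fin m ⊕ Fin m) F) : Matrix (Fin m ⊕ Fin m) (Fin m ⊕ Fin m) F) - 1).rank = s) (heven : Even s) (halt : ∀ v : Fin m ⊕ Fin m → F, Cfsg.quadFormPlus m F ((((x : Matrix.GeneralLinearGroup (Fin m ⊕ Fin m) F) : Matrix (Fin m ⊕ Fin m) (Fin m ⊕ Fin m) F) - 1).mulVec v) = 0) : Nat.card {g : ↥(Cfsg.Omega F (Cfsg.quadFormPlus m F)) // (g : ↥(Cfsg.isometryGroup F (Cfsg.quadFormPlus m F))) * x = x * (g : ↥(Cfsg.isometryGroup F (Cfsg.quadFormPlus m F)))} = q ^ (2 * m * s - (3 * s ^ 2 + s) / 2) * ((q : ℕ) ^ ((s / 2) ^ 2) * ∏ i : Fin (s / 2), (q ^ (2 * ((i : ℕ) + 1)) - 1)) * (if s = m then 1 else q ^ ((m - s) * (m - s - 1)) * (q ^ (m - s) - 1) * ∏ i : Fin (m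 - s - 1), (q ^ (2 * ((i : ℕ) + 1)) - 1)) := by
  have hQ := Cl.quad_plus_nondeg (m := m) (F := F)
  have hexc : ¬ Cl.OExc (Cl.quad_plus m F) := Cl.quad_not_oExc (by rw [Cl.o_finrank_plus]; omega)
  have hr := (Cl.SpO.finrank_res_omat (P := Cl.quad_plus m F) x).trans hs
  have hg := fun u v => Cl.OG.polar_app (Cl.omatEquiv (Cl.quad_plus m F) x) u v
  have ha' := Cl.SpO.invol_of_sq (a := Cl.omatEquiv (Cl.quad_plus m F) x)
    ((map_pow _ _ _).symm.trans ((congrArg _ hx).trans (map_one _)))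
  have hle := Cl.SpO.inv_two_mul_le hQ hg ha'
  rw [hr, Cl.o_finrank_plus] at hle
  have hns : ∀ w ∈ Cl.SpO.res (Cl.omatEquiv (Cl.quad_plus m F) x).1,
      Cl.quad_plus m F w = 0 := by
    rw [Cl.SpO.res_omat (P := Cl.quad_plus m F) x]
    rintro _ ⟨v, rfl⟩
    exact halt v
  have hs0 : s ≠ 0 := by
    intro h0
    have := Cl.SpO.finrank_res_eq_zero_iff.1 (hr.trans h0)
    exact hx1 ((Cl.omatEquiv (Cl.quad_plus m F)).injective
      ((Subtype.ext this).trans (map_one _).symm))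
  obtain ⟨n, rfl⟩ : ∃ n, m = n + 1 := ⟨m - 1, by omega⟩
  obtain ⟨j, hj⟩ : ∃ j, s + j = n + 1 := ⟨n + 1 - s, by omega⟩
  obtain ⟨a, ha⟩ := heven
  have hfix := Cl.SpO.card_fix_singular hQ Cl.o_finrank_plus (Cl.SpO.card_OG_plus (by omega))
    (Cl.SpO.card_zero_plus n) s j hj _ hr hns
  have hw := Cl.SpO.card_SpG (m := a) (Cl.SpO.wallB_nondeg hQ hg)
    ((Cl.SpO.wallB_isAlt_iff (Cl.SpO.polar_isAlt _) hg).2 ((Cl.SpO.o_alt_iff_singular _).2 hns))
    (hr.trans (by omega))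
  have hexp : 2 * (n + 1) * s - (3 * s ^ 2 + s) / 2 = s.choose 2 + 2 * s * j := by
    obtain ⟨k, rfl⟩ : ∃ k, s = k + 1 := ⟨s - 1, by omega⟩
    obtain ⟨b, hb1, hb2⟩ := Cl.SpO.exp_choose_eq k
    have h1 : 2 * (k + 1 + j) * (k + 1) = 2 * k ^ 2 + 4 * k + 2 + 2 * (k * j) + 2 * j := by ring
    have h2 : (k + 1) ^ 2 = k ^ 2 + 2 * k + 1 := by ring
    have h3 : 2 * (k + 1) * j = 2 * (k * j) + 2 * j := by ring
    rw [← hj, h1, h2, h3, hb1]
    omega
  rw [Nat.card_eq_fintype_card (α := F), hF] at hfix hw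
  rw [hexp, ← Cl.SpO.spOrd_eq_fin, show s / 2 = a by omega, show n + 1 - s = j by omega]
  split_ifs with hsm
  · refine (Cl.SpO.card_comm_Omega_of_max hQ hexc Cl.o_finrank_plus x (hr.trans hsm) hns).trans ?_
    rw [hfix, hw, show j = 0 by omega, Cl.SpO.oPlusOrd_zero]
    ring
  · have h1 := Cl.SpO.two_mul_card_comm_Omega hQ hexc Cl.o_finrank_plus x hx
      fun h => hsm (hr.symm.trans h.1)
    obtain ⟨i, rfl⟩ : ∃ i, j = i + 1 := ⟨j - 1, by omega⟩
    refine Nat.eq_of_mul_eq_mul_left two_pos (h1.trans ?_)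
    rw [hfix, hw, Cl.SpO.oPlusOrd_succ_eq, Cl.SpO.spOrd_eq_fin q i, Nat.add_sub_cancel]
    ring

end Cfsg.Agent.S2684
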