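import Mathlib
import Cfsg.Statements.S2685
import Cfsg.Agent.Cl.ClassSpOCentO

set_option autoImplicit false
open Cfsg

namespace Cfsg.Agent.S2685

/-- For the hyperbolic form Q = Σ x_j y_j on F^(2m) over a finite field with q elements, q even (excluding m = 2 over the field of two elements), and an involution x of the orthogonal group with s = rank(x − 1) even and Q not vanishing on the image of x − 1 (f(v, xv) ≠ 0 for some v, where f(u, w) = Q(u + w) − Q(u) − Q(w) is the bilinear form of Q; type c_s, which lies in Ω): its centraliser in Ω (the commutator subgroup of the orthogonal group) has order q^(2m(s−1) − (3s² − 5s)/2 − 1) · |Sp_(s−2)(q)| · |Sp_(2m−2s)(q)|. -/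
theorem result {F : Type*} [Field F] [Fintype F] [CharP F 2] {q : ℕ} (hF : Fintype.card F = q) {m s : ℕ} (h : Fintype.card F ≠ 2 ∨ m ≠ 2) (x : ↥(Cfsg.isometryGroup F (Cfsg.quadFormPlus m F))) (hx : x ^ 2 = 1) (hs : (((x : Matrix.GeneralLinearGroup (Fin m ⊕ Fin m) F) : Matrix (Fin m ⊕ Fin m) (Fin m ⊕ Fin m) F) - 1).rank = s) (heven : Even s) (hna : ∃ v : Fin m ⊕ Fin m → F, Cfsg.quadFormPlus m F ((((x : Matrix.GeneralLinearGroup (Fin m ⊕ Fin m) F) : Matrix (Fin m ⊕ Fin m) (Fin m ⊕ Fin m) F) - 1).mulVec v) ≠ 0) : Nat.card {g : ↥(Cfsg.Omega F (Cfsg.quadFormPlus m F)) // (g : ↥(Cfsg.isometryGroup F (Cfsg.quadFormPlus m F))) * x = x * (g : ↥(Cfsg.isometryGroup F (Cfsg.quadFormPlus m F)))} = q ^ (2 * m * (s - 1) - (3 * s ^ 2 - 5 * s) / 2 - 1) * ((q : ℕ) ^ (((s - 2) / 2) ^ 2) * ∏ i : Fin ((s - 2) / 2), (q ^ (2 * ((i : ℕ) + 1)) - 1)) * ((q : ℕ) ^ ((m - s) ^ 2) * ∏ i : Fin (m - s), (q ^ (2 * ((i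 : ℕ) + 1)) - 1)) := by
  have hQ := Cl.quad_plus_nondeg (m := m) (F := F)
  have hexc : ¬ Cl.OExc (Cl.quad_plus m F) := Cl.quad_not_oExc (by rw [Cl.o_finrank_plus]; omega)
  have hr := (Cl.SpO.finrank_res_omat (P := Cl.quad_plus m F) x).trans hs
  have hg := fun u v => Cl.OG.polar_app (Cl.omatEquiv (Cl.quad_plus m F) x) u v
  have ha' := Cl.SpO.invol_of_sq (a := Cl.omatEquiv (Cl.quad_plus m F) x)
    ((map_pow _ _ _).symm.trans ((congrArg _ hx).trans (map_one _)))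
  have hle := Cl.SpO.inv_two_mul_le hQ hg ha'
  rw [hr, Cl.o_finrank_plus] at hle
  have hns : ¬ ∀ w ∈ Cl.SpO.res (Cl.omatEquiv (Cl.quad_plus m F) x).1,
      Cl.quad_plus m F w = 0 := by
    intro h
    obtain ⟨v, hv⟩ := hna
    rw [Cl.SpO.res_omat (P := Cl.quad_plus m F) x] at h
    exact hv (h _ ⟨v, rfl⟩)
  have hs0 : s ≠ 0 := by
    intro h0
    refine hns fun w hw => ?_
    rw [Submodule.finrank_eq_zero.1 (hr.trans h0), Submodule.mem_bot] at hw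
    rw [hw, map_zero]
  rw [← Cl.SpO.o_alt_iff_singular] at hns
  obtain ⟨a, rfl⟩ : ∃ a, s = 2 * a + 1 + 1 := by
    obtain ⟨k, hk⟩ := heven
    exact ⟨k - 1, by omega⟩
  obtain ⟨j, rfl⟩ : ∃ j, m = 2 * a + 1 + j + 1 := ⟨m - (2 * a + 2), by omega⟩
  refine (Cl.SpO.card_comm_Omega_plus_nonalt hexc x hx hr hns).trans ?_
  obtain ⟨b, hb1, hb2⟩ := Cl.SpO.exp_choose_eq (2 * a + 1)
  have hexp : 2 * (2 * a + 1 + j + 1) * (2 * a + 1 + 1 - 1) -
      (3 * (2 * a + 1 + 1) ^ 2 - 5 * (2 * a + 1 + 1)) / 2 - 1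
      = b + 2 * (2 * a + 1) * j + (2 * a + 1) := by
    have h1 : 2 * (2 * a + 1 + j + 1) * (2 * a + 1 + 1 - 1) =
        8 * a ^ 2 + 4 * (a * j) + 12 * a + 2 * j + 4 := by
      rw [Nat.add_sub_cancel]; ring
    have h2 : (2 * a + 1 + 1) ^ 2 = 4 * a ^ 2 + 8 * a + 4 := by ring
    have h3 : (2 * a + 1) ^ 2 = 4 * a ^ 2 + 4 * a + 1 := by ring
    have h4 : 2 * (2 * a + 1) * j = 4 * (a * j) + 2 * j := by ring
    rw [h1, h2, h4]
    omega
  rw [Cl.SpO.card_symm_even (k := a) (Cl.SpO.wallB_nondeg hQ hg)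
    (Cl.SpO.inv_wall_isSymm (Cl.SpO.polar_isAlt _) hg ha')
    (by rwa [Cl.SpO.wallB_isAlt_iff (Cl.SpO.polar_isAlt _) hg]) hr, ← Cl.SpO.spOrd_eq_fin,
    ← Cl.SpO.spOrd_eq_fin, Nat.card_eq_fintype_card, hF, hexp, hb1,
    show 2 * a + 1 + j + 1 - (2 * a + 1 + 1) = j by omega,
    show (2 * a + 1 + 1 - 2) / 2 = a by omega]
  ring

end Cfsg.Agent.S2685
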