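import Mathlib
import Cfsg.Statements.S2696
import Cfsg.Agent.Cl.AutOMat

set_option autoImplicit false
open Cfsg

namespace Cfsg.Agent.S2696

open Cfsg.Agent.Cl

/-- For m ≥ 3 and a finite field F, the automorphism group of the minus-type group PΩ⁻_{2m+2}(F) (the form Σ xᵢ yᵢ + z₁² + a z₁ z₂ + b z₂² with anisotropic binary part) is generated by the automorphisms induced by the semisimilarities v ↦ g σ(v) of the form, that is, pairs with Q(g σ(v)) = c σ(Q(v)) (the image of the projective semisimilarity group). -/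
theorem result {F : Type*} [Field F] [Fintype F] {m : ℕ} (hm : 3 ≤ m) (a b : F) (hab : ∀ z₁ z₂ : F, z₁ ^ 2 + a * z₁ * z₂ + b * z₂ ^ 2 = 0 → z₁ = 0 ∧ z₂ = 0) :
    Cfsg.gammaPOmega F (Cfsg.quadFormMinus m F a b) = ⊤ := by
  exact gammaPOmega_eq_top (P := quad_minus m F a b) (o_minus_nondeg hab)
    (by simp; omega) (o_minus_hyp_eight hab)

end Cfsg.Agent.S2696
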