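import Cfsg.Statements.S2703
import Cfsg.Agent.Cl.AutGraphL

set_option autoImplicit false
open Cfsg Cfsg.Agent.Cl Cfsg.Agent.Cl.Aut

namespace Cfsg.Agent.S2703

/-- Let T = PSL_n(F) over the field with q elements, q odd, n = 2m ≥ 4 even, and ι the inverse-transpose automorphism. Its centralizer in G = Inndiag(T) (the image of PGL_n(F)) is isomorphic to the projective conformal orthogonal group of the plus-type form Σ xᵢ yᵢ in dimension n when n(q − 1)/4 is even, and to that of a minus-type form (Σ xᵢ yᵢ + z₁² + a z₁ z₂ + b z₂² with anisotropic binary part) when n(q − 1)/4 is odd. -/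
theorem result {F : Type*} [Field F] [Fintype F] (hodd : Odd (Fintype.card F)) {n m : ℕ} (hm : 2 ≤ m) (hnm : n = 2 * m) (ι : MulAut (Matrix.ProjectiveSpecialLinearGroup (Fin n) F)) (hι : Cfsg.IsInverseTransposeAutPSL ι) :
    (Even (n * (Fintype.card F - 1) / 4) → Nonempty (↥(Cfsg.inndiagPSL n F ⊓ Subgroup.centralizer {ι}) ≃* Cfsg.PGO F (Cfsg.quadFormPlus m F))) ∧ (¬ Even (n * (Fintype.card F - 1) / 4) → ∃ a b : F, (∀ z₁ z₂ : F, z₁ ^ 2 + a * z₁ * z₂ + b * z₂ ^ 2 = 0 → z₁ = 0 ∧ z₂ = 0) ∧ Nonempty (↥(Cfsg.inndiagPSL n F ⊓ Subgroup.centralizer {ι}) ≃* Cfsg.PGO F (Cfsg.quadFormMinus (m - 1) F a b))) := by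
  have h2 := quad_two_ne_zero_of_odd hodd
  have hs : (glB (1 : GL (Fin n) F)).IsSymm := Matrix.isSymm_toBilin'_iff_isSymm.2 Matrix.isSymm_one
  obtain ⟨E⟩ := (giL (n := n) (F := F) (by omega)).cent (γ := ι)
    ⟨1, rfl, by rw [isInverseTransposeAutPSL_iff.1 hι, inv_one]; rfl⟩
  have key : Even (n * (Fintype.card F - 1) / 4) ↔ IsSquare ((-1 : F) ^ m * (1 : GL (Fin n) F).1.det) := by
    rw [Units.val_one, Matrix.det_one, mul_one, quad_isSquare_neg_one_pow_iff m hodd]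
    obtain ⟨k, hk⟩ := hodd
    rw [hk, hnm, Nat.add_sub_cancel, show 2 * m * (2 * k) = 4 * (m * k) by ring,
      Nat.mul_div_cancel_left _ (by norm_num), Nat.even_mul, Nat.pow_mod]
    rcases Nat.even_or_odd' k with ⟨l, rfl | rfl⟩
    · simp [show (2 * (2 * l) + 1) % 4 = 1 by omega]
    · rw [show (2 * (2 * l + 1) + 1) % 4 = 3 by omega]
      rcases Nat.even_or_odd' m with ⟨j, rfl | rfl⟩ <;>
        simp [pow_succ, pow_mul, Nat.mul_mod, Nat.pow_mod]
  rw [key]
  refine ⟨fun h => ?_, fun h => ?_⟩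
  · obtain ⟨E'⟩ := (simil_plus_iff h2 (by simp) Matrix.isSymm_one (by simpa using hnm) h).projQuot
    rw [simG_polar h2] at E'
    exact ⟨E.trans E'⟩
  · obtain ⟨b, hab⟩ := quad_exists_aniso F
    obtain ⟨E'⟩ := ((simil_even h2 (toBilin'_nondegenerate 1) hs (by simpa using hnm) hab).resolve_left
      fun h' => h (isSquare_of_simil_plus (by simpa using hnm) h')).projQuot
    rw [simG_polar h2] at E'
    exact ⟨1, b, (quad_aniso_iff _ _).2 hab, ⟨E.trans E'⟩⟩

end Cfsg.Agent.S2703
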