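import Cfsg.Statements.S2704
import Cfsg.Agent.Cl.AutPSLField
-- import your own Cfsg.Agent.* helpers here

set_option autoImplicit false
open Cfsg Cfsg.Agent.Cl Cfsg.Agent.Cl.Aut

namespace Cfsg.Agent.S2704

/-- Let T = PSL_n(F) over the field F with p^f elements, n ≥ 3, and G = Inndiag(T) the image of PGL_n(F). If x is an involutory graph-field automorphism of T then f is even; x is G-conjugate to every other involutory graph-field automorphism; C_G(x) is isomorphic to the projective general unitary group PGU_n(q₀) with q₀² = p^f, realised over F itself through the Hermitian form Σ uᵢ vᵢ^{q₀}; and the G-class of x is the union of exactly gcd(n, q₀ − 1) T-classes. -/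
theorem result {F : Type*} [Field F] [Fintype F] {p f : ℕ} [Fact p.Prime] (hF : Fintype.card F = p ^ f) (hf : 1 ≤ f) {n : ℕ} (hn : 3 ≤ n) (x : MulAut (Matrix.ProjectiveSpecialLinearGroup (Fin n) F)) (hx : Cfsg.IsGraphFieldAutClassPSL x) (hx2 : orderOf x = 2) :
    Even f ∧ (∀ y : MulAut (Matrix.ProjectiveSpecialLinearGroup (Fin n) F), Cfsg.IsGraphFieldAutClassPSL y → orderOf y = 2 → Cfsg.IsConjUnder (Cfsg.inndiagPSL n F) x y) ∧ Nonempty (↥(Cfsg.inndiagPSL n F ⊓ Subgroup.centralizer {x}) ≃* Cfsg.PGU n F (p ^ (f / 2))) ∧ Cfsg.splitClassCount (Cfsg.inndiagPSL n F) (Cfsg.Inn (Matrix.ProjectiveSpecialLinearGroup (Fin n) F)) x = Nat.gcd n (p ^ (f / 2) - 1) := by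
  have hF' : Nat.card F = p ^ f := by rw [Nat.card_eq_fintype_card, hF]
  have hn2 : 2 ≤ n := by omega
  have := inndiagPSL_normal (F := F) hn2
  have key : ∀ y : MulAut (Matrix.ProjectiveSpecialLinearGroup (Fin n) F),
      IsGraphFieldAutClassPSL y → orderOf y = 2 → ∃ σ : RingAut F, orderOf σ = 2 ∧
        IsConjUnder (inndiagPSL n F) (psiL (Fin n) F (SemidirectProduct.inr (σ, c2gen))) y := by
    intro y hy hy2
    obtain ⟨-, α, σ, hσ, h⟩ := isGraphFieldAutClassPSL_iff.1 hy
    obtain ⟨-, h2⟩ := orderOf_eq_two_of_prime hσ Nat.prime_two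
      (by rw [← orderOf_psiL_inr (ι := Fin n) (by simpa using hn), ← h, orderOf_conj', hy2])
    obtain ⟨g, hg⟩ := exists_conj_psiL_eq hn2 α⁻¹ (SemidirectProduct.inr (σ, c2gen))
    have h3 : y = psiL (Fin n) F ⟨g, (σ, c2gen)⟩ := by
      rw [← h] at hg
      simpa [mul_assoc] using hg
    refine ⟨σ, h2, ?_⟩
    rw [← range_psiD, h3]
    exact isConjUnder_graphField_psl hn2 h2 g (by rw [← h3, ← hy2, pow_orderOf_eq_one])
  obtain ⟨σ, hσ, h⟩ := key x hx hx2
  obtain ⟨h1, hq⟩ := uField_of_orderOf hσ hF'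
  have h4 : Inn _ ≤ inndiagPSL n F := by
    rw [← ker_det_map_psiD, ← range_psiD]
    exact Subgroup.map_le_range _ _
  refine ⟨h1, fun y hy hy2 => ?_, ?_, ?_⟩
  · obtain ⟨τ, hτ, h'⟩ := key y hy hy2
    rw [ringAut_eq_of_orderOf_two hτ hσ] at h'
    exact isConjUnder_trans (isConjUnder_symm h) h'
  · obtain ⟨E⟩ := nonempty_centralizer_graphField_psl hn2 hq
    obtain ⟨E'⟩ := nonempty_infCentralizer_of_isConjUnder h
    rw [range_psiD] at E
    exact ⟨E'.symm.trans E⟩
  · rw [splitClassCount_of_isConjUnder h4 h, ← range_psiD, splitClassCount_graphField_psl hn2 hq]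

end Cfsg.Agent.S2704
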