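import Cfsg.Statements.S2712
import Cfsg.Agent.Cl.AutPSp

set_option autoImplicit false
open Cfsg Cfsg.Agent.Cl Cfsg.Agent.Cl.Aut

namespace Cfsg.Agent.S2712

/-- Let T = PSp_{2m}(F) be simple over the field F with p^f elements (m ≥ 2, (2m, |F|) ≠ (4, 2)), G = Inndiag(T) the image of the projective conformal symplectic group PGSp_{2m}(F), and x a field automorphism of T of prime order r. Then r divides f; C_G(x) is isomorphic to PGSp_{2m}(F₀) for a field F₀ with p^(f/r) elements; and the G-class of x is the union of exactly gcd(gcd(2, p^f − 1), r) T-classes. -/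
theorem result {F : Type*} [Field F] [Fintype F] {p f : ℕ} [Fact p.Prime] (hF : Fintype.card F = p ^ f) (hf : 1 ≤ f) {m : ℕ} (hm : 2 ≤ m) (hs : m = 2 → 3 ≤ Fintype.card F) (x : MulAut (Cfsg.PSp m F)) (hx : Cfsg.IsFieldAutClassPSp x) {r : ℕ} (hr : r.Prime) (hxr : orderOf x = r) (F₀ : Type*) [Field F₀] [Fintype F₀] (hF₀ : Fintype.card F₀ = p ^ (f / r)) :
    r ∣ f ∧ Nonempty (↥(Cfsg.inndiagPSp m F ⊓ Subgroup.centralizer {x}) ≃* Cfsg.PGSp m F₀) ∧ Cfsg.splitClassCount (Cfsg.inndiagPSp m F) (Cfsg.Inn (Cfsg.PSp m F)) x = Nat.gcd (Nat.gcd 2 (p ^ f - 1)) r := by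
  have : NeZero m := ⟨by omega⟩
  have := inndiagPSp_normal (F := F) hm
  obtain ⟨α, σ, -, h2⟩ := (isFieldAutClassPSp_iff hm).1 hx
  obtain rfl : orderOf σ = r := by rw [← (fdSp F hm).orderOf_fld, ← h2, orderOf_conj', hxr]
  rw [← Nat.card_eq_fintype_card] at hF hF₀
  obtain ⟨h3, h4⟩ := card_fixF hF σ
  obtain ⟨e, he⟩ := exists_embedding_fixF σ F₀ (hF₀.trans h4.symm)
  refine ⟨h3, ?_, ?_⟩
  · obtain ⟨E⟩ := (fdSp F hm).nonempty_centralizer (gspMap m e) (fun _ => rfl)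
      (range_gspMap hm he)
    rw [← inndiagPSp_eq hm, ← h2] at E
    exact ⟨(infCentralizerConj (mem_normalizer_of_normal α) x).trans E⟩
  · rw [← splitClassCount_conj (inndiagPSp_eq (F := F) hm ▸ (fdSp F hm).inn_le)
      (mem_normalizer_of_normal α), h2, inndiagPSp_eq hm, splitClassCount_field_psp hm he, hF, hF₀]
    obtain ⟨k, rfl⟩ := h3
    rw [Nat.mul_div_cancel_left _ hr.pos, mul_comm]
    exact gcd_geom_two Fact.out (Nat.pos_of_ne_zero (by rintro rfl; simp at hf)) hr.pos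

end Cfsg.Agent.S2712
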