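import Cfsg.Statements.S2713
import Cfsg.Agent.Cl.AutPSp

set_option autoImplicit false
open Cfsg Cfsg.Agent.Cl Cfsg.Agent.Cl.Aut

namespace Cfsg.Agent.S2713

/-- Let T = PSp_{2m}(F) be simple over a finite field (m ≥ 2, (2m, |F|) ≠ (4, 2)) and let x be a field automorphism of T of prime order r. Then an element y of the coset Inndiag(T)·x (y = δ x with δ in the image of the projective conformal symplectic group) has order r if and only if y is conjugate to x by an element of Inndiag(T). -/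
theorem result {F : Type*} [Field F] [Fintype F] {m : ℕ} (hm : 2 ≤ m) (hs : m = 2 → 3 ≤ Fintype.card F) (x δ : MulAut (Cfsg.PSp m F)) (hx : Cfsg.IsFieldAutClassPSp x) {r : ℕ} (hr : r.Prime) (hxr : orderOf x = r) (hδ : δ ∈ Cfsg.inndiagPSp m F) :
    orderOf (δ * x) = r ↔ Cfsg.IsConjUnder (Cfsg.inndiagPSp m F) x (δ * x) := by
  have := inndiagPSp_normal (F := F) hm
  obtain ⟨α, σ, -, h2⟩ := (isFieldAutClassPSp_iff hm).1 hx
  obtain rfl : orderOf σ = r := by rw [← (fdSp F hm).orderOf_fld, ← h2, orderOf_conj', hxr]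
  refine coset_conj_of_conj h2 hxr (fun δ hδ h => ?_) hδ
  rw [inndiagPSp_eq hm] at hδ ⊢
  obtain ⟨g, rfl⟩ := hδ
  rw [FD.diag_mul_fld] at h ⊢
  exact isConjUnder_field_psp hm g (by rw [← h, pow_orderOf_eq_one])

end Cfsg.Agent.S2713
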