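import Mathlib
import Cfsg.Statements.S2714
import Cfsg.Agent.Cl.QuadFieldC

set_option autoImplicit false
open Cfsg

namespace Cfsg.Agent.S2714

open Cfsg.Agent.Cl

/-- Let T = Ω_{2m+1}(F) (m ≥ 3, |F| = p^f odd; realised as PΩ of the form x₀² + Σ xᵢ yᵢ), G = Inndiag(T) the image of the conformal orthogonal group in Aut(T), and x a field automorphism of T of prime order r. Then r divides f; C_G(x) is isomorphic to Inndiag(Ω_{2m+1}(F₀)) for a field F₀ with p^(f/r) elements; and the G-class of x is a single T-class when r is odd and the union of exactly two T-classes when r = 2. -/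
theorem result {F : Type*} [Field F] [Fintype F] {p f : ℕ} [Fact p.Prime] (hF : Fintype.card F = p ^ f) (hf : 1 ≤ f) (hodd : Odd (Fintype.card F)) {m : ℕ} (hm : 3 ≤ m) (x : MulAut (Cfsg.POmega F (Cfsg.quadFormOdd m F))) (hx : Cfsg.IsFieldAutClassPOmega (Cfsg.quadFormOdd m F) x) {r : ℕ} (hr : r.Prime) (hxr : orderOf x = r) (F₀ : Type*) [Field F₀] [Fintype F₀] (hF₀ : Fintype.card F₀ = p ^ (f / r)) :
    r ∣ f ∧ Nonempty (↥(Cfsg.inndiagPOmegaOdd m F ⊓ Subgroup.centralizer {x}) ≃* ↥(Cfsg.inndiagPOmegaOdd m F₀)) ∧ (Odd r → Cfsg.splitClassCount (Cfsg.inndiagPOmegaOdd m F) (Cfsg.Inn (Cfsg.POmega F (Cfsg.quadFormOdd m F))) x = 1) ∧ (r = 2 → Cfsg.splitClassCount (Cfsg.inndiagPOmegaOdd m F) (Cfsg.Inn (Cfsg.POmega F (Cfsg.quadFormOdd m F))) x = 2) := by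
  have h2 := quad_two_ne_zero_of_odd hodd
  have hn : 5 ≤ Fintype.card (Unit ⊕ (Fin m ⊕ Fin m)) := by simp; omega
  obtain ⟨σ, g, h1, rfl⟩ := quad_fieldClass (quad_gamma_odd h2 hm) (quad_odd_fix m) hx
  have h3 := quad_orderOf_right (quad_odd_nondeg h2) hn (by simpa using h1) hr hxr
  obtain ⟨h4, e, he⟩ := quad_exists_embedding hF _ F₀ (h3 ▸ hF₀)
  have hX := (QuadExt.desc_std (e := e) (by simpa using he) (quad_odd_fix m σ) (quad_odd m F₀)
    fun v => by simp [quad_odd_apply]).conj g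
  rw [quad_inndiagOdd_D h2, quad_inndiagOdd_D (F := F₀)
    fun h => h2 (by rw [← map_ofNat e, h, map_zero])]
  exact ⟨h3 ▸ h4, hX.nonempty_equiv (quad_odd_nondeg h2) hn he,
    fun h => hX.split_odd (quad_odd_nondeg h2) hn he (h3 ▸ h),
    fun h => hX.split_two_odd (quad_odd_nondeg h2) hn he (h3.trans h) h2 (by simp)⟩

end Cfsg.Agent.S2714
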