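import Mathlib
import Cfsg.Statements.S2715
import Cfsg.Agent.Cl.QuadD4

set_option autoImplicit false
open Cfsg

namespace Cfsg.Agent.S2715

open Cfsg.Agent.Cl

/-- Let T = PΩ⁺_{2m}(F) (m ≥ 4, |F| = p^f; the form Σ xᵢ yᵢ), G = Inndiag(T) the image of the class-preserving similarities in Aut(T), and x a field automorphism of T of prime order r. Then r divides f; C_G(x) is isomorphic to Inndiag(PΩ⁺_{2m}(F₀)) for a field F₀ with p^(f/r) elements; and the G-class of x is the union of exactly c T-classes, where c = 1 if r is odd or p = 2, and otherwise (r = 2, p odd) c = 2 when m is odd and p^(f/2) ≡ 1 (mod 4), and c = 4 in the remaining cases. -/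
theorem result {F : Type*} [Field F] [Fintype F] {p f : ℕ} [Fact p.Prime] (hF : Fintype.card F = p ^ f) (hf : 1 ≤ f) {m : ℕ} (hm : 4 ≤ m) (x : MulAut (Cfsg.POmega F (Cfsg.quadFormPlus m F))) (hx : Cfsg.IsFieldAutClassPOmega (Cfsg.quadFormPlus m F) x) {r : ℕ} (hr : r.Prime) (hxr : orderOf x = r) (F₀ : Type*) [Field F₀] [Fintype F₀] (hF₀ : Fintype.card F₀ = p ^ (f / r)) :
    r ∣ f ∧ Nonempty (↥(Cfsg.inndiagPOmegaPlus m F ⊓ Subgroup.centralizer {x}) ≃* ↥(Cfsg.inndiagPOmegaPlus m F₀)) ∧ ((Odd r ∨ p = 2) → Cfsg.splitClassCount (Cfsg.inndiagPOmegaPlus m F) (Cfsg.Inn (Cfsg.POmega F (Cfsg.quadFormPlus m F))) x = 1) ∧ ((r = 2 ∧ p ≠ 2 ∧ Odd m ∧ p ^ (f / 2) % 4 = 1) → Cfsg.splitClassCount (Cfsg.inndiagPOmegaPlus m F) (Cfsg.Inn (Cfsg.POmega F (Cfsg.quadFormPlus m F))) x = 2) ∧ ((r = 2 ∧ p ≠ 2 ∧ ¬ (Odd m ∧ p ^ (f / 2) % 4 = 1)) → Cfsg.splitClassCount (Cfsg.inndiagPOmegaPlus m F) (Cfsg.Inn (Cfsg.POmega F (Cfsg.quadFormPlus m F)))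 x = 4) := by
  have hP := quad_plus_nondeg (m := m) (F := F)
  have hn : 5 ≤ Fintype.card (Fin m ⊕ Fin m) := by simp; omega
  have hF' := Nat.card_eq_fintype_card.trans hF
  have hN := quad_H_normal_plus (F := F) hm
  obtain ⟨α, φ, σ, h1, h2, h3⟩ := hx
  obtain rfl := (quad_isFieldAut_iff σ (quad_plus_fix m σ) φ).1 h2
  have h4 : orderOf σ = r := quad_orderOf_right hP hn (γ := quad_fld σ (quad_plus_fix m σ)) h1 hr
    (by rw [← h3, ← hxr]; exact (MulAut.conj α).orderOf_eq x)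
  obtain ⟨h5, e, he⟩ := quad_exists_embedding hF _ F₀ (h4 ▸ hF₀)
  have hX := QuadExt.desc_std (e := e) he (quad_plus_fix m σ) (quad_plus m F₀)
    fun v => by simp [quad_plus_apply]
  have hI : Inn (POmega F ⇑(quad_plus m F)) ≤ quad_H (quad_plus m F) :=
    quad_Inn_eq (P := quad_plus m F) ▸ Subgroup.map_mono (quad_N_le_D hP (by simpa using hn))
  have hα := @Aut.mem_normalizer_of_normal _ _ _ hN α
  have h6 := Aut.splitClassCount_conj hI hα x
  have h7 := Aut.infCentralizerConj hα x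
  erw [h3] at h6 h7
  have h8 : Nonempty (↥(quad_H (quad_plus m F) ⊓ Subgroup.centralizer
      {(x : MulAut (POmega F ⇑(quad_plus m F)))}) ≃* quad_H (quad_plus m F₀)) :=
    (hX.nonempty_equiv hP hn he).elim fun k => ⟨h7.trans k⟩
  have key := fun (hp : p ≠ 2) (h : r = 2) => (QuadExt.plus e m).relIndex_two he (h4.trans h)
    (quad_even_plus (o_two_ne_zero_of_prime hF' hp) (by omega))
  have key2 : p ≠ 2 → r = 2 → ((quad_IsPlus (quad_plus m F₀) ↔ Even m ∨ ¬ IsSquare (-1 : F₀)) ↔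
      ¬ (Odd m ∧ p ^ (f / 2) % 4 = 1)) := fun hp h => by
    rw [quad_isSquare_neg_one_iff fun h => o_two_ne_zero_of_prime hF' hp
      (by rw [← map_ofNat e, h, map_zero]), hF₀, ← Nat.not_even_iff_odd, h]
    have := quad_isPlus_plus (F := F₀) m
    tauto
  rw [quad_inndiagPlus_D (by omega), quad_inndiagPlus_D (by omega)]
  refine ⟨h4 ▸ h5, h8, fun h => ?_,
    fun h => h6.symm.trans ((hX.split hP hn he).trans ((key h.2.1 h.1).2 ?_)),
    fun h => h6.symm.trans ((hX.split hP hn he).trans ((key h.2.1 h.1).1 ?_))⟩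
  · rcases h with h | h
    · exact h6.symm.trans (hX.split_odd hP hn he (h4 ▸ h))
    · exact quad_split_char_two (P := quad_plus m F) (o_two_eq_zero_of_card (h ▸ hF')) _
  · rw [key2 h.2.1 h.1, not_not]; exact h.2.2
  · rw [key2 h.2.1 h.1]; exact h.2.2

end Cfsg.Agent.S2715
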