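import Mathlib
import Cfsg.Statements.S2716
import Cfsg.Agent.Cl.QuadFieldC

set_option autoImplicit false
open Cfsg

namespace Cfsg.Agent.S2716

open Cfsg.Agent.Cl

/-- Let T = PΩ⁻_{2m+2}(F) (m ≥ 3, |F| = p^f; the form Σ xᵢ yᵢ + z₁² + a z₁ z₂ + b z₂² with anisotropic binary part), G = Inndiag(T), and x a field automorphism of T of prime order r. Then r is odd and divides f; C_G(x) is isomorphic to Inndiag(PΩ⁻_{2m+2}(F₀)) for a field F₀ with p^(f/r) elements and some anisotropic binary part over F₀; and the G-class of x is a single T-class. -/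
theorem result {F : Type*} [Field F] [Fintype F] {p f : ℕ} [Fact p.Prime] (hF : Fintype.card F = p ^ f) (hf : 1 ≤ f) {m : ℕ} (hm : 3 ≤ m) (a b : F) (hab : (∀ z₁ z₂ : F, z₁ ^ 2 + a * z₁ * z₂ + b * z₂ ^ 2 = 0 → z₁ = 0 ∧ z₂ = 0)) (x : MulAut (Cfsg.POmega F (Cfsg.quadFormMinus m F a b))) (hx : Cfsg.IsFieldAutClassPOmegaMinus m x) {r : ℕ} (hr : r.Prime) (hxr : orderOf x = r) (F₀ : Type*) [Field F₀] [Fintype F₀] (hF₀ : Fintype.card F₀ = p ^ (f / r)) :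
    Odd r ∧ r ∣ f ∧ (∃ a₀ b₀ : F₀, (∀ z₁ z₂ : F₀, z₁ ^ 2 + a₀ * z₁ * z₂ + b₀ * z₂ ^ 2 = 0 → z₁ = 0 ∧ z₂ = 0) ∧ Nonempty (↥(Cfsg.inndiagPOmegaMinus m F a b ⊓ Subgroup.centralizer {x}) ≃* ↥(Cfsg.inndiagPOmegaMinus m F₀ a₀ b₀))) ∧ Cfsg.splitClassCount (Cfsg.inndiagPOmegaMinus m F a b) (Cfsg.Inn (Cfsg.POmega F (Cfsg.quadFormMinus m F a b))) x = 1 := by
  have hab' := (quad_aniso_iff a b).1 hab
  have hd := quad_aniso_disc_ne_zero hab'
  have hP := quad_minus_nondeg (m := m) hd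
  have hn : 5 ≤ Fintype.card ((Fin m ⊕ Fin m) ⊕ Fin 2) := by simp; omega
  obtain ⟨γ, h1, rfl⟩ := quad_minusClass hm hab hx
  have h3 := quad_orderOf_right hP hn h1 hr hxr
  obtain ⟨h4, e, he⟩ := quad_exists_embedding hF _ F₀ (h3 ▸ hF₀)
  obtain ⟨P₀, X, hX⟩ := quad_exists_desc hP hn he (by rw [h3, ← hxr]; exact pow_orderOf_eq_one _)
  obtain ⟨ζ, hζ⟩ := quad_exists_aniso F₀
  obtain ⟨k, hk⟩ := quad_exists_equiv_minus (X.nondeg hP)
    (fun h => quad_not_isPlus_minus hab' (X.isPlus hP h)) o_finrank_minus hζ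
  have hX' := hX.pre k 1 (by simpa using hk)
  have h5 : Odd r := hr.eq_two_or_odd'.resolve_left fun h => by
    obtain ⟨t, ht⟩ := quad_exists_root_of_two he (h3.trans h) 1 ζ
    obtain ⟨l, -, hl⟩ := (QuadExt.minus e m 1 ζ).exists_lift (X.pre k 1 (by simpa using hk))
    exact quad_not_isPlus_minus hab' ((quad_isPlus_minus ht).of_sim l hl)
  rw [quad_inndiagMinus_D (by omega) hd]
  refine ⟨h5, h3 ▸ h4, ⟨1, ζ, (quad_aniso_iff 1 ζ).2 hζ, ?_⟩, hX.split_odd hP hn he (h3 ▸ h5)⟩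
  rw [quad_inndiagMinus_D (by omega) (quad_aniso_disc_ne_zero hζ)]
  exact hX'.nonempty_equiv hP hn he

end Cfsg.Agent.S2716
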