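import Mathlib
import Cfsg.Statements.S2717
import Cfsg.Agent.Cl.QuadFieldC

set_option autoImplicit false
open Cfsg

namespace Cfsg.Agent.S2717

open Cfsg.Agent.Cl

/-- Let T = PΩ⁺_{2m}(F) with m ≥ 5 (dimension 2m ≠ 8) and |F| = p^f, G = Inndiag(T), and x an involutory graph-field automorphism of T. Then f is even; any two involutory graph-field automorphisms of T are G-conjugate; C_G(x) is isomorphic to Inndiag(PΩ⁻_{2m}(F₀)) for a field F₀ with p^(f/2) elements (some anisotropic binary part over F₀); and the G-class of x is the union of exactly c T-classes with c = 1 if p = 2, c = 4 if p is odd, m is odd and p^(f/2) ≡ 1 (mod 4), and c = 2 otherwise. -/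
theorem result {F : Type*} [Field F] [Fintype F] {p f : ℕ} [Fact p.Prime] (hF : Fintype.card F = p ^ f) (hf : 1 ≤ f) {m : ℕ} (hm : 5 ≤ m) (x : MulAut (Cfsg.POmega F (Cfsg.quadFormPlus m F))) (hx : Cfsg.IsGraphFieldAutClassPOmegaPlus m x) (hx2 : orderOf x = 2) (F₀ : Type*) [Field F₀] [Fintype F₀] (hF₀ : Fintype.card F₀ = p ^ (f / 2)) :
    Even f ∧ (∀ y : MulAut (Cfsg.POmega F (Cfsg.quadFormPlus m F)), Cfsg.IsGraphFieldAutClassPOmegaPlus m y → orderOf y = 2 → Cfsg.IsConjUnder (Cfsg.inndiagPOmegaPlus m F) x y) ∧ (∃ a₀ b₀ : F₀, (∀ z₁ z₂ : F₀, z₁ ^ 2 + a₀ * z₁ * z₂ + b₀ * z₂ ^ 2 = 0 → z₁ = 0 ∧ z₂ = 0) ∧ Nonempty (↥(Cfsg.inndiagPOmegaPlus m F ⊓ Subgroup.centralizer {x}) ≃* ↥(Cfsg.inndiagPOmegaMinus (m - 1) F₀ a₀ b₀))) ∧ (p = 2 → Cfsg.splitClassCount (Cfsg.inndiagPOmegaPlus m F) (Cfsg.Inn (Cfsg.POmega F (Cfsg.quadFormPlus m F))) x = 1) ∧ ((p ≠ 2 ∧ Odd m ∧ p ^ (f / 2) % 4 = 1)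 → Cfsg.splitClassCount (Cfsg.inndiagPOmegaPlus m F) (Cfsg.Inn (Cfsg.POmega F (Cfsg.quadFormPlus m F))) x = 4) ∧ ((p ≠ 2 ∧ ¬ (Odd m ∧ p ^ (f / 2) % 4 = 1)) → Cfsg.splitClassCount (Cfsg.inndiagPOmegaPlus m F) (Cfsg.Inn (Cfsg.POmega F (Cfsg.quadFormPlus m F))) x = 2) := by
  have hP := quad_plus_nondeg (m := m) (F := F)
  have hn : 5 ≤ Fintype.card (Fin m ⊕ Fin m) := by simp; omega
  have hF' := Nat.card_eq_fintype_card.trans hF
  obtain ⟨γ, rfl, h3, h4⟩ := quad_graphField_desc hm hx hx2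
  obtain ⟨h5, e, he⟩ := quad_exists_embedding hF _ F₀ (h3 ▸ hF₀)
  obtain ⟨P₀, X, hX, h6⟩ := h4 he
  obtain ⟨ζ, hζ⟩ := quad_exists_aniso F₀
  obtain ⟨k, hk⟩ := quad_exists_equiv_minus (X.nondeg hP) h6 (m := m - 1)
    (by rw [o_finrank_plus]; omega) hζ
  have key := fun hp : p ≠ 2 => X.relIndex_two he h3
    (quad_even_plus (o_two_ne_zero_of_prime hF' hp) (by omega))
  have key2 : p ≠ 2 → ((quad_IsPlus P₀ ↔ Even m ∨ ¬ IsSquare (-1 : F₀)) ↔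
      Odd m ∧ p ^ (f / 2) % 4 = 1) := fun hp => by
    rw [quad_isSquare_neg_one_iff fun h => o_two_ne_zero_of_prime hF' hp
      (by rw [← map_ofNat e, h, map_zero]), hF₀, ← Nat.not_even_iff_odd]
    tauto
  rw [quad_inndiagPlus_D (by omega)]
  refine ⟨even_iff_two_dvd.2 (h3 ▸ h5), fun y hy hy2 => ?_, ⟨1, ζ, (quad_aniso_iff 1 ζ).2 hζ, ?_⟩,
    fun hp => quad_split_char_two (P := quad_plus m F) (o_two_eq_zero_of_card (hp ▸ hF')) _,
    fun h => (hX.split hP hn he).trans ((key h.1).1 ((key2 h.1).2 h.2)),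
    fun h => (hX.split hP hn he).trans ((key h.1).2 (mt (key2 h.1).1 h.2))⟩
  · obtain ⟨γ', rfl, h7, h8⟩ := quad_graphField_desc hm hy hy2
    have h9 := Aut.ringAut_eq_of_orderOf_two h7 h3
    obtain ⟨P₁, X₁, hX₁, h10⟩ := h8 (e := e) (h9 ▸ he)
    exact hX.isConjUnder_of_type hP hn hX₁ h9 (iff_of_false h6 h10)
  · rw [quad_inndiagMinus_D (by omega) (quad_aniso_disc_ne_zero hζ)]
    exact (hX.pre k 1 (by simpa using hk)).nonempty_equiv hP hn he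

end Cfsg.Agent.S2717
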