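import Mathlib
import Cfsg.Statements.S2718
import Cfsg.Agent.Cl.QuadSimInv

set_option autoImplicit false
open Cfsg

namespace Cfsg.Agent.S2718

open Cfsg.Agent.Cl

/-- Let T = PΩ⁺_{2m}(F) with m ≥ 4 and |F| = q odd, G = Inndiag(T), and γ an involutory graph automorphism of T induced by a similarity (one interchanging the two classes of maximal totally singular subspaces). Then the G-class of γ is either a single T-class or the union of exactly two T-classes, and it is the union of two unless m is odd and q ≡ 3 (mod 4). -/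
theorem result {F : Type*} [Field F] [Fintype F] (hodd : Odd (Fintype.card F)) {m : ℕ} (hm : 4 ≤ m) (γ : MulAut (Cfsg.POmega F (Cfsg.quadFormPlus m F))) (hγ : Cfsg.IsSimilarityGraphAutPOmegaPlus m γ) (hγ2 : orderOf γ = 2) :
    (Cfsg.splitClassCount (Cfsg.inndiagPOmegaPlus m F) (Cfsg.Inn (Cfsg.POmega F (Cfsg.quadFormPlus m F))) γ = 1 ∨ Cfsg.splitClassCount (Cfsg.inndiagPOmegaPlus m F) (Cfsg.Inn (Cfsg.POmega F (Cfsg.quadFormPlus m F))) γ = 2) ∧ (¬ (Odd m ∧ Fintype.card F % 4 = 3) → Cfsg.splitClassCount (Cfsg.inndiagPOmegaPlus m F) (Cfsg.Inn (Cfsg.POmega F (Cfsg.quadFormPlus m F))) γ = 2) := by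
  have h2 := o_two_ne_zero_of_odd_card hodd
  have E := quad_even_plus h2 (show 2 ≤ m by omega)
  obtain ⟨g, hg, h1, h3⟩ := hγ
  replace hg : glEquiv _ F g ∈ quad_GO (quad_plus m F) := hg
  obtain rfl := (quad_induced_refl_iff (P := quad_plus m F) hg γ).1 h3
  have h4 : E.δ ⟨_, hg⟩ = -1 := by
    refine Int.units_ne_iff_eq_neg.1 fun h => h1 ?_
    rw [quad_preserves_plus_iff h2 (by omega) (quad_mult_spec ⟨_, hg⟩), ← LinearMap.det_toLin']
    exact E.δ_eq_one_iff.1 h
  have := E.split (by omega) (quad_inndiagPlus_eq h2 (by omega)) h4 hγ2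
  exact ⟨this.1, fun h => this.2 (Or.inl ((quad_negOne_plus_iff hodd m).2 h))⟩

end Cfsg.Agent.S2718
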