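import Mathlib
import Cfsg.Statements.S2719
import Cfsg.Agent.Cl.QuadSimInv

set_option autoImplicit false
open Cfsg

namespace Cfsg.Agent.S2719

open Cfsg.Agent.Cl

/-- Let T = PΩ⁻_{2m+2}(F) with m ≥ 3 and |F| = q odd (form with anisotropic binary part z₁² + a z₁ z₂ + b z₂²), G = Inndiag(T), and γ an involutory graph automorphism of T (an automorphism in the image of the semisimilarity group, not inner-diagonal, of order 2). Then the G-class of γ is either a single T-class or the union of exactly two T-classes, and it is the union of two unless m is even and q ≡ 1 (mod 4). -/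
theorem result {F : Type*} [Field F] [Fintype F] (hodd : Odd (Fintype.card F)) {m : ℕ} (hm : 3 ≤ m) (a b : F) (hab : (∀ z₁ z₂ : F, z₁ ^ 2 + a * z₁ * z₂ + b * z₂ ^ 2 = 0 → z₁ = 0 ∧ z₂ = 0)) (γ : MulAut (Cfsg.POmega F (Cfsg.quadFormMinus m F a b))) (hγ : Cfsg.IsGraphAutClassPOmegaMinus m a b γ) (hγ2 : orderOf γ = 2) :
    (Cfsg.splitClassCount (Cfsg.inndiagPOmegaMinus m F a b) (Cfsg.Inn (Cfsg.POmega F (Cfsg.quadFormMinus m F a b))) γ = 1 ∨ Cfsg.splitClassCount (Cfsg.inndiagPOmegaMinus m F a b) (Cfsg.Inn (Cfsg.POmega F (Cfsg.quadFormMinus m F a b))) γ = 2) ∧ (¬ (Even m ∧ Fintype.card F % 4 = 1) → Cfsg.splitClassCount (Cfsg.inndiagPOmegaMinus m F a b) (Cfsg.Inn (Cfsg.POmega F (Cfsg.quadFormMinus m F a b))) γ = 2) := by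
  have h2 := o_two_ne_zero_of_odd_card hodd
  have hd := o_disc_ne_zero_of_anisotropic hab
  have E := quad_even_minus h2 (show 1 ≤ m by omega) hd
  have hH := quad_inndiagMinus_eq h2 (show 1 ≤ m by omega) hd
  obtain ⟨h1, h3, -⟩ := hγ
  have h1' : γ ∈ (quad_ψ (quad_minus m F a b)).range := 
    (quad_gammaPOmega_eq (P := quad_minus m F a b)).le h1
  obtain ⟨γ', rfl⟩ := h1'
  have h4 : γ'.1.right = 1 := by
    by_contra h
    have h0 := pow_orderOf_eq_one (quad_ψ (quad_minus m F a b) γ')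
    rw [show orderOf (quad_ψ (quad_minus m F a b) γ') = 2 from hγ2] at h0
    have := E.isSquare_disc (by omega) h0 h
    rw [coe_quad_minus, quad_disc_minus, ← mul_assoc, ← mul_pow, neg_mul_neg, one_mul, one_pow,
      one_mul] at this
    exact o_disc_not_isSquare_of_anisotropic h2 hab this
  obtain ⟨g, rfl⟩ := quad_exists_toΓO h4
  have h5 : E.δ g = -1 := by
    refine Int.units_ne_iff_eq_neg.1 fun h => h3 ?_
    rw [hH]
    exact ⟨g, h, rfl⟩
  have := E.split (by omega) hH h5 hγ2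
  refine ⟨this.1, fun h => this.2 ?_⟩
  rw [quad_negOne_minus_iff hodd m hab, Nat.even_add_one]
  obtain ⟨k, hk⟩ := hodd
  by_cases he : Even m
  · exact Or.inl ⟨he, by have : ¬ Fintype.card F % 4 = 1 := fun h' => h ⟨he, h'⟩; omega⟩
  · exact Or.inr he

end Cfsg.Agent.S2719
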