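import Mathlib
import Cfsg.Statements.S2726
import Cfsg.Agent.Cl.QuadAutQuot

set_option autoImplicit false
open Cfsg

namespace Cfsg.Agent.S2726

open Cfsg.Agent.Cl

/-- Let T = PΩ⁻_{2m+2}(F) with m ≥ 3 and |F| = q odd (form with anisotropic binary part). Inside Aut(T), the image G̃ of the conformal orthogonal group of the form modulo the image of the special orthogonal group is elementary abelian of order 4. -/
theorem result {F : Type*} [Field F] [Fintype F] (hodd : Odd (Fintype.card F)) {m : ℕ} (hm : 3 ≤ m) (a b : F) (hab : (∀ z₁ z₂ : F, z₁ ^ 2 + a * z₁ * z₂ + b * z₂ ^ 2 = 0 → z₁ = 0 ∧ z₂ = 0)) :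
    (∃ φ : ↥(Cfsg.pgoAut F (Cfsg.quadFormMinus m F a b)) →* Multiplicative (ZMod 2 × ZMod 2), Function.Surjective φ ∧ φ.ker = (Cfsg.psoAut F (Cfsg.quadFormMinus m F a b)).subgroupOf (Cfsg.pgoAut F (Cfsg.quadFormMinus m F a b))) := by
  rw [← coe_quad_minus]
  exact (quad_even_minus (o_two_ne_zero_of_odd_card hodd) (show 1 ≤ m by omega)
    (o_disc_ne_zero_of_anisotropic hab)).hom_pgo_pso (by omega)

end Cfsg.Agent.S2726
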