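import Mathlib
import Cfsg.Statements.S2727
import Cfsg.Agent.Cl.QuadAutQuot

set_option autoImplicit false
open Cfsg

namespace Cfsg.Agent.S2727

open Cfsg.Agent.Cl

/-- Let T = PΩ⁻_{2m+2}(F) with m ≥ 3 and |F| = q odd (form with anisotropic binary part). The image of the special orthogonal group in Aut(T) contains the inner automorphism group T with index 2 when m is even and q ≡ 3 (mod 4), and coincides with it otherwise (the index is 2 exactly when the discriminant of the form is a square). -/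
theorem result {F : Type*} [Field F] [Fintype F] (hodd : Odd (Fintype.card F)) {m : ℕ} (hm : 3 ≤ m) (a b : F) (hab : (∀ z₁ z₂ : F, z₁ ^ 2 + a * z₁ * z₂ + b * z₂ ^ 2 = 0 → z₁ = 0 ∧ z₂ = 0)) :
    ((Even m ∧ Fintype.card F % 4 = 3) → (Cfsg.Inn (Cfsg.POmega F (Cfsg.quadFormMinus m F a b))).relIndex (Cfsg.psoAut F (Cfsg.quadFormMinus m F a b)) = 2) ∧ (¬ (Even m ∧ Fintype.card F % 4 = 3) → (Cfsg.Inn (Cfsg.POmega F (Cfsg.quadFormMinus m F a b))).relIndex (Cfsg.psoAut F (Cfsg.quadFormMinus m F a b)) = 1) := by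
  have E := quad_even_minus (o_two_ne_zero_of_odd_card hodd) (show 1 ≤ m by omega)
    (o_disc_ne_zero_of_anisotropic hab)
  have hN := quad_negOne_minus_iff hodd m hab
  have h := E.relIndex_pso (by omega)
  rw [← coe_quad_minus]
  exact ⟨fun H => h.trans (E.relIndex_eq_two (hN.2 H)),
    fun H => h.trans (E.relIndex_eq_one fun h' => H (hN.1 h'))⟩

end Cfsg.Agent.S2727
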