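import Mathlib
import Cfsg.Statements.S2734
import Cfsg.Agent.Chev.Fold
import Cfsg.Agent.Chev.AutData
-- import your own Cfsg.Agent.* helpers here

set_option autoImplicit false
open Cfsg

namespace Cfsg.Agent.S2734

/-- In the Chevalley group of type D₄ over a finite field F (the matrix group generated by the root elements), a graph automorphism attached to a symmetry π of the Dynkin diagram (sending each fundamental root element x_p(t) to x_{π(p)}(t) and each x_{−p}(t) to x_{−π(p)}(t)) that has order 3 — a standard triality graph automorphism, π being a 3-cycle of the three outer nodes — has fixed-point subgroup isomorphic to the Chevalley group of type G₂ over F. -/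
theorem result {F : Type*} [Field F] [Fintype F] (τ : MulAut ↥(Cfsg.Lie.chevD4.group F)) (hτ : Cfsg.Lie.chevD4.IsGraphAut τ) (hτ3 : orderOf τ = 3) :
    Nonempty (↥(MonoidHom.eqLocus τ.toMonoidHom (MonoidHom.id ↥(Cfsg.Lie.chevD4.group F))) ≃* ↥(Cfsg.Lie.chevG2.group F)) := by
  open Cfsg.Agent.Chev Cfsg.Lie Cfsg.Lie.ChevalleyDatum in
  obtain ⟨π, hπ, h⟩ := isGraphAut_iff.1 hτ
  have hl : ∀ i : chevD4.Nd, chevD4.isLong (chevD4.simple i) = false := notLongD4
  simp only [IsGrE, graphExp, hl, Bool.false_and, Bool.false_eq_true, ↓reduceIte, pow_one] at h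
  have key : ∀ σ : MulAut (chevD4.group F), (∀ g, σ g = g ↔ τ g = g) →
      (∀ (i : chevD4.Nd) t, σ (chevD4.XG F (chevD4.sr i) t) = chevD4.XG F (chevD4.sr (d4Sym.π i)) t ∧
        σ (chevD4.XG F (chevD4.ng (chevD4.sr i)) t) = chevD4.XG F (chevD4.ng (chevD4.sr (d4Sym.π i))) t) →
      Nonempty (↥(MonoidHom.eqLocus τ.toMonoidHom (MonoidHom.id ↥(chevD4.group F))) ≃* ↥(chevG2.group F)) :=
    fun σ h1 h2 => by
      obtain ⟨ψ, hψ, h3⟩ := exists_fix_triality (τ := σ.toMonoidHom) (fun i t => (h2 i t).1)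
        fun i t => (h2 i t).2
      exact ⟨(MulEquiv.subgroupCongr (Subgroup.ext fun g => (h1 g).symm.trans (h3 g))).trans
        (MonoidHom.ofInjective hψ).symm⟩
  have hc : (∀ i, π (π i) = i) ∨ (∀ i, π i = d4Sym.π i) ∨ ∀ i, π (d4Sym.π i) = i := by
    have : ∀ π : Equiv.Perm (Fin 4), chevD4.IsDiagramSymmetry π → (∀ i, π (π i) = i) ∨
        (∀ i, π i = ![2, 1, 3, 0] i) ∨ ∀ i : Fin 4, π (![2, 1, 3, 0] i) = i := by
      unfold IsDiagramSymmetry
      decide +kernel
    have e : ∀ i : Fin 4, (![2, 1, 3, 0] : Fin 4 → Fin 4) i = d4Sym.π i := fun i => by fin_cases i <;> rfl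
    simp only [e] at this
    exact this π hπ
  rcases hc with e | e | e
  · have : τ ^ 2 = 1 := mulAut_ext (fun i t => by rw [sq, MulAut.mul_apply, (h i t).1, (h _ t).1, e]; rfl)
      fun i t => by rw [sq, MulAut.mul_apply, (h i t).2, (h _ t).2, e]; rfl
    have := orderOf_dvd_of_pow_eq_one this
    rw [hτ3] at this
    omega
  · exact key τ (fun _ => Iff.rfl) fun i t => e i ▸ h i t
  · refine key τ.symm (fun g => τ.symm_apply_eq.trans eq_comm) fun i t => ?_
    rw [τ.symm_apply_eq, τ.symm_apply_eq, (h _ t).1, (h _ t).2, e]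
    exact ⟨rfl, rfl⟩

end Cfsg.Agent.S2734
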