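import Mathlib
import Cfsg.Statements.S2738
import Cfsg.Agent.Cl.LinearBasic

set_option autoImplicit false
open Cfsg

namespace Cfsg.Agent.S2738

/-- The special linear group SL(3, 4) has centre of order 3 and does not split over it: no subgroup is a complement to the centre (so SL(3, 4) is a non-split central extension of PSL(3, 4) by a group of order 3). -/
theorem result (F : Type*) [Field F] [Fintype F] (hF : Fintype.card F = 4) : Nat.card ↥(Subgroup.center (Matrix.SpecialLinearGroup (Fin 3) F)) = 3 ∧ ¬ ∃ K : Subgroup (Matrix.SpecialLinearGroup (Fin 3) F), Subgroup.IsComplement' (Subgroup.center (Matrix.SpecialLinearGroup (Fin 3) F)) K := by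
  have hF' : Nat.card F = 4 := by rw [Nat.card_eq_fintype_card, hF]
  have hc : Nat.card (Subgroup.center (Matrix.SpecialLinearGroup (Fin 3) F)) = 3 := by
    rw [Cl.card_center_sl, hF']; simp
  refine ⟨hc, ?_⟩
  rintro ⟨K, hK⟩
  have hN : K.Normal := by
    rw [← Subgroup.normalizer_eq_top_iff, eq_top_iff, ← hK.sup_eq_top]
    exact sup_le (Subgroup.center_le_normalizer _) Subgroup.le_normalizer
  have h1 := hK.card_mul
  rw [hc, Cl.card_sl_three, hF'] at h1
  rcases Cl.sl_normal_le_center_or_eq_top (Or.inl (by simp)) K with h | h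
  · have := Subgroup.card_le_of_le h
    omega
  · rw [h, Subgroup.card_top, Cl.card_sl_three, hF'] at h1
    omega

end Cfsg.Agent.S2738
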