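import Mathlib
import Cfsg.Statements.S2739
import Cfsg.Agent.Cl.PSL34

set_option autoImplicit false
open scoped Pointwise
open Cfsg

namespace Cfsg.Agent.S2739

/-- In the projective special linear group PSL(3, 4) all subgroups of order 3 are conjugate. -/
theorem result (F : Type*) [Field F] [Fintype F] (hF : Fintype.card F = 4) (X Y : Subgroup (Matrix.ProjectiveSpecialLinearGroup (Fin 3) F)) (hX : Nat.card ↥X = 3) (hY : Nat.card ↥Y = 3) : ∃ g : Matrix.ProjectiveSpecialLinearGroup (Fin 3) F, MulAut.conj g • X = Y := by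
  have : Fact (Nat.Prime 3) := ⟨by norm_num⟩
  have key : ∀ X : Subgroup (Matrix.ProjectiveSpecialLinearGroup (Fin 3) F), Nat.card X = 3 →
      ∃ x, orderOf x = 3 ∧ X = Subgroup.zpowers x := fun X hX => by
    obtain ⟨x, hx⟩ := (Subgroup.isCyclic_iff_exists_zpowers_eq_top X).1 (isCyclic_of_prime_card hX)
    exact ⟨x, by rw [← Nat.card_zpowers, hx, hX], hx.symm⟩
  obtain ⟨x, hx, rfl⟩ := key X hX
  obtain ⟨y, hy, rfl⟩ := key Y hY
  obtain ⟨g, rfl⟩ := isConj_iff.1 (Cl.psl_three_four_isConj_of_orderOf_three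
    (by rw [Nat.card_eq_fintype_card, hF]) hx hy)
  exact ⟨g, MonoidHom.map_zpowers _ _⟩

end Cfsg.Agent.S2739
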