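import Mathlib
import Cfsg.Statements.S2751
import Cfsg.Agent.Loc.CubicOdd3
import Cfsg.Agent.GT.Cores

set_option autoImplicit false
open Cfsg

namespace Cfsg.Agent.S2751

open Subgroup Cfsg.Agent.Loc Cfsg.Agent.Loc.Am Cfsg.Agent.Loc.Cub

theorem six_sub {G : Type*} [Group G] {M H : Subgroup G} (hle : M ≤ H)
    (h : (pCoreOf 2 M).relIndex M = 6) :
    (pCoreOf 2 (M.subgroupOf H)).relIndex (M.subgroupOf H) = 6 := by
  rw [relIndex, pCoreOf_subgroupOf] at h ⊢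
  rw [← h, ← GT.map_pCore_equiv (subgroupOfEquivOfLe hle), index_map_equiv]

/-- Goldschmidt's bound for amalgams of index (3, 3): let M₁ and M₂ be finite subgroups of a group G such that M₁ ⊓ M₂ is a Sylow 2-subgroup of both M₁ and M₂, each quotient Mᵢ / O₂(Mᵢ) is isomorphic to the symmetric group of degree 3, and no nontrivial subgroup of M₁ ⊓ M₂ is normal in both M₁ and M₂. Then M₁ ⊓ M₂ has order at most 2^7. -/
theorem result {G : Type*} [Group G] (M₁ M₂ : Subgroup G) [Finite M₁] [Finite M₂] (ha₁ : ∃ P : Sylow 2 M₁, (P : Subgroup M₁) = (M₁ ⊓ M₂).subgroupOf M₁) (ha₂ : ∃ P : Sylow 2 M₂, (P : Subgroup M₂) = (M₁ ⊓ M₂).subgroupOf M₂) (hb₁ : Nonempty (M₁ ⧸ Cfsg.pCore 2 M₁ ≃* Equiv.Perm (Fin 3))) (hb₂ : Nonempty (M₂ ⧸ Cfsg.pCore 2 M₂ ≃* Equiv.Perm (Fin 3))) (hc : ∀ N : Subgroup G, N ≤ M₁ ⊓ M₂ → (N.subgroupOf M₁).Normal → (N.subgroupOf M₂).Normal → N = ⊥) : Nat.card ↥(M₁ ⊓ M₂) ≤ 2 ^ 7 :=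 by
  obtain ⟨P₁, hP₁⟩ := ha₁
  obtain ⟨P₂, hP₂⟩ := ha₂
  have s1 := isSylowOf_of_eq_subgroupOf inf_le_left P₁ hP₁
  have s2 := isSylowOf_of_eq_subgroupOf inf_le_right P₂ hP₂
  have e1 := six_of_quotient hb₁
  have e2 := six_of_quotient hb₂
  have l1 : M₁ ≤ M₁ ⊔ M₂ := le_sup_left
  have l2 : M₂ ≤ M₁ ⊔ M₂ := le_sup_right
  have ei : M₁.subgroupOf (M₁ ⊔ M₂) ⊓ M₂.subgroupOf (M₁ ⊔ M₂) = (M₁ ⊓ M₂).subgroupOf (M₁ ⊔ M₂) :=
    rfl
  have hc' : Cub.Cubic (M₁.subgroupOf (M₁ ⊔ M₂)) (M₂.subgroupOf (M₁ ⊔ M₂)) := by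
    refine ⟨?_, fun N hN hn => ?_, Finite.of_equiv _ (subgroupOfEquivOfLe l1).symm.toEquiv,
      Finite.of_equiv _ (subgroupOfEquivOfLe l2).symm.toEquiv, ?_, ?_, ?_, six_sub l1 e1,
      six_sub l2 e2⟩
    · rw [← subgroupOf_sup l1 l2, subgroupOf_self]
    · have hle : N.map (M₁ ⊔ M₂).subtype ≤ M₁ ⊓ M₂ := map_le_iff_le_comap.2 hN
      have hno : M₁ ⊔ M₂ ≤ normalizer (N.map (M₁ ⊔ M₂).subtype : Set G) := by
        rw [← normal_subgroupOf_iff_le_normalizer (map_subtype_le _), subgroupOf,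
          comap_map_eq_self_of_injective (M₁ ⊔ M₂).subtype_injective]
        exact hn
      have := hc _ hle
        ((normal_subgroupOf_iff_le_normalizer (hle.trans inf_le_left)).2 (l1.trans hno))
        ((normal_subgroupOf_iff_le_normalizer (hle.trans inf_le_right)).2 (l2.trans hno))
      exact (map_eq_bot_iff_of_injective _ (M₁ ⊔ M₂).subtype_injective).1 this
    · rw [ei]; exact s1.isPGroup.comap_subtype
    · rw [ei, relIndex_subgroupOf l1]; exact three_of_six s1 e1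
    · rw [ei, relIndex_subgroupOf l2]; exact three_of_six s2 e2
  have := hc'.card_le
  rw [ei, Nat.card_congr (subgroupOfEquivOfLe (inf_le_left.trans l1)).toEquiv] at this
  exact this

end Cfsg.Agent.S2751
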