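import Cfsg.Statements.S2752
import Cfsg.Agent.Loc.SKMod

set_option autoImplicit false
universe u
open Cfsg Cfsg.Agent.Loc Cfsg.Agent.Loc.S3F Subgroup

namespace Cfsg.Agent.S2752

/-- Let M be an elementary abelian 2-subgroup of a finite group L and G a subgroup of L acting faithfully on M by conjugation (G normalizes M and meets C(M) trivially). Assume O₂(G) = 1, the symmetric group of degree 3 is not involved in G, and every non-abelian composition factor of G is a Suzuki group Sz(2^(2n+1)) or a group PSL₂(3^(2n+1)). Then every elementary abelian 2-subgroup A of G satisfies |M / C_M(A)| ≥ |A|² and |[M, A]| ≥ |A|². -/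
theorem result {L : Type u} [Group L] [Finite L] (M G : Subgroup L) (hM : Cfsg.IsElementaryAbelian 2 M) (hGM : G ≤ Subgroup.normalizer (M : Set L)) (hf : G ⊓ Subgroup.centralizer (M : Set L) = ⊥) (ha : Cfsg.pCore 2 ↥G = ⊥) (hb : ¬ Cfsg.Involves (Equiv.Perm (Fin 3)) ↥G) (hc : Cfsg.IsCompositionKGroupWith Cfsg.IsSuzukiOrPSL2OddPowerThree ↥G) (A : Subgroup L) (hA : A ≤ G) (hAe : Cfsg.IsElementaryAbelian 2 A) : Nat.card A ^ 2 * Nat.card ↥(M ⊓ Subgroup.centralizer (A : Set L)) ≤ Nat.card M ∧ Nat.card A ^ 2 ≤ Nat.card ↥⁅M, A⁆ := by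
  have hinj : Function.Injective (GT.CopAct.conjHom hGM) := by
    rw [← MonoidHom.ker_eq_bot_iff, GT.CopAct.conjHom_ker, subgroupOf_eq_bot, disjoint_iff,
      inf_comm, hf]
  have e := MonoidHom.ofInjective hinj
  have hAM := hA.trans hGM
  have hinj' : Function.Injective (GT.CopAct.conjHom hAM) := by
    rw [← MonoidHom.ker_eq_bot_iff, GT.CopAct.conjHom_ker, subgroupOf_eq_bot, disjoint_iff,
      eq_bot_iff, ← hf, inf_comm]
    exact inf_le_inf_right _ hA
  set φ := GT.CopAct.conjHom hAM with hφ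
  have hA' : IsElementaryAbelian 2 φ.range := by
    rw [MonoidHom.range_eq_map]
    exact (IsElementaryAbelian.iff_top.1 hAe).map φ
  obtain ⟨h1, h2⟩ := core (fun a b : M => Subtype.ext (hM.comm a.2 b.2))
    (fun v => Subtype.ext (by rw [← pow_two]; exact hM.2 v v.2)) ((SK.of_comp hb hc).range _)
    (by rw [← GT.map_pCore_equiv e, ha, Subgroup.map_bot]) _
    φ.range (by rintro _ ⟨d, rfl⟩; exact ⟨⟨d, hA d.2⟩, rfl⟩) rfl hA'
  have e1 : GT.CopAct.actFixed φ.range.subtype = GT.CopAct.actFixed φ := by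
    ext v
    exact ⟨fun h d => h ⟨_, d, rfl⟩, fun h ⟨_, d, e⟩ => e ▸ h d⟩
  have e2 : GT.CopAct.actComm φ.range.subtype ⊤ = GT.CopAct.actComm φ ⊤ :=
    le_antisymm (GT.CopAct.actComm_le_iff.2 fun u hu ⟨_, d, e⟩ => e ▸ GT.CopAct.mem_actComm φ hu d)
      (GT.CopAct.actComm_le_iff.2 fun u hu d =>
        GT.CopAct.mem_actComm φ.range.subtype hu ⟨_, d, rfl⟩)
  rw [← Nat.card_congr (MonoidHom.ofInjective hinj').toEquiv] at h1 h2
  rw [e1, GT.CopAct.actFixed_conjHom] at h1
  rw [e2, ← card_map_of_injective M.subtype_injective, GT.CopAct.map_actComm_conjHom,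
    Mss.map_subtype_top] at h2
  refine ⟨?_, h2⟩
  rw [← Cl.L2.card_inf_mul_relIndex M (centralizer (A : Set L)), mul_comm]
  exact Nat.mul_le_mul_left _ h1

end Cfsg.Agent.S2752
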