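import Mathlib
import Cfsg.Statements.S2758
import Cfsg.Agent.Loc.SFour

set_option autoImplicit false
open Cfsg

namespace Cfsg.Agent.S2758

open Cfsg.Agent.Loc

/-- For an odd prime p and a finite group G the following are equivalent: the dihedral group of order 2p is involved in G; some element of 2-power order normalizes but does not centralize some p-subgroup of G; some element of 2-power order inverts some nonidentity element of p-power order. -/
theorem result {G : Type*} [Group G] [Finite G] {p : ℕ} [Fact p.Prime] (hp : p ≠ 2) : (Cfsg.Involves (DihedralGroup p) G ↔ ∃ (x : G) (P : Subgroup G), (∃ k : ℕ, orderOf x = 2 ^ k) ∧ IsPGroup p ↥P ∧ x ∈ Subgroup.normalizer (P : Set G) ∧ x ∉ Subgroup.centralizer (P : Set G)) ∧ (Cfsg.Involves (DihedralGroup p) G ↔ ∃ x y : G, (∃ k : ℕ, orderOf x = 2 ^ k) ∧ (∃ k : ℕ, orderOf y = p ^ k) ∧ y ≠ 1 ∧ x * y * x⁻¹ = y⁻¹) := by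
  have hprime : p.Prime := Fact.out
  have hodd := hprime.odd_of_ne_two hp
  have hr : (DihedralGroup.r 1 : DihedralGroup p) ^ p = 1 := DihedralGroup.r_one_pow_n
  have hr1 : (DihedralGroup.r 1 : DihedralGroup p) ≠ 1 := fun h => by
    have := DihedralGroup.orderOf_r_one (n := p)
    rw [h, orderOf_one] at this
    exact hprime.ne_one this.symm
  have hs : (DihedralGroup.sr 0 : DihedralGroup p) * DihedralGroup.r 1 * (DihedralGroup.sr 0)⁻¹ =
      (DihedralGroup.r 1)⁻¹ := by simp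
  have ho : ∀ {q : ℕ}, q.Prime → ∀ {x : G}, (∃ k, x ^ q ^ k = 1) → ∃ k, orderOf x = q ^ k := by
    rintro q hq x ⟨k, hk⟩
    obtain ⟨j, -, hj⟩ := (Nat.dvd_prime_pow hq).1 (orderOf_dvd_of_pow_eq_one hk)
    exact ⟨j, hj⟩
  have h3 : (∃ x y : G, (∃ k : ℕ, orderOf x = 2 ^ k) ∧ (∃ k : ℕ, orderOf y = p ^ k) ∧ y ≠ 1 ∧
      x * y * x⁻¹ = y⁻¹) → Involves (DihedralGroup p) G := by
    rintro ⟨x, y, ⟨k, hk⟩, ⟨l, hl⟩, h1, hi⟩
    obtain ⟨z, -, hz, hz'⟩ := SF.exists_inverted_prime (p := p) (k := l)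
      (by rw [← hl, pow_orderOf_eq_one]) h1 hi
    refine SF.involves_dihedral_of_inverts (k := k) (by rw [← hk, pow_orderOf_eq_one]) hz hodd
      (fun h => ?_) hz'
    rw [h, orderOf_one] at hz
    exact hprime.ne_one hz.symm
  refine ⟨⟨fun h => ?_, ?_⟩, ⟨fun h => ?_, h3⟩⟩
  · obtain ⟨x, P, h1, h2⟩ := SF.exists_acts_of_involves h hp hr hr1 hs
    exact ⟨x, P, ho Nat.prime_two h1, h2⟩
  · rintro ⟨x, P, ⟨k, hk⟩, hP, hn, hc⟩
    have hk' : x ^ 2 ^ k = 1 := by rw [← hk, pow_orderOf_eq_one]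
    obtain ⟨j, y, hy, h1, hi⟩ := SF.exists_inverted_of_acts k hk' hn hc
    refine h3 ⟨_, y, ho Nat.prime_two ⟨k, ?_⟩, ho hprime ?_, h1, hi⟩
    · rw [← pow_mul, mul_comm, pow_mul, hk', one_pow]
    · exact (hP ⟨y, hy⟩).imp fun k hk => congrArg Subtype.val hk
  · obtain ⟨x, y, h1, h2, h3⟩ := SF.exists_inverted_of_involves h hp hr hr1 hs
    refine ⟨x, y, ho Nat.prime_two h1, ⟨1, by rw [h2, pow_one]⟩, fun h => ?_, h3⟩
    rw [h, orderOf_one] at h2
    exact hprime.ne_one h2.symm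

end Cfsg.Agent.S2758
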