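import Mathlib
import Cfsg.Statements.S2760
import Cfsg.Agent.Loc.MssSyl

set_option autoImplicit false
open Cfsg

namespace Cfsg.Agent.S2760

open Cfsg.Agent.Loc.Mss Cfsg.Agent.GT Subgroup

/-- Let G be a finite group with C_G(O₂(G)) ≤ O₂(G) and H a subgroup of G such that H is normal in G, or the subgroup O²(H) generated by the elements of H of odd order is normal in G. Then C_H(O₂(H)) ≤ O₂(H). -/
theorem result {G : Type*} [Group G] [Finite G] (hchar : Subgroup.centralizer (Cfsg.pCore 2 G : Set G) ≤ Cfsg.pCore 2 G) (H : Subgroup G) (hH : H.Normal ∨ ((Cfsg.pResidual 2 ↥H).map H.subtype).Normal) : Subgroup.centralizer (Cfsg.pCore 2 ↥H : Set ↥H) ≤ Cfsg.pCore 2 ↥H := by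
  have hG : ChP 2 (⊤ : Subgroup G) := chP_top.2 hchar
  rw [chP_iff]
  rcases hH with h | h
  · exact hG.of_normal le_top (norm_normal _ _)
  · have : (pResidualOf 2 H).Normal := h
    have h1 : ChP 2 (pResidualOf 2 H) := hG.of_normal le_top (norm_normal _ _)
    have h2 : pCoreOf 2 (pResidualOf 2 H) ≤ pCoreOf 2 H :=
      le_pCoreOf ((pCoreOf_le _).trans (res_le H)) (norm_core (le_norm_res H)) (pg_core _)
    refine le_pCoreOf inf_le_left (norm_inf le_normalizer (norm_cent (le_norm_core H)))
      (pg_of_res_le (pg_core (pResidualOf 2 H)) (h1.le_core (res_mono inf_le_left) ?_))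
    exact (res_le _).trans (inf_le_right.trans (cent_anti h2))

end Cfsg.Agent.S2760
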