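import Mathlib
import Cfsg.Statements.S2762
import Cfsg.Agent.GT.ThompsonQdGroup
import Cfsg.Agent.Cl.LinearSylow

set_option autoImplicit false
open Cfsg

namespace Cfsg.Agent.S2762

open Subgroup Matrix Cfsg.Agent.GT
open scoped MatrixGroups

section
variable {F : Type*} [Field F]

theorem mem_iff {M : SL(3, F)} : M ∈ qdOver F ↔ ∃ v A, M = qdAff v A := by
  rw [qdOver, closure_row_eq_qdAffGroup]; rfl

theorem aff_mem (v : Fin 2 → F) (A : SL(2, F)) : qdAff v A ∈ qdOver F := mem_iff.2 ⟨v, A, rfl⟩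

/-- The linear part. -/
noncomputable def lin (M : qdOver F) : SL(2, F) := (mem_iff.1 M.2).choose_spec.choose

theorem exists_eq_lin (M : qdOver F) : ∃ v, (M : SL(3, F)) = qdAff v (lin M) :=
  ⟨_, (mem_iff.1 M.2).choose_spec.choose_spec⟩

theorem lin_eq {M : qdOver F} {v : Fin 2 → F} {A : SL(2, F)} (h : (M : SL(3, F)) = qdAff v A) :
    lin M = A := by
  obtain ⟨w, hw⟩ := exists_eq_lin M
  exact (qdAff_inj (hw.symm.trans h)).2

/-- The coordinates. -/
noncomputable def act (F : Type*) [Field F] : QdAct F (qdOver F) where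
  φ :=
    { toFun := lin
      map_one' := lin_eq qdAff_zero_one.symm
      map_mul' := fun M N => by
        obtain ⟨v, hv⟩ := exists_eq_lin M
        obtain ⟨w, hw⟩ := exists_eq_lin N
        exact lin_eq (by rw [coe_mul, hv, hw, qdAff_mul]) }
  θ := fun v => ⟨qdAff v 1, aff_mem v 1⟩
  surj := fun A => ⟨⟨qdAff 0 A, aff_mem 0 A⟩, lin_eq rfl⟩
  inj := fun v w h => (qdAff_inj (congrArg Subtype.val h)).1
  add := fun v w => Subtype.ext (by simp [qdAff_mul])
  conj := fun M v => by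
    apply Subtype.ext
    obtain ⟨w, h⟩ := exists_eq_lin M
    change (M : SL(3, F)) * qdAff v 1 * (M : SL(3, F))⁻¹ =
      qdAff (((lin M : SL(2, F)) : Matrix (Fin 2) (Fin 2) F) *ᵥ v) 1
    rw [mul_inv_eq_iff_eq_mul, h, qdAff_mul, qdAff_mul]
    simp [add_comm]

theorem act_φ (v : Fin 2 → F) (A : SL(2, F)) : (act F).φ ⟨qdAff v A, aff_mem v A⟩ = A :=
  lin_eq rfl

theorem mem_V_iff (v : Fin 2 → F) (A : SL(2, F)) :
    (⟨qdAff v A, aff_mem v A⟩ : qdOver F) ∈ (act F).V ↔ A = 1 :=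
  ⟨fun ⟨_, h⟩ => (qdAff_inj (congrArg Subtype.val h)).2.symm, by rintro rfl; exact ⟨v, rfl⟩⟩

theorem pCore_eq [Finite F] (p : ℕ) [Fact p.Prime] [CharP F p] :
    pCore p (qdOver F) = (act F).V := by
  refine le_antisymm ?_ (le_pCore (act F).isPGroup_V)
  rintro ⟨M, hM⟩ h
  obtain ⟨v, A, rfl⟩ := mem_iff.1 hM
  have hn : ((pCore p (qdOver F)).map (act F).φ).Normal :=
    Normal.map inferInstance _ (act F).surj
  have h1 := le_pCore ((isPGroup_pCore p).map (act F).φ) (mem_map_of_mem _ h)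
  rw [Cl.pCore_sl, act_φ, mem_bot] at h1
  exact (mem_V_iff v A).2 h1

/-- The block-diagonal embedding. -/
def blk (F : Type*) [Field F] : SL(2, F) →* qdOver F where
  toFun A := ⟨qdAff 0 A, aff_mem 0 A⟩
  map_one' := Subtype.ext qdAff_zero_one
  map_mul' A B := Subtype.ext (by simp [qdAff_mul])

theorem blk_injective : Function.Injective (blk F) := fun _ _ h =>
  (qdAff_inj (congrArg Subtype.val h)).2

end

/-- Structure of Qd over a finite field F of characteristic p (the affine subgroup of SL₃(F)): its largest normal p-subgroup is the group of translations (matrices with upper-left block the identity), the block-diagonal matrices form a complement isomorphic to SL₂(F), and the translation subgroup is a natural SL₂(F)-module for that complement. -/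
theorem result {F : Type*} [Field F] [Fintype F] {p : ℕ} [Fact p.Prime] [CharP F p] : (∀ M : ↥(Cfsg.qdOver F), M ∈ Cfsg.pCore p ↥(Cfsg.qdOver F) ↔ ((M : Matrix.SpecialLinearGroup (Fin 3) F) : Matrix (Fin 3) (Fin 3) F) 0 0 = 1 ∧ ((M : Matrix.SpecialLinearGroup (Fin 3) F) : Matrix (Fin 3) (Fin 3) F) 0 1 = 0 ∧ ((M : Matrix.SpecialLinearGroup (Fin 3) F) : Matrix (Fin 3) (Fin 3) F) 1 0 = 0 ∧ ((M : Matrix.SpecialLinearGroup (Fin 3) F) : Matrix (Fin 3) (Fin 3) F) 1 1 = 1) ∧ ∃ K : Subgroup ↥(Cfsg.qdOver F), (∀ M : ↥(Cfsg.qdOver F), M ∈ K ↔ ((M : Matrix.SpecialLinearGroup (Fin 3) F) : Matrix (Fin 3) (Fin 3) F) 0 2 = 0 ∧ ((M : Matrix.SpecialLinearGroup (Fin 3) F) : Matrix (Fin 3) (Fin 3) F) 1 2 = 0) ∧ K ⊓ Cfsg.pCore p ↥(Cfsg.qdOver F) = ⊥ ∧ K ⊔ Cfsg.pCore p ↥(Cfsg.qdOver F) = ⊤ ∧ Nonempty (↥K ≃* Matrix.SpecialLinearGroup (Fin 2) F) ∧ Cfsg.IsNaturalSL2Module F (Cfsg.pCore p ↥(Cfsg.qdOver F)) K := by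
  rw [pCore_eq]
  refine ⟨?_, (blk F).range, ?_, ?_, ?_, ⟨(MonoidHom.ofInjective blk_injective).symm⟩,
    le_normalizer_of_normal, (act F).φ.comp (blk F).range.subtype,
    (AddEquiv.ofBijective (AddMonoidHom.mk' (fun v => Additive.ofMul ⟨_, (act F).θ_mem v⟩)
      fun v w => congrArg Additive.ofMul (Subtype.ext ((act F).add v w))) ⟨fun v w h =>
        (act F).inj (congrArg (fun x => ((Additive.toMul x : (act F).V) : qdOver F)) h), ?_⟩).symm,
      fun A => ⟨⟨_, A, rfl⟩, act_φ 0 A⟩, ?_, ?_⟩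
  · rintro ⟨M, hM⟩
    obtain ⟨v, A, rfl⟩ := mem_iff.1 hM
    rw [mem_V_iff]
    refine ⟨by rintro rfl; simp [coe_qdAff], fun h => ?_⟩
    simp only [coe_qdAff] at h
    ext i j
    fin_cases i <;> fin_cases j
    exacts [h.1, h.2.1, h.2.2.1, h.2.2.2]
  · rintro ⟨M, hM⟩
    obtain ⟨v, A, rfl⟩ := mem_iff.1 hM
    refine ⟨fun ⟨B, h⟩ => ?_, fun h => ⟨A, Subtype.ext ?_⟩⟩
    · obtain ⟨rfl, rfl⟩ := qdAff_inj (congrArg Subtype.val h)
      simp [coe_qdAff]
    · change qdAff 0 A = qdAff v A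
      congr 1
      ext i
      fin_cases i
      exacts [h.1.symm, h.2.symm]
  · rw [eq_bot_iff]
    rintro _ ⟨⟨A, rfl⟩, h⟩
    obtain rfl := (mem_V_iff 0 A).1 h
    exact map_one (blk F)
  · rw [eq_top_iff]
    rintro ⟨M, hM⟩ -
    obtain ⟨v, A, rfl⟩ := mem_iff.1 hM
    convert mul_mem (mem_sup_right ((act F).θ_mem v))
      (mem_sup_left (S := (blk F).range) (x := blk F A) ⟨A, rfl⟩)
    change qdAff v A = qdAff v 1 * qdAff 0 A
    simp [qdAff_mul]
  · rintro ⟨_, v, rfl⟩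
    exact ⟨v, rfl⟩
  · ext l
    rw [MonoidHom.mem_ker, mem_subgroupOf, QdAct.mem_centralizer_iff]
    rfl
  · rintro l ⟨_, v, rfl⟩
    refine ⟨⟨_, (act F).θ_mem _⟩, ((act F).conj l v).symm, ?_⟩
    rw [AddEquiv.symm_apply_eq]
    have h : ∀ v, (AddEquiv.ofBijective (AddMonoidHom.mk'
        (fun v => Additive.ofMul (⟨_, (act F).θ_mem v⟩ : (act F).V))
        fun v w => congrArg Additive.ofMul (Subtype.ext ((act F).add v w))) ⟨fun v w h =>
        (act F).inj (congrArg (fun x => ((Additive.toMul x : (act F).V) : qdOver F)) h), by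
          rintro ⟨_, v, rfl⟩
          exact ⟨v, rfl⟩⟩).symm (Additive.ofMul ⟨_, (act F).θ_mem v⟩) = v := fun v => by
      rw [AddEquiv.symm_apply_eq]; rfl
    rw [h]
    rfl

end Cfsg.Agent.S2762
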