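import Cfsg.Statements.S2765
import Cfsg.Agent.Loc.PUAm6

set_option autoImplicit false
open Cfsg

namespace Cfsg.Agent.S2765

open Cfsg.Agent.GT Cfsg.Agent.Loc.Mss Subgroup
open scoped commutatorElement

/-- In the same pushing-up situation (G finite, C_G(O_p(G)) ≤ O_p(G), G/K ≅ PSL₂(p^n) with n ≥ 1, a Sylow p-subgroup S in exactly one maximal subgroup, no nontrivial characteristic subgroup of S normal in G), one of the following holds: (I) S has nilpotency class 2, exponent 4 if p = 2 and exponent p otherwise, and G has exactly one noncentral chief factor inside O_p(G); or (II) p = 3, S has class 3 and exponent 9, and G has exactly two noncentral chief factors inside O_p(G). 'Exactly one' is phrased as: some noncentral chief factor U/W inside O_p(G) with G acting hypercentrally on W and on O_p(G)/U; 'exactly two' analogously with a chain. -/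
theorem result {G : Type*} [Group G] [Finite G] {p : ℕ} [Fact p.Prime] (S : Sylow p G) (hE₁ : Subgroup.centralizer (Cfsg.pCore p G : Set G) ≤ Cfsg.pCore p G) (hE₂ : ∃! M : Subgroup G, IsCoatom M ∧ (S : Subgroup G) ≤ M) (K : Subgroup G) [K.Normal] (F : Type) [Field F] [Fintype F] (n : ℕ) (hn : 1 ≤ n) (hF : Fintype.card F = p ^ n) (hE₃ : Nonempty (G ⧸ K ≃* Matrix.ProjectiveSpecialLinearGroup (Fin 2) F)) (hd : ∀ T : Subgroup ↥(S : Subgroup G), T ≠ ⊥ → T.Characteristic → ¬ (T.map (S : Subgroup G).subtype).Normal) : ((S : Subgroup G).lowerCentralSeries 2 = ⊥ ∧ (S : Subgroup G).lowerCentralSeries 1 ≠ ⊥ ∧ (p = 2 → Monoid.exponent ↥(S : Subgroup G) = 4) ∧ (p ≠ 2 → Monoid.exponent ↥(S : Subgroup G) = p) ∧ (∃ U W : Subgroup G, W ≤ U ∧ U ≤ (Cfsg.pCore p G) ∧ Cfsg.IsChiefFactor U W ∧ ¬ ⁅U, (⊤ : Subgroup G)⁆ ≤ W ∧ (∃ k : ℕ, Cfsg.iterCommutator W ⊤ k = ⊥) ∧ (∃ k : ℕ, Cfsg.iterCommutator (Cfsg.pCore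 p G) ⊤ k ≤ U))) ∨ (p = 3 ∧ (S : Subgroup G).lowerCentralSeries 3 = ⊥ ∧ (S : Subgroup G).lowerCentralSeries 2 ≠ ⊥ ∧ Monoid.exponent ↥(S : Subgroup G) = 9 ∧ (∃ U₁ W₁ U₂ W₂ : Subgroup G, W₁ ≤ U₁ ∧ U₁ ≤ W₂ ∧ W₂ ≤ U₂ ∧ U₂ ≤ (Cfsg.pCore p G) ∧ Cfsg.IsChiefFactor U₁ W₁ ∧ Cfsg.IsChiefFactor U₂ W₂ ∧ ¬ ⁅U₁, (⊤ : Subgroup G)⁆ ≤ W₁ ∧ ¬ ⁅U₂, (⊤ : Subgroup G)⁆ ≤ W₂ ∧ (∃ k : ℕ, Cfsg.iterCommutator W₁ ⊤ k = ⊥) ∧ (∃ k : ℕ, Cfsg.iterCommutator W₂ ⊤ k ≤ U₁) ∧ (∃ k : ℕ, Cfsg.iterCommutator (Cfsg.pCore p G) ⊤ k ≤ U₂))) := by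
  open Cfsg.Agent.Loc.PU in
  have := charP_of_card (F := F) (p := p) (n := n) (by rw [Nat.card_eq_fintype_card, hF])
  have hp : p.Prime := Fact.out
  obtain ⟨M, P⟩ := pud_of_unique (Syl.of_sylow S) hE₁ hE₂ K hE₃
  have hZ : ∃ k, iterCommutator 𝐙[(⊤ : Subgroup G)] ⊤ k = ⊥ :=
    ⟨1, comm_eq_bot_iff.2 inf_le_right⟩
  rw [← pCoreOf_top]
  rcases P.structure (hd_amb hd) with ⟨W, D, ρ, φ, h⟩ | ⟨A, B, C, D, ρ, φ, ρ', φ', h⟩
  · have h1 : (S : Subgroup G).lowerCentralSeries 1 ≠ ⊥ := fun e => h.nat.comm_ne_bot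
      (eq_bot_iff.2 ((commutator_mono P.V_le le_rfl).trans e.le))
    refine .inl ⟨h.cls, h1, fun h2 => ?_, fun h2 => exponent_eq_prime hp
      (by simpa only [if_neg h2] using h.exp) fun e => h1 (eq_bot_iff.2 ((lcs_le _ 1).trans e.le)),
      _, _, h.nat.le, V_le_core _, h.nat.toNatD.isChief, h.nat.not_comm_le, hZ, 1, h.commT⟩
    refine exponent_eq_sq Nat.prime_two (fun s hs => by simpa [h2] using h.exp s hs) ?_
    by_contra! h3
    refine h1 (comm_eq_bot_iff.2 fun a ha => mem_cent.2 fun b hb => ?_)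
    have e : ∀ x ∈ (S : Subgroup G), x⁻¹ = x := fun x hx =>
      inv_eq_of_mul_eq_one_left (by rw [← pow_two, h3 x hx])
    rw [← e _ (mul_mem hb ha), mul_inv_rev, e a ha, e b hb]
  · have := normal_of_top h.nat.norm
    have := normal_of_top h.nat'.norm₀
    obtain ⟨b, hb, hb'⟩ := SetLike.not_le_iff_exists.1 P.not_le_core
    obtain ⟨a, ha, h1⟩ := h.nq b hb hb'
    have ha' := P.core_le (h.supD.le (mem_sup_left (mem_sup_left ha)))
    refine .inr ⟨h.three, h.cls, fun e => h1 ?_, exponent_eq_sq Nat.prime_three h.exp h.exp',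
      _, _, _, _, h.nat.le, le_sup_left, h.nat'.le, le_rfl, h.nat.toNatD.isChief,
      h.nat'.toNatD.isChief, h.nat.not_comm_le, h.nat'.not_comm_le, hZ,
      iter_le_of_res P.syl (h.nat'.le.trans P.core_le) le_sup_left h.commE, 0, le_rfl⟩
    have : ⁅b, ⁅b, a⁆⁆ ∈ (S : Subgroup G).lowerCentralSeries 2 :=
      (commutator_comm _ _).le (commutator_mem_commutator hb (commutator_mem_commutator hb ha'))
    rw [mem_bot.1 (e.le this)]
    exact one_mem _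

end Cfsg.Agent.S2765
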