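import Cfsg.Statements.S2766
import Cfsg.Agent.Loc.PUBlock

set_option autoImplicit false
open Cfsg

namespace Cfsg.Agent.S2766

open Cfsg.Agent.GT Cfsg.Agent.Loc.Mss Subgroup
open scoped commutatorElement

open Matrix MatrixGroups Cfsg.Agent.Loc.PU

/-- affine matrices -/
def aff {F : Type*} [Field F] (A : SL(2, F)) (x : Fin 2 → F) : SL(3, F) :=
  ⟨!![A 0 0, A 0 1, x 0; A 1 0, A 1 1, x 1; 0, 0, 1], by
    rw [det_fin_three]; simpa using sl_det A⟩

theorem aff_mul {F : Type*} [Field F] (A B : SL(2, F)) (x y : Fin 2 → F) :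
    aff (A * B) (A.1 *ᵥ y + x) = aff A x * aff B y := by
  ext i j
  change _ = ((aff A x).1 * (aff B y).1) i j
  rw [Matrix.mul_apply, Fin.sum_univ_three]
  fin_cases i <;> fin_cases j <;> simp [aff, sl_mul]

theorem aff_eq_one {F : Type*} [Field F] {A : SL(2, F)} {x : Fin 2 → F} (h : aff A x = 1) :
    A = 1 ∧ x = 0 := by
  have := fun i j => congrArg (fun M : SL(3, F) => M i j) h
  exact ⟨sl_ext (this 0 0) (this 0 1) (this 1 0) (this 1 1), vec_ext (this 0 2) (this 1 2)⟩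

theorem mem_qd {F : Type*} [Field F] {K : Subgroup SL(3, F)} (h1 : ∀ M ∈ K, ∃ A x, aff A x = M)
    (h2 : ∀ A x, aff A x ∈ K) : K = qdOver F := by
  refine le_antisymm (fun M hM => ?_) ((closure_le _).2 fun M ⟨a, b, c⟩ => ?_)
  · obtain ⟨A, x, rfl⟩ := h1 M hM
    exact subset_closure ⟨rfl, rfl, rfl⟩
  · have hd := M.2
    rw [det_fin_three, a, b, c] at hd
    have e : M = aff ⟨!![M.1 0 0, M.1 0 1; M.1 1 0, M.1 1 1], by
        rw [det_fin_two_of]; simpa using hd⟩ ![M.1 0 2, M.1 1 2] := by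
      ext i j
      fin_cases i <;> fin_cases j <;> first | rfl | assumption
    exact e ▸ h2 _ _

theorem exists_qd {H : Type*} [Group H] {F : Type*} [Field F] {L E V Z : Subgroup H}
    {ρ : H → SL(2, F)} {φ : H → Fin 2 → F} (D : NatD L V Z ρ φ) (h2 : (2 : F) ≠ 0)
    (hk : ∀ g ∈ L, ρ g = 1 → g ∈ V) (hV : V ≤ L) (hV' : ∀ v ∈ V, ρ v = 1) (hE : E ≤ L)
    (h3 : E ⊓ Z = ⊥) (h4 : ∀ g ∈ L, ∃ e ∈ E, ∃ z ∈ Z, e * z = g) :
    Nonempty (E ≃* qdOver F) := by
  obtain ⟨z, hz, ez⟩ := D.ρ_surj (-1)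
  have hc : ∀ g ∈ L, ⁅g, z⁆ ∈ V := fun g hg => by
    have h0 := mul_mem (mul_mem hg hz) (inv_mem hg)
    refine hk _ (mul_mem h0 (inv_mem hz)) ?_
    rw [commutatorElement_def, D.ρ_mul _ h0 _ (inv_mem hz), D.ρ_conj hg hz, D.ρ_inv hz, ez]; simp
  let τ : H → Fin 2 → F := fun g => (2 : F)⁻¹ • φ ⁅g, z⁆
  have hτ : ∀ g ∈ L, ∀ h ∈ L, τ (g * h) = (ρ g).1 *ᵥ τ h + τ g := fun g hg h hh => by
    have e : ⁅g * h, z⁆ = g * ⁅h, z⁆ * g⁻¹ * ⁅g, z⁆ := by
      simp only [commutatorElement_def]; group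
    simp only [τ]
    rw [e, D.φ_mul _ (D.conj_mem hg (hc h hh)) _ (hc g hg), D.equiv g hg _ (hc h hh), smul_add,
      mulVec_smul]
  have hτV : ∀ v ∈ V, τ v = φ v := fun v hv => by
    simp only [τ]
    rw [← commutatorElement_inv, D.φ_inv (D.comm_mem hz hv), D.φ_comm hz hv, ez, mv_neg_one,
      neg_sub, sub_neg_eq_add, ← two_smul F, smul_smul, inv_mul_cancel₀ h2, one_smul]
  let θ := homOn L (fun g => aff (ρ g) (τ g)) fun g hg h hh => by
    rw [D.ρ_mul g hg h hh, hτ g hg h hh, aff_mul]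
  let θ' := θ.comp (inclusion hE)
  have hi : Function.Injective θ' := (injective_iff_map_eq_one _).2 fun g hg => by
    obtain ⟨a, b⟩ := aff_eq_one (A := ρ g) (x := τ g) hg
    have h1 := hk g (hE g.2) a
    rw [hτV g h1, D.φ_ker g h1] at b
    exact Subtype.ext (mem_bot.1 (h3.le ⟨g.2, b⟩))
  refine ⟨(MonoidHom.ofInjective hi).trans (MulEquiv.subgroupCongr (mem_qd ?_ fun A x => ?_))⟩
  · rintro _ ⟨g, rfl⟩
    exact ⟨_, _, rfl⟩
  · obtain ⟨g, hg, rfl⟩ := D.ρ_surj A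
    obtain ⟨v, hv, e⟩ := D.φ_surj (x - τ g)
    obtain ⟨e', he, y, hy, e1⟩ := h4 _ (mul_mem (hV hv) hg)
    refine ⟨⟨e', he⟩, ?_⟩
    change aff (ρ e') (τ e') = _
    have a := congrArg ρ e1
    have b := congrArg τ e1
    rw [D.ρ_mul _ (hE he) _ (hV (D.le hy)), D.ρ_mul _ (hV hv) _ hg, hV' v hv, hV' y (D.le hy),
      mul_one, one_mul] at a
    rw [hτ _ (hE he) _ (hV (D.le hy)), hτ _ (hV hv) _ hg, hV' v hv, mv_one, hτV v hv, e,
      hτV y (D.le hy), D.φ_of_mem hy, mulVec_zero, zero_add, add_sub_cancel] at b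
    rw [a, b]

/-- Let p ≥ 5 be prime and G a maximal p-local subgroup of a finite group H (G is the normalizer of a nontrivial p-subgroup and lies in no other such normalizer). Suppose C_G(O_p(G)) ≤ O_p(G), G/K ≅ PSL₂(p^n) for some normal K and n ≥ 1, a Sylow p-subgroup S of G lies in exactly one maximal subgroup of G, and N_H(S) is not contained in G. Then G = G₀ × E for subgroups G₀ ≅ Qd(p^n) (the natural semidirect product of the plane over the field with p^n elements by SL₂) and E an elementary abelian p-group. -/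
theorem result {H : Type*} [Group H] [Finite H] {p : ℕ} [Fact p.Prime] (hp : 5 ≤ p) (G : Subgroup H) (hloc : ∃ R : Subgroup H, IsPGroup p ↥R ∧ R ≠ ⊥ ∧ G = Subgroup.normalizer (R : Set H)) (hmax : ∀ R : Subgroup H, IsPGroup p ↥R → R ≠ ⊥ → G ≤ Subgroup.normalizer (R : Set H) → Subgroup.normalizer (R : Set H) = G) (S : Sylow p ↥G) (hE₁ : Subgroup.centralizer (Cfsg.pCore p ↥G : Set ↥G) ≤ Cfsg.pCore p ↥G) (hE₂ : ∃! M : Subgroup ↥G, IsCoatom M ∧ (S : Subgroup ↥G) ≤ M) (K : Subgroup ↥G) [K.Normal] (F : Type) [Field F] [Fintype F] (n : ℕ) (hn : 1 ≤ n) (hF : Fintype.card F = p ^ n) (hE₃ : Nonempty (↥G ⧸ K ≃* Matrix.ProjectiveSpecialLinearGroup (Fin 2) F)) (hN : ¬ Subgroup.normalizer (((S : Subgroup ↥G).map G.subtype : Subgroup H) : Set H) ≤ G) : ∃ G₀ E : Subgroup H, Cfsg.IsInternalDirectProduct G₀ E G ∧ Cfsg.IsElementaryAbelian p E ∧ Nonempty (↥G₀ ≃* ↥(Cfsg.qdOver F)) := by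
  have := charP_of_card (F := F) (p := p) (n := n) (by rw [Nat.card_eq_fintype_card, hF])
  obtain ⟨M, P⟩ := pud_of_unique (Syl.of_sylow S) hE₁ hE₂ K hE₃
  replace P := P.map G.subtype_injective
  rw [map_subtype_top] at P
  generalize (S : Subgroup G).map G.subtype = S at P hN
  have h2 : (2 : F) ≠ 0 := two_ne_zero_of_char (p := p) (by omega)
  rcases P.structure_amb fun X h1 h2 h3 => by_contra fun h4 =>
    hN (h3.trans (hmax X (P.syl.pg.to_le h1) h4 h2).le) with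
    ⟨⟨g, hg, hg'⟩, W, D, ρ, φ, h⟩ | ⟨A, B, C, D, ρ, φ, ρ', φ', h⟩
  swap
  · have := h.three
    omega
  have hT : 𝐎[p, G] ≤ 𝐕[p, G] := le_inf le_rfl (comm_eq_bot_iff.1 (by_contra fun h1 => hg
    (le_normalizer ((hmax _ ((pg_core G).to_le (comm_le_left le_normalizer)) h1
      (norm_comm (le_norm_core G) (le_norm_core G))).le hg'))))
  obtain ⟨Y, y1, y2, y3⟩ := h.nat.exists_compl (Z_le_cent _) inf_le_right
    (fun g hg e => core_le_cent_V G ((h.ker g hg).1 e)) h2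
    fun v hv => eq_one_of_sq (p := p) (by omega) (h.powV v (h.nat.le hv))
  have h3 : 𝐑[p, G] ⊓ 𝐙[G] = ⊥ := by
    refine eq_bot_iff.2 (le_trans (le_inf ?_ inf_le_right) y2.le)
    refine (le_inf (inf_le_right.trans (h.nat.le.trans (V_le_core G))) inf_le_left).trans
      ((core_res G).ge.trans ((h.comm_core_res P).ge.trans ((commutator_mono hT le_rfl).trans ?_)))
    rw [← y3, sup_cent_comm (inf_le_left.trans y1) (inf_le_right.trans (cent_anti (res_le G)))]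
    exact comm_le_left ((res_le G).trans y1)
  have h4 : G ≤ 𝐑[p, G] ⊔ 𝐙[G] := fun g hg => by
    have h5 : (2 : F) ^ 2 ≠ 1 := fun e => by
      have h6 : ((3 : ℕ) : F) = 0 := by push_cast; linear_combination e
      have := Nat.le_of_dvd three_pos ((CharP.cast_eq_zero_iff F p 3).1 h6)
      omega
    obtain ⟨a, ha, e⟩ := (P.rho_res h.nat.toNatD (fun t ht => (h.ker t (pCoreOf_le G ht)).2 ht)
      (ρ g)).1 ((SL2.commutator_eq_top h2 h5).ge (mem_top _))
    have h6 := mul_mem (inv_mem (res_le G ha)) hg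
    have h7 := (P.sup_comm_res h.nat).ge (hT ((h.ker _ h6).1 (by
      rw [h.nat.ρ_mul _ (inv_mem (res_le G ha)) _ hg, h.nat.ρ_inv (res_le G ha), e,
        inv_mul_cancel])))
    have h8 : 𝐙[G] ⊔ ⁅𝐕[p, G], 𝐑[p, G]⁆ ≤ 𝐑[p, G] ⊔ 𝐙[G] := sup_le le_sup_right
      ((comm_le_right (((V_le_core G).trans (pCoreOf_le G)).trans (le_norm_res G))).trans
        le_sup_left)
    simpa using mul_mem (mem_sup_left ha) (h8 h7)
  refine ⟨𝐑[p, G], 𝐙[G], ⟨res_le G, inf_le_left, fun a ha b hb => mem_cent.1 hb.2 a (res_le G ha),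
    h3, le_antisymm (sup_le (res_le G) inf_le_left) h4⟩,
    ⟨comm_inf_cent G, fun x hx => h.powV x (h.nat.le hx)⟩,
    exists_qd h.nat.toNatD h2 (fun g hg e => hT ((h.ker g hg).1 e))
      ((V_le_core G).trans (pCoreOf_le G))
      (fun v hv => (h.ker v (pCoreOf_le G hv.1)).2 hv.1) (res_le G) h3 fun g hg =>
        (mem_sup_norm (inf_le_left.trans (le_norm_res G))).1 (h4 hg)⟩

end Cfsg.Agent.S2766
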