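import Cfsg.Statements.S2770
import Cfsg.Agent.Loc.PUThom

set_option autoImplicit false
open Cfsg

namespace Cfsg.Agent.S2770

open Cfsg.Agent.GT Cfsg.Agent.Loc.Mss Subgroup
open scoped commutatorElement

/-- Let G be a finite group and p a prime with C_G(O_p(G)) ≤ O_p(G), S a Sylow p-subgroup lying in exactly one maximal subgroup of G, and G/K ≅ PSL₂(p^n) for some normal K and n ≥ 1. If Z(S) is not elementary abelian, then either ℧¹(Z(S)) (the subgroup generated by the p-th powers of the elements of Z(S)) is normal in G or C_S(Z(J(S))) is normal in G, J(S) being generated by the abelian subgroups of S of largest order. -/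
theorem result {G : Type*} [Group G] [Finite G] {p : ℕ} [Fact p.Prime] (S : Sylow p G) (hE₁ : Subgroup.centralizer (Cfsg.pCore p G : Set G) ≤ Cfsg.pCore p G) (hE₂ : ∃! M : Subgroup G, IsCoatom M ∧ (S : Subgroup G) ≤ M) (K : Subgroup G) [K.Normal] (F : Type) [Field F] [Fintype F] (n : ℕ) (hn : 1 ≤ n) (hF : Fintype.card F = p ^ n) (hE₃ : Nonempty (G ⧸ K ≃* Matrix.ProjectiveSpecialLinearGroup (Fin 2) F)) (h : ¬ Cfsg.IsElementaryAbelian p ((S : Subgroup G) ⊓ Subgroup.centralizer ((S : Subgroup G) : Set G))) : (Cfsg.powerClosure p 1 ((S : Subgroup G) ⊓ Subgroup.centralizer ((S : Subgroup G) : Set G))).Normal ∨ (((S : Subgroup G) ⊓ Subgroup.centralizer (Cfsg.centerThompsonAOf (S : Subgroup G) : Set G))).Normal := by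
  open Cfsg.Agent.Loc.PU in
  have := charP_of_card (F := F) (p := p) (n := n) (by rw [Nat.card_eq_fintype_card, hF])
  obtain ⟨M, h⟩ := pud_of_unique (Syl.of_sylow S) hE₁ hE₂ K hE₃
  rw [centerThompsonAOf_eq]
  by_cases hZ : ⊤ ≤ 𝐂[𝐙[(S : Subgroup G)]]
  · refine Or.inl (normal_of_top_le_cent (hZ.trans (cent_anti ((closure_le _).2 ?_))))
    rintro _ ⟨x, hx, rfl⟩
    exact pow_mem hx _
  by_cases hJ : thJ 0 (S : Subgroup G) ≤ 𝐎[p, ⊤]
  · exact Or.inr (normal_of_top (h.norm_baumann_of_le hZ hJ))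
  · obtain ⟨K, _, ρ, φ, D⟩ := h.exists_ffd hZ hJ
    refine Or.inl (normal_of_top_le_cent (cent_comm ((closure_le _).2 ?_)))
    rintro _ ⟨x, hx, rfl⟩
    rw [pow_one]
    exact (D.pow_mem (h.Z_le hx)).2

end Cfsg.Agent.S2770
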