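import Mathlib
import Cfsg.Statements.S2774
import Cfsg.Agent.Loc.FocMain

set_option autoImplicit false
open Cfsg

namespace Cfsg.Agent.S2774


/-- Let p be an odd prime and S a nontrivial Sylow p-subgroup of a finite group G. Then S ∩ G' is generated by the subgroups S ∩ (N_G(K))' as K ranges over the nontrivial characteristic subgroups of S (derived subgroups of the normalizers). -/
theorem result {G : Type*} [Group G] [Finite G] {p : ℕ} [Fact p.Prime] (hp : p ≠ 2) (S : Sylow p G) (hS : (S : Subgroup G) ≠ ⊥) : (S : Subgroup G) ⊓ commutator G = ⨆ K : {K : Subgroup ↥(S : Subgroup G) // K ≠ ⊥ ∧ K.Characteristic}, (S : Subgroup G) ⊓ ⁅Subgroup.normalizer ((((K : Subgroup ↥(S : Subgroup G))).map (S : Subgroup G).subtype : Subgroup G) : Set G), Subgroup.normalizer ((((K : Subgroup ↥(S : Subgroup G))).map (S : Subgroup G).subtype : Subgroup G) : Set G)⁆ := by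
  open Cfsg.Agent.Loc Cfsg.Agent.Loc.Foc Subgroup in
  haveI : Nontrivial (S : Subgroup G) := (nontrivial_iff_ne_bot _).2 hS
  refine le_antisymm ((foc_le hp S).trans (sup_le ?_ ?_))
    (iSup_le fun K => inf_le_inf_left _ (commutator_mono le_top le_top))
  · rw [← ind_WZ]
    exact le_iSup_of_le ⟨WZ (S : Subgroup G), (char_WZ (p := p)).1 _ S.isPGroup' inferInstance,
      characteristic_iff_map_eq.2 ((char_WZ (p := p)).2 _ _ S.isPGroup')⟩ le_rfl
  · rw [← ind_WK]
    exact le_iSup_of_le ⟨WK p (S : Subgroup G), char_WK.1 _ S.isPGroup' inferInstance,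
      characteristic_iff_map_eq.2 (char_WK.2 _ _ S.isPGroup')⟩ le_rfl

end Cfsg.Agent.S2774
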