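import Cfsg.Statements.S2779
import Cfsg.Agent.Loc.PUSec2

set_option autoImplicit false
open Cfsg

namespace Cfsg.Agent.S2779

open Cfsg.Agent.GT Cfsg.Agent.Loc.Mss Subgroup
open scoped commutatorElement

/-- Let L act on the elementary abelian p-group V (inside a finite group, by conjugation, faithfully) as SL₂(F) on its natural module, F a field with p^n elements, and let S be a Sylow p-subgroup of L. Then [V, S, S] = 1; |V| = p^(2n) and |C_V(S)| = p^n; and for every nonidentity s ∈ S and every v ∈ V outside C_V(S): C_V(s) = C_V(S) = [V, S] = [V, s] = the subgroup generated by the commutators [v, t], t ∈ S. -/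
theorem result {G : Type*} [Group G] [Finite G] {p : ℕ} [Fact p.Prime] {F : Type*} [Field F] [Fintype F] (n : ℕ) (hF : Fintype.card F = p ^ n) (V L : Subgroup G) (hnat : Cfsg.IsNaturalSL2Module F V L) (hf : L ⊓ Subgroup.centralizer (V : Set G) = ⊥) (S : Sylow p ↥L) (T : Subgroup G) (hT : T = ((S : Subgroup ↥L).map L.subtype)) : ⁅⁅V, T⁆, T⁆ = ⊥ ∧ Nat.card V = p ^ (2 * n) ∧ Nat.card ↥(V ⊓ Subgroup.centralizer ((T : Subgroup G) : Set G)) = p ^ n ∧ ∀ s ∈ T, s ≠ 1 → (V ⊓ Subgroup.centralizer ({s} : Set G)) = (V ⊓ Subgroup.centralizer ((T : Subgroup G) : Set G)) ∧ ⁅V, T⁆ = (V ⊓ Subgroup.centralizer ((T : Subgroup G) : Set G)) ∧ ⁅V, Subgroup.zpowers s⁆ = (V ⊓ Subgroup.centralizer ((T : Subgroup G) : Set G)) ∧ ∀ v ∈ V, v ∉ Subgroup.centralizer (T : Set G) → Subgroup.closure {x : G | ∃ t ∈ T, x = v * t * v⁻¹ * t⁻¹} = (V ⊓ Subgroup.centralizer ((T : Subgroup G) : Set G)) := by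
  open Cfsg.Agent.Loc.PU in
  obtain ⟨ρ₀, φ₀, D₀⟩ := natD_of_isNatural hnat
  have hF' : Nat.card F = p ^ n := by rw [Nat.card_eq_fintype_card, hF]
  have := charP_of_card hF'
  obtain ⟨A, X, D⟩ := D₀.exists_natU (hT ▸ Syl.of_sylow_sub S : Syl p T L)
  generalize (fun g => A * ρ₀ g * A⁻¹) = ρ at D
  generalize (fun v => A.1.mulVec (φ₀ v)) = φ at D
  have hX : V ⊓ 𝐂[T] = X := by
    refine le_antisymm (fun v hv => ?_) (le_inf D.X_le (comm_eq_bot_iff.1 (le_bot_iff.1 D.comm_X_le)))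
    rw [D.X_eq]
    exact ⟨hv.1, norm_normal ⊤ ⊥ trivial, fun s hs => by
      rw [mem_bot, commutatorElement_eq_one_iff_mul_comm]; exact mem_cent.1 hv.2 s hs⟩
  have hk : ∀ s ∈ T, s ≠ 1 → ρ s ≠ 1 := fun s hs h1 h => h1 (mem_bot.1 (hf.le ⟨D.leS hs,
    mem_cent.2 fun v hv => (commutatorElement_eq_one_iff_mul_comm.1
      (mem_bot.1 ((D.ker_iff (D.leS hs)).1 h v hv))).symm⟩))
  rw [hX]
  refine ⟨le_bot_iff.1 ((commutator_mono D.comm_le_X le_rfl).trans D.comm_X_le),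
    by rw [D.card_V, hF', card_bot, mul_one, ← pow_mul, mul_comm],
    by rw [D.card_X, hF', card_bot, mul_one], fun s hs h1 => ?_⟩
  have h2 : X ≤ ⁅V, zpowers s⁆ := fun x hx => by
    obtain ⟨v, hv, e⟩ := D.exists_comm_right hs (hk s hs h1) hx
    rw [mul_inv_eq_one.1 (mem_bot.1 e), Subgroup.commutator_comm]
    exact commutator_mem_commutator (mem_zpowers s) hv
  have h3 : ⁅V, zpowers s⁆ ≤ ⁅V, T⁆ := commutator_mono le_rfl (zpowers_le.2 hs)
  refine ⟨le_antisymm (fun v hv => D.mem_X_of_comm hs (hk s hs h1) hv.1 ?_) ?_,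
    le_antisymm D.comm_le_X (h2.trans h3), le_antisymm (h3.trans D.comm_le_X) h2,
    fun v hv hvT => le_antisymm ((closure_le _).2 ?_) fun x hx => ?_⟩
  · rw [mem_bot, commutatorElement_eq_one_iff_mul_comm]
    exact hv.2 s rfl
  · rw [← hX]
    exact inf_le_inf_left _ (centralizer_le (by simpa using hs))
  · rintro _ ⟨t, ht, rfl⟩
    have := inv_mem (D.comm_mem_X ht hv)
    rwa [commutatorElement_inv] at this
  · obtain ⟨t, ht, e⟩ := D.exists_comm_left hv (fun h => hvT (hX.ge h).2) (inv_mem hx)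
    refine subset_closure ⟨t, ht, ?_⟩
    rw [← inv_inv x, mul_inv_eq_one.1 (mem_bot.1 e), commutatorElement_inv]; rfl

end Cfsg.Agent.S2779
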