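import Cfsg.Statements.S2780
import Cfsg.Agent.Loc.PUSec2

set_option autoImplicit false
open Cfsg

namespace Cfsg.Agent.S2780

open Cfsg.Agent.GT Cfsg.Agent.Loc.Mss Subgroup
open scoped commutatorElement

/-- Let L act on the elementary abelian p-group V (inside a finite group, faithfully) as SL₂(F) on its natural module, F a field with p^n elements, S a Sylow p-subgroup of L. Then: for every g ∈ L not normalizing S, V is the internal direct product of C_V(S) and C_V(gSg⁻¹); every nonidentity element of L of order prime to p acts on V without nonidentity fixed points; and C_V(S) and V/C_V(S) are irreducible for N_L(S): the only N_L(S)-invariant subgroups of C_V(S) are 1 and C_V(S), and the only N_L(S)-invariant subgroups between C_V(S) and V are those two. -/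
theorem result {G : Type*} [Group G] [Finite G] {p : ℕ} [Fact p.Prime] {F : Type*} [Field F] [Fintype F] (n : ℕ) (hF : Fintype.card F = p ^ n) (V L : Subgroup G) (hnat : Cfsg.IsNaturalSL2Module F V L) (hf : L ⊓ Subgroup.centralizer (V : Set G) = ⊥) (S : Sylow p ↥L) (T : Subgroup G) (hT : T = ((S : Subgroup ↥L).map L.subtype)) : (∀ g ∈ L, g ∉ Subgroup.normalizer (T : Set G) → Cfsg.IsInternalDirectProduct (V ⊓ Subgroup.centralizer ((T : Subgroup G) : Set G)) (V ⊓ Subgroup.centralizer ((T.map (MulAut.conj g).toMonoidHom : Subgroup G) : Set G)) V) ∧ (∀ x ∈ L, x ≠ 1 → (orderOf x).Coprime p → (V ⊓ Subgroup.centralizer ({x} : Set G)) = ⊥) ∧ (∀ U : Subgroup G, U ≤ (V ⊓ Subgroup.centralizer ((T : Subgroup G) : Set G)) → L ⊓ Subgroup.normalizer (T : Set G) ≤ Subgroup.normalizer (U : Set G) → U = ⊥ ∨ U = (V ⊓ Subgroup.centralizer ((T : Subgroup G) : Set G))) ∧ (∀ U : Subgroup G, (V ⊓ Subgroup.centralizer ((T : Subgroup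 G) : Set G)) ≤ U → U ≤ V → L ⊓ Subgroup.normalizer (T : Set G) ≤ Subgroup.normalizer (U : Set G) → U = (V ⊓ Subgroup.centralizer ((T : Subgroup G) : Set G)) ∨ U = V) := by
  open Cfsg.Agent.Loc.PU in
  obtain ⟨ρ₀, φ₀, D₀⟩ := natD_of_isNatural hnat
  have hF' : Nat.card F = p ^ n := by rw [Nat.card_eq_fintype_card, hF]
  have := charP_of_card hF'
  obtain ⟨A, X, D⟩ := D₀.exists_natU (hT ▸ Syl.of_sylow_sub S : Syl p T L)
  generalize (fun g => A * ρ₀ g * A⁻¹) = ρ at D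
  generalize (fun v => A.1.mulVec (φ₀ v)) = φ at D
  have hX : V ⊓ 𝐂[T] = X := by
    refine le_antisymm (fun v hv => ?_) (le_inf D.X_le (comm_eq_bot_iff.1 (le_bot_iff.1 D.comm_X_le)))
    rw [D.X_eq]
    exact ⟨hv.1, norm_normal ⊤ ⊥ trivial, fun s hs => by
      rw [mem_bot, commutatorElement_eq_one_iff_mul_comm]; exact mem_cent.1 hv.2 s hs⟩
  have hk : ∀ s ∈ L, ρ s = 1 → s = 1 := fun s hs h => mem_bot.1 (hf.le ⟨hs,
    mem_cent.2 fun v hv => (commutatorElement_eq_one_iff_mul_comm.1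
      (mem_bot.1 ((D.ker_iff hs).1 h v hv))).symm⟩)
  have hN : ∀ g ∈ L, ρ g 1 0 = 0 → g ∈ 𝐍[T] := fun g hg h => mem_norm_of_cj_le (cj_le_iff.2 fun s hs => by
    obtain ⟨t, e⟩ := D.up s hs
    obtain ⟨s', hs', e'⟩ := D.up_surj (ρ g 0 0 ^ 2 * t)
    have h1 := mul_mem (mul_mem hg (D.leS hs)) (inv_mem hg)
    have := hk _ (mul_mem h1 (inv_mem (D.leS hs'))) (by
      rw [D.ρ_mul _ h1 _ (inv_mem (D.leS hs')), D.ρ_conj hg (D.leS hs), e, conj_slUp h,
        D.ρ_inv (D.leS hs'), e', mul_inv_cancel])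
    rwa [mul_inv_eq_one.1 this])
  have hd : ∀ l : F, l ≠ 0 → ∃ g ∈ L ⊓ 𝐍[T], ∀ v ∈ V, φ (g * v * g⁻¹) = ![l * φ v 0, l⁻¹ * φ v 1] :=
    fun l hl => by
      obtain ⟨g, hg, e⟩ := D.ρ_surj ⟨!![l, 0; 0, l⁻¹], by simp [Matrix.det_fin_two, hl]⟩
      refine ⟨g, ⟨hg, hN g hg (by rw [e]; rfl)⟩, fun v hv => ?_⟩
      rw [D.equiv g hg v hv]
      exact vec_ext (by rw [mv0, e]; simp) (by rw [mv1, e]; simp)
  have hV : ∀ a ∈ V, ∀ b ∈ V, a * b = b * a := fun a ha b hb =>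
    commutatorElement_eq_one_iff_mul_comm.1 (mem_bot.1 (D.comm_le (commutator_mem_commutator ha hb)))
  refine ⟨fun g hg hn => ?_, fun x hx h1 hc => ?_, fun U h1 h2 => ?_, fun U h1 h2 h3 => ?_⟩
  · have h1 : g ∉ 𝐍[X] := fun h => hn (hN g hg ((D.mem_norm_X hg).1 h))
    have h2 : V ⊓ 𝐂[cj(g, T)] = cj(g, X) := by rw [← hX, cj_inf, cj_cent, cj_of_norm (D.norm hg)]
    rw [h2, hX]
    have h3 : cj(g, X) ≤ V := cj_le_of_norm D.X_le (D.norm hg)
    exact ⟨D.X_le, h3, fun a ha b hb => hV a (D.X_le ha) b (h3 hb),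
      le_bot_iff.1 fun v hv => D.mem_of_mem_cj hg h1 hv.1 hv.2,
      le_antisymm (sup_le D.X_le h3) (D.le_sup_cj hg h1)⟩
  · refine le_bot_iff.1 fun v hv => by_contra fun hv0 => h1 ?_
    have h2 : (ρ x).1.mulVec (φ v) = φ v := (D.comm_mem_iff hx hv.1).1 (by
      rw [mem_bot, commutatorElement_eq_one_iff_mul_comm]; exact hv.2 x rfl)
    obtain ⟨B, b0, b1⟩ := exists_sl_col (mt (D.φ_ker v hv.1).1 hv0)
    have h3 : B.1.mulVec ![1, 0] = φ v := vec_ext (by simp [mv0, b0]) (by simp [mv1, b1])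
    have h4 : (B⁻¹ * ρ x * B).1.mulVec ![1, 0] = ![1, 0] := by rw [mv_mul, mv_mul, h3, h2, ← h3, mv_inv]
    have a := congrFun h4 0
    have b := congrFun h4 1
    rw [mv0] at a
    rw [mv1] at b
    have h5 := eq_slUp (A := B⁻¹ * ρ x * B) (by simpa using a) (by simpa using b)
    have h6 : ρ (x ^ p) = 1 := by
      have : (B⁻¹ * ρ x * B⁻¹⁻¹) ^ p = 1 := by
        rw [inv_inv, h5, slUp_pow, CharP.cast_eq_zero, zero_mul, slUp_zero]
      rwa [conj_pow, mul_inv_eq_one, mul_eq_left, ← D.ρ_pow hx] at this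
    exact orderOf_eq_one_iff.1 (hc.eq_one_of_dvd
      (orderOf_dvd_of_pow_eq_one (hk _ (pow_mem hx p) h6)))
  · rw [hX] at h1 ⊢
    refine or_iff_not_imp_left.2 fun hne => le_antisymm h1 fun x hx => ?_
    obtain ⟨u, hu, hu0⟩ := SetLike.not_le_iff_exists.1 (mt le_bot_iff.1 hne)
    by_cases hx0 : x ∈ (⊥ : Subgroup G)
    · exact bot_le (a := U) hx0
    have nz : ∀ y ∈ X, y ∉ (⊥ : Subgroup G) → φ y 0 ≠ 0 := fun y hy h0 h =>
      h0 ((D.φ_ker y (D.X_le hy)).1 (vec_ext h ((D.memX y (D.X_le hy)).1 hy)))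
    obtain ⟨g, hg, e⟩ := hd _ (div_ne_zero (nz x hx hx0) (nz u (h1 hu) hu0))
    have := (D.φ_eq_iff (D.X_le hx) (D.conj_mem hg.1 (D.X_le (h1 hu)))).1 (by
      rw [e u (D.X_le (h1 hu))]
      exact vec_ext (by simp [nz u (h1 hu) hu0])
        (by simp [(D.memX x (D.X_le hx)).1 hx, (D.memX u (D.X_le (h1 hu))).1 (h1 hu)]))
    rw [mul_inv_eq_one.1 (mem_bot.1 this)]
    exact conj_mem_of_norm (h2 hg) hu
  · rw [hX] at h1 ⊢
    refine or_iff_not_imp_left.2 fun hne => le_antisymm h2 fun x hx => ?_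
    obtain ⟨u, hu, hu0⟩ := SetLike.not_le_iff_exists.1 fun h => hne (le_antisymm h h1)
    by_cases hx0 : x ∈ X
    · exact h1 hx0
    rw [D.memX _ hx] at hx0
    rw [D.memX _ (h2 hu)] at hu0
    obtain ⟨g, hg, e⟩ := hd _ (div_ne_zero hu0 hx0)
    have h4 := D.conj_mem hg.1 (h2 hu)
    have : x * (g * u * g⁻¹)⁻¹ ∈ X := by
      rw [D.memX _ (mul_mem hx (inv_mem h4)), D.φ_div hx h4, e u (h2 hu)]
      simp [hu0]
    have := mul_mem (h1 this) (conj_mem_of_norm (h3 hg) hu)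
    rwa [inv_mul_cancel_right] at this

end Cfsg.Agent.S2780
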