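import Mathlib
import Cfsg.Statements.S2781
import Cfsg.Agent.Loc.MssSyl

set_option autoImplicit false
open Cfsg

namespace Cfsg.Agent.S2781

open Subgroup Cfsg.Agent.Loc.Mss
open scoped commutatorElement

/-- The trace argument: `v^{|R:T|} ∈ [V,R] C_V(R)` for `v ∈ C_V(T)`, `V` abelian. -/
theorem pow_mem_trace {G : Type*} [Group G] [Finite G] {V R T : Subgroup G} (hV : V ≤ 𝐂[V])
    (hR : R ≤ 𝐍[V]) {v : G} (hv : v ∈ V ⊓ 𝐂[T]) :
    v ^ T.relIndex R ∈ ⁅V, R⁆ ⊔ (V ⊓ 𝐂[R]) := by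
  classical
  letI : CommGroup V := { (inferInstance : Group V) with
    mul_comm := fun a b => Subtype.ext (mem_cent.1 (hV b.2) a a.2) }
  have := Fintype.ofFinite (R ⧸ T.subgroupOf R)
  let φ : R ⧸ T.subgroupOf R → V := fun q =>
    ⟨(q.out : G) * v * (q.out : G)⁻¹, conj_mem_of_norm (hR q.out.2) hv.1⟩
  have k : ∀ (r : R) (q : R ⧸ T.subgroupOf R), (φ (r • q) : G) = r * φ q * (r : G)⁻¹ := by
    intro r q
    obtain ⟨t, ht⟩ := QuotientGroup.mk_out_eq_mul (T.subgroupOf R) (r * q.out)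
    have e : r • q = QuotientGroup.mk (r * q.out) := by
      conv_lhs => rw [← q.out_eq']
      rfl
    have e2 := mem_cent.1 hv.2 _ (mem_subgroupOf.1 t.2)
    simp only [φ, e, ht, coe_mul]
    rw [mul_assoc _ _ v, e2]; group
  have k2 : ((∏ q, φ q : V) : G) ∈ V ⊓ 𝐂[R] := ⟨Subtype.prop _, mem_cent.2 fun r hr => by
    let f : V →* V := (normalizerMonoidHom V ⟨r, hR hr⟩).toMonoidHom
    have e : f (∏ q, φ q) = ∏ q, φ q := by
      rw [map_prod, ← Equiv.prod_comp (MulAction.toPerm (⟨r, hr⟩ : R)) φ]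
      exact Finset.prod_congr rfl fun q _ => Subtype.ext (k ⟨r, hr⟩ q).symm
    exact mul_inv_eq_iff_eq_mul.1 (congrArg Subtype.val e)⟩
  have k3 : (∏ q, ((⟨v, hv.1⟩ : V) * (φ q)⁻¹)) ∈ (⁅V, R⁆).subgroupOf V :=
    Subgroup.prod_mem _ fun q _ => by
      have := commutator_mem_commutator hv.1 q.out.2
      rw [commutatorElement_def] at this
      simpa [φ, mem_subgroupOf, mul_assoc] using this
  have := mul_mem (mem_sup_left (mem_subgroupOf.1 k3)) (mem_sup_right k2)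
  rwa [← coe_mul, ← Finset.prod_mul_distrib, Finset.prod_congr rfl fun q _ => inv_mul_cancel_right _ _,
    Finset.prod_const, Finset.card_univ, ← Nat.card_eq_fintype_card] at this

theorem inf_cent_le {G : Type*} [Group G] [Finite G] {p : ℕ} [Fact p.Prime] {V R T : Subgroup G}
    (hV : V ≤ 𝐂[V]) (hp : IsPGroup p V) (hR : R ≤ 𝐍[V]) (hT : ¬ p ∣ T.relIndex R) :
    V ⊓ 𝐂[T] ≤ ⁅V, R⁆ ⊔ (V ⊓ 𝐂[R]) := fun v hv => by
  obtain ⟨k, hk⟩ := pg_iff.1 hp v hv.1
  have h1 := pow_mem_trace hV hR hv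
  obtain ⟨m, hm⟩ := exists_pow_eq_self_of_coprime (x := v) (n := T.relIndex R)
    (Nat.Coprime.coprime_dvd_right (orderOf_dvd_of_pow_eq_one hk)
      (((Nat.Prime.coprime_iff_not_dvd Fact.out).2 hT).symm.pow_right k))
  exact hm ▸ pow_mem h1 m

/-- Let H act faithfully by conjugation on the elementary abelian p-subgroup V of a finite group, let O^p(H) be the subgroup of H generated by its elements of order prime to p, and T a Sylow p-subgroup of O^p(H). If V is generated by the H-conjugates of C_V(T) (V is the smallest H-invariant subgroup containing C_V(T)), then V = [V, O^p(H)]·C_V(O^p(H)). -/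
theorem result {G : Type*} [Group G] [Finite G] {p : ℕ} [Fact p.Prime] (V H : Subgroup G) (hV : Cfsg.IsElementaryAbelian p V) (hHV : H ≤ Subgroup.normalizer (V : Set G)) (hf : H ⊓ Subgroup.centralizer (V : Set G) = ⊥) (R : Subgroup G) (hR : R = (Cfsg.pResidual p ↥H).map H.subtype) (S : Sylow p ↥R) (T : Subgroup G) (hT : T = ((S : Subgroup ↥R).map R.subtype)) (hgen : ∀ W : Subgroup G, H ≤ Subgroup.normalizer (W : Set G) → (V ⊓ Subgroup.centralizer ((T : Subgroup G) : Set G)) ≤ W → V ≤ W) : ⁅V, R⁆ ⊔ (V ⊓ Subgroup.centralizer ((R : Subgroup G) : Set G)) = V := by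
  have hR' : H ≤ 𝐍[R] := hR ▸ le_norm_res H
  have hRH : R ≤ H := hR ▸ map_subtype_le _
  refine le_antisymm (sup_le (comm_le_left (hRH.trans hHV)) inf_le_left) (hgen _
    (norm_sup (norm_comm hHV hR') (norm_inf hHV (norm_cent hR'))) (inf_cent_le (p := p)
      (fun a ha => mem_cent.2 fun b hb => congrArg Subtype.val (hV.1.1.comm ⟨b, hb⟩ ⟨a, ha⟩))
      (pg_iff.2 fun x hx => ⟨1, by rw [pow_one, hV.2 x hx]⟩) (hRH.trans hHV)
      (hT ▸ (Syl.of_sylow_sub S).nd)))

end Cfsg.Agent.S2781
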