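import Cfsg.Statements.S2787
import Cfsg.Agent.GT.PStable
import Cfsg.Agent.Inv.SL2Four
import Cfsg.Agent.S0261
import Cfsg.Agent.Chev.ReeSyl2
import Cfsg.Agent.Chev.ReeInst
import Cfsg.Agent.Loc.BHBasic

set_option autoImplicit false
open Cfsg

namespace Cfsg.Agent.S2787

open Cfsg.Agent.GT
open scoped MatrixGroups

theorem not_involves_of_comm {G : Type*} [Group G] [Finite G] {p : ℕ} [Fact p.Prime] (hp2 : p ≠ 2)
    (h : ∀ P : Subgroup G, IsPGroup 2 P → ∀ x ∈ P, ∀ y ∈ P, x * x ≠ 1 → y * y ≠ 1 → x * y = y * x) :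
    ¬ Involves SL(2, ZMod p) G := by
  intro hi
  obtain ⟨K, f, hf⟩ := Loc.CF.involves_iff.1 hi
  obtain ⟨Q, hQ, hQc⟩ := exists_two_subgroup_not_comm_sl2 hp2
  obtain ⟨P, hP, rfl⟩ := exists_isPGroup_map_eq f hQ (by rw [MonoidHom.range_eq_top.2 hf]; simp)
  refine hQc ⟨⟨?_⟩⟩
  rintro ⟨_, x, hx, rfl⟩ ⟨_, y, hy, rfl⟩
  refine Subtype.ext (show f x * f y = f y * f x from ?_)
  have h2 : (2 : ZMod p) ≠ 0 := fun h0 => hp2 ((Nat.prime_dvd_prime_iff_eq Fact.out Nat.prime_two).1
    ((ZMod.natCast_eq_zero_iff 2 p).1 (by exact_mod_cast h0)))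
  by_cases hx2 : f x * f x = 1
  · rcases Inv.SLF.eq_of_mul_self_eq_one h2 hx2 with e | e <;> simp [e]
  by_cases hy2 : f y * f y = 1
  · rcases Inv.SLF.eq_of_mul_self_eq_one h2 hy2 with e | e <;> simp [e]
  have key : ∀ a : K, f a * f a ≠ 1 → (a : G) * a ≠ 1 := fun a ha e' => ha (by
    rw [← map_mul, show a * a = 1 from Subtype.ext e', map_one])
  have := h _ (hP.map K.subtype) _ ⟨x, hx, rfl⟩ _ ⟨y, hy, rfl⟩ (key x hx2) (key y hy2)
  rw [← map_mul, ← map_mul, show x * y = y * x from Subtype.ext this]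

theorem eq_one_of_quadratic {H W : Type*} [Group H] [Finite H] {p : ℕ} [Fact p.Prime]
    [AddCommGroup W] [Module (ZMod p) W] [Finite W] [Nontrivial W] (hp2 : p ≠ 2)
    (ρ : Representation (ZMod p) H W) (hρ : Function.Injective ρ)
    (hirr : ∀ U : Submodule (ZMod p) W, (∀ g, U ≤ U.comap (ρ g)) → U = ⊥ ∨ U = ⊤)
    (hn : ¬ Involves SL(2, ZMod p) H) {a : H} (ha : (ρ a - 1) * (ρ a - 1) = 0) : a = 1 := by
  obtain ⟨v, hv0, hv⟩ := Loc.BH.exists_fixed_ne_zero (isPGroup_pCore p) (ρ.comp (pCore p H).subtype)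
  let U : Submodule (ZMod p) W :=
    { carrier := {w | ∀ r ∈ pCore p H, ρ r w = w}
      add_mem' := fun ha hb r hr => by rw [map_add, ha r hr, hb r hr]
      zero_mem' := fun r _ => map_zero _
      smul_mem' := fun c a ha r hr => by rw [map_smul, ha r hr] }
  have hU : U = ⊤ := by
    refine (hirr U fun h w hw r hr => ?_).resolve_left fun h => ?_
    · have h1 := hw _ ((inferInstance : (pCore p H).Normal).conj_mem' r hr h)
      rw [← Module.End.mul_apply, ← map_mul, ← mul_inv_cancel_left h (r * h), map_mul,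
        Module.End.mul_apply, ← mul_assoc, h1]
    · have h1 : v ∈ U := fun r hr => hv ⟨r, hr⟩
      rw [h, Submodule.mem_bot] at h1
      exact hv0 h1
  by_contra hna
  refine hn (involves_sl2_of_quadratic hp2 ρ hρ ha fun h => hna (hρ ?_))
  rw [map_one]
  exact LinearMap.ext fun w => (show w ∈ U from hU ▸ Submodule.mem_top) _ h

theorem not_involves_psl {F : Type*} [Field F] [Fintype F] (hF : Odd (Fintype.card F)) {p : ℕ}
    [Fact p.Prime] (hp2 : p ≠ 2) :
    ¬ Involves SL(2, ZMod p) (Matrix.ProjectiveSpecialLinearGroup (Fin 2) F) := by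
  refine not_involves_of_comm hp2 fun P hP x hx y hy hx2 hy2 => ?_
  have h2 : (2 : F) ≠ 0 := fun h => by
    have := FiniteField.even_card_of_char_two
      (ringChar.eq_iff.2 ((CharP.charP_iff_prime_eq_zero Nat.prime_two).2 (by exact_mod_cast h)))
    obtain ⟨k, hk⟩ := hF
    omega
  obtain ⟨Q, hQ, rfl⟩ := exists_isPGroup_map_eq (QuotientGroup.mk' (Subgroup.center SL(2, F))) hP
    (by rw [MonoidHom.range_eq_top.2 (QuotientGroup.mk'_surjective _)]; exact le_top)
  obtain ⟨x, hx, rfl⟩ := hx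
  obtain ⟨y, hy, rfl⟩ := hy
  obtain ⟨T, hT⟩ := hQ.exists_le_sylow
  obtain ⟨k, -, ⟨e⟩⟩ := S0261.result hF T
  have key : ∀ a : T, QuotientGroup.mk' (Subgroup.center SL(2, F)) a *
      QuotientGroup.mk' (Subgroup.center SL(2, F)) a ≠ 1 → ∃ i, e a = QuaternionGroup.a i := by
    intro a ha
    rcases h : e a with i | i
    · exact ⟨i, rfl⟩
    · refine absurd ?_ ha
      have h3 : a ^ 4 = 1 := e.injective (by rw [map_pow, h, QuaternionGroup.xa_pow_four, map_one])
      have h4 : ((a : SL(2, F)) * a) * (a * a) = 1 := by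
        rw [← pow_two, ← pow_two, ← pow_mul]; exact congrArg Subtype.val h3
      rw [← map_mul, QuotientGroup.mk'_apply, QuotientGroup.eq_one_iff, Subgroup.mem_center_iff]
      rcases Inv.SLF.eq_of_mul_self_eq_one h2 h4 with e | e <;> simp [e]
  obtain ⟨i, hi⟩ := key ⟨x, hT hx⟩ hx2
  obtain ⟨j, hj⟩ := key ⟨y, hT hy⟩ hy2
  have : (⟨x, hT hx⟩ * ⟨y, hT hy⟩ : T) = ⟨y, hT hy⟩ * ⟨x, hT hx⟩ := e.injective (by
    rw [map_mul, map_mul, hi, hj, QuaternionGroup.a_mul_a, QuaternionGroup.a_mul_a, add_comm])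
  rw [← map_mul, ← map_mul, show x * y = y * x from congrArg Subtype.val this]

/-- Let p be a prime and let H act by conjugation on the elementary abelian p-subgroup V of a finite group, irreducibly (no H-invariant subgroups of V other than 1 and V) and nontrivially, and suppose H/C_H(V) is isomorphic to PSL₂(F) for a field F with p^n elements, p^n odd, or p = 3 and H/C_H(V) is isomorphic to a Ree group ²G₂(3^(2m+1)), m ≥ 1. Then no subgroup A of H acting nontrivially on V acts quadratically: [V, A, A] = 1 forces [V, A] = 1. -/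
theorem result {G : Type*} [Group G] [Finite G] {p : ℕ} [Fact p.Prime] (V H : Subgroup G) (hV : Cfsg.IsElementaryAbelian p V) (hHV : H ≤ Subgroup.normalizer (V : Set G)) (hirr : ∀ U : Subgroup G, U ≤ V → H ≤ Subgroup.normalizer (U : Set G) → U = ⊥ ∨ U = V) (hnt : ¬ H ≤ Subgroup.centralizer (V : Set G)) [hn : ((Subgroup.centralizer (V : Set G)).subgroupOf H).Normal] (hq : (∃ (F : Type) (_ : Field F) (_ : Fintype F) (n : ℕ), Fintype.card F = p ^ n ∧ Odd (Fintype.card F) ∧ Nonempty (↥H ⧸ (Subgroup.centralizer (V : Set G)).subgroupOf H ≃* Matrix.ProjectiveSpecialLinearGroup (Fin 2) F)) ∨ (p = 3 ∧ Cfsg.Lie.IsoRee (↥H ⧸ (Subgroup.centralizer (V : Set G)).subgroupOf H))) (A : Subgroup G) (hA : A ≤ H) (hquad : ⁅⁅V, A⁆, A⁆ = ⊥) : ⁅V, A⁆ = ⊥ := by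
  have key : p ≠ 2 ∧ ¬ Involves SL(2, ZMod p)
      (↥H ⧸ (Subgroup.centralizer (V : Set G)).subgroupOf H) := by
    rcases hq with ⟨F, _, _, n, h1, h2, ⟨e⟩⟩ | ⟨rfl, K, _, _, m, -, hK, ⟨e⟩⟩
    · have hp2 : p ≠ 2 := by
        rintro rfl
        have := Fintype.one_lt_card (α := F)
        rw [h1] at h2 this
        rcases n with _ | n
        · simp at this
        · exact absurd h2 (by rw [pow_succ]; simp)
      exact ⟨hp2, fun hi => not_involves_psl h2 hp2
        (Loc.CF.involves_trans hi (Loc.CF.involves_of_injective e.toMonoidHom e.injective))⟩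
    · obtain ⟨R, -⟩ := Chev.ReeInst.exists_ree hK
      have := R.finite
      exact ⟨by norm_num, fun hi => not_involves_of_comm (by norm_num)
        (fun P hP x hx y hy _ _ => R.comm_of_isPGroup_two hP hx hy)
        (Loc.CF.involves_trans hi (Loc.CF.involves_of_injective e.toMonoidHom e.injective))⟩
  let ρ : Representation (ZMod p) (↥H ⧸ (Subgroup.centralizer (V : Set G)).subgroupOf H) (EAV hV) :=
    QuotientGroup.lift _ (eaRep hV hHV) fun g hg => eaRep_eq_one_iff.2 hg
  have hρ : Function.Injective ρ := by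
    rw [injective_iff_map_eq_one]
    intro y hy
    obtain ⟨g, rfl⟩ := QuotientGroup.mk_surjective y
    exact (QuotientGroup.eq_one_iff g).2 ((eaRep_eq_one_iff (hV := hV) (hHV := hHV)).1 hy)
  have hne : V ≠ ⊥ := by
    rintro rfl
    exact hnt fun x _ y hy => by rw [Subgroup.mem_bot.1 hy, one_mul, mul_one]
  have : Nontrivial (EAV hV) := (Subgroup.nontrivial_iff_ne_bot V).2 hne
  rw [Subgroup.commutator_comm, Subgroup.commutator_eq_bot_iff_le_centralizer]
  intro a ha
  refine (QuotientGroup.eq_one_iff (⟨a, hA ha⟩ : H)).1 (eq_one_of_quadratic key.1 ρ hρ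
    (fun U hU => ?_) key.2 (eaRep_quadratic (hV := hV) (hHV := hHV) hquad ha ha))
  rcases hirr (EAV.grp U) (EAV.grp_le U) (le_normalizer_grp (hHV := hHV) fun h => hU h) with h | h
  · exact Or.inl (EAV.grp_injective (h.trans EAV.grp_bot.symm))
  · exact Or.inr (EAV.grp_injective (h.trans EAV.grp_top.symm))

end Cfsg.Agent.S2787
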