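import Mathlib
import Cfsg.Statements.S2792
import Cfsg.Agent.GT.TransferYoshida
-- import your own Cfsg.Agent.* helpers here

set_option autoImplicit false
open Cfsg

namespace Cfsg.Agent.S2792

open Cfsg.Agent.GT.Tr

/-- Let S be a Sylow p-subgroup of the finite group G and W a subgroup of S weakly closed in S with respect to G. If S ∩ G' ≠ S ∩ (N_G(W))', then there are x ∈ S, z ∈ W and a maximal subgroup W₀ of W such that the iterated commutator [x, z; p−1] (with [x, z] = x⁻¹z⁻¹xz and [x, z; i+1] = [[x, z; i], z]) lies in W₀ but not in the Frattini subgroup of W₀; in particular [x, z; p−1] ≠ 1. -/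
theorem result {G : Type*} [Group G] [Finite G] {p : ℕ} [Fact p.Prime] (S : Sylow p G) (W : Subgroup G) (hW : Cfsg.IsWeaklyClosed W (S : Subgroup G)) (h : (S : Subgroup G) ⊓ commutator G ≠ (S : Subgroup G) ⊓ ⁅Subgroup.normalizer (W : Set G), Subgroup.normalizer (W : Set G)⁆) : ∃ x ∈ (S : Subgroup G), ∃ z ∈ W, ∃ W₀ : Subgroup ↥W, IsCoatom W₀ ∧ (fun y : G => y⁻¹ * z⁻¹ * y * z)^[p - 1] x ∈ W₀.map W.subtype ∧ (fun y : G => y⁻¹ * z⁻¹ * y * z)^[p - 1] x ∉ ((frattini ↥W₀).map W₀.subtype).map W.subtype := by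
  have hp : p.Prime := Fact.out
  obtain ⟨T, R, K, h1, h2, h3, h4, h5, h6, u, hu, z, hz, hzR, h7⟩ := exists_engel_of_pResidual_ne S hW
    fun h1 => h (sylow_inf_commutator_eq_of_pResidual_eq S hW.le_normalizer h1)
  have hT : IsPGroup p T := S.2.to_le h2
  have hn := GT.PG.le_normalizer_of_relIndex_prime hT h3 h4
  have hKn := GT.PG.le_normalizer_of_relIndex_prime (hT.to_le h3) h5 h6
  have he := engel_mem (hn (h1 hz)) hu (p - 1)
  refine ⟨u, h2 (h3 hu), z, hz, R.subgroupOf W, GT.PG.isCoatom_of_index_prime hp ?_, ?_, ?_⟩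
  · have : (R.subgroupOf T).Normal := (Subgroup.normal_subgroupOf_iff_le_normalizer h3).2 hn
    have h8 := Subgroup.relIndex_dvd_index_of_normal (R.subgroupOf T) (W.subgroupOf T)
    rw [Subgroup.relIndex_subgroupOf h1] at h8
    exact ((Nat.dvd_prime hp).1 (h4 ▸ h8)).resolve_left fun h9 =>
      hzR (Subgroup.relIndex_eq_one.1 h9 hz)
  · rw [Subgroup.subgroupOf_map_subtype]
    refine ⟨he, ?_⟩
    obtain ⟨k, hk⟩ : ∃ k, p - 1 = k + 1 := ⟨p - 2, by have := hp.two_le; omega⟩
    have h8 := hW.le_normalizer (h2 (h3 (engel_mem (hn (h1 hz)) hu k)))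
    rw [hk, Function.iterate_succ_apply']
    exact mul_mem (inv_conj_mem_of_mem_normalizer h8 (inv_mem hz)) hz
  · rintro ⟨_, ⟨y, hy, rfl⟩, h8⟩
    have : (K.subgroupOf R).Normal := (Subgroup.normal_subgroupOf_iff_le_normalizer h5).2 hKn
    have : IsCyclic (R ⧸ K.subgroupOf R) := isCyclic_of_prime_card (p := p) h6
    let _ : CommGroup (R ⧸ K.subgroupOf R) := IsCyclic.commGroup
    let f : R.subgroupOf W →* R :=
      (W.subtype.comp (R.subgroupOf W).subtype).codRestrict R fun x => x.2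
    have h9 : frattini (R.subgroupOf W) ≤ ((QuotientGroup.mk' (K.subgroupOf R)).comp f).ker := by
      refine GT.PG.frattini_le hp (Abelianization.commutator_subset_ker _) fun x => ?_
      rw [MonoidHom.mem_ker, map_pow, ← h6]
      exact pow_card_eq_one'
    exact h7 (h8 ▸ (QuotientGroup.eq_one_iff (f y)).1 (h9 hy))

end Cfsg.Agent.S2792
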