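import Mathlib
import Cfsg.Statements.S2793
import Cfsg.Agent.GT.ThompsonFp3

set_option autoImplicit false
open Cfsg

namespace Cfsg.Agent.S2793

open Subgroup Cfsg.Agent.GT
open scoped commutatorElement Pointwise

/-- Let p be an odd prime, S a Sylow p-subgroup of the finite group G, J(S) the subgroup generated by the abelian subgroups of S of largest order, and suppose Z(J(S)) does not control strong fusion in G. Put H = N_G(Z(J(S))). Then the group F(p) of upper triangular 3 × 3 matrices (a b c; 0 a⁻¹ d; 0 0 1) over the field with p elements is involved in H, and Z(J(S)) contains a subgroup C of order p with |N_H(C) : C_H(C)| = p − 1. -/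
theorem result {G : Type*} [Group G] [Finite G] {p : ℕ} [Fact p.Prime] (hp : p ≠ 2) (S : Sylow p G) (h : ¬ Cfsg.ControlsStrongFusion p (Cfsg.centerThompsonAOf (S : Subgroup G))) (H : Subgroup G) (hH : H = Subgroup.normalizer ((Cfsg.centerThompsonAOf (S : Subgroup G)) : Set G)) : Cfsg.Involves ↥(Cfsg.fOver (ZMod p)) ↥H ∧ ∃ C : Subgroup G, C ≤ (Cfsg.centerThompsonAOf (S : Subgroup G)) ∧ Nat.card C = p ∧ (H ⊓ Subgroup.centralizer (C : Set G)).relIndex (H ⊓ Subgroup.normalizer (C : Set G)) = p - 1 := by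
  rw [centerThompsonAOf_eq] at h hH ⊢
  subst hH
  obtain ⟨ζ, hζ⟩ := IsCyclic.exists_generator (α := (ZMod p)ˣ)
  have h1 : (((ζ : ZMod p).val : ℕ) : ZMod p) = ζ := ZMod.natCast_zmod_val _
  have hnm : (((ζ : ZMod p).val : ℕ) : ZMod p) * (((ζ⁻¹ : (ZMod p)ˣ) : ZMod p).val : ℕ) = 1 := by
    rw [h1, ZMod.natCast_zmod_val, Units.mul_inv]
  have hF := (thCtrl_or_hasF hp hnm G S).resolve_left fun hc =>
    h ⟨S, thZ_le 0 _, fun A hA => hc.controlsStrongFusionOf hA⟩
  refine ⟨(hF.mono le_rfl le_rfl ((thZ_le 0 _).trans (le_normalizer_thZ 0 _))).involves hp hnm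
    fun a ha => ?_, ?_⟩
  · obtain ⟨k, hk⟩ := mem_powers_iff_mem_zpowers.2 (hζ (Units.mk0 a ha))
    exact ⟨k, by rw [h1, ← Units.val_pow_eq_pow_val]; exact congrArg Units.val hk⟩
  obtain ⟨t, ht, z, hz, h2, h3, h4⟩ :=
    hF.exists_eigen (S.isPGroup'.to_le (thZ_le 0 _)) (thZ_comm 0 _) le_rfl
  refine ⟨zpowers z, zpowers_le.2 hz, by rw [Nat.card_zpowers, orderOf_eq_prime h3 h2],
    relIndex_eq_of_eigen ht h2 h3 h4 ?_⟩
  rw [h1, orderOf_units, orderOf_eq_card_of_forall_mem_zpowers hζ, Nat.card_eq_fintype_card,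
    ZMod.card_units]

end Cfsg.Agent.S2793
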