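import Mathlib
import Cfsg.Statements.S2794
import Cfsg.Agent.GT.ThompsonQd

set_option autoImplicit false
open Cfsg

namespace Cfsg.Agent.S2794

open Subgroup Cfsg.Agent.GT
open scoped commutatorElement Pointwise

/-- For an odd prime p and a finite group G, the group Qd(p) is not involved in G if and only if in every section K/R of G, for every Sylow p-subgroup S* of K/R, the centre of J(S*) (J generated by the abelian subgroups of largest order) controls strong fusion in K/R. -/
theorem result {G : Type*} [Group G] [Finite G] {p : ℕ} [Fact p.Prime] (hp : p ≠ 2) : ¬ Cfsg.Involves ↥(Cfsg.qd p) G ↔ ∀ (K R : Subgroup G) [hR : (R.subgroupOf K).Normal], ∀ T : Sylow p (K ⧸ R.subgroupOf K), Cfsg.ControlsStrongFusion p (Cfsg.centerThompsonAOf (T : Subgroup (K ⧸ R.subgroupOf K))) := by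
  constructor
  · intro h K R _ T
    rw [centerThompsonAOf_eq]
    exact ⟨T, thZ_le _ _, fun A hA => (thCtrl_thZ_of_not_involves_qd hp (Or.inl rfl)
      (fun h' => h (Loc.CF.involves_trans h' (Loc.CF.involves_section K R))) T
      (th_isStronglyClosed_self _)).controlsStrongFusionOf hA⟩
  · rintro h ⟨K, R, hR, ⟨e⟩⟩
    obtain ⟨T⟩ : Nonempty (Sylow p (K ⧸ R.subgroupOf K)) := inferInstance
    have h1 := h K R T
    rw [centerThompsonAOf_eq] at h1
    exact ((qdAct p).ofEquiv e).not_controlsStrongFusion_thZ
      ((qdAct p).ofEquiv_centralizer_le e (qdAct_centralizer_le p)) T h1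

end Cfsg.Agent.S2794
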