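import Cfsg.Statements.S2796
import Cfsg.Agent.Loc.SKStrong

set_option autoImplicit false
universe u
open Cfsg Cfsg.Agent.Loc Cfsg.Agent.Loc.S3F Subgroup

namespace Cfsg.Agent.S2796

/-- Let G be a finite group in which the symmetric group of degree 4 is not involved, such that for every section K/R of G with C(O₂(K/R)) ≤ O₂(K/R) every non-abelian composition factor of K/R is a Suzuki group Sz(2^(2n+1)) or PSL₂ over a field with 3^(2n+1) elements. Let S be a Sylow 2-subgroup, J_e(S) the subgroup generated by its elementary abelian subgroups of largest order, and A the normal closure of Ω₁(Z(S)) in N_G(J_e(S)). Then A is an elementary abelian subgroup of S, strongly closed in S with respect to G, and A controls strong fusion in G. -/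
theorem result {G : Type u} [Group G] [Finite G] (hfree : ¬ Cfsg.Involves (Equiv.Perm (Fin 4)) G) (hsec : ∀ (K R : Subgroup G) [hR : (R.subgroupOf K).Normal], Subgroup.centralizer (Cfsg.pCore 2 (K ⧸ R.subgroupOf K) : Set (K ⧸ R.subgroupOf K)) ≤ Cfsg.pCore 2 (K ⧸ R.subgroupOf K) → Cfsg.IsCompositionKGroupWith Cfsg.IsSuzukiOrPSL2OddPowerThree (K ⧸ R.subgroupOf K)) (S : Sylow 2 G) (N : Subgroup G) (hN : N = Subgroup.normalizer (Cfsg.thompsonSubgroupOf 2 (S : Subgroup G) : Set G)) (A : Subgroup G) (hA : A = (Subgroup.normalClosure (((Cfsg.omegaOne 2 ((S : Subgroup G) ⊓ Subgroup.centralizer ((S : Subgroup G) : Set G))).subgroupOf N : Subgroup ↥N) : Set ↥N)).map N.subtype) : A ≤ S ∧ Cfsg.IsElementaryAbelian 2 A ∧ Cfsg.IsStronglyClosed A (S : Subgroup G) ∧ Cfsg.ControlsStrongFusion 2 A := by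
  have hG : LSK G := LSK.of_sections hfree hsec
  rw [GT.thompsonSubgroupOf_eq] at hN
  have hle : (S : Subgroup G) ≤ N := hN ▸ norm_thJ le_normalizer
  rw [Mss.map_normalClosure_subgroupOf ((Mss.oz_le _).trans hle), hN] at hA
  have h1 : A ≤ S := hA ▸ (ncl_oz_le _).trans ((Mss.oz_le _).trans (GT.thJ_le _ _))
  have h2 := hG.fctl S
  rw [← hA] at h2
  exact ⟨h1, hA ▸ (Mss.ea_oz _).mono (ncl_oz_le _), stronglyClosed_of_fctl h1 h2,
    CF.controlsStrongFusion_of_fctl S h1 h2⟩

end Cfsg.Agent.S2796
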