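import Mathlib
import Cfsg.Statements.S3084
import Cfsg.Agent.Cl.QuadExtraRep

set_option autoImplicit false
open Cfsg

namespace Cfsg.Agent.S3084

open Cfsg.Agent.Cl QuadraticMap


/-- Let K be a group acting faithfully and linearly on a finite-dimensional vector space U of dimension 2n ≥ 2 over the field with two elements, preserving a quadratic form q whose polar bilinear form is non-degenerate and which vanishes on some n-dimensional subspace (a non-singular form of plus type). Then there is a finite group R with a normal extraspecial 2-subgroup Q of order 2^(2n+1), an isomorphism of R/Q with K, and a surjective homomorphism χ from Q onto (the additive group of) U with kernel the centre of Q, such that χ carries conjugation by any r in R to the action of the image of r in K, and an element a of Q squares to the identity exactly when q vanishes at χ(a). -/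
theorem result {K : Type*} [Group K] {U : Type*} [AddCommGroup U] [Module (ZMod 2) U] [Module.Finite (ZMod 2) U] (n : ℕ) (hn1 : 1 ≤ n) (hn : Module.finrank (ZMod 2) U = 2 * n) (ρ : Representation (ZMod 2) K U) (hρ : Function.Injective ρ) (q : QuadraticForm (ZMod 2) U) (hq : ∀ (k : K) (u : U), q (ρ k u) = q u) (hnd : (QuadraticMap.polarBilin q).Nondegenerate) (hplus : ∃ W : Submodule (ZMod 2) U, Module.finrank (ZMod 2) ↥W = n ∧ ∀ w ∈ W, q w = 0) : ∃ (R : Type) (_ : Group R) (_ : Finite R) (Q : Subgroup R) (hN : Q.Normal) (e : R ⧸ Q ≃* K) (χ : ↥Q →* Multiplicative U), Cfsg.IsExtraspecial 2 ↥Q ∧ Nat.card ↥Q = 2 ^ (2 * n + 1) ∧ Function.Surjective χ ∧ χ.ker = Subgroup.center ↥Q ∧ (∀ (r : R) (a : ↥Q), χ ⟨r * a * r⁻¹, hN.conj_mem (a : R) a.2 r⟩ = Multiplicative.ofAdd (ρ (e (r : R ⧸ Q)) (Multiplicative.toAdd (χ a)))) ∧ ∀ a : ↥Q, a * a = 1 ↔ q (Multiplicative.toAdd (χ a)) = 0 := by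
  obtain ⟨W, hWn, hW⟩ := hplus
  obtain ⟨g, hg⟩ := quad_equiv_plus_of_singular hnd hn hW hWn
  obtain ⟨E, _, _, M0, R0, _, _, j, π, hj, hπ, hconj, hinn⟩ := quad_exists_clifford_group n
  let M : QuadES E q := M0.congr g.symm fun u => by
    rw [← hg, g.apply_symm_apply]; rfl
  obtain ⟨Φ, hΦ, hker, hΦa⟩ := M.exists_autHom hnd
  let κ : K →* OG q :=
    MonoidHom.mk' (fun k => ⟨LinearMap.GeneralLinearGroup.toLinearEquiv (ρ.asGroupHom k), hq k⟩)
      fun a b => OG.ext fun u => by
        change ρ (a * b) u = ρ a (ρ b u)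
        rw [map_mul]; rfl
  have hκ : Function.Injective κ := fun a b h => hρ (LinearMap.ext fun u =>
    congrArg (fun x : OG q => x.1 u) h)
  let R : Subgroup R0 := κ.range.comap (Φ.comp π)
  let p : R →* K := (MonoidHom.ofInjective hκ).symm.toMonoidHom.comp
    (((Φ.comp π).comp R.subtype).codRestrict κ.range fun r => r.2)
  have hp : ∀ r : R, κ (p r) = Φ (π r) := fun r =>
    congrArg Subtype.val ((MonoidHom.ofInjective hκ).apply_symm_apply _)
  have hps : Function.Surjective p := fun k => by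
    obtain ⟨r, hr⟩ := (hΦ.comp hπ) (κ k)
    exact ⟨⟨r, k, hr.symm⟩, hκ ((hp _).trans hr)⟩
  have hmem : ∀ r : R0, r ∈ j.range ↔ Φ (π r) = 1 := fun r => by
    rw [← hinn, ← hker]; rfl
  have hpk : ∀ r : R, r ∈ p.ker ↔ (r : R0) ∈ j.range := fun r => by
    rw [hmem, ← hp, MonoidHom.mem_ker, map_eq_one_iff _ hκ]
  let j1 : E →* R := j.codRestrict R fun a => ⟨1, by
    rw [map_one]; exact ((hmem _).1 ⟨a, rfl⟩).symm⟩
  let j2 : E →* p.ker := j1.codRestrict _ fun a => (hpk _).2 ⟨a, rfl⟩
  let ε : E ≃* p.ker := MulEquiv.ofBijective j2 ⟨fun a b h => hj (congrArg (fun x : p.ker => x.1.1) h),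
    fun x => by
      obtain ⟨a, ha⟩ := (hpk _).1 x.2
      exact ⟨a, Subtype.ext (Subtype.ext ha)⟩⟩
  let M' := M.congrGroup ε
  have : Nontrivial U := Module.finrank_pos_iff.1 (show 0 < Module.finrank (ZMod 2) U by omega)
  refine ⟨R, inferInstance, inferInstance, p.ker, inferInstance,
    QuotientGroup.quotientKerEquivOfSurjective p hps, M'.χHom, M'.isExtraspecial hnd, ?_, M'.surj,
    ?_, fun r a => ?_, M'.mul_self_eq_one_iff⟩
  · rw [M'.card_eq, Module.natCard_eq_pow_finrank (K := ZMod 2), Nat.card_zmod, hn, pow_succ']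
  · ext a
    rw [M'.mem_center_iff hnd]; rfl
  · obtain ⟨a, rfl⟩ := ε.surjective a
    have h1 : (⟨r * ε a * r⁻¹, (MonoidHom.normal_ker p).conj_mem _ (ε a).2 r⟩ : p.ker) =
        ε (π r a) := Subtype.ext (Subtype.ext (hconj r a))
    rw [h1]
    change Multiplicative.ofAdd (M.χ (ε.symm (ε _))) =
      Multiplicative.ofAdd ((κ (p r)).1 (M.χ (ε.symm (ε _))))
    rw [ε.symm_apply_apply, ε.symm_apply_apply, hp, hΦa]

end Cfsg.Agent.S3084
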