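import Mathlib
import Cfsg.Statements.S3085
import Cfsg.Agent.Cl.QuadExtra

set_option autoImplicit false
open Cfsg

namespace Cfsg.Agent.S3085

open Cfsg.Agent.Cl QuadraticMap

theorem no_section {E : Type*} [Group E] {U : Type*} [AddCommGroup U] [Module (ZMod 2) U]
    {q : QuadraticForm (ZMod 2) U} (M : QuadES E q) (hq : (polarBilin q).Nondegenerate)
    (σ : OG q →* MulAut E) (hσ : ∀ g a, M.χ (σ g a) = g.1 (M.χ a)) {e f : Fin 3 → U}
    (h : QuadHypFamily q e f) : False := by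
  have hz : ∀ g, σ g M.z = M.z := fun g => M.map_z M hq (σ g)
  have hzp : ∀ g t, σ g (M.zp t) = M.zp t := fun g t => by rw [QuadES.zp, map_pow, hz]
  have hd : ∀ x y, q x = 1 → polar q y x = 1 → ∀ b, M.χ b = y →
      M.χ (b⁻¹ * σ (orefl q x) b) = x := by
    rintro x _ hx hy b rfl
    rw [M.χ_mul, M.χ_inv, hσ, orefl_app, hx, hy, quad_zmod2_sub, ← add_assoc, quad_zmod2_add_self]
    simp
  have hlift : ∀ g a b, M.χ a = M.χ b → σ g b = b → σ g a = a := by
    intro g a b hab hb
    obtain ⟨t, rfl⟩ := M.exists_zp_of_χ_eq hab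
    rw [map_mul, hzp, hb]
  have key1 : ∀ v y, q v = 1 → polar q y v = 1 → ∀ c, M.χ c = v → σ (orefl q v) c ≠ c := by
    intro v y hv hy c hc hfix
    obtain ⟨b, hb⟩ := M.surj y
    have h1 := hd v y hv hy b hb
    have h2 := hlift _ _ _ (h1.trans hc.symm) hfix
    have h3 : σ (orefl q v) (σ (orefl q v) b) = b := by
      rw [← MulAut.mul_apply, ← map_mul, orefl_mul_self, map_one, MulAut.one_apply]
    have h4 : (b⁻¹ * σ (orefl q v) b) * (b⁻¹ * σ (orefl q v) b) = 1 := by
      nth_rewrite 2 [← h2]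
      rw [map_mul, map_inv, h3]
      group
    rw [M.mul_self_eq_one_iff, h1, hv] at h4
    exact one_ne_zero h4
  have key2 : ∀ v x y, q x = 1 → polar q v x = 0 → polar q y x = 1 → polar q y v = 0 →
      ∀ c, M.χ c = x → σ (orefl q v) c = c := by
    intro v x y hx hvx hyx hyv c hc
    obtain ⟨b, hb⟩ := M.surj y
    have h1 := hd x y hx hyx b hb
    refine hlift _ _ _ (hc.trans h1.symm) ?_
    obtain ⟨s, hs⟩ := M.exists_zp_of_χ_eq (a := σ (orefl q v) b) (b := b)
      (by rw [hσ, hb, orefl_app_of_polar hyv])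
    have h2 : orefl q v * orefl q x = orefl q x * orefl q v := by
      have := conj_orefl (orefl q v) x
      rw [orefl_app_of_polar (by rwa [polar_comm]), mul_inv_eq_iff_eq_mul] at this
      exact this
    rw [map_mul, map_inv, ← MulAut.mul_apply, ← map_mul, h2, map_mul, MulAut.mul_apply, hs,
      map_mul, hzp]
    group
  have h11 : (2 : ZMod 2) = 0 := rfl
  obtain ⟨c1, h1⟩ := M.surj (e 0 + f 0 + e 1)
  obtain ⟨c2, h2⟩ := M.surj (e 2 + f 2)
  obtain ⟨c3, h3⟩ := M.surj (e 2 + f 2 + e 1)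
  refine key1 (e 0 + f 0) (e 0) ?_ ?_ (c1 * c2 * c3) ?_ ?_
  · simp [oexp, h.qe, h.qf, h.ef]
  · simp [h.qe, h.ef]
  · rw [M.χ_mul, M.χ_mul, h1, h2, h3]
    calc _ = e 0 + f 0 + (e 1 + e 1) + (e 2 + e 2) + (f 2 + f 2) := by abel
      _ = _ := by simp [quad_zmod2_add_self]
  · rw [map_mul, map_mul, key2 _ _ (f 1) _ _ _ _ c1 h1, key2 _ _ (e 2) _ _ _ _ c2 h2,
      key2 _ _ (e 2) _ _ _ _ c3 h3] <;>
    simp [oexp, h.qe, h.qf, h.ef, h.fe, h.ee, h.ff, h11]


/-- Let Q be an extraspecial 2-group of order 2^(2n+1) with n ≥ 3 that is of plus type (it contains an elementary abelian subgroup of order 2^(n+1)). Then the group of inner automorphisms of Q has no complement in the full automorphism group of Q: the extension of the inner automorphism group (elementary abelian of order 2^(2n)) by the outer automorphism group (the orthogonal group of plus type) does not split. -/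
theorem result {Q : Type*} [Group Q] [Finite Q] (n : ℕ) (hn : 3 ≤ n) (hQ : Cfsg.IsExtraspecial 2 Q) (hcard : Nat.card Q = 2 ^ (2 * n + 1)) (hplus : ∃ E : Subgroup Q, Cfsg.IsElementaryAbelian 2 E ∧ Nat.card ↥E = 2 ^ (n + 1)) (L : Subgroup (MulAut Q)) : ¬ (Cfsg.Inn Q).IsComplement' L := by
  intro hL
  obtain ⟨M⟩ := quad_quadES_plus hQ hcard hplus
  obtain ⟨Φ, hsurj, hker, hΦ⟩ := M.exists_autHom quad_plus_nondeg
  have hbij : Function.Bijective (Φ.comp L.subtype) := by
    refine ⟨(injective_iff_map_eq_one _).2 fun a ha => ?_, fun g => ?_⟩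
    · have h1 : (a : MulAut Q) ∈ Inn Q := hker ▸ ha
      exact Subtype.ext (Subgroup.disjoint_def.1 hL.disjoint h1 a.2)
    · obtain ⟨φ, rfl⟩ := hsurj g
      obtain ⟨⟨i, l⟩, hil⟩ := hL.2 φ
      have h1 : Φ i = 1 := hker.ge i.2
      refine ⟨l, ?_⟩
      change i.1 * l.1 = φ at hil
      rw [← hil, map_mul, h1, one_mul]; rfl
  let ε := MulEquiv.ofBijective _ hbij
  refine no_section M quad_plus_nondeg (L.subtype.comp ε.symm.toMonoidHom) (fun g a => ?_)
    (e := fun j => Pi.single (.inl (Fin.castLE hn j)) 1)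
    (f := fun j => Pi.single (.inr (Fin.castLE hn j)) 1) ?_
  · rw [← hΦ]
    exact congrArg (fun x : OG (quad_plus n (ZMod 2)) => x.1 (M.χ a)) (ε.apply_symm_apply g)
  · constructor <;> intros <;> simp [quad_plus_apply, o_polar_plus, Pi.single_apply, eq_comm]

end Cfsg.Agent.S3085
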