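import Mathlib
import Cfsg.Statements.S3117
import Cfsg.Agent.S0144
import Cfsg.Agent.S3103
import Cfsg.Agent.Inv.AnisoQuad
import Cfsg.Agent.GT.PGroupCritical

set_option autoImplicit false
open Cfsg

namespace Cfsg.Agent.S3117

open Subgroup Cfsg.Agent.GT Cfsg.Agent.GT.CopAct Cfsg.Agent.Inv
open scoped commutatorElement

theorem exists_eq_pow_mul_pow {n p q : ℕ} (hn : n ≠ 0) (hp : p.Prime)
    (h : ∀ r, r.Prime → r ∣ n → r = p ∨ r = q) : ∃ a b, n = p ^ a * q ^ b := by
  obtain ⟨a, m, hm, rfl⟩ := Nat.exists_eq_pow_mul_and_not_dvd hn p hp.ne_one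
  refine ⟨a, _, congrArg _ (Nat.eq_prime_pow_of_unique_prime_dvd (n := m) (p := q)
    (by rintro rfl; simp at hn) fun {r} hr hd => ?_)⟩
  exact (h r hr (hd.mul_left _)).resolve_left (by rintro rfl; exact hm hd)

theorem comm_of_three {X : Type*} [Group X] [Finite X] (h2 : IsPGroup 2 X)
    (h3 : Nat.card {x : X // orderOf x = 2} = 3) {x y : X} (hx : x ^ 2 = 1) (hy : y ^ 2 = 1) :
    x * y = y * x := by
  have h3' : {x : X | orderOf x = 2}.ncard = 3 := h3
  have : Nontrivial X := by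
    obtain ⟨a, b, -, hab, -⟩ := Set.ncard_eq_three.1 h3'
    exact ⟨a, b, hab⟩
  obtain ⟨z, hz, hz1, hz2⟩ := PG.exists_mem_ne_one_pow_eq_one (h2.to_subgroup (center X))
    ((nontrivial_iff_ne_bot _).1 h2.center_nontrivial)
  have hzc := mem_center_iff.1 hz
  by_cases h1 : x = 1
  · simp [h1]
  by_cases hxz : x = z
  · rw [hxz, hzc]
  by_cases hy1 : y = 1
  · simp [hy1]
  have hxz1 : x * z ≠ 1 := fun e => hxz (by
    rw [eq_inv_of_mul_eq_one_left e, inv_eq_iff_mul_eq_one, ← sq, hz2])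
  have e : ({z, x, x * z} : Set X) = {x : X | orderOf x = 2} := by
    refine Set.eq_of_subset_of_ncard_le ?_ (by
      rw [h3', Set.ncard_eq_three.2 ⟨z, x, x * z, Ne.symm hxz, by simpa using h1,
        by simpa using hz1, rfl⟩])
    rintro w (rfl | rfl | rfl)
    · exact orderOf_eq_prime hz2 hz1
    · exact orderOf_eq_prime hx h1
    · exact orderOf_eq_prime (by rw [Commute.mul_pow (hzc x), hx, hz2, one_mul]) hxz1
  have : y ∈ ({z, x, x * z} : Set X) := e ▸ orderOf_eq_prime hy hy1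
  rcases this with rfl | rfl | rfl
  · exact hzc x
  · rfl
  · rw [mul_assoc, hzc]

/-- If X is a finite 2-group containing exactly three involutions, then the automorphism group of X is solvable. -/
theorem result {X : Type*} [Group X] [Finite X] (h2 : IsPGroup 2 X) (h3 : Nat.card {x : X // orderOf x = 2} = 3) : Group.IsSolvable (MulAut X) := by
  have hcomm := fun x y => comm_of_three h2 h3 (x := x) (y := y)
  let V : Subgroup X :=
    { carrier := {x | x ^ 2 = 1}
      one_mem' := one_pow 2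
      mul_mem' := fun {x y} hx hy => by
        change (x * y) ^ 2 = 1
        rw [Commute.mul_pow (hcomm x y hx hy), hx, hy, one_mul]
      inv_mem' := fun {x} hx => by
        change x⁻¹ ^ 2 = 1
        rw [inv_pow, hx, inv_one] }
  have hV : ∀ x, x ∈ V ↔ x ^ 2 = 1 := fun _ => Iff.rfl
  have hVc : IsMulCommutative V := ⟨⟨fun a b => Subtype.ext (hcomm _ _ a.2 b.2)⟩⟩
  have hV4 : Nat.card V = 4 := by
    have : (V : Set X) = insert 1 {x : X | orderOf x = 2} := by
      ext x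
      simp only [SetLike.mem_coe, hV, Set.mem_insert_iff, Set.mem_ofPred_eq, orderOf_eq_prime_iff]
      by_cases hx : x = 1 <;> simp [hx]
    change (V : Set X).ncard = 4
    rw [this, Set.ncard_insert_of_notMem (by simp)]
    exact congrArg (· + 1) h3
  have hKl : IsKleinFour V := by
    refine ⟨hV4, ?_⟩
    have : Nontrivial V := Finite.one_lt_card_iff_nontrivial.1 (by omega)
    exact (Monoid.exponent_eq_prime_iff Nat.prime_two).2 fun g hg =>
      orderOf_eq_prime (Subtype.ext g.2) hg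
  have hVch : V.Characteristic := characteristic_iff_le_comap.2 fun φ x hx => by
    rw [mem_comap, hV, ← map_pow, (hV x).1 hx, map_one]
  obtain ⟨K, hK, hVK⟩ := PG.exists_isCritical_ge h2 V hVc
  have hKch := hK.char
  have hcen : ∀ v ∈ V, ∀ k ∈ K, k * v = v * k := fun v hv k hk => hVK hv k hk
  have hcm : ∀ x ∈ K, ∀ y ∈ K, ⁅x, y⁆ ∈ V := by
    intro x hx y hy
    have h1 := hK.commutator_mem x hx y x hx
    have h4 := hK.pow_mem x hx y hy
    rw [hV]
    calc ⁅x, y⁆ ^ 2 = (⁅x, y⁆ * x) * x⁻¹ * ⁅x, y⁆ := by rw [sq]; group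
      _ = x ^ 2 * y * (y * x ^ 2)⁻¹ := by rw [← h1, commutatorElement_def, sq]; group
      _ = 1 := by rw [h4]; group
  have hsq : ∀ x y : X, (x * y) ^ 2 = x ^ 2 * ⁅x⁻¹, y⁆ * y ^ 2 := fun x y => by
    rw [commutatorElement_def, sq, sq, sq]; group
  let Y : Subgroup X :=
    { carrier := {y | y ∈ K ∧ y ^ 2 ∈ V}
      one_mem' := ⟨one_mem _, by simp⟩
      mul_mem' := fun {x y} hx hy => ⟨mul_mem hx.1 hy.1, by
        rw [hsq]; exact mul_mem (mul_mem hx.2 (hcm _ (inv_mem hx.1) _ hy.1)) hy.2⟩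
      inv_mem' := fun {x} hx => ⟨inv_mem hx.1, by rw [inv_pow]; exact inv_mem hx.2⟩ }
  have hNn : (V.subgroupOf Y).Normal := inferInstance
  let q : Y ⧸ V.subgroupOf Y → V := Quotient.lift (fun y : Y => (⟨(y : X) ^ 2, y.2.2⟩ : V)) (by
    intro a b hab
    have h1 : (a : X)⁻¹ * b ∈ V := (QuotientGroup.leftRel_apply (s := V.subgroupOf Y)).1 hab
    refine Subtype.ext ?_
    have : (b : X) = a * ((a : X)⁻¹ * b) := by group
    change (a : X) ^ 2 = (b : X) ^ 2
    rw [this, Commute.mul_pow (hcen _ h1 _ a.2.1), (hV _).1 h1, mul_one])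
  have hqmk : ∀ y : Y, (q y : X) = (y : X) ^ 2 := fun _ => rfl
  have hpol : ∀ u w : Y, ((q (u * w) * q u * q w : V) : X) = ⁅(u : X)⁻¹, (w : X)⁆ := by
    intro u w
    have h1 := hcm _ (inv_mem u.2.1) _ w.2.1
    rw [← QuotientGroup.mk_mul, coe_mul, coe_mul, hqmk, hqmk, hqmk, coe_mul, hsq,
      hcomm _ _ u.2.2 h1, mul_assoc _ _ ((u : X) ^ 2), hcomm _ _ w.2.2 u.2.2]
    calc _ = ⁅(u : X)⁻¹, (w : X)⁆ * ((u : X) ^ 2) ^ 2 * ((w : X) ^ 2) ^ 2 := by
          simp only [sq, mul_assoc]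
      _ = _ := by rw [(hV _).1 u.2.2, (hV _).1 w.2.2, mul_one, mul_one]
  have hq : AQ.IsAQ q := by
    constructor
    · intro w
      obtain ⟨w, rfl⟩ := QuotientGroup.mk_surjective w
      rw [QuotientGroup.eq_one_iff, Subtype.ext_iff, hqmk]
      rfl
    · intro u x y
      obtain ⟨u, rfl⟩ := QuotientGroup.mk_surjective u
      obtain ⟨x, rfl⟩ := QuotientGroup.mk_surjective x
      obtain ⟨y, rfl⟩ := QuotientGroup.mk_surjective y
      refine Subtype.ext ?_
      rw [← QuotientGroup.mk_mul, hpol, coe_mul (H := V), hpol, hpol]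
      have h1 := hcen _ (hcm _ (inv_mem u.2.1) _ y.2.1) _ x.2.1
      calc ⁅(u : X)⁻¹, ((x * y : Y) : X)⁆
          = ⁅(u : X)⁻¹, (x : X)⁆ * ((x : X) * ⁅(u : X)⁻¹, (y : X)⁆) * (x : X)⁻¹ := by
            simp only [commutatorElement_def, coe_mul]; group
        _ = _ := by rw [h1]; group
  have hWp : IsPGroup 2 (Y ⧸ V.subgroupOf Y) := (h2.to_subgroup Y).to_quotient _
  have hWc : IsMulCommutative (Y ⧸ V.subgroupOf Y) := ⟨⟨fun a b => by
    obtain ⟨a, rfl⟩ := QuotientGroup.mk_surjective a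
    obtain ⟨b, rfl⟩ := QuotientGroup.mk_surjective b
    rw [← commutatorElement_eq_one_iff_mul_comm]
    exact (QuotientGroup.eq_one_iff ⁅a, b⁆).2 (hcm _ a.2.1 _ b.2.1)⟩⟩
  have hWe : ∀ w : Y ⧸ V.subgroupOf Y, w ^ 2 = 1 := fun w => by
    obtain ⟨w, rfl⟩ := QuotientGroup.mk_surjective w
    exact (QuotientGroup.eq_one_iff (w ^ 2)).2 w.2.2
  let φ := MonoidHom.id (MulAut X)
  have iV : ActInv φ V := actInv_of_characteristic _ _
  have iK : ActInv φ K := actInv_of_characteristic _ _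
  have iY : ActInv φ Y := fun a y hy => ⟨iK a y hy.1, by rw [← map_pow]; exact iV a _ hy.2⟩
  have iN : ActInv (subHom φ Y iY) (V.subgroupOf Y) := fun a y hy => iV a _ hy
  let ρ := quotHom (subHom φ Y iY) _ iN
  have hfix : ∀ α ∈ (subHom φ V iV).ker, ∀ v ∈ V, α v = v := fun α hα v hv =>
    congrArg Subtype.val (DFunLike.congr_fun (MonoidHom.mem_ker.1 hα) (⟨v, hv⟩ : V))
  have hpres : ∀ α ∈ (subHom φ V iV).ker, ∀ w, q (ρ α w) = q w := by
    intro α hα w
    obtain ⟨w, rfl⟩ := QuotientGroup.mk_surjective w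
    refine Subtype.ext ?_
    change (α w) ^ 2 = (w : X) ^ 2
    rw [← map_pow, hfix α hα _ w.2.2]
  have hfaith : ∀ α ∈ (subHom φ V iV).ker, Odd (orderOf α) → ρ α = 1 → α = 1 := by
    intro α hα ho h1
    have hY : ∀ y ∈ Y, α y = y := by
      intro y hy
      have h4 : y⁻¹ * α y ∈ V := mem_ker_quotHom.1 h1 ⟨y, hy⟩
      exact Fz.fix_of_eq_mul_fixed ho (c := y⁻¹ * α y) (by group) (hfix α hα _ h4) (k := 1) h4
    have hZ : ∀ c ∈ centralizer (K : Set X), α c = c := by
      intro c hc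
      obtain ⟨k, hk⟩ := h2 c
      exact Fz.fix_of_comm ho (A := centralizer (K : Set X))
        (fun a ha b hb => hb a (hK.centralizer_le ha)) (iK.centralizer α)
        (fun a _ h => hfix α hα a (by rw [hV, sq, h])) c hc hk
    refine PG.aut_eq_one_of_centralizer_le h2 hK.centralizer_le (Nat.coprime_two_right.2 ho)
      fun k hk => ?_
    have hk' : α k ∈ K := iK α k hk
    have h4 : k⁻¹ * α k ∈ Y := ⟨mul_mem (inv_mem hk) hk', by
      have h5 := hcm _ (inv_mem (inv_mem hk)) _ hk'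
      rw [hsq, ← map_pow, hZ _ (hK.pow_mem k hk), hcen _ h5 _ (pow_mem (inv_mem hk) 2), mul_assoc,
        inv_pow, inv_mul_cancel, mul_one]
      exact h5⟩
    obtain ⟨j, hj⟩ := h2 (k⁻¹ * α k)
    exact Fz.fix_of_eq_mul_fixed ho (c := k⁻¹ * α k) (by group) (hY _ h4) hj
  have hprime : ∀ r, r.Prime → r ≠ 2 → r ∣ Nat.card (subHom φ V iV).ker →
      ∃ β : MulAut (Y ⧸ V.subgroupOf Y), orderOf β = r ∧ ∀ w, q (β w) = q w := by
    intro r hr hr2 hd
    have := Fact.mk hr
    obtain ⟨α, hα⟩ := exists_prime_orderOf_dvd_card' r hd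
    rw [← orderOf_coe] at hα
    refine ⟨ρ α, orderOf_eq_prime (by rw [← map_pow, ← hα, pow_orderOf_eq_one, map_one]) fun e => ?_,
      hpres α α.2⟩
    rw [hfaith α α.2 (hα ▸ hr.odd_of_ne_two hr2) e, orderOf_one] at hα
    exact hr.one_lt.ne hα
  obtain ⟨f, hf⟩ := S3103.exists_injective_GL hWc hWe (n := 4) (hq.card_le hWp)
  have hGL : Nat.card (GL (Fin 4) (ZMod 2)) = 2 ^ 6 * 3 ^ 2 * 5 * 7 := by
    rw [Cl.card_gl]; simp; decide
  have hprime2 : ∀ r, r.Prime → r ∣ Nat.card (subHom φ V iV).ker → r = 2 ∨ r = 3 ∨ r = 5 := by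
    intro r hr hd
    by_cases hr2 : r = 2
    · exact Or.inl hr2
    obtain ⟨β, hβ, hβq⟩ := hprime r hr hr2 hd
    have h1 := orderOf_dvd_natCard (f β)
    rw [orderOf_injective f hf, hβ, hGL, hr.dvd_mul, hr.dvd_mul, hr.dvd_mul] at h1
    rcases h1 with ((h1 | h1) | h1) | h1
    · exact Or.inl ((Nat.prime_dvd_prime_iff_eq hr Nat.prime_two).1 (hr.dvd_of_dvd_pow h1))
    · exact Or.inr (Or.inl ((Nat.prime_dvd_prime_iff_eq hr Nat.prime_three).1 (hr.dvd_of_dvd_pow h1)))
    · exact Or.inr (Or.inr ((Nat.prime_dvd_prime_iff_eq hr Nat.prime_five).1 h1))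
    · obtain rfl := (Nat.prime_dvd_prime_iff_eq hr (by norm_num)).1 h1
      exact (hq.not_seven hWp hWc hβ hβq).elim
  have s1 : Group.IsSolvable (subHom φ V iV).ker := by
    by_cases h5 : 5 ∣ Nat.card (subHom φ V iV).ker
    · obtain ⟨a, b, h⟩ := exists_eq_pow_mul_pow (q := 5) Nat.card_pos.ne' Nat.prime_two
        fun r hr hd => (hprime2 r hr hd).imp_right fun h => h.resolve_left (by
          rintro rfl
          obtain ⟨α, hα, hαq⟩ := hprime 3 hr (by norm_num) hd
          obtain ⟨β, hβ, hβq⟩ := hprime 5 Nat.prime_five (by norm_num) h5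
          exact hq.not_three_five hWp hα hβ hαq hβq)
      exact S0144.result 2 5 a b Nat.prime_two Nat.prime_five h
    · obtain ⟨a, b, h⟩ := exists_eq_pow_mul_pow (q := 3) Nat.card_pos.ne' Nat.prime_two
        fun r hr hd => (hprime2 r hr hd).imp_right fun h => h.resolve_right (by
          rintro rfl; exact h5 hd)
      exact S0144.result 2 3 a b Nat.prime_two Nat.prime_three h
  have s2 : Group.IsSolvable (MulAut V) := S0144.result 2 3 1 1 Nat.prime_two Nat.prime_three (by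
    rw [PG.card_mulAut_of_elementary_sq (p := 2) hVc (fun x => Subtype.ext x.2) hV4]; rfl)
  exact Group.isSolvable_of_ker_le_range (subHom φ V iV).ker.subtype (subHom φ V iV) (by simp)

end Cfsg.Agent.S3117
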