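import Mathlib
-- Template for statement S3356 (row 3356; see /opt/grader/pristine/manifest.json for weights).
-- Copy to Cfsg/Agent/S3356.lean and replace the sorry. The statement below is byte-identical to the frozen
-- statement Cfsg.CfsgFrozen.S3356 (Cfsg/Statements/S3356.lean; the theorem Cfsg.three_halves_transitive_regular_normal_subgroup);
-- the grader kernel-checks Cfsg.Agent.S3356.result against that frozen type. Keep the theorem IN THIS FILE
-- (a `result` declared elsewhere and merely imported here is not credited); helpers may live anywhere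
-- under Cfsg/Agent/.
import Cfsg.Statements.S3356
import Cfsg.Agent.GT.HalfTransitive
-- import your own Cfsg.Agent.* helpers here

set_option autoImplicit false
open Cfsg

namespace Cfsg.Agent.S3356

/-- Let G be a finite 3/2-transitive permutation group: G acts faithfully and transitively on a finite set, the point stabilizers are non-trivial, and for each point a all orbits of G_a on the remaining points have the same size. Suppose G has a regular normal subgroup N and G is not a Frobenius group (some two-point stabilizer is non-trivial). Then N is an elementary abelian p-group for some prime p, and every non-trivial normal subgroup of G contains N (so N is the unique minimal normal subgroup). -/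
theorem result {G Ω : Type*} [Group G] [Finite G]
    [MulAction G Ω] [FaithfulSMul G Ω] [Finite Ω] (htrans : MulAction.IsPretransitive G Ω)
    (hne : ∀ a : Ω, MulAction.stabilizer G a ≠ ⊥)
    (hhalf : ∀ a b c : Ω, b ≠ a → c ≠ a →
      Nat.card (MulAction.orbit (MulAction.stabilizer G a) b) = Nat.card (MulAction.orbit (MulAction.stabilizer G a) c))
    (N : Subgroup G) [hN : N.Normal] (hNt : MulAction.IsPretransitive N Ω) (hNr : ∀ a : Ω, MulAction.stabilizer N a = ⊥)
    (hnotF : ∃ a b : Ω, a ≠ b ∧ MulAction.stabilizer G a ⊓ MulAction.stabilizer G b ≠ ⊥) :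
    (∃ p : ℕ, p.Prime ∧ IsMulCommutative N ∧ ∀ x ∈ N, x ^ p = 1) ∧
    (∀ M : Subgroup G, M.Normal → M ≠ ⊥ → N ≤ M) := by
  obtain ⟨a, b, hab, hst⟩ := hnotF
  let A := MulAction.stabilizer G a
  let _ := MulDistribMulAction.compHom N ((MulAut.conjNormal : G →* MulAut N).comp A.subtype)
  have hs : ∀ (h : A) (n : N), ((h • n : N) : G) = h * n * (h : G)⁻¹ := fun _ _ => rfl
  have hs2 : ∀ (h : A) (n : N), (h • n : N) • a = h • n • a := fun h n => by
    have h1 : (h : G)⁻¹ • a = a := (h⁻¹).2
    rw [Subgroup.smul_def, hs, mul_smul, mul_smul, h1]; rfl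
  have hinj : ∀ n n' : N, n • a = n' • a → n = n' := fun n n' h => by
    have : n'⁻¹ * n ∈ MulAction.stabilizer N a := by
      rw [MulAction.mem_stabilizer_iff, mul_smul, h, inv_smul_smul]
    rw [hNr, Subgroup.mem_bot, inv_mul_eq_one] at this
    exact this.symm
  have hstab : ∀ n : N, MulAction.stabilizer A n = MulAction.stabilizer A (n • a) := fun n => by
    ext h
    rw [MulAction.mem_stabilizer_iff, MulAction.mem_stabilizer_iff, ← hs2]
    exact ⟨fun e => by rw [e], hinj _ _⟩
  have hne1 : ∀ n : N, n ≠ 1 → n • a ≠ a := fun n hn e => hn (hinj _ _ (by rw [e, one_smul]))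
  have : FaithfulSMul A N := ⟨fun {h h'} e => Subtype.ext (eq_of_smul_eq_smul (α := Ω) fun c => by
    obtain ⟨n, rfl⟩ := hNt.exists_smul_eq a c
    change h • n • a = h' • n • a
    rw [← hs2, ← hs2, e])⟩
  have hm : ∀ x : N, x ≠ 1 → (MulAction.stabilizer A x).index = Nat.card (MulAction.orbit A b) :=
    fun x hx => by
      rw [hstab, MulAction.index_stabilizer]
      exact hhalf a _ b (hne1 x hx) hab.symm
  have hne' : ∃ x : N, x ≠ 1 ∧ MulAction.stabilizer A x ≠ ⊥ := by
    obtain ⟨n, rfl⟩ := hNt.exists_smul_eq a b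
    refine ⟨n, fun e => hab (by rw [e, one_smul]), fun e => hst (eq_bot_iff.mpr fun g hg => ?_)⟩
    have : (⟨g, hg.1⟩ : A) ∈ MulAction.stabilizer A (n • a) := hg.2
    rw [← hstab, e, Subgroup.mem_bot] at this
    exact congrArg Subtype.val this
  have hcomm := GT.Frob.mul_comm_of_halfTransitive hm hne'
  have hirr := GT.Frob.eq_bot_or_eq_top_of_halfTransitive hm hne'
  refine ⟨?_, fun M hM hM1 => ?_⟩
  · obtain ⟨x, hx, -⟩ := hne'
    have : Nontrivial N := ⟨⟨x, 1, hx⟩⟩
    obtain ⟨p, hp, hpN⟩ := Nat.exists_prime_and_dvd (Finite.one_lt_card (α := N)).ne'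
    have := Fact.mk hp
    obtain ⟨y, hy⟩ := exists_prime_orderOf_dvd_card' p hpN
    let _ : CommGroup N := { mul_comm := hcomm }
    refine ⟨p, hp, ⟨⟨hcomm⟩⟩, fun z hz => ?_⟩
    rcases hirr (powMonoidHom p : N →* N).ker (fun h u hu => by
      rw [MonoidHom.mem_ker, powMonoidHom_apply] at hu ⊢
      rw [← smul_pow', hu, smul_one]) with h | h
    · have : y ∈ (powMonoidHom p : N →* N).ker := by
        rw [MonoidHom.mem_ker, powMonoidHom_apply, ← hy, pow_orderOf_eq_one]
      rw [h, Subgroup.mem_bot] at this
      exact absurd (by rw [← hy, this, orderOf_one]) hp.ne_one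
    · have : (⟨z, hz⟩ : N) ∈ (powMonoidHom p : N →* N).ker := h ▸ Subgroup.mem_top _
      exact congrArg Subtype.val this
  · rcases hirr (M.subgroupOf N) (fun h u hu => hM.conj_mem _ hu h) with h | h
    · refine absurd (eq_bot_iff.mpr fun g hg => ?_) hM1
      have hd : Disjoint M N := Subgroup.subgroupOf_eq_bot.mp h
      obtain ⟨n, hn⟩ := hNt.exists_smul_eq a (g • a)
      have h1 : (n : G)⁻¹ * g ∈ A := by
        rw [MulAction.mem_stabilizer_iff, mul_smul, ← hn, Subgroup.smul_def, inv_smul_smul]
      have h2 : (⟨_, h1⟩ : A) = 1 := eq_of_smul_eq_smul (α := N) fun y => Subtype.ext (by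
        have h3 := (Subgroup.commute_of_normal_of_disjoint M N hM hN hd g y hg y.2).eq
        have h4 : (n : G)⁻¹ * y = y * (n : G)⁻¹ := congrArg Subtype.val (hcomm n⁻¹ y)
        rw [hs, one_smul, mul_inv_eq_iff_eq_mul, mul_assoc, h3, ← mul_assoc, h4, mul_assoc])
      have h3 : g = n := (inv_mul_eq_one.mp (congrArg Subtype.val h2)).symm
      exact Subgroup.disjoint_def.mp hd hg (h3 ▸ n.2)
    · exact Subgroup.subgroupOf_eq_top.mp h

end Cfsg.Agent.S3356
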