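import Mathlib
-- Template for statement S3357 (row 3357; see /opt/grader/pristine/manifest.json for weights).
-- Copy to Cfsg/Agent/S3357.lean and replace the sorry. The statement below is byte-identical to the frozen
-- statement Cfsg.CfsgFrozen.S3357 (Cfsg/Statements/S3357.lean; the theorem Cfsg.frobenius_complement_fixed_point_free_representation);
-- the grader kernel-checks Cfsg.Agent.S3357.result against that frozen type. Keep the theorem IN THIS FILE
-- (a `result` declared elsewhere and merely imported here is not credited); helpers may live anywhere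
-- under Cfsg/Agent/.
import Cfsg.Statements.S3357
import Cfsg.Agent.GT.FrobeniusRep
import Cfsg.Agent.GT.FrobeniusComplement
-- import your own Cfsg.Agent.* helpers here

set_option autoImplicit false
open Cfsg

namespace Cfsg.Agent.S3357

/-- Let G be a finite group that occurs as a Frobenius complement. Then G has a faithful irreducible representation over an algebraic closure of the rationals in which no non-identity element of G has 1 as an eigenvalue: there are n ≥ 1 and an injective homomorphism ρ from G to GL(n) over that field, with no invariant subspace other than 0 and the whole space, such that for g ≠ 1 the only vector fixed by ρ(g) is 0. -/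
theorem result {G : Type*} [Group G] [Finite G]
    (hFC : ∃ (L : Type) (_ : Group L) (_ : Finite L) (H : Subgroup L), Cfsg.IsFrobeniusComplement H ∧ Nonempty (G ≃* H)) :
    ∃ (n : ℕ) (ρ : G →* GL (Fin n) (AlgebraicClosure ℚ)), 0 < n ∧ Function.Injective ρ ∧
      (∀ W : Submodule (AlgebraicClosure ℚ) (Fin n → AlgebraicClosure ℚ),
        (∀ g : G, ∀ w ∈ W, ((ρ g : GL (Fin n) (AlgebraicClosure ℚ)) : Matrix (Fin n) (Fin n) (AlgebraicClosure ℚ)).mulVec w ∈ W) → W = ⊥ ∨ W = ⊤) ∧
      ∀ g : G, g ≠ 1 → ∀ v : Fin n → AlgebraicClosure ℚ,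
        ((ρ g : GL (Fin n) (AlgebraicClosure ℚ)) : Matrix (Fin n) (Fin n) (AlgebraicClosure ℚ)).mulVec v = v → v = 0 := by
  obtain ⟨h, -⟩ := GT.Frob.hasFpfAction_of_exists hFC
  have := h.nontrivial_primeFpfFun (AlgebraicClosure ℚ)
  obtain ⟨n, σ, ι, hn, hι, hσ, hirr⟩ :=
    GT.Frob.exists_irreducible_matrix_rep (GT.Frob.primeFpfRep G (AlgebraicClosure ℚ))
  have key : ∀ g : G, g ≠ 1 → ∀ v : Fin n → AlgebraicClosure ℚ,
      ((σ g : GL (Fin n) (AlgebraicClosure ℚ)) :
        Matrix (Fin n) (Fin n) (AlgebraicClosure ℚ)).mulVec v = v → v = 0 := fun g hg v hv =>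
    hι (by rw [map_zero]; exact GT.Frob.primeFpfRep_fpf hg _ (by rw [← hσ, hv]))
  refine ⟨n, σ, hn, (injective_iff_map_eq_one σ).mpr fun g hg => ?_, hirr, key⟩
  by_contra h1
  have := congrFun (key g h1 (fun _ => 1) (by rw [hg]; simp)) ⟨0, hn⟩
  simp at this

end Cfsg.Agent.S3357
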