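import Mathlib
-- Template for statement S3358 (row 3358; see /opt/grader/pristine/manifest.json for weights).
-- Copy to Cfsg/Agent/S3358.lean and replace the sorry. The statement below is byte-identical to the frozen
-- statement Cfsg.CfsgFrozen.S3358 (Cfsg/Statements/S3358.lean; the theorem Cfsg.solvable_frobenius_complement_structure);
-- the grader kernel-checks Cfsg.Agent.S3358.result against that frozen type. Keep the theorem IN THIS FILE
-- (a `result` declared elsewhere and merely imported here is not credited); helpers may live anywhere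
-- under Cfsg/Agent/.
import Cfsg.Statements.S3358
import Cfsg.Agent.GT.ZassenhausThm
import Cfsg.Agent.GT.ZGroupPres
-- import your own Cfsg.Agent.* helpers here

set_option autoImplicit false
open Cfsg

namespace Cfsg.Agent.S3358

theorem pres {G : Type*} [Group G] (h : GT.Frob.HasFpfAction G) [IsZGroup G] :
    ∃ n m r : ℕ, 0 < n ∧ 0 < m ∧ Nat.Coprime (r - 1) m ∧ Nat.Coprime n m ∧ 1 ≤ r ∧
        r ^ (n / ∏ p ∈ n.primeFactors, p) % m = 1 % m ∧
        Nonempty (G ≃* PresentedGroup
          ({FreeGroup.of (0 : Fin 2) ^ n, FreeGroup.of (1 : Fin 2) ^ m,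
            (FreeGroup.of (0 : Fin 2))⁻¹ * FreeGroup.of 1 * FreeGroup.of 0 * (FreeGroup.of (1 : Fin 2) ^ r)⁻¹} :
            Set (FreeGroup (Fin 2)))) := by
  have := h.finite
  obtain ⟨x, y, r, h1, h2, h3, h4, h5, h6⟩ := GT.Frob.exists_generators_of_isZGroup (G := G)
  refine ⟨_, _, r, orderOf_pos x, orderOf_pos y, h4, h5, h6,
    GT.Frob.pow_mod_orderOf_eq_of_commute h3 ?_,
    GT.Frob.nonempty_mulEquiv_presentedGroup (orderOf_pos y) h2 rfl rfl h3⟩
  have key : ∀ s : Finset ℕ, (∀ p ∈ s, p.Prime ∧ p ∣ orderOf x) → ∀ z : G,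
      z ^ (∏ p ∈ s, p) = 1 → z ∈ Subgroup.center G := by
    intro s
    induction s using Finset.induction_on with
    | empty => intro _ z hz; rw [Finset.prod_empty, pow_one] at hz; rw [hz]; exact one_mem _
    | insert p s hp ih =>
      intro hs z hz
      rw [Finset.prod_insert hp] at hz
      obtain ⟨hp1, hp2⟩ := hs p (Finset.mem_insert_self _ _)
      have a1 := ih (fun q hq => hs q (Finset.mem_insert_of_mem hq)) (z ^ p) (by rwa [← pow_mul])
      have a2 := h.mem_center_of_isZGroup (y := z ^ ∏ p ∈ s, p) hp1 (by rwa [← pow_mul'])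
        (by rw [← h1, Nat.card_zpowers]
            exact hp1.coprime_iff_not_dvd.mp (h5.coprime_dvd_left hp2))
      have a3 : p.Coprime (∏ p ∈ s, p) := Nat.Coprime.prod_right fun q hq =>
        (Nat.coprime_primes hp1 (hs q (Finset.mem_insert_of_mem hq)).1).mpr
          fun e => hp (e ▸ hq)
      rw [← QuotientGroup.eq_one_iff, QuotientGroup.mk_pow] at a1 a2
      rw [← QuotientGroup.eq_one_iff, ← pow_one (z : G ⧸ Subgroup.center G), ← a3]
      exact pow_gcd_eq_one.mpr ⟨a1, a2⟩
  refine (Subgroup.mem_center_iff.mp (key (orderOf x).primeFactors (fun p hp =>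
    ⟨Nat.prime_of_mem_primeFactors hp, Nat.dvd_of_mem_primeFactors hp⟩) _ ?_) y).symm
  rw [← pow_mul, Nat.div_mul_cancel (Nat.prod_primeFactors_dvd _), pow_orderOf_eq_one]


/-- Structure of solvable Frobenius complements. Let G be a finite solvable group that occurs as a Frobenius complement. Then G has a normal subgroup G₀ such that G/G₀ is isomorphic to a subgroup of Sym(4) (G₀ is the kernel of a homomorphism to Sym(4)), all Sylow subgroups of G₀ are cyclic, and G₀ has a presentation ⟨x, y | x^n = 1, y^m = 1, x⁻¹ y x = y^r⟩ with n, m ≥ 1, gcd(r − 1, m) = gcd(n, m) = 1 and r^(n/n′) ≡ 1 (mod m), where n′ is the product of the distinct primes dividing n. -/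
theorem result {G : Type*} [Group G] [Finite G] (hsol : Group.IsSolvable G)
    (hFC : ∃ (L : Type) (_ : Group L) (_ : Finite L) (H : Subgroup L), Cfsg.IsFrobeniusComplement H ∧ Nonempty (G ≃* H)) :
    ∃ G₀ : Subgroup G, G₀.Normal ∧
      (∃ f : G →* Equiv.Perm (Fin 4), f.ker = G₀) ∧
      (∀ (p : ℕ) [Fact p.Prime] (P : Sylow p G₀), IsCyclic P) ∧
      ∃ n m r : ℕ, 0 < n ∧ 0 < m ∧ Nat.Coprime (r - 1) m ∧ Nat.Coprime n m ∧ 1 ≤ r ∧
        r ^ (n / ∏ p ∈ n.primeFactors, p) % m = 1 % m ∧
        Nonempty (G₀ ≃* PresentedGroup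
          ({FreeGroup.of (0 : Fin 2) ^ n, FreeGroup.of (1 : Fin 2) ^ m,
            (FreeGroup.of (0 : Fin 2))⁻¹ * FreeGroup.of 1 * FreeGroup.of 0 * (FreeGroup.of (1 : Fin 2) ^ r)⁻¹} :
            Set (FreeGroup (Fin 2)))) := by
  have h := (GT.Frob.hasFpfAction_of_exists hFC).1
  suffices ∃ f : G →* Equiv.Perm (Fin 4), IsZGroup f.ker by
    obtain ⟨f, hf⟩ := this
    exact ⟨f.ker, inferInstance, ⟨f, rfl⟩, fun p _ P => inferInstance, pres (h.subgroup _)⟩
  rcases h.solvable_cases with h1 | ⟨f, -, h1⟩ | ⟨f, -, h1⟩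
  · exact ⟨1, inferInstance⟩
  · let e : DihedralGroup 2 ≃ Fin 4 := Fintype.equivFinOfCardEq DihedralGroup.card
    refine ⟨(e.permCongrHom.toMonoidHom.comp (MulAction.toPermHom _ _)).comp f, ?_⟩
    rwa [MonoidHom.ker_comp_of_injective]
    exact e.permCongrHom.injective.comp MulAction.toPerm_injective
  · exact ⟨f, h1⟩
end Cfsg.Agent.S3358
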