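import Mathlib
-- Template for statement S3361 (row 3361; see /opt/grader/pristine/manifest.json for weights).
-- Copy to Cfsg/Agent/S3361.lean and replace the sorry. The statement below is byte-identical to the frozen
-- statement Cfsg.CfsgFrozen.S3361 (Cfsg/Statements/S3361.lean; the theorem Cfsg.solvable_regular_linear_group_semilinear_or_exceptional);
-- the grader kernel-checks Cfsg.Agent.S3361.result against that frozen type. Keep the theorem IN THIS FILE
-- (a `result` declared elsewhere and merely imported here is not credited); helpers may live anywhere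
-- under Cfsg/Agent/.
import Cfsg.Statements.S3361
import Cfsg.Agent.GT.NearField
-- import your own Cfsg.Agent.* helpers here

set_option autoImplicit false
open Cfsg

namespace Cfsg.Agent.S3361

/-- Let q be a prime and V a non-trivial finite vector space over the field with q elements, and let G be a finite solvable group acting faithfully and linearly on V and regularly on the non-zero vectors (transitively, with only the identity fixing a non-zero vector). Then either V can be identified with the additive group of a finite field F so that every element of G acts as x ↦ a·σ(x) (a ∈ F, σ a field automorphism), or V has 5^2, 7^2, 11^2 or 23^2 elements. Moreover, if q ≠ 2 then G has a normal subgroup of index 2, except that when V has 25 elements G may be isomorphic to SL(2,3) and when V has 121 elements G may be isomorphic to SL(2,3) × C₅. -/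
theorem result
    (q : ℕ) [Fact q.Prime] {V : Type*} [AddCommGroup V] [Module (ZMod q) V] [Finite V] [Nontrivial V]
    {G : Type*} [Group G] [Finite G] (hsol : Group.IsSolvable G)
    (ρ : G →* (V ≃ₗ[ZMod q] V)) (hρ : Function.Injective ρ)
    (htrans : ∀ v w : V, v ≠ 0 → w ≠ 0 → ∃ g : G, ρ g v = w)
    (hreg : ∀ v : V, v ≠ 0 → ∀ g : G, ρ g v = v → g = 1) :
    ((∃ (F : Type) (_ : Field F) (_ : Fintype F) (e : V ≃+ F),
        ∀ g : G, ∃ (a : F) (σ : F ≃+* F), ∀ v : V, e (ρ g v) = a * σ (e v)) ∨
      Nat.card V ∈ ({25, 49, 121, 529} : Set ℕ)) ∧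
    (q ≠ 2 → (∃ N : Subgroup G, N.Normal ∧ N.index = 2) ∨
      (Nat.card V = 25 ∧ Nonempty (G ≃* Matrix.SpecialLinearGroup (Fin 2) (ZMod 3))) ∨
      (Nat.card V = 121 ∧ Nonempty (G ≃* Matrix.SpecialLinearGroup (Fin 2) (ZMod 3) × Multiplicative (ZMod 5)))) := by
  have hr : GT.Frob.RegOn ρ := fun v w hv hw => existsUnique_of_exists_of_unique
    (htrans v w hv hw) fun g h hg hh => (inv_mul_eq_one.mp (hreg v hv _ (by
      rw [map_mul, LinearEquiv.mul_apply, hh, ← hg]; simp)))
  refine ⟨?_, hr.index_two⟩
  by_cases hI : ∀ A : Subgroup G, A.Normal → IsCyclic A → ¬ GT.Frob.IrrOn ρ A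
  · obtain ⟨-, -, -, -, -, h1, h2⟩ := hr.exceptional hI
    right
    rcases h2 with rfl | rfl | rfl | rfl <;> simp [h1]
  · push Not at hI
    obtain ⟨A, _, _, hA⟩ := hI
    obtain ⟨n, e, -, h⟩ := hA.exists_semilinear
    exact Or.inl ⟨GaloisField q n, inferInstance, Fintype.ofFinite _, e, fun g =>
      (h g).elim fun a ha => ⟨a, ha⟩⟩
end Cfsg.Agent.S3361
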