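import Mathlib
import Cfsg.Statements.S3362
import Cfsg.Agent.Spor.Steiner12
-- import your own Cfsg.Agent.* helpers here

set_option autoImplicit false
open Cfsg

namespace Cfsg.Agent.S3362

open Cfsg.Agent.Spor Cfsg.Agent.Spor.SC MulAction Finset


/-- An explicit construction of the Mathieu groups of degrees 11 and 12. On the points 0, …, 11 let s = (3 4 5)(6 7 8)(9 10 11), t = (3 6 9)(4 7 10)(5 8 11), u = (4 6 5 9)(7 8 11 10), v = (4 7 5 11)(6 10 9 8), w = (4 10 5 8)(6 11 9 7), x₁ = (0 3)(6 7)(8 10)(9 11), x₂ = (0 1)(6 9)(7 10)(8 11), x₃ = (1 2)(6 11)(7 9)(8 10) (each written as a product of transpositions). Then the group M₁₂ generated by all eight permutations is sharply 5-transitive on the 12 points and has order 95040, and the group M₁₁ generated by the first seven has order 7920 and is the stabilizer of the point 2 in M₁₂. -/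
theorem result
    (s t u v w x₁ x₂ x₃ : Equiv.Perm (Fin 12))
    (hs : s = Equiv.swap (3 : Fin 12) 5 * Equiv.swap (3 : Fin 12) 4 * Equiv.swap (6 : Fin 12) 8 * Equiv.swap (6 : Fin 12) 7 * Equiv.swap (9 : Fin 12) 11 * Equiv.swap (9 : Fin 12) 10) (ht : t = Equiv.swap (3 : Fin 12) 9 * Equiv.swap (3 : Fin 12) 6 * Equiv.swap (4 : Fin 12) 10 * Equiv.swap (4 : Fin 12) 7 * Equiv.swap (5 : Fin 12) 11 * Equiv.swap (5 : Fin 12) 8)
    (hu : u = Equiv.swap (4 : Fin 12) 9 * Equiv.swap (4 : Fin 12) 5 * Equiv.swap (4 : Fin 12) 6 * Equiv.swap (7 : Fin 12) 10 * Equiv.swap (7 : Fin 12) 11 * Equiv.swap (7 : Fin 12) 8) (hv : v = Equiv.swap (4 : Fin 12) 11 * Equiv.swap (4 : Fin 12) 5 * Equiv.swap (4 : Fin 12) 7 * Equiv.swap (6 : Fin 12) 8 * Equiv.swap (6 : Fin 12) 9 * Equiv.swap (6 : Fin 12) 10) (hw : w = Equiv.swap (4 : Fin 12) 8 * Equiv.swap (4 : Fin 12) 5 * Equiv.swap (4 : Fin 12) 10 * Equiv.swap (6 : Fin 12) 7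 * Equiv.swap (6 : Fin 12) 9 * Equiv.swap (6 : Fin 12) 11)
    (hx₁ : x₁ = Equiv.swap (0 : Fin 12) 3 * Equiv.swap (6 : Fin 12) 7 * Equiv.swap (8 : Fin 12) 10 * Equiv.swap (9 : Fin 12) 11) (hx₂ : x₂ = Equiv.swap (0 : Fin 12) 1 * Equiv.swap (6 : Fin 12) 9 * Equiv.swap (7 : Fin 12) 10 * Equiv.swap (8 : Fin 12) 11)
    (hx₃ : x₃ = Equiv.swap (1 : Fin 12) 2 * Equiv.swap (6 : Fin 12) 11 * Equiv.swap (7 : Fin 12) 9 * Equiv.swap (8 : Fin 12) 10)
    (M₁₂ M₁₁ : Subgroup (Equiv.Perm (Fin 12))) (hM₁₂ : M₁₂ = Subgroup.closure {s, t, u, v, w, x₁, x₂, x₃})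
    (hM₁₁ : M₁₁ = Subgroup.closure {s, t, u, v, w, x₁, x₂}) :
    MulAction.IsMultiplyPretransitive M₁₂ (Fin 12) 5 ∧ (∀ y : Fin 5 ↪ Fin 12, MulAction.stabilizer M₁₂ y = ⊥) ∧
    Nat.card M₁₂ = 95040 ∧ Nat.card M₁₁ = 7920 ∧
    M₁₁ = M₁₂ ⊓ MulAction.stabilizer (Equiv.Perm (Fin 12)) (2 : Fin 12) := by
  have e12 : M₁₂ = cl [wg 0, wg 1, wg 2, wg 3, wg 4, wg 5, wg 6, wg 7] := by
    rw [hM₁₂, hs, ht, hu, hv, hw, hx₁, hx₂, hx₃]
    congr 1
    ext g
    simp only [Set.mem_insert_iff, Set.mem_singleton_iff, Set.mem_ofPred_eq, List.mem_cons,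
      List.not_mem_nil, or_false]
    exact Iff.rfl
  have e11 : M₁₁ = cl [wg 0, wg 1, wg 2, wg 3, wg 4, wg 5, wg 6] := by
    rw [hM₁₁, hs, ht, hu, hv, hw, hx₁, hx₂]
    congr 1
    ext g
    simp only [Set.mem_insert_iff, Set.mem_singleton_iff, Set.mem_ofPred_eq, List.mem_cons,
      List.not_mem_nil, or_false]
    exact Iff.rfl
  have hS : Sharp M₁₂ (Fin 12) 5 := by
    rw [e12, cl_wg_eq]
    exact steiner12_sharp (by simp) steiner_wg
  have hc := hS.card_twelve (by simp)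
  have h1 : Nat.card ↥(M₁₂ ⊓ stabilizer (Equiv.Perm (Fin 12)) (2 : Fin 12)) = 7920 := by
    have h2 := MB.card_eq_ncard_orbit_mul M₁₂ (2 : Fin 12)
    have := hS.isPretransitive (by norm_num) (by simp)
    rw [hc, orbit_eq_univ, Set.ncard_univ, Nat.card_fin] at h2
    omega
  have h3 : M₁₁ = M₁₂ ⊓ stabilizer (Equiv.Perm (Fin 12)) (2 : Fin 12) := by
    apply Subgroup.eq_of_le_of_card_ge
    · rw [e11, e12, Subgroup.closure_le]
      intro g hg
      have h4 : g ∈ [wg 0, wg 1, wg 2, wg 3, wg 4, wg 5, wg 6] := hg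
      have h5 : decide (g 2 = 2) = true := List.all_eq_true.1 (show ([wg 0, wg 1, wg 2, wg 3, wg 4,
        wg 5, wg 6].all fun g => decide (g 2 = 2)) = true by decide +kernel) g h4
      have h6 : g ∈ [wg 0, wg 1, wg 2, wg 3, wg 4, wg 5, wg 6] ++ [wg 7] :=
        List.mem_append_left _ h4
      exact ⟨Subgroup.subset_closure h6, mem_stabilizer_iff.2 (of_decide_eq_true h5)⟩
    · rw [h1, e11]
      exact le_card_wg11
  exact ⟨hS.trans, hS.sharp, hc, by rw [h3, h1], h3⟩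

end Cfsg.Agent.S3362
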