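import Mathlib
-- Template for statement S3374 (row 3374; see /opt/grader/pristine/manifest.json for weights).
-- Copy to Cfsg/Agent/S3374.lean and replace the sorry. The statement below is byte-identical to the frozen
-- statement Cfsg.CfsgFrozen.S3374 (Cfsg/Statements/S3374.lean; the theorem Cfsg.sl2_5_is_frobenius_complement);
-- the grader kernel-checks Cfsg.Agent.S3374.result against that frozen type. Keep the theorem IN THIS FILE
-- (a `result` declared elsewhere and merely imported here is not credited); helpers may live anywhere
-- under Cfsg/Agent/.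
import Cfsg.Statements.S3374
import Cfsg.Agent.GT.FrobeniusSL2
-- import your own Cfsg.Agent.* helpers here

set_option autoImplicit false
open Cfsg

namespace Cfsg.Agent.S3374

/-- SL(2,5) occurs as a Frobenius complement: there is a finite group L with a subgroup H isomorphic to SL(2,5) which is a non-trivial proper subgroup meeting each conjugate gHg⁻¹ with g outside H trivially. -/
theorem result :
    ∃ (L : Type) (_ : Group L) (_ : Finite L) (H : Subgroup L),
      Cfsg.IsFrobeniusComplement H ∧ Nonempty (H ≃* Matrix.SpecialLinearGroup (Fin 2) (ZMod 5)) := by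
  have : Nontrivial (Matrix.SpecialLinearGroup (Fin 2) (ZMod 5)) :=
    ⟨⟨1, -1, fun h => absurd (congrArg (fun g : Matrix.SpecialLinearGroup (Fin 2) (ZMod 5) => g 0 0) h)
      (by decide)⟩⟩
  obtain ⟨L, _, _, H, hH, ⟨e⟩⟩ := GT.Frob.hasFpfAction_sl2_five.exists_isFrobeniusComplement
  exact ⟨L, _, ‹_›, H, hH, ⟨e.symm⟩⟩

end Cfsg.Agent.S3374
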