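import Mathlib
-- Template for statement S3379 (row 3379; see /opt/grader/pristine/manifest.json for weights).
-- Copy to Cfsg/Agent/S3379.lean and replace the sorry. The statement below is byte-identical to the frozen
-- statement Cfsg.CfsgFrozen.S3379 (Cfsg/Statements/S3379.lean; the theorem Cfsg.all_sylow_cyclic_metacyclic_presentation);
-- the grader kernel-checks Cfsg.Agent.S3379.result against that frozen type. Keep the theorem IN THIS FILE
-- (a `result` declared elsewhere and merely imported here is not credited); helpers may live anywhere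
-- under Cfsg/Agent/.
import Cfsg.Statements.S3379
import Cfsg.Agent.GT.ZGroupPres
-- import your own Cfsg.Agent.* helpers here

set_option autoImplicit false
open Cfsg

namespace Cfsg.Agent.S3379

/-- Let G be a finite group all of whose Sylow subgroups are cyclic. Then G is generated by two elements x and y of coprime orders n and m with x⁻¹yx = y^r, where gcd(r − 1, m) = 1 and r^n ≡ 1 (mod m). -/
theorem result {G : Type*} [Group G] [Finite G]
    (hZ : ∀ (p : ℕ) [Fact p.Prime] (P : Sylow p G), IsCyclic (P : Subgroup G)) :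
    ∃ (x y : G) (n m r : ℕ), Subgroup.closure {x, y} = ⊤ ∧ orderOf x = n ∧ orderOf y = m ∧
      x⁻¹ * y * x = y ^ r ∧ Nat.Coprime (r - 1) m ∧ Nat.Coprime n m ∧ 1 ≤ r ∧ r ^ n % m = 1 % m := by
  have : IsZGroup G := ⟨fun p hp P => @hZ p ⟨hp⟩ P⟩
  obtain ⟨x, y, r, -, hc, h, h1, h2, h3⟩ := GT.Frob.exists_generators_of_isZGroup (G := G)
  exact ⟨x, y, _, _, r, GT.Frob.closure_pair_eq_top_of_isComplement' hc, rfl, rfl, h, h1, h2, h3,
    GT.Frob.pow_mod_orderOf_eq_of_commute h (by rw [pow_orderOf_eq_one]; exact Commute.one_left _)⟩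

end Cfsg.Agent.S3379
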