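import Mathlib
import Cfsg.Agent.Perm.Basic
import Cfsg.Statements.S3382

set_option autoImplicit false
open Cfsg

namespace Cfsg.Agent.S3382

section
variable {K : Type*} [Field K] {f g : (Fin 2 → K) ≃ₗ[K] (Fin 2 → K)} {a b c d : K}

/-- Diagonal maps. -/
def Dg (f : (Fin 2 → K) ≃ₗ[K] (Fin 2 → K)) (a b : K) : Prop := ∀ v, f v = ![a * v 0, b * v 1]

/-- Antidiagonal maps. -/
def An (f : (Fin 2 → K) ≃ₗ[K] (Fin 2 → K)) (a b : K) : Prop := ∀ v, f v = ![b * v 1, a * v 0]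

theorem Dg.mul (h : Dg f a b) (h' : Dg g c d) : Dg (f * g) (a * c) (b * d) := fun v => by
  simp [h _, h' v, mul_assoc]

theorem An.mul (h : An f a b) (h' : An g c d) : Dg (f * g) (b * c) (a * d) := fun v => by
  simp [h _, h' v, mul_assoc]

theorem Dg.mul_an (h : Dg f a b) (h' : An g c d) : An (f * g) (b * c) (a * d) := fun v => by
  simp [h _, h' v, mul_assoc]

theorem dg_one : Dg (1 : (Fin 2 → K) ≃ₗ[K] (Fin 2 → K)) 1 1 := fun v => by
  ext i
  fin_cases i <;> simp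

theorem Dg.pow (h : Dg f a b) (n : ℕ) : Dg (f ^ n) (a ^ n) (b ^ n) := by
  induction n with
  | zero => simpa using dg_one
  | succ n ih => simpa only [pow_succ] using ih.mul h

theorem Dg.ext (h : Dg f a b) (h' : Dg g a b) : f = g :=
  LinearEquiv.ext fun v => (h v).trans (h' v).symm

theorem An.ext (h : An f a b) (h' : An g a b) : f = g :=
  LinearEquiv.ext fun v => (h v).trans (h' v).symm

theorem Dg.inj (h : Dg f a b) (h' : Dg f c d) : a = c ∧ b = d := by
  simpa using (h 1).symm.trans (h' 1)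

theorem Dg.not_an (h : Dg f a b) (h' : An f c d) : a = 0 := by
  simpa using congrFun ((h ![1, 0]).symm.trans (h' _)) 0

theorem exists_dg (ha : a ≠ 0) (hb : b ≠ 0) : ∃ f, Dg f a b :=
  ⟨LinearEquiv.piCongrRight fun i => LinearEquiv.smulOfNeZero K K (![a, b] i)
    (by fin_cases i <;> assumption), fun v => by
      ext i
      fin_cases i <;> simp⟩

theorem exists_an : ∃ f : (Fin 2 → K) ≃ₗ[K] (Fin 2 → K), An f 1 (-1) := by
  obtain ⟨g, hg⟩ := exists_dg (K := K) (neg_ne_zero.2 one_ne_zero) one_ne_zero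
  refine ⟨g * LinearEquiv.funCongrLeft K K (Equiv.swap 0 1), fun v => ?_⟩
  rw [LinearEquiv.mul_apply, hg]
  ext i
  fin_cases i <;> simp

end

theorem zmod_two : ∀ a : ZMod 2, a ≠ 0 → a = 1 := by decide

theorem zmod_three : ∀ a : ZMod 3, a ≠ 0 → a ^ 2 = 1 := by decide

theorem zmod_three' :
    ∀ a b c d : ZMod 3, a * b = -1 → c * d = -1 → a * d = b * c ∧ (b * c) ^ 2 = 1 := by decide

theorem fix_of_fix {T : Type*} [Group T] (hT : IsPGroup 2 T) {α : MulAut T} {r : ℕ} (hr : Odd r)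
    (hα : α ^ r = 1) {y : T} (h : α (y⁻¹ * α y) = y⁻¹ * α y) : α y = y := by
  have h1 : ∀ k : ℕ, (α ^ k) y = y * (y⁻¹ * α y) ^ k := fun k => by
    induction k with
    | zero => simp
    | succ k ih => rw [pow_succ', MulAut.mul_apply, ih, map_mul, map_pow, h, pow_succ',
        ← mul_assoc, mul_inv_cancel_left]
  have h2 := h1 r
  rw [hα, MulAut.one_apply, left_eq_mul, ← orderOf_dvd_iff_pow_eq_one] at h2
  obtain ⟨k, hk⟩ := hT (y⁻¹ * α y)
  exact (inv_mul_eq_one.1 (orderOf_eq_one_iff.1 (Nat.eq_one_of_dvd_coprimes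
    (hr.coprime_two_right.pow_right k) h2 (orderOf_dvd_of_pow_eq_one hk)))).symm


/-- Let q = 2^m + 1 be a prime other than 5. Then the automorphism group of the group of linear maps of F_q² of the forms (x, y) ↦ (a x, ± a⁻¹ y) and (x, y) ↦ (± a⁻¹ y, a x) with a ≠ 0 is itself a 2-group. -/
theorem result (q m : ℕ) [Fact q.Prime] (hq : q = 2 ^ m + 1) (hq5 : q ≠ 5)
    (T : Subgroup ((Fin 2 → ZMod q) ≃ₗ[ZMod q] (Fin 2 → ZMod q)))
    (hT : ∀ f, f ∈ T ↔ ∃ a s : ZMod q, a ≠ 0 ∧ (s = 1 ∨ s = -1) ∧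
      ((∀ v, f v = ![a * v 0, s * a⁻¹ * v 1]) ∨ (∀ v, f v = ![s * a⁻¹ * v 1, a * v 0]))) :
    IsPGroup 2 (MulAut T) := by
  have hq' : q.Prime := Fact.out
  haveI : Finite T := Finite.of_injective (fun f : T => (f.1 : (Fin 2 → ZMod q) → _))
    (DFunLike.coe_injective.comp Subtype.val_injective)
  have hc : ∀ f : T, ∃ a b, (a * b = 1 ∨ a * b = -1) ∧ (Dg f.1 a b ∨ An f.1 a b) := fun f => by
    obtain ⟨a, s, ha, hs, h⟩ := (hT f).1 f.2
    exact ⟨a, s * a⁻¹, by rwa [mul_left_comm, mul_inv_cancel₀ ha, mul_one], h⟩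
  have hne : ∀ {a b : ZMod q}, (a * b = 1 ∨ a * b = -1) → a ≠ 0 ∧ b ≠ 0 := fun h =>
    mul_ne_zero_iff.1 (h.elim (· ▸ one_ne_zero) (· ▸ neg_ne_zero.2 one_ne_zero))
  have hsq : ∀ {f : T} {a b}, An f.1 a b → Dg (f ^ 2).1 (a * b) (a * b) := fun {f a b} h => by
    have := h.mul h
    rwa [mul_comm b, ← sq] at this
  have hpm : ∀ {c : ZMod q}, (c = 1 ∨ c = -1) → c ^ 2 = 1 := by rintro _ (rfl | rfl) <;> simp
  have h4 : ∀ {f : T} {a b}, (a * b = 1 ∨ a * b = -1) → An f.1 a b → f ^ 4 = 1 := fun h h' => by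
    have := (hsq h').pow 2
    rw [hpm h, ← SubmonoidClass.coe_pow, ← pow_mul] at this
    exact Subtype.ext (this.ext dg_one)
  have hP : IsPGroup 2 T := fun f => by
    obtain ⟨a, b, h, h' | h'⟩ := hc f
    · have := h'.pow (q - 1)
      rw [ZMod.pow_card_sub_one_eq_one (hne h).1, ZMod.pow_card_sub_one_eq_one (hne h).2,
        show q - 1 = 2 ^ m by rw [hq, Nat.add_sub_cancel]] at this
      exact ⟨m, Subtype.ext (this.ext dg_one)⟩
    · exact ⟨2, h4 h h'⟩
  suffices h : ∀ (α : MulAut T) (r : ℕ), Odd r → α ^ r = 1 → ∀ y, α y = y by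
    intro α
    obtain ⟨k, r, hr, e⟩ := Nat.exists_eq_two_pow_mul_odd (orderOf_pos α).ne'
    exact ⟨k, MulEquiv.ext (h _ r hr (by rw [← pow_mul, ← e, pow_orderOf_eq_one]))⟩
  intro α r hr hα
  have key := fun y => fix_of_fix hP hr hα (y := y)
  by_cases hq2 : q = 2
  · subst hq2
    have h1 : ∀ y : T, y ≠ 1 → An y.1 1 1 := fun y hy => by
      obtain ⟨a, b, h, h'⟩ := hc y
      rw [zmod_two a (hne h).1, zmod_two b (hne h).2] at h'
      exact h'.resolve_left fun h' => hy (Subtype.ext (h'.ext dg_one))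
    intro y
    by_cases hy : y = 1
    · simp [hy]
    · exact Subtype.ext ((h1 _ (by simpa using hy)).ext (h1 y hy))
  have h2 : (1 : ZMod q) ≠ -1 := fun e => hq2 ((Nat.prime_dvd_prime_iff_eq hq' Nat.prime_two).1
    ((ZMod.natCast_eq_zero_iff 2 q).1 (by push_cast; linear_combination e)))
  obtain ⟨j, hj⟩ := exists_an (K := ZMod q)
  lift j to T using (hT j).2 ⟨1, -1, one_ne_zero, Or.inr rfl, Or.inr (by simpa [An] using hj)⟩
  have hz : Dg (j ^ 2).1 (-1) (-1) := by simpa using hsq hj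
  have hz1 : j ^ 2 ≠ 1 := fun e => h2 (dg_one.inj (by rwa [e] at hz)).1
  have hs0 : ∀ {x : T} {a}, Dg x.1 a a → a ^ 2 = 1 → x = 1 ∨ x = j ^ 2 := fun h ha =>
    (sq_eq_one_iff.1 ha).imp (fun e => Subtype.ext ((e ▸ h).ext dg_one))
      fun e => Subtype.ext ((e ▸ h).ext hz)
  have hαz : α (j ^ 2) = j ^ 2 := by
    refine (?_ : α (j ^ 2) = 1 ∨ _).resolve_left (α.map_ne_one_iff.2 hz1)
    rw [map_pow]
    obtain ⟨a, b, h, h' | h'⟩ := hc (α j)
    · have e1 := h'.pow 4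
      rw [← SubmonoidClass.coe_pow, ← map_pow, h4 (by simp) hj, map_one] at e1
      have e2 := (dg_one.inj e1).1
      have e3 : b ^ 2 = a ^ 2 := by linear_combination b ^ 2 * e2 + a ^ 2 * hpm h
      exact hs0 (a := a ^ 2) (e3 ▸ h'.pow 2) (by linear_combination -e2)
    · exact hs0 (hsq h') (hpm h)
  have hs : ∀ {x : T} {a}, Dg x.1 a a → a ^ 2 = 1 → α x = x := fun h ha =>
    (hs0 h ha).elim (fun e => by rw [e, map_one]) fun e => by rw [e, hαz]
  have hsq1 : ∀ {x : T} {a b}, Dg x.1 a b → x ^ 2 = 1 → a ^ 2 = 1 ∧ b ^ 2 = 1 := fun h hx => by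
    have := h.pow 2
    rw [← SubmonoidClass.coe_pow, hx] at this
    exact this.inj dg_one
  have hor : ∀ {a b : ZMod q}, a ^ 2 = 1 → b ^ 2 = 1 → b = a ∨ b = -a := fun ha hb =>
    sq_eq_sq_iff_eq_or_eq_neg.1 (hb.trans ha.symm)
  have hinv : ∀ {x : T}, x ^ 2 = 1 → x⁻¹ = x := fun h => inv_eq_iff_mul_eq_one.2 (by rwa [← sq])
  have hinv4 : ∀ {x : T}, x ^ 4 = 1 → ∀ y, x⁻¹ * y = x ^ 2 * (x * y) := fun {x} h y => by
    rw [← mul_assoc, ← pow_succ, inv_eq_of_mul_eq_one_right (by rwa [← pow_succ'])]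
  have hb : ∀ {x : T} {a b c d}, Dg x.1 a b → x ^ 2 = 1 → Dg (α x).1 c d → α x = x := by
    intro x a b c d h hx h'
    obtain ⟨ha, hb⟩ := hsq1 h hx
    obtain ⟨hc, hd⟩ := hsq1 h' (by rw [← map_pow, hx, map_one])
    rcases hor ha hb with rfl | rfl
    · exact hs h ha
    rcases hor hc hd with rfl | rfl
    · exact α.injective (hs h' hc)
    · exact key x (hs (a := a * c) (by simpa [hinv hx] using h.mul h')
        (by rw [mul_pow, ha, hc, one_mul]))
  suffices h : ∀ (x : T) a b, Dg x.1 a b → α x = x by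
    intro y
    obtain ⟨a, b, h1, h' | h'⟩ := hc y
    · exact h y a b h'
    obtain ⟨c, d, -, h'' | h''⟩ := hc (α y)
    · exact α.injective (h _ c d h'')
    · exact key y (h _ _ _ (by rw [hinv4 (h4 h1 h')]; exact (hsq h').mul (h'.mul h'')))
  by_cases hq3 : q = 3
  · subst hq3
    have e0 := zmod_three
    have hj' : ∀ (y : T) a b, An y.1 a b → a * b = -1 → α y = y := fun y a b h hab => by
      have e1 : y ^ 2 = j ^ 2 := Subtype.ext ((hab ▸ hsq h).ext hz)
      have e2 : α y ^ 2 = j ^ 2 := by rw [← map_pow, e1, hαz]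
      obtain ⟨c, d, h1, h' | h'⟩ := hc (α y)
      · have := h'.pow 2
        rw [← SubmonoidClass.coe_pow, e2, e0 c (hne h1).1] at this
        exact absurd (this.inj hz).1 h2
      have e3 : c * d = -1 := ((e2 ▸ hsq h').inj hz).1
      obtain ⟨e5, e6⟩ := zmod_three' a b c d hab e3
      refine key y ?_
      rw [hinv4 (h4 (Or.inr hab) h), map_mul, e1, hαz, hs (x := y * α y) (e5 ▸ h.mul h') e6]
    intro x a b h
    obtain ⟨a', b', h1, h' | h'⟩ := hc x
    swap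
    · exact absurd (h.not_an h') fun e => by
        simpa [e] using (x.1.map_eq_zero_iff (x := ![1, 0])).1 (by simp [h _, e])
    obtain ⟨rfl, rfl⟩ := h.inj h'
    have ha := e0 a (hne h1).1
    have hb' := e0 b (hne h1).2
    have hx : x ^ 2 = 1 := Subtype.ext ((ha ▸ hb' ▸ h.pow 2).ext dg_one)
    obtain ⟨c, d, h3, h'' | h''⟩ := hc (α x)
    · exact hb h hx h''
    rcases hor ha hb' with rfl | rfl
    · exact hs h ha
    have e3 : c * d = 1 := by
      have := hsq h''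
      rw [← map_pow, hx, map_one] at this
      exact (this.inj dg_one).1
    exact key x (hj' _ _ _ (by rw [hinv hx]; exact h.mul_an h'')
      (by linear_combination -a ^ 2 * e3 - ha))
  have h2' : (2 : ZMod q) ≠ 0 := fun e => h2 (by linear_combination e)
  obtain ⟨d, hd⟩ := exists_dg h2' (inv_ne_zero h2')
  lift d to T using (hT d).2 ⟨2, 1, h2', Or.inl rfl, Or.inl (by simpa [Dg] using hd)⟩
  have hd4 : d ^ 4 ≠ 1 := fun e => by
    have := hd.pow 4
    rw [← SubmonoidClass.coe_pow, e] at this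
    have h5 : q ∣ 3 * 5 := (ZMod.natCast_eq_zero_iff _ q).1 (by
      push_cast
      linear_combination (this.inj dg_one).1)
    rcases hq'.dvd_mul.1 h5 with e | e
    · exact hq3 ((Nat.prime_dvd_prime_iff_eq hq' Nat.prime_three).1 e)
    · exact hq5 ((Nat.prime_dvd_prime_iff_eq hq' Nat.prime_five).1 e)
  have hD0 : ∀ x : T, x ^ 4 ≠ 1 → ∃ a b, Dg (α x).1 a b := fun x hx => by
    obtain ⟨a, b, h, h'⟩ := hc (α x)
    exact ⟨a, b, h'.resolve_right fun h' => hx (by simpa [← map_pow] using h4 h h')⟩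
  have hinvD : ∀ {x : T} {a b}, Dg x.1 a b → ∃ c d, Dg (x⁻¹).1 c d := fun {x a b} h =>
    ⟨_, _, by
      rw [inv_eq_of_mul_eq_one_right (b := x ^ (orderOf x - 1)) (by
        rw [← pow_succ', Nat.sub_add_cancel (orderOf_pos x), pow_orderOf_eq_one])]
      exact h.pow _⟩
  have hcomm : ∀ {x y : T} {a b c d}, Dg x.1 a b → Dg y.1 c d → Commute x y :=
    fun {x y a b c d} h h' => Subtype.ext ((h.mul h').ext (mul_comm a c ▸ mul_comm b d ▸ h'.mul h))
  have hD : ∀ {x : T} {a b}, Dg x.1 a b → ∃ a b, Dg (α x).1 a b := fun {x a b} h => by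
    by_cases hx : x ^ 4 = 1
    · obtain ⟨a₁, b₁, h1⟩ := hD0 (x * d) (by rwa [(hcomm h hd).mul_pow, hx, one_mul])
      obtain ⟨a₂, b₂, h3⟩ := hD0 d hd4
      obtain ⟨a₃, b₃, h5⟩ := hinvD h3
      exact ⟨_, _, by simpa using h1.mul h5⟩
    · exact hD0 x hx
  suffices h : ∀ (k : ℕ) (x : T) a b, Dg x.1 a b → x ^ 2 ^ k = 1 → α x = x from fun x a b hx =>
    (hP x).elim fun k hk => h k x a b hx hk
  intro k
  induction k with
  | zero => intro x _ _ _ hx; rw [pow_zero, pow_one] at hx; rw [hx, map_one]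
  | succ k ih =>
    intro x a b h hx
    have e1 := ih (x ^ 2) _ _ (h.pow 2) (by rwa [← pow_mul, ← pow_succ'])
    obtain ⟨c, d, h'⟩ := hD h
    obtain ⟨a', b', h1⟩ := hinvD h
    have h3 : Dg (x⁻¹ * α x).1 _ _ := h1.mul h'
    obtain ⟨_, _, h5⟩ := hD h3
    exact key x (hb h3 (by rw [(hcomm h1 h').mul_pow, ← map_pow, e1]; simp) h5)

end Cfsg.Agent.S3382
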