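import Cfsg.Statements.S3419
import Cfsg.Agent.S3420

set_option autoImplicit false
open Cfsg

namespace Cfsg.Agent.S3419

open Subgroup Cfsg.Agent.GT Cfsg.Agent.Perm Cfsg.Agent.Perm.PG Cfsg.Agent.S3420

theorem adj_of_solvable {G : Type*} [Group G] [Finite G] [Group.IsSolvable G] {p q : ℕ}
    (hp : p.Prime) (hq : q.Prime) (hpq : q < p) (h1 : p ∣ Nat.card G) (h2 : ¬ p * p ∣ Nat.card G)
    (h3 : q ∣ Nat.card G) (h4 : ¬ q ^ 3 ∣ Nat.card G) (hd : ¬ q ∣ p - 1) (hd2 : q * q % p ≠ 1) :
    ∃ x : G, orderOf x = p * q := by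
  have := Fact.mk hp
  obtain ⟨K, hK1, hK2⟩ := exists_isPiHall {p, q} G
  have hdK : ∀ r : ℕ, r.Prime → r ∈ ({p, q} : Set ℕ) → r ∣ Nat.card G → r ∣ Nat.card K := by
    intro r hr h5 h6
    rw [← K.card_mul_index] at h6
    exact ((Nat.Prime.dvd_mul hr).1 h6).resolve_right (hK2 r hr h5)
  obtain ⟨P⟩ : Nonempty (Sylow p K) := inferInstance
  have hP : Nat.card P = p := card_eq_prime hp P.isPGroup'
    (P.ne_bot_of_dvd_card (hdK p hp (by simp) h1))
    fun h => h2 (h.trans (card_subgroup_dvd_card K))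
  have h5 : Nat.card (Sylow p K) = 1 := by
    have h6 := card_sylow_modEq_one p K
    have h7 := P.card_dvd_index
    obtain ⟨k, hk⟩ := (isPiNum_singleton_iff hq (P : Subgroup K).index_ne_zero_of_finite).1
      (isPiNum_iff.2 fun r hr h8 => by
        rcases hK1 r hr (h8.trans (P : Subgroup K).index_dvd_card) with h9 | h9
        · exact absurd (h9 ▸ h8) P.not_dvd_index
        · exact h9)
    rw [hk] at h7
    obtain ⟨j, -, hj⟩ := (Nat.dvd_prime_pow hq).1 h7
    have h8 : q ^ j ∣ Nat.card G := hj ▸ (P.card_dvd_index.trans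
      (P : Subgroup K).index_dvd_card).trans (card_subgroup_dvd_card K)
    rw [hj] at h6 ⊢
    rw [Nat.ModEq, Nat.mod_eq_of_lt hp.one_lt] at h6
    rcases j with _ | _ | _ | j
    · rfl
    · rw [zero_add, pow_one, Nat.mod_eq_of_lt hpq] at h6
      exact absurd h6 hq.one_lt.ne'
    · exact absurd (by rw [← h6]; ring_nf) hd2
    · exact absurd ((pow_dvd_pow _ (by omega)).trans h8) h4
  have h6 : (P : Subgroup K).Normal := by
    have : Subsingleton (Sylow p K) := (Nat.card_eq_one_iff_unique.1 h5).1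
    exact P.normal_of_subsingleton
  refine exists_orderOf_of_subgroup K (adj_of_card_prime hp hq hpq.ne' hP hd ?_)
  rw [normalizer_eq_top, card_top]
  exact hdK q hq (by simp) h3

/-- Let n ≥ 5 and let G be a finite group with the same order and the same set of element orders as the alternating group of degree n. Then G is not solvable. -/
theorem result {G : Type*} [Group G] [Finite G] (n : ℕ) (hn : 5 ≤ n)
    (hcard : Nat.card G = Nat.card ↥(alternatingGroup (Fin n)))
    (hspec : Set.range (orderOf : G → ℕ) = Set.range (orderOf : ↥(alternatingGroup (Fin n)) → ℕ)) :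
    ¬ Group.IsSolvable G := by
  intro hs
  by_cases h : 11 ≤ n
  · obtain ⟨N, H, _, -, -, h1, h2, -⟩ := S3420.result n h hcard hspec
    exact h2 ⟨⟨IsSimpleGroup.comm_iff_isSolvable.2 inferInstance⟩⟩
  have key : ∀ p q : ℕ, p.Prime → q.Prime → 2 < q → q < p → p ≤ n → n < 2 * p → n < 3 * q →
      n < p + q → ¬ q ∣ p - 1 → q * q % p ≠ 1 → False := by
    intro p q hp hq h0 h1 h2 h3 h4 h5 h6 h7
    refine not_adj hspec hp hq h1.ne' h5 (adj_of_solvable hp hq h1 ?_ ?_ ?_ ?_ h6 h7)
    · exact hcard ▸ dvd_alt hp (by omega) h2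
    · rw [hcard, ← sq]
      exact not_pow_dvd_alt hp (by omega) (by nlinarith) h3
    · exact hcard ▸ dvd_alt hq (by omega) (by omega)
    · rw [hcard]
      exact not_pow_dvd_alt hq (by omega) (by nlinarith) h4
  by_cases h6 : n ≤ 6
  · exact key 5 3 (by norm_num) (by norm_num) (by omega) (by omega) (by omega) (by omega)
      (by omega) (by omega) (by omega) (by omega)
  · exact key 7 5 (by norm_num) (by norm_num) (by omega) (by omega) (by omega) (by omega)
      (by omega) (by omega) (by omega) (by omega)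

end Cfsg.Agent.S3419
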