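import Cfsg.Statements.S3704
import Mathlib
import Cfsg.Agent.Perm.Basic
import Cfsg.Agent.Perm.Derange
import Cfsg.Agent.Perm.Intertwiner
import Cfsg.Agent.Ch.Decomp
import Cfsg.Agent.S0157
-- import your own Cfsg.Agent.* helpers here

set_option autoImplicit false
open Cfsg

namespace Cfsg.Agent.S3704

open MulAction Cfsg.Agent.Perm Cfsg.Agent.Perm.Der

/-- Let G be a finite group acting faithfully and 2-transitively on a finite set Ω of size n, and let H be a subgroup of index n in G which is not transitive on Ω and fixes no point of Ω. Then H has exactly two orbits on Ω. -/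
theorem result {G Ω : Type*} [Group G] [Finite G] [MulAction G Ω] [FaithfulSMul G Ω] [Finite Ω] (h2 : MulAction.IsMultiplyPretransitive G Ω 2) (H : Subgroup G) (hidx : H.index = Nat.card Ω) (hnt : ¬ MulAction.IsPretransitive H Ω) (hfix : ∀ a : Ω, ∃ h : H, h • a ≠ a) : Nat.card (MulAction.orbitRel.Quotient H Ω) = 2 := by
  have := Fintype.ofFinite G
  have hnt' : Nontrivial Ω := by
    by_contra h
    rw [not_nontrivial_iff_subsingleton] at h
    exact hnt ⟨fun a b => ⟨1, Subsingleton.elim _ _⟩⟩
  have hn : 2 ≤ Nat.card Ω := Finite.one_lt_card_iff_nontrivial.2 hnt'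
  have : IsPretransitive G Ω := isPretransitive_of_is_two_pretransitive
  have hχ := (S0157.result Ω hn).2 h2
  have hG : (Nat.card G : ℂ) ≠ 0 := by exact_mod_cast Nat.card_pos.ne'
  have s1 := sum_fix_of_trans (G := G) (Ω := Ω)
  have s2 := sum_fix_of_trans (G := G) (Ω := G ⧸ H)
  have s3 := sum_fix (G := G) ((G ⧸ H) × Ω)
  have hr : norb G ((G ⧸ H) × Ω) = norb H Ω := by
    rw [norb, card_orbits_prod_eq ((1 : G) : G ⧸ H), stabilizer_quotient]
    rfl
  simp only [fix_prod, hr] at s3
  have hρ := (Ch.isCharacter_permChar (G := G) (G ⧸ H)).sub_irr IsIrrCharacter.one (by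
    rw [S0157.inner_one]
    exact_mod_cast (norb_pos G (Ω := G ⧸ H)).ne')
  have hpos := norb_pos H (Ω := Ω)
  have key := hρ.mul_charDegree_irr_le hχ (k := norb H Ω - 1) (by
    have : classInner ((fun g => (Nat.card (fixedBy (G ⧸ H) g) : ℂ)) - fun _ : G => (1 : ℂ))
        (fun g : G => (Nat.card (fixedBy Ω g) : ℂ) - 1) = ((norb H Ω - 1 : ℕ) : ℂ) := by
      rw [classInner, inv_mul_eq_iff_eq_mul₀ hG, Nat.cast_sub hpos]
      have e : ∀ g : G, ((Nat.card (fixedBy (G ⧸ H) g) : ℂ) - 1) *
          (starRingEnd ℂ) ((Nat.card (fixedBy Ω g) : ℂ) - 1) =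
          ((fix (G ⧸ H) g * fix Ω g : ℕ) : ℂ) - (fix (G ⧸ H) g : ℕ) - (fix Ω g : ℕ) + 1 := by
        intro g
        simp only [fix, map_sub, map_natCast, map_one]
        push_cast
        ring
      simp only [Pi.sub_apply, e, Finset.sum_add_distrib, Finset.sum_sub_distrib, ← Nat.cast_sum, s1, s2, s3]
      simp only [Finset.sum_const, Finset.card_univ, ← Nat.card_eq_fintype_card]
      push_cast
      ring
    rw [this]
    simp)
  rw [Ch.charDegree_of_apply_one (n := Nat.card Ω - 1) (by
      rw [Nat.cast_sub (by omega)]; simp),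
    Ch.charDegree_of_apply_one (n := Nat.card Ω - 1) (by
      rw [Nat.cast_sub (by omega), ← hidx]; simp [Subgroup.index])] at key
  have h1 : norb H Ω - 1 ≤ 1 := by
    by_contra h
    have : 2 * (Nat.card Ω - 1) ≤ (norb H Ω - 1) * (Nat.card Ω - 1) :=
      Nat.mul_le_mul_right _ (by omega)
    omega
  have h3 : ¬ norb H Ω ≤ 1 := fun h => hnt (isPretransitive_of_norb_le_one H h)
  change norb H Ω = 2
  omega

end Cfsg.Agent.S3704
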