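import Mathlib
import Cfsg.Statements.S3733
-- import your own Cfsg.Agent.* helpers here

set_option autoImplicit false
open Cfsg

namespace Cfsg.Agent.S3733

open Subgroup
open scoped IsMulCommutative Classical

variable {G : Type*} [Group G]

/-- conjugation of `v` by `a` -/
noncomputable def cj (V : Subgroup G) (v : V) (a : G) : V :=
  if h : a ∈ normalizer (V : Set G) then V.normalizerMonoidHom ⟨a, h⟩ v else 1

theorem cj_one (V : Subgroup G) (v : V) : cj V v 1 = v := by
  rw [cj, dif_pos (one_mem _)]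
  exact Subtype.ext (by simp [normalizerMonoidHom_apply_apply_coe])

theorem norm_eq_one [Fintype G] (V : Subgroup G) [IsMulCommutative V] (v : V) {B : Subgroup G}
    (hB : B ≤ normalizer (V : Set G)) (h : V ⊓ centralizer (B : Set G) = ⊥) :
    ∏ b ∈ Finset.univ.filter (· ∈ B), cj V v b = 1 := by
  set w := ∏ b ∈ Finset.univ.filter (· ∈ B), cj V v b with hw
  have h1 : (w : G) ∈ V ⊓ centralizer (B : Set G) := by
    refine ⟨w.2, fun c hc => ?_⟩
    have h2 : V.normalizerMonoidHom ⟨c, hB hc⟩ w = w := by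
      rw [hw, map_prod]
      refine Finset.prod_bij (fun b _ => c * b) (fun b hb => ?_) (fun b _ b' _ e => ?_)
        (fun b hb => ?_) (fun b hb => ?_)
      · simp only [Finset.mem_filter, Finset.mem_univ, true_and] at hb ⊢
        exact mul_mem hc hb
      · exact mul_left_cancel e
      · simp only [Finset.mem_filter, Finset.mem_univ, true_and] at hb
        exact ⟨c⁻¹ * b, by simpa using mul_mem (inv_mem hc) hb, by simp⟩
      · simp only [Finset.mem_filter, Finset.mem_univ, true_and] at hb
        rw [cj, cj, dif_pos (hB hb), dif_pos (hB (mul_mem hc hb))]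
        exact Subtype.ext (by simp [normalizerMonoidHom_apply_apply_coe, mul_assoc])
    have h3 := congrArg Subtype.val h2
    rw [normalizerMonoidHom_apply_apply_coe] at h3
    exact mul_inv_eq_iff_eq_mul.1 h3
  rw [h, mem_bot] at h1
  exact Subtype.ext h1

theorem norm_split [Fintype G] (V : Subgroup G) [IsMulCommutative V] (v : V) (B : Subgroup G) :
    ∏ b ∈ Finset.univ.filter (· ∈ B), cj V v b =
      v * ∏ b ∈ Finset.univ.filter (fun b => b ∈ B ∧ b ≠ 1), cj V v b := by
  rw [← Finset.mul_prod_erase _ _ (show (1 : G) ∈ Finset.univ.filter (· ∈ B) by simp), cj_one]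
  congr 2
  ext x
  simp [and_comm]

/-- Let A and V be subgroups of a finite group with V abelian and nontrivial and A normalizing V. Suppose a nonempty finite family of proper subgroups of A partitions A: every non-identity element of A lies in exactly one member. If the number of members minus one is coprime to the order of V, then some member B of the family has a non-identity fixed point on V, that is V ∩ C(B) ≠ 1. -/
theorem result {G : Type*} [Group G] [Finite G] (A V : Subgroup G) (hVab : IsMulCommutative V) (hV : V ≠ ⊥) (hAV : A ≤ Subgroup.normalizer (V : Set G)) (𝒜 : Finset (Subgroup G)) (hne : 𝒜.Nonempty) (hprop : ∀ B ∈ 𝒜, B < A) (hpart : ∀ a ∈ A, a ≠ 1 → ∃! B, B ∈ 𝒜 ∧ a ∈ B) (hk : (𝒜.card - 1).Coprime (Nat.card V)) : ∃ B ∈ 𝒜, V ⊓ Subgroup.centralizer (B : Set G) ≠ ⊥ := by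
  by_contra hn
  push Not at hn
  have := Fintype.ofFinite G
  obtain ⟨v, hv⟩ := (ne_bot_iff_exists_ne_one).1 hV
  obtain ⟨B₀, hB₀⟩ := hne
  have hA : V ⊓ centralizer (A : Set G) = ⊥ := by
    rw [eq_bot_iff, ← hn B₀ hB₀]
    exact inf_le_inf_left _ (centralizer_le (hprop B₀ hB₀).le)
  have h1 := norm_eq_one V v hAV hA
  rw [norm_split] at h1
  have h2 : ∏ B ∈ 𝒜, ∏ b ∈ Finset.univ.filter (· ∈ B), cj V v b = 1 :=
    Finset.prod_eq_one fun B hB => norm_eq_one V v ((hprop B hB).le.trans hAV) (hn B hB)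
  simp only [norm_split, Finset.prod_mul_distrib, Finset.prod_const] at h2
  have h3 : ∏ B ∈ 𝒜, ∏ b ∈ Finset.univ.filter (fun b => b ∈ B ∧ b ≠ 1), cj V v b =
      ∏ b ∈ Finset.univ.filter (fun b => b ∈ A ∧ b ≠ 1), cj V v b := by
    rw [← Finset.prod_biUnion]
    · congr 1
      ext x
      simp only [Finset.mem_biUnion, Finset.mem_filter, Finset.mem_univ, true_and]
      constructor
      · rintro ⟨B, hB, hx, hx1⟩
        exact ⟨(hprop B hB).le hx, hx1⟩
      · rintro ⟨hx, hx1⟩
        obtain ⟨B, hB, -⟩ := hpart x hx hx1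
        exact ⟨B, hB.1, hB.2, hx1⟩
    · intro B hB C hC hBC
      rw [Function.onFun, Finset.disjoint_left]
      intro x hx hx'
      simp only [Finset.mem_filter, Finset.mem_univ, true_and] at hx hx'
      exact hBC ((hpart x ((hprop B hB).le hx.1) hx.2).unique ⟨hB, hx.1⟩ ⟨hC, hx'.1⟩)
  have h4 : 𝒜.card = (𝒜.card - 1) + 1 := by
    have := Finset.card_pos.2 ⟨B₀, hB₀⟩
    omega
  rw [h3, h4, pow_succ, mul_assoc, h1, mul_one] at h2
  exact hv (orderOf_eq_one_iff.1 (Nat.eq_one_of_dvd_coprimes hk (orderOf_dvd_of_pow_eq_one h2)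
    (orderOf_dvd_natCard v)))

end Cfsg.Agent.S3733
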