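import Mathlib
import Cfsg.Agent.GT.HallTools
import Cfsg.Agent.GT.PGroupBasic
import Cfsg.Statements.S3735
-- import your own Cfsg.Agent.* helpers here

set_option autoImplicit false
open Cfsg

namespace Cfsg.Agent.S3735

open Subgroup Cfsg.Agent.GT Cfsg.Agent.GT.HT Pointwise

variable {G : Type*} [Group G]

/-- minimal nontrivial `A`-invariant subgroups of `V` -/
def Mn (A V M : Subgroup G) : Prop :=
  M ≤ V ∧ A ≤ normalizer (M : Set G) ∧ M ≠ ⊥ ∧
    ∀ X ≤ M, A ≤ normalizer (X : Set G) → X ≠ ⊥ → X = M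

theorem inv_conj {A X : Subgroup G} (hX : A ≤ normalizer (X : Set G)) {h : G}
    (hh : h ∈ normalizer (A : Set G)) :
    A ≤ normalizer ((MulAut.conj h • X : Subgroup G) : Set G) := by
  rw [normalizer_conj_smul, ← conj_smul_eq_iff.2 hh]
  exact conj_smul_mono h hX

theorem ne_bot_conj {X : Subgroup G} (hX : X ≠ ⊥) (h : G) : MulAut.conj h • X ≠ ⊥ := by
  intro e
  apply hX
  rw [← conj_inv_smul_conj_smul h X, e, smul_bot]

theorem Mn.conj {A V M : Subgroup G} (hM : Mn A V M) {h : G} (hV : h ∈ normalizer (V : Set G))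
    (hA : h ∈ normalizer (A : Set G)) : Mn A V (MulAut.conj h • M) := by
  refine ⟨conj_smul_le_of_mem_normalizer hM.1 hV, inv_conj hM.2.1 hA, ne_bot_conj hM.2.2.1 h,
    fun X hX hAX hX1 => ?_⟩
  have := hM.2.2.2 (MulAut.conj h⁻¹ • X)
    (by rw [← conj_inv_smul_conj_smul h M]; exact conj_smul_mono _ hX)
    (inv_conj hAX (inv_mem hA)) (ne_bot_conj hX1 _)
  rw [← this, conj_smul_conj_inv_smul]

theorem exists_mn [Finite G] {A V W : Subgroup G} (hW : W ≤ V) (hA : A ≤ normalizer (W : Set G))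
    (h1 : W ≠ ⊥) : ∃ M ≤ W, Mn A V M := by
  obtain ⟨M, hM, hmin⟩ := (Set.toFinite
    {X : Subgroup G | X ≤ W ∧ A ≤ normalizer (X : Set G) ∧ X ≠ ⊥}).exists_minimal ⟨W, le_rfl, hA, h1⟩
  exact ⟨M, hM.1, hM.1.trans hW, hM.2.1, hM.2.2, fun X hX hAX hX1 =>
    le_antisymm hX (hmin ⟨hX.trans hM.1, hAX, hX1⟩ hX)⟩

/-- Clifford's Theorem for actions on finite abelian groups, first part. Let H and V be subgroups of a finite group with V abelian and H normalizing V, and let A be a normal subgroup of H. If every H-invariant subgroup of V has an H-invariant complement in V, then every A-invariant subgroup of V has an A-invariant complement in V. -/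
theorem result {G : Type*} [Group G] [Finite G] (H A V : Subgroup G) (hVab : IsMulCommutative V) (hHV : H ≤ Subgroup.normalizer (V : Set G)) (hAH : A ≤ H) (hAn : H ≤ Subgroup.normalizer (A : Set G)) (hss : ∀ U : Subgroup G, U ≤ V → H ≤ Subgroup.normalizer (U : Set G) → ∃ W : Subgroup G, W ≤ V ∧ H ≤ Subgroup.normalizer (W : Set G) ∧ U ⊓ W = ⊥ ∧ U ⊔ W = V) (U : Subgroup G) (hUV : U ≤ V) (hAU : A ≤ Subgroup.normalizer (U : Set G)) : ∃ W : Subgroup G, W ≤ V ∧ A ≤ Subgroup.normalizer (W : Set G) ∧ U ⊓ W = ⊥ ∧ U ⊔ W = V := by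
  set S : Subgroup G := ⨆ M : {M : Subgroup G // Mn A V M}, (M : Subgroup G) with hS
  have hle : ∀ M, Mn A V M → M ≤ S := fun M hM =>
    le_iSup (fun M : {M : Subgroup G // Mn A V M} => (M : Subgroup G)) ⟨M, hM⟩
  have hSV : S ≤ V := iSup_le fun M => M.2.1
  have hHS : H ≤ normalizer (S : Set G) := by
    intro h hh
    rw [← conj_smul_eq_iff]
    refine PG.eq_of_le_of_card_le ?_ (card_conj_smul _ _).ge
    rw [conj_smul_eq_map, hS, Subgroup.map_iSup]
    refine iSup_le fun M => ?_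
    rw [← conj_smul_eq_map]
    exact hle _ (M.2.conj (hHV hh) (hAn hh))
  have hSeq : S = V := by
    obtain ⟨W, hWV, hHW, hinf, hsup⟩ := hss S hSV hHS
    by_cases hW : W = ⊥
    · rwa [hW, sup_bot_eq] at hsup
    · obtain ⟨M, hMW, hM⟩ := exists_mn hWV (hAH.trans hHW) hW
      exact absurd (eq_bot_iff.2 (hinf ▸ le_inf (hle M hM) hMW)) hM.2.2.1
  obtain ⟨W, hW, hmax⟩ := (Set.toFinite
    {X : Subgroup G | X ≤ V ∧ A ≤ normalizer (X : Set G) ∧ U ⊓ X = ⊥}).exists_maximal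
    ⟨⊥, bot_le, by rw [normalizer_eq_top]; exact le_top, by simp⟩
  refine ⟨W, hW.1, hW.2.1, hW.2.2, le_antisymm (sup_le hUV hW.1) ?_⟩
  rw [← hSeq]
  refine iSup_le fun ⟨M, hM⟩ => ?_
  change M ≤ U ⊔ W
  by_cases h0 : M ⊓ (U ⊔ W) = ⊥
  · have hMW : M ≤ normalizer (W : Set G) := fun m hm =>
      PG.centralizer_le_normalizer' W fun w hw =>
        PG.isMulCommutative_iff_forall.1 hVab w (hW.1 hw) m (hM.1 hm)
    have h1 : W ⊔ M ≤ W := by
      refine hmax ⟨sup_le hW.1 hM.1, PG.le_normalizer_sup hW.2.1 hM.2.1, ?_⟩ le_sup_left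
      rw [eq_bot_iff]
      rintro u ⟨hu, hu'⟩
      obtain ⟨w, hw, m, hm, rfl⟩ := (mem_sup_of_le_normalizer hMW).1 hu'
      have h2 : m ∈ M ⊓ (U ⊔ W) := by
        refine ⟨hm, ?_⟩
        have := mul_mem (inv_mem (mem_sup_right hw : w ∈ U ⊔ W)) (mem_sup_left hu : w * m ∈ U ⊔ W)
        simpa using this
      rw [h0, mem_bot] at h2
      rw [h2, mul_one] at hu ⊢
      rw [← hW.2.2]
      exact ⟨hu, hw⟩
    exact (le_sup_right.trans h1).trans le_sup_right
  · exact inf_eq_left.1 (hM.2.2.2 _ inf_le_left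
      (PG.le_normalizer_inf hM.2.1 (PG.le_normalizer_sup hAU hW.2.1)) h0)

end Cfsg.Agent.S3735
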