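import Mathlib
import Cfsg.Statements.S3736
import Cfsg.Agent.GT.CoprimeNilp

set_option autoImplicit false
open Cfsg

namespace Cfsg.Agent.S3736

/-- The Hall–Higman reduction for a minimal non-trivial action. Let B, A and P be subgroups of a finite group with P a p-group, B normalizing P, and A a normal subgroup of B of order prime to p. Suppose A does not centralize P but centralizes every proper B-invariant subgroup of P. Then [P, A] = P; P is elementary abelian or special; B acts irreducibly on P/Φ(P), that is, the only B-invariant subgroups of P containing Φ(P) are Φ(P) and P; and if p is odd then every element of P has order dividing p. -/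
theorem result {X : Type*} [Group X] [Finite X] {p : ℕ} [Fact p.Prime] (B A P : Subgroup X) (hP : IsPGroup p P) (hBP : B ≤ Subgroup.normalizer (P : Set X)) (hAB : A ≤ B) (hAn : B ≤ Subgroup.normalizer (A : Set X)) (hAp : (Nat.card A).Coprime p) (hnt : ⁅P, A⁆ ≠ ⊥) (hmin : ∀ U : Subgroup X, U < P → B ≤ Subgroup.normalizer (U : Set X) → ⁅U, A⁆ = ⊥) : ⁅P, A⁆ = P ∧ (Cfsg.IsElementaryAbelian p P ∨ Cfsg.IsSpecial p ↥P) ∧ (∀ U : Subgroup X, (frattini ↥P).map P.subtype ≤ U → U ≤ P → B ≤ Subgroup.normalizer (U : Set X) → U = (frattini ↥P).map P.subtype ∨ U = P) ∧ (p ≠ 2 → ∀ x ∈ P, x ^ p = 1) := by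
  obtain ⟨h1, h2, h3, h4, h5, h6⟩ := GT.CopAct.minimal_action_structure hP hBP (hAB.trans hBP) hAn
    hAp hnt (fun U hU hB _ => hmin U hU hB)
  refine ⟨h1, ?_, ?_, h6⟩
  · rcases h5 with h5 | h5
    · left
      refine ⟨Subgroup.commutator_self_eq_bot_iff.1 h5, fun x hx => ?_⟩
      have := ((GT.PG.map_frattini_subtype_le_iff hP).1 h3.le).2 x hx
      rwa [h5, Subgroup.mem_bot] at this
    · right
      have hc : (Subgroup.center P).map P.subtype = ⁅P, P⁆ := by
        rw [← h5]
        ext x
        constructor
        · rintro ⟨y, hy, rfl⟩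
          exact ⟨y.2, fun g hg => congrArg Subtype.val (Subgroup.mem_center_iff.1 hy ⟨g, hg⟩)⟩
        · rintro ⟨hx, hx'⟩
          exact ⟨⟨x, hx⟩, Subgroup.mem_center_iff.2 fun g => Subtype.ext (hx' g g.2), rfl⟩
      refine ⟨hP, Subgroup.map_injective P.subtype_injective (h3.trans hc.symm),
        Subgroup.map_injective P.subtype_injective ?_⟩
      rw [hc, Subgroup.map_subtype_commutator]
  · intro U hU hUP hBU
    by_cases e : U = P
    · exact Or.inr e
    · left
      refine le_antisymm ?_ hU
      rw [h3, ← h2]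
      exact le_inf hUP (Subgroup.commutator_eq_bot_iff_le_centralizer.1
        (hmin U (lt_of_le_of_ne hUP e) hBU))

end Cfsg.Agent.S3736
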