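import Mathlib
import Cfsg.Agent.GT.PGroupGauss
import Cfsg.Agent.GT.CoprimeNilp
import Cfsg.Agent.GT.Conj
import Cfsg.Agent.GT.TransferAbelian
import Cfsg.Agent.GT.PGroupRank
import Cfsg.Statements.S3738
-- import your own Cfsg.Agent.* helpers here

set_option autoImplicit false
open Cfsg

namespace Cfsg.Agent.S3738

open Subgroup Cfsg.Agent.GT
open scoped commutatorElement

theorem card_dvd_sub {G : Type*} [Group G] [Finite G] {D Q Z : Subgroup G} (hZQ : Z ≤ Q)
    (hQ : D ≤ normalizer (Q : Set G)) (hZ : D ≤ normalizer (Z : Set G))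
    (h : ∀ x ∈ Q, x ∉ Z → D ⊓ centralizer {x} = ⊥) : Nat.card D ∣ Nat.card Q - Nat.card Z := by
  let _ : MulAction D ((Q : Set G) \ (Z : Set G) : Set G) :=
    { smul := fun g x => ⟨g * x * (g : G)⁻¹, (mem_normalizer_iff.1 (hQ g.2) _).1 x.2.1,
        fun hx => x.2.2 ((mem_normalizer_iff.1 (hZ g.2) _).2 hx)⟩
      one_smul := fun x => Subtype.ext (by change (1 : G) * x * (1 : G)⁻¹ = x; simp)
      mul_smul := fun a b x => Subtype.ext (by
        change (a * b : G) * x * (a * b : G)⁻¹ = a * (b * x * (b : G)⁻¹) * (a : G)⁻¹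
        group) }
  have e := MulAction.selfEquivOrbitsQuotientProd (G := D)
    (X := ((Q : Set G) \ (Z : Set G) : Set G)) (fun x => by
      rw [eq_bot_iff]
      intro g hg
      have h1 : (g : G) * x * (g : G)⁻¹ = x := congrArg Subtype.val hg
      have h2 : (g : G) ∈ D ⊓ centralizer {(x : G)} :=
        ⟨g.2, mem_centralizer_singleton_iff.2 (mul_inv_eq_iff_eq_mul.1 h1)⟩
      rw [h x x.2.1 x.2.2, mem_bot] at h2
      exact Subtype.ext h2)
  have h1 : Nat.card ((Q : Set G) \ (Z : Set G) : Set G) = Nat.card Q - Nat.card Z := by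
    rw [Nat.card_coe_set_eq, Set.ncard_diff hZQ]; rfl
  rw [← h1, Nat.card_congr e, Nat.card_prod]
  exact dvd_mul_left _ _

/-- Let d be a non-identity 3-element of a finite group and P a 2-subgroup normalized by d on which ⟨d⟩ acts faithfully (no non-identity power of d centralizes P) and without non-identity fixed points (C_P(d) = 1). If every abelian subgroup of P has 2-rank at most 2, then d has order 3. -/
theorem result {X : Type*} [Group X] [Finite X] (d : X) (n : ℕ) (hn : 1 ≤ n) (hd : orderOf d = 3 ^ n) (P : Subgroup X) (hP : IsPGroup 2 P) (hdP : d ∈ Subgroup.normalizer (P : Set X)) (hfaith : Subgroup.zpowers d ⊓ Subgroup.centralizer (P : Set X) = ⊥) (hfpf : P ⊓ Subgroup.centralizer {d} = ⊥) (hrank : ∀ V : Subgroup X, V ≤ P → IsMulCommutative V → Cfsg.PRankLE 2 2 V) : orderOf d = 3 := by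
  by_contra hne
  have : Fact (Nat.Prime 3) := ⟨Nat.prime_three⟩
  have hn2 : 2 ≤ n := by
    by_contra h
    obtain rfl : n = 1 := by omega
    exact hne (by simpa using hd)
  set D := zpowers d with hD
  set e := d ^ 3 ^ (n - 1) with he
  have hoe : orderOf e = 3 := by
    rw [he, orderOf_pow' _ (by positivity), hd, Nat.gcd_eq_right (pow_dvd_pow 3 (by omega)),
      Nat.pow_div (by omega) (by norm_num), show n - (n - 1) = 1 by omega, pow_one]
  set A := zpowers e with hA
  have hcA : Nat.card A = 3 := by rw [hA, Nat.card_zpowers, hoe]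
  have hcD : Nat.card D = 3 ^ n := by rw [hD, Nat.card_zpowers, hd]
  have hD3 : IsPGroup 3 D := IsPGroup.of_card hcD
  have hAD : A ≤ D := zpowers_le.2 (pow_mem (mem_zpowers d) _)
  have hDP : D ≤ normalizer (P : Set X) := zpowers_le.2 hdP
  have hA1 : A ≠ ⊥ := by
    intro h; rw [h, card_bot] at hcA; omega
  have hnt : ⁅P, A⁆ ≠ ⊥ := by
    intro h
    rw [commutator_comm, commutator_eq_bot_iff_le_centralizer] at h
    exact hA1 (eq_bot_iff.2 (hfaith ▸ le_inf hAD h))
  obtain ⟨Q, hQP, hDQ, hAQ, hQA, hmin⟩ :=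
    CopAct.exists_minimal_not_centralized hDP (hAD.trans hDP) hnt
  have hQ2 : IsPGroup 2 Q := hP.to_le hQP
  obtain ⟨-, h2, h3, h4, -, -⟩ := CopAct.minimal_action_structure hQ2 hDQ hAQ
    (le_normalizer_of_le_of_comm hAD) (by rw [hcA]; norm_num) hQA hmin
  set Z := ⁅Q, Q⁆ with hZ
  have hZQ : Z ≤ Q := h2 ▸ inf_le_left
  have hsq : ∀ x ∈ Q, x ^ 2 ∈ Z := by
    intro x hx
    rw [← h3]
    exact ⟨(⟨x, hx⟩ : Q) ^ 2, PG.pow_mem_frattini hQ2 _, rfl⟩
  have hZab : IsMulCommutative Z :=
    PG.isMulCommutative_iff_le_centralizer.2 (h4.trans (centralizer_anti hZQ))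
  have hZ2 : ∀ z ∈ Z, z ^ 2 = 1 := by
    have : Z ≤ PG.torsionOf 2 Z hZab := by
      refine commutator_le.2 fun x hx y hy => ⟨commutator_mem_commutator hx hy, ?_⟩
      rw [← CopAct.commutatorElement_pow_left_of_commute
        (CopAct.commute_commutatorElement_of_class_two h4 hx hy hx),
        commutatorElement_eq_one_iff_mul_comm]
      exact (h4 (hsq x hx) y hy).symm
    exact fun z hz => (this hz).2
  have hel : ∀ W ≤ Q, IsElementaryAbelian 2 W → Nat.card W ≤ 4 := fun W hW hWe =>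
    (hrank W (hW.trans hQP) hWe.1).card_le_of_le le_rfl hWe
  have hZe : IsElementaryAbelian 2 Z := ⟨hZab, hZ2⟩
  have hDZ : D ≤ normalizer (Z : Set X) := le_normalizer_commutator hDQ hDQ
  have hdvd : 9 ∣ Nat.card Q - Nat.card Z := by
    refine (show 9 ∣ Nat.card D from hcD ▸ pow_dvd_pow 3 hn2).trans
      (card_dvd_sub hZQ hDQ hDZ fun x hx hxZ => ?_)
    refine (Tr.eq_bot_or_eq_bot_of_isCyclic hD3 inferInstance hAD inf_le_left ?_).resolve_left hA1
    rcases PG.eq_or_eq_of_relIndex_prime Nat.prime_three bot_le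
      (inf_le_left : A ⊓ (D ⊓ centralizer {x}) ≤ A) (by rw [relIndex_bot_left, hcA]) with h | h
    · exact h
    · refine absurd ?_ hxZ
      rw [← h2]
      refine ⟨hx, fun a ha => ?_⟩
      exact mem_centralizer_singleton_iff.1 (h.ge ha).2.2
  have hmod : Nat.card Z ≡ 1 [MOD 3] := by
    have := card_modEq_card_inf_centralizer hD3 hDZ
    have h0 : Z ⊓ centralizer {d} = ⊥ :=
      eq_bot_iff.2 (hfpf ▸ inf_le_inf_right _ (hZQ.trans hQP))
    rwa [centralizer_zpowers, h0, card_bot] at this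
  have hlt : Nat.card Z < Nat.card Q := by
    refine PG.card_lt_of_lt (lt_of_le_of_ne hZQ fun h => hQA ?_)
    rw [commutator_eq_bot_iff_le_centralizer]
    exact (h2.trans h).ge.trans inf_le_right
  obtain ⟨m, hm⟩ := hQ2.exists_card_eq
  obtain ⟨k, hk⟩ := hZe.card_eq_pow
  have hk4 := hel Z hZQ hZe
  have hk2 : k ≤ 2 := (Nat.pow_le_pow_iff_right one_lt_two).1 (hk ▸ hk4)
  have hk1 : k ≠ 1 := by
    rintro rfl
    rw [hk] at hmod
    exact absurd hmod (by decide)
  obtain rfl | rfl : k = 0 ∨ k = 2 := by omega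
  · have hZ1 : Z = ⊥ := card_eq_one.1 hk
    have := hel Q le_rfl ⟨PG.isMulCommutative_iff_le_centralizer.2
      (commutator_eq_bot_iff_le_centralizer.1 hZ1), fun x hx => by simpa [hZ1] using hsq x hx⟩
    have := Nat.le_of_dvd (by omega) hdvd
    omega
  · have hinv : ∀ x ∈ Q, x ^ 2 = 1 → x ∈ Z := by
      intro x hx hx2
      have h5 := hZe.sup_zpowers hx2 (fun z hz => (h4 hz x hx).symm)
      have h6 := hel _ (sup_le hZQ (zpowers_le.2 hx)) h5
      rw [PG.eq_of_le_of_card_le (le_sup_left : Z ≤ Z ⊔ zpowers x) (by omega)]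
      exact mem_sup_right (mem_zpowers x)
    have h5 := (PG.card_le_cube_of_class_two hQ2 (by
        rw [_root_.commutator_def]
        refine commutator_le.2 fun x _ y _ => mem_center_iff.2 fun g => Subtype.ext ?_
        exact h4 (commutator_mem_commutator x.2 y.2) g g.2)
      (fun x => Subtype.ext (by
        have := hZ2 _ (hsq x x.2)
        rw [← pow_mul] at this
        exact this))
      (fun x y hx hy => Subtype.ext (hZ2 _ (mul_mem (hinv x x.2 (congrArg Subtype.val hx))
        (hinv y y.2 (congrArg Subtype.val hy)))))).1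
    have h6 : Nat.card {x : Q // x ^ 2 = 1} ≤ Nat.card Z :=
      Nat.card_le_card_of_injective
        (fun x => (⟨x.1, hinv _ x.1.2 (congrArg Subtype.val x.2)⟩ : Z))
        (fun x y h => Subtype.ext (Subtype.ext (congrArg (fun z : Z => (z : X)) h)))
    have h7 : Nat.card Q ≤ 2 ^ 6 := h5.trans ((Nat.pow_le_pow_left (h6.trans hk4) 3))
    have h8 : m ≤ 6 := (Nat.pow_le_pow_iff_right one_lt_two).1 (hm ▸ h7)
    rw [hm, hk] at hdvd hlt
    interval_cases m <;> omega

end Cfsg.Agent.S3738
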