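import Mathlib
import Cfsg.Agent.S3738
import Cfsg.Agent.GT.CoprimeGen
import Cfsg.Agent.GT.Cores
import Cfsg.Agent.GT.HallTools
import Cfsg.Statements.S3739
-- import your own Cfsg.Agent.* helpers here

set_option autoImplicit false
open Cfsg

namespace Cfsg.Agent.S3739

open Subgroup Cfsg.Agent.GT Cfsg.Agent.GT.HT Pointwise

variable {G : Type*} [Group G] [Finite G]

theorem mod_three {U : Subgroup G} {d : G} (hd : IsPGroup 3 (zpowers d))
    (hU : d ∈ normalizer (U : Set G)) :
    Nat.card U ≡ Nat.card (U ⊓ centralizer {d} : Subgroup G) [MOD 3] := by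
  have : Fact (Nat.Prime 3) := ⟨Nat.prime_three⟩
  have := card_modEq_card_inf_centralizer hd (zpowers_le.2 hU)
  rwa [centralizer_zpowers] at this

theorem four_cases {n : ℕ} (h : n ∣ 4) (h1 : n ≡ 1 [MOD 3]) : n = 1 ∨ n = 4 := by
  have := Nat.le_of_dvd (by norm_num) h
  interval_cases n <;> simp_all (config := {decide := true})

theorem sub_eq {U W : Subgroup G} {d : G} (hd : IsPGroup 3 (zpowers d)) (hW : Nat.card W = 4)
    (hUW : U ≤ W) (hU : d ∈ normalizer (U : Set G)) (hf : W ⊓ centralizer {d} = ⊥)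
    (h1 : U ≠ ⊥) : U = W := by
  have h2 := mod_three hd hU
  have h3 : U ⊓ centralizer {d} = ⊥ := eq_bot_iff.2 (hf ▸ inf_le_inf_right _ hUW)
  rw [h3, card_bot] at h2
  rcases four_cases (hW ▸ card_dvd_of_le hUW) h2 with h | h
  · exact absurd (card_eq_one.1 h) h1
  · exact PG.eq_of_le_of_card_le hUW (by omega)

theorem fix_cases {W : Subgroup G} {a : G} (ha : IsPGroup 3 (zpowers a)) (hW : Nat.card W = 4)
    (hU : a ∈ normalizer (W : Set G)) :
    W ⊓ centralizer {a} = ⊥ ∨ a ∈ centralizer (W : Set G) := by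
  have h2 := mod_three ha hU
  rw [hW] at h2
  rcases four_cases (hW ▸ card_dvd_of_le (inf_le_left : W ⊓ centralizer {a} ≤ W))
    (h2.symm.trans (by decide)) with h | h
  · exact Or.inl (card_eq_one.1 h)
  · refine Or.inr (le_centralizer_singleton_iff.1 ?_)
    exact (PG.eq_of_le_of_card_le (inf_le_left : W ⊓ centralizer {a} ≤ W)
      (by omega)).ge.trans inf_le_right

theorem inf_ne_bot {p : ℕ} [Fact p.Prime] {M H : Subgroup G} (hM : IsPGroup p M)
    (hH : IsPGroup p H) (h : H ≤ normalizer (M : Set G)) (h1 : M ≠ ⊥) :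
    M ⊓ centralizer (H : Set G) ≠ ⊥ := by
  obtain ⟨n, hn⟩ := PG.exists_iterCommutator_eq_bot_of_isPGroup hM hH h
  exact PG.inf_centralizer_ne_bot_of_iterCommutator hn h h1

/-- Let G be a finite group with C_G(O₂(G)) ≤ O₂(G) containing an element of order 6, and let d be a non-identity 3-element of G normalizing a nontrivial elementary abelian 2-subgroup W with C_W(d) = 1. Then G has an elementary abelian subgroup of order 8. -/
theorem result {G : Type*} [Group G] [Finite G] (hchar : Subgroup.centralizer (Cfsg.pCore 2 G : Set G) ≤ Cfsg.pCore 2 G) (hsix : ∃ g : G, orderOf g = 6) (d : G) (hd1 : d ≠ 1) (hd : IsPGroup 3 ↥(Subgroup.zpowers d)) (W : Subgroup G) (hW : Cfsg.IsElementaryAbelian 2 W) (hW1 : W ≠ ⊥) (hdW : d ∈ Subgroup.normalizer (W : Set G)) (hfpf : W ⊓ Subgroup.centralizer {d} = ⊥) : ∃ E : Subgroup G, Cfsg.IsElementaryAbelian 2 E ∧ Nat.card E = 8 := by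
  have : Fact (Nat.Prime 3) := ⟨Nat.prime_three⟩
  by_contra hE
  have hr : PRankLE 2 2 G := by
    by_contra h
    exact hE (PG.not_pRankLE_iff.1 h)
  have hW4 : Nat.card W = 4 := by
    obtain ⟨k, hk⟩ := hW.card_eq_pow
    have h1 := hr.card_le hW
    have h2 : k ≤ 2 := (Nat.pow_le_pow_iff_right one_lt_two).1 (hk ▸ h1)
    have h3 := mod_three hd hdW
    rw [hfpf, card_bot] at h3
    exact (four_cases (hk ▸ pow_dvd_pow 2 h2) h3).resolve_left fun h => hW1 (card_eq_one.1 h)
  have hinv : ∀ x ∈ centralizer (W : Set G), x ^ 2 = 1 → x ∈ W := by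
    intro x hx hx2
    have h6 := hr.card_le (hW.sup_zpowers hx2 hx)
    rw [PG.eq_of_le_of_card_le (le_sup_left : W ≤ W ⊔ zpowers x) (by omega)]
    exact mem_sup_right (mem_zpowers x)
  set Q := pCore 2 G with hQ
  have hQ2 : IsPGroup 2 Q := isPGroup_pCore 2
  have hQn : ∀ H : Subgroup G, H ≤ normalizer (Q : Set G) := fun H => by
    rw [normalizer_eq_top]; exact le_top
  have h23 : ∀ a : G, IsPGroup 3 (zpowers a) → a ∈ centralizer (Q : Set G) → a = 1 := by
    intro a ha hc
    have := IsPGroup.disjoint_of_ne 2 3 (by norm_num) _ _ hQ2 ha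
    exact disjoint_def.1 this (hchar hc) (mem_zpowers a)
  have hQ1 : Q ≠ ⊥ := by
    intro h
    exact hd1 (h23 d hd (by rw [h, centralizer_bot]; trivial))
  -- `W = Ω₁(Z(Q))`
  have hWZ : W ≤ Q ⊓ centralizer (Q : Set G) := by
    set R := W ⊔ Q
    have hR : IsPGroup 2 R := PG.isPGroup_sup_of_le_normalizer hW.isPGroup hQ2 (hQn W)
    set Z := Q ⊓ centralizer (R : Set G)
    have hZ1 : Z ≠ ⊥ := inf_ne_bot hQ2 hR (hQn R) hQ1
    have hdZ : zpowers d ≤ normalizer (Z : Set G) :=
      PG.le_normalizer_inf (hQn _) (PG.le_normalizer_centralizer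
        (PG.le_normalizer_sup (zpowers_le.2 hdW) (hQn _)))
    have h1 : omegaOne 2 Z = W := by
      refine sub_eq hd hW4 (PG.omegaOne_le_iff.2 fun x hx hx2 => hinv x ?_ hx2)
        (PG.normalizer_le_normalizer_omegaOne Z (zpowers_le.1 hdZ)) hfpf
        (PG.omegaOne_ne_bot (hQ2.to_le inf_le_left) hZ1)
      exact centralizer_anti (le_sup_left : W ≤ R) hx.2
    rw [← h1]
    exact (PG.omegaOne_le Z).trans (inf_le_inf_left _ (centralizer_anti le_sup_right))
  have hQW : Q ≤ centralizer (W : Set G) := le_centralizer_iff.1 (hWZ.trans inf_le_right)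
  have hWeq : omegaOne 2 Q = W :=
    le_antisymm (PG.omegaOne_le_iff.2 fun x hx hx2 => hinv x (hQW hx) hx2)
      (hW.le_omegaOne (hWZ.trans inf_le_left))
  have hWn : W.Normal := hWeq ▸ inferInstance
  have hNW : ∀ a : G, a ∈ normalizer (W : Set G) := fun a => by rw [normalizer_eq_top]; trivial
  have hfQ : ∀ a : G, W ⊓ centralizer {a} = ⊥ → Q ⊓ centralizer {a} = ⊥ := by
    intro a ha
    by_contra h
    refine PG.omegaOne_ne_bot (hQ2.to_le (inf_le_left : Q ⊓ centralizer {a} ≤ Q)) h ?_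
    rw [eq_bot_iff, ← ha, ← hWeq]
    exact le_inf (PG.omegaOne_mono inf_le_left) ((PG.omegaOne_le _).trans inf_le_right)
  have hd3 : orderOf d = 3 := by
    obtain ⟨n, hn⟩ := hd.exists_card_eq
    rw [Nat.card_zpowers] at hn
    refine S3738.result d n ?_ hn Q hQ2 (hQn _ (mem_zpowers d)) ?_ (hfQ d hfpf)
      fun V _ _ => hr.subgroup V
    · rcases n with _ | n
      · exact absurd (orderOf_eq_one_iff.1 hn) hd1
      · omega
    · rw [eq_bot_iff]
      intro a ha
      exact h23 a (hd.to_le (zpowers_le.2 ha.1)) ha.2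
  obtain ⟨g, hg⟩ := hsix
  have ht : orderOf (g ^ 3) = 2 := by rw [orderOf_pow' _ (by norm_num), hg]; norm_num
  have hx : orderOf (g ^ 2) = 3 := by rw [orderOf_pow' _ (by norm_num), hg]; norm_num
  have hx3 : IsPGroup 3 (zpowers (g ^ 2)) := IsPGroup.of_card (n := 1) (by rw [Nat.card_zpowers, hx]; rfl)
  rcases fix_cases hx3 hW4 (hNW _) with h | h
  · have h1 : IsPGroup 2 (zpowers (g ^ 3)) :=
      IsPGroup.of_card (n := 1) (by rw [Nat.card_zpowers, ht]; rfl)
    have h2 := sub_eq hx3 hW4 inf_le_left (zpowers_le.1 (PG.le_normalizer_inf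
      (zpowers_le.2 (hNW _)) (PG.le_normalizer_centralizer (le_normalizer_of_le_centralizer (by
        rw [centralizer_zpowers, zpowers_le, mem_centralizer_singleton_iff, ← pow_add, ← pow_add])))))
      h (inf_ne_bot hW.isPGroup h1 (zpowers_le.2 (hNW _)) hW1)
    have h3 : g ^ 3 ∈ centralizer (W : Set G) := by
      rw [← le_centralizer_singleton_iff, ← centralizer_zpowers]
      exact h2.ge.trans inf_le_right
    have h4 : g ^ 3 ∈ W ⊓ centralizer {g ^ 2} :=
      mem_inf.2 ⟨hinv _ h3 (ht ▸ pow_orderOf_eq_one _), by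
        rw [mem_centralizer_singleton_iff, ← pow_add, ← pow_add]⟩
    rw [h, mem_bot] at h4
    rw [h4, orderOf_one] at ht
    omega
  · obtain ⟨S, hS⟩ := hd.exists_le_sylow
    set C := centralizer (W : Set G)
    obtain ⟨c, -, hc⟩ := exists_conj_le_of_isPGroup (le_top : zpowers (g ^ 2) ≤ ⊤) hx3 S.2
      (by rw [relIndex_top_right]; exact S.not_dvd_index)
    have h1 : (S : Subgroup G) ⊓ C ≠ ⊥ := by
      intro e
      have h2 : c * g ^ 2 * c⁻¹ ∈ (S : Subgroup G) ⊓ C :=
        ⟨hc (conj_mem_conj_smul c (mem_zpowers _)), Normal.conj_mem inferInstance _ h c⟩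
      rw [e, mem_bot] at h2
      have := orderOf_conj (g ^ 2) c
      rw [h2, orderOf_one, hx] at this
      omega
    have hSC : IsPGroup 3 ((S : Subgroup G) ⊓ C : Subgroup G) := S.2.to_le inf_le_left
    have h2 := inf_ne_bot hSC hd (PG.le_normalizer_inf (hS.trans le_normalizer)
      (by rw [normalizer_eq_top]; exact le_top)) h1
    have h3 := PG.omegaOne_ne_bot (hSC.to_le inf_le_left) h2
    obtain ⟨y, hy, hy3, hy1⟩ : ∃ y ∈ (S : Subgroup G) ⊓ C ⊓ centralizer (zpowers d : Set G),
        y ^ 3 = 1 ∧ y ≠ 1 := by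
      by_contra hcon
      push Not at hcon
      exact h3 (eq_bot_iff.2 (PG.omegaOne_le_iff.2 fun x hx hx3 => hcon x hx hx3))
    have hoy : orderOf y = 3 := orderOf_eq_prime hy3 hy1
    have hdy : d ∈ centralizer (zpowers y : Set G) := by
      rw [centralizer_zpowers, mem_centralizer_singleton_iff]
      exact hy.2 d (mem_zpowers d)
    have hd' : d ^ 3 = 1 := hd3 ▸ pow_orderOf_eq_one d
    have hdC : d ∉ C := by
      intro hdc
      refine hW1 ?_
      rw [← hfpf, eq_comm, inf_eq_left]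
      exact le_centralizer_singleton_iff.2 hdc
    have hEa := (IsElementaryAbelian.zpowers hy3).sup_zpowers hd' hdy
    have hdy' : d ∉ zpowers y := fun h => hdC (zpowers_le.2 hy.1.2 h)
    have hdN : d ∈ normalizer (zpowers y : Set G) := PG.centralizer_le_normalizer' _ hdy
    have hcard : Nat.card (zpowers y ⊔ zpowers d : Subgroup G) = 3 ^ 2 := by
      rw [PG.card_sup_zpowers Nat.prime_three hdN hdy' (by rw [hd']; exact one_mem _),
        Nat.card_zpowers, hoy]; rfl
    have h4 : Q ≤ centralizer {y} := by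
      refine CopAct.le_of_centralizer_elt_le hEa.1 (hEa.not_isCyclic hcard le_rfl) (hQn _) ?_
        fun a ha ha1 => ?_
      · obtain ⟨m, hm⟩ := hQ2.exists_card_eq
        rw [hcard, hm]
        exact Nat.Coprime.pow _ _ (by norm_num)
      · rcases fix_cases (hEa.isPGroup.to_le (zpowers_le.2 ha)) hW4 (hNW a) with h5 | h5
        · rw [hfQ a h5]; exact bot_le
        · obtain ⟨u, hu, i, rfl⟩ := (PG.mem_sup_zpowers_of_mem_normalizer hdN).1 ha
          have h6 : d ^ i ∈ C := by
            have := mul_mem (inv_mem (zpowers_le.2 hy.1.2 hu)) h5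
            simpa using this
          obtain ⟨j, rfl⟩ := (PG.zpow_mem_iff_of_pow_prime_mem Nat.prime_three hdC
            (by rw [hd']; exact one_mem _) i).1 h6
          rw [zpow_mul, zpow_natCast, hd', one_zpow, mul_one] at ha1 ⊢
          rcases PG.eq_or_eq_of_relIndex_prime Nat.prime_three bot_le (zpowers_le.2 hu)
            (by rw [relIndex_bot_left, Nat.card_zpowers, hoy]) with h7 | h7
          · exact absurd (zpowers_eq_bot.1 h7) ha1
          · rw [← centralizer_zpowers, ← centralizer_zpowers y, h7]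
            exact inf_le_right
    exact hy1 (h23 y (IsElementaryAbelian.zpowers hy3).isPGroup (le_centralizer_singleton_iff.1 h4))

end Cfsg.Agent.S3739
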