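import Mathlib
import Cfsg.Agent.GT.QuadSL2
import Cfsg.Agent.GT.TransferSL23
import Cfsg.Agent.GT.CoprimeSylow
import Cfsg.Agent.GT.PGroupCyclicNormal
import Cfsg.Agent.GT.Conj
import Cfsg.Statements.S3740
-- import your own Cfsg.Agent.* helpers here

set_option autoImplicit false
open Cfsg

namespace Cfsg.Agent.S3740

open Subgroup Cfsg.Agent.GT Matrix
open scoped MatrixGroups

variable {F : Type} [Field F] {p : ℕ}

theorem det_eq (u : SL(2, F)) : u 0 0 * u 1 1 - u 0 1 * u 1 0 = 1 := by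
  have := u.det_coe
  rwa [Matrix.det_fin_two] at this

theorem pow_of_trace [CharP F p] {u : SL(2, F)} (h : u 0 0 + u 1 1 = 2) : u ^ p = 1 := by
  have hd := det_eq u
  have : (u : Matrix (Fin 2) (Fin 2) F) ^ p = 1 := by
    refine pow_char_eq_one_of_sq_sub_one (K := F) ?_
    ext i j
    fin_cases i <;> fin_cases j <;> simp [Matrix.mul_apply, Fin.sum_univ_two, Matrix.one_apply]
    · linear_combination (u 0 0) * h - hd
    · linear_combination (u 0 1) * h
    · linear_combination (u 1 0) * h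
    · linear_combination (u 1 1) * h - hd
  exact Subtype.ext ((Matrix.SpecialLinearGroup.coe_pow u p).trans this)

theorem eq_one_of_trace [CharP F p] {R : Subgroup SL(2, F)} (hR : (Nat.card R).Coprime p)
    {u : SL(2, F)} (hu : u ∈ R) (h : u 0 0 + u 1 1 = 2) : u = 1 :=
  orderOf_eq_one_iff.1 (Nat.eq_one_of_dvd_coprimes hR (orderOf_dvd_natCard R hu)
    (orderOf_dvd_of_pow_eq_one (pow_of_trace h)))

theorem mul_app (u v : SL(2, F)) (i j : Fin 2) :
    (u * v) i j = u i 0 * v 0 j + u i 1 * v 1 j := by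
  simp [Matrix.mul_apply, Fin.sum_univ_two]

theorem trace_comm (a s : SL(2, F)) :
    (a * s) 0 0 + (a * s) 1 1 = (s * a) 0 0 + (s * a) 1 1 := by
  simp only [mul_app]; ring

theorem trace_conj (a s : SL(2, F)) :
    (a * s * a⁻¹) 0 0 + (a * s * a⁻¹) 1 1 = s 0 0 + s 1 1 := by
  rw [trace_comm, ← mul_assoc, inv_mul_cancel, one_mul]

theorem eq_or_eq_inv [CharP F p] {R : Subgroup SL(2, F)} (hR : (Nat.card R).Coprime p)
    {s t : SL(2, F)} (hs : s ∈ R) (ht : t ∈ R) (hc : s * t = t * s)
    (h : t 0 0 + t 1 1 = s 0 0 + s 1 1) : t = s ∨ t = s⁻¹ := by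
  have ds := det_eq s
  have dt := det_eq t
  have c0 := congrArg (fun u : SL(2, F) => u 0 0) hc
  have c1 := congrArg (fun u : SL(2, F) => u 0 1) hc
  simp only [mul_app] at c0 c1
  have e1 : (t * s⁻¹) 0 0 + (t * s⁻¹) 1 1 =
      t 0 0 * s 1 1 - t 0 1 * s 1 0 - t 1 0 * s 0 1 + t 1 1 * s 0 0 := by
    simp only [mul_app]
    rw [Matrix.SpecialLinearGroup.coe_inv, Matrix.adjugate_fin_two]
    simp
    ring
  have key : ((t * s⁻¹) 0 0 + (t * s⁻¹) 1 1 - 2) * ((t * s) 0 0 + (t * s) 1 1 - 2) = 0 := by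
    rw [e1]
    simp only [mul_app]
    generalize s 0 0 = a, s 0 1 = b, s 1 0 = c, s 1 1 = d, t 0 0 = x, t 0 1 = y, t 1 0 = z,
      t 1 1 = w at *
    have p0 : (x - a) * (x - d) + (y - b) * (z + c) = 0 := by
      linear_combination x * h + ds - dt - c0
    have p1 : (x - a) * (y + b) + (y - b) * (w - a) = 0 := by
      linear_combination y * h - c1
    have p2 : ((x - a) * (w - d) - (y - b) * (z - c)) *
        ((x - d) * (w - a) - (y + b) * (z + c)) = 0 := by
      linear_combination ((z - c) * (y + b) + (w - d) * (w - a)) * p0 -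
        ((z - c) * (x - d) + (w - d) * (z + c)) * p1
    have q1 : (x - a) * (w - d) - (y - b) * (z - c) = -(x * d - y * c - z * b + w * a - 2) := by
      linear_combination ds + dt
    have q2 : (x - d) * (w - a) - (y + b) * (z + c) = -(x * a + y * c + (z * b + w * d) - 2) := by
      linear_combination ds + dt
    rwa [q1, q2, neg_mul_neg] at p2
  rcases mul_eq_zero.1 key with h1 | h1
  · exact Or.inl (mul_inv_eq_one.1 (eq_one_of_trace hR (mul_mem ht (inv_mem hs))
      (sub_eq_zero.1 h1)))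
  · exact Or.inr (eq_inv_of_mul_eq_one_left (eq_one_of_trace hR (mul_mem ht hs)
      (sub_eq_zero.1 h1)))

theorem cent_of_abelian [CharP F p] {R S : Subgroup SL(2, F)} (hR : (Nat.card R).Coprime p)
    (hSR : S ≤ R) (hS : IsMulCommutative S) {a : SL(2, F)} (ha : Odd (orderOf a))
    (haS : a ∈ normalizer (S : Set SL(2, F))) : a ∈ centralizer (S : Set SL(2, F)) := by
  intro s hs
  have h1 := (mem_normalizer_iff.1 haS s).1 hs
  rcases eq_or_eq_inv hR (hSR hs) (hSR h1) (PG.isMulCommutative_iff_forall.1 hS _ hs _ h1)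
    (trace_conj a s) with h | h
  · exact (mul_inv_eq_iff_eq_mul.1 h).symm
  · have h2 : Commute s (a ^ 2) := by
      have : a * (a * s * a⁻¹) * a⁻¹ = s := by
        rw [h, ← conj_inv, h, inv_inv]
      rw [Commute, SemiconjBy, sq]
      conv_lhs => rw [← this]
      group
    obtain ⟨k, hk⟩ := ha
    have h3 : a = (a ^ 2) ^ (k + 1) := by
      rw [← pow_mul, show 2 * (k + 1) = orderOf a + 1 by omega, pow_succ, pow_orderOf_eq_one,
        one_mul]
    rw [h3]
    exact h2.pow_right _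

theorem sq_eq_one_of_comm [CharP F p] {R : Subgroup SL(2, F)} (hR : (Nat.card R).Coprime p)
    {a r : SL(2, F)} (ha : a 0 0 + a 1 1 = 2) (ha1 : a ≠ 1) (hr : r ∈ R) (hc : r * a = a * r) :
    r ^ 2 = 1 := by
  refine eq_one_of_trace hR (pow_mem hr 2) ?_
  have da := det_eq a
  have dr := det_eq r
  have c0 := congrArg (fun u : SL(2, F) => u 0 0) hc
  have c1 := congrArg (fun u : SL(2, F) => u 0 1) hc
  have c2 := congrArg (fun u : SL(2, F) => u 1 0) hc
  simp only [mul_app] at c0 c1 c2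
  rw [sq]
  simp only [mul_app]
  have hbc : a 0 1 ≠ 0 ∨ a 1 0 ≠ 0 := by
    by_contra hcon
    push Not at hcon
    have h1 : (a 0 0 - 1) ^ 2 = 0 := by
      linear_combination (a 0 0) * ha - da - (a 0 1) * hcon.2
    have h2 : a 0 0 = 1 := sub_eq_zero.1 (pow_eq_zero_iff two_ne_zero |>.1 h1)
    have h3 : a 1 1 = 1 := by linear_combination ha - h2
    apply ha1
    ext i j
    fin_cases i <;> fin_cases j <;> simp [h2, h3, hcon.1, hcon.2]
  generalize a 0 0 = a, a 0 1 = b, a 1 0 = c, a 1 1 = d, r 0 0 = x, r 0 1 = y, r 1 0 = z,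
      r 1 1 = w at *
  have hd : (a - d) ^ 2 + 4 * b * c = 0 := by linear_combination (a + d + 2) * ha - 4 * da
  have h1 : (x - w) ^ 2 + 4 * y * z = 0 := by
    rcases hbc with h | h
    · refine mul_left_cancel₀ (pow_ne_zero 2 h) ?_
      linear_combination y ^ 2 * hd + (b * (x - w) + y * (a - d)) * c1 - 4 * b * y * c0
    · refine mul_left_cancel₀ (pow_ne_zero 2 h) ?_
      linear_combination z ^ 2 * hd - (c * (x - w) + z * (a - d)) * c2 + 4 * c * z * c0
  linear_combination h1 + 2 * dr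

theorem eq_neg_one (h2 : (2 : F) ≠ 0) {u : SL(2, F)} (hu : orderOf u = 2) : u = -1 := by
  have h : u * u = 1 := by
    have := pow_orderOf_eq_one u
    rwa [hu, sq] at this
  have h1 : u ≠ 1 := by rintro rfl; simp at hu
  have du := det_eq u
  have c0 := congrArg (fun u : SL(2, F) => u 0 0) h
  have c1 := congrArg (fun u : SL(2, F) => u 0 1) h
  have c2 := congrArg (fun u : SL(2, F) => u 1 0) h
  simp only [mul_app] at c0 c1 c2
  simp at c0 c1 c2
  have ht : u 0 0 + u 1 1 ≠ 0 := fun e => h2 (by linear_combination -c0 - du + (u 0 0) * e)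
  have hb : u 0 1 = 0 := mul_left_cancel₀ ht (by linear_combination c1)
  have hc : u 1 0 = 0 := mul_left_cancel₀ ht (by linear_combination c2)
  have h3 : (u 0 0 - 1) * (u 0 0 + 1) = 0 := by linear_combination c0 - (u 1 0) * hb
  rcases mul_eq_zero.1 h3 with h4 | h4
  · have h5 : u 0 0 = 1 := by linear_combination h4
    have h6 : u 1 1 = 1 := by linear_combination du - (u 1 1) * h5 + (u 1 0) * hb
    refine absurd ?_ h1
    ext i j
    fin_cases i <;> fin_cases j <;> simp [h5, h6, hb, hc]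
  · have h5 : u 0 0 = -1 := by linear_combination h4
    have h6 : u 1 1 = -1 := by linear_combination -du + (u 1 1) * h5 - (u 1 0) * hb
    ext i j
    fin_cases i <;> fin_cases j <;> simp [h5, h6, hb, hc]

/-- Let F be a finite field of odd characteristic p and let a be a p-element of SL₂(F) normalizing a subgroup R of order prime to p with [R, a] ≠ 1. Then p = 3, R is a quaternion group of order 8, and R⟨a⟩ is isomorphic to SL₂(3). -/
theorem result (F : Type) [Field F] [Fintype F] {p : ℕ} [Fact p.Prime] [CharP F p] (hp : p ≠ 2) (a : Matrix.SpecialLinearGroup (Fin 2) F) (ha : IsPGroup p ↥(Subgroup.zpowers a)) (R : Subgroup (Matrix.SpecialLinearGroup (Fin 2) F)) (hR : (Nat.card R).Coprime p) (haR : a ∈ Subgroup.normalizer (R : Set (Matrix.SpecialLinearGroup (Fin 2) F))) (hnt : ⁅R, Subgroup.zpowers a⁆ ≠ ⊥) : p = 3 ∧ Nonempty (↥R ≃* QuaternionGroup 2) ∧ Nonempty (↥(R ⊔ Subgroup.zpowers a) ≃* Matrix.SpecialLinearGroup (Fin 2) (ZMod 3)) := by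
  have hpp : p.Prime := Fact.out
  have h2 : (2 : F) ≠ 0 := by
    intro h
    have := (CharP.cast_eq_zero_iff F p 2).1 (by exact_mod_cast h)
    exact hp ((Nat.prime_dvd_prime_iff_eq hpp Nat.prime_two).1 this)
  obtain ⟨k, hk⟩ := ha ⟨a, mem_zpowers a⟩
  have htr := trace_eq_two_of_pow_eq_one (A := a) (congrArg Subtype.val hk)
  have hap : a ^ p = 1 := pow_of_trace htr
  have hac : a ∉ centralizer (R : Set SL(2, F)) := by
    intro h
    rw [commutator_comm, Ne, commutator_eq_bot_iff_le_centralizer] at hnt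
    exact hnt (zpowers_le.2 h)
  have ha1 : a ≠ 1 := by rintro rfl; exact hac (one_mem _)
  have hoa : orderOf a = p := orderOf_eq_prime hap ha1
  have hodd : Odd (orderOf a) := hoa ▸ hpp.odd_of_ne_two hp
  have hchar : ∀ (S : Subgroup SL(2, F)) (Z : Subgroup S) [Z.Characteristic], S ≤ R →
      a ∈ normalizer (S : Set SL(2, F)) → IsMulCommutative Z → ∀ z ∈ Z, z ^ 2 = 1 := by
    intro S Z _ hS haS hZ z hz
    have := cent_of_abelian hR ((map_subtype_le Z).trans hS) inferInstance hodd
      (normalizer_le_normalizer_map_subtype S Z haS)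
    exact Subtype.ext (sq_eq_one_of_comm hR htr ha1 (hS z.2) (this z ⟨z, hz, rfl⟩))
  have hR2 : IsPGroup 2 R := by
    rw [IsPGroup.iff_card]
    refine ⟨_, Nat.eq_prime_pow_of_unique_prime_dvd Nat.card_pos.ne' fun {r} hr hd => ?_⟩
    have := Fact.mk hr
    obtain ⟨S, hS⟩ := CopAct.exists_invariant_sylow (zpowers_le.2 haR)
      (by rw [Nat.card_zpowers, hoa]; exact hR.symm) (Or.inl inferInstance) r
    have hSp : IsPGroup r ((S : Subgroup R).map R.subtype) := S.2.map _
    have : Nontrivial ((S : Subgroup R).map R.subtype) := by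
      rw [nontrivial_iff_ne_bot, Ne, map_eq_bot_iff_of_injective _ R.subtype_injective]
      exact S.ne_bot_of_dvd_card hd
    have := hSp.center_nontrivial
    obtain ⟨z, hz⟩ := exists_ne (1 : center ((S : Subgroup R).map R.subtype))
    have h3 := hchar _ (center _) (map_subtype_le _) (hS (mem_zpowers a)) inferInstance z z.2
    have h4 : orderOf z = 2 := orderOf_eq_prime (Subtype.ext h3) hz
    obtain ⟨j, hj⟩ := hSp.to_subgroup _ z
    exact ((Nat.prime_dvd_prime_iff_eq Nat.prime_two hr).1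
      (Nat.prime_two.dvd_of_dvd_pow (h4 ▸ orderOf_dvd_of_pow_eq_one hj))).symm
  have hrk : PRankLE 2 1 R := Tr.pRankLE_one_of_unique_involution fun x y hx hy =>
    Subtype.ext ((eq_neg_one h2 (by rwa [orderOf_coe])).trans
      (eq_neg_one h2 (by rwa [orderOf_coe])).symm)
  rcases PG.isCyclic_or_quaternion_of_pRankLE_one hR2 hrk with hc | ⟨-, m, hm, ⟨e⟩⟩
  · exact absurd (cent_of_abelian hR le_rfl inferInstance hodd haR) hac
  obtain ⟨x, y, hxy, -⟩ := PG.exists_maxTwo_of_quaternion hm e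
  have hm1 : m = 1 := by
    have h3 := hchar R (frattini R) le_rfl haR (by rw [hxy.frattini_eq]; infer_instance) (x ^ 2)
      (by rw [hxy.frattini_eq]; exact mem_zpowers _)
    have h4 := orderOf_dvd_of_pow_eq_one h3
    rw [hxy.orderOf_sq] at h4
    have := (Nat.pow_dvd_pow_iff_le_right one_lt_two).1 (h4.trans (pow_one 2).symm.dvd)
    omega
  subst hm1
  have e' : R ≃* QuaternionGroup 2 := e
  have hcop : (orderOf a).Coprime 2 := Nat.coprime_two_right.2 hodd
  have hp3 : p = 3 := by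
    have h3 : R.normalizerMonoidHom ⟨a, haR⟩ ^ 3 = 1 := Tr.pow_three_eq_one_of_quaternion e'
      (Nat.Coprime.coprime_dvd_left (orderOf_map_dvd _ _) (by rwa [← Subgroup.orderOf_coe]))
    have : Fact (Nat.Prime 3) := ⟨Nat.prime_three⟩
    have h4 := orderOf_eq_prime h3 (Tr.normalizerMonoidHom_ne_one haR hac)
    have h5 := orderOf_map_dvd R.normalizerMonoidHom ⟨a, haR⟩
    rw [h4, ← Subgroup.orderOf_coe, hoa] at h5
    exact ((Nat.prime_dvd_prime_iff_eq Nat.prime_three hpp).1 h5).symm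
  refine ⟨hp3, ⟨e'⟩, ?_⟩
  obtain ⟨f, hf, -⟩ := Tr.exists_surjective_sl_two_three e' haR hcop hac
  have haR' : a ∉ R := fun h => by
    have := Nat.Coprime.coprime_dvd_left (hoa ▸ orderOf_dvd_natCard R h) hR
    exact hpp.one_lt.ne' (by simpa using this)
  refine ⟨MulEquiv.ofBijective f ((Nat.bijective_iff_surjective_and_card f).2 ⟨hf, ?_⟩)⟩
  rw [PG.card_sup_zpowers hpp haR haR' (by rw [hap]; exact one_mem _), Nat.card_congr e'.toEquiv,
    PG.quaternion_card, hp3, Nat.card_eq_fintype_card]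
  decide +kernel

end Cfsg.Agent.S3740
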