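import Mathlib
import Cfsg.Agent.GT.PGroupAlperin
import Cfsg.Statements.S3741
-- import your own Cfsg.Agent.* helpers here

set_option autoImplicit false
open Cfsg

namespace Cfsg.Agent.S3741

open Subgroup Cfsg.Agent.GT

theorem aux {G : Type*} [Group G] [Finite G] {p : ℕ} [Fact p.Prime] (hG : IsPGroup p G)
    (A B : Subgroup G) (hcard : Nat.card ↥⁅A, B⁆ ≤ p) :
    (A ⊓ centralizer (B : Set G)).relIndex A ≤ (B ⊓ centralizer (A : Set G)).relIndex B := by
  obtain ⟨s, hs⟩ := (hG.to_subgroup B).index ((B ⊓ centralizer (A : Set G)).subgroupOf B)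
  have hs' : (B ⊓ centralizer (A : Set G)).relIndex B = p ^ s := hs
  have := PG.relIndex_centralizer_le_pow (hG.to_subgroup B) (B := B ⊓ centralizer (A : Set G))
    (H := A) (D := ⁅A, B⁆) inf_le_left (fun a ha b hb => (hb.2 a ha).symm) le_rfl hs'
  rw [inf_relIndex_left, hs']
  exact this.trans (Nat.pow_le_pow_left hcard s)

/-- Let A and B be subgroups of a finite p-group with [A, B] ≤ A ∩ B and [A, B] of order at most p. Then |A : C_A(B)| = |B : C_B(A)|. -/
theorem result {G : Type*} [Group G] [Finite G] {p : ℕ} [Fact p.Prime] (hG : IsPGroup p G) (A B : Subgroup G) (hAB : ⁅A, B⁆ ≤ A ⊓ B) (hcard : Nat.card ↥⁅A, B⁆ ≤ p) : (A ⊓ Subgroup.centralizer (B : Set G)).relIndex A = (B ⊓ Subgroup.centralizer (A : Set G)).relIndex B := by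
  exact le_antisymm (aux hG A B hcard) (aux hG B A (by rwa [Subgroup.commutator_comm]))

end Cfsg.Agent.S3741
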