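import Mathlib
import Cfsg.Statements.S3749
import Cfsg.Agent.GT.Subnormal2
import Cfsg.Agent.GT.CoprimeSylow

set_option autoImplicit false
open Cfsg

namespace Cfsg.Agent.S3749

open Cfsg.Agent.GT

open Subgroup in
open scoped Pointwise in

/-- Call a proper subgroup M of G primitive when M = N_G(N) for every non-trivial normal subgroup N of M. Let M be a primitive subgroup of the finite group G, p a prime with O_p(M) ≠ 1, and N a normal subgroup of G with M ∩ N = 1. Then p does not divide the order of N; for every prime q there is exactly one Sylow q-subgroup of N normalized by M; and if the order of N has at least two prime divisors then M is not a maximal subgroup of G. -/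
theorem result {G : Type*} [Group G] [Finite G] (M : Subgroup G) (hM : M ≠ ⊤) (hprim : ∀ N : Subgroup G, N ≤ M → M ≤ Subgroup.normalizer (N : Set G) → N ≠ ⊥ → Subgroup.normalizer (N : Set G) = M) {p : ℕ} [Fact p.Prime] (hOp : Cfsg.pCore p ↥M ≠ ⊥) (N : Subgroup G) [N.Normal] (hMN : M ⊓ N = ⊥) : ¬ p ∣ Nat.card N ∧ (∀ q : ℕ, [Fact q.Prime] → ∃! Q : Sylow q ↥N, M ≤ Subgroup.normalizer ((Q : Subgroup ↥N).map N.subtype : Set G)) ∧ ((∃ q r : ℕ, q.Prime ∧ r.Prime ∧ q ≠ r ∧ q ∣ Nat.card N ∧ r ∣ Nat.card N) → ¬ IsCoatom M) := by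
    have hp : p.Prime := Fact.out
    have hP := isPGroup_pCoreOf p M
    have hNP := hprim (pCoreOf p M) (pCoreOf_le M) (le_normalizer_pCoreOf M)
      (fun e => hOp (pCoreOf_eq_bot_iff.mp e))
    have hC : N ⊓ centralizer (pCoreOf p M : Set G) = ⊥ := by
      rw [eq_bot_iff, ← hMN]
      exact le_inf (inf_le_right.trans ((le_normalizer_of_le_centralizer le_rfl).trans hNP.le)) inf_le_left
    have hd : ¬ p ∣ Nat.card N := by
      have := card_modEq_card_inf_centralizer (L := N) hP le_normalizer_of_normal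
      rw [hC, card_bot] at this
      intro h
      exact hp.one_lt.ne' (Nat.dvd_one.mp ((this.dvd_iff dvd_rfl).mp h))
    have hcop := CopAct.coprime_of_isPGroup_left hP hd
    have hs : Group.IsSolvable (pCoreOf p M) ∨ Group.IsSolvable N :=
      Or.inl (CopAct.isSolvable_of_isPGroup hP)
    have huniq : ∀ (q : ℕ) [Fact q.Prime] (Q Q' : Sylow q N),
        pCoreOf p M ≤ normalizer (((Q : Subgroup N).map N.subtype : Subgroup G) : Set G) →
        pCoreOf p M ≤ normalizer (((Q' : Subgroup N).map N.subtype : Subgroup G) : Set G) →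
        Q = Q' := by
      intro q _ Q Q' hQ hQ'
      obtain ⟨c, hc, rfl⟩ := CopAct.invariant_sylow_conj le_normalizer_of_normal hcop hs Q Q' hQ hQ'
      have : c = 1 := Subtype.ext (mem_bot.mp (hC ▸ mem_inf.mpr ⟨c.2, hc⟩))
      rw [this, one_smul]
    have hex : ∀ (q : ℕ) [Fact q.Prime], ∃ Q : Sylow q N,
        M ≤ normalizer (((Q : Subgroup N).map N.subtype : Subgroup G) : Set G) := by
      intro q _
      obtain ⟨Q, hQ⟩ := CopAct.exists_invariant_sylow le_normalizer_of_normal hcop hs q
      refine ⟨Q, fun m hm => ?_⟩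
      let a : normalizer (N : Set G) := ⟨m, le_normalizer_of_normal (mem_top m)⟩
      have e : (((N.normalizerMonoidHom a • Q : Sylow q N) : Subgroup N).map N.subtype) =
          ((Q : Subgroup N).map N.subtype).map (MulAut.conj m).toMonoidHom :=
        CopAct.map_subtype_normalizerMonoidHom_smul (Q : Subgroup N) a
      have h1 := huniq q (N.normalizerMonoidHom a • Q) Q (by
        rw [e, normalizer_map_conj,
          ← map_conj_eq_of_mem_normalizer (le_normalizer_pCoreOf (p := p) M hm)]
        exact map_mono hQ) hQ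
      rw [h1] at e
      exact map_conj_eq_self_iff.mp e.symm
    refine ⟨hd, fun q _ => ?_, ?_⟩
    · obtain ⟨Q, hQ⟩ := hex q
      exact ⟨Q, hQ, fun Q' hQ' => huniq q Q' Q ((pCoreOf_le M).trans hQ') ((pCoreOf_le M).trans hQ)⟩
    · rintro ⟨q, r, hq, hr, hqr, hqN, hrN⟩ hco
      have := Fact.mk hq
      obtain ⟨Q, hQ⟩ := hex q
      have hQN : (Q : Subgroup N).map N.subtype ≤ N := map_subtype_le _
      have hQM : ¬ (Q : Subgroup N).map N.subtype ≤ M := fun h => by
        have h1 : (Q : Subgroup N).map N.subtype = ⊥ := le_bot_iff.mp (hMN ▸ le_inf h hQN)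
        rw [Subgroup.map_eq_bot_iff_of_injective _ N.subtype_injective] at h1
        exact Q.ne_bot_of_dvd_card hqN h1
      have h1 := inf_sup_eq_of_le_normalizer hQN hQ
      rw [sup_comm, sup_eq_top_of_isCoatom hco hQM, inf_top_eq, inf_comm, hMN, sup_bot_eq] at h1
      have h2 : IsPGroup q N := h1 ▸ Q.isPGroup'.map N.subtype
      obtain ⟨k, hk⟩ := h2.exists_card_eq
      exact hqr ((Nat.prime_dvd_prime_iff_eq hr hq).mp (hr.dvd_of_dvd_pow (hk ▸ hrN))).symm

end Cfsg.Agent.S3749
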