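import Mathlib
import Cfsg.Statements.S3750
import Cfsg.Agent.GT.Subnormal2

set_option autoImplicit false
open Cfsg

namespace Cfsg.Agent.S3750

open Cfsg.Agent.GT

/-- Call a proper subgroup M of G primitive when M = N_G(N) for every non-trivial normal subgroup N of M. Let M be a primitive subgroup of the finite group G and N a normal subgroup of G with M ∩ F*(N) ≠ 1. Then F(G) = 1 and F*(N) = F*(G) = E(G); in particular every minimal normal subgroup of G is contained in N. -/
theorem result {G : Type*} [Group G] [Finite G] (M : Subgroup G) (hM : M ≠ ⊤) (hprim : ∀ N : Subgroup G, N ≤ M → M ≤ Subgroup.normalizer (N : Set G) → N ≠ ⊥ → Subgroup.normalizer (N : Set G) = M) (N : Subgroup G) [N.Normal] (hMF : M ⊓ (Cfsg.generalizedFittingSubgroup ↥N).map N.subtype ≠ ⊥) : Cfsg.fittingSubgroup G = ⊥ ∧ (Cfsg.generalizedFittingSubgroup ↥N).map N.subtype = Cfsg.generalizedFittingSubgroup G ∧ Cfsg.generalizedFittingSubgroup G = Cfsg.layer G ∧ ∀ K : Subgroup G, K.Normal → K ≠ ⊥ → (∀ K' : Subgroup G, K'.Normal → K' ≤ K → K' = ⊥ ∨ K' = K) → K ≤ N := by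
    have hsn := @eq_bot_of_isSubnormal_of_primitive G _ _ M hM hprim
    have hN : N.IsSubnormal := Subgroup.Normal.isSubnormal inferInstance
    have hU := hprim (M ⊓ genFittingOf N) inf_le_left (le_inf Subgroup.le_normalizer
      Subgroup.le_normalizer_of_normal |>.trans Subgroup.inf_normalizer_le_normalizer_inf) hMF
    have hC : ∀ X : Subgroup G, X.IsSubnormal →
        X ≤ Subgroup.centralizer (genFittingOf N : Set G) → X = ⊥ := fun X hX h =>
      hsn hX (hU ▸ le_normalizer_of_le_centralizer (h.trans (Subgroup.centralizer_le inf_le_right)))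
    have hF : fittingSubgroup G = ⊥ := by
      have h1 := hC (fittingSubgroup G ⊓ Subgroup.centralizer (fittingSubgroup G : Set G))
        (isSubnormal_of_le_fitting inf_le_left) (le_trans ?_
          (Subgroup.centralizer_le (genFittingOf_le_genFitting hN)))
      · rw [← map_center_subtype, Subgroup.map_eq_bot_iff_of_injective _ (Subgroup.subtype_injective _)]
          at h1
        by_contra hne
        have := (Subgroup.nontrivial_iff_ne_bot _).mpr hne
        exact Group.IsNilpotent.center_ne_bot _ h1
      · rw [genFitting_eq]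
        exact le_centralizer_sup (inf_le_left.trans fitting_le_centralizer_layer) inf_le_right
    have hE : generalizedFittingSubgroup G = layer G := by rw [genFitting_eq, hF, sup_bot_eq]
    have hle : generalizedFittingSubgroup G ≤ N := hE ▸ layer_le fun K hK =>
      (hK.le_or_le_centralizer hN).resolve_right fun h => hK.ne_bot
        (hC K hK.isSubnormal (h.trans (Subgroup.centralizer_le (genFittingOf_le N))))
    exact ⟨hF, (genFittingOf_eq_inf_of_isSubnormal hN).trans (inf_eq_left.mpr hle), hE,
      fun K h1 h2 h3 => (IsMinNormal.le_genFitting ⟨h1, h2, h3⟩).trans hle⟩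

end Cfsg.Agent.S3750
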