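import Mathlib
import Cfsg.Statements.S3753
import Cfsg.Agent.Loc.PrimPair
import Cfsg.Agent.GT.Thompson

set_option autoImplicit false
open Cfsg

namespace Cfsg.Agent.S3753

open Cfsg.Agent.Loc.Mss Cfsg.Agent.Loc.PP Cfsg.Agent.GT Subgroup

theorem core_le {G : Type*} [Group G] [Finite G] {M₁ M₂ : Subgroup G} (h : Pair 2 M₁ M₂)
    (hab : ∀ S : Sylow 2 M₁, IsMulCommutative (S : Subgroup M₁)) :
    pCoreOf 2 M₂ ≤ pCoreOf 2 M₁ := by
  obtain ⟨T, hle, hT⟩ := Syl.exists_ge (pg_core M₂) h.q₂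
  obtain ⟨S, -, rfl⟩ := hT.exists_sylow
  have := th_comm_map M₁.subtype (hab S)
  exact h.c₁.le_core h.q₂ (hle.trans ((le_centralizer _).trans (cent_anti hT.core_le)))

/-- Two distinct subgroups M₁, M₂ of G form a primitive pair when, for {i, j} = {1, 2}, every non-trivial normal subgroup A of M_i contained in M₁ ∩ M₂ satisfies N_{M_j}(A) = M₁ ∩ M₂; the pair has characteristic p when moreover C_{M_i}(O_p(M_i)) ≤ O_p(M_i) for both i and O_p(M₁)O_p(M₂) ≤ M₁ ∩ M₂. If the finite group G has a primitive pair (M₁, M₂) of characteristic p for some prime p, then M₁ or M₂ has non-abelian Sylow 2-subgroups. In particular no group of odd order has a primitive pair of characteristic p. -/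
theorem result {G : Type*} [Group G] [Finite G] {p : ℕ} [Fact p.Prime] (M₁ M₂ : Subgroup G) (hne : M₁ ≠ M₂) (hP : ∀ A : Subgroup G, A ≠ ⊥ → A ≤ M₁ ⊓ M₂ → (M₁ ≤ Subgroup.normalizer (A : Set G) → M₂ ⊓ Subgroup.normalizer (A : Set G) = M₁ ⊓ M₂) ∧ (M₂ ≤ Subgroup.normalizer (A : Set G) → M₁ ⊓ Subgroup.normalizer (A : Set G) = M₁ ⊓ M₂)) (hc₁ : Subgroup.centralizer (Cfsg.pCore p ↥M₁ : Set ↥M₁) ≤ Cfsg.pCore p ↥M₁) (hc₂ : Subgroup.centralizer (Cfsg.pCore p ↥M₂ : Set ↥M₂) ≤ Cfsg.pCore p ↥M₂) (hO : (Cfsg.pCore p ↥M₁).map M₁.subtype ⊔ (Cfsg.pCore p ↥M₂).map M₂.subtype ≤ M₁ ⊓ M₂) : (∃ S : Sylow 2 ↥M₁, ¬ IsMulCommutative (S : Subgroup ↥M₁)) ∨ (∃ S : Sylow 2 ↥M₂, ¬ IsMulCommutative (S : Subgroup ↥M₂)) := by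
  have h := pair_of hne hP hc₁ hc₂ hO
  by_contra hc
  push Not at hc
  by_cases hp : p = 2
  · subst hp
    have e := le_antisymm (core_le h hc.1) (core_le h.symm hc.2)
    exact h.core_ne_bot (h.eq_bot (pCoreOf_le _) h.q₁ (le_norm_core _) (e ▸ le_norm_core _))
  · exact h.not_stab (stab_of_not_involves hp (not_involves_sl2_of_comm_sylow hp hc.1))
      (stab_of_not_involves hp (not_involves_sl2_of_comm_sylow hp hc.2))

end Cfsg.Agent.S3753
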