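import Mathlib
import Cfsg.Statements.S3756
import Cfsg.Agent.Loc.PrimPairTwo

set_option autoImplicit false
open Cfsg

namespace Cfsg.Agent.S3756

open Cfsg.Agent.Loc.Mss Cfsg.Agent.Loc.PP

/-- Let G be a finite group of even order with O₂(G) = 1 such that every 2-local subgroup of G is solvable, of characteristic 2, and has no section isomorphic to the symmetric group of degree 4. Then every maximal 2-local subgroup of G is strongly embedded in G. -/
theorem result {G : Type*} [Group G] [Finite G] (heven : Even (Nat.card G)) (hO : Cfsg.pCore 2 G = ⊥) (hloc : ∀ M : Subgroup G, Cfsg.IsTwoLocal M → Group.IsSolvable M ∧ Cfsg.IsOfCharacteristicTwo ↥M ∧ ¬ Cfsg.Involves (Equiv.Perm (Fin 4)) ↥M) (M : Subgroup G) (hM : Cfsg.IsMaximalTwoLocal M) : Cfsg.IsStronglyEmbedded M := by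
  rcases exists_pair_or (p := 2) (fun T hT h1 => chP_iff.1 (hloc _ ⟨T, hT, h1, rfl⟩).2.1) hO hM with
    ⟨L₁, L₂, h₁, h₂, hP⟩ | ⟨h1, h2, h3⟩
  · exact (hP.not_free ⟨(hloc _ h₁.1).1, (hloc _ h₁.1).2.2⟩
      ⟨(hloc _ h₂.1).1, (hloc _ h₂.1).2.2⟩).elim
  · exact ⟨h1, even_iff_two_dvd.2 h2, fun g hg =>
      Nat.not_even_iff_odd.1 fun h => h3 g hg (even_iff_two_dvd.1 h)⟩

end Cfsg.Agent.S3756
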