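import Mathlib
-- Template for statement S3757 (row 3757; see /opt/grader/pristine/manifest.json for weights).
-- Copy to Cfsg/Agent/S3757.lean and replace the sorry. The statement below is byte-identical to the frozen
-- statement Cfsg.CfsgFrozen.S3757 (Cfsg/Statements/S3757.lean; the theorem Cfsg.fg_rank_three_coprime_action_with_solvable_centralizers);
-- the grader kernel-checks Cfsg.Agent.S3757.result against that frozen type. Keep the theorem IN THIS FILE
-- (a `result` declared elsewhere and merely imported here is not credited); helpers may live anywhere
-- under Cfsg/Agent/.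
import Cfsg.Statements.S3757
import Cfsg.Agent.S0515

set_option autoImplicit false
open Cfsg

namespace Cfsg.Agent.S3757

/-- Let A and G be subgroups of a finite group with A an elementary abelian p-group of rank at least 3 (order at least p³) normalizing G, and G of order prime to p. If C_G(a) is solvable for every non-identity a ∈ A, then G is solvable. -/
theorem result {X : Type*} [Group X] [Finite X] {p : ℕ} [Fact p.Prime] (A G : Subgroup X) (hA : Cfsg.IsElementaryAbelian p A) (hrank : p ^ 3 ≤ Nat.card A) (hAG : A ≤ Subgroup.normalizer (G : Set X)) (hG : (Nat.card G).Coprime p) (hsol : ∀ a ∈ A, a ≠ 1 → Group.IsSolvable ↥(G ⊓ Subgroup.centralizer ({a} : Set X))) : Group.IsSolvable G := by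
  exact Cfsg.Agent.S0515.result p A G hA.1 hA.2 hrank hG hAG hsol

end Cfsg.Agent.S3757
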