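import Mathlib
import Cfsg.Statements.S3759
import Cfsg.Agent.Loc.ZC
import Cfsg.Agent.S0505
import Cfsg.Agent.GT.PMinimal
import Cfsg.Agent.GT.TransferPNilp
import Cfsg.Agent.Inv.SE

set_option autoImplicit false
open Cfsg

namespace Cfsg.Agent.S3759

section
open Subgroup Cfsg.Agent.GT Cfsg.Agent.Loc Cfsg.Agent.Loc.Mss Cfsg.Agent.Loc.ZC Cfsg.Agent.Inv
  Cfsg.Agent.Inv.CS

variable {G : Type*} [Group G] [Finite G]

omit [Finite G] in
theorem solv_sub (hC : ∀ t : G, orderOf t = 2 → Group.IsSolvable (centralizer ({t} : Set G)))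
    (K : Subgroup G) (t : K) (ht : orderOf t = 2) :
    Group.IsSolvable (centralizer ({t} : Set K)) := by
  have := hC t (by rw [orderOf_coe, ht])
  refine Group.isSolvable_of_isSolvable_injective (G' := centralizer ({(t : G)} : Set G))
    (f := (K.subtype.comp (Subgroup.subtype _)).codRestrict _ fun x => ?_) fun x y h => ?_
  · exact mem_c1.mpr (congrArg Subtype.val (mem_c1.mp x.2))
  · have := congrArg Subtype.val h
    exact Subtype.ext (Subtype.ext this)

theorem charTwo (hC : ∀ t : G, orderOf t = 2 → Group.IsSolvable (centralizer ({t} : Set G)))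
    (hev : Even (Nat.card G)) (h : ∀ t : G, orderOf t = 2 → centralizerPPrimeCore 2 t = ⊥) :
    IsCharacteristicTwoType G :=
  S0505.result hev hC fun t ht => (map_eq_bot_iff_of_injective _ (subtype_injective _)).mp (h t ht)

theorem core_sub (K : Subgroup G) [K.Normal] (t : K) (h : centralizerPPrimeCore 2 (t : G) = ⊥) :
    centralizerPPrimeCore 2 t = ⊥ := by
  rw [centralizerPPrimeCore_eq] at h ⊢
  rw [centralizer_singleton_subgroup, ← inf_subgroupOf_right,
    pPrimeCoreOf_subgroupOf_of_le inf_le_right, eq_bot_iff, ← bot_subgroupOf K, ← h]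
  exact comap_mono (pPrimeCoreOf_le_pPrimeCoreOf inf_le_left
    (norm_inf le_normalizer (le_normalizer_of_normal)))

theorem even_res (hev : Even (Nat.card G)) (hO' : pPrimeCore 2 G = ⊥) (hO : pCore 2 G = ⊥) :
    Even (Nat.card (pResidual 2 G)) := by
  by_contra hn
  have h1 : pResidual 2 G ≤ ⊥ := hO' ▸ le_oddCore (Nat.not_even_iff_odd.mp hn)
  have h2 : IsPGroup 2 (⊤ : Subgroup G) := pg_of_res_le IsPGroup.of_bot
    (res_le_iff.mpr fun _ _ hx => h1 (mem_pResidual hx))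
  have h3 : (⊤ : Subgroup G) ≤ ⊥ := hO ▸ le_pCore h2
  have := card_le_of_le h3
  rw [card_bot, card_top] at this
  have := Nat.card_pos (α := G)
  obtain ⟨k, hk⟩ := hev
  omega

theorem normal_sup (S : Sylow 2 G) {Z : Subgroup G} (hZ : (S : Subgroup G) ≤ 𝐍[Z]) :
    (pResidual 2 G ⊔ Z).Normal := by
  refine normal_of_top ((Syl.of_sylow S).le_of_res_le ?_ (norm_sup le_normalizer_of_normal hZ))
  exact (res_le_iff.mpr fun _ _ hx => mem_pResidual hx).trans (le_sup_left.trans le_normalizer)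

theorem se_res {M : Subgroup G} (hM : IsStronglyEmbedded M) (hev : Even (Nat.card (pResidual 2 G))) :
    IsStronglyEmbedded (M.subgroupOf (pResidual 2 G)) := by
  obtain ⟨P, hP⟩ := hM.exists_sylow_le
  refine hM.subgroupOf (not_pResidual_le (isStronglyEmbedded_iff.mp hM).1 hP) ?_
  have h1 := (Syl.of_sylow P).inf (M := pResidual 2 G) le_top le_normalizer_of_normal
  by_contra hn
  have h2 : (P : Subgroup G) ⊓ pResidual 2 G = ⊥ := eq_bot_of_coprime h1.pg (inf_le_inf_right _ hP)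
    (Nat.coprime_two_right.mpr (Nat.not_even_iff_odd.mp hn))
  exact Nat.not_odd_iff_even.mpr hev (Nat.coprime_two_right.mp (h1.eq_bot_iff.mp h2))

omit [Finite G] in
theorem ea_omZ (T : Subgroup G) : IsElementaryAbelian 2 (Am.omZ 2 T) :=
  ⟨⟨⟨fun a b => Subtype.ext (mem_cent.mp (Am.mem_omZ.mp b.2).2.1 a (Am.mem_omZ.mp a.2).1)⟩⟩,
    fun _ h => (Am.mem_omZ.mp h).2.2⟩

theorem main (heven : Even (Nat.card G))
    (hC : ∀ t : G, orderOf t = 2 → Group.IsSolvable (centralizer ({t} : Set G)))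
    (hO' : pPrimeCore 2 G = ⊥) (hO : pCore 2 G = ⊥) (S : Sylow 2 G) {Z H : Subgroup G}
    (hZd : Am.omZ 2 S = Z) (hH : pResidual 2 G = H) (hZ : 𝐂[Z] ≤ 𝐍[(S : Subgroup G)]) :
    (∃ M : Subgroup H, IsStronglyEmbedded M) ∨
      (Nat.card (Z ⊓ H : Subgroup G) = 2 ∧ ∀ h ∈ H, ∀ z ∈ Z ⊓ H, h * z * h⁻¹ ∈ (S : Subgroup G) →
        h * z * h⁻¹ ∈ Z) ∨ (Nat.card Z = 4 ∧ omegaOne 2 ((S : Subgroup G) ⊓ H) = Z) ∨
      IsCharacteristicTwoType (H ⊔ Z : Subgroup G) := by
  have hev := even_res heven hO' hO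
  have hnm := normal_sup S (le_normalizer.trans (Am.normalizer_le_normalizer_omZ 2 _))
  have hnH : (pResidual 2 G).Normal := inferInstance
  have hEA := ea_omZ (S : Subgroup G)
  have hZS := Am.omZ_le 2 (S : Subgroup G)
  have hZc := Am.omZ_le_centralizer 2 (S : Subgroup G)
  have hmem := fun x => Am.mem_omZ (p := 2) (T := (S : Subgroup G)) (x := x)
  rw [hZd] at hEA hZS hZc hmem hnm
  rw [hH] at hnm hnH
  have hR := (Syl.of_sylow S).inf (M := H) le_top le_normalizer_of_normal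
  have hRb : (S : Subgroup G) ⊓ H ≠ ⊥ := fun e =>
    Nat.not_odd_iff_even.mpr (hH ▸ hev) (Nat.coprime_two_right.mp (hR.eq_bot_iff.mp e))
  obtain ⟨z, hz, hz1, hzc, hz2⟩ := Am.exists_mem_omZ_of_normalized S.2 hR.pg
    (norm_inf le_normalizer le_normalizer_of_normal) hRb
  have hzZ : z ∈ Z := (hmem z).mpr ⟨hz.1, hzc, hz2⟩
  have hzo : orderOf z = 2 := orderOf_eq_prime hz2 hz1
  have hev' : Even (Nat.card (H ⊔ Z : Subgroup G)) := even_iff_two_dvd.mpr
    (hzo ▸ Subgroup.orderOf_dvd_natCard _ (mem_sup_left hz.2))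
  by_cases h1 : PRankLE 2 1 Z
  · have e : zpowers z = Z := by
      refine eq_of_le_of_card_ge (zpowers_le.mpr hzZ) ?_
      by_contra hc
      rw [Nat.card_zpowers, hzo] at hc
      exact CG.not_pRankLE_of_le (k := 1) hEA le_rfl (CG.pow_succ_le_of_lt (k := 1) hEA.isPGroup
        (lt_of_le_of_ne (zpowers_le.mpr hzZ) fun e => hc (by rw [← e, Nat.card_zpowers, hzo]))
        (by rw [Nat.card_zpowers, hzo]; rfl)) h1
    have hZH : Z ≤ H := e ▸ zpowers_le.mpr hz.2
    by_cases hw : ∀ h ∈ H, h * z * h⁻¹ ∈ (S : Subgroup G) → h * z * h⁻¹ = z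
    · refine Or.inr (Or.inl ⟨by rw [inf_eq_left.mpr hZH, ← e, Nat.card_zpowers, hzo], ?_⟩)
      intro h hh y hy hyS
      rcases eq_one_or_eq_of_mem_zpowers_of_sq hz2 (e.ge hy.1) with rfl | rfl
      · simp
      · rw [hw h hh hyS]; exact hzZ
    push Not at hw
    obtain ⟨g, hg, hgS, hne⟩ := hw
    have hyp : Hyp (((S : Subgroup G) ⊓ H).subgroupOf H) (⟨z, hz.2⟩ : H) := by
      refine ⟨by simpa using hR.subgroupOf le_rfl, hz, mem_cent.mpr fun x hx =>
        Subtype.ext (mem_cent.mp hzc x hx.1), by rw [← orderOf_coe]; exact hzo, ?_⟩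
      rw [norm_subgroupOf inf_le_right, centralizer_singleton_subgroup]
      refine comap_mono (norm_inf (le_trans ?_ hZ) le_normalizer_of_normal)
      rw [← e, PG.centralizer_zpowers_eq]
    have hOH : pPrimeCore 2 H = ⊥ := by
      rw [← pPrimeCoreOf_subgroupOf, pPrimeCoreOf_eq_inf, hO', bot_inf_eq, bot_subgroupOf]
    have hT : ∀ M : Subgroup H, M.Normal → M.index ≠ 2 := by
      rw [← hH]
      exact Tr.pResidual_eq_top_iff.mp pResidual_pResidual
    rcases hyp.main (solv_sub hC H) hOH hT (g := ⟨g, hg⟩)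
      ⟨hgS, H.mul_mem (H.mul_mem hg hz.2) (H.inv_mem hg)⟩ (fun e => hne (congrArg Subtype.val e)) with
      h2 | h2
    · exact Or.inl h2
    · rw [sup_eq_left.mpr hZH]
      exact Or.inr (Or.inr (Or.inr (charTwo (solv_sub hC H) (hH ▸ hev) h2)))
  obtain ⟨U, hUZ, hU⟩ := exists_four_of_not_rank_one h1
  by_cases h2 : PRankLE 2 2 (S : Subgroup G)
  · have e : U = Z := le_antisymm hUZ fun x hx => mem_of_rank h2 hU (hUZ.trans hZS) (hZS hx)
      (cent_anti (hUZ.trans hZS) (hZc hx)) (hEA.2 x hx)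
    subst e
    have hΩ : ∀ x ∈ (S : Subgroup G), x ^ 2 = 1 → x ∈ U := fun x hx hx2 =>
      mem_of_rank h2 hU hZS hx (cent_comm hZc hx) hx2
    by_cases hZH : U ≤ H
    · refine Or.inr (Or.inr (Or.inl ⟨hU.2, le_antisymm ((closure_le _).mpr fun x hx =>
        hΩ x hx.1.1 hx.2) fun x hx => subset_closure ⟨⟨hZS hx, hZH hx⟩, hEA.2 x hx⟩⟩))
    refine Or.inr (Or.inl ⟨?_, fun h _ y hy hyS => hΩ _ hyS (by
      rw [conj_pow, hEA.2 y hy.1]; group)⟩)
    have h3 : Nat.card (U ⊓ H : Subgroup G) ∣ 2 ^ 2 := (hU.2 ▸ card_dvd_of_le inf_le_left :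
      Nat.card (U ⊓ H : Subgroup G) ∣ 4)
    obtain ⟨i, hi, h4⟩ := (Nat.dvd_prime_pow Nat.prime_two).mp h3
    interval_cases i
    · exact absurd (mem_bot.mp (card_eq_one.mp h4 ▸ (⟨hzZ, hz.2⟩ : z ∈ U ⊓ H))) hz1
    · exact h4
    · exact absurd (inf_eq_left.mp (eq_of_le_of_card_ge inf_le_left (by rw [h4, hU.2]; rfl))) hZH
  have hUc := hUZ.trans hZc
  rcases of_conn hC hO' (conn_of hU (hUZ.trans hZS) (norm_of_cent (cent_comm hUc)) fun V hV _ =>
    Or.inl (hV.trans (cent_comm hUc))) (fun h => h2 (h.subgroup _)) with ⟨M, hM⟩ | h3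
  · exact Or.inl (hH ▸ ⟨_, se_res hM hev⟩)
  · exact Or.inr (Or.inr (Or.inr (charTwo (solv_sub hC _) hev' fun t ht =>
      core_sub _ t (h3 t (by rw [orderOf_coe, ht])))))

end

/-- Let G be a finite group of even order in which the centralizer of every involution is solvable and C_G(Ω₁(Z(S))) ≤ N_G(S) for every Sylow 2-subgroup S, with O_{2'}(G) = 1 = O₂(G). Fix a Sylow 2-subgroup S and put Z = Ω₁(Z(S)), H = O²(G), R = S ∩ H. Then H has a strongly embedded subgroup; or Z ∩ R has order 2 and is weakly closed in R with respect to H; or Z has order 4 and equals the subgroup generated by the involutions of R; or the subgroup HZ has local characteristic 2: it has even order and every 2-local subgroup L of HZ satisfies C_L(O₂(L)) ≤ O₂(L). -/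
theorem result {G : Type*} [Group G] [Finite G] (heven : Even (Nat.card G)) (hC : ∀ t : G, orderOf t = 2 → Group.IsSolvable ↥(Subgroup.centralizer ({t} : Set G))) (hZ : ∀ S : Sylow 2 G, Subgroup.centralizer (Cfsg.omegaOne 2 ((S : Subgroup G) ⊓ Subgroup.centralizer ((S : Subgroup G) : Set G)) : Set G) ≤ Subgroup.normalizer ((S : Subgroup G) : Set G)) (hO' : Cfsg.pPrimeCore 2 G = ⊥) (hO : Cfsg.pCore 2 G = ⊥) (S : Sylow 2 G) : (∃ M : Subgroup ↥(Cfsg.pResidual 2 G), Cfsg.IsStronglyEmbedded M) ∨ (Nat.card ↥(Cfsg.omegaOne 2 ((S : Subgroup G) ⊓ Subgroup.centralizer ((S : Subgroup G) : Set G)) ⊓ Cfsg.pResidual 2 G) = 2 ∧ ∀ h ∈ Cfsg.pResidual 2 G, ∀ z ∈ Cfsg.omegaOne 2 ((S : Subgroup G) ⊓ Subgroup.centralizer ((S : Subgroup G) : Set G)) ⊓ Cfsg.pResidual 2 G, h * z * h⁻¹ ∈ (S : Subgroup G) → h * z * h⁻¹ ∈ Cfsg.omegaOne 2 ((S : Subgroup G) ⊓ Subgroup.centralizer ((S : Subgroup G) : Set G))) ∨ (Nat.card ↥(Cfsg.omegaOne 2 ((S : Subgroup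 G) ⊓ Subgroup.centralizer ((S : Subgroup G) : Set G))) = 4 ∧ Cfsg.omegaOne 2 ((S : Subgroup G) ⊓ Cfsg.pResidual 2 G) = Cfsg.omegaOne 2 ((S : Subgroup G) ⊓ Subgroup.centralizer ((S : Subgroup G) : Set G))) ∨ Cfsg.IsCharacteristicTwoType ↥(Cfsg.pResidual 2 G ⊔ Cfsg.omegaOne 2 ((S : Subgroup G) ⊓ Subgroup.centralizer ((S : Subgroup G) : Set G))) :=
  main heven hC hO' hO S rfl rfl (hZ S)

end Cfsg.Agent.S3759
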