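import Mathlib
import Cfsg.Statements.S3760
-- import your own Cfsg.Agent.* helpers here

set_option autoImplicit false
open Cfsg

namespace Cfsg.Agent.S3760

/-- Let the group G act transitively on a set X, let x ∈ X with stabilizer H = G_x, and let K ≤ H. Then N_G(K) acts transitively on the set of fixed points of K if and only if every G-conjugate of K contained in H is already an H-conjugate of K. -/
theorem result {G : Type*} [Group G] {X : Type*} [MulAction G X] (htrans : ∀ a b : X, ∃ g : G, g • a = b) (x : X) (K : Subgroup G) (hK : K ≤ MulAction.stabilizer G x) : (∀ a b : X, (∀ k ∈ K, k • a = a) → (∀ k ∈ K, k • b = b) → ∃ g ∈ Subgroup.normalizer (K : Set G), g • a = b) ↔ ∀ g : G, K.map (MulAut.conj g).toMonoidHom ≤ MulAction.stabilizer G x → ∃ h ∈ MulAction.stabilizer G x, K.map (MulAut.conj g).toMonoidHom = K.map (MulAut.conj h).toMonoidHom := by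
  have hmem : ∀ (g : G) (y : X), K.map (MulAut.conj g).toMonoidHom ≤ MulAction.stabilizer G y ↔
      ∀ k ∈ K, k • g⁻¹ • y = g⁻¹ • y := by
    intro g y
    rw [Subgroup.map_le_iff_le_comap]
    refine forall₂_congr fun k _ => ?_
    simp only [Subgroup.mem_comap, MulEquiv.coe_toMonoidHom, MulAut.conj_apply,
      MulAction.mem_stabilizer_iff, mul_smul]
    rw [smul_eq_iff_eq_inv_smul]
  have hmul : ∀ g h : G, K.map (MulAut.conj (g * h)).toMonoidHom =
      (K.map (MulAut.conj h).toMonoidHom).map (MulAut.conj g).toMonoidHom := by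
    intro g h
    rw [Subgroup.map_map, map_mul]
    rfl
  have hN : ∀ g : G, g ∈ Subgroup.normalizer (K : Set G) ↔ K.map (MulAut.conj g).toMonoidHom = K :=
    fun g => Subgroup.mem_normalizer_iff_map_conj_eq
  constructor
  · intro h g hg
    obtain ⟨n, hn, e⟩ := h (g⁻¹ • x) x ((hmem g x).1 hg) (fun k hk => hK hk)
    refine ⟨g * n⁻¹, ?_, ?_⟩
    · rw [MulAction.mem_stabilizer_iff, mul_smul, ← e, inv_smul_smul, smul_inv_smul, e]
    · rw [hmul, (hN _).1 (inv_mem hn)]
  · intro h
    have key : ∀ a : X, (∀ k ∈ K, k • a = a) → ∃ g ∈ Subgroup.normalizer (K : Set G), g • a = x := by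
      intro a ha
      obtain ⟨g, rfl⟩ := htrans a x
      obtain ⟨t, ht, e⟩ := h g ((hmem g _).2 (by simpa using ha))
      refine ⟨t⁻¹ * g, ?_, ?_⟩
      · rw [hN, hmul, e, ← hmul, inv_mul_cancel, map_one]
        exact Subgroup.map_id K
      · rw [mul_smul, inv_smul_eq_iff]
        exact (MulAction.mem_stabilizer_iff.1 ht).symm
    intro a b ha hb
    obtain ⟨g, hg, e1⟩ := key a ha
    obtain ⟨t, ht, e2⟩ := key b hb
    exact ⟨t⁻¹ * g, mul_mem (inv_mem ht) hg, by rw [mul_smul, e1, ← e2, inv_smul_smul]⟩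

end Cfsg.Agent.S3760
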