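import Mathlib
import Cfsg.Agent.GT.PGroupCyclicNormal
import Cfsg.Statements.S3761
-- import your own Cfsg.Agent.* helpers here

set_option autoImplicit false
open Cfsg

namespace Cfsg.Agent.S3761

/-- Let G be a finite non-abelian p-group with a cyclic normal subgroup U of order p^n such that C_G(U) = U. Then either p = 2 and G is dihedral, generalized quaternion or semidihedral of order 2^(n+1); or, writing U₁ for the subgroup generated by the p-th powers of elements of U and M = C_G(U₁), the subgroup U has index p in M and the subgroup Ω₁(M) generated by the elements of M of order dividing p is elementary abelian of order p² and characteristic in G. -/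
theorem result {G : Type*} [Group G] [Finite G] {p : ℕ} [Fact p.Prime] (hG : IsPGroup p G) (hna : ¬ IsMulCommutative G) (U : Subgroup G) [U.Normal] (hU : IsCyclic U) (n : ℕ) (hUn : Nat.card U = p ^ n) (hC : Subgroup.centralizer (U : Set G) = U) : (p = 2 ∧ Nat.card G = 2 ^ (n + 1) ∧ ((∃ m : ℕ, Nonempty (G ≃* DihedralGroup m)) ∨ (∃ m : ℕ, Nonempty (G ≃* QuaternionGroup m)) ∨ Cfsg.IsQuasiDihedral G)) ∨ (U.relIndex (Subgroup.centralizer (Cfsg.powerClosure p 1 U : Set G)) = p ∧ Cfsg.IsElementaryAbelian p (Cfsg.omegaOne p (Subgroup.centralizer (Cfsg.powerClosure p 1 U : Set G))) ∧ Nat.card ↥(Cfsg.omegaOne p (Subgroup.centralizer (Cfsg.powerClosure p 1 U : Set G))) = p ^ 2 ∧ (Cfsg.omegaOne p (Subgroup.centralizer (Cfsg.powerClosure p 1 U : Set G))).Characteristic) := by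
  have hp : p.Prime := Fact.out
  obtain ⟨u, rfl, hu'⟩ := GT.PG.exists_orderOf_eq_of_isCyclic hU
  obtain ⟨m, b, hm, hu, ⟨rfl, h⟩ | ⟨h1, h2, h3, h4, h5, h6⟩⟩ :=
    GT.PG.cases_of_self_centralizing hG hna (GT.PG.centralizer_zpowers_eq u ▸ hC.le)
  · obtain rfl : n = m + 1 := by
      rw [hu', hUn] at hu
      exact Nat.pow_right_injective le_rfl hu
    refine Or.inl ⟨rfl, h.card_eq, ?_⟩
    rcases h.cases with e | e | e
    · exact Or.inl ⟨_, e⟩
    · exact Or.inr (Or.inl ⟨_, e⟩)
    · exact Or.inr (Or.inr e.2)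
  · right
    rw [GT.PG.powerClosure_zpowers, pow_one, GT.PG.centralizer_zpowers_eq]
    obtain ⟨e1, e2⟩ := GT.PG.omegaOne_of_modular_elementary hp hm h1 hu h4 h3
    refine ⟨?_, h5 ▸ e1, h5 ▸ e2, h6⟩
    rw [h5]
    exact GT.PG.relIndex_sup_zpowers hp (Subgroup.le_normalizer_of_normal (Subgroup.mem_top b)) h2
      (h3 ▸ one_mem _)

end Cfsg.Agent.S3761
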