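import Mathlib
import Cfsg.Agent.GT.PGroupSymplectic
import Cfsg.Statements.S3762
-- import your own Cfsg.Agent.* helpers here

set_option autoImplicit false
open Cfsg

namespace Cfsg.Agent.S3762

/-- Let G be a finite p-group of symplectic type: every characteristic abelian subgroup of G is cyclic. Then G = E ∗ R is a central product of subgroups E and R (they commute elementwise and generate G) where E is extraspecial or trivial, and R is cyclic, or p = 2 and R is dihedral, semidihedral or generalized quaternion of order at least 16. -/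
theorem result {G : Type*} [Group G] [Finite G] {p : ℕ} [Fact p.Prime] (hG : IsPGroup p G) (hsymp : ∀ A : Subgroup G, A.Characteristic → IsMulCommutative A → IsCyclic A) : ∃ E R : Subgroup G, (∀ e ∈ E, ∀ r ∈ R, e * r = r * e) ∧ E ⊔ R = ⊤ ∧ (E = ⊥ ∨ Cfsg.IsExtraspecial p ↥E) ∧ (IsCyclic R ∨ (p = 2 ∧ 16 ≤ Nat.card R ∧ ((∃ m : ℕ, Nonempty (↥R ≃* DihedralGroup m)) ∨ (∃ m : ℕ, Nonempty (↥R ≃* QuaternionGroup m)) ∨ Cfsg.IsQuasiDihedral ↥R))) := by
  rcases subsingleton_or_nontrivial G with h | h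
  · exact ⟨⊥, ⊥, by simp, Subsingleton.elim _ _, Or.inl rfl, Or.inl inferInstance⟩
  obtain ⟨z, E, R, hE, -, hzR, -, -, hR, hER, hc⟩ := GT.PG.exists_symplectic_decomposition hG hsymp
  have key : IsCyclic R ∨ (p = 2 ∧ 16 ≤ Nat.card R ∧ ((∃ m : ℕ, Nonempty (↥R ≃* DihedralGroup m)) ∨
      (∃ m : ℕ, Nonempty (↥R ≃* QuaternionGroup m)) ∨ Cfsg.IsQuasiDihedral ↥R)) := by
    refine hc.imp id fun ⟨h2, m, a, b, hm, hM⟩ => ⟨h2, ?_, ?_⟩
    · rw [hM.card_eq]
      exact Nat.pow_le_pow_right (n := 2) (i := 4) two_pos (by omega)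
    · exact hM.cases.imp (fun h => ⟨_, h⟩) (Or.imp (fun h => ⟨_, h⟩) fun h => h.2)
  by_cases hne : E = Subgroup.zpowers z
  · refine ⟨⊥, R, by simp, ?_, Or.inl rfl, key⟩
    rwa [hne, sup_eq_right.2 (Subgroup.zpowers_le.2 hzR), ← bot_sup_eq R] at hER
  · exact ⟨E, R, fun e he r hr => hR hr e he, hER, Or.inr (hE.isExtraspecial hne), key⟩

end Cfsg.Agent.S3762
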