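import Mathlib
import Cfsg.Agent.GT.PGroupExtraTwo
import Cfsg.Statements.S3763
-- import your own Cfsg.Agent.* helpers here

set_option autoImplicit false
open Cfsg

namespace Cfsg.Agent.S3763

/-- Let E be an extraspecial 2-group of order 2^(2n+1). Then the largest elementary abelian subgroups of E have order 2^n or 2^(n+1); and two extraspecial 2-groups of the same order whose largest elementary abelian subgroups have the same order are isomorphic. -/
theorem result {E : Type*} [Group E] [Finite E] (hE : Cfsg.IsExtraspecial 2 E) (n : ℕ) (hn : Nat.card E = 2 ^ (2 * n + 1)) : ((Cfsg.PRankLE 2 n E ∧ ¬ Cfsg.PRankLE 2 (n - 1) E) ∨ (Cfsg.PRankLE 2 (n + 1) E ∧ ¬ Cfsg.PRankLE 2 n E)) ∧ ∀ (E' : Type*) [Group E'] [Finite E'], Cfsg.IsExtraspecial 2 E' → Nat.card E' = Nat.card E → (∀ k : ℕ, Cfsg.PRankLE 2 k E ↔ Cfsg.PRankLE 2 k E') → Nonempty (E ≃* E') := by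
  refine ⟨?_, fun E' _ _ hE' hc hr =>
    GT.PG.nonempty_mulEquiv_of_extraspecial_two hE hE' hn (hc.trans hn) (hr n)⟩
  obtain ⟨m, hm, hm'⟩ := hE.exists_card_eq
  obtain rfl : m = n := by
    have := Nat.pow_right_injective le_rfl (hm'.symm.trans hn)
    omega
  rcases GT.PG.extraspecial_two_rank hE hn with ⟨-, h1, h2⟩ | ⟨-, h1, h2⟩
  · exact Or.inr ⟨h1, GT.PG.not_pRankLE_iff_pRankAtLeast.2 h2⟩
  · exact Or.inl ⟨h1, GT.PG.not_pRankLE_iff_pRankAtLeast.2 (by rwa [Nat.sub_add_cancel hm])⟩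

end Cfsg.Agent.S3763
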