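import Cfsg.Statements.S3764
import Cfsg.Agent.FT.BG2_5

set_option autoImplicit false
open Cfsg

namespace Cfsg.Agent.S3764

/-- Let p, q, r be distinct primes and let X, Q, V be subgroups of a finite group with X of order r, Q an extraspecial q-group normalized by X with C_Q(X) = Z(Q), and V an elementary abelian p-group normalized by X and Q on which XQ acts faithfully ((X ⊔ Q) ∩ C(V) = 1). If C_V(X) = 1, then q = 2, r = 2^n + 1 for some n, and Q has order 2^(2n+1). -/
theorem result {G : Type*} [Group G] [Finite G] {p q r : ℕ} (hp : p.Prime) (hq : q.Prime) (hr : r.Prime) (hpq : p ≠ q) (hpr : p ≠ r) (hqr : q ≠ r) (X Q V : Subgroup G) (hX : Nat.card X = r) (hQ : Cfsg.IsExtraspecial q ↥Q) (hXQ : X ≤ Subgroup.normalizer (Q : Set G)) (hCQ : Q ⊓ Subgroup.centralizer (X : Set G) = (Subgroup.center ↥Q).map Q.subtype) (hV : Cfsg.IsElementaryAbelian p V) (hXV : X ≤ Subgroup.normalizer (V : Set G)) (hQV : Q ≤ Subgroup.normalizer (V : Set G)) (hfaith : (X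 ⊔ Q) ⊓ Subgroup.centralizer (V : Set G) = ⊥) (hCV : V ⊓ Subgroup.centralizer (X : Set G) = ⊥) : q = 2 ∧ ∃ n : ℕ, r = 2 ^ n + 1 ∧ Nat.card Q = 2 ^ (2 * n + 1) := by
  have := Fact.mk hp
  rw [FT.map_subtype_center] at hCQ
  have hXp : (Nat.card X).Prime := hX ▸ hr
  obtain ⟨n, hn, h1, h2⟩ := FT.extraspecial_sdprod_cent_eq hq hQ hXQ
    (FT.isMulCommutative_of_isCyclic (FT.isCyclic_of_card_prime hXp))
    (hX ▸ (Nat.coprime_primes hr hq).2 hqr.symm)
    (fun x hx hx1 => by rw [← FT.cent_eq_cent_elt_of_prime hXp hx hx1, hCQ])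
    (FT.isSolvable_of_comm hV.1) hQV hXV
    (FT.coprime_card_of_elemAb hV fun h => hpq ((Nat.prime_dvd_prime_iff_eq hp hq).1 h))
    (FT.coprime_card_of_elemAb hV fun h => hpr ((Nat.prime_dvd_prime_iff_eq hp hr).1 (hX ▸ h)))
    (fun h => FT.ne_bot_of_card_prime ((FT.extraspecial_card_center hQ).symm ▸ hq)
      (le_bot_iff.1 (hfaith ▸ le_inf (inf_le_left.trans le_sup_right) h))) hCV
  rw [hX] at h2
  have hq2 : q = 2 := by
    by_contra hne
    have h3 : Odd (q ^ n) := (hq.odd_of_ne_two hne).pow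
    have h4 : r = 2 := by
      refine hr.eq_two_or_odd'.resolve_right ?_
      rw [h2, Nat.not_odd_iff_even]
      exact h3.add_one
    have h5 : q ^ 1 ≤ q ^ n := Nat.pow_le_pow_right hq.pos hn
    have := hq.two_le
    rw [pow_one] at h5
    omega
  subst hq2
  exact ⟨rfl, n, h2, h1⟩

end Cfsg.Agent.S3764
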