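import Mathlib
import Cfsg.Statements.S3766
import Cfsg.Agent.GT.CoprimeProd
import Cfsg.Agent.GT.CoprimeNilp
import Cfsg.Agent.GT.Conj
import Cfsg.Agent.GT.Fitting
import Cfsg.Agent.GT.HallTools
-- import your own Cfsg.Agent.* helpers here

set_option autoImplicit false
open Cfsg

namespace Cfsg.Agent.S3766

open Subgroup Cfsg.Agent.GT
open scoped commutatorElement

theorem key {G : Type*} [Group G] [Finite G] [Group.IsSolvable G] {N C : Subgroup G} [N.Normal]
    [C.Normal] (hC : C ≤ N) (hF : fittingOf N ≤ C)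
    (h : ∀ U V, IsChiefFactor U V → U ≤ fittingOf N → ⁅U, C⁆ ≤ V) : C ≤ fittingOf N := by
  by_contra hne
  obtain ⟨K, hK, hKC⟩ := exists_isChiefFactor_above (lt_of_le_not_ge hF hne)
  obtain ⟨-, p, hp, -, k, -, hk⟩ := hK.elementary
  have := Fact.mk hp
  have := hK.2.1
  obtain ⟨P, hPK, hP, hi, -⟩ := CopAct.exists_invariant_sylowIn (A := ⊥) (K := K) bot_le
    (by simp) (Or.inr inferInstance) p
  have h1 := HT.sup_eq_of_coprime_relIndex hK.1.le hPK (by
    rw [hk]; exact ((Nat.Prime.coprime_iff_not_dvd hp).2 hi).pow_left _)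
  have h2 : IsPGroup p (pCoreOf p (fittingOf N) ⊔ P : Subgroup G) :=
    CopAct.isPGroup_sup_of_le_normalizer (isPGroup_pCoreOf _ _) hP le_normalizer_of_normal
  have h3 : pCoreOf p (fittingOf N) ⊔ P ≤ C := sup_le ((pCoreOf_le _).trans hF) (hPK.trans hKC)
  have h4 : ⁅pPrimeCoreOf p (fittingOf N), pCoreOf p (fittingOf N) ⊔ P⁆ ≤ ⊥ :=
    chief_induction_down (W := fittingOf N)
      (P := fun V => ⁅pPrimeCoreOf p (fittingOf N), pCoreOf p (fittingOf N) ⊔ P⁆ ≤ V)
      ((commutator_le_left _ _).trans (pPrimeCoreOf_le _)) (fun U V hUV hU ih => by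
        rw [← CopAct.commutator_commutator_eq le_normalizer_of_normal
          (CopAct.coprime_of_isPGroup_left h2 ((Nat.Prime.coprime_iff_not_dvd hp).1
            (coprime_card_pPrimeCoreOf p _).symm))]
        exact (commutator_mono ih h3).trans (h U V hUV hU)) ⊥ bot_le
  have := h2.isNilpotent
  have := isNilpotent_of_le (pPrimeCoreOf_le (p := p) (fittingOf N))
  have h5 := isNilpotent_sup_of_le_centralizer (CopAct.commutator_eq_bot_iff.1 (le_bot_iff.1 h4))
  rw [sup_right_comm, pCoreOf_sup_pPrimeCoreOf, h1] at h5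
  exact hK.1.not_ge (le_fittingOf (hKC.trans hC) le_normalizer_of_normal)


/-- Let G be a finite solvable group and N a normal subgroup of G. Call a pair V < U of normal subgroups of G a chief factor of G when no normal subgroup of G lies strictly between them; an element g centralizes the chief factor U/V when u g u⁻¹ g⁻¹ ∈ V for all u ∈ U. Then an element of G lies in the Fitting subgroup F(N) if and only if it lies in N and centralizes every chief factor of G; and also if and only if it lies in N and centralizes every chief factor U/V of G with U ≤ F(N). -/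
theorem result {G : Type*} [Group G] [Finite G] (hG : Group.IsSolvable G) (N : Subgroup G) [N.Normal] (g : G) : (g ∈ (Cfsg.fittingSubgroup ↥N).map N.subtype ↔ g ∈ N ∧ ∀ U V : Subgroup G, (U.Normal ∧ V.Normal ∧ V < U ∧ ∀ W : Subgroup G, W.Normal → V ≤ W → W ≤ U → W = V ∨ W = U) → ∀ u ∈ U, u * g * u⁻¹ * g⁻¹ ∈ V) ∧ (g ∈ (Cfsg.fittingSubgroup ↥N).map N.subtype ↔ g ∈ N ∧ ∀ U V : Subgroup G, (U.Normal ∧ V.Normal ∧ V < U ∧ ∀ W : Subgroup G, W.Normal → V ≤ W → W ≤ U → W = V ∨ W = U) → U ≤ (Cfsg.fittingSubgroup ↥N).map N.subtype → ∀ u ∈ U, u * g * u⁻¹ * g⁻¹ ∈ V) := by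
  have h1 : g ∈ fittingOf N → ∀ U V : Subgroup G, IsChiefFactor U V → ∀ u ∈ U,
      u * g * u⁻¹ * g⁻¹ ∈ V := fun hg U V h u hu =>
    h.commutator_le_of_isNilpotent (fittingOf N) (commutator_mem_commutator hu hg)
  have h2 : g ∈ N → (∀ U V : Subgroup G, IsChiefFactor U V → U ≤ fittingOf N → ∀ u ∈ U,
      u * g * u⁻¹ * g⁻¹ ∈ V) → g ∈ fittingOf N := fun hg h => by
    refine key (C := fittingOf N ⊔ normalClosure {g}) (sup_le (fittingOf_le N)
      (normalClosure_le_normal (by simpa))) le_sup_left (fun U V hUV hU => ?_)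
      (mem_sup_right (subset_normalClosure rfl))
    have := hUV.2.1
    have := hUV.2.2.1
    have := normal_map_mk' (N := V) U
    rw [commutator_comm, ← QuotientGroup.ker_mk' V, ← map_le_centralizer_map_iff,
      map_le_iff_le_comap]
    refine sup_le ?_ (normalClosure_le_normal ?_)
    · rw [← map_le_iff_le_comap, map_le_centralizer_map_iff, QuotientGroup.ker_mk', commutator_comm]
      exact hUV.commutator_le_of_isNilpotent _
    · rintro _ rfl _ ⟨u, hu, rfl⟩
      rw [← commutatorElement_eq_one_iff_mul_comm, ← map_commutatorElement]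
      exact (QuotientGroup.eq_one_iff _).2 (h U V hUV hU u hu)
  exact ⟨⟨fun hg => ⟨fittingOf_le N hg, fun U V h => h1 hg U V ⟨h.2.2.1, h.1, h.2.1, h.2.2.2⟩⟩,
    fun hg => h2 hg.1 fun U V h _ => hg.2 U V ⟨h.2.1, h.2.2.1, h.1, h.2.2.2⟩⟩,
    fun hg => ⟨fittingOf_le N hg, fun U V h _ => h1 hg U V ⟨h.2.2.1, h.1, h.2.1, h.2.2.2⟩⟩,
    fun hg => h2 hg.1 fun U V h => hg.2 U V ⟨h.2.1, h.2.2.1, h.1, h.2.2.2⟩⟩

end Cfsg.Agent.S3766
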