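import Mathlib
-- Template for statement S3768 (row 3768; see /opt/grader/pristine/manifest.json for weights).
-- Copy to Cfsg/Agent/S3768.lean and replace the sorry. The statement below is byte-identical to the frozen
-- statement Cfsg.CfsgFrozen.S3768 (Cfsg/Statements/S3768.lean; the theorem Cfsg.fg_frobenius_group_quotient);
-- the grader kernel-checks Cfsg.Agent.S3768.result against that frozen type. Keep the theorem IN THIS FILE
-- (a `result` declared elsewhere and merely imported here is not credited); helpers may live anywhere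
-- under Cfsg/Agent/.
import Cfsg.Statements.S3768
import Cfsg.Agent.GT.FrobeniusThm
-- import your own Cfsg.Agent.* helpers here

set_option autoImplicit false
open Cfsg

namespace Cfsg.Agent.S3768

/-- Let G be a finite Frobenius group with Frobenius complement R and Frobenius kernel K (the identity together with the elements in no conjugate of R), and let N be a normal subgroup of G not containing K. Then G/N is a Frobenius group with Frobenius complement RN/N whose Frobenius kernel is the image of K. -/
theorem result {G : Type*} [Group G] [Finite G] (R : Subgroup G) (hR : Cfsg.IsFrobeniusComplement R) (N : Subgroup G) [N.Normal] (hKN : ¬ Cfsg.frobeniusKernel R ⊆ N) : Cfsg.IsFrobeniusComplement (R.map (QuotientGroup.mk' N)) ∧ Cfsg.frobeniusKernel (R.map (QuotientGroup.mk' N)) = QuotientGroup.mk' N '' Cfsg.frobeniusKernel R := by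
  have hKn := hR.kernel_normal
  have hNK : N ≤ hR.kernel :=
    (hR.le_or_le_of_normal hR.coe_kernel N).resolve_left fun h => hKN h
  have hc : Subgroup.IsComplement' (hR.kernel.map (QuotientGroup.mk' N))
      (R.map (QuotientGroup.mk' N)) := by
    refine Subgroup.isComplement'_of_disjoint_and_mul_eq_univ ?_ ?_
    · rw [Subgroup.disjoint_def]
      rintro _ ⟨k, hk, rfl⟩ ⟨r, hr, hrk⟩
      have h1 : r⁻¹ * k ∈ N := QuotientGroup.eq.mp hrk
      have h2 : r ∈ hR.kernel := by
        have := hR.kernel.mul_mem (hNK h1) (hR.kernel.inv_mem hk)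
        simpa using this
      rw [← hrk, GT.Frob.eq_one_of_mem_frobeniusKernel h2 hr, map_one]
    · rw [Set.eq_univ_iff_forall]
      intro x
      obtain ⟨g, rfl⟩ := QuotientGroup.mk'_surjective N x
      obtain ⟨⟨k, r⟩, rfl⟩ := hR.isComplement'_kernel.2 g
      exact ⟨_, ⟨k, k.2, rfl⟩, _, ⟨r, r.2, rfl⟩, (map_mul _ _ _).symm⟩
  have hF : Cfsg.IsFrobeniusComplement (R.map (QuotientGroup.mk' N)) := by
    refine GT.Frob.isFrobeniusComplement_of_fpf hc (fun h => hKN fun k hk => ?_) (fun h => ?_) ?_
    · have : QuotientGroup.mk' N k ∈ hR.kernel.map (QuotientGroup.mk' N) := ⟨k, hk, rfl⟩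
      rw [h, Subgroup.mem_bot] at this
      exact (QuotientGroup.eq_one_iff k).mp this
    · refine hR.ne_bot (eq_bot_iff.mpr fun r hr => ?_)
      have : QuotientGroup.mk' N r ∈ R.map (QuotientGroup.mk' N) := ⟨r, hr, rfl⟩
      rw [h, Subgroup.mem_bot] at this
      exact GT.Frob.eq_one_of_mem_frobeniusKernel (hNK ((QuotientGroup.eq_one_iff r).mp this)) hr
    · rintro _ ⟨r, hr, rfl⟩ hr1
      have hr1' : r ≠ 1 := fun h => hr1 (by rw [h, map_one])
      rw [eq_bot_iff]
      rintro _ ⟨⟨k, hk, rfl⟩, hkr⟩
      have hkr' := Subgroup.mem_centralizer_singleton_iff.mp hkr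
      have h1 : k * r * k⁻¹ * r⁻¹ ∈ N := by
        rw [← QuotientGroup.eq_one_iff]
        change QuotientGroup.mk' N _ = 1
        simp only [map_mul, map_inv]
        rw [hkr']; group
      have hfp := hR.kernel_inf_centralizer r hr hr1'
      obtain ⟨n, hn, h2⟩ := GT.Frob.exists_commutator_eq_of_fpf (K := N) (a := r)
        (by rw [Subgroup.normalizer_eq_top]; trivial)
        (eq_bot_iff.mpr ((inf_le_inf_right _ hNK).trans hfp.le)) h1
      have h3 : n⁻¹ * k ∈ hR.kernel ⊓ Subgroup.centralizer {r} := by
        refine ⟨hR.kernel.mul_mem (hNK (N.inv_mem hn)) hk,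
          Subgroup.mem_centralizer_singleton_iff.mpr ?_⟩
        have h4 : n * r * n⁻¹ = k * r * k⁻¹ := mul_right_cancel h2
        calc n⁻¹ * k * r = n⁻¹ * (k * r * k⁻¹) * k := by group
          _ = r * (n⁻¹ * k) := by rw [← h4]; group
      rw [hfp, Subgroup.mem_bot, inv_mul_eq_one] at h3
      rw [Subgroup.mem_bot, ← h3]
      exact (QuotientGroup.eq_one_iff n).mpr hn
  refine ⟨hF, ?_⟩
  rw [hF.kernel_eq_of_isComplement' hc, Subgroup.coe_map, hR.coe_kernel]

end Cfsg.Agent.S3768
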