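import Cfsg.Statements.S3770
import Cfsg.Agent.FT.BG3_5
import Cfsg.Agent.FT.Normal
import Cfsg.Agent.FT.Mim
import Cfsg.Agent.GT.FrobeniusThm

set_option autoImplicit false
open Cfsg

namespace Cfsg.Agent.S3770

/-- Let G and V be subgroups of a finite group with G a Frobenius group with complement R of prime order and kernel K, G normalizing V, and V an elementary abelian ℓ-group for a prime ℓ not dividing the order of G. If C_V(R) has order ℓ, then the derived subgroup of K centralizes V. -/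
theorem result {X : Type*} [Group X] [Finite X] (G : Subgroup X) (V : Subgroup X) {ℓ : ℕ} (hℓ : ℓ.Prime) (hV : Cfsg.IsElementaryAbelian ℓ V) (hℓG : ¬ ℓ ∣ Nat.card G) (hGV : G ≤ Subgroup.normalizer (V : Set X)) (R : Subgroup ↥G) (hR : Cfsg.IsFrobeniusComplement R) (hRp : (Nat.card R).Prime) (hCV : Nat.card ↥(V ⊓ Subgroup.centralizer ((R.map G.subtype : Subgroup X) : Set X)) = ℓ) : ⁅Subgroup.closure (Subtype.val '' Cfsg.frobeniusKernel R), Subgroup.closure (Subtype.val '' Cfsg.frobeniusKernel R)⁆ ≤ Subgroup.centralizer (V : Set X) := by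
  have := Fact.mk hℓ
  have hK : Subgroup.closure (Subtype.val '' Cfsg.frobeniusKernel R) = hR.kernel.map G.subtype := by
    rw [← hR.closure_kernel, MonoidHom.map_closure]
    rfl
  have hn := hR.kernel_normal
  have hs := FT.sdprod_top_iff.2 hR.isComplement'_kernel
  have hinj := G.subtype_injective
  have hs' : FT.Sdprod (hR.kernel.map G.subtype) (R.map G.subtype) G := by
    refine ⟨?_, ?_, (Subgroup.map_subtype_le R).trans (FT.normalIn_map_subtype _).norm⟩
    · rw [← Subgroup.map_sup, hs.sup_eq, ← MonoidHom.range_eq_map, Subgroup.range_subtype]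
    · rw [← Subgroup.map_inf _ _ _ hinj, hs.inf_eq, Subgroup.map_bot]
  have hc : Nat.card (R.map G.subtype) = Nat.card R := Subgroup.card_map_of_injective hinj
  rw [hK]
  refine (FT.Frobenius_prime_cent_prime hs' (hc ▸ hRp) ?_ hV hGV hℓG hCV.le).trans inf_le_right
  obtain ⟨r, hr, hr1⟩ := FT.exists_mem_ne_one hR.ne_bot
  rw [eq_bot_iff]
  rintro _ ⟨⟨k, hk, rfl⟩, hc⟩
  have h1 : k ∈ hR.kernel ⊓ Subgroup.centralizer {r} :=
    ⟨hk, FT.mem_cent_elt'.2 (Subtype.ext (FT.mem_cent.1 hc r ⟨r, hr, rfl⟩))⟩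
  rw [hR.kernel_inf_centralizer r hr hr1, Subgroup.mem_bot] at h1
  simp [h1]

end Cfsg.Agent.S3770
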