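import Mathlib
import Cfsg.Agent.GT.PGroupGauss
import Cfsg.Statements.S3772
-- import your own Cfsg.Agent.* helpers here

set_option autoImplicit false
open Cfsg

namespace Cfsg.Agent.S3772

/-- Let G be a finite 2-group whose Frattini subgroup Φ(G) has order 2, with |G : Φ(G)| = 2^d, and let j be the number of elements x of G with x² = 1. Then j = 2^d, or j = 2^d + 2^(d−r) or j = 2^d − 2^(d−r) for some positive integer r with 2r ≤ d. Moreover if d = 2r and j is 2^d + 2^r or 2^d − 2^r, then G is extraspecial. -/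
theorem result {G : Type*} [Group G] [Finite G] (hG : IsPGroup 2 G) (hΦ : Nat.card (frattini G) = 2) (d : ℕ) (hd : (frattini G).index = 2 ^ d) : (Nat.card {x : G // x ^ 2 = 1} = 2 ^ d ∨ ∃ r : ℕ, 1 ≤ r ∧ 2 * r ≤ d ∧ (Nat.card {x : G // x ^ 2 = 1} = 2 ^ d + 2 ^ (d - r) ∨ Nat.card {x : G // x ^ 2 = 1} + 2 ^ (d - r) = 2 ^ d)) ∧ (∀ r : ℕ, d = 2 * r → (Nat.card {x : G // x ^ 2 = 1} = 2 ^ d + 2 ^ r ∨ Nat.card {x : G // x ^ 2 = 1} + 2 ^ r = 2 ^ d) → Cfsg.IsExtraspecial 2 G) := by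
  have hc : Nat.card G = 2 ^ (d + 1) := by rw [← (frattini G).index_mul_card, hd, hΦ, pow_succ]
  have hC := GT.PG.le_center_of_normal_card_prime hG _ hΦ
  have hcl : commutator G ≤ Subgroup.center G := (GT.PG.commutator_le_frattini hG).trans hC
  obtain ⟨k, hk⟩ := GT.PG.card_eq_pow_of_isPGroup (hG.to_subgroup (Subgroup.center G))
  have hk1 : 1 ≤ k := (Nat.pow_le_pow_iff_right one_lt_two).1
    (by rw [← hk, pow_one, ← hΦ]; exact Subgroup.card_le_of_le hC)
  have e1 : (2 : ℕ) ^ (d + 1) = 2 * 2 ^ d := by ring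
  rcases GT.PG.card_sq_eq_one_of_card_frattini hG hΦ with ⟨h, -⟩ | ⟨h, hZ⟩
  · refine ⟨Or.inl (by omega), fun r _ h' => ?_⟩
    have : 0 < 2 ^ r := Nat.one_le_two_pow
    omega
  have hna : ¬ IsMulCommutative G := fun e => by
    have := (GT.PG.frattini_eq_bot_iff hG).2
      ⟨e, fun y => hZ y (Subgroup.mem_center_iff.2 fun g => e.is_comm.comm g y)⟩
    rw [this, Subgroup.card_bot] at hΦ
    omega
  have hk2 : k ≤ d := by
    have hne : Subgroup.center G ≠ ⊤ := fun e => hna ⟨⟨fun a b =>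
      Subgroup.mem_center_iff.1 (e ▸ Subgroup.mem_top b) a⟩⟩
    have := GT.PG.card_lt_of_lt hne.lt_top
    rw [hk, Subgroup.card_top, hc, Nat.pow_lt_pow_iff_right one_lt_two] at this
    omega
  rw [hc, hk] at h
  obtain ⟨j, hj, h2⟩ := GT.PG.int_eq_two_pow_of_sq (m := d + 1 + k) (h.trans (by push_cast; ring))
  obtain ⟨i, rfl⟩ : ∃ i, j = i + 1 := ⟨j - 1, by omega⟩
  have e2 : (2 : ℤ) ^ (i + 1) = 2 * ((2 ^ i : ℕ) : ℤ) := by push_cast; ring
  rw [e1, e2] at h2
  refine ⟨Or.inr ⟨d - i, by omega, by omega, ?_⟩, fun r hr h' => ?_⟩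
  · rw [show d - (d - i) = i by omega]
    omega
  · have : 0 < 2 ^ r := Nat.one_le_two_pow
    have : 0 < 2 ^ i := Nat.one_le_two_pow
    have h3 : r = i := Nat.pow_right_injective le_rfl (by dsimp only; omega)
    exact GT.PG.isExtraspecial_of_card_center (by rw [hk, show k = 1 by omega, pow_one]) hna hcl

end Cfsg.Agent.S3772
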