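import Mathlib
import Cfsg.Agent.GT.PGroupAbelianAct
import Cfsg.Statements.S3775
-- import your own Cfsg.Agent.* helpers here

set_option autoImplicit false
open Cfsg

namespace Cfsg.Agent.S3775

/-- Let A be a finite abelian p-group and X a group of automorphisms of A of order prime to p. Call a subgroup of A invariant when every element of X maps it onto itself. Then the following are equivalent: (i) A is not the direct product of two nontrivial invariant subgroups; (ii) every invariant subgroup of A is one of the subgroups Ω_i(A) = {a : a^(p^i) = 1}; (iii) the subgroup Ω₁(A) of elements of order dividing p has no invariant subgroups other than 1 and itself. -/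
theorem result {A : Type*} [CommGroup A] [Finite A] {p : ℕ} [Fact p.Prime] (hA : IsPGroup p A) (X : Subgroup (MulAut A)) (hX : (Nat.card X).Coprime p) : ((¬ ∃ B C : Subgroup A, B ≠ ⊥ ∧ C ≠ ⊥ ∧ (∀ x ∈ X, B.map x.toMonoidHom = B) ∧ (∀ x ∈ X, C.map x.toMonoidHom = C) ∧ B ⊓ C = ⊥ ∧ B ⊔ C = ⊤) ↔ (∀ B : Subgroup A, (∀ x ∈ X, B.map x.toMonoidHom = B) → ∃ i : ℕ, ∀ a : A, a ∈ B ↔ a ^ p ^ i = 1)) ∧ ((∀ B : Subgroup A, (∀ x ∈ X, B.map x.toMonoidHom = B) → ∃ i : ℕ, ∀ a : A, a ∈ B ↔ a ^ p ^ i = 1) ↔ (∀ B : Subgroup A, (∀ x ∈ X, B.map x.toMonoidHom = B) → (∀ b ∈ B, b ^ p = 1) → B = ⊥ ∨ ∀ a : A, a ∈ B ↔ a ^ p = 1)) := by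
  have hi : ∀ B : Subgroup A, (∀ x ∈ X, B.map x.toMonoidHom = B) ↔ GT.CopAct.ActInv X.subtype B :=
    fun B => by
      rw [GT.CopAct.actInv_iff_map_eq]
      exact ⟨fun h x => h x x.2, fun h x hx => h ⟨x, hx⟩⟩
  simp only [hi]
  have h1 : (∀ B : Subgroup A, GT.CopAct.ActInv X.subtype B → ∃ i : ℕ, ∀ a : A, a ∈ B ↔ a ^ p ^ i = 1) →
      ∀ V : Subgroup A, GT.CopAct.ActInv X.subtype V → V ≠ ⊥ → ∀ a : A, a ^ p = 1 → a ∈ V := by
    intro h V hV hV1 a ha
    obtain ⟨i, hi⟩ := h V hV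
    rcases i with _ | i
    · exact absurd (eq_bot_iff.2 fun b hb => by simpa using (hi b).1 hb) hV1
    · exact (hi a).2 (by rw [pow_succ', pow_mul, ha, one_pow])
  refine ⟨⟨fun h B hB => GT.PG.act_exists_eq_omega_of_irreducible hA (fun V hV hV1 a ha =>
    GT.PG.act_irreducible_of_indecomposable hA hX (fun B C b1 b2 b3 b4 => ?_) hV hV1 ha) hB, ?_⟩,
    ⟨fun h B hB he => ?_, fun h B hB =>
      GT.PG.act_exists_eq_omega_of_irreducible hA (fun V hV hV1 a ha => ?_) hB⟩⟩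
  · by_contra! e
    exact h ⟨B, C, e.1, e.2, b1, b2, b3, b4⟩
  · rintro h ⟨B, C, b1, b2, b3, b4, b5, -⟩
    obtain ⟨c, hc, hc1, hcp⟩ := GT.PG.exists_mem_ne_one_pow_eq_one (hA.to_subgroup C) b2
    exact hc1 (Subgroup.mem_bot.1 (b5 ▸ ⟨h1 h B b3 b1 c hcp, hc⟩))
  · exact (eq_or_ne B ⊥).imp id fun hne a => ⟨he a, h1 h B hB hne a⟩
  · obtain ⟨c, hc, hc1, hcp⟩ := GT.PG.exists_mem_ne_one_pow_eq_one (hA.to_subgroup V) hV1
    rcases h (V ⊓ (⊥ : Subgroup A).comap (powMonoidHom p))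
      (hV.inf (GT.PG.actInv_comap_pow (GT.CopAct.actInv_bot _) p)) (fun b hb => hb.2) with e | e
    · exact absurd (Subgroup.mem_bot.1 (e ▸ ⟨hc, hcp⟩)) hc1
    · exact ((e a).2 ha).1

end Cfsg.Agent.S3775
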