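import Mathlib
import Cfsg.Agent.Chev.ShHig2
import Cfsg.Agent.Chev.ShSet
import Cfsg.Agent.GT.PGroupFrattini
import Cfsg.Statements.S3776
-- import your own Cfsg.Agent.* helpers here

set_option autoImplicit false
open Cfsg

namespace Cfsg.Agent.S3776

/-- Let G be a finite non-abelian 2-group with more than one involution admitting a solvable group of automorphisms that permutes its involutions transitively. Then the derived subgroup, the Frattini subgroup and the centre of G coincide and consist exactly of the elements x with x² = 1. -/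
theorem result {G : Type*} [Group G] [Finite G] (hG : IsPGroup 2 G) (hna : ¬ IsMulCommutative G) (htwo : ∃ x y : G, x ≠ y ∧ x ≠ 1 ∧ x ^ 2 = 1 ∧ y ≠ 1 ∧ y ^ 2 = 1) (hY : ∃ Y : Subgroup (MulAut G), Group.IsSolvable Y ∧ ∀ x y : G, x ≠ 1 → x ^ 2 = 1 → y ≠ 1 → y ^ 2 = 1 → ∃ a ∈ Y, a x = y) : commutator G = frattini G ∧ frattini G = Subgroup.center G ∧ ∀ x : G, x ∈ Subgroup.center G ↔ x ^ 2 = 1 := by
  obtain ⟨F, _, _, _, ξ, l, ι, h1, h2, h3, h4, h5, h6, h7, h8, h9⟩ := Chev.Sh.exists_setup hG htwo hY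
  let S : Chev.Sh.Hg G F := ⟨ξ, l, ι, ⟨h1, h2⟩, h3, hG, h4, h5, h6, h7, h8, h9⟩
  have hn : ∃ x y : G, x * y ≠ y * x := by
    by_contra! h
    exact hna ⟨⟨h⟩⟩
  have hf : frattini G = S.Om := by
    rw [GT.PG.frattini_eq_powerClosure_two hG, ← S.sq_top_eq hn, powerClosure, Chev.Sz2.sq]
    simp only [pow_one, pow_two, eq_comm]
  rw [hf, S.commutator_eq hn, S.center_eq hn]
  exact ⟨rfl, rfl, fun x => by rw [pow_two]; rfl⟩

end Cfsg.Agent.S3776
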