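import Mathlib
import Cfsg.Statements.S3777
import Cfsg.Agent.GT.PGroupChain
import Cfsg.Agent.GT.PGroupFrattini
import Cfsg.Agent.FG.ClassIdx
import Cfsg.Agent.GT.Conj

set_option autoImplicit false
open Cfsg

namespace Cfsg.Agent.S3777

open Cfsg.Agent.GT Subgroup
open scoped commutatorElement IsMulCommutative

universe u

theorem exists_notMem_notMem {G : Type*} [Group G] {M A B : Subgroup G} (hA : ¬ M ≤ A)
    (hB : ¬ M ≤ B) : ∃ a ∈ M, a ∉ A ∧ a ∉ B := by
  by_contra h
  push Not at h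
  have : (M : Set G) ⊆ A ∪ B := fun x hx => by
    by_cases hx' : x ∈ A
    · exact Or.inl hx'
    · exact Or.inr (h x hx hx')
  rcases SubgroupClass.subset_union.1 this with h | h
  · exact hA h
  · exact hB h

theorem centralizer_eq_subgroupOf {G : Type*} [Group G] (C : Subgroup G) (g : C) :
    centralizer {g} = (centralizer {(g : G)}).subgroupOf C := by
  ext x
  rw [mem_subgroupOf, mem_centralizer_singleton_iff, mem_centralizer_singleton_iff, Subtype.ext_iff]
  rfl

theorem index_cent_le {G : Type*} [Group G] [Finite G] (C : Subgroup G) [C.Normal] (g : C) :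
    (centralizer {g}).index ≤ (centralizer {(g : G)}).index := by
  rw [centralizer_eq_subgroupOf]
  exact Nat.le_of_dvd (Nat.pos_of_ne_zero index_ne_zero_of_finite)
    (FG.CI.relIndex_dvd_index_of_normal_right _ C)

theorem key {G : Type*} [Group G] [Finite G] {p : ℕ} (hp : p.Prime) (C : Subgroup G)
    [hC : C.Normal] (hi : C.index = p) {a : G} (ha : a ∉ C) :
    ∃ K : Subgroup C, Nat.card (commutator G) ≤ Nat.card (commutator C) * K.index ∧
      K.index ≤ (centralizer {a}).index ∧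
      ∀ g : C, g ∉ K → (centralizer {(g : G)}).index = p * (centralizer {g}).index := by
  have hcomm : IsMulCommutative (C ⧸ commutator C) :=
    Subgroup.Normal.quotient_commutative_iff_commutator_le.2 le_rfl
  let α : C ≃* C := MulAut.conjNormal a
  have hα : ∀ g : C, ((α g : C) : G) = a * g * a⁻¹ := fun g => rfl
  let φ : C →* C ⧸ commutator C :=
    { toFun := fun g => ((g * (α g)⁻¹ : C) : C ⧸ commutator C)
      map_one' := by simp
      map_mul' := fun x y => by
        simp only [map_mul, mul_inv_rev, QuotientGroup.mk_mul]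
        rw [mul_comm (((α y)⁻¹ : C) : C ⧸ commutator C), mul_mul_mul_comm] }
  have hφ : ∀ g : C, φ g = ((g * (α g)⁻¹ : C) : C ⧸ commutator C) := fun g => rfl
  have hD : (commutator C).map C.subtype = ⁅C, C⁆ := by
    rw [_root_.commutator_def, map_commutator, ← MonoidHom.range_eq_map, range_subtype]
  have hker : ∀ g : C, g ∈ φ.ker ↔ ⁅(g : G), a⁆ ∈ ⁅C, C⁆ := by
    intro g
    rw [MonoidHom.mem_ker, hφ, QuotientGroup.eq_one_iff, ← hD]
    constructor
    · intro h
      refine ⟨_, h, ?_⟩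
      simp [hα, commutatorElement_def, mul_assoc]
    · rintro ⟨x, hx, e⟩
      have : x = g * (α g)⁻¹ := Subtype.ext (by
        simpa [hα, commutatorElement_def, mul_assoc] using e)
      exact this ▸ hx
  have hsup : C ⊔ zpowers a = ⊤ := PG.sup_zpowers_eq_top_of_index_prime hp hi ha
  refine ⟨φ.ker, ?_, ?_, ?_⟩
  · let N0 : Subgroup C := φ.range.comap (QuotientGroup.mk' _)
    let N : Subgroup G := N0.map C.subtype
    have hCN : ⁅C, C⁆ ≤ N := by
      rw [← hD]
      refine map_mono fun x hx => ?_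
      show ((x : C) : C ⧸ commutator C) ∈ φ.range
      rw [(QuotientGroup.eq_one_iff x).2 hx]
      exact one_mem _
    have hNC : N ≤ C := map_subtype_le _
    have hcN : ∀ g ∈ C, ⁅g, a⁆ ∈ N := fun g hg =>
      ⟨⟨g, hg⟩ * (α ⟨g, hg⟩)⁻¹, ⟨⟨g, hg⟩, rfl⟩, by simp [hα, commutatorElement_def, mul_assoc]⟩
    have hN : N.Normal := by
      refine normal_of_sup_eq_top hsup ?_ ?_
      · exact PG.le_normalizer_of_commutator_le ((commutator_mono hNC le_rfl).trans hCN) le_rfl
      · rw [zpowers_le]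
        refine PG.mem_normalizer_of_commutator_mem fun g hg => ?_
        rw [← commutatorElement_inv]
        exact inv_mem (hcN g (hNC hg))
    have hle : commutator G ≤ N := by
      rw [← Subgroup.Normal.quotient_commutative_iff_commutator_le,
        ← PG.isMulCommutative_top_iff]
      have e : (⊤ : Subgroup (G ⧸ N)) = C.map (QuotientGroup.mk' N) ⊔ zpowers (a : G ⧸ N) := by
        rw [← Subgroup.map_top_of_surjective _ (QuotientGroup.mk'_surjective N), ← hsup,
          Subgroup.map_sup, MonoidHom.map_zpowers]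
        rfl
      rw [e]
      refine PG.isMulCommutative_sup_zpowers ?_ ?_
      · rw [PG.isMulCommutative_iff_forall]
        rintro _ ⟨x, hx, rfl⟩ _ ⟨y, hy, rfl⟩
        rw [← commutatorElement_eq_one_iff_mul_comm, ← map_commutatorElement]
        exact (QuotientGroup.eq_one_iff _).2 (hCN (commutator_mem_commutator hx hy))
      · rintro _ ⟨x, hx, rfl⟩
        rw [← commutatorElement_eq_one_iff_mul_comm]
        exact (QuotientGroup.eq_one_iff ⁅x, a⁆).2 (hcN x hx)
    refine (card_le_of_le hle).trans (le_of_eq ?_)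
    rw [card_map_of_injective C.subtype_injective, index_ker]
    have e1 := N0.card_mul_index
    have e2 := φ.range.card_mul_index
    have e3 := (commutator C).card_mul_index
    have e4 : N0.index = φ.range.index := index_comap_of_surjective _ (QuotientGroup.mk'_surjective _)
    rw [← e3, (commutator C).index_eq_card, ← e2, e4, ← mul_assoc] at e1
    exact Nat.eq_of_mul_eq_mul_right (Nat.pos_of_ne_zero index_ne_zero_of_finite) e1
  · refine le_trans (Nat.le_of_dvd (Nat.pos_of_ne_zero index_ne_zero_of_finite)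
      (index_dvd_of_le (H := (centralizer {a}).subgroupOf C) fun g hg => ?_))
      (Nat.le_of_dvd (Nat.pos_of_ne_zero index_ne_zero_of_finite)
        (FG.CI.relIndex_dvd_index_of_normal_right _ C))
    rw [hker, commutatorElement_eq_one_iff_mul_comm.2
      (mem_centralizer_singleton_iff.1 (mem_subgroupOf.1 hg))]
    exact one_mem _
  · intro g hg
    have hle : centralizer {(g : G)} ≤ C := by
      by_contra hn
      obtain ⟨y, hy, hyC⟩ := SetLike.not_le_iff_exists.1 hn
      let S : Subgroup G := (centralizer {((g : G) : G ⧸ ⁅C, C⁆)}).comap (QuotientGroup.mk' _)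
      have hS : ∀ x, x ∈ S ↔ ⁅(g : G), x⁆ ∈ ⁅C, C⁆ := by
        intro x
        rw [mem_comap, mem_centralizer_singleton_iff, eq_comm,
          ← commutatorElement_eq_one_iff_mul_comm, ← QuotientGroup.eq_one_iff]
        rfl
      have h1 : C ⊔ zpowers y ≤ S := by
        refine sup_le (fun x hx => (hS x).2 (commutator_mem_commutator g.2 hx)) ?_
        rw [zpowers_le, hS, commutatorElement_eq_one_iff_mul_comm.2
          (mem_centralizer_singleton_iff.1 hy).symm]
        exact one_mem _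
      rw [PG.sup_zpowers_eq_top_of_index_prime hp hi hyC] at h1
      exact hg ((hker g).2 ((hS a).1 (h1 (mem_top a))))
    rw [← relIndex_mul_index hle, hi, mul_comm, centralizer_eq_subgroupOf]
    rfl

theorem third {G : Type*} [Group G] [Finite G] {p : ℕ} [hp : Fact p.Prime] (hG : IsPGroup p G)
    {M₁ M₂ : Subgroup G} (h1 : M₁.index = p) (h2 : M₂.index = p) (hne : M₁ ≠ M₂) :
    ∃ C : Subgroup G, C.index = p ∧ C ⊓ M₁ ≤ M₂ ∧ C ⊓ M₂ ≤ M₁ ∧ ¬ C ≤ M₁ ∧ ¬ M₂ ≤ M₁ ∧
      (p ≠ 2 → ∃ a, a ∉ C ∧ a ∉ M₁ ∧ a ∉ M₂) := by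
  have c1 := PG.isCoatom_of_index_prime hp.out h1
  have c2 := PG.isCoatom_of_index_prime hp.out h2
  have n12 : ¬ M₁ ≤ M₂ := fun h => hne (c1.le_iff_eq c2.1 |>.1 h).symm
  have n21 : ¬ M₂ ≤ M₁ := fun h => hne (c2.le_iff_eq c1.1 |>.1 h)
  obtain ⟨x, hx1, hx2⟩ := SetLike.not_le_iff_exists.1 n12
  obtain ⟨y, hy2, hy1⟩ := SetLike.not_le_iff_exists.1 n21
  have := PG.normal_of_index_prime hG h1
  have := PG.normal_of_index_prime hG h2
  have hxy1 : x * y ∉ M₁ := fun h => hy1 ((mul_mem_cancel_left hx1).1 h)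
  have hxy2 : x * y ∉ M₂ := fun h => hx2 ((mul_mem_cancel_right hy2).1 h)
  have hr : (M₁ ⊓ M₂).relIndex ((M₁ ⊓ M₂) ⊔ zpowers (x * y)) = p :=
    PG.relIndex_sup_zpowers hp.out (le_normalizer_of_normal (mem_top _)) (fun h => hxy1 h.1)
      ⟨PG.pow_mem_of_index_prime hG h1 _, PG.pow_mem_of_index_prime hG h2 _⟩
  have hmem : x * y ∈ (M₁ ⊓ M₂) ⊔ zpowers (x * y) := mem_sup_right (mem_zpowers _)
  have k1 : ((M₁ ⊓ M₂) ⊔ zpowers (x * y)) ⊓ M₁ ≤ M₂ := by
    rcases PG.eq_or_eq_of_relIndex_prime hp.out (le_inf le_sup_left inf_le_left) inf_le_left hr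
      with h | h
    · rw [h]; exact inf_le_right
    · exact absurd (h.ge hmem).2 hxy1
  have k2 : ((M₁ ⊓ M₂) ⊔ zpowers (x * y)) ⊓ M₂ ≤ M₁ := by
    rcases PG.eq_or_eq_of_relIndex_prime hp.out (le_inf le_sup_left inf_le_right) inf_le_left hr
      with h | h
    · rw [h]; exact inf_le_left
    · exact absurd (h.ge hmem).2 hxy2
  refine ⟨(M₁ ⊓ M₂) ⊔ zpowers (x * y), ?_, k1, k2, fun h => hxy1 (h hmem), n21, fun hp2 => ?_⟩
  · have e1 := relIndex_mul_index (le_sup_left : M₁ ⊓ M₂ ≤ (M₁ ⊓ M₂) ⊔ zpowers (x * y))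
    have e2 := relIndex_mul_index (inf_le_right : M₁ ⊓ M₂ ≤ M₂)
    rw [inf_relIndex_right, ← relIndex_sup_left, c1.2 _ (left_lt_sup.2 n21), relIndex_top_right,
      h1, h2, ← e1, hr] at e2
    exact (Nat.eq_of_mul_eq_mul_left hp.out.pos e2).symm
  · refine ⟨x * y * y, fun h => hy1 (k2 ⟨(mul_mem_cancel_left hmem).1 h, hy2⟩), fun h => ?_,
      fun h => hxy2 ((mul_mem_cancel_right hy2).1 h)⟩
    rw [mul_assoc, mul_mem_cancel_left hx1] at h
    have := (PG.zpow_mem_iff_of_pow_prime_mem hp.out hy1 (PG.pow_mem_of_index_prime hG h1 y) 2).1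
      (by rwa [zpow_two])
    exact hp2 ((Nat.prime_dvd_prime_iff_eq hp.out Nat.prime_two).1 (by exact_mod_cast this))

theorem le_of_lt_succ {G : Type*} [Group G] [Finite G] {p : ℕ} [hp : Fact p.Prime]
    (hG : IsPGroup p G) {K : Subgroup G} {m : ℕ} (h : ¬ p ^ (m + 1) ≤ K.index) :
    K.index ≤ p ^ m := by
  obtain ⟨k, hk⟩ := hG.index K
  rw [hk] at h ⊢
  rw [Nat.pow_le_pow_iff_right hp.out.one_lt] at h ⊢
  omega

/-- the inductive statement -/
def T (p : ℕ) (G : Type*) [Group G] : Prop :=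
  ∀ (n : ℕ) (H₁ H₂ : Subgroup G), H₁ ≠ ⊤ → H₂ ≠ ⊤ → (p = 2 → H₂.index ≠ 2) →
    (∀ x : G, p ^ n ≤ (centralizer {x}).index → x ∈ H₁ ∨ x ∈ H₂) →
    Nat.card (commutator G) ≤ p ^ n.choose 2

theorem card_comm_le {G : Type*} [Group G] (h : IsMulCommutative G) {p : ℕ} (hp : p.Prime) (k : ℕ) :
    Nat.card (commutator G) ≤ p ^ k := by
  rw [(commutator_eq_bot_iff G).2 h, card_bot]
  exact Nat.one_le_pow _ _ hp.pos

theorem T.single {G : Type*} [Group G] [Finite G] {p : ℕ} [hp : Fact p.Prime] (h : T p G) (n : ℕ)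
    {H : Subgroup G} (hH : H ≠ ⊤) (hc : ∀ x : G, p ^ n ≤ (centralizer {x}).index → x ∈ H) :
    Nat.card (commutator G) ≤ p ^ n.choose 2 := by
  by_cases h2 : Nat.card G = 2
  · have := Fact.mk Nat.prime_two
    have : IsCyclic G := isCyclic_of_prime_card h2
    exact card_comm_le inferInstance hp.out _
  · refine h n H ⊥ hH (fun e => hH (top_le_iff.1 (e ▸ bot_le))) (fun _ => by rwa [index_bot])
      fun x hx => Or.inl (hc x hx)

theorem choose_succ (m : ℕ) : (m + 1).choose 2 = m.choose 2 + m := by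
  rw [Nat.choose_succ_succ' m 1, Nat.choose_one_right, add_comm]

theorem card_lt_of_index {G : Type*} [Group G] [Finite G] {p : ℕ} (hp : p.Prime) {C : Subgroup G}
    (h : C.index = p) : Nat.card C < Nat.card G := by
  rw [← C.card_mul_index, h]
  exact lt_mul_of_one_lt_right Nat.card_pos hp.one_lt

theorem two_case {C : Type u} [Group C] [Finite C] (hC : IsPGroup 2 C)
    (ih : ∀ (E : Type u) [Group E] [Finite E], IsPGroup 2 E → Nat.card E < Nat.card C → T 2 E)
    {m : ℕ} (hm : 1 ≤ m) {D K : Subgroup C} (hD : D.index = 2) (hK : K.index = 2) (hne : D ≠ K)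
    (h1 : ∀ x : C, 2 ^ m ≤ (centralizer {x}).index → x ∈ D ∨ x ∈ K)
    (h2 : ∀ x : C, 2 ^ (m + 1) ≤ (centralizer {x}).index → x ∈ D) :
    Nat.card (commutator C) * 2 ≤ 2 ^ (m + 1).choose 2 := by
  obtain ⟨E, hE, -, k2, k3, k4, -⟩ := third hC hD hK hne
  obtain ⟨a, haK, haD⟩ := SetLike.not_le_iff_exists.1 k4
  have := PG.normal_of_index_prime hC hE
  obtain ⟨L, l1, l2, l3⟩ := key Nat.prime_two E hE (a := a) (fun h => haD (k2 ⟨h, haK⟩))
  have l4 : L.index ≤ 2 ^ m := l2.trans (le_of_lt_succ hC fun h => haD (h2 a h))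
  have hT := ih E (hC.to_subgroup E) (card_lt_of_index Nat.prime_two hE)
  have hF : D.subgroupOf E ≠ ⊤ := fun h => k3 (subgroupOf_eq_top.1 h)
  have hcov : ∀ x : E, 2 ^ m ≤ (centralizer {(x : C)}).index → x ∈ D.subgroupOf E := fun x hx =>
    (h1 x hx).elim id fun h => k2 ⟨x.2, h⟩
  obtain ⟨k, rfl⟩ : ∃ k, m = k + 1 := ⟨m - 1, by omega⟩
  by_cases hL : 2 ^ (k + 1) ≤ L.index
  · have hL' : L.index = 2 ^ (k + 1) := le_antisymm l4 hL
    have hLt : L ≠ ⊤ := by
      rintro rfl
      rw [index_top] at hL'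
      exact (Nat.one_lt_two_pow (by omega)).ne hL'
    have hcov2 : ∀ x : E, 2 ^ k ≤ (centralizer {x}).index → x ∈ D.subgroupOf E ∨ x ∈ L := by
      intro x hx
      by_cases hxL : x ∈ L
      · exact Or.inr hxL
      · refine Or.inl (hcov x ?_)
        rw [l3 x hxL, pow_succ']
        omega
    rcases k with _ | k
    · obtain ⟨x, -, hx1, hx2⟩ := exists_notMem_notMem (M := ⊤) (fun h => hF (top_le_iff.1 h))
        (fun h => hLt (top_le_iff.1 h))
      exact absurd (hcov2 x (Nat.pos_of_ne_zero index_ne_zero_of_finite)) (not_or.2 ⟨hx1, hx2⟩)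
    · have := hT (k + 1) _ L hF hLt (fun _ h => by
        rw [hL', pow_succ, pow_succ] at h
        have := Nat.one_le_two_pow (n := k)
        omega) hcov2
      calc _ ≤ 2 ^ (k + 1).choose 2 * 2 ^ (k + 1 + 1) * 2 :=
            Nat.mul_le_mul_right _ (l1.trans (Nat.mul_le_mul this l4))
        _ = 2 ^ ((k + 1).choose 2 + (k + 1 + 1) + 1) := by ring
        _ ≤ _ := Nat.pow_le_pow_right two_pos (by
            rw [choose_succ (k + 1 + 1), choose_succ (k + 1)]; omega)
  · have l5 := le_of_lt_succ (hC.to_subgroup E) hL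
    have := hT.single (k + 1) hF fun x hx => hcov x (hx.trans (index_cent_le E x))
    calc _ ≤ 2 ^ (k + 1).choose 2 * 2 ^ k * 2 :=
          Nat.mul_le_mul_right _ (l1.trans (Nat.mul_le_mul this l5))
      _ = _ := by rw [choose_succ (k + 1)]; ring

theorem main {p : ℕ} [hp : Fact p.Prime] (N : ℕ) : ∀ (G : Type u) [Group G] [Finite G],
    IsPGroup p G → Nat.card G = N → T p G := by
  induction N using Nat.strong_induction_on with
  | _ N ih =>
  intro G _ _ hG hN n H₁ H₂ hH₁ hH₂ h2 hcov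
  subst hN
  by_cases hcyc : IsCyclic G
  · exact card_comm_le inferInstance hp.out _
  obtain ⟨C, a, D, hC, haC, ha1, ha2, hD, hCD⟩ : ∃ (C : Subgroup G) (a : G) (D : Subgroup G),
      C.index = p ∧ a ∉ C ∧ a ∉ H₁ ∧ a ∉ H₂ ∧ ¬ C ≤ D ∧ ∀ g ∈ C, g ∈ H₁ ∨ g ∈ H₂ → g ∈ D := by
    obtain ⟨M₁, hM₁, i1⟩ := PG.exists_index_eq_prime_of_ne_top hG hH₁
    by_cases hle : H₂ ≤ M₁
    · obtain ⟨M₂, i2, hne⟩ : ∃ M₂ : Subgroup G, M₂.index = p ∧ M₁ ≠ M₂ := by
        by_contra h
        push Not at h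
        have hf : M₁ ≤ frattini G := fun x hx => PG.mem_frattini_iff.2 fun M hM =>
          h M ((PG.isCoatom_iff_index_eq hG).1 hM) ▸ hx
        exact hcyc (PG.isCyclic_of_index_frattini_le hG
          (i1 ▸ Nat.le_of_dvd (i1 ▸ hp.out.pos) (index_dvd_of_le hf)))
      obtain ⟨C, c1, -, c3, c4, c5, -⟩ := third hG i1 i2 hne
      obtain ⟨a, ha2, ha1⟩ := SetLike.not_le_iff_exists.1 c5
      exact ⟨C, a, M₁, c1, fun h => ha1 (c3 ⟨h, ha2⟩), fun h => ha1 (hM₁ h), fun h => ha1 (hle h),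
        c4, fun g _ hg => hg.elim (fun h => hM₁ h) (fun h => hle h)⟩
    · obtain ⟨M₂, hM₂, i2⟩ := PG.exists_index_eq_prime_of_ne_top hG hH₂
      obtain ⟨C, c1, -, c3, c4, c5, c6⟩ := third hG i1 i2 (fun h => hle (h ▸ hM₂))
      have hcd : ∀ g ∈ C, g ∈ H₁ ∨ g ∈ H₂ → g ∈ M₁ := fun g hg hg' =>
        hg'.elim (fun h => hM₁ h) (fun h => c3 ⟨hg, hM₂ h⟩)
      by_cases hp2 : p = 2
      · obtain ⟨a, haM, ha1, ha2⟩ := exists_notMem_notMem (A := M₁) (B := H₂) c5 (fun h =>
          h2 hp2 (by rw [le_antisymm hM₂ h, i2, hp2]))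
        exact ⟨C, a, M₁, c1, fun h => ha1 (c3 ⟨h, haM⟩), fun h => ha1 (hM₁ h), ha2, c4, hcd⟩
      · obtain ⟨a, h0, h1, h2⟩ := c6 hp2
        exact ⟨C, a, M₁, c1, h0, fun h => h1 (hM₁ h), fun h => h2 (hM₂ h), c4, hcd⟩
  have := PG.normal_of_index_prime hG hC
  rcases n with _ | m
  · exact absurd (hcov a (Nat.pos_of_ne_zero index_ne_zero_of_finite)) (not_or.2 ⟨ha1, ha2⟩)
  obtain ⟨K, k1, k2, k3⟩ := key hp.out C hC haC
  have k4 : K.index ≤ p ^ m := k2.trans (le_of_lt_succ hG fun h => (not_or.2 ⟨ha1, ha2⟩) (hcov a h))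
  have hlt := card_lt_of_index hp.out hC
  have hT := ih _ hlt C (hG.to_subgroup C) rfl
  have hF : D.subgroupOf C ≠ ⊤ := fun h => hD (subgroupOf_eq_top.1 h)
  have c1 : ∀ x : C, p ^ (m + 1) ≤ (centralizer {x}).index → x ∈ D.subgroupOf C := fun x hx =>
    hCD x x.2 (hcov x (hx.trans (index_cent_le C x)))
  have c2 : ∀ x : C, p ^ m ≤ (centralizer {x}).index → x ∈ D.subgroupOf C ∨ x ∈ K := by
    intro x hx
    by_cases hxK : x ∈ K
    · exact Or.inr hxK
    · refine Or.inl (hCD x x.2 (hcov x ?_))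
      rw [k3 x hxK, pow_succ']
      exact Nat.mul_le_mul_left _ hx
  have fin : Nat.card (commutator C) ≤ p ^ m.choose 2 → Nat.card (commutator G) ≤
      p ^ (m + 1).choose 2 := fun h => by
    rw [choose_succ, pow_add]
    exact k1.trans (Nat.mul_le_mul h k4)
  by_cases hK : K = ⊤
  · rw [hK, index_top, mul_one] at k1
    exact k1.trans (hT.single _ hF c1)
  by_cases hK2 : p = 2 → K.index ≠ 2
  · exact fin (hT m _ K hF hK hK2 c2)
  push Not at hK2
  obtain ⟨rfl, hK2⟩ := hK2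
  obtain ⟨D', hD', i'⟩ := PG.exists_index_eq_prime_of_ne_top (hG.to_subgroup C) hF
  by_cases e : D' = K
  · exact fin (hT.single m hK fun x hx => (c2 x hx).elim (fun h => e ▸ hD' h) id)
  rw [hK2] at k1 k4
  refine k1.trans (two_case (hG.to_subgroup C) (fun E _ _ hE h => ih _ (h.trans hlt) E hE rfl)
    ?_ i' hK2 e (fun x hx => (c2 x hx).imp_left fun h => hD' h) (fun x hx => hD' (c1 x hx)))
  rcases m with _ | m
  · omega
  · omega

/-- Vaughan-Lee's Theorem: if G is a finite p-group in which every conjugacy class has at most p^b elements (every element has centralizer of index at most p^b), then the derived subgroup of G has order at most p^(b(b+1)/2). -/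
theorem result {G : Type*} [Group G] [Finite G] {p : ℕ} [Fact p.Prime] (hG : IsPGroup p G) (b : ℕ) (hb : ∀ x : G, (Subgroup.centralizer ({x} : Set G)).index ≤ p ^ b) : Nat.card (commutator G) ≤ p ^ (b * (b + 1) / 2) := by
  rcases subsingleton_or_nontrivial G with h | h
  · exact card_comm_le ⟨⟨fun a b => Subsingleton.elim _ _⟩⟩ Fact.out _
  have := (main _ G hG rfl).single (b + 1) (H := ⊥) bot_ne_top fun x hx => by
    have h1 := hx.trans (hb x)
    rw [Nat.pow_le_pow_iff_right (Fact.out : p.Prime).one_lt] at h1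
    omega
  rwa [Nat.choose_two_right, Nat.add_sub_cancel, mul_comm] at this

end Cfsg.Agent.S3777
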