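import Mathlib
import Cfsg.Statements.S3778
import Cfsg.Agent.Loc.FpfRep
import Cfsg.Agent.GT.PGroupChain

set_option autoImplicit false
open Cfsg

namespace Cfsg.Agent.S3778

open Cfsg.Agent.GT Cfsg.Agent.FT Cfsg.Agent.Loc.H78
open scoped commutatorElement

section

variable {G : Type*} [Group G] [Finite G] {p : ℕ} [hp : Fact p.Prime]

theorem le_relIndex (hG : IsPGroup p G) {W L : Subgroup G} (h : ¬ L ≤ W) : p ≤ W.relIndex L := by
  obtain ⟨n, hn⟩ := PG.relIndex_eq_pow_of_isPGroup (hG.to_subgroup L) W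
  rw [hn]
  refine Nat.le_self_pow ?_ p
  rintro rfl
  exact h (Subgroup.relIndex_eq_one.1 hn)

theorem step (hG : IsPGroup p G) {x : G} {L M N : Subgroup G} [L.Normal] [M.Normal] [N.Normal]
    (hML : M ≤ L) (hN : ⁅M, ⊤⁆ ≤ N) (hx : x ∉ cent2 L N) :
    p * (𝐂[x]).relIndex M ≤ (𝐂[x]).relIndex L := by
  have h1 : ¬ L ≤ M ⊔ 𝐂[x] ⊓ L := fun h => hx ⟨Subgroup.le_normalizer_of_normal (K := ⊤) trivial,
    fun y hy => by
      obtain ⟨m, hm, c, hc, rfl⟩ := Subgroup.mem_sup_of_normal_left.1 (h hy)
      have h2 : ⁅x, c⁆ = 1 := commutatorElement_eq_one_iff_mul_comm.2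
        (Subgroup.mem_centralizer_singleton_iff.1 hc.1).symm
      rw [show ⁅x, m * c⁆ = ⁅m, x⁆⁻¹ * (m * ⁅x, c⁆ * m⁻¹) by
        simp only [commutatorElement_def]; group, h2, mul_one, mul_inv_cancel, mul_one]
      exact inv_mem (hN (Subgroup.commutator_mem_commutator hm trivial))⟩
  have h2 := Subgroup.relIndex_mul_relIndex (𝐂[x] ⊓ L) (M ⊔ 𝐂[x] ⊓ L) L le_sup_right
    (sup_le hML inf_le_right)
  have h3 := Subgroup.relIndex_le_of_le_right (H := 𝐂[x] ⊓ L) (le_sup_left : M ≤ M ⊔ 𝐂[x] ⊓ L)
    Subgroup.FiniteIndex.index_ne_zero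
  rw [← Subgroup.inf_relIndex_right, inf_assoc, inf_eq_right.2 hML,
    Subgroup.inf_relIndex_right] at h3
  rw [Subgroup.inf_relIndex_right] at h2
  rw [← h2, mul_comm]
  exact Nat.mul_le_mul h3 (le_relIndex hG h1)

open Classical in
theorem pow_le_index (hG : IsPGroup p G) (x : G) (n : ℕ) :
    p ^ ((Finset.range n).filter fun i => x ∉ cent2 ((⊤ : Subgroup G).lowerCentralSeries i)
      ((⊤ : Subgroup G).lowerCentralSeries (i + 2))).card *
      (𝐂[x]).relIndex ((⊤ : Subgroup G).lowerCentralSeries n) ≤ (𝐂[x]).index := by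
  induction n with
  | zero => rw [Finset.range_zero, Finset.filter_empty]; simp
  | succ n ih =>
    refine le_trans ?_ ih
    have hle := (⊤ : Subgroup G).lowerCentralSeries_antitone (Nat.le_succ n)
    rw [Finset.range_add_one, Finset.filter_insert]
    split_ifs with h
    · exact Nat.mul_le_mul_left _
        (Subgroup.relIndex_le_of_le_right hle Subgroup.FiniteIndex.index_ne_zero)
    · rw [Finset.card_insert_of_notMem (fun h => Finset.notMem_range_self (Finset.mem_filter.1 h).1),
        pow_succ, mul_assoc]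
      exact Nat.mul_le_mul_left _ (step hG hle le_rfl h)

end


/-- If G is a finite p-group in which every conjugacy class has at most p^b elements (every element has centralizer of index at most p^b), then G is abelian when b = 0, and when b ≥ 1 its nilpotency class c satisfies (c − 1)(p − 1) < bp, that is c < bp/(p − 1) + 1, and hence c ≤ 2b. -/
theorem result {G : Type*} [Group G] [Finite G] {p : ℕ} [Fact p.Prime] (hG : IsPGroup p G) (b : ℕ) (hb : ∀ x : G, (Subgroup.centralizer ({x} : Set G)).index ≤ p ^ b) : ∃ c : ℕ, (⊤ : Subgroup G).lowerCentralSeries c = ⊥ ∧ (b ≠ 0 → (c - 1) * (p - 1) < b * p ∧ c ≤ 2 * b) ∧ (b = 0 → c ≤ 1) := by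
  classical
  have hp : p.Prime := Fact.out
  have := hG.isNilpotent
  have := Fintype.ofFinite G
  refine ⟨Group.nilpotencyClass G, Subgroup.lowerCentralSeries_nilpotencyClass, fun hb0 => ?_,
    fun hb0 => ?_⟩
  swap
  · rw [← Subgroup.lowerCentralSeries_eq_bot_iff_nilpotencyClass_le, eq_bot_iff]
    refine Subgroup.commutator_le.2 fun x _ y _ => ?_
    have h1 := hb y
    rw [hb0, pow_zero] at h1
    have h2 : 𝐂[y] = ⊤ := Subgroup.index_eq_one.1
      (le_antisymm h1 (Nat.pos_of_ne_zero Subgroup.FiniteIndex.index_ne_zero))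
    exact commutatorElement_eq_one_iff_mul_comm.2
      (Subgroup.mem_centralizer_singleton_iff.1 (h2 ▸ Subgroup.mem_top x))
  set c := Group.nilpotencyClass G
  let D : ℕ → Subgroup G := fun i => cent2 ((⊤ : Subgroup G).lowerCentralSeries i)
    ((⊤ : Subgroup G).lowerCentralSeries (i + 2))
  have hD : ∀ i ∈ Finset.range (c - 1), (p - 1) * Fintype.card G ≤
      p * (Finset.univ.filter fun x => x ∉ D i).card := by
    intro i hi
    have h1 : ¬ ⊤ ≤ D i := fun h => by
      have h2 : (⊤ : Subgroup G).lowerCentralSeries (i + 1) ≤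
          (⊤ : Subgroup G).lowerCentralSeries (i + 2) := Subgroup.commutator_le.2 fun x hx y _ => by
        rw [← commutatorElement_inv]
        exact inv_mem ((h (Subgroup.mem_top y)).2 x hx)
      have h3 : ∀ k, (⊤ : Subgroup G).lowerCentralSeries (i + 1) ≤
          (⊤ : Subgroup G).lowerCentralSeries (i + 1 + k) := by
        intro k
        induction k with
        | zero => exact le_rfl
        | succ k ih => exact h2.trans (Subgroup.commutator_mono ih le_rfl)
      have h4 := h3 c
      rw [Subgroup.lowerCentralSeries_eq_bot_iff_nilpotencyClass_le.2 (Nat.le_add_left c (i + 1)),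
        le_bot_iff, Subgroup.lowerCentralSeries_eq_bot_iff_nilpotencyClass_le] at h4
      have := Finset.mem_range.1 hi
      omega
    have h2 := le_relIndex hG h1
    rw [Subgroup.relIndex_top_right] at h2
    have h3 := (D i).card_mul_index
    have h4 := Finset.card_filter_add_card_filter_not (s := Finset.univ) fun x => x ∈ D i
    rw [Finset.card_univ, ← Fintype.card_subtype, ← Nat.card_eq_fintype_card] at h4
    rw [Nat.card_eq_fintype_card (α := G)] at h3
    obtain ⟨q, rfl⟩ : ∃ q, p = q + 1 := ⟨p - 1, by have := hp.pos; omega⟩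
    have h5 := Nat.mul_le_mul_left (Nat.card (D i)) h2
    rw [h3] at h5
    rw [Nat.add_sub_cancel]
    nlinarith
  have hx : ∀ x : G, ((Finset.range (c - 1)).filter fun i => x ∉ D i).card ≤ b := fun x => by
    have h1 := (pow_le_index hG x (c - 1)).trans (hb x)
    exact (Nat.pow_le_pow_iff_right hp.one_lt).1 ((Nat.le_mul_of_pos_right _
      (Nat.pos_of_ne_zero Subgroup.FiniteIndex.index_ne_zero)).trans h1)
  have h1 : ∑ x : G, ((Finset.range (c - 1)).filter fun i => x ∉ D i).card <
      Fintype.card G * b := by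
    rw [← smul_eq_mul, ← Finset.card_univ, ← Finset.sum_const]
    refine Finset.sum_lt_sum (fun x _ => hx x) ⟨1, Finset.mem_univ _, ?_⟩
    simpa [one_mem] using Nat.pos_of_ne_zero hb0
  have h2 := Finset.sum_le_sum hD
  rw [← Finset.mul_sum, ← Finset.mul_sum, Finset.sum_const, Finset.card_range, smul_eq_mul] at h2
  simp only [Finset.card_filter] at h1 h2
  rw [Finset.sum_comm] at h1
  have h3 : (c - 1) * (p - 1) < b * p := by
    refine Nat.lt_of_mul_lt_mul_left (a := Fintype.card G) ?_
    have := Nat.mul_lt_mul_of_pos_left h1 hp.pos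
    nlinarith
  refine ⟨h3, ?_⟩
  by_contra h4
  have h5 : 2 * b ≤ c - 1 := by omega
  have h6 := Nat.mul_le_mul_right (p - 1) h5
  obtain ⟨q, rfl⟩ : ∃ q, p = q + 2 := ⟨p - 2, by have := hp.two_le; omega⟩
  rw [show q + 2 - 1 = q + 1 by omega] at h3 h6
  nlinarith

end Cfsg.Agent.S3778
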