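import Mathlib
import Cfsg.Statements.S3780
import Cfsg.Agent.GT.PGroupFrattini
import Cfsg.Agent.Loc.FixRank

set_option autoImplicit false
open Cfsg

namespace Cfsg.Agent.S3780

open Cfsg.Agent.GT Cfsg.Agent.Loc.H78


/-- Let V be a finite abelian p-group and α an automorphism of V of order p whose fixed-point subgroup has order p^n. Then V can be generated by pn elements: some subset of V with at most pn elements generates V. -/
theorem result {V : Type*} [CommGroup V] [Finite V] {p : ℕ} [Fact p.Prime] (hV : IsPGroup p V) (α : MulAut V) (hα : orderOf α = p) (n : ℕ) (hfix : Nat.card {v : V // α v = v} = p ^ n) : ∃ S : Finset V, S.card ≤ p * n ∧ Subgroup.closure (S : Set V) = ⊤ := by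
  have hp : p.Prime := Fact.out
  obtain ⟨r, hr⟩ := hV.index (frattini V)
  obtain ⟨T, hT, hT'⟩ := PG.exists_card_eq_closure_eq_top hV hr
  refine ⟨T, ?_, hT'⟩
  have h1 := card_pow_eq_one_le hp α (hα ▸ pow_orderOf_eq_one α)
  rw [hfix, ← pow_mul] at h1
  have h2 : Nat.card {v : V // v ^ p = 1} = (frattini V).index := by
    have h3 : frattini V = (powMonoidHom p : V →* V).range := by
      apply le_antisymm
      · refine PG.frattini_le hp ?_ fun y => ⟨y, rfl⟩
        rw [(commutator_eq_bot_iff V).mpr inferInstance]; exact bot_le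
      · rintro _ ⟨y, rfl⟩
        exact PG.pow_mem_frattini hV y
    rw [h3, Subgroup.index_range]
    rfl
  rw [h2, hr] at h1
  rw [hT, mul_comm]
  exact (Nat.pow_le_pow_iff_right hp.one_lt).mp h1

end Cfsg.Agent.S3780
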