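import Mathlib
import Cfsg.Statements.S3781
import Cfsg.Agent.GT.PGroupChain
import Cfsg.Agent.FG.CommMod

set_option autoImplicit false
open Cfsg

namespace Cfsg.Agent.S3781

open Cfsg.Agent.GT

theorem pow_mul_card_iter_le {G : Type*} [Group G] [Finite G] {p : ℕ} [hp : Fact p.Prime]
    (hG : IsPGroup p G) (M : Subgroup G) [M.Normal] (k : ℕ) (h : iterCommutator M ⊤ k ≠ ⊥) :
    p ^ k * Nat.card (iterCommutator M ⊤ k) ≤ Nat.card M := by
  have := hG.isNilpotent
  induction k with
  | zero => simp [PG.iterCommutator_zero]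
  | succ k ih =>
    have hle : iterCommutator M ⊤ (k + 1) ≤ iterCommutator M ⊤ k :=
      PG.iterCommutator_succ_le Subgroup.le_normalizer_of_normal k
    have hne : iterCommutator M ⊤ k ≠ ⊥ := fun h' => h (le_bot_iff.mp (h' ▸ hle))
    have := PG.iterCommutator_normal M ⊤ k
    have hlt : iterCommutator M ⊤ (k + 1) < iterCommutator M ⊤ k :=
      PG.commutator_top_lt _ hne
    obtain ⟨a, ha⟩ := PG.card_eq_pow_of_isPGroup (hG.to_subgroup (iterCommutator M ⊤ (k + 1)))
    obtain ⟨b, hb⟩ := PG.card_eq_pow_of_isPGroup (hG.to_subgroup (iterCommutator M ⊤ k))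
    have h1 := PG.card_lt_of_lt hlt
    have h2 := ih hne
    rw [ha, hb] at h1
    have h3 : a < b := (Nat.pow_lt_pow_iff_right hp.out.one_lt).mp h1
    rw [hb] at h2
    rw [ha]
    refine le_trans ?_ h2
    rw [← pow_add, ← pow_add]
    exact Nat.pow_le_pow_right hp.out.pos (by omega)


/-- Let G be a finite p-group and n ≥ 1, and write γ_1(G) = G, γ_{k+1}(G) = [γ_k(G), G], and likewise γ_k(N) for a subgroup N. Let N be a normal subgroup of G contained in γ_n(G). If i > 1 and γ_{i+1}(N) ≠ 1, then |γ_i(N) : γ_{i+1}(N)| ≥ p^n. -/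
theorem result {G : Type*} [Group G] [Finite G] {p : ℕ} [Fact p.Prime] (hG : IsPGroup p G) (n : ℕ) (hn : 1 ≤ n) (N : Subgroup G) [N.Normal] (hN : N ≤ (⊤ : Subgroup G).lowerCentralSeries (n - 1)) (i : ℕ) (hi : 1 < i) (hne : N.lowerCentralSeries i ≠ ⊥) : p ^ n ≤ (N.lowerCentralSeries i).relIndex (N.lowerCentralSeries (i - 1)) := by
  obtain ⟨j, rfl⟩ : ∃ j, i = j + 1 := ⟨i - 1, by omega⟩
  obtain ⟨m, rfl⟩ : ∃ m, n = m + 1 := ⟨n - 1, by omega⟩
  simp only [Nat.add_sub_cancel] at hN ⊢
  have := FG.lowerCentralSeries_normal N j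
  set M := N.lowerCentralSeries j with hM
  have h1 : N.lowerCentralSeries (j + 1) ≤ iterCommutator M ⊤ (m + 1) := by
    have := FG.commutator_chain_lowerCentralSeries (iterCommutator M ⊤)
      (PG.iterCommutator_normal M ⊤) ⊤ (fun i => le_rfl) 0 m
    rw [zero_add] at this
    exact (Subgroup.commutator_mono le_rfl hN).trans this
  have h2 := pow_mul_card_iter_le hG M (m + 1) (fun h => hne (le_bot_iff.mp (h ▸ h1)))
  have h3 := PG.relIndex_mul_card (N.lowerCentralSeries_antitone (Nat.le_succ j))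
  have h4 := Subgroup.card_le_of_le h1
  refine Nat.le_of_mul_le_mul_right (c := Nat.card (N.lowerCentralSeries (j + 1))) ?_ Nat.card_pos
  rw [h3]
  exact (Nat.mul_le_mul_left _ h4).trans h2

end Cfsg.Agent.S3781
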