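import Mathlib
import Cfsg.Statements.S3791
import Cfsg.Agent.GT.PLength2
import Cfsg.Agent.GT.MinNormal
-- import your own Cfsg.Agent.* helpers here

set_option autoImplicit false
open Cfsg

namespace Cfsg.Agent.S3791

theorem derivedSeries_add {G : Type*} [Group G] (N : Subgroup G) (a b : ℕ)
    (h : derivedSeries G a ≤ N) : derivedSeries G (a + b) ≤ (derivedSeries N b).map N.subtype := by
  induction b with
  | zero => simpa [← MonoidHom.range_eq_map] using h
  | succ b ih =>
    rw [← add_assoc, derivedSeries_succ, derivedSeries_succ, Subgroup.map_commutator]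
    exact Subgroup.commutator_mono ih ih

theorem derivedSeries_le_of_quotient {G : Type*} [Group G] (N : Subgroup G) [N.Normal] {a : ℕ}
    (h : derivedSeries (G ⧸ N) a = ⊥) : derivedSeries G a ≤ N := by
  have := map_derivedSeries_le_derivedSeries (QuotientGroup.mk' N) a
  rwa [h, le_bot_iff, Subgroup.map_eq_bot_iff, QuotientGroup.ker_mk'] at this

universe u in
theorem aux {r : ℕ} (q : Fin r → ℕ) (hq : ∀ i, (q i).Prime) (d : Fin r → ℕ)
    (G : Type u) [Group G] [Finite G] : Group.IsSolvable G →
    (∀ s : ℕ, s.Prime → s ∣ Nat.card G → ∃ i, q i = s) →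
    (∀ i, ∀ S : Sylow (q i) G, derivedSeries (S : Subgroup G) (d i) = ⊥) →
    ∀ l : Fin r → ℕ, (∀ i, Cfsg.PLengthLE (q i) (l i) G) →
      derivedSeries G (∑ i, d i * l i) = ⊥ := by
  classical
  revert G
  refine GT.card_induction ?_
  intro G _ _ ih hG hc hd l hl
  rcases subsingleton_or_nontrivial G with hs | hs
  · exact Subsingleton.elim _ _
  have hquot : ∀ (N : Subgroup G) [N.Normal], N ≠ ⊥ → ∀ l' : Fin r → ℕ,
      (∀ i, Cfsg.PLengthLE (q i) (l' i) (G ⧸ N)) → derivedSeries G (∑ i, d i * l' i) ≤ N := by
    intro N _ hN l' hl'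
    refine derivedSeries_le_of_quotient N (ih _ (GT.card_quotient_lt hN) inferInstance
      (fun s hs h => hc s hs (h.trans (Subgroup.card_quotient_dvd_card _))) (fun i S => ?_) l' hl')
    haveI := Fact.mk (hq i)
    obtain ⟨S, rfl⟩ := Sylow.mapSurjective_surjective (QuotientGroup.mk'_surjective N) (q i) S
    rw [← map_derivedSeries_eq (GT.sylowMapHom_surjective _ S), hd, Subgroup.map_bot]
  obtain ⟨p, hp, hO⟩ := GT.exists_pCore_ne_bot G
  haveI := Fact.mk hp
  by_cases hO' : Cfsg.pPrimeCore p G = ⊥
  · have hdvd : p ∣ Nat.card G := by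
      by_contra h
      exact hO (GT.pCore_eq_bot_of_not_dvd hp h)
    obtain ⟨a, rfl⟩ := hc p hp hdvd
    obtain ⟨k, hk⟩ : ∃ k, l a = k + 1 := by
      refine Nat.exists_eq_succ_of_ne_zero fun h0 => ?_
      have := hl a
      rw [h0, GT.pLengthLE_zero_iff] at this
      exact hp.coprime_iff_not_dvd.1 this.symm hdvd
    have h1 := hquot _ hO (Function.update l a k) fun i => by
      rcases eq_or_ne i a with rfl | hi
      · rw [Function.update_self, ← GT.pLengthLE_succ_iff_of_pPrimeCore_eq_bot hO', ← hk]
        exact hl i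
      · rw [Function.update_of_ne hi]
        exact (hl i).quotient _
    have e : ∑ i, d i * l i = ∑ i, d i * Function.update l a k i + d a := by
      rw [← Finset.add_sum_erase _ _ (Finset.mem_univ a),
        ← Finset.add_sum_erase _ _ (Finset.mem_univ a), Function.update_self, hk,
        Finset.sum_congr (f := fun i => d i * Function.update l a k i) rfl
          (g := fun i => d i * l i) fun i hi => by
          rw [Function.update_of_ne (Finset.ne_of_mem_erase hi)]]
      ring
    obtain ⟨S⟩ : Nonempty (Sylow (q a) G) := inferInstance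
    have h2 : derivedSeries (Cfsg.pCore (q a) G) (d a) = ⊥ := by
      have := map_derivedSeries_le_derivedSeries (Subgroup.inclusion (GT.pCore_le_sylow S)) (d a)
      rwa [hd, le_bot_iff, Subgroup.map_eq_bot_iff_of_injective _
        (Subgroup.inclusion_injective _)] at this
    have := derivedSeries_add _ _ (d a) h1
    rwa [h2, Subgroup.map_bot, le_bot_iff, ← e] at this
  · rw [← le_bot_iff, ← GT.pCore_inf_pPrimeCore (p := p)]
    exact le_inf (hquot _ hO l fun i => (hl i).quotient _)
      (hquot _ hO' l fun i => (hl i).quotient _)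


/-- The Hall–Higman bound on derived length: let G be a finite solvable group, let p₁, …, p_r be distinct primes that include every prime dividing the order of G, and suppose that for each i the Sylow p_i-subgroups of G have derived length at most d_i and G has p_i-length at most l_i. Then G has derived length at most Σ d_i l_i. -/
theorem result {G : Type*} [Group G] [Finite G] (hG : Group.IsSolvable G) (r : ℕ) (q : Fin r → ℕ) (hq : ∀ i, (q i).Prime) (hinj : Function.Injective q) (hcover : ∀ s : ℕ, s.Prime → s ∣ Nat.card G → ∃ i, q i = s) (d l : Fin r → ℕ) (hd : ∀ i, ∀ P : Subgroup G, (haveI := Fact.mk (hq i); ∃ S : Sylow (q i) G, (S : Subgroup G) = P) → derivedSeries ↥P (d i) = ⊥) (hl : ∀ i, Cfsg.PLengthLE (q i) (l i) G) : derivedSeries G (Finset.univ.sum fun i => d i * l i) = ⊥ := by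
  exact aux q hq d G hG hcover (fun i S => hd i S ⟨S, rfl⟩) l hl

end Cfsg.Agent.S3791
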