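import Mathlib
import Cfsg.Statements.S3782
import Cfsg.Agent.Loc.Higman
import Cfsg.Agent.Loc.FixRank
import Cfsg.Agent.S3781
import Cfsg.Agent.S3791
import Cfsg.Agent.GT.PConstrained
import Cfsg.Agent.GT.CoprimeActThms
import Cfsg.Agent.GT.Fitting
import Cfsg.Agent.GT.PGroupFrattini

set_option autoImplicit false
open Cfsg

namespace Cfsg.Agent.S3782

open Cfsg.Agent.GT Cfsg.Agent.Loc.H78 Cfsg.Agent.Loc.H78.Lie

universe u

theorem derived_of_card {G : Type*} [Group G] [Finite G] [Group.IsSolvable G] {B : ℕ}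
    (h : Nat.card G ≤ B) : derivedSeries G B = ⊥ := by
  have key : ∀ k, derivedSeries G k ≠ ⊥ → Nat.card (derivedSeries G k) + k ≤ Nat.card G := by
    intro k
    induction k with
    | zero => intro _; simp
    | succ k ih =>
      intro hk
      have hne : derivedSeries G k ≠ ⊥ := fun h' => hk (by rw [derivedSeries_succ, h']; simp)
      have := card_lt_of_lt (Group.IsSolvable.commutator_lt_of_ne_bot hne)
      have := ih hne
      rw [derivedSeries_succ]; omega
  by_contra hne
  have := key B hne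
  have : 0 < Nat.card (derivedSeries G B) := Nat.card_pos
  omega

theorem derived_ext {G : Type*} [Group G] (N : Subgroup G) {a b : ℕ}
    (h1 : derivedSeries G a ≤ N) (h2 : derivedSeries N b = ⊥) : derivedSeries G (a + b) = ⊥ := by
  have := S3791.derivedSeries_add N a b h1
  rwa [h2, Subgroup.map_bot, le_bot_iff] at this

theorem pow_eq_one_of_fixed {W : Type*} [Group W] [Finite W] {p n : ℕ} [hp : Fact p.Prime]
    (hW : IsPGroup p W) (β : MulAut W) (h : Nat.card {w : W // β w = w} ≤ p ^ n) {w : W}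
    (hw : β w = w) : w ^ p ^ n = 1 := by
  let F : Subgroup W := β.toMonoidHom.eqLocus (MonoidHom.id _)
  change Nat.card F ≤ _ at h
  obtain ⟨k, hk⟩ := IsPGroup.iff_card.mp (hW.to_subgroup F)
  rw [hk] at h
  have hkn : k ≤ n := (Nat.pow_le_pow_iff_right hp.out.one_lt).mp h
  refine orderOf_dvd_iff_pow_eq_one.mp ((F.orderOf_dvd_natCard hw).trans ?_)
  rw [hk]; exact pow_dvd_pow p hkn

theorem restrict_mem {G : Type u} [Group G] [Finite G] (α : MulAut G) (i : ℕ) :
    ∀ x ∈ (γ G (i + 1)).subgroupOf (γ G i),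
      Frob.restrictAut α (γ G i) (fun _ hn => aut_mem_γ α hn) x ∈
        (γ G (i + 1)).subgroupOf (γ G i) := by
  intro x hx
  rw [Subgroup.mem_subgroupOf] at hx ⊢
  exact aut_mem_γ α hx

/-- the automorphism induced on a lower central factor -/
noncomputable def autQ {G : Type u} [Group G] [Finite G] (α : MulAut G) (i : ℕ) :
    MulAut (γ G i ⧸ (γ G (i + 1)).subgroupOf (γ G i)) :=
  Frob.quotientAut (Frob.restrictAut α (γ G i) fun _ hn => aut_mem_γ α hn) _
    (restrict_mem α i)

theorem card_fix_autQ {G : Type u} [Group G] [Finite G] (α : MulAut G) (i : ℕ) :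
    Nat.card {x // autQ α i x = x} ≤ Nat.card {g : G // α g = g} :=
  (card_fix_quotient_le (Frob.restrictAut α (γ G i) fun _ hn => aut_mem_γ α hn)
    ((γ G (i + 1)).subgroupOf (γ G i)) (restrict_mem α i)).trans
    (card_fix_restrict_le α (γ G i) fun _ hn => aut_mem_γ α hn)

theorem autQ_pow {G : Type u} [Group G] [Finite G] (α : MulAut G) (i : ℕ) {p : ℕ}
    (hα : α ^ p = 1) : autQ α i ^ p = 1 :=
  Frob.quotientAut_pow_eq_one (φ := Frob.restrictAut α (γ G i) fun _ hn => aut_mem_γ α hn)
    ((γ G (i + 1)).subgroupOf (γ G i)) (restrict_mem α i)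
    (Frob.restrictAut_pow_eq_one (γ G i) (fun _ hn => aut_mem_γ α hn) hα)

theorem relIndex_le {G : Type u} [Group G] [Finite G] {p n h : ℕ} [hp : Fact p.Prime]
    (H : ClassBound.{u} p h) (hG : IsPGroup p G) (α : MulAut G) (hα : α ^ p = 1)
    (hfix : Nat.card {g : G // α g = g} ≤ p ^ n) :
    (γ G (h + 1)).relIndex (γ G h) ≤ p ^ (n * p * (n + (h + 1))) := by
  have h1 : ∀ x ∈ γ G h, x ^ (p ^ n * p ^ (h + 1)) ∈ γ G (h + 1) := by
    intro x hx
    refine pow_mem_γ hp.out H α hα (p ^ n) (fun i y hy hy' => ?_) hx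
    have h2 : autQ α i (QuotientGroup.mk ⟨y, hy⟩) = QuotientGroup.mk ⟨y, hy⟩ := by
      rw [autQ, Frob.quotientAut_mk, QuotientGroup.eq]
      exact hy'
    have h3 := pow_eq_one_of_fixed ((hG.to_subgroup (γ G i)).to_quotient _) (autQ α i)
      ((card_fix_autQ α i).trans hfix) h2
    rw [← QuotientGroup.mk_pow, QuotientGroup.eq_one_iff] at h3
    exact h3
  have h2 := @card_pow_eq_one_le _ (commQ G h) _ p hp.out (autQ α h) (autQ_pow α h hα)
  have h3 := @card_le_pow_of_pow_eq_one _ (commQ G h) _ p (n + (h + 1)) (fun v => by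
    induction v using QuotientGroup.induction_on with | H x => ?_
    have := h1 x x.2
    rw [← pow_add] at this
    exact (QuotientGroup.eq_one_iff (x ^ p ^ (n + (h + 1)))).mpr this)
  refine h3.trans ?_
  rw [pow_mul, pow_mul]
  exact Nat.pow_le_pow_left (h2.trans
    (Nat.pow_le_pow_left ((card_fix_autQ α h).trans hfix) _)) _

theorem derived_pgroup {G : Type u} [Group G] [Finite G] {p n h : ℕ} [hp : Fact p.Prime]
    (H : ClassBound.{u} p (h + 1)) (hG : IsPGroup p G) (α : MulAut G) (hα : α ^ p = 1)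
    (hfix : Nat.card {g : G // α g = g} ≤ p ^ n) :
    derivedSeries G (n * p * (n + (h + 2)) + (h + 2)) = ⊥ := by
  set M := n * p * (n + (h + 2)) with hM
  refine derived_ext (γ G M) (Subgroup.derived_le_lower_central M) ?_
  have h1 := relIndex_le H (hG.to_subgroup (γ G M))
    (Frob.restrictAut α (γ G M) fun _ hn => aut_mem_γ α hn)
    (Frob.restrictAut_pow_eq_one _ _ hα) ((card_fix_restrict_le _ _ _).trans hfix)
  rw [← Subgroup.relIndex_map_map_of_injective _ _ (γ G M).subtype_injective,
    Subgroup.top_subtype_lowerCentralSeries, Subgroup.top_subtype_lowerCentralSeries] at h1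
  have h2 : (γ G M).lowerCentralSeries (h + 2) = ⊥ := by
    by_contra hne
    have h3 := S3781.result hG (M + 1) (by omega) (γ G M) le_rfl (h + 2) (by omega) hne
    have h4 : M + 1 ≤ M := (Nat.pow_le_pow_iff_right hp.out.one_lt).mp (h3.trans h1)
    omega
  rw [← Subgroup.top_subtype_lowerCentralSeries,
    Subgroup.map_eq_bot_iff_of_injective _ (γ G M).subtype_injective] at h2
  exact le_bot_iff.mp (h2 ▸ Subgroup.derived_le_lower_central _)

theorem index_pCore_le {G : Type u} [Group G] [Finite G] [Group.IsSolvable G] {p n : ℕ}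
    [hp : Fact p.Prime] (hO : pPrimeCore p G = ⊥) (α : MulAut G) (hα : α ^ p = 1)
    (hfix : Nat.card {g : G // α g = g} ≤ p ^ n) :
    (pCore p G).index ≤ (p ^ (n * p)).factorial := by
  set P := pCore p G with hP
  have hPp : IsPGroup p P := isPGroup_pCore p
  have hαP : ∀ x ∈ P, α x ∈ P := fun x hx =>
    Subgroup.characteristic_iff_map_le.mp inferInstance α ⟨x, hx, rfl⟩
  let β := Frob.restrictAut α P hαP
  have hβ : ∀ x ∈ frattini P, β x ∈ frattini P := fun x hx =>
    Subgroup.characteristic_iff_map_le.mp inferInstance β ⟨x, hx, rfl⟩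
  let inst : CommGroup (P ⧸ frattini P) :=
    { (inferInstance : Group (P ⧸ frattini P)) with
      mul_comm := (Subgroup.Normal.quotient_commutative_iff_commutator_le.mpr
        (PG.commutator_le_frattini hPp)).is_comm.comm }
  have h1 := @card_pow_eq_one_le _ inst _ p hp.out (Frob.quotientAut β _ hβ)
    (Frob.quotientAut_pow_eq_one _ _ (Frob.restrictAut_pow_eq_one _ _ hα))
  have h2 := @card_le_pow_of_pow_eq_one _ inst _ p 1 (fun v => by
    induction v using QuotientGroup.induction_on with | H x => ?_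
    rw [pow_one]
    exact (QuotientGroup.eq_one_iff (x ^ p)).mpr (PG.pow_mem_frattini hPp x))
  rw [pow_one] at h2
  have h3 : Nat.card (P ⧸ frattini P) ≤ p ^ (n * p) := by
    refine h2.trans (h1.trans ?_)
    rw [pow_mul]
    exact Nat.pow_le_pow_left ((card_fix_quotient_le _ _ _).trans
      ((card_fix_restrict_le _ _ _).trans hfix)) _
  let φ : G →* MulAut P := MulAut.conjNormal
  let ψ := CopAct.quotHom φ (frattini P) (CopAct.actInv_of_characteristic φ _)
  have hK : ψ.ker ≤ P := by
    refine le_pCore (isPGroup_of_forall_coprime_eq_one fun x hx hcop => ?_)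
    have h4 : (φ.comp (Subgroup.zpowers x).subtype) ⟨x, Subgroup.mem_zpowers x⟩ = 1 := by
      refine CopAct.act_trivial_of_frattini ?_ (fun k a => ?_) _
      · rw [Nat.card_zpowers]
        exact (coprime_card_of_isPGroup hp.out (hPp.to_subgroup _) hcop).symm
      · exact CopAct.mem_ker_quotHom.mp ((Subgroup.zpowers_le.mpr hx) a.2) k
    have h5 : x ∈ P := by
      refine centralizer_pCore_le hp.out hO ?_
      rw [Subgroup.mem_centralizer_iff]
      intro y hy
      have := congrArg Subtype.val (DFunLike.congr_fun h4 ⟨y, hy⟩)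
      have h6 : x * y * x⁻¹ = y := this
      rw [mul_inv_eq_iff_eq_mul] at h6
      exact h6.symm
    obtain ⟨k, hk⟩ := PG.exists_pow_pow_eq_one_of_mem hPp h5
    exact orderOf_eq_one_iff.mp ((hcop.pow_right k).eq_one_of_dvd (orderOf_dvd_of_pow_eq_one hk))
  refine (Nat.le_of_dvd (Nat.pos_of_ne_zero Subgroup.index_ne_zero_of_finite)
    (Subgroup.index_dvd_of_le hK)).trans ?_
  rw [Subgroup.index_ker]
  refine (Subgroup.card_le_card_group _).trans (le_trans ?_ (Nat.factorial_le h3))
  rw [← Nat.card_perm]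
  exact Nat.card_le_card_of_injective _ MulEquiv.toEquiv_injective


/-- Alperin's Theorem: for each prime p and each n ≥ 0 there is an integer l such that every finite solvable group admitting an automorphism of order p with exactly p^n fixed points has derived length at most l. -/
theorem result (p : ℕ) (hp : p.Prime) (n : ℕ) : ∃ l : ℕ, ∀ (G : Type) [Group G] [Finite G], Group.IsSolvable G → ∀ α : MulAut G, orderOf α = p → Nat.card {g : G // α g = g} = p ^ n → derivedSeries G l = ⊥ := by
  have := Fact.mk hp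
  obtain ⟨h, H0⟩ : ∃ h, ClassBound.{0} p h := ⟨_, classBound hp⟩
  have H : ClassBound.{0} p (h + 1) := fun 𝔤 _ E hE h0 => by
    rw [lcs_succ, H0 𝔤 E hE h0, eq_bot_iff, br_le]
    intro a _ b hb
    rw [AddSubgroup.mem_bot] at hb ⊢
    rw [hb, lie_zero]
  refine ⟨(p ^ (n * p)).factorial + (n * p * (n + (h + 2)) + (h + 2)) + h, ?_⟩
  intro G _ _ hG α hα hfix
  have hα' : α ^ p = 1 := hα ▸ pow_orderOf_eq_one α
  have hαO : ∀ x ∈ pPrimeCore p G, α x ∈ pPrimeCore p G := fun x hx =>
    Subgroup.characteristic_iff_map_le.mp inferInstance α ⟨x, hx, rfl⟩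
  refine derived_ext (pPrimeCore p G) (S3791.derivedSeries_le_of_quotient _ ?_) ?_
  · let β := Frob.quotientAut α _ hαO
    have hβ : β ^ p = 1 := Frob.quotientAut_pow_eq_one _ _ hα'
    have hβf : Nat.card {x // β x = x} ≤ p ^ n := hfix ▸ card_fix_quotient_le α _ hαO
    have hβP : ∀ x ∈ pCore p (G ⧸ pPrimeCore p G), β x ∈ pCore p (G ⧸ pPrimeCore p G) :=
      fun x hx => Subgroup.characteristic_iff_map_le.mp inferInstance β ⟨x, hx, rfl⟩
    refine derived_ext (pCore p (G ⧸ pPrimeCore p G)) (S3791.derivedSeries_le_of_quotient _ ?_) ?_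
    · exact derived_of_card (index_pCore_le pPrimeCore_quotient_pPrimeCore β hβ hβf)
    · exact derived_pgroup H (isPGroup_pCore p) _ (Frob.restrictAut_pow_eq_one _ hβP hβ)
        ((card_fix_restrict_le _ _ _).trans hβf)
  · have h1 := lcs_eq_bot_of_fpf hp H0 (Frob.restrictAut α _ hαO)
      (Frob.restrictAut_pow_eq_one _ _ hα') (fun g hg => by
        let F : Subgroup G := α.toMonoidHom.eqLocus (MonoidHom.id _)
        have hF : Nat.card F = p ^ n := hfix
        have hgF : (g : G) ∈ F := congrArg Subtype.val hg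
        have h2 : (Nat.card F).Coprime (Nat.card (pPrimeCore p G)) :=
          hF ▸ (coprime_card_pPrimeCore p).symm.pow_left n
        exact Subtype.ext (CopAct.eq_one_of_coprime h2 hgF g.2))
    exact le_bot_iff.mp (h1 ▸ Subgroup.derived_le_lower_central _)

end Cfsg.Agent.S3782
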