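import Mathlib
import Cfsg.Statements.S3785
import Cfsg.Agent.GT.Fitting
import Cfsg.Agent.GT.PPrimeCore
import Cfsg.Agent.GT.CoprimeNilp

set_option autoImplicit false
open Cfsg

namespace Cfsg.Agent.S3785

open Cfsg.Agent.GT


/-- Let G be a finite solvable group whose Fitting subgroup F(G) has odd order. If an element g of G commutes with every element of prime order of F(G), then g ∈ F(G). -/
theorem result {G : Type*} [Group G] [Finite G] (hG : Group.IsSolvable G) (hodd : Odd (Nat.card (Cfsg.fittingSubgroup G))) (g : G) (hg : ∀ x ∈ Cfsg.fittingSubgroup G, (orderOf x).Prime → g * x = x * g) : g ∈ Cfsg.fittingSubgroup G := by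
  classical
  set F := Cfsg.fittingSubgroup G with hF
  let S : Set G := {x | x ∈ F ∧ (orderOf x).Prime}
  let C : Subgroup G := Subgroup.centralizer S
  have hCn : C.Normal := by
    refine ⟨fun c hc h => ?_⟩
    rw [Subgroup.mem_centralizer_iff] at hc ⊢
    rintro x ⟨hx, hx'⟩
    have h1 : h⁻¹ * x * h ∈ S := by
      refine ⟨?_, ?_⟩
      · simpa using (fitting_normal (G := G)).conj_mem x hx h⁻¹
      · have : orderOf (h⁻¹ * x * h) = orderOf x := by
          have := orderOf_injective (MulAut.conj h⁻¹).toMonoidHom (MulAut.conj h⁻¹).injective x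
          simpa using this
        rwa [this]
    have h2 := hc _ h1
    calc x * (h * c * h⁻¹) = h * (h⁻¹ * x * h * c) * h⁻¹ := by group
      _ = h * (c * (h⁻¹ * x * h)) * h⁻¹ := by rw [h2]
      _ = h * c * h⁻¹ * x := by group
  -- key: `r`-subgroups of `C` centralize `O_p(G)` for `p ≠ r`
  have key : ∀ (p : ℕ), p.Prime → ∀ A : Subgroup G, A ≤ C → (Nat.card A).Coprime p →
      A ≤ Subgroup.centralizer (pCore p G : Set G) := by
    intro p hp A hA hcop
    have := Fact.mk hp
    by_cases h2 : p = 2
    · subst h2
      have : pCore 2 G = ⊥ := by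
        by_contra hne
        obtain ⟨k, hk⟩ := (IsPGroup.iff_card.mp (isPGroup_pCore (G := G) (p := 2)))
        have hk0 : k ≠ 0 := by
          rintro rfl
          exact hne (Subgroup.eq_bot_of_card_eq _ (by simpa using hk))
        have hd : 2 ∣ Nat.card F :=
          (hk ▸ dvd_pow_self 2 hk0).trans (Subgroup.card_dvd_of_le (pCore_le_fitting hp))
        exact (Nat.not_even_iff_odd.mpr hodd) (even_iff_two_dvd.mpr hd)
      rw [this]
      intro a _
      rw [Subgroup.mem_centralizer_iff]
      intro y hy
      have : y = 1 := by simpa using hy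
      simp [this]
    · refine CopAct.le_centralizer_of_odd_of_pow_eq_one h2 (isPGroup_pCore p)
        (Subgroup.le_normalizer_of_normal) hcop ?_
      intro x hx hxp
      by_cases hx1 : x = 1
      · subst hx1; exact Subgroup.one_mem _
      · rw [Subgroup.mem_centralizer_iff]
        intro a ha
        have hxS : x ∈ S := ⟨pCore_le_fitting hp hx, by
          rw [orderOf_eq_prime hxp hx1]; exact hp⟩
        exact (Subgroup.mem_centralizer_iff.mp (hA ha) x hxS).symm
  have hCF : C ≤ F := by
    refine le_of_forall_isPGroup_le ?_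
    intro q hq _ Q hQC hQ
    have := Fact.mk hq
    let Y : Subgroup G := F ⊓ pPrimeCore q G
    let E : Subgroup G := C ⊓ Subgroup.centralizer (Y : Set G)
    have hYn : Y.Normal := inferInstance
    have hEn : E.Normal := inferInstance
    have hQE : Q ≤ E := by
      refine le_inf hQC ?_
      rw [Subgroup.le_centralizer_iff]
      refine le_of_forall_isPGroup_le ?_
      intro p hp hpd P hPY hP
      have hpq : p ≠ q := by
        rintro rfl
        have h1 : (Nat.card Y).Coprime p :=
          Nat.Coprime.coprime_dvd_left (Subgroup.card_dvd_of_le inf_le_right) (coprime_card_pPrimeCore p)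
        exact hp.one_lt.ne' (Nat.Coprime.eq_one_of_dvd h1.symm hpd)
      have hP' : P ≤ pCore p G := le_pCore_of_le_fitting hP (hPY.trans inf_le_left)
      have hcop : (Nat.card Q).Coprime p :=
        coprime_card_of_isPGroup hq hQ ((Nat.coprime_primes hp hq).mpr hpq)
      rw [← Subgroup.le_centralizer_iff]
      exact (key p hp Q hQC hcop).trans (CopAct.centralizer_anti hP')
    have hFY : F ≤ pCore q G ⊔ Y := by
      intro x hx
      obtain ⟨a, b, ha, hb, ha', hb', -, rfl⟩ := exists_piPart_elem {q} x
      have haF : a ∈ F := (Subgroup.zpowers_le.mpr hx) ha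
      have hbF : b ∈ F := (Subgroup.zpowers_le.mpr hx) hb
      refine Subgroup.mul_mem _ (Subgroup.mem_sup_left ?_) (Subgroup.mem_sup_right ⟨hbF, ?_⟩)
      · refine le_pCore_of_le_fitting (K := Subgroup.zpowers a) ?_ (Subgroup.zpowers_le.mpr haF)
          (Subgroup.mem_zpowers a)
        rw [isPGroup_iff_isPiNum hq, Nat.card_zpowers]; exact ha'
      · refine le_pPrimeCore_of_le_fitting (K := Subgroup.zpowers b) ?_
          (Subgroup.zpowers_le.mpr hbF) (Subgroup.mem_zpowers b)
        rw [Nat.card_zpowers]; exact (isPiNum_compl_singleton_iff hq).mp hb'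
    -- `q'`-subgroups of `E` lie in `Y`
    have hsub : ∀ A : Subgroup G, A ≤ E → (Nat.card A).Coprime q → A ≤ Y := by
      intro A hA hcop
      have h1 : A ≤ Subgroup.centralizer (F : Set G) := by
        rw [Subgroup.le_centralizer_iff]
        refine hFY.trans (sup_le ?_ ?_)
        · rw [← Subgroup.le_centralizer_iff]
          exact key q hq A (hA.trans inf_le_left) hcop
        · rw [← Subgroup.le_centralizer_iff]
          exact hA.trans inf_le_right
      have h2 : A ≤ F := h1.trans centralizer_fitting_le
      exact le_inf h2 (le_pPrimeCore_of_le_fitting hcop h2)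
    have hsyl : ∀ r : ℕ, r.Prime → r ≠ q → ∀ R : Sylow r E,
        (R : Subgroup E).map E.subtype ≤ Y := by
      intro r hr hrq R
      refine hsub _ (Subgroup.map_subtype_le _) ?_
      exact coprime_card_of_isPGroup hr (R.isPGroup'.map _)
        ((Nat.coprime_primes hq hr).mpr (Ne.symm hrq))
    have hEc : ∀ A : Subgroup G, A ≤ Y → E ≤ Subgroup.centralizer (A : Set G) :=
      fun A hA => inf_le_right.trans (CopAct.centralizer_anti hA)
    have hnil : Group.IsNilpotent E := by
      refine isNilpotent_of_forall_le_normalizer ?_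
      intro p hp _
      have := Fact.mk hp
      obtain ⟨P⟩ : Nonempty (Sylow p E) := inferInstance
      refine ⟨P, ?_⟩
      by_cases hpq : p = q
      · subst hpq
        refine le_of_forall_sylow_le ?_
        intro r hr _
        have := Fact.mk hr
        by_cases hrp : r = p
        · subst hrp
          exact ⟨P, Subgroup.le_normalizer⟩
        · obtain ⟨R⟩ : Nonempty (Sylow r E) := inferInstance
          refine ⟨R, CopAct.le_normalizer_of_le_centralizer ?_⟩
          rw [Subgroup.le_centralizer_iff]
          exact (Subgroup.map_subtype_le _).trans (hEc _ (hsyl r hr hrp R))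
      · exact CopAct.le_normalizer_of_le_centralizer (hEc _ (hsyl p hp hpq P))
    exact hQE.trans (le_fitting E)
  refine hCF ?_
  rw [Subgroup.mem_centralizer_iff]
  rintro x ⟨hx, hx'⟩
  exact (hg x hx hx').symm

end Cfsg.Agent.S3785
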