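import Mathlib
import Cfsg.Statements.S3786
import Cfsg.Agent.GT.HallHigmanA
import Cfsg.Agent.GT.CoprimeActThms
import Cfsg.Agent.GT.CoprimeGen
import Cfsg.Agent.GT.PGroupAlperin
import Cfsg.Agent.GT.PGroupChain
-- import your own Cfsg.Agent.* helpers here

set_option autoImplicit false
open Cfsg

namespace Cfsg.Agent.S3786

open Subgroup GT Module
open scoped commutatorElement Pointwise

theorem tops_aut {p : ℕ} [hp : Fact p.Prime] (hp2 : p ≠ 2) {Γ Q : Type*} [Group Γ] [Finite Γ]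
    [Group Q] [Finite Q] (hΓ : IsPGroup p Γ) (hQ : (Nat.card Q).Coprime p)
    (h2 : ∀ u v w : Q, w * ⁅u, v⁆ = ⁅u, v⁆ * w) (φ : Γ →* MulAut Q) (hφ : Function.Injective φ)
    {n : ℕ} (hexp : ∀ γ : Γ, γ ^ p ^ (n + 1) = 1)
    (hab : ∀ (γ : Γ) (X : Subgroup Q), IsMulCommutative X → (∀ u ∈ X, φ γ u ∈ X) →
      ∀ u ∈ X, φ (γ ^ p ^ n) u = u) :
    IsMulCommutative (closure (Set.range fun γ : Γ => γ ^ p ^ n)) := by
  set N := closure (Set.range fun γ : Γ => γ ^ p ^ n) with hN
  haveI : N.Normal := by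
    refine ⟨fun x hx g => ?_⟩
    refine (map_le_iff_le_comap.1 (?_ : N.map (MulAut.conj g).toMonoidHom ≤ N)) hx
    rw [hN, MonoidHom.map_closure]
    refine closure_mono ?_
    rintro _ ⟨_, ⟨γ, rfl⟩, rfl⟩
    exact ⟨_, (map_pow (MulAut.conj g) γ _).symm⟩
  have hform : ∀ ν ∈ N, ∀ u w : Q, ⁅φ ν u, φ ν w⁆ = ⁅u, w⁆ := by
    intro ν hν u w
    rw [← map_commutatorElement]
    have : N ≤ (MulAction.stabilizer (MulAut Q) ⁅u, w⁆).comap φ := by
      refine (closure_le _).2 ?_
      rintro _ ⟨γ, rfl⟩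
      refine hab γ (commutator Q) ⟨⟨fun a b => Subtype.ext ?_⟩⟩ (fun x hx => ?_) _
        (commutator_mem_commutator (mem_top _) (mem_top _))
      · exact mem_center_iff.1 ((commutator_le.2 fun x _ y _ => mem_center_iff.2 (h2 x y) :
          commutator Q ≤ center Q) b.2) a
      · exact CopAct.actInv_of_characteristic φ _ γ x hx
    exact this hν
  obtain ⟨A, hAn, hA, -, hAN, hmax⟩ := PG.exists_normal_elementary_omega_centralizer hp2 hΓ N ⊥
    IsElementaryAbelian.bot bot_le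
  refine PG.isMulCommutative_of_le ((closure_le _).2 ?_) hA.1
  rintro _ ⟨γ, rfl⟩
  refine hmax _ (subset_closure ⟨γ, rfl⟩) ?_ (by rw [← pow_mul, ← pow_succ, hexp])
  intro α hα
  set a := γ ^ p ^ n with ha
  rw [← commutatorElement_eq_one_iff_mul_comm]
  set c := ⁅α, a⁆ with hc
  have hcA : c ∈ A := commutator_le_left A ⊤ (commutator_mem_commutator hα (mem_top a))
  obtain ⟨k, hk⟩ := hA.card_eq_pow
  refine hφ ((MulEquiv.ext fun u => CopAct.mem_actFixed_zpowers.1 (CopAct.act_le_of_cocyclic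
    (φ := φ.comp A.subtype) hA.1 (CopAct.actInv_top _)
    (by rw [hk, card_top]; exact hQ.symm.pow_left k)
    (fun B₀ ⟨t, ht⟩ u _ hu => CopAct.mem_actFixed_zpowers.2 ?_) (mem_top u))).trans
    (map_one φ).symm)
  by_contra hcu
  set B := B₀.map A.subtype with hB
  have hBA : B ≤ A := map_subtype_le _
  have hBu : ∀ b ∈ B, φ b u = u := by
    rintro _ ⟨b, hb, rfl⟩
    exact hu b hb
  have hcB : c ∉ B := fun h => hcu (hBu c h)
  have hi : B.relIndex A = p := (CopAct.eq_or_relIndex_eq_of_cocyclic hA hBA ⟨t, t.2, by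
    have := congrArg (map A.subtype) ht
    rwa [Subgroup.map_sup, MonoidHom.map_zpowers, ← MonoidHom.range_eq_map, range_subtype]
      at this⟩).resolve_left fun h => hcB (h ▸ hcA)
  have haB : MulAut.conj γ ^ p ^ n • B ≠ B := fun h => hcB (by
    rw [← map_pow] at h
    refine (PG.commutator_le_of_relIndex_prime hA.isPGroup (hΓ.to_subgroup (zpowers a))
      (by rw [normalizer_eq_top]; exact le_top) (zpowers_le.2 ?_) hBA hi).1
      (commutator_mem_commutator hα (mem_zpowers a))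
    exact mem_normalizer_fintype fun b hb => h.le (smul_mem_pointwise_smul b _ B hb))
  obtain ⟨u₀, hu₀⟩ : ∃ u₀, u₀ = u⁻¹ * φ c u := ⟨_, rfl⟩
  have hcomm : ∀ x ∈ A, ∀ y ∈ A, ∀ w, φ x (φ y w) = φ y (φ x w) := fun x hx y hy w => by
    rw [← MulAut.mul_apply, ← map_mul, hA.le_centralizer hy x hx, map_mul, MulAut.mul_apply]
  have hBu₀ : ∀ b ∈ B, φ b u₀ = u₀ := fun b hb => by
    rw [hu₀, map_mul, map_inv, hcomm b (hBA hb) c hcA, hBu b hb]
  have key : ∀ g : Γ, MulAut.conj g • B ≠ B → ∃ β ∈ A, φ β (φ g u₀) = φ g u₀ ∧ φ c u = φ β u ∧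
      φ c u₀ = φ β u₀ := by
    intro g hg
    obtain ⟨β, hβ, hβ'⟩ : ∃ β ∈ MulAut.conj g • B, β ∉ B := by
      by_contra h
      push Not at h
      exact hg (eq_of_le_of_card_ge h (Nat.card_congr (equivSMul (MulAut.conj g) B).toEquiv).le)
    obtain ⟨b, hb, rfl⟩ := (mem_smul_pointwise_iff_exists β _ B).1 hβ
    have hβA : MulAut.conj g • b ∈ A := hAn.conj_mem b (hBA hb) g
    have hcm := hcA
    rw [← PG.sup_zpowers_eq_of_relIndex_prime hp.out hBA hi hβA hβ',
      CopAct.mem_sup_iff_of_le_normalizer' (CopAct.le_normalizer_of_isMulCommutative hA.1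
        (zpowers_le.2 hβA) hBA)] at hcm
    obtain ⟨β, hβ, b', hb', e⟩ := hcm
    refine ⟨β, zpowers_le.2 hβA hβ, ?_, by rw [← e, map_mul, MulAut.mul_apply, hBu b' hb'],
      by rw [← e, map_mul, MulAut.mul_apply, hBu₀ b' hb']⟩
    refine (zpowers_le.2 ?_ : _ ≤ (MulAction.stabilizer (MulAut Q) (φ g u₀)).comap φ) hβ
    change φ (g * b * g⁻¹) (φ g u₀) = _
    rw [← MulAut.mul_apply, ← map_mul, inv_mul_cancel_right, map_mul, MulAut.mul_apply,
      hBu₀ b hb]
  have hconj : MulAut.conj γ ^ p ^ (n + 1) = 1 := by rw [← map_pow, hexp, map_one]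
  have h3 : ∀ k : ℕ, Commute u₀ (φ (γ ^ k) u₀) := fun k => by
    rw [pow_eq_pow_mod k (hexp γ)]
    rcases Nat.eq_zero_or_pos (k % p ^ (n + 1)) with h | h
    · simp [h]
    obtain ⟨β, hβ, h4, h5, -⟩ := key (γ ^ (k % p ^ (n + 1))) (by
      rw [map_pow]
      exact pow_smul_ne_of_prime_pow hp.out hconj haB h (Nat.mod_lt _ (pow_pos hp.out.pos _)))
    generalize φ (γ ^ (k % p ^ (n + 1))) u₀ = w at h4
    have h6 := hform β (hAN hβ) u w
    rw [h4, ← h5] at h6
    rw [← commutatorElement_eq_one_iff_commute, hu₀]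
    calc ⁅u⁻¹ * φ c u, w⁆ = u⁻¹ * (⁅φ c u, w⁆ * (w * u * w⁻¹)) := by
          simp [commutatorElement_def, mul_assoc]
      _ = 1 := by rw [h6]; simp [commutatorElement_def, mul_assoc]
  have h7 := hab γ (closure (Set.range fun k : ℕ => φ (γ ^ k) u₀)) (isMulCommutative_closure (by
      have : ∀ i j, i ≤ j → Commute (φ (γ ^ i) u₀) (φ (γ ^ j) u₀) := fun i j h => by
        obtain ⟨k, rfl⟩ := Nat.exists_eq_add_of_le h
        rw [pow_add, map_mul, MulAut.mul_apply]
        exact (h3 k).map _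
      rintro _ ⟨i, rfl⟩ _ ⟨j, rfl⟩
      rcases le_total i j with h | h
      · exact this i j h
      · exact (this j i h).symm))
    (fun x hx => by
      refine (map_le_iff_le_comap.1 (?_ : (Subgroup.closure _).map (φ γ).toMonoidHom ≤ Subgroup.closure _)) hx
      rw [MonoidHom.map_closure]
      refine closure_mono ?_
      rintro _ ⟨_, ⟨k, rfl⟩, rfl⟩
      exact ⟨k + 1, by simp [pow_succ']⟩) u₀ (subset_closure ⟨0, by simp⟩)
  obtain ⟨β, -, h4, -, h5⟩ := key a (by rwa [ha, map_pow])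
  rw [h7, ← h5] at h4
  have h8 : ∀ k : ℕ, φ (c ^ k) u = u * u₀ ^ k := fun k => by
    induction k with
    | zero => simp
    | succ k ih =>
      rw [pow_succ', map_mul, MulAut.mul_apply, ih, map_mul, map_pow, h4, pow_succ', ← mul_assoc]
      simp [hu₀]
  have h9 := h8 p
  rw [hA.2 c hcA, map_one, MulAut.one_apply, left_eq_mul] at h9
  exact hcu (inv_mul_eq_one.1 (CopAct.eq_one_of_pow_eq_one_of_coprime hQ.symm (hu₀ ▸ h9))).symm

theorem tops {p : ℕ} [hp : Fact p.Prime] (hp2 : p ≠ 2) {G : Type*} [Group G] [Finite G]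
    {P R : Subgroup G} (hP : IsPGroup p P) (hR : (Nat.card R).Coprime p)
    (hPR : P ≤ normalizer (R : Set G)) {n : ℕ} (hexp : ∀ g ∈ P, g ^ p ^ (n + 1) = 1)
    (hab : ∀ g ∈ P, ∀ X ≤ R, IsMulCommutative X → g ∈ normalizer (X : Set G) →
      g ^ p ^ n ∈ centralizer (X : Set G)) {g h : G} (hg : g ∈ P) (hh : h ∈ P) :
    ⁅g ^ p ^ n, h ^ p ^ n⁆ ∈ centralizer (R : Set G) := by
  set Y := (closure (Set.range fun γ : P => γ ^ p ^ n)).map P.subtype with hY
  haveI : (closure (Set.range fun γ : P => γ ^ p ^ n)).Normal := by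
    refine ⟨fun x hx g => ?_⟩
    refine (map_le_iff_le_comap.1 (?_ : (Subgroup.closure _).map (MulAut.conj g).toMonoidHom ≤
      Subgroup.closure _)) hx
    rw [MonoidHom.map_closure]
    refine closure_mono ?_
    rintro _ ⟨_, ⟨γ, rfl⟩, rfl⟩
    exact ⟨_, (map_pow (MulAut.conj g) γ _).symm⟩
  have hPY : P ≤ normalizer (Y : Set G) := le_normalizer_map_subtype _ _
  refine (?_ : ⁅Y, Y⁆ ≤ _) (commutator_mem_commutator
    ⟨_, subset_closure ⟨⟨g, hg⟩, rfl⟩, rfl⟩ ⟨_, subset_closure ⟨⟨h, hh⟩, rfl⟩, rfl⟩)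
  by_contra hc
  obtain ⟨q, hq, hqp, Q, hQR, hQ, hPQ, hQ0, h3, -, h5, -⟩ :=
    exists_isPGroup_minimal_not_centralized hP ((commutator_le_self Y).trans (map_subtype_le _))
      (CopAct.le_normalizer_commutator hPY hPY) hR hPR hc
  set φ := CopAct.conjHom hPQ with hφ
  have hcm := tops_aut hp2 (hP.of_surjective _ φ.rangeRestrict_surjective)
    (hR.coprime_dvd_left (card_dvd_of_le hQR))
    (fun u v w => Subtype.ext (h5 (commutator_mem_commutator u.2 v.2) w w.2))
    φ.range.subtype φ.range.subtype_injective (n := n) (by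
      rintro ⟨_, γ, rfl⟩
      refine Subtype.ext ?_
      rw [coe_pow, ← map_pow, show γ ^ p ^ (n + 1) = 1 from Subtype.ext (hexp γ γ.2), map_one]
      rfl) (by
      rintro ⟨_, γ, rfl⟩ X hX hγ u hu
      have := hab γ γ.2 (X.map Q.subtype) ((map_subtype_le _).trans hQR) inferInstance
        (mem_normalizer_fintype (by
          rintro _ ⟨x, hx, rfl⟩
          exact ⟨_, hγ x hx, rfl⟩)) u ⟨u, hu, rfl⟩
      refine Subtype.ext ?_
      change ((φ γ ^ p ^ n) u : G) = u
      rw [← map_pow, CopAct.coe_conjHom_apply, coe_pow, ← this, mul_inv_cancel_right])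
  refine hQ0 (h3.symm.trans (CopAct.commutator_eq_bot_iff.2 (commutator_le.2 ?_)))
  rintro _ ⟨x, hx, rfl⟩ _ ⟨y, hy, rfl⟩
  have hm : ∀ x ∈ closure (Set.range fun γ : P => γ ^ p ^ n), φ.rangeRestrict x ∈
      closure (Set.range fun γ : φ.range => γ ^ p ^ n) := fun x hx => by
    refine (map_le_iff_le_comap.1 (?_ : (Subgroup.closure _).map φ.rangeRestrict ≤
      Subgroup.closure _)) hx
    rw [MonoidHom.map_closure]
    refine closure_mono ?_
    rintro _ ⟨_, ⟨γ, rfl⟩, rfl⟩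
    exact ⟨_, (map_pow φ.rangeRestrict γ _).symm⟩
  have : ⁅x, y⁆ ∈ φ.ker := by
    rw [MonoidHom.mem_ker, map_commutatorElement, commutatorElement_eq_one_iff_mul_comm]
    exact congrArg (fun z => z.1.1) (hcm.is_comm.comm ⟨_, hm x hx⟩ ⟨_, hm y hy⟩)
  rw [hφ, CopAct.conjHom_ker] at this
  exact this

universe u in
theorem aux {p : ℕ} [hp : Fact p.Prime] (hp2 : p ≠ 2) (e : ℕ) : ∀ (G : Type u) [Group G]
    [Finite G], IsPSolvable p G → PExp p e G → PLengthLE p (2 * e) G := by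
  induction e with
  | zero => exact fun G _ _ _ h => pLengthLE_zero_iff.2 h.coprime_card
  | succ e ih =>
    intro G _ _ hG h
    obtain ⟨X, _, _, f, hf, hV, hC, hc⟩ := exists_frattini_quotient hG
    have hX := hG.of_surjective hf
    have hπ := QuotientGroup.mk'_surjective (pCore p X)
    have hH := hX.quotient (pCore p X)
    have hXe := h.of_surjective hf
    have hHe := hXe.of_surjective hπ
    obtain ⟨Y, _, _, g, hg, hW, hD, hd⟩ := exists_frattini_quotient hH
    have hπ' := QuotientGroup.mk'_surjective (pCore p Y)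
    rw [show 2 * (e + 1) = 2 * e + 1 + 1 by ring,
      pLengthLE_succ_iff_of_ker_eq (f := (QuotientGroup.mk' _).comp f) (hπ.comp hf)
        (by rw [← MonoidHom.comap_ker, QuotientGroup.ker_mk', hc]),
      pLengthLE_succ_iff_of_ker_eq (f := (QuotientGroup.mk' _).comp g) (hπ'.comp hg)
        (by rw [← MonoidHom.comap_ker, QuotientGroup.ker_mk', hd])]
    refine ih _ ((hH.of_surjective hg).quotient _) fun y k hy => ?_
    obtain ⟨x, ⟨j, hj⟩, rfl⟩ := exists_pElt_lift (f := (QuotientGroup.mk' _).comp g)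
      (hπ'.comp hg) hy
    rw [MonoidHom.comp_apply, ← map_pow, QuotientGroup.mk'_apply, QuotientGroup.eq_one_iff]
    by_contra hx
    obtain ⟨P, hP⟩ := (isPGroup_zpowers_of_pow_eq_one hj).exists_le_sylow
    have hxP := zpowers_le.1 hP
    have hPe : ∀ z ∈ (P : Subgroup (X ⧸ pCore p X)), z ^ p ^ (e + 1) = 1 := fun z hz =>
      (PG.exists_pow_pow_eq_one_of_mem P.2 hz).elim (hHe z)
    have hcomm : ∀ z ∈ (P : Subgroup (X ⧸ pCore p X)), ⁅x ^ p ^ e, z ^ p ^ e⁆ = 1 := fun z hz => by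
      obtain ⟨i, hi⟩ := PG.exists_pow_pow_eq_one_of_mem P.2 (commutator_le_self _
        (commutator_mem_commutator (pow_mem hxP (p ^ e)) (pow_mem hz (p ^ e))))
      refine eq_one_of_mem_centralizer_pPrimeCore hH pCore_quotient_pCore hi
        (tops hp2 P.2 (coprime_card_pPrimeCore p) (by rw [normalizer_eq_top]; exact le_top) hPe
          (fun t ht U hU hUc htU => ?_) hxP hz)
      by_contra hn
      obtain ⟨t, ⟨l, hl⟩, rfl⟩ := exists_pElt_lift hπ (hPe t ht)
      rcases hallHigmanB (eaRepQ hV) (eaRepQ_injective hC)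
        ((coprime_card_pPrimeCore p).coprime_dvd_left (card_dvd_of_le hU)) htU (hPe _ ht) hn
        (hXe.pow_eq_zero hV (hXe t l hl)) with h1 | ⟨_, _, _, -, -, -, -, -, ⟨Q, hQ, -, -, h1⟩, -⟩
      · have := Nat.pow_pos (n := e + 1) hp.out.pos
        omega
      · exact h1 (PG.isMulCommutative_of_le hQ hUc)
    have hr : (eaRepN hW (g x) - 1) ^ (p ^ e + (p ^ e - 1)) = 0 := by
      refine LinearMap.ext fun v => EAV.val_eq_one_iff.1 ?_
      obtain ⟨z, hz, ez⟩ := pCore_le_sylow (P.mapSurjective hg) v.val_mem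
      have h1 := congrArg g (hcomm _ (mul_mem hz hxP))
      rw [map_commutatorElement, map_pow, map_pow, map_mul, ez, val_mul_pow_char, map_one,
        commutatorElement_eq_one_iff_commute] at h1
      rw [pow_add, End.mul_apply, sub_one_pow_char_pow (K := ZMod p), ← map_pow,
        val_eaRepN_sub_one, commutatorElement_eq_one_iff_commute]
      simpa using h1.mul_right (Commute.refl _).inv_right
    have h3 : 3 ≤ p := by have := hp.out.two_le; omega
    have h4 : 3 * p ^ e ≤ p ^ (e + 1) := by rw [pow_succ']; exact Nat.mul_le_mul_right _ h3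
    have h5 := Nat.pow_pos (n := e) hp.out.pos
    rcases hallHigmanB_eaRepN (hH.of_surjective hg) hW hD
      (by rw [← map_pow, hPe x hxP, map_one]; exact one_mem _) hx hr with
      h1 | ⟨n₀, _, _, h1, h2, -, -, -, -, h6⟩
    · omega
    · rw [Nat.mul_sub_one, ← pow_add, Nat.sub_add_cancel h2] at h6
      have : p ^ (e + 1 - n₀) ≤ p ^ e := Nat.pow_le_pow_right hp.out.pos (by omega)
      omega


/-- The Hall–Higman bound on p-length. Let p be an odd prime and G a finite p-soluble group whose Sylow p-subgroups have exponent dividing p^e. (a) If p is not of the form 2^k + 1, or if the Sylow 2-subgroups of G are abelian, then G has p-length at most e. (b) In every case G has p-length at most 2e. -/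
theorem result {G : Type*} [Group G] [Finite G] {p : ℕ} [Fact p.Prime] (hp : p ≠ 2) (hG : Cfsg.IsPSolvable p G) (e : ℕ) (hexp : ∀ (P : Sylow p G), ∀ x ∈ (P : Subgroup G), x ^ p ^ e = 1) : (((¬ ∃ k : ℕ, p = 2 ^ k + 1) ∨ ∀ S : Sylow 2 G, IsMulCommutative (S : Subgroup G)) → Cfsg.PLengthLE p e G) ∧ Cfsg.PLengthLE p (2 * e) G := by
  refine ⟨fun h => pLengthLE_of_nonExc e G hG ?_ (pExp_of_sylow hexp),
    aux hp e G hG (pExp_of_sylow hexp)⟩
  exact h.elim (nonExc_of_not_fermat hp) (nonExc_of_sylow_two hp)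

end Cfsg.Agent.S3786
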