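import Mathlib
import Cfsg.Statements.S3787
import Cfsg.Agent.GT.HallHigmanA
import Cfsg.Agent.Loc.CFSection
-- import your own Cfsg.Agent.* helpers here

set_option autoImplicit false
open Cfsg

namespace Cfsg.Agent.S3787

open Subgroup GT
open scoped commutatorElement

theorem relIndex_grp {X : Type*} [Group X] {p : ℕ} [Fact p.Prime] {V : Subgroup X}
    (hV : IsElementaryAbelian p V) {M : Type*} [AddCommGroup M] [Module (ZMod p) M]
    (Φ : EAV hV →ₗ[ZMod p] M) (U : Submodule (ZMod p) (EAV hV)) :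
    (EAV.grp (LinearMap.ker Φ)).relIndex (EAV.grp U) = Nat.card (U.map Φ) := by
  let ι : Multiplicative (EAV hV) →* X :=
    { toFun := fun v => (Multiplicative.toAdd v).val
      map_one' := EAV.val_zero
      map_mul' := fun a b => EAV.val_add _ _ }
  have e : ∀ U : Submodule (ZMod p) (EAV hV),
      EAV.grp U = (AddSubgroup.toSubgroup U.toAddSubgroup).map ι := fun U => rfl
  rw [e, e, relIndex_map_map_of_injective _ _ EAV.val_injective]
  exact relIndex_ker (AddSubgroup.toSubgroup U.toAddSubgroup)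
    (AddMonoidHom.toMultiplicative Φ.toAddMonoidHom)

theorem surj {F M : Type*} [Field F] [AddCommGroup M] [Module F M] {T : Module.End F M} {n : ℕ}
    (hT : T ^ (n + 1) = 0) {v : M} {φ : Module.Dual F M} (h : φ ((T ^ n) v) = 1) :
    Function.Surjective (LinearMap.pi fun i : Fin (n + 1) => φ ∘ₗ T ^ (i : ℕ)) := by
  set Φ := LinearMap.pi fun i : Fin (n + 1) => φ ∘ₗ T ^ (i : ℕ)
  have key : ∀ k ≤ n + 1, ∀ w : Fin (n + 1) → F, (∀ i : Fin (n + 1), k ≤ i → w i = 0) →
      w ∈ LinearMap.range Φ := by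
    intro k
    induction k with
    | zero => exact fun _ w hw => (funext fun i => hw i (Nat.zero_le _) : w = 0) ▸ zero_mem _
    | succ k ih =>
      intro hk w hw
      have h1 := ih (by omega) (w - w ⟨k, hk⟩ • Φ ((T ^ (n - k)) v)) fun i hi => by
        have e : Φ ((T ^ (n - k)) v) i = φ ((T ^ (i + (n - k))) v) := by
          rw [pow_add]; rfl
        rw [Pi.sub_apply, Pi.smul_apply, e]
        rcases hi.lt_or_eq with hi | hi
        · rw [hw i hi, pow_eq_zero_of_le (by omega) hT]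
          simp
        · rw [show (i : ℕ) + (n - k) = n by omega, h, show i = ⟨k, hk⟩ from Fin.ext hi.symm]
          simp
      simpa using add_mem h1 (Submodule.smul_mem _ (w ⟨k, hk⟩)
        (LinearMap.mem_range_self Φ ((T ^ (n - k)) v)))
  exact fun w => key _ le_rfl w fun i hi => absurd i.2 hi.not_gt

theorem wreath {X : Type*} [Group X] [Finite X] {p : ℕ} [hp : Fact p.Prime] {V : Subgroup X}
    [V.Normal] (hV : IsElementaryAbelian p V) {x : X} (hx : x ∉ V) (hxp : x ^ p ∈ V)
    (hT : (eaRepN hV x - 1) ^ (p - 1) ≠ 0) : ∃ (W : Type) (_ : Group W) (_ : Finite W),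
    (∃ (B : Subgroup W) (t : W), B.Normal ∧ IsMulCommutative B ∧ (∀ b ∈ B, b ^ p = 1) ∧
      Nat.card B = p ^ p ∧ orderOf t = p ∧ t ∉ B ∧ Nat.card W = p ^ (p + 1) ∧
      Nat.card ↥(B ⊓ Subgroup.centralizer ({t} : Set W)) = p) ∧
    Involves W (V ⊔ zpowers x : Subgroup X) := by
  obtain ⟨n, rfl⟩ : ∃ n, p = n + 1 := ⟨p - 1, (Nat.sub_add_cancel hp.out.pos).symm⟩
  rw [Nat.add_sub_cancel] at hT
  set T := eaRepN hV x - 1 with hTdef
  have hTp : T ^ (n + 1) = 0 := by
    have := sub_one_pow_char_pow (K := ZMod (n + 1)) (eaRepN hV x) 1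
    rwa [pow_one, ← map_pow, eaRepN_eq_one_of_mem hxp, sub_self] at this
  obtain ⟨v, hv⟩ : ∃ v, (T ^ n) v ≠ 0 := by
    by_contra h
    push Not at h
    exact hT (LinearMap.ext h)
  obtain ⟨φ, hφ⟩ := Module.Projective.exists_dual_eq_one (ZMod (n + 1)) hv
  have hs := surj hTp hφ
  set Φ := LinearMap.pi fun i : Fin (n + 1) => φ ∘ₗ T ^ (i : ℕ) with hΦdef
  have hΦ : ∀ u i, Φ u i = φ ((T ^ (i : ℕ)) u) := fun _ _ => rfl
  have hΦT : ∀ u, Φ (T u) = 0 ↔ ∀ i, i ≠ 0 → Φ u i = 0 := fun u => by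
    constructor
    · intro h i hi
      obtain ⟨j, rfl⟩ := Fin.exists_succ_eq.2 hi
      have := congrFun h j.castSucc
      rwa [hΦ, ← Module.End.mul_apply, ← pow_succ] at this
    · intro h
      ext i
      rw [hΦ, ← Module.End.mul_apply, ← pow_succ]
      rcases (Nat.succ_le_of_lt i.2).lt_or_eq with hi | hi
      · exact h ⟨i + 1, hi⟩ (by simp)
      · rw [show (i : ℕ) + 1 = n + 1 from hi, hTp]
        simp
  set z := EAV.mk hV _ hxp
  have hz : T z = 0 := EAV.val_eq_one_iff.1 (by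
    rw [val_eaRepN_sub_one, EAV.val_mk]
    exact commutatorElement_eq_one_iff_commute.2 (Commute.self_pow _ _))
  set t := ((-φ z) • v).val * x with ht
  set R := EAV.grp (LinearMap.ker Φ) with hR
  have htp : t ^ (n + 1) ∈ R := by
    have h1 := val_mul_pow_char ((-φ z) • v) x 1
    rw [pow_one, Nat.add_sub_cancel, ← EAV.val_mk (hV := hV) _ hxp, ← EAV.val_add] at h1
    rw [ht, h1, EAV.val_mem_grp, LinearMap.mem_ker]
    ext i
    change φ ((T ^ (i : ℕ)) ((T ^ n) ((-φ z) • v) + z)) = 0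
    rw [map_add, ← Module.End.mul_apply, ← pow_add]
    rcases i with ⟨_ | i, hi⟩
    · simp [hφ]
    · rw [pow_eq_zero_of_le (by simp only; omega) hTp, pow_succ, Module.End.mul_apply, hz]
      simp
  have hρt : eaRepN hV t = eaRepN hV x := by
    rw [ht, map_mul, eaRepN_eq_one_of_mem (EAV.val_mem _), one_mul]
  set K := V ⊔ zpowers x with hK
  have hVK : V ≤ K := le_sup_left
  have htK : t ∈ K := mul_mem (hVK (EAV.val_mem _)) (mem_sup_right (mem_zpowers x))
  have htV : t ∉ V := fun h => hx ((mul_mem_cancel_left (EAV.val_mem _)).1 h)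
  have hRV : R ≤ V := EAV.grp_le _
  have hKR : K ≤ normalizer (R : Set X) := by
    refine sup_le (hV.le_centralizer.trans ((centralizer_le hRV).trans
      (centralizer_le_normalizer _))) (zpowers_le.2 (mem_normalizer_fintype ?_))
    rintro _ ⟨u, hu, rfl⟩
    rw [← val_eaRepN]
    refine EAV.val_mem_grp.2 ?_
    rw [show eaRepN hV x u = T u + u by simp [hTdef]]
    exact add_mem ((hΦT u).2 fun i _ => congrFun hu i) hu
  haveI := normal_subgroupOf_of_le_normalizer hKR
  let π : K →* Shrink.{0} (K ⧸ R.subgroupOf K) :=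
    (Shrink.mulEquiv.symm.toMonoidHom).comp (QuotientGroup.mk' _)
  have hπ : Function.Surjective π :=
    Shrink.mulEquiv.symm.surjective.comp (QuotientGroup.mk'_surjective _)
  have hker : π.ker = R.subgroupOf K := by
    ext g
    simp [π]
  have hcard : ∀ U, Nat.card (((EAV.grp U).subgroupOf K).map π) = Nat.card (U.map Φ) := by
    intro U
    rw [← relIndex_ker, hker, relIndex_subgroupOf ((EAV.grp_le U).trans hVK), relIndex_grp]
  have hB := (hV.subgroupOf K).map π
  have hcB : Nat.card ((V.subgroupOf K).map π) = (n + 1) ^ (n + 1) := by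
    have := hcard ⊤
    rw [EAV.grp_top, Submodule.map_top, LinearMap.range_eq_top.2 hs] at this
    rw [this, Nat.card_congr Submodule.topEquiv.toEquiv]
    simp
  have hcomap : ((V.subgroupOf K).map π).comap π = V.subgroupOf K :=
    comap_map_eq_self (hker.le.trans (comap_mono hRV))
  have htB : π ⟨t, htK⟩ ∉ (V.subgroupOf K).map π := fun h => htV (hcomap.le h)
  refine ⟨Shrink.{0} (K ⧸ R.subgroupOf K), inferInstance, Finite.of_surjective π hπ,
    ⟨(V.subgroupOf K).map π, π ⟨t, htK⟩, Normal.map inferInstance π hπ, hB.1, hB.2, hcB,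
      orderOf_eq_prime ?_ (fun h => htB (h ▸ one_mem _)), htB, ?_, ?_⟩,
    Loc.CF.involves_of_surjective π hπ⟩
  · rw [← map_pow, ← MonoidHom.mem_ker, hker]
    exact htp
  · rw [← card_mul_index ((V.subgroupOf K).map π), hcB, ← index_comap_of_surjective _ hπ, hcomap,
      ← relIndex, hK, relIndex_sup_left, PG.relIndex_zpowers_of_pow_prime_mem hp.out hx hxp,
      ← pow_succ]
  · let S : Submodule (ZMod (n + 1)) (Fin (n + 1) → ZMod (n + 1)) :=
      LinearMap.range (LinearMap.single _ _ 0)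
    have hS : ∀ w, w ∈ S ↔ ∀ i, i ≠ 0 → w i = 0 := fun w =>
      ⟨by rintro ⟨c, rfl⟩ i hi; simp [hi], fun h => ⟨w 0, funext fun i => by
        by_cases hi : i = 0
        · simp [hi]
        · simp [hi, h i hi]⟩⟩
    have e : (V.subgroupOf K).map π ⊓ centralizer {π ⟨t, htK⟩} =
        ((EAV.grp (S.comap Φ)).subgroupOf K).map π := by
      have key : ∀ u : EAV hV, π ⟨u.val, hVK u.val_mem⟩ ∈ centralizer {π ⟨t, htK⟩} ↔
          u ∈ S.comap Φ := fun u => by
        rw [mem_centralizer_singleton_iff, eq_comm, ← commutatorElement_eq_one_iff_mul_comm,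
          ← map_commutatorElement, ← MonoidHom.mem_ker, hker, Submodule.mem_comap, hS, ← hΦT,
          ← LinearMap.mem_ker, ← EAV.val_mem_grp, hTdef, ← hρt, val_eaRepN_sub_one]
        rfl
      refine le_antisymm ?_ (le_inf (map_mono (comap_mono (EAV.grp_le _))) ?_)
      · rintro _ ⟨⟨g, hg, rfl⟩, hc⟩
        exact ⟨g, ⟨EAV.mk hV g hg, (key _).1 hc, rfl⟩, rfl⟩
      · rintro _ ⟨⟨g, hg⟩, ⟨u, hu, rfl⟩, rfl⟩
        exact (key u).2 hu
    rw [e, hcard, Submodule.map_comap_eq_of_surjective hs,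
      ← Nat.card_congr (LinearEquiv.ofInjective _ fun a b h => by
        simpa using congrFun h 0).toEquiv, Nat.card_zmod]


/-- Let G be a finite p-soluble group, p an odd prime not of the form 2^k + 1, and suppose the wreath product C_p ≀ C_p (of order p^(p+1)) is not involved in a Sylow p-subgroup of G: no section of a Sylow p-subgroup is isomorphic to it. Then G has p-length at most 1. -/
theorem result {G : Type*} [Group G] [Finite G] {p : ℕ} [Fact p.Prime] (hp2 : p ≠ 2) (hnf : (¬ ∃ k : ℕ, p = 2 ^ k + 1)) (hG : Cfsg.IsPSolvable p G) (P : Sylow p G) (hwr : ∀ (W : Type) [Group W] [Finite W], (∃ (B : Subgroup W) (t : W), B.Normal ∧ IsMulCommutative B ∧ (∀ b ∈ B, b ^ p = 1) ∧ Nat.card B = p ^ p ∧ orderOf t = p ∧ t ∉ B ∧ Nat.card W = p ^ (p + 1) ∧ Nat.card ↥(B ⊓ Subgroup.centralizer ({t} : Set W)) = p) → ¬ Cfsg.Involves W ↥(P : Subgroup G)) : Cfsg.PLengthLE p 1 G := by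
  have hp : p.Prime := Fact.out
  obtain ⟨X, _, _, f, hf, hV, hC, hc⟩ := exists_frattini_quotient hG
  rw [pLengthLE_one_iff_sylow_le P, ← hc, ← map_le_iff_le_comap]
  by_contra h
  obtain ⟨x, hxP, hx, hxp⟩ : ∃ x ∈ (P : Subgroup G).map f, x ∉ pCore p X ∧ x ^ p ∈ pCore p X := by
    obtain ⟨y, hy, hy'⟩ := SetLike.not_le_iff_exists.1 h
    obtain ⟨k, hk⟩ := P.2.map f ⟨y, hy⟩
    have hex : ∃ k, y ^ p ^ k ∈ pCore p X := ⟨k, by
      rw [show y ^ p ^ k = 1 from congrArg Subtype.val hk]; exact one_mem _⟩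
    classical
    have h0 : Nat.find hex ≠ 0 := fun h => hy' (by simpa [h] using Nat.find_spec hex)
    obtain ⟨j, hj⟩ := Nat.exists_eq_succ_of_ne_zero h0
    refine ⟨y ^ p ^ j, pow_mem hy _, Nat.find_min hex (by omega), ?_⟩
    rw [← pow_mul, ← pow_succ, ← Nat.succ_eq_add_one, ← hj]
    exact Nat.find_spec hex
  obtain ⟨W, _, _, hW, hi⟩ := wreath hV hx hxp (by
    simpa using pow_ne_zero_of_nonExc (hG.of_surjective hf) (nonExc_of_not_fermat hp2 hnf) hV hC
      (x := x) (n := 0) (by simpa using hxp) (by simpa using hx))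
  refine hwr W hW (Loc.CF.involves_trans hi (Loc.CF.involves_trans
    (Loc.CF.involves_of_injective (inclusion (sup_le ?_ (zpowers_le.2 hxP))) (inclusion_injective _))
    (Loc.CF.involves_of_surjective _ (f.subgroupMap_surjective P))))
  exact pCore_le_sylow (P.mapSurjective hf)

end Cfsg.Agent.S3787
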