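import Mathlib
import Cfsg.Statements.S3788
import Cfsg.Agent.GT.HallHigmanA
import Cfsg.Agent.Loc.CFSection
import Cfsg.Agent.GT.Transvect
import Cfsg.Agent.GT.SchurZassenhaus
import Cfsg.Agent.GT.FourGroup
-- import your own Cfsg.Agent.* helpers here

set_option autoImplicit false
open Cfsg

namespace Cfsg.Agent.S3788

open Subgroup GT
open scoped commutatorElement

theorem involves_s4 {X : Type*} [Group X] [Finite X] {V : Subgroup X} [V.Normal]
    (hV : IsElementaryAbelian 2 V) {c x : X} (hc : c * c = 1) (hp : (orderOf x).Prime)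
    (h2 : orderOf x ≠ 2) (h : c * x * c⁻¹ = x⁻¹) (hi : (centralizer {c}).relIndex V ≤ 2)
    (hx : x ∉ centralizer (V : Set X)) : Involves (Equiv.Perm (Fin 4)) X := by
  have hn : ∀ D : Subgroup X, D ≤ normalizer (V : Set X) := fun D => by
    rw [normalizer_eq_top]; exact le_top
  obtain ⟨h3, h4⟩ := orderOf_eq_three_of_transvection hV.1 hV.isPGroup
    (hn _ (mem_zpowers x)) hp h2 h hi hx
  obtain ⟨e⟩ := nonempty_equiv_perm_three hc h3 h
  set D := zpowers x ⊔ zpowers c with hD
  set U := ⁅V, zpowers x⁆ with hU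
  have hcx : zpowers c ≤ normalizer (zpowers x : Set X) :=
    zpowers_le.2 (mem_normalizer_zpowers_of_inv h)
  have hDx : D ≤ normalizer (zpowers x : Set X) := sup_le le_normalizer hcx
  have hDU : D ≤ normalizer (U : Set X) := CopAct.le_normalizer_commutator (hn _) hDx
  have hUV : U ≤ V := commutator_le_left _ _
  have hxU : x ∉ centralizer (U : Set X) := fun h => hx (zpowers_le.1
    (CopAct.le_centralizer_of_commutator_commutator_eq_bot (hn _)
      (CopAct.coprime_of_isPGroup_right (by rw [Nat.card_zpowers, h3]; norm_num) hV.isPGroup)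
      (CopAct.commutator_eq_bot_iff.2 (zpowers_le.2 h))))
  have h5 : ∀ d ∈ zpowers x, d ∈ centralizer (U : Set X) → d = 1 := fun d hd hd' => by
    by_contra h1
    have : Fact (Nat.Prime 3) := ⟨Nat.prime_three⟩
    obtain ⟨k, hk⟩ := mem_zpowers_of_prime_card (G := zpowers x) (p := 3)
      (by rw [Nat.card_zpowers, h3]) (g := ⟨d, hd⟩) (g' := ⟨x, mem_zpowers x⟩)
      (fun h => h1 (congrArg Subtype.val h))
    have hk' : d ^ k = x := congrArg Subtype.val hk
    exact hxU (hk' ▸ zpow_mem hd' k)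
  have hf : D ⊓ centralizer (U : Set X) = ⊥ := by
    refine eq_bot_iff.2 fun d hd => ?_
    obtain ⟨y, hy, b, hb, rfl⟩ := (CopAct.mem_sup_iff_of_le_normalizer hcx).1 hd.1
    rcases eq_one_or_eq_of_mem_zpowers_of_sq (by rw [sq, hc]) hb with rfl | rfl
    · exact h5 _ (by simpa using hy) hd.2
    · exfalso
      have h6 : x⁻¹ * x⁻¹ = y * b * (x * (y * b)⁻¹ * x⁻¹) := by
        obtain ⟨k, rfl⟩ := hy
        rw [show x ^ k * b * (x * (x ^ k * b)⁻¹ * x⁻¹) = x ^ k * (b * x * b⁻¹) * (x ^ k)⁻¹ * x⁻¹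
          by group, h]
        group
      have h7 := h5 (x⁻¹ * x⁻¹) (mul_mem (inv_mem (mem_zpowers x)) (inv_mem (mem_zpowers x))) (by
        rw [h6]
        exact mul_mem hd.2 (CopAct.conj_mem (CopAct.le_normalizer_centralizer hDU)
          (mem_sup_left (mem_zpowers x)) (inv_mem hd.2)))
      rw [← mul_inv_rev, inv_eq_one, ← sq] at h7
      have := orderOf_dvd_of_pow_eq_one h7
      rw [h3] at this
      norm_num at this
  obtain ⟨e'⟩ := nonempty_sup_equiv_perm (n := 4) hDU (eq_bot_iff.2 (le_trans (le_inf inf_le_right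
    (inf_le_left.trans (hUV.trans (hV.le_centralizer.trans (centralizer_le hUV))))) hf.le)) hf h4
    (by rw [Nat.card_congr e.toEquiv, Nat.card_perm]; simp [Nat.factorial])
  exact Loc.CF.involves_of_injective ((U ⊔ D).subtype.comp e'.symm.toMonoidHom)
    ((U ⊔ D).subtype_injective.comp e'.symm.injective)

theorem core {X : Type*} [Group X] [Finite X] {p : ℕ} [hp : Fact p.Prime] (hX : IsPSolvable p X)
    (hV : IsElementaryAbelian p (pCore p X)) (hC : centralizer (pCore p X : Set X) ≤ pCore p X)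
    {a : X} (ha : ∀ v ∈ pCore p X, ⁅a, v⁆ ∈ zpowers a)
    (h : p ≠ 2 ∨ ¬ Involves (Equiv.Perm (Fin 4)) X) : a ∈ pCore p X := by
  by_contra haV
  set T := eaRepN hV a - 1 with hT
  have hT2 : T ^ 2 = 0 := LinearMap.ext fun v => EAV.val_eq_one_iff.1 (by
    rw [sq, Module.End.mul_apply, val_eaRepN_sub_one, val_eaRepN_sub_one,
      commutatorElement_eq_one_iff_commute]
    obtain ⟨k, hk⟩ := ha _ v.val_mem
    exact hk ▸ Commute.self_zpow a k)
  have hap : a ^ p ∈ pCore p X := by
    have := sub_one_pow_char_pow (K := ZMod p) (eaRepN hV a) 1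
    rw [pow_one, ← map_pow, pow_eq_zero_of_le hp.out.two_le hT2, eq_comm, sub_eq_zero] at this
    exact hC (eaRepN_eq_one_iff.1 this)
  set f := QuotientGroup.mk' (pCore p X) with hf
  have hfa : f a ^ p = 1 := by rw [← map_pow]; exact (QuotientGroup.eq_one_iff _).2 hap
  have hfa' : f a ≠ 1 := fun h => haV ((QuotientGroup.eq_one_iff _).1 h)
  have hTv : ∀ v, (T v).val ∈ zpowers (a ^ p) := fun v => by
    obtain ⟨k, hk⟩ := ha _ v.val_mem
    have h1 : f a ^ k = 1 := by
      rw [← map_zpow, show a ^ k = _ from hk, ← val_eaRepN_sub_one (hV := hV)]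
      exact (QuotientGroup.eq_one_iff _).2 (EAV.val_mem _)
    rw [← orderOf_dvd_iff_zpow_eq_one, orderOf_eq_prime hfa hfa'] at h1
    obtain ⟨j, rfl⟩ := h1
    exact ⟨j, by rw [val_eaRepN_sub_one, ← hk]; simp [zpow_mul]⟩
  have hn : ∀ D : Subgroup X, D ≤ normalizer (pCore p X : Set X) := fun D => by
    rw [normalizer_eq_top]; exact le_top
  have hker : f.ker = pCore p X := QuotientGroup.ker_mk' _
  have hrel : (pCore p X).relIndex ((pPrimeCore p _).comap f) =
      Nat.card (pPrimeCore p (X ⧸ pCore p X)) := by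
    have := relIndex_ker ((pPrimeCore p _).comap f) f
    rwa [hker, map_comap_eq_self_of_surjective (QuotientGroup.mk'_surjective _)] at this
  obtain ⟨K, -, hK1, hK2, hK3⟩ := exists_complement_of_coprime_relIndex (N := pCore p X)
    (L := (pPrimeCore p _).comap f) (hker.ge.trans (ker_le_comap _ _)) (hn _)
    (by
      rw [hrel]
      obtain ⟨k, hk⟩ := hV.card_eq_pow
      rw [hk]
      exact (coprime_card_pPrimeCore p).symm.pow_left k)
  have hKc : (Nat.card K).Coprime p := hK3 ▸ hrel ▸ coprime_card_pPrimeCore p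
  have hKV := CopAct.coprime_of_isPGroup_right hKc hV.isPGroup
  have hKf : K.map f = pPrimeCore p _ := by
    have := congrArg (map f) hK1
    rwa [Subgroup.map_sup, (Subgroup.map_eq_bot_iff _).2 hker.ge, bot_sup_eq,
      map_comap_eq_self_of_surjective (QuotientGroup.mk'_surjective _)] at this
  obtain ⟨c, hc, hca⟩ : f a ∈ (normalizer (K : Set X)).map f := by
    rw [CopAct.map_mk'_normalizer _ hKV (Or.inr (CopAct.isSolvable_of_isPGroup hV.isPGroup)),
      hKf, normalizer_eq_top]
    trivial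
  have hcK : c ∉ centralizer (K : Set X) := fun h => hfa'
    (eq_one_of_mem_centralizer_pPrimeCore (hX.quotient _) pCore_quotient_pCore (k := 1)
      (by rwa [pow_one]) (by
        rw [← hKf, ← hca]
        rintro _ ⟨k, hk, rfl⟩
        rw [← map_mul, ← map_mul, h k hk]))
  have hρ : eaRepN hV c = eaRepN hV a := congrArg (eaRepQ hV) hca
  have hv : a * c⁻¹ ∈ pCore p X := by
    rw [← QuotientGroup.eq_one_iff]
    change f _ = 1
    rw [map_mul, map_inv, hca, mul_inv_cancel]
  have hpow := val_mul_pow_char (EAV.mk hV _ hv) c 1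
  rw [EAV.val_mk, inv_mul_cancel_right, pow_one, hρ, ← hT] at hpow
  have hcp : c ^ p ∈ centralizer (K : Set X) := by
    refine ((CopAct.inf_normalizer_eq_inf_centralizer (hn K) (inf_comm K _ ▸ hK2)).le
      (mem_inf.2 ⟨?_, pow_mem hc p⟩)).2
    rw [← QuotientGroup.eq_one_iff]
    change f _ = 1
    rw [map_pow, hca, hfa]
  by_cases h0 : (T ^ (p - 1)) (EAV.mk hV _ hv) = 0
  · rw [h0, EAV.val_zero, one_mul] at hpow
    have h1 : ∀ v, (T v).val ∈ centralizer (K : Set X) := fun v =>
      zpowers_le.2 (hpow ▸ hcp) (hTv v)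
    refine hcK fun k hk => ?_
    have h2 : eaRepN hV k * T = T := LinearMap.ext fun v => EAV.ext (by
      rw [Module.End.mul_apply, val_eaRepN, h1 v k hk, mul_inv_cancel_right])
    have h3 : T * (eaRepN hV k - 1) = 0 := LinearMap.ext fun v => EAV.val_eq_one_iff.1 (by
      refine mem_bot.1 ((CopAct.commutator_inf_centralizer_eq_bot hV.1 (hn K) hKV).le
        (mem_inf.2 ⟨?_, h1 _⟩))
      have h4 : ((eaRepN hV k - 1) v).val ∈ ⁅pCore p X, K⁆ := by
        rw [val_eaRepN_sub_one, commutator_comm]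
        exact commutator_mem_commutator hk v.val_mem
      rw [Module.End.mul_apply, hT, ← hρ, val_eaRepN_sub_one, commutatorElement_def]
      exact mul_mem (CopAct.conj_mem (CopAct.le_normalizer_commutator (hn _)
        (zpowers_le.2 hc)) (mem_zpowers c) h4) (inv_mem h4))
    have h5 : eaRepN hV k * eaRepN hV c = eaRepN hV c * eaRepN hV k := by
      rw [mul_sub, mul_one, sub_eq_zero] at h3
      rw [hρ, ← sub_add_cancel (eaRepN hV a) 1, ← hT, mul_add, add_mul, h2, h3, mul_one, one_mul]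
    have h6 : ⁅k, c⁆ ∈ pCore p X := hC (eaRepN_eq_one_iff.1 (by
      rw [commutatorElement_def, map_mul, map_mul, map_mul, h5]
      simp only [← map_mul]
      simp))
    refine commutatorElement_eq_one_iff_mul_comm.1 (mem_bot.1 (hK2.le ⟨h6, ?_⟩))
    rw [commutatorElement_def, mul_assoc, mul_assoc, ← mul_assoc c]
    exact mul_mem hk (CopAct.conj_mem (zpowers_le.2 hc) (mem_zpowers c) (inv_mem hk))
  obtain rfl : p = 2 := by
    by_contra h2
    have := hp.out.two_le
    rw [pow_eq_zero_of_le (by omega) hT2] at h0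
    exact h0 rfl
  rw [show 2 - 1 = 1 from rfl, pow_one] at h0 hpow
  have hz : ∀ v, T v ≠ 0 → (T v).val = a ^ 2 := fun v hv =>
    (eq_one_or_eq_of_mem_zpowers_of_sq (hV.2 _ hap) (hTv v)).resolve_left
      fun h => hv (EAV.val_eq_one_iff.1 h)
  rw [hz _ h0, left_eq_mul, sq] at hpow
  obtain ⟨x, hxK, hx, hinv⟩ := exists_prime_inverted hpow hc hcK
  refine h.resolve_left (by simp) (involves_s4 hV hpow hx (fun h2 => ?_) hinv ?_ fun h2 => ?_)
  · exact absurd (hKc.coprime_dvd_left (h2 ▸ K.orderOf_dvd_natCard hxK)) (by norm_num)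
  · refine Nat.le_of_dvd two_pos (index_dvd_two_iff.2 ⟨⟨_, hv⟩, fun b => ?_⟩)
    have key : ∀ u : EAV hV, T u = 0 → u.val ∈ centralizer {c} := fun u hu => by
      rw [mem_centralizer_singleton_iff, eq_comm, ← commutatorElement_eq_one_iff_mul_comm,
        ← val_eaRepN_sub_one (hV := hV), hρ, ← hT, hu, EAV.val_zero]
    by_cases hb : T (EAV.mk hV b b.2) = 0
    · exact Or.inr (key _ hb)
    · refine Or.inl (key (EAV.mk hV b b.2 + EAV.mk hV _ hv) (EAV.val_eq_one_iff.1 ?_))
      rw [map_add, EAV.val_add, hz _ hb, hz _ h0, ← sq]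
      exact hV.2 _ hap
  · rw [mem_bot.1 (hK2.le ⟨hC h2, hxK⟩), orderOf_one] at hx
    exact Nat.not_prime_one hx


/-- Let G be a finite p-soluble group, P a Sylow p-subgroup of G and A a cyclic normal subgroup of P. If p is odd, or if no section of G is isomorphic to the symmetric group of degree 4, then A ≤ O_{p',p}(G). -/
theorem result {G : Type*} [Group G] [Finite G] {p : ℕ} [Fact p.Prime] (hG : Cfsg.IsPSolvable p G) (P : Sylow p G) (A : Subgroup G) (hAP : A ≤ (P : Subgroup G)) (hAn : (P : Subgroup G) ≤ Subgroup.normalizer (A : Set G)) (hA : IsCyclic A) (h : p ≠ 2 ∨ ¬ Cfsg.Involves (Equiv.Perm (Fin 4)) G) : A ≤ Cfsg.pPrimePCore p G := by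
  obtain ⟨X, _, _, f, hf, hV, hC, hc⟩ := exists_frattini_quotient hG
  obtain ⟨a, rfl⟩ := (Subgroup.isCyclic_iff_exists_zpowers_eq_top _).1 hA
  rw [← hc, zpowers_le, mem_comap]
  refine core (hG.of_surjective hf) hV hC (fun v hv => ?_)
    (h.imp_right fun h h' => h (Loc.CF.involves_trans h' (Loc.CF.involves_of_surjective f hf)))
  obtain ⟨g, hg, rfl⟩ := pCore_le_sylow (P.mapSurjective hf) hv
  rw [← map_commutatorElement, ← MonoidHom.map_zpowers, commutatorElement_def, mul_assoc,
    mul_assoc, ← mul_assoc g]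
  exact mem_map_of_mem f (mul_mem (mem_zpowers a)
    (CopAct.conj_mem hAn hg (inv_mem (mem_zpowers a))))

end Cfsg.Agent.S3788
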