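import Mathlib
import Cfsg.Statements.S3789
import Cfsg.Agent.GT.HallHigmanA
import Cfsg.Agent.GT.ModRep2
import Cfsg.Agent.Sym.Sylow
import Cfsg.Agent.GT.Frattini
import Cfsg.Agent.GT.CoprimeAct
import Cfsg.Agent.GT.PGroupChain
-- import your own Cfsg.Agent.* helpers here

set_option autoImplicit false
open Cfsg

namespace Cfsg.Agent.S3789

open Subgroup GT Module
open scoped commutatorElement

theorem lin {K : Type*} [Field K] [IsAlgClosed K] {p : ℕ} [hp : Fact p.Prime] [CharP K p]
    (hp2 : p ≠ 2) {G : Type*} [Group G] [Finite G] {V : Type*} [AddCommGroup V] [Module K V]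
    [FiniteDimensional K V] (ρ : Representation K G V) (hρ : Function.Injective ρ)
    {R B : Subgroup G} (hR : (Nat.card R).Coprime p) (hB : IsPGroup p B)
    (hBR : B ≤ normalizer (R : Set G)) (h1 : ∀ a ∈ ⁅B, B⁆, (ρ a - 1) ^ 2 = 0)
    (h2 : ∀ a ∈ ⁅B, B⁆, ∀ b ∈ B, (ρ a - 1) * (ρ b - 1) ^ 2 = 0) :
    ⁅B, B⁆ ≤ centralizer (R : Set G) := by
  classical
  by_contra hc
  set A := ⁅B, B⁆ with hAdef
  have hAB : A ≤ B := commutator_le_self B
  have hBA : B ≤ normalizer (A : Set G) := normalizer_commutator_ge_left B B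
  obtain ⟨q, hq, hqp, Q, hQR, hQ, hBQ, hQ0, h3, h4, h5, h6, h7⟩ :=
    exists_isPGroup_minimal_not_centralized hB hAB hBA hR hBR hc
  have := Fact.mk hq
  have := Fintype.ofFinite Q
  have hQc : (Nat.card Q).Coprime p := hR.coprime_dvd_left (card_dvd_of_le hQR)
  have hM := natCast_card_ne_zero K hQc
  have hAQ : ¬ A ≤ centralizer (Q : Set G) := fun h =>
    hQ0 (h3.symm.trans (CopAct.commutator_eq_bot_iff.2 h))
  obtain ⟨a, haA, ha, -, -, ha'⟩ := PG.exists_step (N := A ⊓ centralizer (Q : Set G))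
    (hB.to_le hAB) hB hBA (CopAct.le_normalizer_inf hBA (CopAct.le_normalizer_centralizer hBQ))
    (lt_of_le_of_ne inf_le_left fun h => hAQ (h.ge.trans inf_le_right))
  have haB := hAB haA
  have hCa : Q ⊓ centralizer (zpowers a : Set G) ≤ ⁅Q, Q⁆ := by
    rw [← h4]
    refine le_inf inf_le_left (le_centralizer_iff.1 (CopAct.commutator_eq_bot_iff.1
      (h7 _ (lt_of_le_of_ne inf_le_left fun h => ha ⟨haA, ?_⟩) ?_)))
    · exact zpowers_le.1 (le_centralizer_iff.1 (h.ge.trans inf_le_right))
    · refine PG.le_normalizer_of_forall_map_le fun b hb => ?_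
      rintro _ ⟨u, hu, rfl⟩
      have hu1 := CopAct.conj_mem hBQ hb hu.1
      refine mem_inf.2 ⟨hu1, ?_⟩
      have hu2 : u * a = a * u := (hu.2 a (mem_zpowers a)).symm
      have hu3 := (ha' b hb).2 _ hu1
      rw [centralizer_zpowers, mem_centralizer_singleton_iff]
      change b * u * b⁻¹ * a = a * (b * u * b⁻¹)
      calc b * u * b⁻¹ * a = b * u * b⁻¹ * ⁅a, b⁆ * (b * a * b⁻¹) := by
            simp [commutatorElement_def, mul_assoc]
        _ = ⁅a, b⁆ * (b * (u * a) * b⁻¹) := by rw [hu3]; group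
        _ = _ := by rw [hu2]; simp [commutatorElement_def, mul_assoc]
  have hap : a ^ p = 1 := hρ (by
    have := sub_one_pow_char_pow (K := K) (ρ a) 1
    rw [pow_one, pow_eq_zero_of_le hp.out.two_le (h1 a haA), eq_comm, sub_eq_zero] at this
    rw [map_pow, this, map_one])
  have hgen : ⁅Q, zpowers a⁆ = Q := by
    have hn := (zpowers_le.2 haB).trans hBQ
    refine eq_of_sup_of_le_map_frattini (CopAct.commutator_le_of_le_normalizer hn)
      (hCa.trans h6.ge) (CopAct.commutator_sup_centralizer hn ?_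
        (Or.inl (CopAct.isSolvable_zpowers a))).ge
    exact (coprime_card_of_isPGroup hp.out (hB.to_le (zpowers_le.2 haB)) hQc)
  obtain ⟨m₀, hm₀, hm₀'⟩ := (Q.bot_or_exists_ne_one).resolve_left hQ0
  obtain ⟨U, hU, hτ, m₁, hm₁⟩ := exists_irrRep_ne_one hM (ρ.comp Q.subtype) (m₀ := ⟨m₀, hm₀⟩)
    fun h => hm₀' (hρ (h.trans (map_one ρ).symm))
  set τ := Representation.subrepresentation (ρ.comp Q.subtype) U hU with hτdef
  set φ := CopAct.conjHom hBQ with hφ
  have hφρ : ∀ (b : B) (m : Q), ρ b * (ρ.comp Q.subtype) m = (ρ.comp Q.subtype) (φ b m) * ρ b :=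
    fun b m => by
      change ρ b * ρ m = ρ (b * m * b⁻¹) * ρ b
      simp [← map_mul]
  have hcen : ∀ m : Q, (m : G) ∈ centralizer (Q : Set G) → m ∈ scalarSub τ :=
    fun m hm => hτ.mem_scalarSub_of_comm fun g => Subtype.ext (hm g g.2).symm
  have hn : ∃ m, τ (φ ⟨a, haB⟩ m) ≠ τ m := by
    by_contra hc
    push Not at hc
    have hj : ∀ (j : ℕ) m, τ (φ (⟨a, haB⟩ ^ j) m) = τ m := fun j => by
      induction j with
      | zero => exact fun _ => by simp
      | succ j ih => exact fun m => by rw [pow_succ', map_mul, MulAut.mul_apply, hc, ih]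
    have : Q ≤ τ.ker.map Q.subtype := by
      refine hgen.ge.trans (commutator_le.2 fun g hg y hy => ?_)
      obtain ⟨j, rfl⟩ := mem_powers_iff_mem_zpowers.2 hy
      refine ⟨⟨g, hg⟩ * (φ (⟨a, haB⟩ ^ j) ⟨g, hg⟩)⁻¹, ?_, ?_⟩
      · rw [SetLike.mem_coe, MonoidHom.mem_ker, ← map_inv, map_mul, hj, ← map_mul, mul_inv_cancel,
          map_one]
      · simp only [coe_subtype, coe_mul, coe_inv, hφ, CopAct.coe_conjHom_apply, coe_pow,
          commutatorElement_def]
        group
    obtain ⟨m, hm, hm'⟩ := this m₁.2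
    exact hm₁ (Subtype.ext hm' ▸ hm)
  have h3p : 3 ≤ p := by have := hp.out.two_le; omega
  obtain ⟨k, hk, hD, hD1, hle, hst⟩ := (hallHigman_irr hM (hφρ ⟨a, haB⟩) (n := 0)
    (by rw [zero_add, pow_one, ← map_pow]; exact hap ▸ map_one ρ)
    (by rw [zero_add, pow_one, ← map_pow, show (⟨a, haB⟩ : B) ^ p = 1 from Subtype.ext hap, map_one])
    hτ (f := U.subtype) (fun _ _ => rfl) U.injective_subtype (fun m hm => hcen m (h5 (hCa
      (mem_inf.2 ⟨m.2, by
        rw [pow_zero, pow_one] at hm
        rw [centralizer_zpowers, mem_centralizer_singleton_iff, eq_comm, ← mul_inv_eq_iff_eq_mul]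
        exact congrArg Subtype.val hm⟩)))) (by simpa using hn) (h1 a haA)).resolve_left
    (by simp only [zero_add, pow_one]; omega)
  obtain rfl := Nat.le_zero.1 hk
  simp only [zero_add, pow_one, Nat.sub_self, pow_zero, one_mul] at hD hle hst
  obtain rfl : p = 3 := by omega
  by_cases hall : ∀ b, φ b ∈ repStab τ
  · have hcomm : ∀ x y : Q, ⁅x, y⁆ ∈ scalarSub τ := fun x y =>
      hcen _ (h5 (commutator_mem_commutator x.2 y.2))
    have hidx := hτ.index_scalarSub_le hM hcomm
    rw [show finrank K U = 2 by omega] at hidx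
    haveI : (scalarSub τ).Normal := ⟨fun n hn g => by
      simpa [commutatorElement_def] using mul_mem (hcomm g n) hn⟩
    have hinv : CopAct.ActInv φ (scalarSub τ) := fun b u hu => apply_mem_scalarSub (hall b) hu
    let ψ : B →* Equiv.Perm (Q ⧸ scalarSub τ) :=
      (MulAut.toPerm _).comp (CopAct.quotHom φ _ hinv)
    have := Fintype.ofFinite (Q ⧸ scalarSub τ)
    have hcm := Sym.isMulCommutative_of_card_lt_sq (hB.of_surjective _ ψ.rangeRestrict_surjective)
      ψ.range.subtype ψ.range.subtype_injective (by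
        rw [← Nat.card_eq_fintype_card]
        exact lt_of_le_of_lt hidx (by norm_num))
    have hker : A ≤ ψ.ker.map B.subtype := commutator_le.2 fun x hx y hy =>
      ⟨⁅(⟨x, hx⟩ : B), ⟨y, hy⟩⁆, by
        rw [SetLike.mem_coe, MonoidHom.mem_ker, map_commutatorElement,
          commutatorElement_eq_one_iff_mul_comm]
        exact congrArg Subtype.val (hcm.is_comm.comm ⟨_, _, rfl⟩ ⟨_, _, rfl⟩), rfl⟩
    have : Q ≤ (scalarSub τ).map Q.subtype := by
      refine h3.ge.trans (commutator_le.2 fun g hg y hy => ?_)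
      obtain ⟨b, hb, rfl⟩ := hker hy
      have h8 : b ∈ (CopAct.quotHom φ _ hinv).ker := by
        ext x
        exact Equiv.congr_fun (MonoidHom.mem_ker.1 hb) x
      refine ⟨_, CopAct.mem_ker_quotHom.1 h8 ⟨g, hg⟩⁻¹, ?_⟩
      simp [hφ, CopAct.coe_conjHom_apply, commutatorElement_def, mul_assoc]
    refine hD1 (hτ.finrank_eq_one_of_forall_smul fun m => ?_)
    obtain ⟨m', hm, hm'⟩ := this m.2
    exact Subtype.ext hm' ▸ hm
  · push Not at hall
    obtain ⟨b, hb⟩ := hall
    have hb2 : φ (b * b) ∉ repStab τ := fun h => hb (by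
      obtain ⟨k, hk⟩ := hB b
      obtain ⟨j, hj⟩ : Odd (3 ^ k) := Odd.pow (by decide)
      have : b = (b * b) ^ (j + 1) := by
        rw [← sq, ← pow_mul, show 2 * (j + 1) = 3 ^ k + 1 by omega, pow_succ, hk, one_mul]
      rw [this, map_pow]
      exact pow_mem h _)
    obtain ⟨m, hm⟩ := hn
    have hfix : ∀ w : U, ρ a w = w := fun w => by
      have e := LinearMap.congr_fun (congrArg (charProj τ (ρ.comp Q.subtype) * ·)
        (h2 a haA b b.2)) w
      have e1 : charProj τ (ρ.comp Q.subtype) * (ρ a - 1) =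
          (ρ a - 1) * charProj τ (ρ.comp Q.subtype) := by
        rw [mul_sub, sub_mul, mul_one, one_mul, mul_charProj (hφρ ⟨a, haB⟩) hst]
      have e2 : ((ρ b - 1) ^ 2 : End K V) (w : V) = ρ (b * b : B) w - ρ b w - ρ b w + w := by
        simp [sq]
        abel
      have e3 := hτ.charProj_apply_of_notMem (f := U.subtype) (fun _ _ => rfl) (hφρ b) hb w
      have e4 := hτ.charProj_apply_of_notMem (f := U.subtype) (fun _ _ => rfl) (hφρ _) hb2 w
      have e5 := charProj_apply_intertwiner (τ := τ) (τ' := τ) (σ := ρ.comp Q.subtype)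
        (f := U.subtype) (fun _ _ => rfl) w
      rw [hτ.charProj_self hM] at e5
      simp only [Submodule.subtype_apply] at e3 e4 e5
      simp only [← mul_assoc, e1] at e
      rw [End.mul_apply, End.mul_apply, e2, map_add, map_sub, map_sub, e3, e4, e5] at e
      simp only [sub_self, zero_add, LinearMap.smul_apply, End.one_apply, Submodule.coe_smul,
        map_smul, mul_zero, LinearMap.zero_apply, smul_eq_zero] at e
      exact sub_eq_zero.1 (e.resolve_left (div_ne_zero hM (hτ.finrank_ne_zero hM)))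
    refine hm (LinearMap.ext fun w => Subtype.ext ?_)
    have := LinearMap.congr_fun (hφρ ⟨a, haB⟩ m) w
    rw [End.mul_apply, End.mul_apply, hfix] at this
    exact this.symm.trans (hfix (τ m w))

theorem step {G : Type*} [Group G] [Finite G] {p : ℕ} [hp : Fact p.Prime] (hp2 : p ≠ 2)
    (hG : IsPSolvable p G) (P : Sylow p G) {B : Subgroup G} (hBP : B ≤ P)
    (hPB : (P : Subgroup G) ≤ normalizer (B : Set G)) (h : ⁅⁅B, B⁆, ⁅B, B⁆⁆ = ⊥) :
    ⁅B, B⁆ ≤ pPrimePCore p G := by
  obtain ⟨X, _, _, f, hf, hV, hC, hc⟩ := exists_frattini_quotient hG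
  set π := QuotientGroup.mk' (pCore p X)
  have hB := P.2.to_le hBP
  have hPA := CopAct.le_normalizer_commutator hPB hPB
  have key : ∀ {Y : Subgroup G}, (P : Subgroup G) ≤ normalizer (Y : Set G) → ∀ y ∈ Y,
      ∀ v : EAV hV, ((eaRepN hV (f y) - 1) v).val ∈ Y.map f := fun {Y} hY y hy v => by
    obtain ⟨g, hg, e⟩ := pCore_le_sylow (P.mapSurjective hf) v.val_mem
    rw [val_eaRepN_sub_one, ← e, ← map_commutatorElement, commutatorElement_def, mul_assoc,
      mul_assoc, ← mul_assoc g]
    exact mem_map_of_mem f (mul_mem hy (CopAct.conj_mem hY hg (inv_mem hy)))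
  have key2 : ∀ a ∈ ⁅B, B⁆, ∀ v : EAV hV, v.val ∈ ⁅B, B⁆.map f → (eaRepN hV (f a) - 1) v = 0 := by
    rintro a ha v ⟨g, hg, e⟩
    rw [← EAV.val_eq_one_iff, val_eaRepN_sub_one, ← e, ← map_commutatorElement,
      mem_bot.1 (h.le (commutator_mem_commutator ha hg)), map_one]
  set K := AlgebraicClosure (ZMod p)
  have hbc : ∀ x, repBaseChange K (eaRepQ hV) (π x) - 1 =
      Module.End.baseChangeHom (ZMod p) K _ (eaRepN hV x - 1) := fun x => by
    change _ = LinearMap.baseChange _ _
    rw [LinearMap.baseChange_sub, LinearMap.baseChange_one]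
    rfl
  have := lin hp2 (repBaseChange K (eaRepQ hV))
    ((endBaseChangeHom_injective K).comp (eaRepQ_injective hC)) (B := (B.map f).map π)
    (coprime_card_pPrimeCore p) ((hB.map f).map π) (by rw [normalizer_eq_top]; exact le_top)
    (by
      rw [← map_commutator, ← map_commutator]
      rintro _ ⟨_, ⟨a, ha, rfl⟩, rfl⟩
      rw [hbc, ← map_pow, show (eaRepN hV (f a) - 1) ^ 2 = 0 from
        LinearMap.ext fun v => key2 a ha _ (key hPA a ha v), map_zero])
    (by
      rw [← map_commutator, ← map_commutator]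
      rintro _ ⟨_, ⟨a, ha, rfl⟩, rfl⟩ _ ⟨_, ⟨b, hb, rfl⟩, rfl⟩
      rw [hbc, hbc, ← map_pow, ← map_mul, show (eaRepN hV (f a) - 1) * (eaRepN hV (f b) - 1) ^ 2 = 0
        from LinearMap.ext fun v => key2 a ha _ ?_, map_zero]
      obtain ⟨g, hg, e⟩ := key hPB b hb v
      rw [sq, End.mul_apply, val_eaRepN_sub_one, ← e, ← map_commutatorElement]
      exact mem_map_of_mem f (commutator_mem_commutator hb hg))
  intro a ha
  rw [← hc, mem_comap, ← QuotientGroup.eq_one_iff]
  rw [← map_commutator, ← map_commutator] at this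
  obtain ⟨k, hk⟩ := PG.exists_pow_pow_eq_one_of_mem hB (commutator_le_self B ha)
  exact eq_one_of_mem_centralizer_pPrimeCore ((hG.of_surjective hf).quotient _)
    pCore_quotient_pCore (k := k) (by rw [← QuotientGroup.mk_pow, ← map_pow, hk]; simp)
    (this (mem_map_of_mem π (mem_map_of_mem f ha)))

universe u in
theorem aux {p : ℕ} [hp : Fact p.Prime] (hp2 : p ≠ 2) (d : ℕ) : ∀ (G : Type u) [Group G] [Finite G],
    IsPSolvable p G → ∀ P : Sylow p G, derivedSeries (P : Subgroup G) (d + 1) = ⊥ →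
    PLengthLE p (d + 1) G := by
  induction d with
  | zero =>
    intro G _ _ hG P h
    refine pLengthLE_one_of_comm hG P (isMulCommutative_iff.2 fun a b => ?_)
    exact commutatorElement_eq_one_iff_mul_comm.1
      (mem_bot.1 (h.le (commutator_mem_commutator (mem_top a) (mem_top b))))
  | succ d ih =>
    intro G _ _ hG P h
    have hf := QuotientGroup.mk'_surjective (pPrimePCore p G)
    refine pLengthLE_succ_iff.2 (ih _ (hG.quotient _) (P.mapSurjective hf) ?_)
    have := derivedSeries_normal (P : Subgroup G) d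
    have h1 := step hp2 hG P (B := (derivedSeries (P : Subgroup G) d).map (P : Subgroup G).subtype)
      (map_subtype_le _) (le_normalizer_map_subtype _ _) (by
        rw [← map_commutator, ← map_commutator, ← derivedSeries_succ, ← derivedSeries_succ, h,
          Subgroup.map_bot])
    rw [← map_commutator, ← derivedSeries_succ] at h1
    rw [← map_derivedSeries_eq (sylowMapHom_surjective hf P), Subgroup.map_eq_bot_iff]
    intro x hx
    rw [mem_ker_sylowMapHom, QuotientGroup.mk'_apply, QuotientGroup.eq_one_iff]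
    exact h1 (mem_map_of_mem _ hx)


/-- Let p be an odd prime and G a finite p-soluble group whose Sylow p-subgroups have derived length at most d. Then G has p-length at most d. -/
theorem result {G : Type*} [Group G] [Finite G] {p : ℕ} [Fact p.Prime] (hp : p ≠ 2) (hG : Cfsg.IsPSolvable p G) (d : ℕ) (hd : ∀ P : Sylow p G, derivedSeries ↥(P : Subgroup G) d = ⊥) : Cfsg.PLengthLE p d G := by
  rcases d with _ | d
  · refine pLengthLE_zero_iff.2 ((sylow_eq_bot_iff_coprime (default : Sylow p G)).1 ?_)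
    refine eq_bot_iff.2 fun x hx => ?_
    exact congrArg Subtype.val (mem_bot.1 ((hd default).le (mem_top ⟨x, hx⟩)))
  · exact aux hp d G hG default (hd _)

end Cfsg.Agent.S3789
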