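import Mathlib
import Cfsg.Statements.S3790
import Cfsg.Agent.GT.PLength2
-- import your own Cfsg.Agent.* helpers here

set_option autoImplicit false
open Cfsg

namespace Cfsg.Agent.S3790

universe u in
theorem aux (p : ℕ) {r : ℕ} (q : Fin r → ℕ) (hq : ∀ i, (q i).Prime ∧ q i ≠ p) (hp : p.Prime)
    (l : Fin r → ℕ) (T : Finset (Fin r)) : ∀ (G : Type u) [Group G] [Finite G],
    (∀ s : ℕ, s.Prime → s ∣ Nat.card G → s ≠ p → ∃ i ∈ T, q i = s) →
    (∀ i ∈ T, Cfsg.PLengthLE (q i) (l i) G) → Cfsg.PLengthLE p (∏ i ∈ T, (1 + l i)) G := by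
  classical
  induction T using Finset.induction_on with
  | empty =>
    intro G _ _ hc _
    refine GT.pLengthLE_one_of_isPGroup ((GT.isPGroup_iff_isPiNum hp).2 fun s hs hd => ?_)
    by_contra hne
    obtain ⟨i, hi, -⟩ := hc s hs hd hne
    simp at hi
  | insert a T ha ih =>
    have h0 : ∀ (G : Type u) [Group G] [Finite G],
        (∀ s : ℕ, s.Prime → s ∣ Nat.card G → s ≠ p → ∃ i ∈ insert a T, q i = s) →
        (∀ i ∈ T, Cfsg.PLengthLE (q i) (l i) G) → (Nat.card G).Coprime (q a) →
        Cfsg.PLengthLE p (∏ i ∈ T, (1 + l i)) G := by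
      intro G _ _ hc hl hcop
      refine ih G (fun s hs hd hne => ?_) hl
      obtain ⟨i, hi, rfl⟩ := hc s hs hd hne
      rcases Finset.mem_insert.1 hi with rfl | hi
      · exact absurd hd ((hq i).1.coprime_iff_not_dvd.1 hcop.symm)
      · exact ⟨i, hi, rfl⟩
    have key : ∀ (k : ℕ) (G : Type u) [Group G] [Finite G],
        (∀ s : ℕ, s.Prime → s ∣ Nat.card G → s ≠ p → ∃ i ∈ insert a T, q i = s) →
        (∀ i ∈ T, Cfsg.PLengthLE (q i) (l i) G) → Cfsg.PLengthLE (q a) k G →
        Cfsg.PLengthLE p ((1 + k) * ∏ i ∈ T, (1 + l i)) G := by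
      intro k
      induction k with
      | zero =>
        intro G _ _ hc hl hk
        simpa using h0 G hc hl (GT.pLengthLE_zero_iff.1 hk)
      | succ k ihk =>
        intro G _ _ hc hl hk
        have e : (1 + (k + 1)) * ∏ i ∈ T, (1 + l i) =
            (∏ i ∈ T, (1 + l i) + 0) + (1 + k) * ∏ i ∈ T, (1 + l i) := by ring
        rw [e]
        refine Cfsg.PLengthLE.extension (Cfsg.pPrimePCore (q a) G) ?_ (ihk _
          (fun s hs hd => hc s hs (hd.trans (Subgroup.card_quotient_dvd_card _)))
          (fun i hi => (hl i hi).quotient _) (GT.pLengthLE_succ_iff.1 hk))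
        refine Cfsg.PLengthLE.extension
          ((Cfsg.pPrimeCore (q a) G).subgroupOf (Cfsg.pPrimePCore (q a) G)) (h0 _
          (fun s hs hd => hc s hs (hd.trans ((Subgroup.card_subgroup_dvd_card _).trans
            (Subgroup.card_subgroup_dvd_card _))))
          (fun i hi => ((hl i hi).subgroup _).subgroup _) ?_) (GT.pLengthLE_zero_iff.2 ?_)
        · rw [GT.card_subgroupOf_of_le GT.pPrimeCore_le_pPrimePCore]
          exact GT.coprime_card_pPrimeCore _
        · rw [← Subgroup.index_eq_card, ← Subgroup.relIndex, GT.pPrimePCore_eq_piCoreMod,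
            ← GT.isPiNum_compl_setOf_dvd_iff]
          refine (GT.isPiNum_relIndex_piCoreMod _ _).mono' fun s hs h1 h2 => ?_
          exact (hq a).2 (((Nat.prime_dvd_prime_iff_eq hs (hq a).1).1 h1).symm.trans
            ((Nat.prime_dvd_prime_iff_eq hs hp).1 h2))
    intro G _ _ hc hl
    rw [Finset.prod_insert ha]
    exact key _ G hc (fun i hi => hl i (Finset.mem_insert_of_mem hi))
      (hl a (Finset.mem_insert_self _ _))


/-- Let G be a finite solvable group and p a prime. Suppose p₁, …, p_r are distinct primes, all different from p, that include every prime dividing the order of G other than p, and that G has p_i-length at most l_i for each i. Then G has p-length at most the product of the numbers 1 + l_i. -/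
theorem result {G : Type*} [Group G] [Finite G] (hG : Group.IsSolvable G) (p : ℕ) [Fact p.Prime] (r : ℕ) (q : Fin r → ℕ) (hq : ∀ i, (q i).Prime ∧ q i ≠ p) (hinj : Function.Injective q) (hcover : ∀ s : ℕ, s.Prime → s ∣ Nat.card G → s ≠ p → ∃ i, q i = s) (l : Fin r → ℕ) (hl : ∀ i, Cfsg.PLengthLE (q i) (l i) G) : Cfsg.PLengthLE p (Finset.univ.prod fun i => 1 + l i) G := by
  exact aux p q hq Fact.out l Finset.univ G
    (fun s hs hd hne => (hcover s hs hd hne).imp fun i hi => ⟨Finset.mem_univ _, hi⟩)
    fun i _ => hl i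

end Cfsg.Agent.S3790
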