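import Mathlib
import Cfsg.Statements.S3793
import Cfsg.Agent.Loc.FpfCyc

set_option autoImplicit false
open Cfsg

namespace Cfsg.Agent.S3793

open Cfsg.Agent.GT Cfsg.Agent.Loc.H78 Cfsg.Agent.FG.H93

universe u

theorem iterRes_eq_bot {p : ℕ} [Fact p.Prime] (hp2 : p ≠ 2) (n : ℕ) :
    ∀ (G : Type u) [Group G] [Finite G], Group.IsSolvable G → ∀ σ : MulAut G, σ ^ p ^ n = 1 →
      (∀ g : G, σ g = g → g = 1) → iterRes n (⊤ : Subgroup G) = ⊥ := by
  induction n with
  | zero =>
    intro G _ _ _ σ hσ hfpf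
    rw [pow_zero, pow_one] at hσ
    exact eq_bot_iff.2 fun g _ => hfpf g (by rw [hσ]; rfl)
  | succ n ih =>
    intro G _ _ hG σ hσ hfpf
    obtain ⟨τ, h1, h2⟩ := exists_quot_fpf hfpf (fittingSubgroup G)
      (inv_mul_mem_fitting_of_fpf hG hσ (Or.inl hp2) hfpf)
    have h3 := ih _ inferInstance τ h1 h2
    rw [← Subgroup.map_top_of_surjective _ (QuotientGroup.mk'_surjective (fittingSubgroup G)),
      ← map_iterRes, Subgroup.map_eq_bot_iff, QuotientGroup.ker_mk'] at h3
    rw [iterRes_succ, eq_bot_iff]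
    exact (nilRes_mono h3).trans (nilRes_eq_bot_iff.2 inferInstance).le


/-- The Shult–Gross Theorem: let p be an odd prime and G a finite solvable group with an automorphism σ of order p^n fixing only the identity. Then G has Fitting height at most n: G has Fitting height at most m when there is a chain of normal subgroups 1 = F₀ ≤ F₁ ≤ ⋯ ≤ F_m = G with each F_{i+1}/F_i nilpotent. -/
theorem result {G : Type*} [Group G] [Finite G] (hG : Group.IsSolvable G) {p : ℕ} (hp : p.Prime) (hp2 : p ≠ 2) (σ : MulAut G) (n : ℕ) (hσ : orderOf σ = p ^ n) (hfpf : ∀ g : G, σ g = g → g = 1) : ∃ F : Fin (n + 1) → Subgroup G, F 0 = ⊥ ∧ F (Fin.last n) = ⊤ ∧ Monotone F ∧ (∀ i, (F i).Normal) ∧ ∀ i : Fin n, ∃ k : ℕ, (F i.succ).lowerCentralSeries k ≤ F i.castSucc := by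
  have := Fact.mk hp
  exact (iterRes_top_eq_bot_iff n).1
    (iterRes_eq_bot hp2 n G hG σ (hσ ▸ pow_orderOf_eq_one σ) hfpf)

end Cfsg.Agent.S3793
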