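import Mathlib
import Cfsg.Statements.S3794
import Cfsg.Agent.Loc.FpfCyc

set_option autoImplicit false
open Cfsg

namespace Cfsg.Agent.S3794

open Cfsg.Agent.GT Cfsg.Agent.Loc.H78


/-- Let G be a finite solvable group with an automorphism σ satisfying σ⁴ = 1 and fixing only the identity. Then the derived subgroup G' is nilpotent. -/
theorem result {G : Type*} [Group G] [Finite G] (hG : Group.IsSolvable G) (σ : MulAut G) (hσ : σ ^ 4 = 1) (hfpf : ∀ g : G, σ g = g → g = 1) : Group.IsNilpotent (commutator G) := by
  have := Fact.mk Nat.prime_two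
  obtain ⟨τ, h1, h2⟩ := exists_quot_fpf hfpf (fittingSubgroup G)
    (inv_mul_mem_fitting_of_fpf (p := 2) (n := 1) hG hσ (Or.inr le_rfl) hfpf)
  have h3 : Function.Involutive τ := fun x => by
    have := congrArg (fun f : MulAut (G ⧸ fittingSubgroup G) => f x) h1
    simpa [pow_two] using this
  have h4 : commutator G ≤ fittingSubgroup G := by
    rw [commutator_def, Subgroup.commutator_le]
    intro a _ b _
    rw [← QuotientGroup.eq_one_iff, ← QuotientGroup.mk'_apply, map_commutatorElement,
      commutatorElement_eq_one_iff_commute]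
    exact MonoidHom.FixedPointFree.commute_all_of_involutive (φ := τ) h2 h3 _ _
  exact isNilpotent_of_le h4

end Cfsg.Agent.S3794
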