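import Mathlib
import Cfsg.Statements.S3795
import Cfsg.Agent.Loc.FpfGross
import Cfsg.Agent.S3794

set_option autoImplicit false
open Cfsg

namespace Cfsg.Agent.S3795

open Cfsg.Agent.GT Cfsg.Agent.Loc.H78 Cfsg.Agent.FG.H93

universe u

theorem iterRes_eq_bot (n : ℕ) :
    ∀ (G : Type u) [Group G] [Finite G], Group.IsSolvable G → ∀ σ : MulAut G,
      σ ^ 2 ^ (n + 2) = 1 → (∀ g : G, σ g = g → g = 1) →
        iterRes (2 * n + 2) (⊤ : Subgroup G) = ⊥ := by
  induction n with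
  | zero =>
    intro G _ _ hG σ hσ hfpf
    have := Cfsg.Agent.S3794.result hG σ hσ hfpf
    rw [eq_bot_iff, ← nilRes_eq_bot_iff.2 this]
    exact nilRes_mono (nilRes_le_lcs _ 1)
  | succ n ih =>
    intro G _ _ hG σ hσ hfpf
    obtain ⟨N, _, h0, τ, h1, h2⟩ := exists_quot_fpf_two hG hσ hfpf
    have h3 := ih _ inferInstance τ h1 h2
    rw [← Subgroup.map_top_of_surjective _ (QuotientGroup.mk'_surjective N),
      ← map_iterRes, Subgroup.map_eq_bot_iff, QuotientGroup.ker_mk'] at h3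
    rw [show 2 * (n + 1) + 2 = 2 * n + 2 + 1 + 1 by ring, iterRes_succ, iterRes_succ, eq_bot_iff]
    exact (nilRes_mono (nilRes_mono h3)).trans h0.le


/-- Gross's Theorem: let G be a finite solvable group with an automorphism σ of order 2^n, n > 1, fixing only the identity. Then G has Fitting height at most 2n − 2: G has Fitting height at most m when there is a chain of normal subgroups 1 = F₀ ≤ F₁ ≤ ⋯ ≤ F_m = G with each F_{i+1}/F_i nilpotent. -/
theorem result {G : Type*} [Group G] [Finite G] (hG : Group.IsSolvable G) (σ : MulAut G) (n : ℕ) (hn : 1 < n) (hσ : orderOf σ = 2 ^ n) (hfpf : ∀ g : G, σ g = g → g = 1) : ∃ F : Fin ((2 * n - 2) + 1) → Subgroup G, F 0 = ⊥ ∧ F (Fin.last (2 * n - 2)) = ⊤ ∧ Monotone F ∧ (∀ i, (F i).Normal) ∧ ∀ i : Fin (2 * n - 2), ∃ k : ℕ, (F i.succ).lowerCentralSeries k ≤ F i.castSucc := by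
  obtain ⟨m, rfl⟩ : ∃ m, n = m + 2 := ⟨n - 2, by omega⟩
  refine (iterRes_top_eq_bot_iff _).1 ?_
  rw [show 2 * (m + 2) - 2 = 2 * m + 2 by omega]
  exact iterRes_eq_bot m G hG σ (hσ ▸ pow_orderOf_eq_one σ) hfpf

end Cfsg.Agent.S3795
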