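import Mathlib
import Cfsg.Statements.S3796
import Cfsg.Agent.Loc.FpfWard

set_option autoImplicit false
open Cfsg

namespace Cfsg.Agent.S3796

open Cfsg.Agent.GT Cfsg.Agent.Loc.H78 Cfsg.Agent.FG.H93
open scoped Cfsg.Agent.GT.CopAct


/-- Ward's Theorem: let G be a finite solvable group and A an elementary abelian group of automorphisms of G of order p² (p a prime) with no non-identity common fixed point. Then G has Fitting height at most 2: G has Fitting height at most m when there is a chain of normal subgroups 1 = F₀ ≤ F₁ ≤ ⋯ ≤ F_m = G with each F_{i+1}/F_i nilpotent. -/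
theorem result {G : Type*} [Group G] [Finite G] (hG : Group.IsSolvable G) {p : ℕ} (hp : p.Prime) (A : Subgroup (MulAut G)) (hA : Cfsg.IsElementaryAbelian p A) (hcard : Nat.card A = p ^ 2) (hfpf : ∀ g : G, (∀ a ∈ A, a g = g) → g = 1) : ∃ F : Fin (2 + 1) → Subgroup G, F 0 = ⊥ ∧ F (Fin.last 2) = ⊤ ∧ Monotone F ∧ (∀ i, (F i).Normal) ∧ ∀ i : Fin 2, ∃ k : ℕ, (F i.succ).lowerCentralSeries k ≤ F i.castSucc := by
  have := Fact.mk hp
  have hAp := CopAct.isPGroup_of_isElementaryAbelian hA
  have hf : ∀ g : G, (∀ a : A, A.subtype a g = g) → g = 1 :=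
    fun g hg => hfpf g fun a ha => hg ⟨a, ha⟩
  have := CopAct.sdL_top_normal A.subtype
  have h1 := isNilpotent_nilRes_of_ward (G := CopAct.sdL A.subtype ⊤) (A := CopAct.sdR A.subtype ⊤)
    ((CopAct.isSolvable_sdL_iff _ _).2 inferInstance) (p := p)
    ⟨CopAct.isMulCommutative_sdR _ (by have := hA.1; infer_instance), by
      rintro _ ⟨a, -, rfl⟩
      rw [← map_pow, show a ^ p = 1 from Subtype.ext (hA.2 a a.2), map_one]⟩
    (by rw [CopAct.card_sdR_top, hcard])
    (by rw [CopAct.card_sdL_top]; exact not_dvd_card_of_fpf hAp _ hf)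
    (by
      rw [CopAct.sdL_inf_centralizer_top, eq_bot_iff]
      rintro _ ⟨g, hg, rfl⟩
      rw [hf g hg.2, map_one]
      exact one_mem _)
  rw [← map_nilRes] at h1
  exact (iterRes_top_eq_bot_iff 2).1
    (nilRes_eq_bot_iff.2 ((CopAct.isNilpotent_sdL_iff A.subtype _).1 h1))

end Cfsg.Agent.S3796
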