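import Mathlib
import Cfsg.Statements.S3797
import Cfsg.Agent.Loc.OneClB

set_option autoImplicit false
open Cfsg

namespace Cfsg.Agent.S3797


/-- Let G be a finite solvable group of even order whose Sylow 2-subgroups contain more than one involution, and suppose all involutions of G are conjugate. Then G has 2-length at most 1, and a Sylow 2-subgroup S of G is either homocyclic (a direct product of cyclic groups of one common order) or a non-abelian 2-group with more than one involution admitting a solvable group of automorphisms transitive on its involutions. -/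
theorem result {G : Type*} [Group G] [Finite G] (hG : Group.IsSolvable G) (heven : Even (Nat.card G)) (S : Sylow 2 G) (htwo : ∃ x y : G, x ∈ (S : Subgroup G) ∧ y ∈ (S : Subgroup G) ∧ x ≠ y ∧ x ≠ 1 ∧ x ^ 2 = 1 ∧ y ≠ 1 ∧ y ^ 2 = 1) (hconj : ∀ x y : G, x ≠ 1 → x ^ 2 = 1 → y ≠ 1 → y ^ 2 = 1 → IsConj x y) : Cfsg.PLengthLE 2 1 G ∧ ((∃ m r : ℕ, Nonempty (↥(S : Subgroup G) ≃* (Fin r → Multiplicative (ZMod (2 ^ m))))) ∨ (¬ IsMulCommutative (S : Subgroup G) ∧ ∃ Y : Subgroup (MulAut ↥(S : Subgroup G)), Group.IsSolvable Y ∧ ∀ x y : ↥(S : Subgroup G), x ≠ 1 → x ^ 2 = 1 → y ≠ 1 → y ^ 2 = 1 → ∃ a ∈ Y, a x = y)) := by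
  obtain ⟨h1, Y, hY, h2⟩ := Cfsg.Agent.Loc.H78.OneCl.thompson hG S htwo hconj
  refine ⟨h1, ?_⟩
  by_cases hc : IsMulCommutative (S : Subgroup G)
  · left
    let _ : CommGroup (S : Subgroup G) :=
      { (inferInstance : Group (S : Subgroup G)) with mul_comm := hc.is_comm.comm }
    exact Cfsg.Agent.Loc.H78.OneCl.homocyclic S.2 fun x y hx1 hx2 hy1 hy2 => by
      obtain ⟨a, -, ha⟩ := h2 x y hx1 hx2 hy1 hy2
      exact ⟨a, ha⟩
  · exact Or.inr ⟨hc, Y, hY, h2⟩

end Cfsg.Agent.S3797
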