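import Mathlib
import Cfsg.Statements.S3798
import Cfsg.Agent.Loc.PLengthOne
import Cfsg.Agent.S1443
import Cfsg.Agent.GT.CoprimeFixed
import Cfsg.Agent.GT.PGroupFrattini
import Cfsg.Agent.GT.SchurZassenhaus

set_option autoImplicit false
open Cfsg

namespace Cfsg.Agent.S3798

open Subgroup

/-- The case of trivial `p'`-core. -/
theorem core {G : Type*} [Group G] [Finite G] {p : ℕ} [Fact p.Prime] (hp2 : p ≠ 2)
    (hG : Cfsg.IsPSolvable p G) (hO : pPrimeCore p G = ⊥)
    (htrans : ∀ U V : Subgroup G, Nat.card U = p → Nat.card V = p →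
      ∃ a : MulAut G, U.map a.toMonoidHom = V) : (pCore p G).index.Coprime p := by
  have hp : p.Prime := Fact.out
  set P := pCore p G with hPdef
  have hP : IsPGroup p P := GT.isPGroup_pCore p
  -- every element of order `p` lies in each characteristic subgroup containing one
  have key : ∀ (C : Subgroup G) [C.Characteristic], ∀ w ∈ C, orderOf w = p →
      ∀ x : G, orderOf x = p → x ∈ C := by
    intro C hC w hw hwp x hx
    obtain ⟨a, ha⟩ := htrans (zpowers w) (zpowers x) (by rw [Nat.card_zpowers, hwp])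
      (by rw [Nat.card_zpowers, hx])
    have h1 : (zpowers w).map a.toMonoidHom ≤ C.map a.toMonoidHom := map_mono (zpowers_le.2 hw)
    rw [ha, characteristic_iff_map_eq.1 hC a] at h1
    exact h1 (mem_zpowers x)
  by_cases hP1 : P = ⊥
  · have h1 := hG.centralizer_pCore_le hO
    rw [← hPdef, hP1, coe_bot, centralizer_eq_top_iff_subset.2 (by simp), ← hP1] at h1
    rw [top_le_iff.1 h1, index_top]; simp
  obtain ⟨z, hzP, hzc⟩ : ∃ z ∈ P ⊓ centralizer (P : Set G), orderOf z = p := by
    obtain ⟨z, hz, h1, h2⟩ := GT.PG.exists_mem_ne_one_pow_eq_one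
      (hP.to_le (inf_le_left : P ⊓ centralizer (P : Set G) ≤ P))
      (GT.PG.inf_centralizer_ne_bot_of_isPGroup hP hP le_normalizer hP1)
    exact ⟨z, hz, orderOf_eq_prime h2 h1⟩
  have hall : ∀ x : G, orderOf x = p → x ∈ P ⊓ centralizer (P : Set G) := key _ z hzP hzc
  set K := (pPrimeCore p (G ⧸ P)).comap (QuotientGroup.mk' P) with hK
  have hKc : K.Characteristic := Characteristic.comap_quotient_mk inferInstance
  have hPK : P ≤ K := fun x hx => by
    rw [hK, mem_comap, QuotientGroup.mk'_apply, (QuotientGroup.eq_one_iff x).2 hx]; exact one_mem _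
  have hmapK : K.map (QuotientGroup.mk' P) = pPrimeCore p (G ⧸ P) :=
    map_comap_eq_self_of_surjective (QuotientGroup.mk'_surjective _) _
  have hrel : (P.relIndex K).Coprime p := by
    rw [← GT.card_map_mk'_eq_relIndex, hmapK]; exact GT.coprime_card_pPrimeCore p
  obtain ⟨Q, hQK, hPQ, hd, hQc⟩ := GT.exists_complement_of_coprime_relIndex hPK
    (by rw [normalizer_eq_top]; exact le_top) (GT.coprime_card_of_isPGroup hp hP hrel)
  rw [← hQc] at hrel
  have hmapQ : Q.map (QuotientGroup.mk' P) = pPrimeCore p (G ⧸ P) := by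
    rw [← hmapK, ← hPQ, Subgroup.map_sup, (map_eq_bot_iff P).2 (by simp), bot_sup_eq]
  have hQP : Q ≤ normalizer (P : Set G) := by rw [normalizer_eq_top]; exact le_top
  by_cases hC : P ⊓ centralizer (Q : Set G) = ⊥
  · rw [Nat.coprime_comm, hp.coprime_iff_not_dvd]
    intro hdvd
    have h1 := GT.CopAct.map_mk'_normalizer P (A := Q)
      (GT.CopAct.coprime_of_isPGroup_right hrel hP) (Or.inr (GT.CopAct.isSolvable_of_isPGroup hP))
    rw [hmapQ, normalizer_eq_top (pPrimeCore p (G ⧸ P))] at h1
    have h2 : P.index ∣ Nat.card (normalizer (Q : Set G)) := by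
      rw [index_eq_card, ← card_top, ← h1]; exact card_map_dvd _ _
    obtain ⟨x, hx, hxp⟩ := GT.exists_mem_orderOf_eq_prime hp (hdvd.trans h2)
    have h3 : x ∈ P ⊓ normalizer (Q : Set G) := ⟨(hall x hxp).1, hx⟩
    rw [GT.CopAct.inf_normalizer_eq_inf_centralizer hQP (by rw [inf_comm, hd]), hC, mem_bot] at h3
    rw [h3, orderOf_one] at hxp
    exact hp.one_lt.ne hxp
  · obtain ⟨w, hw, h1, h2⟩ := GT.PG.exists_mem_ne_one_pow_eq_one
      (hP.to_le (inf_le_left : P ⊓ centralizer (Q : Set G) ≤ P)) hC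
    have hwp : orderOf w = p := orderOf_eq_prime h2 h1
    have hwK : w ∈ centralizer (K : Set G) := by
      have : K ≤ centralizer {w} := by
        rw [← hPQ]
        exact sup_le (fun y hy => mem_centralizer_singleton_iff.2 ((hall w hwp).2 y hy))
          (fun y hy => mem_centralizer_singleton_iff.2 (hw.2 y hy))
      exact fun y hy => mem_centralizer_singleton_iff.1 (this hy)
    have h3 := S1443.result p hp2 P ⊥ Q hP bot_le ⟨inferInstance, fun a ha => by
      rw [mem_bot.1 ha, one_pow]⟩ hQP hrel (fun x _ hx y hy =>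
        mem_centralizer_singleton_iff.2 (key _ w hwK hwp x hx y (hQK hy)))
    have h4 : Q = ⊥ := by
      rw [← hd, eq_comm, inf_eq_right]; exact h3.trans (hG.centralizer_pCore_le hO)
    rw [h4, Subgroup.map_bot] at hmapQ
    by_cases hn : Nontrivial (G ⧸ P)
    · rcases (hG.quotient P).pCore_ne_bot_or with h | h
      · exact absurd GT.pCore_quotient_pCore h
      · exact absurd hmapQ.symm h
    · rw [not_nontrivial_iff_subsingleton] at hn
      rw [index_eq_card, Nat.card_of_subsingleton (1 : G ⧸ P)]; simp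


/-- The Gaschütz–Yen Theorem: let G be a finite p-soluble group, p an odd prime dividing its order, such that the automorphism group of G permutes the subgroups of G of order p transitively. Then G has p-length at most 1. -/
theorem result {G : Type*} [Group G] [Finite G] {p : ℕ} [Fact p.Prime] (hp : p ≠ 2) (hdvd : p ∣ Nat.card G) (hG : Cfsg.IsPSolvable p G) (htrans : ∀ U V : Subgroup G, Nat.card U = p → Nat.card V = p → ∃ a : MulAut G, U.map a.toMonoidHom = V) : Cfsg.PLengthLE p 1 G := by
  have hpp : p.Prime := Fact.out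
  rw [Loc.H78.pLengthLE_one_iff]
  refine core hp (hG.quotient _) GT.pPrimeCore_quotient_pPrimeCore fun U V hU hV => ?_
  have lift : ∀ U : Subgroup (G ⧸ pPrimeCore p G), Nat.card U = p → ∃ U' : Subgroup G,
      Nat.card U' = p ∧ U'.map (QuotientGroup.mk' _) = U := by
    intro U hU
    obtain ⟨y, hy, hyp⟩ := GT.exists_mem_orderOf_eq_prime hpp (hU.symm.dvd : p ∣ Nat.card U)
    obtain ⟨x, hx, rfl⟩ := Loc.H78.exists_lift_orderOf hpp _ (GT.coprime_card_pPrimeCore p) hyp
    refine ⟨zpowers x, by rw [Nat.card_zpowers, hx], ?_⟩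
    rw [MonoidHom.map_zpowers]
    exact GT.eq_of_le_of_card_eq (zpowers_le.2 hy) (by rw [Nat.card_zpowers, hyp, hU])
  obtain ⟨U', hU', rfl⟩ := lift U hU
  obtain ⟨V', hV', rfl⟩ := lift V hV
  obtain ⟨a, rfl⟩ := htrans U' V' hU' hV'
  refine ⟨Loc.H78.quotAut _ a, ?_⟩
  rw [Subgroup.map_map, Subgroup.map_map]
  rfl

end Cfsg.Agent.S3798
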