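import Mathlib
import Cfsg.Agent.GT.PGroupHeis
import Cfsg.Statements.S3799
-- import your own Cfsg.Agent.* helpers here

set_option autoImplicit false
open Cfsg

namespace Cfsg.Agent.S3799

/-- For every odd prime p and every n ≥ 1 there is an extraspecial p-group of order p^(1+2n) and exponent p; concretely, the general linear group of degree n + 2 over the field with p elements contains such a subgroup. -/
theorem result (p : ℕ) [Fact p.Prime] (hp : p ≠ 2) (n : ℕ) (hn : 1 ≤ n) : ∃ E : Subgroup (Matrix.GeneralLinearGroup (Fin (n + 2)) (ZMod p)), Cfsg.IsExtraspecial p ↥E ∧ Nat.card E = p ^ (1 + 2 * n) ∧ ∀ x ∈ E, x ^ p = 1 := by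
  let f := (GT.PG.Heis.toMatrix (n := n) (R := ZMod p)).toHomUnits
  have hf : Function.Injective f := fun x y e =>
    GT.PG.Heis.toMatrix_injective (congrArg Units.val e)
  refine ⟨f.range, (GT.PG.Heis.isExtraspecial hn).of_mulEquiv (MonoidHom.ofInjective hf), ?_, ?_⟩
  · rw [← Nat.card_congr (MonoidHom.ofInjective hf).toEquiv, GT.PG.Heis.card_eq, Nat.card_zmod,
      add_comm]
  · rintro _ ⟨x, rfl⟩
    rw [← map_pow, GT.PG.Heis.pow_eq_one ((Fact.out : p.Prime).odd_of_ne_two hp), map_one]

end Cfsg.Agent.S3799
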