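import Mathlib
import Cfsg.Statements.S3950
import Cfsg.Agent.Ch.BiExt

set_option autoImplicit false
set_option linter.style.haveILetI false
set_option linter.unusedVariables false
open Cfsg

namespace Cfsg.Agent.S3950

/-- A finite abelian group has trivial Schur multiplier if and only if it is cyclic. -/
theorem result {G : Type*} [CommGroup G] [Finite G] : Cfsg.HasCyclicSchurMultiplier G 1 ↔ IsCyclic G := by
  rw [Ch.hasCyclicSchurMultiplier_one_iff_card]
  exact ⟨Ch.isCyclic_of_card_mult_eq_one, fun _ => Ch.card_mult_eq_one_of_isCyclic⟩

end Cfsg.Agent.S3950
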