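import Mathlib
import Cfsg.Statements.S3953
import Cfsg.Agent.Ch.Hopf

set_option autoImplicit false
set_option linter.style.haveILetI false
set_option linter.unusedVariables false
open Cfsg

namespace Cfsg.Agent.S3953

/-- Let `P` be a Sylow `p`-subgroup of the finite group `G`, let `A` be the Schur multiplier of `G` and `B` that of `P`. Then the `p`-primary component of `A` is isomorphic to a direct factor of `B`: there are subgroups `C` and `D` of `B` meeting trivially and generating `B`, with `C` isomorphic to the `p`-primary component of `A`. -/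
theorem result {G : Type*} [Group G] [Finite G] (p : ℕ) [Fact p.Prime] (P : Sylow p G) {A B : Type*} [CommGroup A] [CommGroup B] (hA : Cfsg.HasSchurMultiplier G A) (hB : Cfsg.HasSchurMultiplier P B) : ∃ C D : Subgroup B, C ⊓ D = ⊥ ∧ C ⊔ D = ⊤ ∧ Nonempty (CommGroup.primaryComponent A p ≃* C) := by
  obtain ⟨e⟩ := hA.nonempty_mulEquiv (Ch.hasSchurMultiplier_mult _)
  obtain ⟨e'⟩ := (Ch.hasSchurMultiplier_mult _).nonempty_mulEquiv hB
  obtain ⟨C, D, h1, h2, ⟨f⟩⟩ := Ch.exists_primaryComponent_mult_compl P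
  refine ⟨C.map e'.toMonoidHom, D.map e'.toMonoidHom, ?_, ?_, ⟨MulEquiv.trans ?_
    (f.trans (e'.subgroupMap C))⟩⟩
  · rw [← Subgroup.map_inf _ _ _ e'.injective, h1, Subgroup.map_bot]
  · rw [← Subgroup.map_sup, h2, Subgroup.map_top_of_surjective _ e'.surjective]
  · refine (e.subgroupMap _).trans (MulEquiv.subgroupCongr ?_)
    ext x
    constructor
    · rintro ⟨y, ⟨k, hk⟩, rfl⟩
      exact ⟨k, by rw [← map_pow, hk, map_one]⟩
    · rintro ⟨k, hk⟩
      exact ⟨e.symm x, ⟨k, by rw [← map_pow, hk, map_one]⟩, e.apply_symm_apply x⟩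

end Cfsg.Agent.S3953
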