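import Mathlib
import Cfsg.Statements.S3954
import Cfsg.Agent.Ch.MultiplierCrit

set_option autoImplicit false
set_option linter.style.haveILetI false
set_option linter.unusedVariables false
open Cfsg

namespace Cfsg.Agent.S3954

/-- Let `U` be a subgroup of index `m` in the finite group `G`, let `A` be the Schur multiplier of `G` and `B` that of `U`. Then the subgroup of `m`-th powers of `A` is isomorphic to a subgroup of `B`. -/
theorem result {G : Type*} [Group G] [Finite G] (U : Subgroup G) {A B : Type*} [CommGroup A] [CommGroup B] (hA : Cfsg.HasSchurMultiplier G A) (hB : Cfsg.HasSchurMultiplier U B) : ∃ C : Subgroup B, Nonempty ((powMonoidHom U.index : A →* A).range ≃* C) := by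
  have := hB.finite
  obtain ⟨θ, hθ⟩ := hA.exists_subgroup_index U hB
  obtain ⟨g, hg⟩ := Ch.exists_injective_of_surjective θ.rangeRestrict θ.rangeRestrict_surjective
  have hle : (powMonoidHom U.index : A →* A).range ≤ θ.range := by
    rintro _ ⟨a, rfl⟩
    exact hθ a
  exact ⟨(g.comp (Subgroup.inclusion hle)).range,
    ⟨MonoidHom.ofInjective (hg.comp (Subgroup.inclusion_injective hle))⟩⟩

end Cfsg.Agent.S3954
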