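import Mathlib
import Cfsg.Statements.S3962
import Cfsg.Agent.Ch.MultiplierCrit

set_option autoImplicit false
set_option linter.style.haveILetI false
set_option linter.unusedVariables false
open Cfsg

namespace Cfsg.Agent.S3962

open scoped commutatorElement

/-- Let `G` be a perfect group and `π : G →* Q` a surjective homomorphism whose kernel is central. Then `π` maps the centre of `G` onto the centre of `Q`. Taking `π` to be the map to `G ⧸ Z(G)` shows that the central quotient of a perfect group has trivial centre. -/
theorem result {G Q : Type*} [Group G] [Group Q] (hG : Group.IsPerfect G) (π : G →* Q) (hπ : Function.Surjective π) (hker : π.ker ≤ Subgroup.center G) : (Subgroup.center G).map π = Subgroup.center Q := by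
  refine le_antisymm (Ch.map_center_le_of_surjective π hπ) ?_
  intro q hq
  obtain ⟨x, rfl⟩ := hπ q
  refine ⟨x, ?_, rfl⟩
  have h1 : ∀ g : G, ⁅g, x⁆ ∈ Subgroup.center G := by
    intro g
    apply hker
    rw [MonoidHom.mem_ker, map_commutatorElement, commutatorElement_eq_one_iff_mul_comm]
    exact Subgroup.mem_center_iff.1 hq _
  let f : G →* Subgroup.center G :=
    { toFun := fun g => ⟨⁅g, x⁆, h1 g⟩
      map_one' := Subtype.ext (by simp)
      map_mul' := fun a b => Subtype.ext (by
        have h2 := Subgroup.mem_center_iff.1 (h1 b) a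
        change ⁅a * b, x⁆ = ⁅a, x⁆ * ⁅b, x⁆
        have h3 := Subgroup.mem_center_iff.1 (h1 b) ⁅a, x⁆
        rw [h3]
        calc ⁅a * b, x⁆ = a * ⁅b, x⁆ * a⁻¹ * ⁅a, x⁆ := by
              simp only [commutatorElement_def]; group
          _ = ⁅b, x⁆ * ⁅a, x⁆ := by rw [h2]; group) }
  rw [SetLike.mem_coe, Subgroup.mem_center_iff]
  intro g
  letI := Ch.commGroupOfLeCenter (le_refl (Subgroup.center G))
  have h4 : f g = 1 :=
    MonoidHom.mem_ker.1 (Abelianization.commutator_subset_ker f Group.IsPerfect.mem_commutator)
  rw [← commutatorElement_eq_one_iff_mul_comm]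
  exact congrArg Subtype.val h4

end Cfsg.Agent.S3962
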