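import Mathlib
import Cfsg.Statements.S3964
import Cfsg.Agent.Ch.Metacyclic

set_option autoImplicit false
set_option linter.style.haveILetI false
set_option linter.unusedVariables false
open Cfsg

namespace Cfsg.Agent.S3964

/-- For odd `n` the dihedral group of order `2 n` has trivial Schur multiplier. -/
theorem result (n : ℕ) (hn : Odd n) : Cfsg.HasCyclicSchurMultiplier (DihedralGroup n) 1 := by
  have : NeZero n := ⟨hn.pos.ne'⟩
  rw [Ch.hasCyclicSchurMultiplier_one_iff_card, Ch.card_mult_dihedralGroup]
  exact hn.coprime_two_right

end Cfsg.Agent.S3964
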