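import Mathlib
import Cfsg.Statements.S3970
import Cfsg.Agent.Ch.PComplRank
import Cfsg.Agent.GT.PiGroups

set_option autoImplicit false
set_option linter.style.haveILetI false
set_option linter.unusedVariables false
open Cfsg

namespace Cfsg.Agent.S3970

theorem aux {G : Type*} [Group G] [Finite G] (h : ∀ p : ℕ, p.Prime →
    (∃ q : ℕ, q.Prime ∧ q ∣ Nat.card G ∧ p < q) → ∀ Q : Subgroup G, IsPGroup p Q →
      (frattini Q).index ≤ p ^ 2) (h12 : ¬ 12 ∣ Nat.card G) : Group.IsSolvable G := by
  induction hn : Nat.card G using Nat.strong_induction_on generalizing G with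
  | _ n ih =>
    subst hn
    rcases subsingleton_or_nontrivial G with hG | hG
    · infer_instance
    have hp : (Nat.card G).minFac.Prime := Nat.minFac_prime Finite.one_lt_card.ne'
    set p := (Nat.card G).minFac
    have : Fact p.Prime := ⟨hp⟩
    have hmin : ∀ q : ℕ, q.Prime → q ∣ Nat.card G → p ≤ q := fun q hq h =>
      Nat.minFac_le_of_dvd hq.two_le h
    by_cases hq : ∃ q : ℕ, q.Prime ∧ q ∣ Nat.card G ∧ p < q
    · obtain ⟨P⟩ : Nonempty (Sylow p G) := inferInstance
      obtain ⟨N, hN, h1, k, h2⟩ := (Ch.hasNormalPComplement_of_minimal_of_rank_two P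
        (fun Q hQ => h p hp hq Q (P.2.to_le hQ)) hmin h12).exists_normal
      have h3 : Group.IsSolvable N := by
        refine ih _ (GT.card_lt_of_ne_top ?_) (fun r hr ⟨s, h1, h2, h3⟩ Q hQ => ?_)
          (fun h => h12 (h.trans N.card_subgroup_dvd_card)) rfl
        · rintro rfl
          exact h1 (by rw [Subgroup.card_top]; exact Nat.minFac_dvd _)
        · have : Fact r.Prime := ⟨hr⟩
          have h4 := h r hr ⟨s, h1, h2.trans N.card_subgroup_dvd_card, h3⟩ _ (hQ.map N.subtype)
          let e := Q.equivMapOfInjective N.subtype N.subtype_injective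
          rwa [← GT.PG.map_frattini_of_surjective hQ e.toMonoidHom e.surjective,
            Subgroup.index_map_of_bijective e.bijective] at h4
      have h4 : IsPGroup p (G ⧸ N) := IsPGroup.of_card h2
      have := h4.isNilpotent
      exact Group.isSolvable_of_ker_le_range N.subtype (QuotientGroup.mk' N) (by simp)
    · have h1 : IsPGroup p G := IsPGroup.of_card (Nat.eq_prime_pow_of_unique_prime_dvd
        Nat.card_pos.ne' fun {q} h1 h2 => le_antisymm (not_lt.1 fun h3 => hq ⟨q, h1, h2, h3⟩)
          (hmin q h1 h2))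
      have := h1.isNilpotent
      infer_instance

/-- Let `G` be a finite group such that for every prime `p` dividing its order, other than the largest such prime, the Sylow `p`-subgroups are abelian and generated by at most two elements, and suppose `12` does not divide the order of `G`. Then `G` is solvable. In particular a group of cube-free order not divisible by `12` is solvable. -/
theorem result {G : Type*} [Group G] [Finite G] (h : ∀ p : ℕ, p.Prime → p ∣ Nat.card G → (∃ q : ℕ, q.Prime ∧ q ∣ Nat.card G ∧ p < q) → ∀ P : Sylow p G, IsMulCommutative (P : Subgroup G) ∧ Group.rank (P : Subgroup G) ≤ 2) (h12 : ¬ 12 ∣ Nat.card G) : Group.IsSolvable G := by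
  refine aux (fun p hp hq Q hQ => ?_) h12
  have : Fact p.Prime := ⟨hp⟩
  obtain ⟨P, hP⟩ := hQ.exists_le_sylow
  by_cases hpG : p ∣ Nat.card G
  · obtain ⟨h1, h2⟩ := h p hp hpG hq P
    exact (Ch.index_frattini_le_of_abelian P.2 h1 hP).trans (Nat.pow_le_pow_right hp.pos h2)
  · refine (Nat.le_of_dvd Nat.card_pos (Subgroup.index_dvd_card _)).trans ?_
    obtain ⟨k, hk⟩ := IsPGroup.iff_card.1 hQ
    rcases k with _ | k
    · rw [hk]; exact Nat.pow_le_pow_right hp.pos (by omega)
    · exact absurd ((dvd_pow_self p k.succ_ne_zero).trans (hk ▸ Q.card_subgroup_dvd_card)) hpG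

end Cfsg.Agent.S3970
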