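import Mathlib
import Cfsg.Statements.S3971
import Cfsg.Agent.Ch.PComplRank
import Cfsg.Agent.GT.PGroupCyclicMax

set_option autoImplicit false
set_option linter.style.haveILetI false
set_option linter.unusedVariables false
open Cfsg

namespace Cfsg.Agent.S3971

/-- Let `G` be a finite group of order `2 ^ a * n` with `n` odd and not divisible by `3`, and suppose `G` has an element of order `2 ^ (a - 1)` (so a Sylow `2`-subgroup has a cyclic subgroup of index at most `2`). Then `G` has a normal subgroup of order `n`. -/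
theorem result {G : Type*} [Group G] [Finite G] (a n : ℕ) (hG : Nat.card G = 2 ^ a * n) (hn : Odd n) (h3 : ¬ 3 ∣ n) (hx : ∃ x : G, orderOf x = 2 ^ (a - 1)) : ∃ N : Subgroup G, N.Normal ∧ Nat.card N = n := by
  have : Fact (Nat.Prime 2) := ⟨Nat.prime_two⟩
  obtain ⟨x, hx⟩ := hx
  have hX : IsPGroup 2 (Subgroup.zpowers x) := IsPGroup.of_card (by rw [Nat.card_zpowers, hx])
  obtain ⟨P, hP⟩ := hX.exists_le_sylow
  have h2n : ¬ 2 ∣ n := hn.not_two_dvd_nat
  have hn0 : n ≠ 0 := hn.pos.ne'
  have hPc : Nat.card P = 2 ^ a := by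
    rw [P.card_eq_multiplicity, hG, Nat.factorization_mul (by positivity) hn0]
    simp [Nat.factorization_eq_zero_of_not_dvd h2n, Nat.prime_two.factorization_pow]
  have h1 : (Subgroup.zpowers x).relIndex P ≤ 2 := by
    have := GT.PG.relIndex_mul_card hP
    rw [hPc, Nat.card_zpowers, hx] at this
    refine Nat.le_of_mul_le_mul_right (c := 2 ^ (a - 1)) ?_ (by positivity)
    rw [this, ← pow_succ']
    exact Nat.pow_le_pow_right two_pos (by omega)
  refine (HasNormalPComplement.exists_normal (Ch.hasNormalPComplement_of_index_frattini P (d := 2)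
    (fun Q hQ => ?_) fun q hq hqG j h6 h7 _ h8 => ?_)).elim fun N ⟨hN, h4, k, h5⟩ => ?_
  rotate_right
  · refine ⟨N, hN, ?_⟩
    have h6 := N.card_mul_index
    rw [h5, hG, mul_comm] at h6
    refine Nat.dvd_antisymm ?_ ?_
    · exact (Nat.Coprime.pow_right a (Nat.prime_two.coprime_iff_not_dvd.2 h4).symm).dvd_of_dvd_mul_left
        (h6 ▸ Dvd.intro_left _ rfl)
    · exact (Nat.Coprime.pow_right k (Nat.prime_two.coprime_iff_not_dvd.2 h2n).symm).dvd_of_dvd_mul_left
        (h6 ▸ Dvd.intro_left _ rfl)
  · have hQ2 : IsPGroup 2 Q := P.2.to_le hQ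
    have h6 : ((Subgroup.zpowers x).subgroupOf Q).index ≤ 2 :=
      (Subgroup.relIndex_le_of_le_right hQ Subgroup.index_ne_zero_of_finite).trans h1
    have h7 : IsCyclic ((Subgroup.zpowers x).subgroupOf Q) :=
      isCyclic_of_injective ((Q.subtype.comp (Subgroup.subtype _)).codRestrict
        (Subgroup.zpowers x) fun y => y.2) fun a b h =>
          Subtype.ext (Subtype.ext (congrArg (fun y : Subgroup.zpowers x => (y : G)) h))
    obtain ⟨c, hc, -⟩ := GT.PG.exists_orderOf_eq_of_isCyclic h7
    classical
    by_cases h8 : Subgroup.zpowers c = ⊤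
    · refine (GT.PG.index_frattini_le_of_closure_eq_top hQ2 {c} (by
        rw [← h8, Finset.coe_singleton, Subgroup.zpowers_eq_closure])).trans (by simp)
    · obtain ⟨b, hb⟩ : ∃ b, b ∉ Subgroup.zpowers c := by
        by_contra h
        push Not at h
        exact h8 (eq_top_iff.2 fun b _ => h b)
      have h9 : (Subgroup.zpowers c).index = 2 := by
        have := Subgroup.index_eq_one.not.2 h8
        have := Subgroup.index_ne_zero_of_finite (H := Subgroup.zpowers c)
        rw [← hc] at h6
        omega
      refine (GT.PG.index_frattini_le_of_closure_eq_top hQ2 {c, b} (by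
        rw [← GT.PG.sup_zpowers_eq_top_of_index_prime Nat.prime_two h9 hb, Finset.coe_pair,
          Subgroup.zpowers_eq_closure, Subgroup.zpowers_eq_closure, ← Subgroup.closure_union]
        rfl)).trans (Nat.pow_le_pow_right two_pos Finset.card_le_two)
  · interval_cases j
    · exact hq.one_lt.ne' (by simpa using h8)
    · obtain rfl : q = 3 := (Nat.prime_dvd_prime_iff_eq hq Nat.prime_three).1 h8
      rw [hG] at hqG
      exact h3 ((Nat.Coprime.pow_right a (by norm_num)).dvd_of_dvd_mul_left hqG)

end Cfsg.Agent.S3971
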