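import Mathlib
import Cfsg.Agent.Perm.BGroupCyclic
import Cfsg.Statements.S3972

set_option autoImplicit false
open Cfsg

namespace Cfsg.Agent.S3972

theorem mem_zpowers_of_ne_one {G : Type*} [Group G] {p m : ℕ} (hp : p.Prime) {g : G}
    (hg : orderOf g = p ^ m) {h : G} (hh : h ∈ Subgroup.zpowers g) (h1 : h ≠ 1) :
    g ^ (p ^ (m - 1)) ∈ Subgroup.zpowers h := by
  have hfin : IsOfFinOrder g := orderOf_pos_iff.1 (hg ▸ pow_pos hp.pos m)
  obtain ⟨k, rfl⟩ := (hfin.mem_powers_iff_mem_zpowers.2 hh)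
  have h2 : ¬ p ^ m ∣ k := fun h => h1 (by
    change g ^ k = 1
    rwa [← orderOf_dvd_iff_pow_eq_one, hg])
  obtain ⟨j, hj, hjk⟩ := (Nat.dvd_prime_pow hp).1 (Nat.gcd_dvd_right k (p ^ m))
  have hjm : j ≤ m - 1 := by
    rcases hj.lt_or_eq with h | rfl
    · omega
    · exact absurd (hjk ▸ Nat.gcd_dvd_left k (p ^ j)) h2
  have h3 : g ^ (k.gcd (p ^ m)) ∈ Subgroup.zpowers (g ^ k) := by
    rw [← zpow_natCast g (k.gcd (p ^ m)), Nat.gcd_eq_gcd_ab, zpow_add, zpow_mul, zpow_mul, zpow_natCast,
      zpow_natCast, ← hg, pow_orderOf_eq_one, one_zpow, mul_one]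
    exact Subgroup.zpow_mem _ (Subgroup.mem_zpowers _) _
  obtain ⟨c, hc⟩ := pow_dvd_pow p hjm
  rw [hc, pow_mul, ← hjk]
  exact Subgroup.pow_mem _ h3 _


/-- Let `p` be a prime, `m ≥ 2`, and `G` a transitive but not doubly transitive permutation group on `p ^ m` points containing a permutation of order `p ^ m` (necessarily a full cycle). Then `G` is imprimitive, and the normal closure in `G` of the `p ^ (m - 1)`-th power of that permutation is an intransitive normal subgroup. -/
theorem result {Ω : Type*} [Fintype Ω] [DecidableEq Ω] (p m : ℕ) (hp : p.Prime) (hm : 2 ≤ m) (hΩ : Fintype.card Ω = p ^ m) (G : Subgroup (Equiv.Perm Ω)) (htr : MulAction.IsPretransitive G Ω) (h2 : ¬ MulAction.IsMultiplyPretransitive G Ω 2) (g : G) (hg : orderOf g = p ^ m) : ¬ MulAction.IsPreprimitive G Ω ∧ ¬ MulAction.IsPretransitive (Subgroup.normalClosure ({g ^ (p ^ (m - 1))} : Set G)) Ω := by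
  set u := g ^ (p ^ (m - 1)) with hu
  have hu1 : u ≠ 1 := by
    intro e
    rw [hu, ← orderOf_dvd_iff_pow_eq_one, hg, Nat.pow_dvd_pow_iff_le_right hp.one_lt] at e
    omega
  obtain ⟨a, ha⟩ : ∃ a : Ω, u • a ≠ a := Perm.exists_smul_ne hu1
  let C := Subgroup.zpowers g
  have hstab : MulAction.stabilizer C a = ⊥ := by
    rw [eq_bot_iff]
    intro h hh
    by_contra h1
    have h2 := mem_zpowers_of_ne_one hp hg h.2 (fun e => h1 (Subgroup.mem_bot.2 (Subtype.ext e)))
    have : Subgroup.zpowers (h : G) ≤ MulAction.stabilizer G a := by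
      rw [Subgroup.zpowers_le]; exact hh
    exact ha (this h2)
  haveI : MulAction.IsPretransitive C Ω := by
    have h1 := Perm.card_orbit_mul_card_stabilizer (G := C) a
    rw [hstab, Subgroup.card_bot, mul_one, Nat.card_zpowers, hg, ← hΩ, ← Nat.card_eq_fintype_card,
      Nat.card_coe_set_eq, ← Set.ncard_univ] at h1
    have h3 : MulAction.orbit C a = Set.univ :=
      Set.eq_of_subset_of_ncard_le (Set.subset_univ _) h1.ge
    exact (MulAction.isPretransitive_iff_orbit_eq_univ a).2 h3
  have hnp : ¬ MulAction.IsPreprimitive G Ω := fun hG => h2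
    (Perm.two_pretransitive_of_regular_cyclic hG C a hstab hp (by
      rw [Nat.card_eq_fintype_card, hΩ]; exact dvd_pow_self p (by omega)) (by
      rw [Nat.card_eq_fintype_card, hΩ]
      exact (lt_self_pow₀ hp.one_lt (by omega)).ne))
  refine ⟨hnp, fun hN => hnp (Perm.isPreprimitive_of_rel fun r hr hinv => ?_)⟩
  rw [or_iff_not_imp_left]
  intro hne
  push Not at hne
  obtain ⟨x, y, hxy, hne⟩ := hne
  obtain ⟨h, rfl⟩ := MulAction.exists_smul_eq C x y
  let K : Subgroup G :=
    { carrier := {k | ∀ z, r z (k • z)}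
      one_mem' := fun z => by simpa using hr.refl z
      mul_mem' := fun {k l} hk hl z => by
        rw [mul_smul]; exact hr.trans (hl z) (hk _)
      inv_mem' := fun {k} hk z => hr.symm (by simpa using hk (k⁻¹ • z)) }
  haveI : K.Normal := ⟨fun k hk l z => by
    have := hinv l _ _ (hk (l⁻¹ • z))
    simpa [mul_smul] using this⟩
  have hhK : (h : G) ∈ K := by
    intro z
    obtain ⟨c, rfl⟩ := MulAction.exists_smul_eq C x z
    have := hinv c _ _ hxy
    have e : (h : G) * c = c * h := congrArg Subtype.val (mul_comm' h c)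
    change r ((c : G) • x) ((h : G) • (c : G) • x)
    rw [← mul_smul, e, mul_smul]
    exact this
  have huK : u ∈ K := (Subgroup.zpowers_le.2 hhK) (mem_zpowers_of_ne_one hp hg h.2
    (fun e => hne (by change x = (h : G) • x; rw [e, one_smul])))
  have hNK : Subgroup.normalClosure ({u} : Set G) ≤ K :=
    Subgroup.normalClosure_le_normal (by simpa using huK)
  intro z w
  obtain ⟨k, rfl⟩ := MulAction.exists_smul_eq (Subgroup.normalClosure ({u} : Set G)) z w
  exact hNK k.2 z

end Cfsg.Agent.S3972
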