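import Mathlib
import Cfsg.Statements.S3977
import Cfsg.Agent.S0016
import Cfsg.Agent.GT.PGroupChain
import Cfsg.Agent.FG.H93Cyc

set_option autoImplicit false
set_option linter.style.haveILetI false
set_option linter.unusedVariables false
open Cfsg

namespace Cfsg.Agent.S3977

/-- Let `p` be a prime and `G` a group of order `p ^ m` which has exactly one subgroup of order `p ^ s`, where `1 ≤ s < m`, and where `s ≥ 2` if `p = 2`. Then `G` is cyclic. (For `p = 2` and `s = 1` the generalized quaternion groups also occur; that case is the classical criterion for a unique involution.) -/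
theorem result {G : Type*} [Group G] [Finite G] (p m s : ℕ) (hp : p.Prime) (hG : Nat.card G = p ^ m) (hs : 1 ≤ s) (hsm : s < m) (h2 : p ≠ 2 ∨ 2 ≤ s) (huniq : ∀ H K : Subgroup G, Nat.card H = p ^ s → Nat.card K = p ^ s → H = K) : IsCyclic G := by
  have : Fact p.Prime := ⟨hp⟩
  have hP : IsPGroup p G := IsPGroup.of_card hG
  obtain ⟨U, hU⟩ := Sylow.exists_subgroup_card_pow_prime p (n := s) (hG ▸ pow_dvd_pow p hsm.le)
  have h1 : ∀ H : Subgroup G, Nat.card H ≤ p ^ s → H ≤ U := fun H hH => by
    obtain ⟨K, h1, -, h2⟩ := GT.PG.exists_card_eq_pow_between (hP.to_subgroup ⊤) (le_top (a := H)) hH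
      (by rw [Subgroup.card_top, hG]; exact Nat.pow_le_pow_right hp.pos hsm.le)
    exact huniq K U h2 hU ▸ h1
  have hU' : U ≠ ⊤ := by
    rintro rfl
    rw [Subgroup.card_top, hG] at hU
    exact hsm.ne' (Nat.pow_right_injective hp.two_le hU)
  obtain ⟨x, hx⟩ : ∃ x, x ∉ U := by
    by_contra h
    push Not at h
    exact hU' (eq_top_iff.2 fun b _ => h b)
  have h3 : U ≤ Subgroup.zpowers x := by
    obtain ⟨K, -, h3, h4⟩ := GT.PG.exists_card_eq_pow_between (hP.to_subgroup (Subgroup.zpowers x))
      bot_le (k := s) (by simpa using Nat.one_le_pow _ _ hp.pos)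
      (le_of_not_ge fun h => hx (h1 _ h (Subgroup.mem_zpowers x)))
    exact huniq K U h4 hU ▸ h3
  have h4 : ∀ H : Subgroup G, Nat.card H = p → H ≤ Subgroup.zpowers x := fun H hH =>
    (h1 H (hH.trans_le (Nat.le_self_pow (by omega) p))).trans h3
  rcases S0016.result p hP (fun H K hH hK => FG.H93.eq_of_card_eq_of_isCyclic (h4 H hH) (h4 K hK)
    (hH.trans hK.symm)) with h | ⟨rfl, n, ⟨e⟩⟩
  · exact h
  · exfalso
    have hs2 : 2 ≤ s := h2.resolve_left (by simp)
    have h5 : ∀ i, e.symm (.xa i) ∈ U := fun i => h1 (Subgroup.zpowers (e.symm (.xa i))) (by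
      rw [Nat.card_zpowers, MulEquiv.orderOf_eq, QuaternionGroup.orderOf_xa]
      exact Nat.pow_le_pow_right (n := 2) two_pos hs2) (Subgroup.mem_zpowers _)
    refine hU' (eq_top_iff.2 fun g _ => ?_)
    obtain ⟨i | i, rfl⟩ := e.symm.surjective g
    · have := mul_mem (inv_mem (h5 0)) (h5 i)
      rwa [← map_inv, ← map_mul, ← zero_add i, ← QuaternionGroup.xa_mul_a,
        inv_mul_cancel_left] at this
    · exact h5 i

end Cfsg.Agent.S3977
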