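import Mathlib
import Cfsg.Statements.S3992
import Cfsg.Agent.FG.H93Eppo
import Cfsg.Agent.GT.Cores
import Cfsg.Agent.GT.CharSimple

set_option autoImplicit false
open Cfsg

namespace Cfsg.Agent.S3992

open Cfsg.Agent.FG Cfsg.Agent.GT Subgroup

theorem isSolvable_of_normal_prime {X : Type*} [Group X] [Finite X] (h : H93.Eppo X)
    {M : Subgroup X} [M.Normal] {q : ℕ} (hq : q.Prime) (hc : IsCyclic M) (hd : q ∣ Nat.card M) :
    Group.IsSolvable X := by
  have := Fact.mk hq
  obtain ⟨x, hx, hxq⟩ := exists_mem_orderOf_eq_prime hq hd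
  have h1 : IsPGroup q (MulAut.conjNormal (H := M) (G := X)).ker := by
    refine h.isPGroup_of_le_centralizer hq hxq.symm.dvd fun g hg => ?_
    have := congrArg (fun s : MulAut M => ((s ⟨x, hx⟩ : M) : X)) (MonoidHom.mem_ker.mp hg)
    simp only [MulAut.conjNormal_apply, MulAut.one_apply, mul_inv_eq_iff_eq_mul] at this
    exact mem_centralizer_singleton_iff.mpr this
  have := h1.isNilpotent
  have : Group.IsSolvable (MulAut M) := by
    have e := IsCyclic.mulAutMulEquiv M
    exact isSolvable_of_mulEquiv e.symm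
  exact Group.isSolvable_of_ker_le_range (MulAut.conjNormal (H := M) (G := X)).ker.subtype
    (MulAut.conjNormal (H := M) (G := X)) (by simp)

theorem eq_bot_of_commute {X : Type*} [Group X] [Finite X] (h : H93.Eppo X) {A B : Subgroup X}
    (hB : ¬ Group.IsSolvable B) (hAB : B ≤ centralizer (A : Set X)) : A = ⊥ := by
  by_contra h0
  obtain ⟨p, hp, hd⟩ := exists_prime_dvd_card_of_ne_bot h0
  obtain ⟨x, hx, hxp⟩ := exists_mem_orderOf_eq_prime hp hd
  have := Fact.mk hp
  have := (h.isPGroup_of_le_centralizer hp hxp.symm.dvd (H := B) fun g hg =>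
    mem_centralizer_singleton_iff.mpr (hAB hg x hx).symm).isNilpotent
  exact hB inferInstance

/-- Let G be a finite non-solvable group in which every element has prime-power order, and let R be its largest solvable normal subgroup. Then R is a p-group for some prime p; G/R has a non-abelian simple normal subgroup contained in every nontrivial normal subgroup of G/R (its unique minimal normal subgroup); and the order of every solvable subgroup of G has at most two prime divisors. -/
theorem result {G : Type*} [Group G] [Finite G] (hns : ¬ Group.IsSolvable G) (hpp : ∀ g : G, g ≠ 1 → IsPrimePow (orderOf g))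
    (R : Subgroup G) [R.Normal] (hRs : Group.IsSolvable ↥R) (hRmax : ∀ N : Subgroup G, N.Normal → Group.IsSolvable ↥N → N ≤ R) :
    (∃ p : ℕ, p.Prime ∧ IsPGroup p ↥R) ∧
      (∃ M : Subgroup (G ⧸ R), M.Normal ∧ IsSimpleGroup ↥M ∧ ¬ IsMulCommutative ↥M ∧
        ∀ N : Subgroup (G ⧸ R), N.Normal → N ≠ ⊥ → M ≤ N) ∧
      ∀ H : Subgroup G, Group.IsSolvable ↥H → (Nat.card ↥H).primeFactors.card ≤ 2 := by
  have hE : H93.Eppo G := hpp
  refine ⟨?_, ?_, fun H hH => (hE.subgroup H).card_primeFactors_le_two⟩
  · by_cases h0 : R = ⊥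
    · exact ⟨2, Nat.prime_two, h0 ▸ IsPGroup.of_bot⟩
    obtain ⟨p, hp, A, hAR, hAn, hA0, -, hA⟩ := HT.exists_normal_comm_pGroup_le R hRs h0
    have := Fact.mk hp
    have hPR : pCore p G ≤ R := hRmax _ inferInstance
      (by have := (isPGroup_pCore (G := G) p).isNilpotent; infer_instance)
    refine ⟨p, hp, (isPGroup_pCore p).to_le ?_⟩
    by_contra hle
    have h1 : R.map (QuotientGroup.mk' (pCore p G)) ≠ ⊥ := by
      rwa [Ne, Subgroup.map_eq_bot_iff, QuotientGroup.ker_mk']
    have hn : (R.map (QuotientGroup.mk' (pCore p G))).Normal :=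
      Normal.map inferInstance _ (QuotientGroup.mk'_surjective _)
    obtain ⟨q, hq, M, -, hMn, hM0, hMc, hM⟩ := HT.exists_normal_comm_pGroup_le _
      (HT.isSolvable_map _ hRs) h1
    have := Fact.mk hq
    have hqp : q ≠ p := by
      rintro rfl
      exact hM0 (pCore_eq_bot_iff.mp (pCore_quotient_pCore (G := G) (p := q)) M hMn hM)
    obtain ⟨Q, hQle, hQ, hQi⟩ := HT.exists_sylow_le q (M.comap (QuotientGroup.mk' (pCore p G)))
    have hQp : ¬ p ∣ Nat.card Q := fun hd =>
      hqp ((isPGroup_iff_isPiNum hq).mp hQ p hp hd).symm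
    have hf := (hE.exists_isPGroup_of_normalizes hp hA hA0 hQp
      (by rw [normalizer_eq_top]; exact le_top)).1
    have hQM : Q.map (QuotientGroup.mk' (pCore p G)) = M := by
      refine le_antisymm (map_le_iff_le_comap.mpr hQle) ?_
      refine (relIndex_eq_one).mp ?_
      obtain ⟨n, hn⟩ := IsPGroup.iff_card.mp hM
      have h2 : (Q.map (QuotientGroup.mk' (pCore p G))).relIndex M ∣
          Q.relIndex (M.comap (QuotientGroup.mk' (pCore p G))) := by
        have h4 := relIndex_dvd_of_le_left (M.comap (QuotientGroup.mk' (pCore p G)))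
          (le_comap_map (QuotientGroup.mk' (pCore p G)) Q)
        rwa [relIndex_comap, map_comap_eq_self_of_surjective (QuotientGroup.mk'_surjective _)] at h4
      have h3 := relIndex_dvd_card (Q.map (QuotientGroup.mk' (pCore p G))) M
      rw [hn] at h3
      obtain ⟨k, -, hk⟩ := (Nat.dvd_prime_pow hq).mp h3
      rcases k with _ | k
      · exact hk
      · exact absurd ((hk ▸ dvd_pow_self q k.succ_ne_zero).trans h2) hQi
    have hinj : Function.Injective ((QuotientGroup.mk' (pCore p G)).subgroupMap Q) := by
      refine (injective_iff_map_eq_one _).mpr fun x hx => Subtype.ext ?_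
      have h2 : (x : G) ∈ pCore p G := (QuotientGroup.eq_one_iff _).mp (congrArg Subtype.val hx)
      exact disjoint_def.mp (IsPGroup.disjoint_of_ne q p hqp _ _ hQ (isPGroup_pCore p)) x.2 h2
    have e : Q ≃* M := (MulEquiv.ofBijective _ ⟨hinj, MonoidHom.subgroupMap_surjective _ _⟩).trans
      (MulEquiv.subgroupCongr hQM)
    have hcyc : IsCyclic M := (hf.of_mulEquiv e).isCyclic_of_comm
    obtain ⟨r, hr, hd⟩ := exists_prime_dvd_card_of_ne_bot hM0
    have := isSolvable_of_normal_prime (hE.quotient (pCore p G)) hr hcyc hd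
    have := (isPGroup_pCore (G := G) p).isNilpotent
    exact hns (Group.isSolvable_of_ker_le_range (pCore p G).subtype
      (QuotientGroup.mk' (pCore p G)) (by simp))
  · have hE' := hE.quotient R
    have hnt : Nontrivial (G ⧸ R) := by
      by_contra h
      have := not_nontrivial_iff_subsingleton.mp h
      exact hns (Group.isSolvable_of_ker_le_range R.subtype (QuotientGroup.mk' R) (by simp))
    have hrad : ∀ N : Subgroup (G ⧸ R), N.Normal → Group.IsSolvable N → N = ⊥ := by
      intro N hN hs
      have := hRmax _ (hN.comap (QuotientGroup.mk' R)) (isSolvable_comap_mk' N)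
      rw [← map_comap_eq_self_of_surjective (QuotientGroup.mk'_surjective R) N,
        Subgroup.map_eq_bot_iff, QuotientGroup.ker_mk']
      exact this
    obtain ⟨M, hM⟩ := exists_isMinNormal (G ⧸ R)
    have := hM.normal
    have hMs : ¬ Group.IsSolvable M := fun h => hM.ne_bot (hrad M hM.normal h)
    refine ⟨M, hM.normal, ?_, fun h => hMs isSolvable_of_isMulCommutative, fun N hN h0 => ?_⟩
    · have := (nontrivial_iff_ne_bot M).mpr hM.ne_bot
      obtain ⟨T, _, _, n, hn, ⟨e⟩⟩ := exists_mulEquiv_pow_of_charSimple' hM.charSimple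
      have hT : ¬ Group.IsSolvable T := fun hT => by
        have hc := IsSimpleGroup.comm_iff_isSolvable.mpr hT
        have : Group.IsSolvable (Fin n → T) := Group.isSolvable_of_comm fun a b => funext fun i => hc _ _
        exact hMs (isSolvable_of_mulEquiv e.symm)
      have : Finite (Fin n → T) := Finite.of_equiv _ e.toEquiv
      rcases n with _ | _ | n
      · omega
      · exact (MulEquiv.trans (N := Fin 1 → T) e (MulEquiv.funUnique (Fin 1) T)).isSimpleGroup
      · exfalso
        have hE2 := (hE'.subgroup M).of_mulEquiv e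
        let f := fun i : Fin (n + 2) => MonoidHom.mulSingle (fun _ : Fin (n + 2) => T) i
        have hf : ∀ i, Function.Injective (f i) := fun i => Pi.mulSingle_injective (M := fun _ => T) i
        have h1 := eq_bot_of_commute hE2 (A := (f 0).range) (B := (f 1).range)
          (fun _ => hT (isSolvable_of_mulEquiv (MonoidHom.ofInjective (hf 1)).symm)) (by
            rintro _ ⟨x, rfl⟩ _ ⟨y, rfl⟩
            exact (Pi.mulSingle_commute (f := fun _ => T) (show (0 : Fin (n + 2)) ≠ 1 by simp) y x).eq)
        obtain ⟨t, ht⟩ := exists_ne (1 : T)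
        exact ht (hf 0 (by rw [map_one]; exact mem_bot.mp (h1 ▸ ⟨t, rfl⟩)))
    · exact (hM.le_or_le_centralizer N).resolve_right fun h => h0 (eq_bot_of_commute hE' hMs h)

end Cfsg.Agent.S3992
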