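import Mathlib
import Cfsg.Statements.S3994
import Cfsg.Agent.Ch.FrobeniusCount

set_option autoImplicit false
open Cfsg

namespace Cfsg.Agent.S3994

/-- Let G be a finite group and n a positive integer. The number of elements of G whose order is divisible by n is either 0 or divisible by the largest divisor of the order of G that is coprime to n. -/
theorem result {G : Type*} [Group G] [Finite G] (n : ℕ) (hn : 0 < n) :
    Nat.card {g : G // n ∣ orderOf g} = 0 ∨
      (Nat.card G / Nat.gcd (Nat.card G) (n ^ Nat.card G)) ∣ Nat.card {g : G // n ∣ orderOf g} := by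
  right
  set t := Nat.card G / Nat.gcd (Nat.card G) (n ^ Nat.card G) with ht
  have hG : 0 < Nat.card G := Nat.card_pos
  have hdvd : t ∣ Nat.card G := Nat.div_dvd_of_dvd (Nat.gcd_dvd_left _ _)
  have hcop : Nat.Coprime n t := by
    rw [Nat.coprime_iff_gcd_eq_one, Nat.eq_one_iff_not_exists_prime_dvd]
    intro p hp hpd
    have hpn : p ∣ n := hpd.trans (Nat.gcd_dvd_left _ _)
    have hpt : p ∣ t := hpd.trans (Nat.gcd_dvd_right _ _)
    set k := (Nat.card G).factorization p
    have h1 : p ^ k ∣ Nat.gcd (Nat.card G) (n ^ Nat.card G) := by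
      refine Nat.dvd_gcd (Nat.ordProj_dvd _ _) ?_
      refine (pow_dvd_pow p ?_).trans (pow_dvd_pow_of_dvd hpn _)
      exact (Nat.factorization_lt p hG.ne').le
    have h2 : p ^ (k + 1) ∣ Nat.card G := by
      rw [← Nat.div_mul_cancel (Nat.gcd_dvd_left (Nat.card G) (n ^ Nat.card G)), pow_succ']
      exact Nat.mul_dvd_mul hpt h1
    exact Nat.pow_succ_factorization_not_dvd hG.ne' hp h2
  have key : ∀ g : G, n ∣ orderOf g ↔ g ^ t ∈ {y : G | n ∣ orderOf y} := by
    intro g
    refine ⟨fun h => ?_, fun h => h.trans (orderOf_pow_dvd t)⟩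
    change n ∣ orderOf (g ^ t)
    have ht0 : t ≠ 0 := (Nat.pos_of_dvd_of_pos hdvd hG).ne'
    rw [orderOf_pow' g ht0]
    have h3 : Nat.Coprime n (Nat.gcd (orderOf g) t) :=
      Nat.Coprime.coprime_dvd_right (Nat.gcd_dvd_right _ _) hcop
    refine h3.dvd_of_dvd_mul_right ?_
    rwa [Nat.div_mul_cancel (Nat.gcd_dvd_left _ _)]
  rw [Nat.card_congr (Equiv.subtypeEquivRight key)]
  refine Ch.dvd_card_pow_mem hdvd dvd_rfl _ fun g s hs => ?_
  change n ∣ orderOf (g * s * g⁻¹)
  rwa [← MulAut.conj_apply, MulEquiv.orderOf_eq]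

end Cfsg.Agent.S3994
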