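import Mathlib
import Cfsg.Statements.S3995
import Cfsg.Agent.Ch.FrobeniusCount
import Cfsg.Agent.GT.PGroupCyclicNormal
import Cfsg.Agent.GT.TransferSL23
import Cfsg.Agent.GT.TransferAbelian
import Cfsg.Agent.GT.NearField
import Cfsg.Agent.GT.Conj
-- import your own Cfsg.Agent.* helpers here

set_option autoImplicit false
open Cfsg

namespace Cfsg.Agent.S3995

open Subgroup

section
variable {G : Type*} [Group G] [Finite G]

/-- Number of elements of order `m`. -/
noncomputable def cnt (G : Type*) [Group G] (m : ℕ) : ℕ := Nat.card {g : G // orderOf g = m}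

theorem cnt_one : cnt G 1 = 1 := by
  simp [cnt]

theorem sol {m : ℕ} (hm : m ≠ 0) :
    Nat.card {x : G // x ^ m = 1} = ∑ d ∈ m.divisors, cnt G d := by
  classical
  haveI := Fintype.ofFinite G
  simp only [cnt, Nat.card_eq_fintype_card, Fintype.card_subtype]
  exact (sum_card_orderOf_eq_card_pow_eq_one hm).symm

theorem sol_pow {p : ℕ} (hp : p.Prime) {k : ℕ} (h : p ^ k ∣ Nat.card G) :
    p ^ k ∣ ∑ i ∈ Finset.range (k + 1), cnt G (p ^ i) := by
  rw [← Nat.sum_divisors_prime_pow hp (f := cnt G), ← sol (pow_ne_zero k hp.ne_zero)]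
  exact Ch.dvd_card_pow_eq_one h dvd_rfl

theorem two_le_cnt {x : G} (h : x ^ 2 ≠ 1) : 2 ≤ cnt G (orderOf x) := by
  refine Finite.one_lt_card_iff_nontrivial.2 ⟨⟨x, rfl⟩, ⟨x⁻¹, orderOf_inv x⟩, fun e => h ?_⟩
  rw [sq]
  exact mul_eq_one_iff_eq_inv.2 (congrArg Subtype.val e)

theorem weis {a u : ℕ} (hu : u ∣ Nat.card G) (hcop : a.Coprime u) :
    u ∣ Nat.card {g : G // a ∣ orderOf g} := by
  have key : ∀ g : G, a ∣ orderOf g ↔ g ^ u ∈ {y : G | a ∣ orderOf y} := by
    intro g
    refine ⟨fun h => ?_, fun h => h.trans (orderOf_pow_dvd u)⟩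
    change a ∣ orderOf (g ^ u)
    rw [orderOf_pow' g (Nat.pos_of_dvd_of_pos hu Nat.card_pos).ne']
    have h3 : Nat.Coprime a (Nat.gcd (orderOf g) u) :=
      Nat.Coprime.coprime_dvd_right (Nat.gcd_dvd_right _ _) hcop
    refine h3.dvd_of_dvd_mul_right ?_
    rwa [Nat.div_mul_cancel (Nat.gcd_dvd_left _ _)]
  rw [Nat.card_congr (Equiv.subtypeEquivRight key)]
  refine Ch.dvd_card_pow_mem hu dvd_rfl _ fun g s hs => ?_
  change a ∣ orderOf (g * s * g⁻¹)
  rwa [← MulAut.conj_apply, MulEquiv.orderOf_eq]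

theorem le_two {a u n : ℕ} (hu : u ∣ Nat.card G) (hcop : a.Coprime u) (hn : n.Coprime u)
    (hex : ∃ g : G, a ∣ orderOf g)
    (h : ∀ g : G, a ∣ orderOf g → cnt G (orderOf g) = n ∧ orderOf g ∣ a * u) : u ≤ 2 := by
  classical
  haveI := Fintype.ofFinite G
  have hu0 : 0 < u := Nat.pos_of_dvd_of_pos hu Nat.card_pos
  have h1 := weis (G := G) hu hcop
  rw [Nat.card_eq_fintype_card, Fintype.card_subtype, Finset.card_eq_sum_card_image orderOf,
    Finset.sum_congr rfl (g := fun _ => n), Finset.sum_const, smul_eq_mul] at h1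
  · have h2 := Nat.le_of_dvd (Finset.card_pos.2 (by
      obtain ⟨g, hg⟩ := hex
      exact ⟨_, Finset.mem_image_of_mem _ (Finset.mem_filter.2 ⟨Finset.mem_univ g, hg⟩)⟩))
      (hn.symm.dvd_of_dvd_mul_right h1)
    have h3 : (Finset.image orderOf (Finset.univ.filter fun g : G => a ∣ orderOf g)) ⊆
        u.divisors.image (a * ·) := by
      intro m hm
      obtain ⟨g, hg, rfl⟩ := Finset.mem_image.1 hm
      obtain ⟨d, hd⟩ := (Finset.mem_filter.1 hg).2
      have h4 := (h g ⟨d, hd⟩).2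
      have h5 : 0 < a := Nat.pos_of_dvd_of_pos ⟨d, hd⟩ (orderOf_pos g)
      rw [hd] at h4 ⊢
      exact Finset.mem_image_of_mem _
        (Nat.mem_divisors.2 ⟨Nat.dvd_of_mul_dvd_mul_left h5 h4, hu0.ne'⟩)
    have h4 := h2.trans ((Finset.card_le_card h3).trans Finset.card_image_le)
    by_contra h5
    have h6 : u.divisors ⊆ (Finset.Icc 1 u).erase (u - 1) := by
      intro d hd
      have h7 := Nat.dvd_of_mem_divisors hd
      refine Finset.mem_erase.2 ⟨?_, Finset.mem_Icc.2
        ⟨Nat.pos_of_dvd_of_pos h7 hu0, Nat.le_of_dvd hu0 h7⟩⟩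
      rintro rfl
      have h8 : u - 1 ∣ 1 := (Nat.dvd_add_right dvd_rfl).1 (by rwa [Nat.sub_add_cancel hu0])
      have := Nat.le_of_dvd one_pos h8
      omega
    have h7 := Finset.card_le_card h6
    rw [Finset.card_erase_of_mem (Finset.mem_Icc.2 ⟨by omega, by omega⟩), Nat.card_Icc] at h7
    omega
  · intro m hm
    obtain ⟨g, hg, rfl⟩ := Finset.mem_image.1 hm
    have hg' := (Finset.mem_filter.1 hg).2
    rw [← (h g hg').1, cnt, Nat.card_eq_fintype_card, Fintype.card_subtype, Finset.filter_filter]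
    congr 1
    ext x
    simp only [Finset.mem_filter, Finset.mem_univ, true_and, and_iff_right_iff_imp]
    intro e; rwa [e]

theorem exists_orderOf {x : G} {d : ℕ} (h : d ∣ orderOf x) : ∃ y : G, orderOf y = d :=
  ⟨x ^ (orderOf x / d), orderOf_pow_orderOf_div (orderOf_pos x).ne' h⟩

/-- An odd divisor `u` of the group order at most two is one; arithmetic of squarefree orders. -/
theorem dvd_mul_ordCompl {p k m : ℕ} (hp : p.Prime) (hm : m ∣ Nat.card G)
    (h : ¬ p ^ (k + 1) ∣ m) : m ∣ p ^ k * ordCompl[p] (Nat.card G) := by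
  have hm0 : m ≠ 0 := (Nat.pos_of_dvd_of_pos hm Nat.card_pos).ne'
  rw [← Nat.ordProj_mul_ordCompl_eq_self m p]
  refine Nat.mul_dvd_mul (pow_dvd_pow p ?_) (Nat.ordCompl_dvd_ordCompl_of_dvd hm p)
  by_contra h1
  exact h ((hp.pow_dvd_iff_le_factorization hm0).2 (by omega))

theorem isPGroup_of_ordCompl {p : ℕ} [Fact p.Prime] (h : ordCompl[p] (Nat.card G) = 1) :
    IsPGroup p G := by
  refine IsPGroup.of_card (n := (Nat.card G).factorization p) ?_
  conv_lhs => rw [← Nat.ordProj_mul_ordCompl_eq_self (Nat.card G) p, h, mul_one]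

theorem coprime_of {n u : ℕ} (hu : u ∣ Nat.card G)
    (h : ∀ q : ℕ, q.Prime → q ∣ u → cnt G q = n) : n.Coprime u := by
  refine Nat.Coprime.symm (Nat.coprime_of_dvd fun q hq hqu hqn => ?_)
  have h1 := sol_pow (G := G) hq (k := 1) (by rw [pow_one]; exact hqu.trans hu)
  simp only [Finset.sum_range_succ, Finset.sum_range_zero, pow_zero, pow_one, cnt_one,
    h q hq hqu, zero_add] at h1
  exact hq.not_dvd_one ((Nat.dvd_add_left hqn).1 h1)

theorem caseA [Nontrivial G] {n : ℕ} (h : ∀ x : G, x ≠ 1 → cnt G (orderOf x) = n) :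
    ∃ p : ℕ, p.Prime ∧ IsPGroup p G ∧ Monoid.exponent G = p := by
  have hq : ∀ q : ℕ, q.Prime → q ∣ Nat.card G → cnt G q = n := by
    intro q hq hd
    haveI := Fact.mk hq
    obtain ⟨x, hx⟩ := exists_prime_orderOf_dvd_card' q hd
    rw [← hx]
    exact h x fun e => hq.ne_one (by rw [← hx, e, orderOf_one])
  have hsq : ∀ q : ℕ, q.Prime → ∀ x : G, ¬ q ^ 2 ∣ orderOf x := by
    intro q hq' x hd
    obtain ⟨y, hy⟩ := exists_orderOf hd
    have h0 : q ^ 2 ∣ Nat.card G := hd.trans (orderOf_dvd_natCard x)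
    have h1 := sol_pow hq' h0
    have h2 := sol_pow (G := G) hq' (k := 1) ((pow_dvd_pow q one_le_two).trans h0)
    have h3 := hq q hq' ((dvd_pow_self q two_ne_zero).trans h0)
    have h4 : cnt G (q ^ 2) = n := hy ▸ h y fun e => by
      rw [e, orderOf_one] at hy
      exact hq'.ne_one (pow_eq_one_iff.1 hy.symm |>.resolve_right two_ne_zero)
    simp only [Finset.sum_range_succ, Finset.sum_range_zero, pow_zero, pow_one, cnt_one, h3, h4,
      zero_add] at h1 h2
    have h5 := (Nat.dvd_add_right h2).1 ((dvd_pow_self q two_ne_zero).trans h1)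
    exact hq'.not_dvd_one ((Nat.dvd_add_left h5).1 h2)
  have hN : Nat.card G ≠ 1 := Finite.one_lt_card.ne'
  have hp := Nat.minFac_prime hN
  set p := (Nat.card G).minFac with hpdef
  haveI := Fact.mk hp
  have hu := Nat.ordCompl_dvd (Nat.card G) p
  have hcop := Nat.coprime_ordCompl hp (Nat.card_pos (α := G)).ne'
  obtain ⟨x, hx⟩ := exists_prime_orderOf_dvd_card' p (Nat.minFac_dvd (Nat.card G))
  have h1 := le_two hu hcop (coprime_of hu fun q h1 h2 => hq q h1 (h2.trans hu)) ⟨x, hx ▸ dvd_rfl⟩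
    fun g hg => ⟨h g fun e => hp.not_dvd_one (by rwa [e, orderOf_one] at hg), by
      simpa using dvd_mul_ordCompl (k := 1) hp (orderOf_dvd_natCard g) (hsq p hp g)⟩
  have h2 : ordCompl[p] (Nat.card G) = 1 := by
    have h3 := Nat.pos_of_dvd_of_pos hu Nat.card_pos
    by_contra h4
    have h5 : ordCompl[p] (Nat.card G) = 2 := by omega
    rw [h5] at hu hcop
    have h6 := Nat.minFac_le_of_dvd le_rfl hu
    have h7 := hp.two_le
    rw [show p = 2 by omega] at hcop
    exact absurd hcop (by decide)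
  refine ⟨p, hp, isPGroup_of_ordCompl h2, ?_⟩
  refine Nat.dvd_antisymm (Monoid.exponent_dvd.2 fun g => ?_) (hx ▸ Monoid.order_dvd_exponent x)
  simpa [h2] using dvd_mul_ordCompl (k := 1) hp (orderOf_dvd_natCard g) (hsq p hp g)

end


/-- Let G be a finite group such that the numbers of elements of each order that occurs in G (the numbers #{g : o(g) = m}, m ranging over the element orders of G) take exactly two values, 1 and some n ≠ 1. Then either G is a p-group of exponent p and order at least 3 for some prime p, or G is the quaternion group of order 8, or G is cyclic of order 4, or G ≅ Z₂ × P for a p-group P of exponent p with p an odd prime. -/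
theorem result {G : Type*} [Group G] [Finite G] (n : ℕ) (hn : n ≠ 1) (h : ((fun m : ℕ => Nat.card {g : G // orderOf g = m}) '' Set.range (orderOf : G → ℕ)) = {1, n}) :
    (∃ p : ℕ, p.Prime ∧ IsPGroup p G ∧ 3 ≤ Nat.card G ∧ Monoid.exponent G = p) ∨
      Nonempty (G ≃* QuaternionGroup 2) ∨ (IsCyclic G ∧ Nat.card G = 4) ∨
      (∃ (p : ℕ) (P : Type) (_ : Group P) (_ : Finite P), p.Prime ∧ p ≠ 2 ∧ IsPGroup p P ∧ Monoid.exponent P = p ∧
        Nonempty (G ≃* Multiplicative (ZMod 2) × P)) := by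
  have hx : ∀ x : G, cnt G (orderOf x) = 1 ∨ cnt G (orderOf x) = n := fun x =>
    (h ▸ Set.mem_image_of_mem _ ⟨x, rfl⟩ : cnt G (orderOf x) ∈ ({1, n} : Set ℕ))
  obtain ⟨_, ⟨x₀, rfl⟩, hx₀⟩ : n ∈ (fun m : ℕ => Nat.card {g : G // orderOf g = m}) ''
      Set.range (orderOf : G → ℕ) := by rw [h]; simp
  change cnt G (orderOf x₀) = n at hx₀
  have hx₀1 : x₀ ≠ 1 := fun e => hn (by rw [← hx₀, e, orderOf_one, cnt_one])
  haveI : Nontrivial G := ⟨x₀, 1, hx₀1⟩
  have h2 : ∀ x : G, x ^ 2 ≠ 1 → cnt G (orderOf x) = n := fun x hx2 =>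
    (hx x).resolve_left fun e => by have := two_le_cnt hx2; omega
  by_cases hA : ∀ x : G, x ≠ 1 → cnt G (orderOf x) = n
  · obtain ⟨p, hp, hG, he⟩ := caseA hA
    refine Or.inl ⟨p, hp, hG, ?_, he⟩
    haveI : Nonempty {g : G // orderOf g = orderOf x₀} := ⟨⟨x₀, rfl⟩⟩
    have h3 : 0 < cnt G (orderOf x₀) := Nat.card_pos
    obtain ⟨⟨a, ha⟩, ⟨b, hb⟩, hab⟩ := (Finite.one_lt_card_iff_nontrivial
      (α := {g : G // orderOf g = orderOf x₀})).1 (by change 1 < cnt G _; omega)
    haveI := Fintype.ofFinite G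
    rw [Nat.card_eq_fintype_card]
    refine Fintype.two_lt_card_iff.2 ⟨1, a, b, ?_, ?_, fun e => hab (Subtype.ext e)⟩
    · rintro rfl; exact hx₀1 (orderOf_eq_one_iff.1 (ha.symm.trans orderOf_one))
    · rintro rfl; exact hx₀1 (orderOf_eq_one_iff.1 (hb.symm.trans orderOf_one))
  right
  push Not at hA
  obtain ⟨z, hz1, hz⟩ := hA
  have hzo : orderOf z = 2 := orderOf_eq_prime (by by_contra e; exact hz (h2 z e)) hz1
  have hc2 : cnt G 2 = 1 := hzo ▸ (hx z).resolve_right hz
  have huniq : ∀ a b : G, orderOf a = 2 → orderOf b = 2 → a = b := fun a b ha hb =>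
    congrArg Subtype.val ((Nat.card_eq_one_iff_unique.1 hc2).1.elim ⟨a, ha⟩ ⟨b, hb⟩)
  have hm : ∀ x : G, 3 ≤ orderOf x → cnt G (orderOf x) = n := fun x h3 => h2 x fun e => by
    have := Nat.le_of_dvd two_pos (orderOf_dvd_of_pow_eq_one e); omega
  have h8 : ∀ x : G, ¬ 2 ^ 3 ∣ orderOf x := by
    intro x hd
    obtain ⟨y, hy⟩ := exists_orderOf hd
    obtain ⟨w, hw⟩ := exists_orderOf ((pow_dvd_pow 2 (by norm_num : 2 ≤ 3)).trans hd)
    have h0 : 2 ^ 3 ∣ Nat.card G := hd.trans (orderOf_dvd_natCard x)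
    have a1 := sol_pow Nat.prime_two h0
    have a2 := sol_pow (G := G) Nat.prime_two ((pow_dvd_pow 2 (by norm_num : 2 ≤ 3)).trans h0)
    have a3 : cnt G (2 ^ 3) = n := hy ▸ hm y (by rw [hy]; norm_num)
    have a4 : cnt G (2 ^ 2) = n := hw ▸ hm w (by rw [hw]; norm_num)
    simp only [Finset.sum_range_succ, Finset.sum_range_zero, pow_zero, pow_one, cnt_one, a3, a4,
      hc2, zero_add] at a1 a2
    omega
  have hu := Nat.ordCompl_dvd (Nat.card G) 2
  have hcop := Nat.coprime_ordCompl Nat.prime_two (Nat.card_pos (α := G)).ne'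
  by_cases h4 : ∃ x : G, 2 ^ 2 ∣ orderOf x
  · have a1 := le_two hu (hcop.pow_left 2) (coprime_of (n := n) hu fun q hq hd => by
        haveI := Fact.mk hq
        obtain ⟨y, hy⟩ := exists_prime_orderOf_dvd_card' q (hd.trans hu)
        refine hy ▸ hm y ?_
        have : q ≠ 2 := by
          rintro rfl
          exact (Nat.Prime.coprime_iff_not_dvd hq).1 hcop hd
        have := hq.two_le
        omega) h4
      fun g hg => ⟨hm g (le_trans (by norm_num) (Nat.le_of_dvd (orderOf_pos g) hg)),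
        dvd_mul_ordCompl Nat.prime_two (orderOf_dvd_natCard g) (h8 g)⟩
    have a2 : ordCompl[2] (Nat.card G) = 1 := by
      have a3 := Nat.pos_of_dvd_of_pos hu Nat.card_pos
      by_contra a4
      rw [show ordCompl[2] (Nat.card G) = 2 by omega] at hcop
      exact absurd hcop (by decide)
    have hG := isPGroup_of_ordCompl a2
    have a3 : ∀ g : G, orderOf g ∣ 4 := fun g => by
      simpa [a2] using dvd_mul_ordCompl Nat.prime_two (orderOf_dvd_natCard g) (h8 g)
    rcases GT.PG.isCyclic_or_quaternion_of_pRankLE_one hG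
      (GT.Tr.pRankLE_one_of_unique_involution huniq) with hc | ⟨-, m, hm1, ⟨e⟩⟩
    · refine Or.inr (Or.inl ⟨hc, ?_⟩)
      obtain ⟨x, hx⟩ := h4
      rw [← IsCyclic.exponent_eq_card]
      exact Nat.dvd_antisymm (Monoid.exponent_dvd.2 a3) (hx.trans (Monoid.order_dvd_exponent x))
    · left
      have a4 := a3 (e.symm (QuaternionGroup.a 1))
      rw [MulEquiv.orderOf_eq, QuaternionGroup.orderOf_a_one, ← pow_succ'] at a4
      have a5 := (Nat.pow_dvd_pow_iff_le_right (by norm_num : 1 < 2)).1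
        (show 2 ^ (m + 1) ∣ 2 ^ 2 from a4)
      obtain rfl : m = 1 := by omega
      exact ⟨e⟩
  · right; right
    push Not at h4
    have hzc : z ∈ center G := mem_center_iff.2 fun g => by
      have := huniq (g * z * g⁻¹) z (by rw [GT.orderOf_conj, hzo]) hzo
      exact mul_inv_eq_iff_eq_mul.1 this
    have hzp : IsPGroup 2 (zpowers z) := IsPGroup.of_card (n := 1) (by rw [Nat.card_zpowers, hzo]; rfl)
    obtain ⟨S, hS⟩ := hzp.exists_le_sylow
    have hSz : (S : Subgroup G) = zpowers z := by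
      refine le_antisymm (fun g hg => ?_) hS
      obtain ⟨k, hk⟩ := S.isPGroup' ⟨g, hg⟩
      obtain ⟨j, -, hj⟩ := (Nat.dvd_prime_pow Nat.prime_two).1 (orderOf_dvd_of_pow_eq_one
        (show g ^ 2 ^ k = 1 from congrArg Subtype.val hk))
      have a1 : j < 2 := by
        by_contra a2
        exact h4 g (hj ▸ pow_dvd_pow 2 (by omega))
      interval_cases j
      · rw [orderOf_eq_one_iff.1 hj]; exact one_mem _
      · rw [huniq g z hj hzo]; exact mem_zpowers z
    obtain ⟨K, hKn, hK⟩ := (GT.Tr.hasNormalPComplement_iff_sylow S).1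
      (GT.Tr.hasNormalPComplement_of_sylow_le_center S (hSz ▸ zpowers_le.2 hzc))
    have hKodd : ¬ 2 ∣ Nat.card K := by
      rw [← hK.index_eq_card]; exact S.not_dvd_index
    have hcnt : ∀ x : K, cnt K (orderOf x) = cnt G (orderOf x) := by
      intro x
      refine Nat.card_congr (Equiv.ofBijective
        (fun y => ⟨y.1.1, by rw [Subgroup.orderOf_coe]; exact y.2⟩) ⟨?_, ?_⟩)
      · intro a b e
        have e' := congrArg Subtype.val e
        exact Subtype.ext (Subtype.ext e')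
      · rintro ⟨y, hy⟩
        have a1 : y ∈ K := by
          rw [← QuotientGroup.eq_one_iff, ← orderOf_eq_one_iff]
          refine Nat.eq_one_of_dvd_coprimes (a := orderOf y) (b := 2) ?_
            (orderOf_map_dvd (QuotientGroup.mk' K) y) ?_
          · rw [hy]
            exact (((Nat.Prime.coprime_iff_not_dvd Nat.prime_two).2 hKodd).symm).coprime_dvd_left
              (orderOf_dvd_natCard x)
          · refine (_root_.orderOf_dvd_natCard _).trans ?_
            rw [← index_eq_card, hK.symm.index_eq_card, hSz, Nat.card_zpowers, hzo]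
        exact ⟨⟨⟨y, a1⟩, by rw [← Subgroup.orderOf_coe]; exact hy⟩, rfl⟩
    haveI : Nontrivial K := by
      rw [nontrivial_iff_ne_bot]
      rintro rfl
      have a1 := hK.sup_eq_top
      rw [bot_sup_eq, hSz] at a1
      have a2 := orderOf_dvd_natCard (⟨x₀, a1 ▸ mem_top x₀⟩ : zpowers z)
      rw [Nat.card_zpowers, hzo, ← Subgroup.orderOf_coe] at a2
      rcases (Nat.dvd_prime Nat.prime_two).1 a2 with e | e
      · exact hx₀1 (orderOf_eq_one_iff.1 e)
      · exact hn (by rw [← hx₀, show orderOf x₀ = 2 from e, hc2])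
    obtain ⟨p, hp, hKp, he⟩ := caseA (G := K) (n := n) fun x hx1 => by
      rw [hcnt, ← Subgroup.orderOf_coe]
      refine h2 _ fun e => hKodd ?_
      rw [← orderOf_eq_prime (show x ^ 2 = 1 from Subtype.ext e) hx1]
      exact orderOf_dvd_natCard x
    let e : Shrink.{0} K ≃* K := Shrink.mulEquiv
    obtain ⟨f⟩ := GT.Frob.nonempty_sup_equiv_prod (M := zpowers z) (L := K)
      (le_centralizer_iff.1 ((zpowers_le.2 hzc).trans (center_le_centralizer _)))
      (hSz ▸ hK.symm.disjoint.eq_bot)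
    refine ⟨p, Shrink.{0} K, inferInstance, Finite.of_equiv K (equivShrink.{0} K), hp, ?_,
      hKp.of_equiv e.symm, (Monoid.exponent_eq_of_mulEquiv e).trans he,
      ⟨(topEquiv.symm.trans (MulEquiv.subgroupCongr ?_)).trans (f.trans (MulEquiv.prodCongr
        (mulEquivOfPrimeCardEq (p := 2) (by rw [Nat.card_zpowers, hzo]) (by simp)) e.symm))⟩⟩
    · rintro rfl
      exact hKodd (he ▸ Group.exponent_dvd_nat_card)
    · rw [← hSz, hK.symm.sup_eq_top]

end Cfsg.Agent.S3995
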