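import Mathlib
import Cfsg.Statements.S3997

set_option autoImplicit false
open Cfsg

namespace Cfsg.Agent.S3997

private theorem card_eq {G H : Type*} [Group G] [Finite G] [Group H] [Finite H]
    (hT : ∀ m : ℕ, Nat.card {g : G // orderOf g = m} = Nat.card {h : H // orderOf h = m})
    (S : ℕ → Prop) : Nat.card {g : G // S (orderOf g)} = Nat.card {h : H // S (orderOf h)} := by
  have e : ∀ m : ℕ, {g : G // orderOf g = m} ≃ {h : H // orderOf h = m} := fun m =>
    (Finite.card_eq.mp (hT m)).some
  let f : G ≃ H := Equiv.ofFiberEquiv (f := orderOf) (g := orderOf) e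
  have hf : ∀ g, orderOf (f g) = orderOf g := fun g => Equiv.ofFiberEquiv_map e g
  exact Nat.card_congr (f.subtypeEquiv fun g => by rw [hf])

/-- Let G and H be finite groups with the same order type: for every m they have the same number of elements of order m. If G is nilpotent then so is H. -/
theorem result {G H : Type*} [Group G] [Finite G] [Group H] [Finite H] (hT : (∀ m : ℕ, Nat.card {g : G // orderOf g = m} = Nat.card {h : H // orderOf h = m})) (hG : Group.IsNilpotent G) :
    Group.IsNilpotent H := by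
  classical
  have hG1 := Fintype.ofFinite G
  have hH1 := Fintype.ofFinite H
  have hcard : Nat.card G = Nat.card H := by
    have := card_eq hT fun _ => True
    rwa [Nat.card_congr (Equiv.subtypeUnivEquiv fun _ => trivial),
      Nat.card_congr (Equiv.subtypeUnivEquiv fun _ => trivial)] at this
  refine (Group.isNilpotent_of_finite_tfae.out 3 0).mp
    (fun (p : ℕ) (hp : Fact p.Prime) (P : Sylow p H) => ?_ :
      ∀ (p : ℕ) (_ : Fact p.Prime) (P : Sylow p H), (P : Subgroup H).Normal)
  obtain ⟨Q⟩ : Nonempty (Sylow p G) := inferInstance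
  have hQ : (Q : Subgroup G).Normal := by
    have h03 : ∀ (p : ℕ) (_ : Fact p.Prime) (P : Sylow p G), (P : Subgroup G).Normal :=
      (Group.isNilpotent_of_finite_tfae.out 0 3).mp hG
    exact h03 p hp Q
  have h1 := card_eq hT fun m => ∃ k, m = p ^ k
  have h2 : Nat.card {g : G // ∃ k, orderOf g = p ^ k} = Nat.card Q := by
    refine Nat.card_congr (Equiv.subtypeEquivRight fun g => ⟨fun ⟨k, hk⟩ => ?_, fun hg => ?_⟩)
    · have hz : IsPGroup p (Subgroup.zpowers g) := IsPGroup.of_card (by rw [Nat.card_zpowers, hk])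
      obtain ⟨R, hR⟩ := hz.exists_le_sylow
      have := Sylow.unique_of_normal Q hQ
      rw [Subsingleton.elim R Q] at hR
      exact hR (Subgroup.mem_zpowers g)
    · obtain ⟨k, hk⟩ := IsPGroup.iff_orderOf.mp Q.isPGroup' ⟨g, hg⟩
      exact ⟨k, by rwa [Subgroup.orderOf_mk] at hk⟩
  have h3 : Nat.card {g : H // ∃ k, orderOf g = p ^ k} = Nat.card P := by
    rw [← h1, h2, Q.card_eq_multiplicity, P.card_eq_multiplicity, hcard]
  have h4 : ∀ g : H, g ∈ (P : Subgroup H) → ∃ k, orderOf g = p ^ k := fun g hg => by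
    obtain ⟨k, hk⟩ := IsPGroup.iff_orderOf.mp P.isPGroup' ⟨g, hg⟩
    exact ⟨k, by rwa [Subgroup.orderOf_mk] at hk⟩
  have h5 : ((P : Subgroup H) : Set H) = {g | ∃ k, orderOf g = p ^ k} :=
    Set.eq_of_subset_of_ncard_le h4 (by
      rw [← Nat.card_coe_set_eq, ← Nat.card_coe_set_eq]
      exact h3.le)
  refine ⟨fun x hx g => ?_⟩
  have hx' : x ∈ ((P : Subgroup H) : Set H) := hx
  change g * x * g⁻¹ ∈ ((P : Subgroup H) : Set H)
  rw [h5] at hx' ⊢
  obtain ⟨k, hk⟩ := hx'
  exact ⟨k, by rwa [← MulAut.conj_apply, MulEquiv.orderOf_eq]⟩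

end Cfsg.Agent.S3997
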