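import Mathlib
import Cfsg.Statements.S3998
import Cfsg.Agent.FG.H93OrderType
import Cfsg.Agent.FG.H93Solv
import Cfsg.Agent.GT.Supersolvable2

set_option autoImplicit false
open Cfsg

namespace Cfsg.Agent.S3998

open Cfsg.Agent.FG Cfsg.Agent.GT

universe u

theorem exists_normal_hall (m : ℕ) (G : Type u) [Group G] [Finite G] :
    IsSupersolvable G → ∃ N : Subgroup G, N.Normal ∧ IsPiHall {q | m ≤ q} N := by
  refine subgroup_quotient_induction
    (P := fun G _ _ => IsSupersolvable G → ∃ N : Subgroup G, N.Normal ∧ IsPiHall {q | m ≤ q} N) ?_ G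
  intro G _ _ _ ih hG
  by_cases h : ∃ q : ℕ, q.Prime ∧ q ∣ Nat.card G ∧ m ≤ q
  · obtain ⟨q, hq, hqd, hmq⟩ := h
    have hne : (Nat.card G).primeFactors.Nonempty :=
      ⟨q, Nat.mem_primeFactors.mpr ⟨hq, hqd, Nat.card_pos.ne'⟩⟩
    set p := (Nat.card G).primeFactors.max' hne with hp
    have hpm := Nat.mem_primeFactors.mp (Finset.max'_mem _ hne)
    have hmax : ∀ r : ℕ, r.Prime → r ∣ Nat.card G → r ≤ p := fun r hr hd =>
      Finset.le_max' _ _ (Nat.mem_primeFactors.mpr ⟨hr, hd, Nat.card_pos.ne'⟩)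
    have : Fact p.Prime := ⟨hpm.1⟩
    obtain ⟨P⟩ : Nonempty (Sylow p G) := inferInstance
    have := SS.sylow_normal_of_max hG hmax P
    obtain ⟨N, hN, hH⟩ := ih (P : Subgroup G) (P.ne_bot_of_dvd_card hpm.2.1) (SS.quotient hG _)
    refine ⟨N.comap (QuotientGroup.mk' _), inferInstance,
      hH.comap_of_surjective (QuotientGroup.mk'_surjective _) ?_⟩
    rw [QuotientGroup.ker_mk']
    exact isPiNum_of_isPGroup hpm.1 P.isPGroup' (hmq.trans (hmax q hq hqd))
  · refine ⟨⊥, inferInstance, isPiHall_iff.mpr ⟨isPiNum_card_bot _, ?_⟩⟩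
    rw [Subgroup.index_bot, isPiNum_compl_iff]
    exact fun q hq hmq hd => h ⟨q, hq, hd, hmq⟩

theorem step {H : Type*} [Group H] [Finite H] (m : ℕ) {N : Subgroup H} [N.Normal]
    (hN : IsPiHall {q | m + 1 ≤ q} N) [Group.IsSolvable N] :
    ∃ K : Subgroup H, IsPiHall {q | m ≤ q} K ∧ Group.IsSolvable K := by
  have h1 : IsPiNum {q | m ≤ q} (Nat.card N) := hN.card.mono fun q (hq : m + 1 ≤ q) =>
    show m ≤ q by omega
  by_cases hm : m.Prime
  · have : Fact m.Prime := ⟨hm⟩
    obtain ⟨P⟩ : Nonempty (Sylow m H) := inferInstance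
    have := H93.isSolvable_of_isPGroup hm P.isPGroup'
    refine ⟨P ⊔ N, isPiHall_iff.mpr ⟨IsPiNum.card_sup
      (isPiNum_of_isPGroup hm P.isPGroup' (le_refl m)) h1, ?_⟩, isSolvable_sup _ _⟩
    rw [isPiNum_compl_iff]
    intro q hq (hmq : m ≤ q) hd
    rcases hmq.eq_or_lt with rfl | hlt
    · exact P.not_dvd_index (hd.trans (Subgroup.index_dvd_of_le le_sup_left))
    · exact isPiNum_compl_iff.mp hN.index q hq hlt (hd.trans (Subgroup.index_dvd_of_le le_sup_right))
  · refine ⟨N, isPiHall_iff.mpr ⟨h1, ?_⟩, inferInstance⟩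
    rw [isPiNum_compl_iff]
    intro q hq (hmq : m ≤ q) hd
    rcases hmq.eq_or_lt with rfl | hlt
    · exact hm hq
    · exact isPiNum_compl_iff.mp hN.index q hq hlt hd

/-- Let G and H be finite groups with the same order type (for every m the same number of elements of order m). If G is supersolvable then H is solvable. -/
theorem result {G H : Type*} [Group G] [Finite G] [Group H] [Finite H] (hT : (∀ m : ℕ, Nat.card {g : G // orderOf g = m} = Nat.card {h : H // orderOf h = m})) (hG : Cfsg.IsSupersolvable G) :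
    Group.IsSolvable H := by
  obtain ⟨e, he⟩ := H93.exists_equiv_orderOf hT
  have hnormal : ∀ (m : ℕ) (K : Subgroup H), IsPiHall {q | m ≤ q} K → K.Normal := by
    intro m K hK
    obtain ⟨N, hN, hH⟩ := exists_normal_hall m G hG
    refine H93.normal_of_card_piElts hK.card ?_
    rw [← H93.card_filter_orderOf_eq e he, H93.card_piElts_of_normal hH]
    exact H93.card_eq_of_isPiHall_of_card_eq hH hK (Nat.card_congr e)
  have key : ∀ k m : ℕ, m + k = Nat.card H + 1 →
      ∃ K : Subgroup H, IsPiHall {q | m ≤ q} K ∧ Group.IsSolvable K := by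
    intro k
    induction k with
    | zero =>
      intro m hm
      refine ⟨⊥, isPiHall_iff.mpr ⟨isPiNum_card_bot _, ?_⟩, inferInstance⟩
      rw [Subgroup.index_bot, isPiNum_compl_iff]
      intro q _ (hmq : m ≤ q) hd
      have := Nat.le_of_dvd Nat.card_pos hd
      omega
    | succ k ih =>
      intro m hm
      obtain ⟨N, hN, hs⟩ := ih (m + 1) (by omega)
      have := hnormal _ N hN
      exact step m hN
  obtain ⟨K, hK, hs⟩ := key (Nat.card H + 1) 0 (by omega)
  have h1 : K = ⊤ := by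
    rw [← Subgroup.index_eq_one]
    exact IsPiNum.eq_one (π := {q | 0 ≤ q}) (isPiNum_iff.mpr fun q _ _ => Nat.zero_le q) hK.index
  subst h1
  exact isSolvable_of_mulEquiv Subgroup.topEquiv

end Cfsg.Agent.S3998
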