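import Mathlib
import Cfsg.Statements.S3999
import Cfsg.Agent.FG.H93FrobCompl
import Cfsg.Agent.FG.H93OrderType
import Cfsg.Agent.FG.H93Basic
import Cfsg.Agent.GT.FixedPointFreeThompson
import Cfsg.Agent.GT.Hall

set_option autoImplicit false
open Cfsg

namespace Cfsg.Agent.S3999

open Cfsg.Agent.FG Cfsg.Agent.GT

theorem solv_transfer {F G : Type*} [Group F] [Finite F] [Group G] [Finite G]
    (hT : ∀ m : ℕ, Nat.card {g : F // orderOf g = m} = Nat.card {h : G // orderOf h = m})
    {C : Subgroup F} {D : Subgroup G} (hC : IsFrobeniusComplement C)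
    (hD : IsFrobeniusComplement D) (h1 : Nat.card C = Nat.card D) (h2 : C.index = D.index)
    (hs : Group.IsSolvable C) : Group.IsSolvable D := by
  refine H93.isSolvable_of_unique_prime_subgroups D fun p hp h5 x y hx hy => ?_
  have hpD : p ∣ Nat.card D := hx ▸ orderOf_dvd_natCard x
  have hn : ¬ p.Coprime (Nat.card D) := fun h => (Nat.Prime.coprime_iff_not_dvd hp).mp h hpD
  have h3 := hT p
  rw [H93.card_orderOf_of_frobenius hC (h1 ▸ hn), H93.card_orderOf_of_frobenius hD hn, h2] at h3
  have h4 := Nat.eq_of_mul_eq_mul_left (Nat.pos_of_ne_zero Subgroup.index_ne_zero_of_finite) h3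
  refine (H93.card_orderOf_le_iff hp).mp ?_ x y hx hy
  rw [← h4]
  exact (H93.card_orderOf_le_iff hp).mpr fun a b ha hb =>
    H93.mem_zpowers_of_fpf_solvable hC.hasFpfAction hp h5 ha hb

/-- Let F be a finite Frobenius group (it has a Frobenius complement) and G a finite group with the same order type as F (for every m the same number of elements of order m). Then G is a Frobenius group; moreover G is solvable if and only if F is. -/
theorem result {F G : Type*} [Group F] [Finite F] [Group G] [Finite G] (hF : (∃ C : Subgroup F, Cfsg.IsFrobeniusComplement C)) (hT : (∀ m : ℕ, Nat.card {g : F // orderOf g = m} = Nat.card {h : G // orderOf h = m})) :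
    (∃ C : Subgroup G, Cfsg.IsFrobeniusComplement C) ∧ (Group.IsSolvable G ↔ Group.IsSolvable F) := by
  obtain ⟨C, hC⟩ := hF
  obtain ⟨e, he⟩ := H93.exists_equiv_orderOf hT
  have hcard : Nat.card F = Nat.card G := Nat.card_congr e
  have hKn := hC.kernel_normal
  have hKnil := hC.kernel_isNilpotent
  have hcop : (Nat.card hC.kernel).Coprime (Nat.card C) := by
    rw [hC.card_kernel_subgroup]; exact hC.coprime_card_index.symm
  set π : Set ℕ := {q | q ∣ Nat.card hC.kernel} with hπ
  have hK : IsPiHall π hC.kernel :=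
    (isPiHall_iff_card_eq (n := Nat.card C) (by rw [← hC.index_kernel, Subgroup.card_mul_index])
      hcop).mpr rfl
  have hL : IsPiHall π (piCore π G) := by
    refine isPiHall_iff.mpr ⟨isPiNum_piCore π, isPiNum_compl_iff.mpr fun p hp hpπ hd => ?_⟩
    have : Fact p.Prime := ⟨hp⟩
    obtain ⟨P⟩ : Nonempty (Sylow p F) := inferInstance
    obtain ⟨Q⟩ : Nonempty (Sylow p G) := inferInstance
    have hPK : (P : Subgroup F) ≤ hC.kernel := fun g hg =>
      (H93.mem_iff_of_normal_isPiHall hK g).mpr ((isPiNum_of_isPGroup hp P.isPGroup' hpπ).of_dvd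
        (Subgroup.orderOf_dvd_natCard _ hg))
    have hPn : (P : Subgroup F).Normal := by
      rw [le_antisymm (le_pCore_of_le_fitting P.isPGroup' (hPK.trans (le_fitting _)))
        (pCore_le_sylow P)]
      infer_instance
    have hQn : (Q : Subgroup G).Normal := by
      refine H93.normal_of_card_piElts (isPiHall_sylow Q).card ?_
      rw [← H93.card_filter_orderOf_eq e he, H93.card_piElts_of_normal (isPiHall_sylow P)]
      exact H93.card_eq_of_isPiHall_of_card_eq (isPiHall_sylow P) (isPiHall_sylow Q) hcard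
    exact Q.not_dvd_index (hd.trans (Subgroup.index_dvd_of_le
      (le_piCore (isPiNum_of_isPGroup hp Q.isPGroup' hpπ))))
  have hKL : Nat.card hC.kernel = Nat.card (piCore π G) :=
    H93.card_eq_of_isPiHall_of_card_eq hK hL hcard
  have hidx : (piCore π G).index = Nat.card C := by
    have h1 := (piCore π G).card_mul_index
    rw [← hcard, ← hC.kernel.card_mul_index, hKL, hC.index_kernel] at h1
    exact Nat.eq_of_mul_eq_mul_left Nat.card_pos h1
  obtain ⟨D, hD⟩ := Subgroup.exists_right_complement'_of_coprime (N := piCore π G)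
    (by rw [hidx, ← hKL]; exact hcop)
  have hCD : Nat.card C = Nat.card D := by rw [← hidx, hD.symm.index_eq_card]
  have hDi : C.index = D.index := by rw [hD.index_eq_card, ← hKL, hC.card_kernel_subgroup]
  have hFD : IsFrobeniusComplement D := by
    refine Frob.isFrobeniusComplement_of_fpf hD ?_ ?_ fun h hh h1 => ?_
    · rw [Ne, Subgroup.eq_bot_iff_card, ← hKL, ← Subgroup.eq_bot_iff_card]
      exact hC.kernel_ne_bot
    · rw [Ne, Subgroup.eq_bot_iff_card, ← hCD, ← Subgroup.eq_bot_iff_card]
      exact hC.ne_bot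
    rw [eq_bot_iff]
    rintro k ⟨hk, hkh⟩
    have hc : Commute k h := H93.mem_centralizer_singleton.mp hkh
    have hk1 : orderOf k ∣ Nat.card hC.kernel := hKL ▸ Subgroup.orderOf_dvd_natCard _ hk
    have hh1 : orderOf h ∣ Nat.card C := hCD ▸ Subgroup.orderOf_dvd_natCard _ hh
    have ho : orderOf (e.symm (k * h)) = orderOf k * orderOf h := by
      rw [← he, e.apply_symm_apply]
      exact hc.orderOf_mul_eq_mul_orderOf_of_coprime
        ((hcop.coprime_dvd_left hk1).coprime_dvd_right hh1)
    by_cases hf : e.symm (k * h) ∈ frobeniusKernel C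
    · have h2 := hC.coprime_orderOf_of_mem_kernel hf
      rw [ho] at h2
      exact absurd (orderOf_eq_one_iff.mp (Nat.Coprime.eq_one_of_dvd
        ((h2.coprime_dvd_left (Dvd.intro_left _ rfl))) hh1)) h1
    · obtain ⟨-, g, hg⟩ := Frob.notMem_frobeniusKernel_iff.mp hf
      have h2 := Subgroup.orderOf_dvd_natCard _ hg
      rw [H93.orderOf_conj', ho] at h2
      exact orderOf_eq_one_iff.mp (Nat.eq_one_of_dvd_coprimes hcop hk1
        ((Dvd.intro _ rfl).trans h2))
  refine ⟨⟨D, hFD⟩, ?_⟩
  have := hFD.kernel_isNilpotent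
  rw [H93.isSolvable_iff_of_frobenius hFD inferInstance,
    H93.isSolvable_iff_of_frobenius hC inferInstance]
  exact ⟨solv_transfer (fun m => (hT m).symm) hFD hC hCD.symm hDi.symm,
    solv_transfer hT hC hFD hCD hDi⟩

end Cfsg.Agent.S3999
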