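import Mathlib
-- Template for statement S4001 (row 4001; see /opt/grader/pristine/manifest.json for weights).
-- Copy to Cfsg/Agent/S4001.lean and replace the sorry. The statement below is byte-identical to the frozen
-- statement Cfsg.CfsgFrozen.S4001 (Cfsg/Statements/S4001.lean; the theorem Cfsg.fg5_two_frobenius_structure);
-- the grader kernel-checks Cfsg.Agent.S4001.result against that frozen type. Keep the theorem IN THIS FILE
-- (a `result` declared elsewhere and merely imported here is not credited); helpers may live anywhere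
-- under Cfsg/Agent/.
import Cfsg.Statements.S4001
import Cfsg.Agent.GT.FrobeniusComplement
import Cfsg.Agent.GT.FixedPointFreeThompson
import Cfsg.Agent.GT.PGroupBasic
import Cfsg.Agent.GT.Fitting
-- import your own Cfsg.Agent.* helpers here

set_option autoImplicit false
open Cfsg

namespace Cfsg.Agent.S4001

theorem exists_center {G : Type*} [Group G] [Finite G] {H : Subgroup G} [Group.IsNilpotent H]
    {p : ℕ} (hp : p.Prime) (hpH : p ∣ Nat.card H) :
    ∃ z : G, (z ∈ H ⊓ Subgroup.centralizer (H : Set G) ∧ z ^ p = 1) ∧ z ≠ 1 := by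
  have := Fact.mk hp
  let P : Sylow p H := default
  have hPn : (P : Subgroup H).Normal :=
    Sylow.normal_of_normalizerCondition Group.normalizerCondition_of_isNilpotent P
  have h1 := GT.PG.inf_center_ne_bot (P : Subgroup H) (P.ne_bot_of_dvd_card hpH)
  have h2 : IsPGroup p ((P : Subgroup H) ⊓ Subgroup.center H : Subgroup H) := P.2.to_inf_left
  obtain ⟨n, hn0, hn⟩ := h2.nontrivial_iff_card.mp ((Subgroup.nontrivial_iff_ne_bot _).mpr h1)
  obtain ⟨z, hz⟩ := exists_prime_orderOf_dvd_card' p (hn ▸ dvd_pow_self p hn0.ne')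
  refine ⟨z.1.1, ⟨⟨z.1.2, fun h hh => ?_⟩, ?_⟩, fun e => hp.ne_one ?_⟩
  · exact congrArg Subtype.val (Subgroup.mem_center_iff.mp z.2.2 ⟨h, hh⟩)
  · rw [← Subgroup.coe_pow, ← Subgroup.coe_pow, orderOf_dvd_iff_pow_eq_one.mp hz.dvd]; rfl
  · rw [← hz, show z = 1 from Subtype.ext (Subtype.ext e), orderOf_one]

theorem exists_of_isCyclic {G X Y : Type*} [Group G] [Group X] [Finite X] [Group Y] [IsCyclic Y]
    (f : X →* G) (π : X →* Y) (hπ : Function.Surjective π) (hf : Function.Injective f) {n : ℕ}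
    (hn : n ∣ Nat.card Y) : ∃ g : G, orderOf g = n := by
  obtain ⟨y, hy⟩ := IsCyclic.exists_ofOrder_eq_natCard (α := Y)
  obtain ⟨x, rfl⟩ := hπ y
  exact ⟨f (x ^ (orderOf x / n)), by
    rw [orderOf_injective f hf, orderOf_pow_orderOf_div (orderOf_pos x).ne'
      ((hy ▸ hn).trans (orderOf_map_dvd π x))]⟩

/-- Let G be a 2-Frobenius group: it has normal subgroups H < K with K a Frobenius group with kernel H and G/H a Frobenius group with kernel K/H. Then G is solvable; K/H has odd order coprime to the order of H and to the order of G/K (it is the image of an odd-order Hall subgroup); G/K is cyclic; and the prime graph of G has exactly two connected components, both complete: for distinct primes p, q dividing the order of G, G has an element of order pq exactly when p and q either both divide the order of K/H or both do not. -/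
theorem result {G : Type*} [Group G] [Finite G] (H K : Subgroup G) [H.Normal] [K.Normal] (hlt : H < K)
    (hK : ∃ C : Subgroup ↥K, Cfsg.IsFrobeniusComplement C ∧ Cfsg.frobeniusKernel C = (H.subgroupOf K : Set ↥K))
    (hGH : ∃ C : Subgroup (G ⧸ H), Cfsg.IsFrobeniusComplement C ∧ Cfsg.frobeniusKernel C = (K.map (QuotientGroup.mk' H) : Set (G ⧸ H))) :
    Group.IsSolvable G ∧ Odd (Nat.card (↥K ⧸ H.subgroupOf K)) ∧
      Nat.Coprime (Nat.card (↥K ⧸ H.subgroupOf K)) (Nat.card ↥H * Nat.card (G ⧸ K)) ∧ IsCyclic (G ⧸ K) ∧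
      ∀ p q : ℕ, p.Prime → q.Prime → p ≠ q → p ∣ Nat.card G → q ∣ Nat.card G →
        ((∃ g : G, orderOf g = p * q) ↔ (p ∣ Nat.card (↥K ⧸ H.subgroupOf K) ↔ q ∣ Nat.card (↥K ⧸ H.subgroupOf K))) := by
  obtain ⟨C, hC, hCk⟩ := hK
  obtain ⟨D, hD, hDk⟩ := hGH
  set π := QuotientGroup.mk' H with hπ
  have hc1 := hC.isComplement'_of_coe_eq hCk.symm
  have hc2 := hD.isComplement'_of_coe_eq hDk.symm
  have e1 : (K ⧸ H.subgroupOf K) ≃* C := hc1.symm.QuotientMulEquiv
  have e2 : (G ⧸ K) ≃* D :=
    (QuotientGroup.quotientQuotientEquivQuotient H K hlt.le).symm.trans hc2.symm.QuotientMulEquiv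
  have e3 : (K ⧸ H.subgroupOf K) ≃* K.map π :=
    (QuotientGroup.quotientMulEquivOfEq (by
      rw [Subgroup.ker_subgroupMap, hπ, QuotientGroup.ker_mk'])).trans
      (QuotientGroup.quotientKerEquivOfSurjective _ (π.subgroupMap_surjective K))
  have e4 : H.subgroupOf K ≃* H := Subgroup.subgroupOfEquivOfLe hlt.le
  have hfB : GT.Frob.HasFpfAction (K.map π) := hC.hasFpfAction.of_mulEquiv (e1.symm.trans e3)
  have hfpf2 : ∀ d ∈ D, d ≠ 1 → K.map π ⊓ Subgroup.centralizer {d} = ⊥ := fun d hd hd1 =>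
    hD.inf_centralizer_eq_bot hc2.disjoint hd hd1
  have hBn : Group.IsNilpotent (K.map π) := by
    rw [hD.eq_kernel_of_coe_eq hDk.symm]; exact hD.kernel_isNilpotent
  have hHn : Group.IsNilpotent H := by
    have : Group.IsNilpotent (H.subgroupOf K) := by
      rw [hC.eq_kernel_of_coe_eq hCk.symm]; exact hC.kernel_isNilpotent
    exact Group.nilpotent_of_mulEquiv e4
  obtain ⟨⟨d, hd⟩, hd1⟩ := Subgroup.ne_bot_iff_exists_ne_one.mp hD.ne_bot
  have hd1 : d ≠ 1 := by simpa using hd1
  have hodd : Odd (Nat.card (K.map π)) := by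
    rw [← Nat.not_even_iff_odd, even_iff_two_dvd]
    intro h
    obtain ⟨t, ht⟩ := exists_prime_orderOf_dvd_card' 2 h
    have ht1 : t ≠ 1 := fun e => by simp [e] at ht
    have ht2 : t * t = 1 := by rw [← pow_two, ← ht, pow_orderOf_eq_one]
    have h1 := hfB.eq_of_mul_self_eq_one (s := MulAut.conjNormal d t)
      (by simpa using ht1) (by rw [← map_mul, ht2, map_one]) ht1 ht2
    exact ht1 (Subtype.ext (GT.Frob.eq_one_of_inf_centralizer (hfpf2 d hd hd1) t.2
      (congrArg Subtype.val h1)))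
  have hBc : IsCyclic (K.map π) := by
    have := hfB.isZGroup_of_odd hodd
    infer_instance
  have hDc : IsCyclic D := by
    have hinj : Function.Injective
        ((MulAut.conjNormal : G ⧸ H →* MulAut (K.map π)).comp D.subtype) := by
      rw [injective_iff_map_eq_one]
      intro x hx
      by_contra hx1
      refine hD.ne_bot_of_coe_eq hDk.symm (eq_bot_iff.mpr fun v hv => ?_)
      exact GT.Frob.eq_one_of_inf_centralizer (hfpf2 x x.2 (by simpa using hx1)) hv
        (congrArg Subtype.val (DFunLike.congr_fun hx (⟨v, hv⟩ : K.map π)))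
    let _ := (hBc.mulAutMulEquiv _).toMonoidHom.commGroupOfInjective (hBc.mulAutMulEquiv _).injective
    have : IsMulCommutative D := ⟨⟨fun a b => hinj (by rw [map_mul, map_mul, mul_comm])⟩⟩
    exact hD.hasFpfAction.isCyclic_of_comm
  have hB1 : Nat.card (K ⧸ H.subgroupOf K) = Nat.card C := Nat.card_congr e1.toEquiv
  have hB2 : Nat.card (K ⧸ H.subgroupOf K) = D.index :=
    (Nat.card_congr e3.toEquiv).trans (hD.card_eq_index_of_coe_eq hDk.symm)
  have hH1 : Nat.card H = C.index :=
    (Nat.card_congr e4.toEquiv).symm.trans (hC.card_eq_index_of_coe_eq hCk.symm)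
  have hD1 : Nat.card (G ⧸ K) = Nat.card D := Nat.card_congr e2.toEquiv
  have hcop1 : (Nat.card (K ⧸ H.subgroupOf K)).Coprime (Nat.card H) := by
    rw [hB1, hH1]; exact hC.coprime_card_index
  have hcop2 : (Nat.card (K ⧸ H.subgroupOf K)).Coprime (Nat.card (G ⧸ K)) := by
    rw [hB2, hD1]; exact hD.coprime_card_index.symm
  have hGK : IsCyclic (G ⧸ K) := isCyclic_of_surjective e2.symm e2.symm.surjective
  have hCc : IsCyclic C := isCyclic_of_surjective (e3.symm.trans e1) (e3.symm.trans e1).surjective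
  have hcard : Nat.card G = Nat.card (G ⧸ K) * (Nat.card (K ⧸ H.subgroupOf K) * Nat.card H) := by
    rw [K.card_eq_card_quotient_mul_card_subgroup,
      (H.subgroupOf K).card_eq_card_quotient_mul_card_subgroup,
      Nat.card_congr e4.toEquiv]
  refine ⟨?_, by rwa [Nat.card_congr e3.toEquiv], hcop1.mul_right hcop2, hGK, ?_⟩
  · have : Group.IsSolvable (G ⧸ H) := by
      let _ := hGK.commGroup
      exact Group.isSolvable_of_ker_le_range (K.map π).subtype
        (QuotientGroup.map H K (MonoidHom.id G) hlt.le) (by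
          intro x hx
          obtain ⟨g, rfl⟩ := QuotientGroup.mk'_surjective H x
          exact ⟨⟨_, g, (QuotientGroup.eq_one_iff g).mp hx, rfl⟩, rfl⟩)
    exact Group.isSolvable_of_ker_le_range H.subtype π (by simp [hπ])
  -- no element of mixed order
  have mixed : ∀ p q : ℕ, p.Prime → q.Prime → ∀ g : G, orderOf g = p * q →
      p ∣ Nat.card (K ⧸ H.subgroupOf K) → q ∣ Nat.card (K ⧸ H.subgroupOf K) := by
    intro p q hp hq g hg hpB
    by_contra hqB
    have hx : orderOf (g ^ q) = p := by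
      rw [orderOf_pow' _ hq.ne_zero, hg, Nat.gcd_mul_left_left, Nat.mul_div_cancel _ hq.pos]
    have hy : orderOf (g ^ p) = q := by
      rw [orderOf_pow' _ hp.ne_zero, hg, Nat.gcd_mul_right_left, Nat.mul_div_cancel_left _ hp.pos]
    have hxK : g ^ q ∈ K := by
      rw [← QuotientGroup.eq_one_iff, ← orderOf_eq_one_iff]
      exact Nat.eq_one_of_dvd_coprimes (hcop2.coprime_dvd_left hpB)
        (hx ▸ orderOf_map_dvd (QuotientGroup.mk' K) _) (orderOf_dvd_natCard _)
    have hxH : g ^ q ∉ H := fun h => hp.ne_one (Nat.eq_one_of_dvd_coprimes hcop1 hpB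
      (hx ▸ Subgroup.orderOf_dvd_natCard H h))
    have hxy : Commute (g ^ q) (g ^ p) := Commute.pow_pow_self g q p
    have hyK : g ^ p ∈ K := by
      have h1 := hD.mem_kernel_of_commute (x := π (g ^ q)) (by rw [hDk]; exact ⟨_, hxK, rfl⟩)
        (fun e => hxH ((QuotientGroup.eq_one_iff _).mp e)) (hxy.map π)
      rw [hDk] at h1
      obtain ⟨k, hk, hkg⟩ := h1
      simpa using K.mul_mem hk (hlt.le (QuotientGroup.eq.mp hkg))
    have h2 : (⟨_, hyK⟩ : K) ∈ frobeniusKernel C := by
      rw [hC.mem_kernel_iff_coprime, ← Subgroup.orderOf_coe, hy, ← hB1]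
      exact (Nat.Prime.coprime_iff_not_dvd hq).mpr hqB
    have h3 := hC.mem_kernel_of_commute h2 (y := ⟨_, hxK⟩)
      (fun e => hq.ne_one (by rw [← hy, show g ^ p = 1 from congrArg Subtype.val e, orderOf_one]))
      (Subtype.ext hxy.symm.eq)
    rw [hCk] at h3
    exact hxH h3
  -- elements of `H` and of `D`
  have cross : ∀ p q : ℕ, p.Prime → q.Prime → p ≠ q → p ∣ Nat.card H → q ∣ Nat.card (G ⧸ K) →
      ∃ g : G, orderOf g = p * q := by
    intro p q hp hq hpq hpH hqD
    have := Fact.mk hp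
    have := Fact.mk hq
    let V : Subgroup G :=
      { carrier := {v | v ∈ H ⊓ Subgroup.centralizer (H : Set G) ∧ v ^ p = 1}
        mul_mem' := fun {a b} ha hb => ⟨Subgroup.mul_mem _ ha.1 hb.1, by
          rw [Commute.mul_pow (hb.1.2 a ha.1.1), ha.2, hb.2, one_mul]⟩
        one_mem' := ⟨Subgroup.one_mem _, one_pow _⟩
        inv_mem' := fun {a} ha => ⟨Subgroup.inv_mem _ ha.1, by rw [inv_pow, ha.2, inv_one]⟩ }
    have hVn : V.Normal := ⟨fun v hv g => ⟨Subgroup.Normal.conj_mem inferInstance v hv.1 g, by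
      rw [conj_pow, hv.2, mul_one, mul_inv_cancel]⟩⟩
    obtain ⟨z, hz, hz1⟩ := exists_center hp hpH
    let _ : CommGroup V := { mul_comm := fun a b => Subtype.ext (b.2.1.2 a a.2.1.1) }
    let φ : G ⧸ H →* MulAut V := QuotientGroup.lift H MulAut.conjNormal fun h hh => by
      ext v
      exact mul_inv_eq_iff_eq_mul.mpr (v.2.1.2 h hh)
    let _ := MulDistribMulAction.compHom V φ
    have hs : ∀ (g : G) (v : V), ((π g • v : V) : G) = g * v * g⁻¹ := fun _ _ => rfl
    obtain ⟨v, hv, hv1⟩ : ∃ v : V, (∀ d ∈ D, d • v = v) ∧ v ≠ 1 := by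
      by_contra hcon
      push Not at hcon
      obtain ⟨⟨c, hc⟩, hc1'⟩ := Subgroup.ne_bot_iff_exists_ne_one.mp hC.ne_bot
      have h1 := GT.Frob.kernel_smul_eq_of_coprime hD hcon (by
        rw [← hB2]
        exact (hcop1.coprime_dvd_right (Subgroup.card_dvd_of_le (show V ≤ H from fun v hv => hv.1.1))).symm)
        (k := π c) (by rw [hDk]; exact ⟨_, c.2, rfl⟩) ⟨z, hz⟩
      have h2 := GT.Frob.eq_one_of_inf_centralizer
        (hC.inf_centralizer_eq_bot hc1.disjoint hc (by simpa using hc1'))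
        (v := ⟨z, hlt.le hz.1.1⟩) hz.1.1 (Subtype.ext (congrArg (fun x : V => (x : G)) h1))
      exact hz1 (congrArg Subtype.val h2)
    obtain ⟨d, hd⟩ := exists_prime_orderOf_dvd_card' q (hD1 ▸ hqD)
    obtain ⟨y, hy⟩ := QuotientGroup.mk'_surjective H d
    have hyv : Commute y v := by
      have := congrArg Subtype.val (hv _ d.2)
      rw [← hy, hs] at this
      exact mul_inv_eq_iff_eq_mul.mp this
    have hq1 : q ∣ orderOf y := by
      rw [← hd, ← Subgroup.orderOf_coe, ← hy]; exact orderOf_map_dvd _ _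
    have hvp : orderOf (v : G) = p := orderOf_eq_prime v.2.2 (by simpa using hv1)
    have hyq := orderOf_pow_orderOf_div (orderOf_pos y).ne' hq1
    refine ⟨v * y ^ (orderOf y / q), ?_⟩
    rw [(hyv.symm.pow_right _).orderOf_mul_eq_mul_orderOf_of_coprime
      (by rw [hvp, hyq]; exact (Nat.coprime_primes hp hq).mpr hpq), hvp, hyq]
  intro p q hp hq hpq hpG hqG
  have hcpq := (Nat.coprime_primes hp hq).mpr hpq
  refine ⟨fun ⟨g, hg⟩ => ⟨mixed p q hp hq g hg, mixed q p hq hp g (by rw [hg, mul_comm])⟩,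
    fun h => ?_⟩
  by_cases hpB : p ∣ Nat.card (K ⧸ H.subgroupOf K)
  · exact exists_of_isCyclic (K.subtype.comp C.subtype) (MonoidHom.id C) Function.surjective_id
      (K.subtype_injective.comp C.subtype_injective)
      (hB1 ▸ hcpq.mul_dvd_of_dvd_of_dvd hpB (h.mp hpB))
  have hqB := fun e => hpB (h.mpr e)
  rw [hcard, hp.dvd_mul, hp.dvd_mul] at hpG
  rw [hcard, hq.dvd_mul, hq.dvd_mul] at hqG
  rcases hpG with h1 | h1 | h1
  · rcases hqG with h2 | h2 | h2
    · exact exists_of_isCyclic (MonoidHom.id G) (QuotientGroup.mk' K)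
        (QuotientGroup.mk'_surjective K) Function.injective_id (hcpq.mul_dvd_of_dvd_of_dvd h1 h2)
    · exact absurd h2 hqB
    · rw [mul_comm]; exact cross q p hq hp hpq.symm h2 h1
  · exact absurd h1 hpB
  · rcases hqG with h2 | h2 | h2
    · exact cross p q hp hq hpq h1 h2
    · exact absurd h2 hqB
    · have := Fact.mk hp
      have := Fact.mk hq
      obtain ⟨x, hx⟩ := exists_prime_orderOf_dvd_card' p h1
      obtain ⟨y, hy⟩ := exists_prime_orderOf_dvd_card' q h2
      rw [← Subgroup.orderOf_coe] at hx hy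
      have h3 : (orderOf (x : G)).Coprime (orderOf (y : G)) := by rwa [hx, hy]
      refine ⟨x * y, ?_⟩
      rw [(GT.commute_of_coprime_of_isNilpotent x.2 y.2 h3).orderOf_mul_eq_mul_orderOf_of_coprime
        h3, hx, hy]

end Cfsg.Agent.S4001
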