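import Mathlib
import Cfsg.Statements.S4002
import Cfsg.Agent.FG.H93Eppo

set_option autoImplicit false
open Cfsg

namespace Cfsg.Agent.S4002

open Cfsg.Agent.FG Cfsg.Agent.GT Subgroup

theorem exists_three (n : ℕ) (hn : 7 ≤ n) : ∃ r s t : ℕ, r.Prime ∧ s.Prime ∧ t.Prime ∧ r < s ∧ s < t ∧
    t ≤ n ∧ n < r * s := by
  by_cases h1 : n < 15
  · exact ⟨3, 5, 7, by norm_num, by norm_num, by norm_num, by omega, by omega, by omega, by omega⟩
  by_cases h2 : n < 77
  · exact ⟨7, 11, 13, by norm_num, by norm_num, by norm_num, by omega, by omega, by omega, by omega⟩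
  have h3 : 8 ≤ Nat.sqrt n := Nat.le_sqrt.mpr (by omega)
  obtain ⟨r, hr, hr1, hr2⟩ := Nat.exists_prime_lt_and_le_two_mul (Nat.sqrt n) (by omega)
  obtain ⟨s, hs, hs1, hs2⟩ := Nat.exists_prime_lt_and_le_two_mul (2 * Nat.sqrt n) (by omega)
  obtain ⟨t, ht, ht1, ht2⟩ := Nat.exists_prime_lt_and_le_two_mul (4 * Nat.sqrt n) (by omega)
  refine ⟨r, s, t, hr, hs, ht, by omega, by omega, ?_, ?_⟩
  · have := Nat.sqrt_le n
    nlinarith
  · have := Nat.lt_succ_sqrt n
    exact this.trans_le (Nat.mul_le_mul hr1 (by omega))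

/-- If the set of element orders of a finite group G is {1, 2, …, n} with n ≥ 7, then G is not solvable. -/
theorem result {G : Type*} [Group G] [Finite G] (n : ℕ) (hn : 7 ≤ n) (h : Set.range (orderOf : G → ℕ) = {k : ℕ | 1 ≤ k ∧ k ≤ n}) : ¬ Group.IsSolvable G := by
  obtain ⟨r, s, t, hr, hs, ht, h1, h2, h3, h4⟩ := exists_three n hn
  have hd : ∀ q : ℕ, q.Prime → q ≤ n → q ∣ Nat.card G := fun q hq hqn => by
    obtain ⟨g, hg⟩ : q ∈ Set.range (orderOf : G → ℕ) := h ▸ ⟨hq.one_le, hqn⟩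
    exact hg ▸ orderOf_dvd_natCard g
  have ho : ∀ g : G, orderOf g ≤ n := fun g => (h.le ⟨g, rfl⟩).2
  refine H93.not_isSolvable_of_three_primes hr hs ht h1.ne (h1.trans h2).ne h2.ne
    (hd r hr (by omega)) (hd s hs (by omega)) (hd t ht h3) (fun g hg => ?_) (fun g hg => ?_)
    fun g hg => ?_
  · have := ho g; omega
  · have := ho g; nlinarith
  · have := ho g; nlinarith

end Cfsg.Agent.S4002
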