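import Mathlib
import Cfsg.Statements.S4006
import Cfsg.Agent.FG.H93Small
import Cfsg.Agent.FG.H93Class2

set_option autoImplicit false
open Cfsg

namespace Cfsg.Agent.S4006

open Cfsg.Agent.FG Cfsg.Agent.GT Subgroup

/-- A finite group whose set of element orders is exactly {1, 2, 3, 4} has a normal subgroup N such that either N is a 2-group of exponent 4 and nilpotency class at most 2 with G/N of order 3, or N is an elementary abelian 2-group with G/N isomorphic to the symmetric group of degree 3, or N is an elementary abelian 3-group with G/N cyclic of order 4 or quaternion of order 8. -/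
theorem result {G : Type*} [Group G] [Finite G] (h : Set.range (orderOf : G → ℕ) = {k : ℕ | 1 ≤ k ∧ k ≤ 4}) :
    ∃ (N : Subgroup G) (_ : N.Normal),
      (IsPGroup 2 ↥N ∧ Monoid.exponent ↥N = 4 ∧ Group.nilpotencyClass ↥N ≤ 2 ∧ N.index = 3) ∨
      (Cfsg.IsElementaryAbelian 2 N ∧ Nonempty (G ⧸ N ≃* Equiv.Perm (Fin 3))) ∨
      (Cfsg.IsElementaryAbelian 3 N ∧ ((IsCyclic (G ⧸ N) ∧ N.index = 4) ∨ Nonempty (G ⧸ N ≃* QuaternionGroup 2))) := by
  have hs : H93.Small G := fun g => (h.le ⟨g, rfl⟩).2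
  have hex : ∀ q : ℕ, 1 ≤ q → q ≤ 4 → ∃ g : G, orderOf g = q := fun q hq hqn =>
    (h ▸ ⟨hq, hqn⟩ : q ∈ Set.range (orderOf : G → ℕ))
  have hd : ∀ q : ℕ, 1 ≤ q → q ≤ 4 → q ∣ Nat.card G := fun q hq hqn => by
    obtain ⟨g, hg⟩ := hex q hq hqn
    exact hg ▸ orderOf_dvd_natCard g
  have h2 := hd 2 (by norm_num) (by norm_num)
  have h3 := hd 3 (by norm_num) (by norm_num)
  have hsq' : ∀ {P : Subgroup G}, IsPGroup 2 P → ∀ x ∈ P, x ^ 4 = 1 := fun hP x hx =>
    (hs.pow_eq x).resolve_right fun h4 => by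
      obtain ⟨k, hk⟩ := PG.exists_pow_pow_eq_one_of_mem hP hx
      have := Nat.prime_three.dvd_of_dvd_pow (h4 ▸ orderOf_dvd_of_pow_eq_one hk)
      norm_num at this
  have := hs.isSolvable
  have : Nontrivial G := Finite.one_lt_card_iff_nontrivial.mp (Nat.le_of_dvd Nat.card_pos h2)
  obtain ⟨p, hp, hp0⟩ := exists_pCore_ne_bot G
  obtain ⟨r, hr, hd'⟩ := exists_prime_dvd_card_of_ne_bot hp0
  obtain rfl : r = p := (isPGroup_iff_isPiNum hp).mp (isPGroup_pCore p) r hr hd'
  rcases hs.prime_eq hr (hd'.trans (card_subgroup_dvd_card _)) with rfl | rfl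
  · refine ⟨pCore 2 G, inferInstance, ?_⟩
    have hN := isPGroup_pCore (G := G) 2
    obtain ⟨g, hg, hC, h4 | ⟨t, ht, htg, he⟩⟩ := hs.case_two h3 hp0
    · refine Or.inl ⟨hN, Nat.dvd_antisymm ?_ ?_, ?_, h4⟩
      · exact Monoid.exponent_dvd_of_forall_pow_eq_one fun x => Subtype.ext (hsq' hN x x.2)
      · obtain ⟨x, hx⟩ := hex 4 (by norm_num) le_rfl
        have h5 : x ∈ pCore 2 G := by
          rw [← QuotientGroup.eq_one_iff, ← orderOf_eq_one_iff]
          refine Nat.eq_one_of_dvd_coprimes (by norm_num : Nat.Coprime 4 3)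
            ((orderOf_map_dvd (QuotientGroup.mk' _) x).trans hx.dvd) ?_
          rw [← h4, index_eq_card]; exact orderOf_dvd_natCard _
        rw [← hx, ← orderOf_mk x h5]
        exact Monoid.order_dvd_exponent _
      · have h5 := (H93.fpf_conjNormal (orderOf_dvd_iff_pow_eq_one.mp hg.dvd) hC).class_two
        have := hN.isNilpotent
        exact H93.commutator_le_center_iff_class.mp h5
    · refine Or.inr (Or.inl ⟨H93.elementary_of_s3 hN (orderOf_dvd_iff_pow_eq_one.mp hg.dvd) hC ht htg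
        fun x hx => ?_, he⟩)
      have hT : IsPGroup 2 ↥(zpowers t ⊔ pCore 2 G) := PG.isPGroup_sup_of_le_normalizer
        (H93.isPGroup_zpowers_of_pow (by rwa [pow_two])) hN
        (by rw [normalizer_eq_top]; exact le_top)
      exact hsq' hT _ (mul_mem (mem_sup_right hx) (mem_sup_left (mem_zpowers t)))
  · obtain ⟨S⟩ : Nonempty (Sylow 2 G) := inferInstance
    obtain ⟨h4, -, ⟨e⟩, hf, -⟩ := hs.case_three h2 hp0 S
    refine ⟨pCore 3 G, inferInstance, Or.inr (Or.inr ⟨h4, ?_⟩)⟩
    have hcyc : IsCyclic S → IsCyclic (G ⧸ pCore 3 G) ∧ (pCore 3 G).index = 4 := fun hc => by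
      refine ⟨isCyclic_of_surjective _ e.symm.surjective, ?_⟩
      obtain ⟨x, hx⟩ := hc.exists_ofOrder_eq_natCard
      rw [index_eq_card, Nat.card_congr e.toEquiv]
      refine Nat.dvd_antisymm ?_ (S.pow_dvd_card_of_pow_dvd_card (n := 2) (hd 4 (by norm_num) le_rfl))
      rw [← hx, orderOf_dvd_iff_pow_eq_one]
      exact Subtype.ext (hsq' S.isPGroup' x x.2)
    rcases hf.isCyclic_or_quaternion S.isPGroup' with hc | ⟨-, n, ⟨e'⟩⟩
    · exact Or.inl (hcyc hc)
    · have h5 := hs (e'.symm (QuaternionGroup.a 1))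
      rw [orderOf_coe, MulEquiv.orderOf_eq, QuaternionGroup.orderOf_a_one] at h5
      rcases n with _ | _ | n
      · have := QuaternionGroup.quaternionGroup_one_isCyclic
        exact Or.inl (hcyc (isCyclic_of_surjective _ e'.symm.surjective))
      · exact Or.inr ⟨e.trans e'⟩
      · have : 0 < 2 ^ n := by positivity
        rw [pow_succ, pow_succ] at h5
        omega

end Cfsg.Agent.S4006
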