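import Cfsg.Statements.S4202
import Cfsg.Agent.MK.Main

set_option autoImplicit false
open Cfsg

namespace Cfsg.Agent.S4202

/-- Let S be a permutation group on a finite set with n ≥ 3 elements (a subgroup of its symmetric group) whose order is not divisible by p, where p is one of 3, 5, 7. Then the number k(S) of conjugacy classes of S satisfies k(S)² ≤ 3^(n−1), that is k(S) ≤ √3^(n−1). -/
theorem result {α : Type*} [Fintype α] [DecidableEq α] (S : Subgroup (Equiv.Perm α)) (hn : 3 ≤ Fintype.card α) (p : ℕ) (hp : p = 3 ∨ p = 5 ∨ p = 7) (hcop : ¬ p ∣ Nat.card S) : Nat.card (ConjClasses S) ^ 2 ≤ 3 ^ (Fintype.card α - 1) := by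
  have h := (MK.main (α := α) _ S rfl).trans (MK.Phi_univ_le (MK.cl_ob _))
  rw [MK.be, if_neg (by omega)] at h
  have h2 : ((Nat.card (ConjClasses S) : ℕ) : ℝ) ^ 2 ≤ (√3 ^ (Fintype.card α - 1)) ^ 2 :=
    pow_le_pow_left₀ (Nat.cast_nonneg _) h 2
  rw [← pow_mul, mul_comm, pow_mul, Real.sq_sqrt (by norm_num)] at h2
  exact_mod_cast h2

end Cfsg.Agent.S4202
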