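import Mathlib
import Cfsg.Agent.GT.Huppert
import Cfsg.Agent.Ch.Burnside
import Cfsg.Statements.S4203
-- import your own Cfsg.Agent.* helpers here

set_option autoImplicit false
open Cfsg

namespace Cfsg.Agent.S4203

open Subgroup Cfsg.Agent.GT Cfsg.Agent.GT.SS

universe u

theorem aux (G : Type u) [Group G] [Finite G] :
    (∀ M : Subgroup G, IsCoatom M → ∃ p : ℕ, p.Prime ∧ (M.index = p ∨ M.index = p ^ 2)) →
      Group.IsSolvable G := by
  refine GT.card_induction (P := fun G _ _ =>
    (∀ M : Subgroup G, IsCoatom M → ∃ p : ℕ, p.Prime ∧ (M.index = p ∨ M.index = p ^ 2)) →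
      Group.IsSolvable G) (fun G _ _ ih h => ?_) G
  rcases subsingleton_or_nontrivial G with _ | _
  · infer_instance
  obtain ⟨p, hp, hd, hmax⟩ := exists_max_prime G
  have := Fact.mk hp
  obtain ⟨P⟩ := (inferInstance : Nonempty (Sylow p G))
  by_cases hn : (P : Subgroup G).Normal
  · have := ih (G ⧸ (P : Subgroup G)) (card_quotient_lt (P.ne_bot_of_dvd_card hd)) (fun M hM => by
      have := h _ (SS.isCoatom_comap_of_surjective (QuotientGroup.mk'_surjective (P : Subgroup G)) hM)
      rwa [index_comap_of_surjective _ (QuotientGroup.mk'_surjective (P : Subgroup G))] at this)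
    have := P.2.isNilpotent
    exact Group.isSolvable_of_ker_le_range (P : Subgroup G).subtype
      (QuotientGroup.mk' (P : Subgroup G)) (by simp)
  obtain ⟨M, hM, hle⟩ := exists_isCoatom_ge (H := normalizer (P : Set G))
    fun e => hn (normalizer_eq_top_iff.1 e)
  have h1 := index_modEq_one_of_normalizer_sylow_le P hle
  obtain ⟨q, hq, hi⟩ := h M hM
  have hq2 := hq.two_le
  have hqd : q ∣ Nat.card G := by
    refine dvd_trans ?_ M.index_dvd_card
    rcases hi with e | e <;> rw [e]
    exact dvd_pow_self q two_ne_zero
  have h2 := hmax q hq hqd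
  rcases hi with e | e
  · rw [e] at h1
    have h4 := (Nat.modEq_iff_dvd' hq.one_lt.le).1 h1.symm
    have := Nat.le_of_dvd (by omega) h4
    omega
  · rw [e] at h1
    have h4 := (Nat.modEq_iff_dvd' (Nat.one_le_pow _ _ hq.pos)).1 h1.symm
    have h5 : q ^ 2 - 1 = (q + 1) * (q - 1) := by
      have := Nat.sq_sub_sq q 1
      simpa using this
    rw [h5] at h4
    rcases (Nat.Prime.dvd_mul hp).1 h4 with h6 | h6
    · have h7 := Nat.le_of_dvd (by omega) h6
      have h8 : p = q + 1 := by
        rcases Nat.lt_or_ge q p with h | h
        · omega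
        · have : p = q := by omega
          subst this
          have := (Nat.dvd_add_right (dvd_refl p)).1 h6
          have := Nat.le_of_dvd one_pos this
          omega
      have hq2' : q = 2 := by
        rcases hq.eq_two_or_odd' with h | h
        · exact h
        · rcases hp.eq_two_or_odd' with h' | h'
          · omega
          · obtain ⟨a, ha⟩ := h
            obtain ⟨b, hb⟩ := h'
            omega
      refine Ch.burnside_isSolvable_of_primes (p := 2) (q := 3) Nat.prime_three fun r hr hrd => ?_
      have := hmax r hr hrd
      have := hr.two_le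
      omega
    · have := Nat.le_of_dvd (by omega) h6
      omega

/-- A finite group in which every maximal subgroup has index a prime or the square of a prime is solvable. -/
theorem result {G : Type*} [Group G] [Finite G] (h : ∀ M : Subgroup G, IsCoatom M → ∃ p : ℕ, p.Prime ∧ (M.index = p ∨ M.index = p ^ 2)) : Group.IsSolvable G := by
  exact aux G h

end Cfsg.Agent.S4203
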