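import Mathlib
import Cfsg.Statements.S4205

set_option autoImplicit false
open Cfsg

namespace Cfsg.Agent.S4205

/-- In a finite group whose upper central series reaches the whole group at step `c` (nilpotent of class at most `c`), starting from any subgroup and taking normalizers `c` times reaches the whole group. -/
theorem result {G : Type*} [Group G] [Finite G] (c : ℕ) (hG : Subgroup.upperCentralSeries G c = ⊤) (H : Subgroup G) : (fun K : Subgroup G => Subgroup.normalizer (K : Set G))^[c] H = ⊤ := by
  have key : ∀ n, Subgroup.upperCentralSeries G n ⊔ H ≤
      (fun K : Subgroup G => Subgroup.normalizer (K : Set G))^[n] H := by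
    intro n
    induction n with
    | zero => simp
    | succ n ih =>
      rw [Function.iterate_succ_apply']
      apply sup_le
      · rw [Subgroup.le_normalizer_iff_commutator_le_right, Subgroup.commutator_le]
        intro x hx y _
        exact ih (Subgroup.mem_sup_left (Subgroup.mem_upperCentralSeries_succ_iff.1 hx y))
      · exact (le_sup_right.trans ih).trans Subgroup.le_normalizer
  rw [eq_top_iff]
  refine le_trans ?_ (key c)
  rw [hG]; exact le_sup_left

end Cfsg.Agent.S4205
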