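import Mathlib
import Cfsg.Statements.S4212
import Cfsg.Agent.Ch.FrobeniusCount
import Cfsg.Agent.Ch.Orthogonality

set_option autoImplicit false
open Cfsg

namespace Cfsg.Agent.S4212

/-- Let `G` be a finite group of order `g`, `c` an element whose conjugacy class has `h` elements, and `n` a natural number. Then the number of elements `x` of `G` with `x^n` conjugate to `c` is a multiple of `gcd(hn, g)`. -/
theorem result {G : Type*} [Group G] [Finite G] (c : G) (n : ℕ) : Nat.gcd (Nat.card {y : G // IsConj c y} * n) (Nat.card G) ∣ Nat.card {x : G // IsConj c (x ^ n)} := by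
  classical
  have h1 : Nat.card {x : G // IsConj c (x ^ n)} =
      Nat.card {y : G // IsConj c y} * Nat.card {x : G // x ^ n = c} := by
    have := Fintype.ofFinite {y : G // IsConj c y}
    have e : {x : G // IsConj c (x ^ n)} ≃ Σ y : {y : G // IsConj c y}, {x : G // x ^ n = y} :=
      ⟨fun x => ⟨⟨x.1 ^ n, x.2⟩, x.1, rfl⟩, fun z => ⟨z.2.1, by rw [z.2.2]; exact z.1.2⟩,
        fun _ => rfl, by rintro ⟨⟨y, hy⟩, x, hx⟩; have : x ^ n = y := hx; subst this; rfl⟩
    rw [Nat.card_congr e, Nat.card_sigma]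
    have h3 : ∀ y : {y : G // IsConj c y},
        Nat.card {x : G // x ^ n = y} = Nat.card {x : G // x ^ n = c} := by
      rintro ⟨y, hy⟩
      obtain ⟨g, rfl⟩ := isConj_iff.mp hy
      refine Nat.card_congr ⟨fun x => ⟨g⁻¹ * x * g⁻¹⁻¹, ?_⟩, fun x => ⟨g * x * g⁻¹, ?_⟩,
        fun x => ?_, fun x => ?_⟩
      · rw [conj_pow, x.2]; group
      · rw [conj_pow, x.2]
      · ext; simp [mul_assoc]
      · ext; simp [mul_assoc]
    simp only [h3, Finset.sum_const, Finset.card_univ, smul_eq_mul, Nat.card_eq_fintype_card]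
  have h2 := Ch.card_isConj_mul_card_centralizer c
  rw [h1, ← h2, Nat.gcd_mul_left]
  exact Nat.mul_dvd_mul_left _
    (Ch.dvd_card_pow_eq c (Nat.gcd_dvd_right _ _) (Nat.gcd_dvd_left _ _))

end Cfsg.Agent.S4212
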