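import Mathlib
import Cfsg.Agent.GT.MinNormal
import Cfsg.Agent.Ch.FrobeniusCount
import Cfsg.Agent.GT.SchurZassenhaus
import Cfsg.Agent.GT.Conj
import Cfsg.Agent.GT.PGroupElemAb
import Cfsg.Statements.S4213
-- import your own Cfsg.Agent.* helpers here

set_option autoImplicit false
open Cfsg

namespace Cfsg.Agent.S4213

open Subgroup Cfsg.Agent.GT

universe u

theorem pos_sol {G : Type*} [Group G] [Finite G] (n : ℕ) : 0 < Nat.card {x : G // x ^ n = 1} :=
  Nat.card_pos_iff.2 ⟨⟨⟨1, one_pow _⟩⟩, inferInstance⟩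

theorem card_comap {G : Type*} [Group G] (N : Subgroup G) [N.Normal] (H : Subgroup (G ⧸ N)) :
    Nat.card (H.comap (QuotientGroup.mk' N)) = Nat.card N * Nat.card H :=
  QuotientGroup.card_preimage_mk N (H : Set (G ⧸ N))

theorem aux (G : Type u) [Group G] [Finite G] [Group.IsSolvable G] :
    ∀ n : ℕ, n ∣ Nat.card G → Nat.card {x : G // x ^ n = 1} = n →
      ∃ H : Subgroup G, Nat.card H = n := by
  refine solvable_induction (P := fun G _ _ _ => ∀ n : ℕ, n ∣ Nat.card G →
    Nat.card {x : G // x ^ n = 1} = n → ∃ H : Subgroup G, Nat.card H = n)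
    (fun G _ _ _ _ n hn _ => ?_) (fun G _ _ _ N _ p hp hN hel ih n hn hc => ?_) G
  · rw [Nat.card_of_subsingleton (1 : G), Nat.dvd_one] at hn
    exact ⟨⊥, by rw [card_bot, hn]⟩
  have := Fact.mk hp
  have hG := card_eq_card_quotient_mul_card_subgroup N
  obtain ⟨a, ha⟩ := hel.card_eq_pow
  have hn0 : 0 < n := Nat.pos_of_dvd_of_pos hn Nat.card_pos
  by_cases hpn : p ∣ n
  · have hpN : p ∣ Nat.card N := by
      rw [ha]
      refine dvd_pow_self p ?_
      rintro rfl
      exact hN.ne_bot (card_eq_one.1 ha)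
    obtain ⟨u, v, huv, hu, hv⟩ := Nat.exists_coprime n (Nat.card N)
    set g := n.gcd (Nat.card N) with hg
    have hg0 : 0 < g := Nat.gcd_pos_of_pos_left _ hn0
    have h1 : u ∣ Nat.card (G ⧸ N) := by
      refine huv.dvd_of_dvd_mul_right (Nat.dvd_of_mul_dvd_mul_right hg0 ?_)
      rw [← hu, mul_assoc, ← hv, ← hG]
      exact hn
    obtain ⟨k, hk⟩ := Ch.dvd_card_pow_eq_one h1 (dvd_refl u)
    have h2 : Nat.card N * Nat.card {z : G ⧸ N // z ^ u = 1} ≤ n := by
      rw [← hc]
      refine (QuotientGroup.card_preimage_mk N {z : G ⧸ N | z ^ u = 1}).ge.trans ?_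
      refine Nat.card_le_card_of_injective (fun x => ⟨x.1, ?_⟩)
        fun x y h => Subtype.ext (congrArg (fun z : {x : G // x ^ n = 1} => z.1) h)
      have h3 : x.1 ^ u ∈ N := (QuotientGroup.eq_one_iff _).1 x.2
      obtain ⟨c, hc⟩ := Nat.dvd_gcd hpn hpN
      rw [hu, ← hg] at *
      rw [hc, pow_mul, pow_mul, hel.2 _ h3, one_pow]
    have hk0 : 0 < k := by
      have := pos_sol (G := G ⧸ N) u
      rw [hk] at this
      exact Nat.pos_of_mul_pos_left this
    have hu0 : 0 < u := Nat.pos_of_dvd_of_pos h1 Nat.card_pos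
    have hv0 : 0 < v := by
      have : 0 < Nat.card N := Nat.card_pos
      rw [hv] at this
      exact Nat.pos_of_mul_pos_right this
    have h4 : v * k = 1 := by
      rw [hk, hv] at h2
      have h5 : (u * g) * (v * k) ≤ (u * g) * 1 := by
        rw [mul_one, ← hu]
        calc n * (v * k) = v * g * (u * k) := by rw [hu]; ring
          _ ≤ n := h2
      have := Nat.le_of_mul_le_mul_left h5 (Nat.mul_pos hu0 hg0)
      have := Nat.mul_pos hv0 hk0
      omega
    obtain ⟨H, hH⟩ := ih u h1 (by rw [hk, Nat.eq_one_of_mul_eq_one_left h4, mul_one])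
    refine ⟨H.comap (QuotientGroup.mk' N), ?_⟩
    rw [card_comap, hH, hv, Nat.eq_one_of_mul_eq_one_right h4, one_mul, mul_comm, ← hu]
  · have hcop : n.Coprime p := ((Nat.Prime.coprime_iff_not_dvd hp).2 hpn).symm
    have hcop' : n.Coprime (Nat.card N) := ha ▸ hcop.pow_right a
    have h1 : n ∣ Nat.card (G ⧸ N) := hcop'.dvd_of_dvd_mul_right (hG ▸ hn)
    have h2 : Nat.card {z : G ⧸ N // z ^ n = 1} ≤ n := by
      refine le_trans (Nat.card_le_card_of_surjective (fun x : {x : G // x ^ n = 1} =>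
        (⟨(x.1 : G ⧸ N), by rw [← QuotientGroup.mk_pow, x.2]; rfl⟩ :
          {z : G ⧸ N // z ^ n = 1})) ?_) hc.le
      rintro ⟨z, hz⟩
      obtain ⟨y, rfl⟩ := QuotientGroup.mk_surjective z
      have h3 : y ^ n ∈ N := (QuotientGroup.eq_one_iff _).1 hz
      obtain ⟨b, -, hb⟩ := Nat.exists_mul_mod_eq_of_coprime 1 hcop.symm hn0.ne'
      refine ⟨⟨y ^ (p * b), ?_⟩, Subtype.ext ?_⟩
      · rw [← pow_mul, mul_comm, pow_mul, pow_mul, hel.2 _ h3, one_pow]
      · change ((y ^ (p * b) : G) : G ⧸ N) = y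
        rw [QuotientGroup.mk_pow, pow_eq_pow_mod _ hz, hb, ← pow_eq_pow_mod _ hz, pow_one]
    obtain ⟨H, hH⟩ := ih n h1 (le_antisymm h2
      (Nat.le_of_dvd (pos_sol n) (Ch.dvd_card_pow_eq_one h1 (dvd_refl n))))
    have h3 : N.relIndex (H.comap (QuotientGroup.mk' N)) = n := by
      have := HT.card_mul_relIndex (le_comap_mk' H)
      rw [card_comap, hH] at this
      exact Nat.eq_of_mul_eq_mul_left Nat.card_pos this
    obtain ⟨L, -, -, -, hL⟩ := exists_complement_of_coprime_relIndex (le_comap_mk' H)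
      (by rw [normalizer_eq_top]; exact le_top) (h3 ▸ hcop'.symm)
    exact ⟨L, hL.trans h3⟩

/-- If `G` is a finite solvable group and `n` divides the order of `G` and exactly `n` elements `x` of `G` satisfy `x^n = 1`, then these elements form a normal subgroup. -/
theorem result {G : Type*} [Group G] [Finite G] [Group.IsSolvable G] (n : ℕ) (hn : n ∣ Nat.card G) (hcount : Nat.card {x : G // x ^ n = 1} = n) : ∃ H : Subgroup G, H.Normal ∧ (H : Set G) = {x : G | x ^ n = 1} := by
  obtain ⟨H, hH⟩ := aux G n hn hcount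
  have h : (H : Set G) = {x : G | x ^ n = 1} := by
    refine Set.eq_of_subset_of_ncard_le (fun x hx => ?_) ?_
    · have := pow_card_eq_one' (x := (⟨x, hx⟩ : H))
      rw [hH] at this
      exact congrArg Subtype.val this
    · rw [← Nat.card_coe_set_eq, ← Nat.card_coe_set_eq]
      exact (hcount.trans hH.symm).le
  refine ⟨H, ⟨fun x hx g => ?_⟩, h⟩
  have h1 : x ∈ {x : G | x ^ n = 1} := h ▸ hx
  have h2 : g * x * g⁻¹ ∈ {x : G | x ^ n = 1} := by
    change _ = _ at h1 ⊢
    rw [conj_pow, h1]; simp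
  rwa [← h] at h2

end Cfsg.Agent.S4213
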