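import Mathlib
import Cfsg.Agent.GT.MinNormal
import Cfsg.Agent.GT.HallCoprime
import Cfsg.Agent.GT.Conj
import Cfsg.Agent.GT.PGroupElemAb
import Cfsg.Agent.GT.Cores
import Cfsg.Statements.S4214
-- import your own Cfsg.Agent.* helpers here

set_option autoImplicit false
open Cfsg

namespace Cfsg.Agent.S4214

open Subgroup Cfsg.Agent.GT Cfsg.Agent.GT.HT Pointwise

universe u

theorem cent_mem {G : Type*} [Group G] [Finite G] (V H : Subgroup G) :
    Group.IsSolvable H → H ≤ normalizer (V : Set G) → (Nat.card H).Coprime (Nat.card V) →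
    (centralizer (H : Set G)).relIndex V ∈ Submonoid.closure
      {x : ℕ | x ∣ Nat.card V ∧ ∃ q : ℕ, q.Prime ∧ q ∣ Nat.card H ∧ x ≡ 1 [MOD q]} := by
  refine subgroup_lt_induction (P := fun H => Group.IsSolvable H → H ≤ normalizer (V : Set G) →
    (Nat.card H).Coprime (Nat.card V) → (centralizer (H : Set G)).relIndex V ∈ Submonoid.closure
      {x : ℕ | x ∣ Nat.card V ∧ ∃ q : ℕ, q.Prime ∧ q ∣ Nat.card H ∧ x ≡ 1 [MOD q]})
    (fun H ih hs hHV hcop => ?_) H
  by_cases h1 : H = ⊥
  · rw [h1, centralizer_bot, relIndex_top_left]; exact one_mem _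
  have : Nontrivial H := (nontrivial_iff_ne_bot H).2 h1
  obtain ⟨M₀, hM₀, hq⟩ := exists_normal_index_prime H
  set q := M₀.index with hqd
  have := Fact.mk hq
  set M := M₀.map H.subtype with hM
  have hMH : M ≤ H := map_subtype_le _
  have hrel : M.relIndex H = q := by rw [relIndex, hM, subgroupOf_map_subtype_self]
  have hlt : M < H := lt_of_le_of_ne hMH fun e => by
    rw [e, relIndex_self] at hrel
    exact hq.one_lt.ne hrel
  have hqH : q ∣ Nat.card H := M₀.index_dvd_card
  obtain ⟨Q, hQH, hQ, hQi⟩ := exists_sylow_le q H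
  have hsup : M ⊔ Q = H := sup_eq_of_coprime_relIndex hMH hQH
    (hrel ▸ (Nat.Prime.coprime_iff_not_dvd hq).2 hQi)
  set W := V ⊓ centralizer (M : Set G) with hW
  have hQW : Q ≤ normalizer (W : Set G) := hQH.trans (PG.le_normalizer_inf hHV
    (PG.le_normalizer_centralizer (le_normalizer_map_subtype H M₀)))
  have h2 := card_modEq_card_inf_centralizer hQ hQW
  have h3 : W ⊓ centralizer (Q : Set G) = V ⊓ centralizer (H : Set G) := by
    rw [← hsup, centralizer_sup, hW, inf_assoc]
  rw [h3] at h2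
  have hle : V ⊓ centralizer (H : Set G) ≤ W := h3 ▸ inf_le_left
  have h4 := relIndex_mul_relIndex _ _ _ hle (inf_le_left : W ≤ V)
  rw [inf_relIndex_left V (centralizer (H : Set G)),
    show W.relIndex V = _ from inf_relIndex_left V (centralizer (M : Set G))] at h4
  rw [← h4]
  refine mul_mem (Submonoid.subset_closure ⟨?_, q, hq, hqH, ?_⟩)
    (Submonoid.closure_mono ?_ (ih M hlt (HT.isSolvable_of_le hMH hs) (hMH.trans hHV)
      (hcop.coprime_dvd_left (card_dvd_of_le hMH))))
  · exact (relIndex_dvd_card _ _).trans (card_dvd_of_le inf_le_left)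
  · rw [← HT.card_mul_relIndex hle] at h2
    refine Nat.ModEq.cancel_left_of_coprime (c := Nat.card ↥(V ⊓ centralizer (H : Set G))) ?_
      (by rwa [mul_one])
    exact (hcop.coprime_dvd_left hqH).coprime_dvd_right (card_dvd_of_le inf_le_left)
  · rintro x ⟨hx, r, hr, hrd, hx1⟩
    exact ⟨hx, r, hr, hrd.trans (card_dvd_of_le hMH), hx1⟩

/-- admissible factors -/
def Ok (G : Type*) [Group G] (m x : ℕ) : Prop :=
  (∃ q e : ℕ, q.Prime ∧ x = q ^ e) ∧ (∃ K L : Subgroup G, K.Normal ∧ L.Normal ∧ K < L ∧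
    (∀ M : Subgroup G, M.Normal → K ≤ M → M ≤ L → M = K ∨ M = L) ∧ x ∣ K.relIndex L) ∧
    (∃ q : ℕ, q.Prime ∧ q ∣ m ∧ x ≡ 1 [MOD q])

theorem Ok.lift {G : Type*} [Group G] {N : Subgroup G} [N.Normal] {m m' x : ℕ} (hm : m' ∣ m)
    (h : Ok (G ⧸ N) m' x) : Ok G m x := by
  obtain ⟨h1, ⟨K, L, hK, hL, hKL, hmax, hx⟩, q, hq, hqm, hx1⟩ := h
  refine ⟨h1, ⟨K.comap (QuotientGroup.mk' N), L.comap (QuotientGroup.mk' N), inferInstance,
    inferInstance, (comap_lt_comap_of_surjective (QuotientGroup.mk'_surjective N)).2 hKL,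
    fun M hM h2 h3 => ?_, ?_⟩, q, hq, hqm.trans hm, hx1⟩
  · have h4 : (M.map (QuotientGroup.mk' N)).comap (QuotientGroup.mk' N) = M := by
      rw [comap_map_mk', sup_eq_left.2 ((le_comap_mk' K).trans h2)]
    rw [← h4]
    rcases hmax (M.map (QuotientGroup.mk' N)) (normal_map_mk' M)
      (by rw [← map_comap_mk' K]; exact map_mono h2) (map_le_iff_le_comap.2 h3) with h | h <;>
      simp [h]
  · rwa [relIndex_comap, map_comap_mk']

theorem aux (G : Type u) [Group G] [Finite G] [Group.IsSolvable G] :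
    ∀ H : Subgroup G, (Nat.card H).Coprime H.index →
      (normalizer (H : Set G)).index ∈ Submonoid.closure {x | Ok G (Nat.card H) x} := by
  refine solvable_induction (P := fun G _ _ _ => ∀ H : Subgroup G, (Nat.card H).Coprime H.index →
      (normalizer (H : Set G)).index ∈ Submonoid.closure {x | Ok G (Nat.card H) x})
    (fun G _ _ _ _ H _ => ?_) (fun G _ _ _ N _ p hp hN hel ih H hH => ?_) G
  · rw [Subsingleton.elim (normalizer (H : Set G)) ⊤, index_top]; exact one_mem _
  have := Fact.mk hp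
  have hc := card_map_dvd H (QuotientGroup.mk' N)
  have h1 := ih (H.map (QuotientGroup.mk' N)) ((hH.coprime_dvd_left hc).coprime_dvd_right
    (index_map_dvd H (QuotientGroup.mk'_surjective N)))
  rw [← index_comap_of_surjective _ (QuotientGroup.mk'_surjective N),
    comap_normalizer_map_mk'] at h1
  have hNN : ∀ X : Subgroup G, X ≤ normalizer (N : Set G) := fun X => by
    rw [normalizer_eq_top]; exact le_top
  have hle : normalizer (H : Set G) ≤ normalizer ((H ⊔ N : Subgroup G) : Set G) :=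
    PG.le_normalizer_sup le_rfl (hNN _)
  have h2 : normalizer (H : Set G) ⊔ N = normalizer ((H ⊔ N : Subgroup G) : Set G) := by
    have := (isPiHallOf_of_coprime (le_sup_left : H ≤ H ⊔ N)
      (hH.coprime_dvd_right (relIndex_dvd_index_of_le le_sup_left))).sup_inf_normalizer
      inferInstance le_normalizer le_rfl
    rw [← this, inf_eq_right.2 hle, sup_comm H N, sup_assoc, sup_eq_right.2 le_normalizer,
      sup_comm]
  have h3 := relIndex_mul_index hle
  rw [← h3]
  refine mul_mem ?_ (Submonoid.closure_mono (fun x hx => Ok.lift hc hx) h1)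
  have h4 : (normalizer (H : Set G)).relIndex (normalizer ((H ⊔ N : Subgroup G) : Set G)) =
      (normalizer (H : Set G)).relIndex N := by
    rw [← h2, relIndex_sup_of_le_normalizer_left (hNN _)]
  obtain ⟨a, ha⟩ := hel.card_eq_pow
  by_cases hpH : p ∣ Nat.card H
  · have h5 : (normalizer (H : Set G)).relIndex (normalizer ((H ⊔ N : Subgroup G) : Set G)) ∣
        H.index := (Dvd.intro _ h3).trans (index_dvd_of_le le_normalizer)
    rw [h4] at h5 ⊢
    rw [Nat.eq_one_of_dvd_coprimes ((hH.coprime_dvd_left hpH).pow_left a)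
      (ha ▸ relIndex_dvd_card _ _) h5]
    exact one_mem _
  · have hcop : (Nat.card H).Coprime (Nat.card N) :=
      ha ▸ ((Nat.Prime.coprime_iff_not_dvd hp).2 hpH).symm.pow_right a
    have h5 : N ⊓ normalizer (H : Set G) = N ⊓ centralizer (H : Set G) := by
      refine le_antisymm (fun x hx => ⟨hx.1, ?_⟩)
        (inf_le_inf_left _ (PG.centralizer_le_normalizer' H))
      exact mem_centralizer_of_conj_smul_le (hNN H) (disjoint_iff.2
        (inf_eq_bot_of_coprime hcop.symm)) hx.1 (conj_smul_eq_iff.2 hx.2).le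
    rw [h4, ← inf_relIndex_left, h5, inf_relIndex_left]
    refine Submonoid.closure_mono ?_ (cent_mem N H inferInstance (hNN H) hcop)
    rintro x ⟨hx, hx1⟩
    obtain ⟨e, -, he⟩ := (Nat.dvd_prime_pow hp).1 (ha ▸ hx)
    refine ⟨⟨p, e, hp, he⟩, ⟨⊥, N, inferInstance, inferInstance, bot_lt_iff_ne_bot.2 hN.ne_bot,
      fun M hM _ h => hN.eq_bot_or_eq h, by rwa [relIndex_bot_left]⟩, hx1⟩

/-- Let `G` be a finite solvable group of order `mn` with `gcd(m, n) = 1`. Then the number of subgroups of order `m` is a product of natural numbers each of which is a power of a prime, divides the order of some chief factor of `G` (a quotient `L/K` of normal subgroups `K < L` of `G` with no normal subgroup of `G` strictly between them), and is congruent to `1` modulo some prime divisor of `m`. -/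
theorem result {G : Type*} [Group G] [Finite G] [Group.IsSolvable G] (m n : ℕ) (hG : Nat.card G = m * n) (hmn : Nat.Coprime m n) : ∃ (k : ℕ) (f : Fin k → ℕ), Nat.card {H : Subgroup G // Nat.card H = m} = ∏ i, f i ∧ ∀ i, (∃ q e : ℕ, q.Prime ∧ f i = q ^ e) ∧ (∃ K L : Subgroup G, K.Normal ∧ L.Normal ∧ K < L ∧ (∀ M : Subgroup G, M.Normal → K ≤ M → M ≤ L → M = K ∨ M = L) ∧ f i ∣ K.relIndex L) ∧ (∃ q : ℕ, q.Prime ∧ q ∣ m ∧ f i ≡ 1 [MOD q]) := by
  obtain ⟨H, hH⟩ := exists_isPiHall {p | p ∣ m} G
  have hm := (isPiHall_iff_card_eq hG hmn).1 hH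
  have hi : H.index = n := by
    have := H.card_mul_index
    rw [hG, hm] at this
    exact Nat.eq_of_mul_eq_mul_left (hm ▸ Nat.card_pos) this
  have h1 := aux G H (by rwa [hm, hi])
  have h2 : Nat.card {H : Subgroup G // Nat.card H = m} = (normalizer (H : Set G)).index := by
    let _ : MulAction G (Subgroup G) := MulAction.compHom _ (MulAut.conj : G →* MulAut G)
    have h3 : MulAction.stabilizer G H = normalizer (H : Set G) := by
      ext g; exact conj_smul_eq_iff
    rw [← h3, MulAction.index_stabilizer, ← Nat.card_coe_set_eq]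
    refine Nat.card_congr (Equiv.subtypeEquivRight fun K => ⟨fun hK => ?_, ?_⟩)
    · exact hH.exists_conj_eq ((isPiHall_iff_card_eq hG hmn).2 hK)
    · rintro ⟨g, rfl⟩
      exact (card_conj_smul g H).trans hm
  obtain ⟨l, hl, hp⟩ := Submonoid.exists_list_of_mem_closure h1
  refine ⟨l.length, l.get, ?_, fun i => ?_⟩
  · rw [h2, ← hp, ← List.prod_ofFn, List.ofFn_get]
  · have := hl _ (List.get_mem l i)
    rw [hm] at this
    exact this

end Cfsg.Agent.S4214
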