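import Mathlib
import Cfsg.Statements.S4216
import Cfsg.Agent.GT.TransferChains
-- import your own Cfsg.Agent.* helpers here

set_option autoImplicit false
open Cfsg

namespace Cfsg.Agent.S4216

open Cfsg.Agent.GT.Tr
open scoped commutatorElement

/-- Grün's first Theorem: if `P` is a Sylow `p`-subgroup of the finite group `G`, then `P ∩ G'` is the subgroup generated by `P ∩ N_G(P)'` together with the subgroups `P ∩ z P' z⁻¹` for all `z ∈ G`, where `'` denotes the derived subgroup and `N_G(P)` the normalizer of `P`. -/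
theorem result {G : Type*} [Group G] [Finite G] {p : ℕ} [Fact p.Prime] (P : Sylow p G) : (P : Subgroup G) ⊓ commutator G = ((P : Subgroup G) ⊓ ⁅Subgroup.normalizer ((P : Subgroup G) : Set G), Subgroup.normalizer ((P : Subgroup G) : Set G)⁆) ⊔ ⨆ z : G, (P : Subgroup G) ⊓ (⁅(P : Subgroup G), (P : Subgroup G)⁆).map (MulAut.conj z).toMonoidHom := by
  refine le_antisymm ?_ (sup_le ?_ (iSup_le fun z => ?_))
  · rw [inf_comm (P : Subgroup G) (commutator G), Subgroup.commutator_inf_eq_focalSubgroup]
    set K := ((P : Subgroup G) ⊓ ⁅Subgroup.normalizer ((P : Subgroup G) : Set G),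
      Subgroup.normalizer ((P : Subgroup G) : Set G)⁆) ⊔ _ with hK
    have key : ∀ x y : G, x⁻¹ * (y * x * y⁻¹) = ⁅x⁻¹, y⁆ := fun x y => by
      rw [commutatorElement_def]; group
    refine focalSubgroup_le_iff.2 fun x hx g hg => ?_
    refine alperin_induction_tame P (fun A g => ∀ a ∈ A, a⁻¹ * (g * a * g⁻¹) ∈ K)
      (fun A D g hAD h a ha => h a (hAD ha)) (fun A g h h1 h2 a ha => ?_)
      (fun A g h1 => ?_) (fun n hn a ha => ?_) (fun Q B hB hlt h1 h2 y hy hk a ha => ?_)
      (Subgroup.zpowers x) (Subgroup.zpowers_le.2 hx) g ?_ x (Subgroup.mem_zpowers x)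
    · convert mul_mem (h1 a ha) (h2 _ (conj_mem_map_conj.2 ha)) using 1
      group
    · rintro _ ⟨a, ha, rfl⟩
      convert inv_mem (h1 a ha) using 1
      simp only [MulEquiv.coe_toMonoidHom, MulAut.conj_apply]
      group
    · refine Subgroup.mem_sup_left (Subgroup.mem_inf.2
        ⟨mul_mem (inv_mem ha) (conj_mem_of_mem_normalizer hn ha), ?_⟩)
      rw [key]
      exact Subgroup.commutator_mem_commutator (Subgroup.le_normalizer (inv_mem ha)) hn
    · obtain ⟨k, hk⟩ := hk
      have h3 : IsPGroup p (B ⊔ Subgroup.zpowers y : Subgroup G) :=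
        (P.2.to_le hlt.le).to_sup_of_normal_left'
          (IsPGroup.of_card ((Nat.card_zpowers y).trans hk)) (Subgroup.zpowers_le.2 hy)
      obtain ⟨z, hz⟩ := exists_conj_le_sylow P h3
      refine Subgroup.mem_sup_right (Subgroup.mem_iSup_of_mem z⁻¹ (Subgroup.mem_inf.2
        ⟨hlt.le (mul_mem (inv_mem ha) (conj_mem_of_mem_normalizer hy ha)), ?_⟩))
      rw [mem_map_conj]
      convert Subgroup.commutator_mem_commutator (hz _ (Subgroup.mem_sup_left (inv_mem ha)))
        (hz _ (Subgroup.mem_sup_right (Subgroup.mem_zpowers y))) using 1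
      rw [commutatorElement_def]; group
    · rintro _ ⟨k, rfl⟩
      have := zpow_mem hg k
      rwa [conj_zpow] at this
  · exact inf_le_inf_left _ (Subgroup.commutator_mono le_top le_top)
  · refine inf_le_inf_left _ ?_
    rw [Subgroup.map_commutator]
    exact Subgroup.commutator_mono le_top le_top

end Cfsg.Agent.S4216
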