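import Mathlib
import Cfsg.Statements.S4217
import Cfsg.Agent.GT.SchurZassenhaus
-- import your own Cfsg.Agent.* helpers here

set_option autoImplicit false
open Cfsg

namespace Cfsg.Agent.S4217

/-- Let `A` be an abelian normal subgroup of the finite group `G`. Then `A` has a complement in `G` if and only if, for every prime `p` dividing the index of `A`, there are a Sylow `p`-subgroup `S` of `G/A` and a subgroup `K` of `G` with `K ∩ A = 1` and `KA` equal to the preimage of `S` (that is, `A` has a complement in the preimage of a Sylow `p`-subgroup of `G/A`). -/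
theorem result {G : Type*} [Group G] [Finite G] (A : Subgroup G) [A.Normal] (hA : IsMulCommutative A) : (∃ K : Subgroup G, K.IsComplement' A) ↔ ∀ p : ℕ, p.Prime → p ∣ A.index → ∃ (S : Sylow p (G ⧸ A)) (K : Subgroup G), K ⊓ A = ⊥ ∧ K ⊔ A = (S : Subgroup (G ⧸ A)).comap (QuotientGroup.mk' A) := by
  constructor
  · rintro ⟨K, hK⟩ p hp -
    have : Fact p.Prime := ⟨hp⟩
    obtain ⟨S⟩ : Nonempty (Sylow p (G ⧸ A)) := inferInstance
    have hle : A ≤ (S : Subgroup (G ⧸ A)).comap (QuotientGroup.mk' A) := by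
      intro a ha
      rw [Subgroup.mem_comap, QuotientGroup.mk'_apply, (QuotientGroup.eq_one_iff a).mpr ha]
      exact Subgroup.one_mem _
    refine ⟨S, K ⊓ (S : Subgroup (G ⧸ A)).comap (QuotientGroup.mk' A), ?_, ?_⟩
    · rw [eq_bot_iff, ← disjoint_iff.mp hK.disjoint]
      exact inf_le_inf_right A inf_le_left
    · rw [sup_comm]
      exact Cfsg.Agent.GT.HT.sup_inf_eq_of_le Subgroup.le_normalizer_of_normal hle
        (by rw [sup_comm, hK.sup_eq_top]; exact le_top)
  · intro h
    have key : ∀ n : ℕ, n ≠ 0 → n ∣ A.index → Cfsg.Agent.GT.CrossedPow A n →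
        Cfsg.Agent.GT.CrossedPow A 1 := by
      intro n
      induction n using Nat.strong_induction_on with
      | _ n ih =>
      intro hn hd hc
      by_cases h1 : n = 1
      · subst h1; exact hc
      obtain ⟨p, hp, hpn⟩ := Nat.exists_prime_and_dvd h1
      have : Fact p.Prime := ⟨hp⟩
      obtain ⟨S, K, hKA, hK⟩ := h p hp (hpn.trans hd)
      have h2 := Cfsg.Agent.GT.crossedPow_index A _ K hKA (sup_comm K A ▸ hK)
      rw [Subgroup.index_comap_of_surjective _ (QuotientGroup.mk'_surjective A)] at h2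
      refine ih _ (lt_of_le_of_ne (Nat.gcd_le_left _ (Nat.pos_of_ne_zero hn)) fun h3 => ?_)
        (Nat.gcd_ne_zero_left hn) ((Nat.gcd_dvd_left _ _).trans hd)
        (Cfsg.Agent.GT.crossedPow_gcd A hc h2)
      exact S.not_dvd_index (hpn.trans (h3 ▸ Nat.gcd_dvd_right _ _))
    obtain ⟨H, hH⟩ := Cfsg.Agent.GT.exists_complement_of_crossedPow_one A
      (key _ A.index_ne_zero_of_finite dvd_rfl
        (Cfsg.Agent.GT.crossedPow_index A A ⊥ (bot_inf_eq A) (sup_bot_eq A)))
    exact ⟨H, hH.symm⟩

end Cfsg.Agent.S4217
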