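import Mathlib
import Cfsg.Statements.S4218
import Cfsg.Agent.GT.PLength2
import Cfsg.Agent.GT.Frattini
-- import your own Cfsg.Agent.* helpers here

set_option autoImplicit false
open Cfsg

namespace Cfsg.Agent.S4218

/-- Let `G` be a finite `p`-solvable group, `N₀ = O_{p'}(G)`, `P₁ = O_{p',p}(G)`, and let `F ≤ P₁` be the preimage of the Frattini subgroup of `P₁/N₀`. Then an element `g` of `G` induces the identity on `P₁/F` by conjugation (that is, `g x g⁻¹ x⁻¹ ∈ F` for all `x ∈ P₁`) if and only if `g ∈ P₁`: the group `G/P₁` acts faithfully on `P₁/F`. -/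
theorem result {G : Type*} [Group G] [Finite G] {p : ℕ} [Fact p.Prime] (hG : Cfsg.IsPSolvable p G) (g : G) : (∀ x ∈ Cfsg.pPrimePCore p G, g * x * g⁻¹ * x⁻¹ ∈ ((frattini (↥(Cfsg.pPrimePCore p G) ⧸ (Cfsg.pPrimeCore p G).subgroupOf (Cfsg.pPrimePCore p G))).comap (QuotientGroup.mk' ((Cfsg.pPrimeCore p G).subgroupOf (Cfsg.pPrimePCore p G)))).map (Cfsg.pPrimePCore p G).subtype) ↔ g ∈ Cfsg.pPrimePCore p G := by
  have hQ : IsPGroup p (↥(Cfsg.pPrimePCore p G) ⧸
      (Cfsg.pPrimeCore p G).subgroupOf (Cfsg.pPrimePCore p G)) := by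
    rw [GT.isPGroup_iff_isPiNum_dvd, ← Subgroup.index_eq_card, ← Subgroup.relIndex,
      GT.pPrimePCore_eq_piCoreMod]
    exact GT.isPiNum_relIndex_piCoreMod _ _
  constructor
  · intro h
    let φ : Cfsg.pPrimePCore p G →* Cfsg.pCore p (G ⧸ Cfsg.pPrimeCore p G) :=
      ((QuotientGroup.mk' (Cfsg.pPrimeCore p G)).comp (Cfsg.pPrimePCore p G).subtype).codRestrict
        _ fun x => x.2
    have hφ : Function.Surjective φ := by
      rintro ⟨y, hy⟩
      obtain ⟨x, rfl⟩ := QuotientGroup.mk'_surjective _ y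
      exact ⟨⟨x, hy⟩, rfl⟩
    have hk : (Cfsg.pPrimeCore p G).subgroupOf (Cfsg.pPrimePCore p G) ≤ φ.ker := by
      intro x hx
      exact Subtype.ext ((QuotientGroup.eq_one_iff _).2 hx)
    have hψ := GT.map_frattini_le_of_surjective
      (QuotientGroup.lift_surjective_of_surjective _ _ hφ hk)
    refine GT.centMod_frattini_le_pCore hG.charP_quotient (GT.mem_centMod.2 fun y hy => ?_)
    obtain ⟨x, rfl⟩ := QuotientGroup.mk'_surjective _ y
    obtain ⟨z, hz, hz'⟩ := h x hy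
    refine ⟨φ z, hψ ⟨_, hz, rfl⟩, ?_⟩
    change QuotientGroup.mk' _ ((Cfsg.pPrimePCore p G).subtype z) = _
    rw [hz']
    simp only [map_mul, map_inv]
  · intro hg x hx
    refine ⟨⟨g, hg⟩ * ⟨x, hx⟩ * ⟨g, hg⟩⁻¹ * ⟨x, hx⟩⁻¹, ?_, rfl⟩
    refine GT.PG.commutator_le_frattini hQ ?_
    simp only [map_mul, map_inv]
    exact Subgroup.commutator_mem_commutator (Subgroup.mem_top _) (Subgroup.mem_top _)

end Cfsg.Agent.S4218
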