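import Mathlib
import Cfsg.Statements.S4223
import Cfsg.Agent.GT.MinNormal

set_option autoImplicit false
open Cfsg

namespace Cfsg.Agent.S4223

open Subgroup

def Indec (A : Type*) [Group A] : Prop :=
  ∀ H K : Subgroup A, H.Normal → K.Normal → H ⊓ K = ⊥ → H ⊔ K = ⊤ → H = ⊥ ∨ K = ⊥

theorem idem_cases {A : Type*} [Group A] (hA : Indec A) (f : A →* A) (hf : ∀ x, f (f x) = f x)
    (hn : f.range.Normal) : Function.Injective f ∨ ∀ x, f x = 1 := by
  refine (hA f.ker f.range inferInstance hn ?_ ?_).imp (MonoidHom.ker_eq_bot_iff f).1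
    fun (h : f.range = ⊥) x => mem_bot.1 (h ▸ ⟨x, rfl⟩)
  · rw [eq_bot_iff]
    rintro _ ⟨h1, x, rfl⟩
    rw [mem_bot, ← hf]
    exact h1
  · rw [eq_top_iff]
    intro x _
    rw [show x = (x * (f x)⁻¹) * f x by group]
    exact mul_mem_sup (by rw [MonoidHom.mem_ker, map_mul, map_inv, hf, mul_inv_cancel]) ⟨x, rfl⟩

theorem injective_of_fix {A : Type*} [Group A] [Finite A] (hA : Indec A) (f : Monoid.End A)
    (hn : ∀ a x, f (a * x * a⁻¹) = a * f x * a⁻¹) {x : A} (hx : x ≠ 1) (hfx : f x = x) :
    Function.Injective f := by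
  have : Finite (Monoid.End A) := Finite.of_injective (fun g : Monoid.End A => (g : A → A))
    DFunLike.coe_injective
  obtain ⟨a, b, hab, h⟩ : ∃ a b : ℕ, a < b ∧ f ^ a = f ^ b := by
    obtain ⟨a, b, hne, h⟩ := Finite.exists_ne_map_eq_of_infinite (fun n : ℕ => f ^ n)
    rcases lt_or_gt_of_ne hne with h1 | h1
    exacts [⟨a, b, h1, h⟩, ⟨b, a, h1, h.symm⟩]
  obtain ⟨d, rfl⟩ := Nat.exists_eq_add_of_lt hab
  have h1 : ∀ k, f ^ (a + k * (d + 1)) = f ^ a := by
    intro k
    induction k with
    | zero => simp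
    | succ k ih => rw [add_mul, one_mul, ← add_assoc, pow_add, ih, ← pow_add, ← add_assoc, ← h]
  have h2 : f ^ ((a + 1) * (d + 1)) * f ^ ((a + 1) * (d + 1)) = f ^ ((a + 1) * (d + 1)) := by
    obtain ⟨c, hc⟩ : ∃ c, (a + 1) * (d + 1) = c + a := ⟨a * d + d + 1, by ring⟩
    rw [← pow_add]
    nth_rw 1 [hc]
    rw [add_assoc, pow_add, h1, ← pow_add, hc]
  have h3 : ∀ k a x, (f ^ k) (a * x * a⁻¹) = a * (f ^ k) x * a⁻¹ := by
    intro k
    induction k with
    | zero => simp
    | succ k ih => intro a x; rw [pow_succ, Monoid.End.coe_mul, Function.comp_apply, hn, ih]; rfl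
  have h4 : ∀ k, (f ^ k) x = x := by
    intro k
    induction k with
    | zero => simp
    | succ k ih => rw [pow_succ, Monoid.End.coe_mul, Function.comp_apply, hfx, ih]
  rcases idem_cases hA (f ^ ((a + 1) * (d + 1)) : Monoid.End A)
    (fun y => DFunLike.congr_fun h2 y)
    ⟨by rintro _ ⟨y, rfl⟩ g; exact ⟨g * y * g⁻¹, h3 _ _ _⟩⟩ with h5 | h5
  · obtain ⟨c, hc⟩ : ∃ c, (a + 1) * (d + 1) = c + 1 := ⟨a * d + d + a, by ring⟩
    rw [hc, pow_succ] at h5
    exact Function.Injective.of_comp (f := (f ^ c : Monoid.End A)) h5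
  · exact absurd ((h4 _).symm.trans (h5 x)) hx

/-- projection on a set of coordinates -/
def proj {ι : Type*} [DecidableEq ι] (B : ι → Type*) [∀ j, Group (B j)] (S : Finset ι) :
    (∀ j, B j) →* ∀ j, B j where
  toFun x j := if j ∈ S then x j else 1
  map_one' := by ext j; simp
  map_mul' x y := by ext j; by_cases h : j ∈ S <;> simp [h]

theorem exists_factor {A : Type*} [Group A] [Finite A] [Nontrivial A] (hA : Indec A)
    {ι : Type*} [DecidableEq ι] {B : ι → Type*} [∀ j, Group (B j)]
    (α : A →* ∀ j, B j) (β : (∀ j, B j) →* A) (h : ∀ x, β (α x) = x) (S : Finset ι)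
    (hS : Function.Injective (β.comp ((proj B S).comp α))) :
    ∃ j, Function.Injective (β.comp ((proj B {j}).comp α)) := by
  have hn : ∀ (S : Finset ι) a x, β (proj B S (α (a * x * a⁻¹))) =
      a * β (proj B S (α x)) * a⁻¹ := by
    intro S a x
    nth_rw 3 [← h a]
    nth_rw 4 [← h a]
    rw [← map_inv, ← map_mul, ← map_mul]
    congr 1
    ext j
    by_cases hj : j ∈ S <;> simp [proj, hj]
  induction S using Finset.induction_on with
  | empty =>
    obtain ⟨x, hx⟩ := exists_ne (1 : A)
    refine absurd (hS ?_) hx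
    rw [map_one, MonoidHom.comp_apply, MonoidHom.comp_apply,
      show proj B ∅ (α x) = 1 by ext j; simp [proj], map_one]
  | insert j S hj ih =>
    by_contra hne
    push Not at hne
    refine absurd (ih ?_) (not_exists.2 hne)
    rw [injective_iff_map_eq_one]
    intro x hx
    by_contra hx1
    let φ := MulEquiv.ofBijective _ (Finite.injective_iff_bijective.1 hS)
    have h1 := injective_of_fix hA (φ.symm.toMonoidHom.comp (β.comp ((proj B {j}).comp α)))
      (fun a y => φ.injective ?_) hx1 (φ.injective ?_)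
    · exact hne j (Function.Injective.of_comp (f := φ.symm) h1)
    · change φ (φ.symm _) = φ (a * φ.symm _ * a⁻¹)
      rw [φ.apply_symm_apply]
      refine (hn _ _ _).trans (Eq.trans ?_ (hn _ _ _).symm)
      congr 2
      exact (φ.apply_symm_apply _).symm
    · change φ (φ.symm _) = β (proj B (insert j S) (α x))
      rw [φ.apply_symm_apply, show proj B (insert j S) (α x) = proj B {j} (α x) * proj B S (α x) by
        ext k
        by_cases h1 : k = j
        · subst h1; simp [proj, hj]
        · simp [proj, h1], map_mul, show β (proj B S (α x)) = 1 from hx, mul_one]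
      rfl

universe u v

theorem main (m : ℕ) : ∀ {n : ℕ} {A : Fin m → Type u} {B : Fin n → Type v} [∀ i, Group (A i)]
    [∀ j, Group (B j)] [∀ i, Finite (A i)] [∀ j, Finite (B j)],
    (∀ i, Nontrivial (A i) ∧ Indec (A i)) → (∀ j, Nontrivial (B j) ∧ Indec (B j)) →
    (((i : Fin m) → A i) ≃* ((j : Fin n) → B j)) →
    ∃ σ : Fin m ≃ Fin n, ∀ i, Nonempty (A i ≃* B (σ i)) := by
  induction m with
  | zero =>
    intro n A B _ _ _ _ _ hB e
    cases n with
    | zero => exact ⟨Equiv.refl _, fun i => i.elim0⟩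
    | succ n =>
      have := (hB 0).1
      obtain ⟨x, hx⟩ := exists_ne (1 : B 0)
      have h1 : Subsingleton ((j : Fin (n + 1)) → B j) := e.symm.injective.subsingleton
      have h2 := congrFun (h1.elim (Pi.mulSingle 0 x) 1) 0
      simp [hx] at h2
  | succ m ih =>
    intro n A B _ _ _ _ hA hB e
    have := (hA 0).1
    let α : A 0 →* ∀ j, B j := e.toMonoidHom.comp (MonoidHom.mulSingle A 0)
    let β : (∀ j, B j) →* A 0 := (Pi.evalMonoidHom A 0).comp e.symm.toMonoidHom
    obtain ⟨j, hj⟩ := exists_factor (hA 0).2 α β (fun x => by simp [α, β]) Finset.univ (by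
      intro x y hxy
      have h1 : ∀ z, proj B Finset.univ z = z := fun z => by ext k; simp [proj]
      simpa [α, β, h1] using hxy)
    obtain ⟨n, rfl⟩ : ∃ n', n = n' + 1 := ⟨n - 1, by have := j.pos; omega⟩
    let s : A 0 →* B j := (Pi.evalMonoidHom B j).comp α
    let t : B j →* A 0 := β.comp (MonoidHom.mulSingle B j)
    have hst : β.comp ((proj B {j}).comp α) = t.comp s := by
      ext x
      change β _ = β _
      congr 1
      ext k
      by_cases h1 : k = j
      · subst h1; simp [proj, s]
      · simp [proj, h1, s]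
    rw [hst] at hj
    let φ := MulEquiv.ofBijective _ (Finite.injective_iff_bijective.1 hj)
    have hφ : ∀ x, φ.symm (t (s x)) = x := fun x => φ.symm_apply_apply x
    have ht : Function.Injective t := by
      refine (idem_cases (hB j).2 (s.comp (φ.symm.toMonoidHom.comp t))
        (fun x => congrArg s (hφ _)) ⟨?_⟩).elim (fun h1 => ?_) fun h1 => ?_
      rotate_left
      · exact Function.Injective.of_comp (f := s ∘ φ.symm) h1
      · obtain ⟨x, hx⟩ := exists_ne (1 : A 0)
        have h2 : s (φ.symm (t (s x))) = 1 := h1 (s x)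
        rw [hφ] at h2
        exact absurd (hj (by rw [map_one, MonoidHom.comp_apply, h2, map_one])) hx
      · rintro _ ⟨y, rfl⟩ g
        obtain ⟨a, ha⟩ := e.surjective (Pi.mulSingle j g)
        refine ⟨s (a 0 * φ.symm (t y) * (a 0)⁻¹), (congrArg s (hφ _)).trans ?_⟩
        have h2 : ∀ z : A 0, (Pi.mulSingle 0 (a 0 * z * (a 0)⁻¹) : ∀ i, A i) =
            a * Pi.mulSingle 0 z * a⁻¹ := fun z => by
          ext i
          by_cases h1 : i = 0
          · subst h1; simp
          · simp [h1]
        change e (Pi.mulSingle 0 _) j = g * e (Pi.mulSingle 0 _) j * g⁻¹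
        rw [h2, map_mul, map_mul, map_inv, ha]
        simp
    have ht' : Function.Bijective t :=
      ⟨ht, Function.Surjective.of_comp (g := s) (Finite.injective_iff_bijective.1 hj).2⟩
    let ι : (∀ i : Fin m, A i.succ) →* ∀ i, A i :=
      { toFun := fun y => Fin.cons 1 y
        map_one' := by ext i; cases i using Fin.cases <;> simp
        map_mul' := fun x y => by ext i; cases i using Fin.cases <;> simp }
    let ψ : (∀ i : Fin m, A i.succ) →* ∀ k : Fin n, B (j.succAbove k) :=
      (MonoidHom.pi fun k => Pi.evalMonoidHom B (j.succAbove k)).comp (e.toMonoidHom.comp ι)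
    have hψ : Function.Injective ψ := by
      rw [injective_iff_map_eq_one]
      intro y hy
      have h1 : e (ι y) = Pi.mulSingle j (e (ι y) j) := by
        ext k
        cases k using Fin.succAboveCases j with
        | x => simp
        | p k => rw [Pi.mulSingle_eq_of_ne (Fin.succAbove_ne j k)]; exact congrFun hy k
      have h2 : t (e (ι y) j) = 1 := by
        change e.symm (Pi.mulSingle j _) 0 = 1
        rw [← h1, e.symm_apply_apply]
        rfl
      rw [(injective_iff_map_eq_one t).1 ht _ h2, Pi.mulSingle_one, map_eq_one_iff _ e.injective]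
        at h1
      ext i
      exact congrFun h1 i.succ
    have hc : Nat.card (∀ i : Fin m, A i.succ) = Nat.card (∀ k : Fin n, B (j.succAbove k)) := by
      have h1 := Nat.card_congr e.toEquiv
      rw [Nat.card_pi, Nat.card_pi, Fin.prod_univ_succ, Fin.prod_univ_succAbove _ j,
        Nat.card_eq_of_bijective t ht'] at h1
      rw [Nat.card_pi, Nat.card_pi]
      exact Nat.eq_of_mul_eq_mul_left Nat.card_pos h1
    obtain ⟨σ, hσ⟩ := ih (fun i => hA i.succ) (fun k => hB (j.succAbove k))
      (MulEquiv.ofBijective ψ (hψ.bijective_of_nat_card_le hc.ge))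
    refine ⟨(finSuccEquiv m).trans ((Equiv.optionCongr σ).trans (finSuccEquiv' j).symm), fun i => ?_⟩
    cases i using Fin.cases with
    | zero =>
      rw [show ((finSuccEquiv m).trans ((Equiv.optionCongr σ).trans (finSuccEquiv' j).symm)) 0 = j
        by simp]
      exact ⟨(MulEquiv.ofBijective t ht').symm⟩
    | succ i =>
      rw [show ((finSuccEquiv m).trans ((Equiv.optionCongr σ).trans (finSuccEquiv' j).symm)) i.succ
        = j.succAbove (σ i) by simp]
      exact hσ i

/-- If a finite group is isomorphic both to a direct product of `m` directly indecomposable nontrivial groups and to a direct product of `n` such groups (a group is directly indecomposable when it is not the internal direct product of two nontrivial normal subgroups), then `m = n` and the factors are isomorphic in pairs after a suitable matching. -/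
theorem result {m n : ℕ} {A : Fin m → Type*} {B : Fin n → Type*} [∀ i, Group (A i)] [∀ j, Group (B j)] [∀ i, Finite (A i)] [∀ j, Finite (B j)] (hA : ∀ i, Nontrivial (A i) ∧ ∀ H K : Subgroup (A i), H.Normal → K.Normal → H ⊓ K = ⊥ → H ⊔ K = ⊤ → H = ⊥ ∨ K = ⊥) (hB : ∀ j, Nontrivial (B j) ∧ ∀ H K : Subgroup (B j), H.Normal → K.Normal → H ⊓ K = ⊥ → H ⊔ K = ⊤ → H = ⊥ ∨ K = ⊥) (e : ((i : Fin m) → A i) ≃* ((j : Fin n) → B j)) : ∃ σ : Fin m ≃ Fin n, ∀ i, Nonempty (A i ≃* B (σ i)) := by
  exact main m hA hB e

end Cfsg.Agent.S4223
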