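import Mathlib
import Cfsg.Statements.S4224
import Cfsg.Agent.FG.Regular

set_option autoImplicit false
open Cfsg

namespace Cfsg.Agent.S4224

/-- In a regular `p`-group, for all elements `a`, `b` and every power `q = p^k`: `a^q` commutes with `b` if and only if the commutator `a⁻¹b⁻¹ab` has `q`-th power equal to `1`. -/
theorem result {G : Type*} [Group G] [Finite G] {p : ℕ} [Fact p.Prime] (hG : Cfsg.IsRegularPGroup p G) (a b : G) (k : ℕ) : a ^ p ^ k * b = b * a ^ p ^ k ↔ (a⁻¹ * b⁻¹ * a * b) ^ p ^ k = 1 := by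
  have h := hG.weakRegular.pow_eq_pow_iff hG.1 k a⁻¹ (b⁻¹ * a * b)⁻¹
  rw [inv_inv, ← mul_assoc, ← mul_assoc] at h
  rw [← h, inv_pow, inv_pow, inv_inj]
  have : (b⁻¹ * a * b) ^ p ^ k = b⁻¹ * a ^ p ^ k * b := by
    have := conj_pow (a := b⁻¹) (b := a) (i := p ^ k)
    rwa [inv_inv] at this
  rw [this, mul_assoc, eq_inv_mul_iff_mul_eq, eq_comm]

end Cfsg.Agent.S4224
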