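import Mathlib
import Cfsg.Statements.S4227
import Cfsg.Agent.GT.HallHigmanA
import Cfsg.Agent.Ch.Burnside
-- import your own Cfsg.Agent.* helpers here

set_option autoImplicit false
open Cfsg

namespace Cfsg.Agent.S4227

/-- A finite group in which every element has order dividing `6` has `2`-length at most `1` and `3`-length at most `1`. -/
theorem result {G : Type*} [Group G] [Finite G] (h : ∀ x : G, x ^ 6 = 1) : Cfsg.PLengthLE 2 1 G ∧ Cfsg.PLengthLE 3 1 G := by
  have h3 : Fact (Nat.Prime 3) := ⟨Nat.prime_three⟩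
  have hs : Group.IsSolvable G := by
    refine Ch.burnside_isSolvable_of_primes (p := 2) Nat.prime_three fun r hr hd => ?_
    have := Fact.mk hr
    obtain ⟨x, hx⟩ := exists_prime_orderOf_dvd_card' r hd
    have h1 : r ∣ 2 * 3 := hx ▸ orderOf_dvd_of_pow_eq_one (h x)
    rcases (hr.dvd_mul).1 h1 with h2 | h2
    · exact Or.inl ((Nat.prime_dvd_prime_iff_eq hr Nat.prime_two).1 h2)
    · exact Or.inr ((Nat.prime_dvd_prime_iff_eq hr Nat.prime_three).1 h2)
  have key : ∀ (a b k : ℕ) (x : G), a.Coprime b → a * b = 6 → x ^ a ^ k = 1 → x ^ a = 1 := by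
    intro a b k x hab e hx
    have h1 : orderOf x ∣ a * b := e ▸ orderOf_dvd_of_pow_eq_one (h x)
    exact orderOf_dvd_iff_pow_eq_one.1
      (((hab.pow_left k).coprime_dvd_left (orderOf_dvd_of_pow_eq_one hx)).dvd_of_dvd_mul_right h1)
  have h2 : ∀ S : Sylow 2 G, IsMulCommutative (S : Subgroup G) := fun S => by
    have : ∀ x : S, x * x = 1 := fun x => by
      obtain ⟨k, hk⟩ := S.2 x
      refine Subtype.ext ?_
      have := key 2 3 k x (by norm_num) rfl (congrArg Subtype.val hk)
      rwa [sq] at this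
    refine isMulCommutative_iff.2 fun a b => ?_
    have e : ∀ x : S, x⁻¹ = x := fun x => inv_eq_of_mul_eq_one_right (this x)
    rw [← e (a * b), mul_inv_rev, e, e]
  exact ⟨GT.pLengthLE_one_of_comm (GT.isPSolvable_of_isSolvable hs) default (h2 _),
    GT.pLengthLE_of_nonExc 1 G (GT.isPSolvable_of_isSolvable hs)
      (GT.nonExc_of_sylow_two (by norm_num) h2)
      fun x k hx => by simpa using key 3 2 k x (by norm_num) rfl hx⟩

end Cfsg.Agent.S4227
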