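import Mathlib
import Cfsg.Agent.Inv.SylowNumber
import Cfsg.Statements.S4274

set_option autoImplicit false
open Cfsg

namespace Cfsg.Agent.S4274

/-- A finite group of order 175560 = 2³·3·5·7·11·19 is either simple or has a normal Sylow 19-subgroup. -/
theorem result {G : Type*} [Group G] [Finite G] (hG : Nat.card G = 175560) : IsSimpleGroup G ∨ ∀ P : Sylow 19 G, (P : Subgroup G).Normal := by
  have h19 : Fact (Nat.Prime 19) := ⟨by norm_num⟩
  refine or_iff_not_imp_left.2 fun hs P => ?_
  have h := Inv.SN.card_sylow_mem (p := 19) (n := 175560) (by norm_num)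
    (Inv.SN.noPow_of_list (by norm_num) [2, 5, 7, 11] (by simp; norm_num) (by decide +kernel))
    {1} rfl (fun S _ _ _ h1 h2 h3 h4 => by
      have h5 := Inv.SN.card_mem_of_certs h1 (by norm_num) h3 h2 h19.out [58520, 175560]
        [(38,2,19),(57,3,19),(76,2,19),(95,5,19),(114,19,0),(133,7,19),(152,2,19),(190,19,0),
         (209,11,19),(228,19,0),(266,19,0),(285,19,0),(380,19,0),(399,19,0),(418,19,0),(456,19,0),
         (532,19,0),(570,19,0),(627,19,0),(665,19,0),(760,19,0),(798,19,0),(836,19,0),(1045,19,0),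
         (1064,19,0),(1140,5,0),(1254,19,0),(1330,19,0),(1463,19,0),(1596,19,0),(1672,19,0),
         (1995,19,0),(2090,19,0),(2280,5,0),(2508,19,0),(2660,19,0),(2926,7,0),(3135,19,0),
         (3192,19,0),(3990,19,0),(4180,19,0),(4389,11,0),(5016,19,0),(5320,19,0),(5852,19,0),
         (6270,19,0),(7315,19,0),(7980,5,0),(8360,19,0),(8778,11,0),(11704,19,0),(12540,19,0),
         (14630,19,0),(15960,19,0),(17556,19,0),(21945,19,0),(25080,19,0),(29260,19,0),(35112,7,0),
         (43890,19,0),(87780,19,0)]
        (by decide +kernel)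
      have h6 := Inv.SN.card_ne_of_degree (G := S) (n := 58520) (p := 7) (r := 19) (by norm_num)
        (by norm_num) h19.out 20 (by norm_num) (by decide +kernel) (by decide +kernel)
      simp [h4, h6] at h5) _ G hG dvd_rfl fun _ => hs
  rw [Set.mem_singleton_iff, P.card_eq_index_normalizer, Subgroup.index_eq_one] at h
  exact Subgroup.normalizer_eq_top_iff.1 h

end Cfsg.Agent.S4274
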