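import Mathlib
import Cfsg.Statements.S4275

set_option autoImplicit false
open Cfsg

namespace Cfsg.Agent.S4275

/-- Let G be a transitive group of permutations of a finite set Ω, let o ∈ Ω, and let α be an automorphism of G. Then α is induced by conjugation by a permutation of Ω normalizing G if and only if the image under α of the stabilizer of o fixes some point of Ω. -/
theorem result {Ω : Type*} [Fintype Ω] (G : Subgroup (Equiv.Perm Ω)) (htr : MulAction.IsPretransitive G Ω) (o : Ω) (α : G ≃* G) : (∃ σ : Equiv.Perm Ω, σ ∈ Subgroup.normalizer (G : Set (Equiv.Perm Ω)) ∧ ∀ g : G, ((α g : G) : Equiv.Perm Ω) = σ * (g : Equiv.Perm Ω) * σ⁻¹) ↔ ∃ ω : Ω, ∀ g ∈ (MulAction.stabilizer G o).map α.toMonoidHom, g • ω = ω := by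
  classical
  constructor
  · rintro ⟨σ, -, hσ⟩
    refine ⟨σ o, ?_⟩
    rintro _ ⟨h, hh, rfl⟩
    have h1 : (h : Equiv.Perm Ω) o = o := hh
    change ((α h : G) : Equiv.Perm Ω) (σ o) = σ o
    rw [hσ h]
    simp [h1]
  · rintro ⟨ω, hω⟩
    choose t ht using fun y : Ω => htr.exists_smul_eq o y
    let f : Ω → Ω := fun y => α (t y) • ω
    have key : ∀ g : G, f (g • o) = α g • ω := by
      intro g
      have h1 : g⁻¹ * t (g • o) ∈ MulAction.stabilizer G o := by
        rw [MulAction.mem_stabilizer_iff, mul_smul, ht, inv_smul_smul]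
      have h2 := hω _ ⟨_, h1, rfl⟩
      have h3 : t (g • o) = g * (g⁻¹ * t (g • o)) := by group
      change α (t (g • o)) • ω = _
      rw [h3, map_mul, mul_smul]
      exact congrArg (fun z => α g • z) h2
    have hsurj : Function.Surjective f := by
      intro y
      obtain ⟨g, hg⟩ := htr.exists_smul_eq ω y
      exact ⟨α.symm g • o, by rw [key, MulEquiv.apply_symm_apply, hg]⟩
    let σ : Equiv.Perm Ω := Equiv.ofBijective f (Finite.injective_iff_surjective.2 hsurj |> fun h => ⟨h, hsurj⟩)
    have hσ : ∀ g : G, ((α g : G) : Equiv.Perm Ω) = σ * (g : Equiv.Perm Ω) * σ⁻¹ := by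
      intro g
      rw [eq_mul_inv_iff_mul_eq]
      ext y
      obtain ⟨h, rfl⟩ := htr.exists_smul_eq o y
      change α g • f (h • o) = f (g • h • o)
      rw [← mul_smul g h o, key, key, map_mul, mul_smul]
    refine ⟨σ, ?_, hσ⟩
    rw [Subgroup.mem_normalizer_iff]
    intro x
    constructor
    · intro hx
      rw [← hσ ⟨x, hx⟩]
      exact (α ⟨x, hx⟩).2
    · intro hx
      have h1 := hσ (α.symm ⟨_, hx⟩)
      rw [MulEquiv.apply_symm_apply] at h1
      have h2 : x = (α.symm ⟨_, hx⟩ : G) := by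
        simpa using h1
      rw [h2]
      exact (α.symm ⟨_, hx⟩).2

end Cfsg.Agent.S4275
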