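import Mathlib
import Cfsg.Statements.S4276
import Cfsg.Agent.S4275

set_option autoImplicit false
open Cfsg

namespace Cfsg.Agent.S4276

open MulAction Matrix

theorem arith {n k N l k' N' l' x y : ℤ} (hn : 2 ≤ n) (hk : IsCoprime k n) (h1 : k ^ 2 = N + l * n)
    (h2 : N ^ 2 = x ^ 2 * N') (h3 : k ^ 2 = x * k' + y * n) (h4 : N' + l' = k')
    (h5 : k' ^ 2 = N' + l' * n) (h6 : 1 ≤ k') (h7 : k' ≤ n) : k' = 1 ∨ k' = n - 1 := by
  have hN : IsCoprime N n := by
    have := hk.pow_left (m := 2)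
    rwa [h1, IsCoprime.add_mul_right_left_iff] at this
  have hN0 : N ≠ 0 := by
    rintro rfl
    have := Int.isUnit_iff.1 (isCoprime_zero_left.1 hN)
    omega
  obtain ⟨s, rfl⟩ : x ∣ N := (Int.pow_dvd_pow_iff two_ne_zero).1 ⟨N', h2⟩
  have hx : x ≠ 0 := left_ne_zero_of_mul hN0
  have hs : s ≠ 0 := right_ne_zero_of_mul hN0
  have h8 : N' = s ^ 2 := mul_left_cancel₀ (pow_ne_zero 2 hx) (by rw [← h2]; ring)
  subst h8
  obtain ⟨d, hd⟩ : n ∣ s - k' :=
    hN.of_mul_left_left.symm.dvd_of_dvd_mul_left ⟨y - l, by linear_combination h3 - h1⟩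
  have h9 : 0 ≤ l' := by
    by_contra h
    nlinarith
  have h10 : d = 0 ∨ d = -1 := by
    by_contra h
    have h0 : s ≤ s ^ 2 := by nlinarith [sq_nonneg (2 * s - 1)]
    rcases (by omega : 1 ≤ d ∨ d ≤ -2) with h | h
    · have : n ≤ n * d := by nlinarith
      linarith
    · have : n * d ≤ -2 * n := by nlinarith
      have : s ≤ -n := by linarith
      nlinarith
  rcases h10 with rfl | rfl
  · left
    nlinarith
  · right
    have h11 : l' = 2 * k' - n := mul_right_cancel₀ (show n ≠ 0 by omega) (by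
      have : s = k' - n := by linarith
      subst this
      linear_combination -h5)
    have h12 : s * (s + 1) = 0 := by linear_combination h4 - h11 + hd
    have := (mul_eq_zero.1 h12).resolve_left hs
    linarith

section
variable {G Ω : Type*} [Group G] [MulAction G Ω] [Fintype Ω] [DecidableEq Ω]

/-- the all one matrix -/
def J (Ω : Type*) : Matrix Ω Ω ℤ := fun _ _ => 1

omit [Fintype Ω] [DecidableEq Ω] in
theorem J_apply (a b : Ω) : J Ω a b = 1 := rfl

omit [DecidableEq Ω] in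
theorem transpose_J {M : Matrix Ω Ω ℤ} {k : ℤ} (h : J Ω * M = k • J Ω) : Mᵀ * J Ω = k • J Ω := by
  have := congrArg transpose h
  rw [transpose_mul, transpose_smul] at this
  exact this

/-- twisted invariance of a matrix -/
def Inv (β : MulAut G) (M : Matrix Ω Ω ℤ) : Prop := ∀ (g : G) a b, M (β g • a) (g • b) = M a b

omit [DecidableEq Ω] in
theorem Inv.mul {β γ : MulAut G} {M N : Matrix Ω Ω ℤ} (hM : Inv β M) (hN : Inv γ N) :
    Inv (β * γ) (M * N) := fun g a b => by
  rw [mul_apply, mul_apply, ← Equiv.sum_comp (MulAction.toPerm (γ g))]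
  exact Finset.sum_congr rfl fun c _ => by
    rw [MulAction.toPerm_apply, hN, MulAut.mul_apply, hM]

omit [Fintype Ω] [DecidableEq Ω] in
theorem Inv.transpose {β : MulAut G} {M : Matrix Ω Ω ℤ} (hM : Inv β M) : Inv β⁻¹ Mᵀ :=
  fun g a b => by
    rw [transpose_apply, transpose_apply, ← hM (β⁻¹ g) b a, MulAut.apply_inv_self]

omit [Fintype Ω] in
theorem Inv.eq_of_one [h2 : IsMultiplyPretransitive G Ω 2] [Nontrivial Ω] {M : Matrix Ω Ω ℤ}
    (hM : Inv (1 : MulAut G) M) : ∃ s t : ℤ, M = s • (1 : Matrix Ω Ω ℤ) + t • J Ω := by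
  have := isPretransitive_of_is_two_pretransitive (G := G) (α := Ω)
  obtain ⟨a, b, hab⟩ := exists_pair_ne Ω
  refine ⟨M a a - M a b, M a b, ?_⟩
  ext c d
  by_cases h : c = d
  · subst h
    obtain ⟨g, rfl⟩ := exists_smul_eq G a c
    refine (hM g a a).trans ?_
    simp only [Matrix.add_apply, Matrix.smul_apply, J_apply, smul_eq_mul, one_apply_eq]
    ring
  · obtain ⟨g, rfl, rfl⟩ := is_two_pretransitive_iff.1 h2 hab h
    refine (hM g a b).trans ?_
    simp only [Matrix.add_apply, Matrix.smul_apply, J_apply, smul_eq_mul, one_apply_ne h]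
    ring

omit [DecidableEq Ω] in
theorem Inv.sums [IsPretransitive G Ω] {β : MulAut G} {M : Matrix Ω Ω ℤ} (hM : Inv β M) (o : Ω) :
    J Ω * M = (∑ a, M a o) • J Ω ∧ M * J Ω = (∑ a, M a o) • J Ω := by
  have h1 : ∀ b, ∑ a, M a b = ∑ a, M a o := fun b => by
    obtain ⟨g, rfl⟩ := exists_smul_eq G o b
    rw [← Equiv.sum_comp (MulAction.toPerm (β g))]
    exact Finset.sum_congr rfl fun c _ => hM g c o
  have h2 : ∀ a, ∑ b, M a b = ∑ b, M o b := fun a => by
    obtain ⟨g, rfl⟩ := exists_smul_eq G o a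
    obtain ⟨g, rfl⟩ := β.surjective g
    rw [← Equiv.sum_comp (MulAction.toPerm g)]
    exact Finset.sum_congr rfl fun c _ => hM g o c
  have h3 : ∑ b, M o b = ∑ a, M a o := by
    have h3 := Finset.sum_comm (s := Finset.univ) (t := Finset.univ) (f := M)
    simp only [h1, h2, Finset.sum_const, Finset.card_univ, nsmul_eq_mul] at h3
    exact mul_left_cancel₀ (by have : Nonempty Ω := ⟨o⟩; simp) h3
  constructor <;> ext a b
  · simp [J, mul_apply, h1]
  · simp [J, mul_apply, h2, h3]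

omit [DecidableEq Ω] in
theorem J_mul_J : J Ω * J Ω = (Fintype.card Ω : ℤ) • J Ω := by
  ext a b; simp [J, mul_apply]

omit [Fintype Ω] in
theorem coeff_eq [Nontrivial Ω] {s t s' t' : ℤ}
    (h : s • (1 : Matrix Ω Ω ℤ) + t • J Ω = s' • (1 : Matrix Ω Ω ℤ) + t' • J Ω) : s = s' := by
  obtain ⟨a, b, hab⟩ := exists_pair_ne Ω
  have h1 := congrFun (congrFun h a) a
  have h2 := congrFun (congrFun h a) b
  simp only [Matrix.add_apply, Matrix.smul_apply, J_apply, smul_eq_mul, one_apply_eq, one_apply_ne hab] at h1 h2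
  omega

omit [Fintype Ω] [DecidableEq Ω] in
theorem smul_J_inj [Nonempty Ω] {t t' : ℤ} (h : t • J Ω = t' • J Ω) : t = t' := by
  obtain ⟨a⟩ := ‹Nonempty Ω›
  simpa [J] using congrFun (congrFun h a) a

open Classical in
/-- the orbital matrix -/
noncomputable def O (β : MulAut G) (ω o : Ω) : Matrix Ω Ω ℤ :=
  fun a b => if ∃ g : G, β g • ω = a ∧ g • o = b then 1 else 0

omit [Fintype Ω] [DecidableEq Ω] in
theorem inv_O (β : MulAut G) (ω o : Ω) : Inv β (O β ω o) := fun g a b => by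
  unfold O
  congr 1
  refine propext ⟨fun ⟨h, h1, h2⟩ => ⟨g⁻¹ * h, ?_, ?_⟩, fun ⟨h, h1, h2⟩ => ⟨g * h, ?_, ?_⟩⟩
  · rw [map_mul, mul_smul, h1, map_inv, inv_smul_smul]
  · rw [mul_smul, h2, inv_smul_smul]
  · rw [map_mul, mul_smul, h1]
  · rw [mul_smul, h2]

omit [DecidableEq Ω] in
theorem sum_O (β : MulAut G) (ω o : Ω) :
    ∑ a, O β ω o a o = Nat.card (orbit ((stabilizer G o).map β.toMonoidHom) ω) := by
  classical
  unfold O
  rw [Finset.sum_boole, Nat.card_eq_fintype_card, Fintype.card_subtype]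
  congr 2
  ext a
  simp only [Finset.mem_filter, Finset.mem_univ, true_and, mem_orbit_iff]
  exact ⟨fun ⟨g, h1, h2⟩ => ⟨⟨β g, g, h2, rfl⟩, h1⟩, fun ⟨⟨_, g, h2, rfl⟩, h1⟩ => ⟨g, h1, h2⟩⟩

theorem params [IsMultiplyPretransitive G Ω 2] [Nontrivial Ω] (β : MulAut G) (ω o : Ω) {k : ℤ}
    (hk : ∑ a, O β ω o a o = k) : ∃ N l : ℤ,
      (O β ω o)ᵀ * O β ω o = N • (1 : Matrix Ω Ω ℤ) + l • J Ω ∧ N + l = k ∧
      k ^ 2 = N + l * Fintype.card Ω := by
  have := isPretransitive_of_is_two_pretransitive (G := G) (α := Ω)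
  have h1 := (inv_O β ω o).transpose.mul (inv_O β ω o)
  rw [inv_mul_cancel] at h1
  obtain ⟨N, l, h⟩ := h1.eq_of_one
  obtain ⟨h2, h3⟩ := (inv_O β ω o).sums o
  rw [hk] at h2 h3
  refine ⟨N, l, h, ?_, smul_J_inj (Ω := Ω) ?_⟩
  · have h4 := congrFun (congrFun h o) o
    simp only [mul_apply, transpose_apply, Matrix.add_apply, Matrix.smul_apply, one_apply_eq,
      J_apply, smul_eq_mul, mul_one] at h4
    rw [← h4, ← hk]
    refine Finset.sum_congr rfl fun a _ => ?_
    unfold O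
    split_ifs <;> simp
  · have h4 := transpose_J h2
    have h5 := congrArg (· * J Ω) h
    simp only [Matrix.mul_assoc, h3, Matrix.mul_smul, h4, Matrix.add_mul, Matrix.smul_mul,
      Matrix.one_mul, J_mul_J, smul_smul] at h5
    rw [sq, h5, add_smul]

theorem card_orbit_sq [IsMultiplyPretransitive G Ω 2] [Nontrivial Ω] (α : MulAut G) (ω o : Ω)
    (hk : (Nat.card (orbit ((stabilizer G o).map α.toMonoidHom) ω)).Coprime (Fintype.card Ω)) :
    Nat.card (orbit ((stabilizer G o).map (α * α).toMonoidHom) o) = 1 ∨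
      Nat.card (orbit ((stabilizer G o).map (α * α).toMonoidHom) o) = Fintype.card Ω - 1 := by
  have := isPretransitive_of_is_two_pretransitive (G := G) (α := Ω)
  obtain ⟨N, l, a1, -, a3⟩ := params α ω o (sum_O α ω o)
  obtain ⟨N', l', b1, b2, b3⟩ := params (α * α) o o (sum_O (α * α) o o)
  obtain ⟨a4, a5⟩ := (inv_O α ω o).sums o
  obtain ⟨b4, b5⟩ := (inv_O (α * α) o o).sums o
  have hP := (inv_O α ω o).mul (inv_O α ω o)
  have hB := inv_O (α * α) o o
  have hB1 : ∀ a b, O (α * α) o o a b = 0 ∨ (O (α * α) o o a b = 1 ∧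
      (O α ω o * O α ω o) a b = (O α ω o * O α ω o) o o) := fun a b => by
    by_cases h : ∃ g : G, (α * α) g • o = a ∧ g • o = b
    · refine Or.inr ⟨if_pos h, ?_⟩
      obtain ⟨g, rfl, rfl⟩ := h
      exact hP g o o
    · exact Or.inl (if_neg h)
  rw [sum_O] at a4 a5 b4 b5
  have c1 : 1 ≤ Nat.card (orbit ((stabilizer G o).map (α * α).toMonoidHom) o) :=
    have : Nonempty (orbit ((stabilizer G o).map (α * α).toMonoidHom) o) :=
      ⟨⟨o, mem_orbit_self o⟩⟩
    Nat.card_pos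
  have c2 : Nat.card (orbit ((stabilizer G o).map (α * α).toMonoidHom) o) ≤ Fintype.card Ω := by
    rw [← Nat.card_eq_fintype_card]
    exact Finite.card_subtype_le _
  have c3 := sum_O (α * α) o o
  have hn := Fintype.one_lt_card (α := Ω)
  generalize Nat.card (orbit ((stabilizer G o).map α.toMonoidHom) ω) = k at *
  generalize Nat.card (orbit ((stabilizer G o).map (α * α).toMonoidHom) o) = k' at *
  generalize O α ω o = A at *
  generalize O (α * α) o o = B at *
  obtain ⟨x, y, hxy⟩ : ∃ x y : ℤ, A * A = x • B + y • J Ω := by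
    by_cases h : ∃ a b, B a b = 0
    · obtain ⟨a, b, hab⟩ := h
      have h1 := hP.mul hB.transpose
      rw [mul_inv_cancel] at h1
      obtain ⟨s, t, h1⟩ := h1.eq_of_one
      have h2 := congrArg (· * B) h1
      simp only [Matrix.mul_assoc, b1, Matrix.mul_add, Matrix.mul_smul, Matrix.mul_one, a5,
        Matrix.add_mul, Matrix.smul_mul, Matrix.one_mul, b4] at h2
      have hN : N' ≠ 0 := by
        rintro rfl
        have h3 : (k' : ℤ) = Fintype.card Ω := mul_left_cancel₀ (show (k' : ℤ) ≠ 0 by omega)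
          (by rw [← sq, b3, ← b2]; ring)
        have h4 := congrFun (congrFun b4 a) b
        simp only [mul_apply, J_apply, one_mul, Matrix.smul_apply, smul_eq_mul, mul_one] at h4
        have h5 : ∑ c, B c b < ∑ _c : Ω, (1 : ℤ) := Finset.sum_lt_sum
          (fun c _ => by rcases hB1 c b with h | ⟨h, -⟩ <;> omega) ⟨a, Finset.mem_univ a, by omega⟩
        simp [h4, h3] at h5
      refine ⟨(A * A) o o - (A * A) a b, (A * A) a b, ?_⟩
      ext c d
      rcases hB1 c d with h3 | ⟨h3, h4⟩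
      · have h5 := congrFun (congrFun h2 c) d
        have h6 := congrFun (congrFun h2 a) b
        simp only [Matrix.add_apply, Matrix.smul_apply, J_apply, smul_eq_mul, h3, hab] at h5 h6 ⊢
        exact mul_left_cancel₀ hN (by linarith)
      · simp only [Matrix.add_apply, Matrix.smul_apply, J_apply, smul_eq_mul, h3, h4]
        ring
    · push Not at h
      refine ⟨0, (A * A) o o, ?_⟩
      ext c d
      simp only [Matrix.add_apply, Matrix.smul_apply, J_apply, smul_eq_mul, ((hB1 c d).resolve_left (h c d)).2]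
      ring
  have a6 := transpose_J a4
  have b6 := transpose_J b4
  have e1 : (A * A)ᵀ * (A * A) = (N ^ 2) • (1 : Matrix Ω Ω ℤ) + (N * l + l * k ^ 2) • J Ω := by
    rw [transpose_mul, Matrix.mul_assoc, ← Matrix.mul_assoc Aᵀ A, a1]
    simp only [Matrix.add_mul, Matrix.smul_mul, Matrix.one_mul, a4, Matrix.mul_add,
      Matrix.mul_smul, a1, a6]
    module
  have e2 : (A * A)ᵀ * (A * A) = (x ^ 2 * N') • (1 : Matrix Ω Ω ℤ) +
      (x ^ 2 * l' + 2 * x * y * k' + y ^ 2 * Fintype.card Ω) • J Ω := by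
    rw [hxy, transpose_add, transpose_smul, transpose_smul, show (J Ω)ᵀ = J Ω from rfl]
    simp only [Matrix.add_mul, Matrix.smul_mul, Matrix.mul_add, Matrix.mul_smul, b1, b6, b4,
      J_mul_J]
    module
  have e3 : (k : ℤ) ^ 2 = x * k' + y * Fintype.card Ω := smul_J_inj (Ω := Ω) (by
    have h := congrArg (· * J Ω) hxy
    simp only [Matrix.mul_assoc, a5, Matrix.mul_smul, Matrix.add_mul, Matrix.smul_mul, b5,
      J_mul_J, smul_smul] at h
    rw [sq, h, add_smul])
  have := arith (by exact_mod_cast hn) (Nat.isCoprime_iff_coprime.2 hk) a3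
    (coeff_eq (e1.symm.trans e2)) e3 b2 b3 (by exact_mod_cast c1) (by exact_mod_cast c2)
  omega

omit [DecidableEq Ω] in
theorem exists_fixed [Nontrivial Ω] (K : Subgroup G) (ω : Ω)
    (h : Nat.card (orbit K ω) = 1 ∨ Nat.card (orbit K ω) = Fintype.card Ω - 1) :
    ∃ z : Ω, ∀ g ∈ K, g • z = z := by
  rcases h with h | h
  · have := (Nat.card_eq_one_iff_unique.1 h).1
    exact ⟨ω, fun g hg => congrArg Subtype.val
      (Subsingleton.elim (⟨_, mem_orbit ω (⟨g, hg⟩ : K)⟩ : orbit K ω) ⟨ω, mem_orbit_self ω⟩)⟩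
  · have h1 := Set.ncard_add_ncard_compl (orbit K ω)
    have h2 := Fintype.one_lt_card (α := Ω)
    rw [← Nat.card_coe_set_eq, h, Nat.card_eq_fintype_card] at h1
    obtain ⟨z, hz⟩ := Set.ncard_eq_one.1 (show (orbit K ω)ᶜ.ncard = 1 by omega)
    refine ⟨z, fun g hg => ?_⟩
    have h3 : z ∉ orbit K ω := hz.ge rfl
    refine hz.le fun h4 => h3 ?_
    have := mem_orbit_of_mem_orbit (⟨g, hg⟩⁻¹ : K) h4
    rwa [show (⟨g, hg⟩⁻¹ : K) • g • z = z from inv_smul_smul (⟨g, hg⟩ : K) z] at this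

end

/-- Let G be a doubly transitive group of permutations of a finite set Ω of size n, let o ∈ Ω, and let α be an automorphism of G of odd order. Suppose that the image under α of the stabilizer of o has an orbit on Ω whose length k is coprime to n. Then α is induced by conjugation by a permutation of Ω normalizing G, and k = 1 or k = n − 1. -/
theorem result {Ω : Type*} [Fintype Ω] (G : Subgroup (Equiv.Perm Ω)) (h2 : MulAction.IsMultiplyPretransitive G Ω 2) (o : Ω) (α : MulAut G) (hα : Odd (orderOf α)) (ω : Ω) (hk : (Nat.card (MulAction.orbit ((MulAction.stabilizer G o).map α.toMonoidHom) ω)).Coprime (Fintype.card Ω)) : (∃ σ : Equiv.Perm Ω, σ ∈ Subgroup.normalizer (G : Set (Equiv.Perm Ω)) ∧ ∀ g : G, ((α g : G) : Equiv.Perm Ω) = σ * (g : Equiv.Perm Ω) * σ⁻¹) ∧ (Nat.card (MulAction.orbit ((MulAction.stabilizer G o).map α.toMonoidHom) ω) = 1 ∨ Nat.card (MulAction.orbit ((MulAction.stabilizer G o).map α.toMonoidHom) ω) = Fintype.card Ω - 1) := by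
  classical
  have htr := isPretransitive_of_is_two_pretransitive (G := G) (α := Ω)
  rcases subsingleton_or_nontrivial Ω with hΩ | hΩ
  · refine ⟨⟨1, one_mem _, fun g => Subsingleton.elim _ _⟩, Or.inl ?_⟩
    exact Nat.card_eq_one_iff_unique.2 ⟨inferInstance, ⟨⟨ω, mem_orbit_self ω⟩⟩⟩
  obtain ⟨σ, hσ, h1⟩ := (S4275.result G htr o (α * α)).2
    (exists_fixed _ o (card_orbit_sq α ω o hk))
  have h3 : ∀ (j : ℕ) (g : G), ((((α * α) ^ j) g : G) : Equiv.Perm Ω) = σ ^ j * g * (σ ^ j)⁻¹ := by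
    intro j
    induction j with
    | zero => simp
    | succ j ih => intro g; rw [pow_succ', MulAut.mul_apply, h1, ih, pow_succ']; group
  obtain ⟨j, hj⟩ := hα
  have h4 : (α * α) ^ (j + 1) = α := by
    rw [← sq, ← pow_mul, mul_add, mul_one, show 2 * j + 2 = (2 * j + 1) + 1 by ring, pow_succ, ← hj,
      pow_orderOf_eq_one, one_mul]
  have h5 := h3 (j + 1)
  rw [h4] at h5
  refine ⟨⟨_, pow_mem hσ _, h5⟩, ?_⟩
  generalize σ ^ (j + 1) = τ at h5
  have h6 : ∀ g : G, g ∈ (stabilizer G o).map α.toMonoidHom ↔ g • τ o = τ o := by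
    intro g
    obtain ⟨g, rfl⟩ := α.surjective g
    rw [show α g = α.toMonoidHom g from rfl, Subgroup.mem_map_iff_mem α.injective,
      mem_stabilizer_iff]
    change (g : Equiv.Perm Ω) o = o ↔ ((α g : G) : Equiv.Perm Ω) (τ o) = τ o
    rw [h5]
    simp
  by_cases h7 : ω = τ o
  · left
    rw [Nat.card_eq_one_iff_unique]
    refine ⟨⟨?_⟩, ⟨⟨ω, mem_orbit_self ω⟩⟩⟩
    rintro ⟨_, ⟨g, hg⟩, rfl⟩ ⟨_, ⟨g', hg'⟩, rfl⟩
    exact Subtype.ext (h7 ▸ ((h6 g).1 hg).trans ((h6 g').1 hg').symm)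
  · right
    have h8 : orbit ((stabilizer G o).map α.toMonoidHom) ω = {τ o}ᶜ := by
      ext z
      constructor
      · rintro ⟨⟨g, hg⟩, rfl⟩ h
        exact h7 ((smul_left_cancel_iff g).1 (Eq.trans h ((h6 g).1 hg).symm))
      · intro hz
        obtain ⟨g, e1, e2⟩ := is_two_pretransitive_iff.1 h2 h7 hz
        exact ⟨⟨g, (h6 g).2 e2⟩, e1⟩
    rw [h8, Nat.card_coe_set_eq, Set.ncard_compl, Set.ncard_singleton, Nat.card_eq_fintype_card]

end Cfsg.Agent.S4276
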