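import Mathlib
import Cfsg.Statements.S4277
import Cfsg.Agent.S4290
import Cfsg.Agent.S0675
import Cfsg.Agent.Loc.TechPump
import Cfsg.Agent.Perm.Regular
import Cfsg.Agent.GT.TransferSylow
import Cfsg.Agent.GT.PPrimeCore

set_option autoImplicit false
open Cfsg

namespace Cfsg.Agent.S4277

open MulAction Subgroup Cfsg.Agent.GT

theorem isSolvable_mulAut (A : Type*) [Group A] [IsCyclic A] : Group.IsSolvable (MulAut A) :=
  Group.isSolvable_of_comm fun a b => (IsCyclic.mulAutMulEquiv A).injective (by
    rw [map_mul, map_mul, mul_comm])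

theorem perm {Ω : Type*} [Fintype Ω] (hp : (Fintype.card Ω).Prime) (G : Subgroup (Equiv.Perm Ω))
    (h2 : IsMultiplyPretransitive G Ω 2) : Group.IsSolvable (Out G) := by
  classical
  have htr := isPretransitive_of_is_two_pretransitive (G := G) (α := Ω)
  have := Fact.mk hp
  obtain ⟨o⟩ : Nonempty Ω := Fintype.card_pos_iff.1 hp.pos
  have hi : (stabilizer G o).index = Fintype.card Ω := by
    rw [index_stabilizer_of_transitive, Nat.card_eq_fintype_card]
  have hc := (stabilizer G o).card_mul_index
  have hS : (Nat.card (stabilizer G o)).Coprime (Fintype.card Ω) := by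
    have h1 := card_subgroup_dvd_card G
    rw [← hc, hi, Nat.card_perm, Nat.card_eq_fintype_card (α := Ω),
      ← Nat.mul_factorial_pred hp.ne_zero, mul_comm] at h1
    exact ((hp.coprime_factorial_of_lt (Nat.sub_one_lt hp.ne_zero)).coprime_dvd_right
      (Nat.dvd_of_mul_dvd_mul_left hp.pos h1)).symm
  obtain ⟨σ, hσ⟩ := exists_prime_orderOf_dvd_card' (G := G) (Fintype.card Ω)
    (by rw [← hc, hi]; exact dvd_mul_left _ _)
  obtain ⟨P, hP⟩ : ∃ P, P = zpowers (σ : Equiv.Perm Ω) := ⟨_, rfl⟩
  have hPc : Nat.card P = Fintype.card Ω := by rw [hP, Nat.card_zpowers, orderOf_coe, hσ]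
  have hPG : P ≤ G := hP ▸ zpowers_le.2 σ.2
  have hcyc : IsCyclic P := isCyclic_of_prime_card hPc
  have hPt : IsPretransitive P Ω := by
    obtain ⟨a, ha⟩ : ∃ a, (σ : Equiv.Perm Ω) a ≠ a := by
      by_contra h
      push Not at h
      rw [show σ = 1 from Subtype.ext (Equiv.ext h), orderOf_one] at hσ
      exact hp.one_lt.ne hσ
    have h1 := ((Nat.dvd_prime hp).1 (hPc ▸ (stabilizer P a).index_dvd_card)).resolve_left
      fun h => ha ((index_eq_one.1 h).ge (mem_top (⟨σ, hP ▸ mem_zpowers _⟩ : P)))
    rw [index_stabilizer, ← Nat.card_eq_fintype_card, ← Set.ncard_univ] at h1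
    exact (isPretransitive_iff_orbit_eq_univ a).2 (Set.eq_of_subset_of_ncard_le (Set.subset_univ _) h1.ge)
  have : Nonempty Ω := ⟨o⟩
  have hC := Perm.centralizer_eq_of_transitive (X := Ω) P P (le_centralizer P)
  have hN : Group.IsSolvable (normalizer (P : Set (Equiv.Perm Ω))) := by
    have := isSolvable_mulAut P
    have : Group.IsSolvable (P.subgroupOf (normalizer (P : Set (Equiv.Perm Ω)))) :=
      Group.isSolvable_of_comm fun a b => (subgroupOfEquivOfLe le_normalizer).injective (by
        rw [map_mul, map_mul, mul_comm'])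
    exact Group.isSolvable_of_ker_le_range (P.subgroupOf _).subtype P.normalizerMonoidHom
      (by rw [normalizerMonoidHom_ker, hC, range_subtype])
  have hK : Group.IsSolvable (normalizer (G : Set (Equiv.Perm Ω)) ⊓
      normalizer (P : Set (Equiv.Perm Ω)) : Subgroup _) :=
    Group.isSolvable_of_isSolvable_injective (inclusion_injective inf_le_right)
  obtain ⟨θ, hθ⟩ : ∃ θ : (normalizer (G : Set (Equiv.Perm Ω)) ⊓
      normalizer (P : Set (Equiv.Perm Ω)) : Subgroup _) →* Out G,
      θ = (QuotientGroup.mk' _).comp (G.normalizerMonoidHom.comp (inclusion inf_le_left)) :=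
    ⟨_, rfl⟩
  have h3 : pResidual 2 (Out G) ≤ θ.range := by
    rw [← map_pResidual_of_surjective (QuotientGroup.mk'_surjective (Inn G)), map_le_iff_le_comap,
      pResidual_le_iff]
    intro α hα
    obtain ⟨τ, hτ, h⟩ := S4290.result G h2 o (hi ▸ hS) α (Nat.coprime_two_right.1 hα)
    obtain ⟨m, hm, k, hk, rfl⟩ := Tr.frattini_sylowIn (IsPGroup.of_card (n := 1) (by
      rw [hPc, pow_one])) hPG (by
        intro hd
        have h4 := (P.subgroupOf G).card_mul_index
        rw [Nat.card_congr (subgroupOfEquivOfLe hPG).toEquiv, hPc, ← hc, hi, mul_comm] at h4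
        rw [relIndex, Nat.eq_of_mul_eq_mul_right hp.pos h4] at hd
        exact hp.coprime_iff_not_dvd.1 hS.symm hd) hτ
    refine ⟨⟨k, (mul_mem_cancel_left (le_normalizer hm)).1 hτ, hk⟩, ?_⟩
    rw [hθ]
    refine (QuotientGroup.eq.2 ?_).symm
    rw [← (innNormal G).mem_comm_iff]
    refine ⟨(⟨m, hm⟩ : G)⁻¹, ?_⟩
    rw [eq_mul_inv_iff_mul_eq]
    ext g : 2
    change m⁻¹ * (α g : Equiv.Perm Ω) * m⁻¹⁻¹ = k * g * k⁻¹
    rw [h]
    group
  have := Group.isSolvable_of_surjective θ.rangeRestrict_surjective
  have h4 : Group.IsSolvable (pResidual 2 (Out G)) :=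
    Group.isSolvable_of_isSolvable_injective (inclusion_injective h3)
  have := (isPGroup_quotient_pResidual (G := Out G) 2).isNilpotent
  exact Group.isSolvable_of_ker_le_range (pResidual 2 (Out G)).subtype
    (QuotientGroup.mk' (pResidual 2 (Out G))) (by simp)

/-- A case of the Schreier conjecture: if a finite simple group G has a subgroup of prime index, then the outer automorphism group of G is solvable. -/
theorem result {G : Type*} [Group G] [Finite G] [IsSimpleGroup G] (H : Subgroup G) (hH : H.index.Prime) : Group.IsSolvable (Cfsg.Out G) := by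
  classical
  by_cases hc : IsMulCommutative G
  · have : IsCyclic G := by
      let : CommGroup G := IsMulCommutative.instCommGroup
      exact IsSimpleGroup.isCyclic
    have := isSolvable_mulAut G
    infer_instance
  have := Fintype.ofFinite (G ⧸ H)
  have hp : (Fintype.card (G ⧸ H)).Prime := by rwa [← Nat.card_eq_fintype_card]
  have hi : Function.Injective (toPermHom G (G ⧸ H)) := by
    rw [← MonoidHom.ker_eq_bot_iff, ← normalCore_eq_ker]
    refine (IsSimpleGroup.eq_bot_or_eq_top_of_normal _ inferInstance).resolve_right fun h => ?_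
    rw [top_le_iff.1 (h.ge.trans H.normalCore_le), index_top] at hH
    exact Nat.not_prime_one hH
  have e := MonoidHom.ofInjective hi
  have : IsPretransitive (toPermHom G (G ⧸ H)).range (G ⧸ H) := ⟨fun a b => by
    obtain ⟨g, rfl⟩ := exists_smul_eq G a b
    exact ⟨⟨_, g, rfl⟩, rfl⟩⟩
  refine Loc.isSolvable_out_congr e.symm (perm hp _ ((S0675.result hp _).resolve_left fun h => hc ?_))
  have := Group.isSolvable_of_isSolvable_injective (f := e.toMonoidHom) e.injective
  exact ⟨⟨IsSimpleGroup.comm_iff_isSolvable.2 this⟩⟩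

end Cfsg.Agent.S4277
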