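import Mathlib
import Cfsg.Statements.S4280
import Cfsg.Agent.Chev.InvolTab

set_option autoImplicit false
open Cfsg

namespace Cfsg.Agent.S4280

/-- In the Chevalley group of type F₄ over a finite field of odd order q there are exactly two conjugacy classes of involutions; the centralizer of an involution in one class has order q¹⁶(q² − 1)(q⁴ − 1)(q⁶ − 1)(q⁸ − 1), and in the other class q¹⁰(q² − 1)²(q⁴ − 1)(q⁶ − 1). -/
theorem result {F : Type*} [Field F] [Fintype F] (hF : Odd (Fintype.card F)) : ∃ s t : ↥(Cfsg.Lie.chevF4.group F), orderOf s = 2 ∧ orderOf t = 2 ∧ ¬ IsConj s t ∧ (∀ u : ↥(Cfsg.Lie.chevF4.group F), orderOf u = 2 → IsConj u s ∨ IsConj u t) ∧ Nat.card (Subgroup.centralizer ({s} : Set ↥(Cfsg.Lie.chevF4.group F))) = Fintype.card F ^ 16 * (Fintype.card F ^ 2 - 1) * (Fintype.card F ^ 4 - 1) * (Fintype.card F ^ 6 - 1) * (Fintype.card F ^ 8 - 1) ∧ Nat.card (Subgroup.centralizer ({t} : Set ↥(Cfsg.Lie.chevF4.group F))) = Fintype.card F ^ 10 * (Fintype.card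 F ^ 2 - 1) ^ 2 * (Fintype.card F ^ 4 - 1) * (Fintype.card F ^ 6 - 1) := by
  refine ⟨_, _, Lie.ChevalleyDatum.orderOf_sgnG hF (v := Lie.chevF4.bitsV 1) (by decide +kernel),
    Lie.ChevalleyDatum.orderOf_sgnG hF (v := Lie.chevF4.bitsV 8) (by decide +kernel),
    fun h => Chev.not_isConj_of_card Fintype.one_lt_card (by norm_num) (by simp)
      (Chev.card_cent_F4b hF) (Chev.card_cent_F4a hF) h.symm, fun u => Chev.invol_conj_F4 hF, ?_, ?_⟩
  · rw [Chev.card_cent_F4a hF]
    simp only [List.map, List.prod_cons, List.prod_nil]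
    ring
  · rw [Chev.card_cent_F4b hF]
    simp only [List.map, List.prod_cons, List.prod_nil]
    ring

end Cfsg.Agent.S4280
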