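import Mathlib
import Cfsg.Statements.S4282
import Cfsg.Agent.GT.HallHigmanB
-- import your own Cfsg.Agent.* helpers here

set_option autoImplicit false
open Cfsg

namespace Cfsg.Agent.S4282

/-- A critical case behind the Hall–Higman theorem. Let p ≠ q be primes and G a finite group generated by a normal q-subgroup Q and a cyclic p-subgroup generated by x, such that the centralizer of every non-identity element of that cyclic subgroup is its product with the centre of G. Let K be an algebraically closed field of characteristic p and ρ a faithful representation of G on a nonzero finite-dimensional K-space whose restriction to Q is irreducible. If s is the least exponent with (ρ(x) − 1)^s = 0, then |⟨x⟩| − 1 ≤ s ≤ |⟨x⟩|; and if s = |⟨x⟩| − 1 then |⟨x⟩| − 1 is a power of q and Q is non-abelian. -/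
theorem result {G : Type*} [Group G] [Finite G] (p q : ℕ) [Fact p.Prime] [Fact q.Prime] (hpq : p ≠ q) (Q : Subgroup G) [Q.Normal] (hQ : IsPGroup q Q) (x : G) (hx : IsPGroup p (Subgroup.zpowers x)) (hgen : Q ⊔ Subgroup.zpowers x = ⊤) (hC : ∀ y ∈ Subgroup.zpowers x, y ≠ 1 → Subgroup.centralizer ({y} : Set G) = Subgroup.zpowers x ⊔ Subgroup.center G) {K : Type*} [Field K] [IsAlgClosed K] [CharP K p] {V : Type*} [AddCommGroup V] [Module K V] [FiniteDimensional K V] [Nontrivial V] (ρ : Representation K G V) (hfaith : Function.Injective ρ) (hirr : ∀ W : Submodule K V, (∀ g ∈ Q, Submodule.map (ρ g) W ≤ W) → W = ⊥ ∨ W = ⊤) (s : ℕ) (hs : (ρ x - 1) ^ s = 0) (hmin : ∀ k < s, (ρ x - 1) ^ k ≠ 0) : Nat.card (Subgroup.zpowers x) - 1 ≤ s ∧ s ≤ Nat.card (Subgroup.zpowers x) ∧ (s = Nat.card (Subgroup.zpowers x) - 1 → (∃ b : ℕ, Nat.card (Subgroup.zpowers x) - 1 = q ^ b) ∧ ¬ IsMulCommutative Q) := by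
  have hp : p.Prime := Fact.out
  have hq : q.Prime := Fact.out
  obtain ⟨n, hn⟩ := hx.exists_card_eq
  have ho : orderOf x = p ^ n := by rw [← hn, Nat.card_zpowers]
  have hxn : x ^ p ^ n = 1 := ho ▸ pow_orderOf_eq_one x
  have hT : ρ x ^ p ^ n = 1 := by rw [← map_pow, hxn, map_one]
  have hnil : (ρ x - 1) ^ p ^ n = 0 := by rw [GT.sub_one_pow_char_pow (K := K), hT, sub_self]
  have hle : s ≤ p ^ n := not_lt.1 fun h => hmin _ h hnil
  have hs0 : s ≠ 0 := by
    rintro rfl
    exact absurd hs (by simp)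
  rw [hn]
  rcases n with _ | n
  · simp only [pow_zero] at hle ⊢
    exact ⟨by omega, hle, fun h => absurd h hs0⟩
  have h2 : 2 ≤ p ^ (n + 1) := Nat.one_lt_pow n.succ_ne_zero hp.one_lt
  rcases hle.lt_or_eq with hlt | rfl
  swap
  · exact ⟨by omega, le_rfl, fun h => by omega⟩
  have hτ : GT.IrrRep (K := K) (ρ.comp Q.subtype) := ⟨inferInstance, fun W hW => hirr W (by
    rintro g hg _ ⟨w, hw, rfl⟩
    exact hW ⟨g, hg⟩ w hw)⟩
  have hqK : (q : K) ≠ 0 := by
    rw [Ne, CharP.cast_eq_zero_iff K p, Nat.prime_dvd_prime_iff_eq hp hq]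
    exact hpq
  obtain ⟨k, hk⟩ := hQ.exists_card_eq
  have hM : (Nat.card Q : K) ≠ 0 := by
    rw [hk, Nat.cast_pow]
    exact pow_ne_zero _ hqK
  have hcen : ∀ m : Q, (∀ g : Q, m * g = g * m) →
      ∃ c : K, (ρ.comp Q.subtype) m = c • (1 : Module.End K V) :=
    fun m hm => hτ.exists_eq_smul fun g => by rw [← map_mul, ← map_mul, hm]
  have hD : Module.finrank K V ≠ 1 := fun h => by
    have h1 := GT.pow_finrank_eq_zero ⟨_, hnil⟩
    rw [h, pow_one, sub_eq_zero, ← map_one ρ] at h1
    rw [hfaith h1, orderOf_one] at ho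
    omega
  have hy : x ^ p ^ n ≠ 1 := fun h => by
    have := Nat.le_of_dvd (pow_pos hp.pos n) (ho ▸ orderOf_dvd_of_pow_eq_one h)
    exact absurd this (Nat.pow_lt_pow_right hp.one_lt n.lt_succ_self).not_ge
  obtain ⟨h3, h4⟩ := GT.hallHigman_core hM hτ (T := ρ x) (α := MulAut.conjNormal x) (fun m => by
      change ρ x * ρ m = ρ (x * m * x⁻¹) * ρ x
      simp [← map_mul]) hT (by rw [← map_pow, hxn, map_one]) (fun m hm => hcen m fun g => by
      rw [← map_pow] at hm
      have h1 : (m : G) ∈ Subgroup.centralizer {x ^ p ^ n} := by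
        rw [Subgroup.mem_centralizer_singleton_iff, eq_comm, ← mul_inv_eq_iff_eq_mul]
        exact congrArg Subtype.val hm
      rw [hC _ (pow_mem (Subgroup.mem_zpowers x) _) hy, ← SetLike.mem_coe, Subgroup.mul_normal]
        at h1
      obtain ⟨a, ha, z, hz, e⟩ := h1
      have h5 : (m : G) ^ p ^ (n + 1) ∈ Subgroup.center G := by
        have hc : Commute a z := Subgroup.mem_center_iff.1 hz a
        have : a ^ p ^ (n + 1) = 1 := by
          rw [← hn]
          exact congrArg Subtype.val (pow_card_eq_one' (x := (⟨a, ha⟩ : Subgroup.zpowers x)))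
        rw [← show a * z = m from e, hc.mul_pow, this, one_mul]
        exact pow_mem hz _
      have h6 : (m : G) ∈ Subgroup.center G := by
        have hco : (p ^ (n + 1)).Coprime (orderOf (m : G)) := by
          rw [Subgroup.orderOf_coe]
          exact (((Nat.coprime_primes hp hq).2 hpq).pow _ k).coprime_dvd_right
            (hk ▸ orderOf_dvd_natCard m)
        obtain ⟨j, hj⟩ := exists_pow_eq_self_of_coprime hco
        exact hj ▸ pow_mem h5 j
      exact Subtype.ext (Subgroup.mem_center_iff.1 h6 g).symm) hD hs hlt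
  refine ⟨by omega, hle, fun _ => ⟨?_, fun hc => hD ?_⟩⟩
  · obtain ⟨b, hb⟩ := hτ.exists_finrank_eq_pow hqK hQ
    exact ⟨b, by omega⟩
  · exact hτ.finrank_eq_one_of_forall_smul fun m => hcen m fun g => hc.is_comm.comm m g

end Cfsg.Agent.S4282
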