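import Mathlib
import Cfsg.Statements.S4283
import Cfsg.Agent.GT.FrobeniusBasic

set_option autoImplicit false
open Cfsg

namespace Cfsg.Agent.S4283

theorem index_centralizer_conj {G : Type*} [Group G] (g x : G) :
    (Subgroup.centralizer ({g * x * g⁻¹} : Set G)).index =
      (Subgroup.centralizer ({x} : Set G)).index := by
  have h : Subgroup.centralizer ({g * x * g⁻¹} : Set G) =
      (Subgroup.centralizer ({x} : Set G)).map (MulAut.conj g).toMonoidHom := by
    ext y
    simp only [Subgroup.mem_map, Subgroup.mem_centralizer_singleton_iff]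
    constructor
    · intro hy
      refine ⟨g⁻¹ * y * g, ?_, by simp [mul_assoc]⟩
      calc g⁻¹ * y * g * x = g⁻¹ * (y * (g * x * g⁻¹)) * g := by group
        _ = g⁻¹ * ((g * x * g⁻¹) * y) * g := by rw [hy]
        _ = _ := by group
    · rintro ⟨z, hz, rfl⟩
      change g * z * g⁻¹ * (g * x * g⁻¹) = g * x * g⁻¹ * (g * z * g⁻¹)
      calc g * z * g⁻¹ * (g * x * g⁻¹) = g * (z * x) * g⁻¹ := by group
        _ = g * (x * z) * g⁻¹ := by rw [hz]
        _ = _ := by group
  rw [h]
  exact Subgroup.index_map_equiv _ (MulAut.conj g)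

theorem aux {G Q : Type*} [Group G] [Finite G] [Group Q] [Finite Q] (π : G →* Q)
    (hsurj : Function.Surjective π) (hkerπ : π.ker = Subgroup.center G)
    (K H : Subgroup G) (hZK : Subgroup.center G ≤ K) (hZH : Subgroup.center G ≤ H)
    (hK : IsMulCommutative K) (hH : IsMulCommutative H)
    (hFrob : Cfsg.IsFrobeniusComplement (H.map π))
    (hker : Cfsg.frobeniusKernel (H.map π) = (K.map π : Set Q)) :
    Set.range (fun x : G => (Subgroup.centralizer ({x} : Set G)).index) =
      ({1, K.index, H.index} : Set ℕ) ∧ K.index.Coprime H.index := by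
  obtain ⟨Z, hZ⟩ : ∃ Z, Z = Subgroup.center G := ⟨_, rfl⟩
  rw [← hZ] at hZK hZH hkerπ
  have hKc : (K.map π).comap π = K := Subgroup.comap_map_eq_self (by rwa [hkerπ])
  have hHc : (H.map π).comap π = H := Subgroup.comap_map_eq_self (by rwa [hkerπ])
  have memK : ∀ x, x ∈ K ↔ π x ∈ K.map π := fun x => by
    rw [← Subgroup.mem_comap, hKc]
  have memH : ∀ x, x ∈ H ↔ π x ∈ H.map π := fun x => by
    rw [← Subgroup.mem_comap, hHc]
  have memK' : ∀ x, x ∈ K ↔ π x ∈ Cfsg.frobeniusKernel (H.map π) := fun x => by
    rw [hker, memK]; rfl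
  have hone : ∀ x, π x = 1 ↔ x ∈ Z := fun x => by rw [← MonoidHom.mem_ker, hkerπ]
  have cK : ∀ x ∈ K, x ∉ Z → Subgroup.centralizer ({x} : Set G) = K := by
    intro x hx hxZ
    ext y
    rw [Subgroup.mem_centralizer_singleton_iff]
    constructor
    · intro hy
      rw [memK']
      refine hFrob.mem_kernel_of_commute ((memK' x).1 hx) (fun h => hxZ ((hone x).1 h)) ?_
      exact (Commute.map (show Commute x y from hy.symm) π)
    · intro hy
      exact Subtype.ext_iff.1 (hK.is_comm.comm (⟨y, hy⟩ : K) ⟨x, hx⟩)
  have cH : ∀ x ∈ H, x ∉ Z → Subgroup.centralizer ({x} : Set G) = H := by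
    intro x hx hxZ
    ext y
    rw [Subgroup.mem_centralizer_singleton_iff]
    constructor
    · intro hy
      rw [memH]
      refine hFrob.mem_of_commute ((memH x).1 hx) (fun h => hxZ ((hone x).1 h)) ?_
      exact (Commute.map (show Commute y x from hy) π)
    · intro hy
      exact Subtype.ext_iff.1 (hH.is_comm.comm (⟨y, hy⟩ : H) ⟨x, hx⟩)
  have cZ : ∀ x ∈ Z, Subgroup.centralizer ({x} : Set G) = ⊤ := by
    intro x hx
    rw [eq_top_iff]
    intro y _
    rw [Subgroup.mem_centralizer_singleton_iff]
    exact Subgroup.mem_center_iff.1 (hZ ▸ hx) y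
  have exK : ∃ x ∈ K, x ∉ Z := by
    by_contra hc
    push Not at hc
    apply hFrob.ne_bot_of_coe_eq hker.symm
    rw [Subgroup.map_eq_bot_iff, hkerπ]
    exact hc
  have exH : ∃ x ∈ H, x ∉ Z := by
    by_contra hc
    push Not at hc
    apply hFrob.ne_bot
    rw [Subgroup.map_eq_bot_iff, hkerπ]
    exact hc
  have iK : K.index = (K.map π).index := by
    conv_lhs => rw [← hKc]
    exact Subgroup.index_comap_of_surjective _ hsurj
  have iH : H.index = (H.map π).index := by
    conv_lhs => rw [← hHc]
    exact Subgroup.index_comap_of_surjective _ hsurj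
  constructor
  · ext n
    simp only [Set.mem_range, Set.mem_insert_iff, Set.mem_singleton_iff]
    constructor
    · rintro ⟨x, rfl⟩
      by_cases hxZ : x ∈ Z
      · left; rw [cZ x hxZ, Subgroup.index_top]
      by_cases hxK : x ∈ K
      · right; left; rw [cK x hxK hxZ]
      right; right
      rw [memK', GT.Frob.notMem_frobeniusKernel_iff] at hxK
      obtain ⟨-, g, hg⟩ := hxK
      obtain ⟨g, rfl⟩ := hsurj g
      rw [← map_inv, ← map_mul, ← map_mul, ← memH] at hg
      rw [← index_centralizer_conj g x, cH _ hg]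
      intro h
      apply hxZ
      have := (hkerπ ▸ π.normal_ker : Z.Normal).conj_mem _ h g⁻¹
      simpa [mul_assoc] using this
    · rintro (rfl | rfl | rfl)
      · exact ⟨1, by rw [cZ 1 Z.one_mem, Subgroup.index_top]⟩
      · obtain ⟨x, hx, hxZ⟩ := exK
        exact ⟨x, by rw [cK x hx hxZ]⟩
      · obtain ⟨x, hx, hxZ⟩ := exH
        exact ⟨x, by rw [cH x hx hxZ]⟩
  · have h1 := (hFrob.isComplement'_of_coe_eq hker.symm).symm.index_eq_card
    have h2 := hFrob.coprime_card_index
    rw [← h1, ← iK, ← iH] at h2
    exact h2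

/-- Let G be a finite group with centre Z and let K, H be abelian subgroups of G containing Z such that G/Z is a Frobenius group with complement H/Z and kernel K/Z. Then the conjugacy class sizes of G are exactly 1, [G : K] and [G : H], and these two indices are coprime. (This is the converse half of the characterization of finite groups whose conjugacy class sizes are exactly 1, m and n with m and n coprime.) -/
theorem result {G : Type*} [Group G] [Finite G] (K H : Subgroup G) (hZK : Subgroup.center G ≤ K) (hZH : Subgroup.center G ≤ H) (hK : IsMulCommutative K) (hH : IsMulCommutative H) (hFrob : Cfsg.IsFrobeniusComplement (H.map (QuotientGroup.mk' (Subgroup.center G)))) (hker : Cfsg.frobeniusKernel (H.map (QuotientGroup.mk' (Subgroup.center G))) = (K.map (QuotientGroup.mk' (Subgroup.center G)) : Set (G ⧸ Subgroup.center G))) : Set.range (fun x : G => (Subgroup.centralizer ({x} : Set G)).index) = ({1, K.index, H.index} : Set ℕ) ∧ K.index.Coprime H.index := by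
  exact aux _ (QuotientGroup.mk'_surjective _) (QuotientGroup.ker_mk' _) K H hZK hZH hK hH hFrob hker

end Cfsg.Agent.S4283
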