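import Mathlib
-- Template for statement S4292 (row 4292; see /opt/grader/pristine/manifest.json for weights).
-- Copy to Cfsg/Agent/S4292.lean and replace the sorry. The statement below is byte-identical to the frozen
-- statement Cfsg.CfsgFrozen.S4292 (Cfsg/Statements/S4292.lean; the theorem Cfsg.fg18_direct_product_frobenius_complement_iff);
-- the grader kernel-checks Cfsg.Agent.S4292.result against that frozen type. Keep the theorem IN THIS FILE
-- (a `result` declared elsewhere and merely imported here is not credited); helpers may live anywhere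
-- under Cfsg/Agent/.
import Cfsg.Statements.S4292
import Cfsg.Agent.GT.FrobeniusRep
import Cfsg.Agent.GT.FrobeniusComplement
-- import your own Cfsg.Agent.* helpers here

set_option autoImplicit false
open Cfsg

namespace Cfsg.Agent.S4292

/-- Let A and B be nontrivial finite groups. Then the direct product A × B occurs as a Frobenius complement if and only if A and B both occur as Frobenius complements and the orders of A and B are coprime. -/
theorem result {A B : Type*} [Group A] [Finite A] [Nontrivial A] [Group B] [Finite B] [Nontrivial B] :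
    (∃ (L : Type) (_ : Group L) (_ : Finite L) (H : Subgroup L), Cfsg.IsFrobeniusComplement H ∧ Nonempty ((A × B) ≃* H)) ↔
    ((∃ (L : Type) (_ : Group L) (_ : Finite L) (H : Subgroup L), Cfsg.IsFrobeniusComplement H ∧ Nonempty (A ≃* H)) ∧
     (∃ (L : Type) (_ : Group L) (_ : Finite L) (H : Subgroup L), Cfsg.IsFrobeniusComplement H ∧ Nonempty (B ≃* H)) ∧
     (Nat.card A).Coprime (Nat.card B)) := by
  constructor
  · intro h
    obtain ⟨h, -⟩ := GT.Frob.hasFpfAction_of_exists h
    refine ⟨(h.of_injective (MonoidHom.inl A B) fun a b e => congrArg Prod.fst e).exists_isFrobeniusComplement,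
      (h.of_injective (MonoidHom.inr A B) fun a b e => congrArg Prod.snd e).exists_isFrobeniusComplement,
      Nat.coprime_of_dvd fun p hp hpA hpB => ?_⟩
    have := Fact.mk hp
    obtain ⟨a, ha⟩ := exists_prime_orderOf_dvd_card' p hpA
    obtain ⟨b, hb⟩ := exists_prime_orderOf_dvd_card' p hpB
    have ha1 : a ≠ 1 := fun e => hp.ne_one (by rw [← ha, e, orderOf_one])
    have hb1 : b ≠ 1 := fun e => hp.ne_one (by rw [← hb, e, orderOf_one])
    obtain ⟨k, hk⟩ := h.mem_zpowers_of_commute hp (x := (a, 1)) (y := (1, b))
      (fun e => ha1 (congrArg Prod.fst e)) (by simp [← ha]) (by simp [← hb])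
      (by simp [Commute, SemiconjBy])
    exact hb1 (by simpa using (congrArg Prod.snd hk).symm)
  · rintro ⟨hA, hB, h⟩
    exact ((GT.Frob.hasFpfAction_of_exists hA).1.prod (GT.Frob.hasFpfAction_of_exists hB).1
      h).exists_isFrobeniusComplement

end Cfsg.Agent.S4292
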