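import Mathlib
-- Template for statement S4295 (row 4295; see /opt/grader/pristine/manifest.json for weights).
-- Copy to Cfsg/Agent/S4295.lean and replace the sorry. The statement below is byte-identical to the frozen
-- statement Cfsg.CfsgFrozen.S4295 (Cfsg/Statements/S4295.lean; the theorem Cfsg.fg18_quaternion_complement_kernel_orders);
-- the grader kernel-checks Cfsg.Agent.S4295.result against that frozen type. Keep the theorem IN THIS FILE
-- (a `result` declared elsewhere and merely imported here is not credited); helpers may live anywhere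
-- under Cfsg/Agent/.
import Cfsg.Statements.S4295
import Cfsg.Agent.GT.FrobeniusQuat
-- import your own Cfsg.Agent.* helpers here

set_option autoImplicit false
open Cfsg

namespace Cfsg.Agent.S4295

/-- Coordinates of the elements of the quaternion group as unit quaternions. -/
def coef : QuaternionGroup 2 → ℤ × ℤ × ℤ × ℤ
  | .a i => ![(1, 0, 0, 0), (0, 1, 0, 0), (-1, 0, 0, 0), (0, -1, 0, 0)] i
  | .xa i => ![(0, 0, 1, 0), (0, 0, 0, -1), (0, 0, -1, 0), (0, 0, 0, 1)] i

/-- Product of quaternions. -/
def qmul (x y : ℤ × ℤ × ℤ × ℤ) : ℤ × ℤ × ℤ × ℤ :=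
  (x.1 * y.1 - x.2.1 * y.2.1 - x.2.2.1 * y.2.2.1 - x.2.2.2 * y.2.2.2,
   x.1 * y.2.1 + x.2.1 * y.1 + x.2.2.1 * y.2.2.2 - x.2.2.2 * y.2.2.1,
   x.1 * y.2.2.1 - x.2.1 * y.2.2.2 + x.2.2.1 * y.1 + x.2.2.2 * y.2.1,
   x.1 * y.2.2.2 + x.2.1 * y.2.2.1 - x.2.2.1 * y.2.1 + x.2.2.2 * y.1)

theorem coef_mul : ∀ g h : QuaternionGroup 2, coef (g * h) = qmul (coef g) (coef h) := by decide

/-- A quaternion acting on `R × R`. -/
def actFun {R : Type*} [CommRing R] (a b : R) (x : ℤ × ℤ × ℤ × ℤ) (v : R × R) : R × R :=
  ((x.1 + a * x.2.2.1 - b * x.2.2.2) * v.1 + (-x.2.1 + b * x.2.2.1 + a * x.2.2.2) * v.2,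
   (x.2.1 + b * x.2.2.1 + a * x.2.2.2) * v.1 + (x.1 - a * x.2.2.1 + b * x.2.2.2) * v.2)

/-- The quaternion group acting on `R × R`. -/
@[reducible] def act {R : Type*} [CommRing R] (a b : R) (h : a ^ 2 + b ^ 2 + 1 = 0) :
    MulDistribMulAction (QuaternionGroup 2) (Multiplicative (R × R)) where
  smul g v := Multiplicative.ofAdd (actFun a b (coef g) v.toAdd)
  one_smul v := by
    change Multiplicative.ofAdd (actFun a b (1, 0, 0, 0) v.toAdd) = v
    simp [actFun]
  mul_smul g k v := by
    change Multiplicative.ofAdd (actFun a b (coef (g * k)) v.toAdd) =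
      Multiplicative.ofAdd (actFun a b (coef g) (actFun a b (coef k) v.toAdd))
    rw [coef_mul]
    generalize coef g = x
    generalize coef k = y
    obtain ⟨x₀, x₁, x₂, x₃⟩ := x
    obtain ⟨y₀, y₁, y₂, y₃⟩ := y
    simp only [actFun, qmul, EmbeddingLike.apply_eq_iff_eq, Prod.mk.injEq]
    push_cast
    constructor
    · linear_combination (-(x₂ * y₂ + x₃ * y₃) * v.toAdd.1 + (-(x₂ * y₃) + x₃ * y₂) * v.toAdd.2) * h
    · linear_combination (-(x₂ * y₂ + x₃ * y₃) * v.toAdd.2 + ((x₂ * y₃) - x₃ * y₂) * v.toAdd.1) * h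
  smul_one g := by
    change Multiplicative.ofAdd (actFun a b (coef g) 0) = 1
    simp [actFun]
  smul_mul g v w := by
    change Multiplicative.ofAdd (actFun a b (coef g) (v.toAdd + w.toAdd)) =
      Multiplicative.ofAdd (actFun a b (coef g) v.toAdd + actFun a b (coef g) w.toAdd)
    simp only [actFun, EmbeddingLike.apply_eq_iff_eq, Prod.mk_add_mk, Prod.mk.injEq, Prod.fst_add,
      Prod.snd_add]
    constructor <;> ring

/-- For a natural number m the following are equivalent: (a) some finite group has a Frobenius complement isomorphic to the quaternion group of order 8 whose Frobenius kernel (the identity together with the elements lying in no conjugate of the complement) has exactly m elements; (b) m is an odd perfect square greater than 1. -/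
theorem result (m : ℕ) :
    (∃ (L : Type) (_ : Group L) (_ : Finite L) (H : Subgroup L), Cfsg.IsFrobeniusComplement H ∧
        Nonempty (H ≃* QuaternionGroup 2) ∧ Nat.card (Cfsg.frobeniusKernel H) = m) ↔
    (Odd m ∧ IsSquare m ∧ 1 < m) := by
  constructor
  · rintro ⟨L, _, _, H, hF, ⟨e⟩, rfl⟩
    have := hF.kernel_normal
    have h := GT.Frob.isSquare_card_of_quaternion (K := hF.kernel)
      (i := e.symm (.a 1)) (j := e.symm (.xa 0))
      (by simp [Subgroup.normalizer_eq_top]) (by simp [Subgroup.normalizer_eq_top])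
      (by rw [← Subgroup.coe_mul, ← Subgroup.coe_mul, ← map_mul, ← map_mul]; rfl)
      (by rw [← Subgroup.coe_inv, ← Subgroup.coe_inv, ← Subgroup.coe_mul, ← Subgroup.coe_mul,
        ← map_inv, ← map_inv, ← map_mul, ← map_mul]; rfl)
      (hF.kernel_inf_centralizer _ (e.symm (.a 1) * e.symm (.a 1)).2 fun h => by
        have h1 : e.symm (.a 1) * e.symm (.a 1) = 1 := Subtype.ext h
        rw [← map_mul, map_eq_one_iff _ e.symm.injective] at h1
        exact absurd h1 (by decide))
    exact ⟨h.1, h.2, (Subgroup.one_lt_card_iff_ne_bot _).mpr hF.kernel_ne_bot⟩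
  · rintro ⟨h1, ⟨n, rfl⟩, h2⟩
    have hn : Odd n := (Nat.odd_mul.mp h1).1
    have hn1 : 1 < n := by nlinarith
    have := Fact.mk hn1
    obtain ⟨a, b, hab⟩ := GT.Frob.exists_dvd_sq_add_sq_add_one hn
    rw [← ZMod.natCast_eq_zero_iff] at hab
    push_cast at hab
    let _ := act (a : ZMod n) b hab
    obtain ⟨L, _, _, H, K, hF, ⟨e⟩, hK, ⟨f⟩⟩ := GT.Frob.exists_isFrobeniusComplement_of_fpf
      (MulDistribMulAction.toMulAut (QuaternionGroup 2) (Multiplicative (ZMod n × ZMod n))) (by
        intro g hg v hv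
        have hv' : g • v = v := hv
        have h3 : (QuaternionGroup.a 2 : QuaternionGroup 2) • v = v := by
          rcases (by decide : ∀ g : QuaternionGroup 2, g ≠ 1 → .a 2 = g ∨ .a 2 = g * g) g hg
            with h | h
          · rw [h, hv']
          · rw [h, mul_smul, hv', hv']
        have h4 : actFun (a : ZMod n) b (coef (.a 2)) v.toAdd = v.toAdd :=
          congrArg Multiplicative.toAdd h3
        have h5 : coef (.a 2) = (-1, 0, 0, 0) := by decide
        have h6 : IsUnit (2 : ZMod n) := (ZMod.isUnit_iff_coprime 2 n).mpr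
          (Nat.coprime_two_left.mpr hn)
        simp only [h5, actFun, Prod.ext_iff] at h4
        push_cast at h4
        apply Multiplicative.toAdd.injective
        ext
        · exact h6.mul_right_eq_zero.mp (by linear_combination -h4.1)
        · exact h6.mul_right_eq_zero.mp (by linear_combination -h4.2))
    refine ⟨L, _, ‹_›, H, hF, ⟨e.symm⟩, ?_⟩
    rw [hK]
    exact (Nat.card_congr f.toEquiv).symm.trans (by simp)

end Cfsg.Agent.S4295
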