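import Mathlib
-- Template for statement S4296 (row 4296; see /opt/grader/pristine/manifest.json for weights).
-- Copy to Cfsg/Agent/S4296.lean and replace the sorry. The statement below is byte-identical to the frozen
-- statement Cfsg.CfsgFrozen.S4296 (Cfsg/Statements/S4296.lean; the theorem Cfsg.fg18_frobenius_kernel_square_order_of_noncyclic_sylow_in_complement);
-- the grader kernel-checks Cfsg.Agent.S4296.result against that frozen type. Keep the theorem IN THIS FILE
-- (a `result` declared elsewhere and merely imported here is not credited); helpers may live anywhere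
-- under Cfsg/Agent/.
import Cfsg.Statements.S4296
import Cfsg.Agent.GT.FrobeniusQuat
-- import your own Cfsg.Agent.* helpers here

set_option autoImplicit false
open Cfsg

namespace Cfsg.Agent.S4296

/-- Let H be a Frobenius complement in a finite group, and suppose some Sylow subgroup of H is not cyclic. Then the number of elements of the Frobenius kernel (the identity together with the elements lying in no conjugate of H) is an odd perfect square. -/
theorem result {L : Type*} [Group L] [Finite L] (H : Subgroup L) (hF : Cfsg.IsFrobeniusComplement H)
    (hZ : ∃ (p : ℕ) (_ : Fact p.Prime) (P : Sylow p H), ¬ IsCyclic P) :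
    Odd (Nat.card (Cfsg.frobeniusKernel H)) ∧ IsSquare (Nat.card (Cfsg.frobeniusKernel H)) := by
  obtain ⟨p, _, P, hP⟩ := hZ
  obtain ⟨i, j, h1, h2, h3⟩ := (hF.hasFpfAction.subgroup P).exists_quaternion_pair P.2 hP
  have := hF.kernel_normal
  exact GT.Frob.isSquare_card_of_quaternion (K := hF.kernel) (i := i.1.1) (j := j.1.1)
    (by simp [Subgroup.normalizer_eq_top]) (by simp [Subgroup.normalizer_eq_top])
    (congrArg (fun x : P => x.1.1) h1) (congrArg (fun x : P => x.1.1) h2)
    (hF.kernel_inf_centralizer _ (i * i).1.2 fun e => h3 (Subtype.ext (Subtype.ext e)))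

end Cfsg.Agent.S4296
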