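import Mathlib
import Cfsg.Statements.S4297
import Cfsg.Agent.GT.FrobeniusFpf

set_option autoImplicit false
open Cfsg

namespace Cfsg.Agent.S4297

open QuaternionGroup in
theorem hasFpfAction_quaternion (n : ℕ) [NeZero n] : GT.Frob.HasFpfAction (QuaternionGroup n) := by
  have : NeZero (2 * n) := ⟨by have := NeZero.ne n; omega⟩
  let χ : AddChar (ZMod (2 * n)) ℂ := ZMod.stdAddChar
  have hχ : ∀ i, χ i = 1 → i = 0 := fun i hi =>
    ZMod.injective_stdAddChar (hi.trans (AddChar.map_zero_eq_one χ).symm)
  have hadd : ∀ i j, χ (i + j) = χ i * χ j := χ.map_add_eq_mul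
  have hneg : ∀ i, χ i * χ (-i) = 1 := fun i => by rw [← hadd, add_neg_cancel, χ.map_zero_eq_one]
  have hnn : (n : ZMod (2 * n)) + n = 0 := by
    rw [← Nat.cast_add, ← two_mul, ZMod.natCast_self]
  have hn : χ n = -1 := by
    have h1 : χ n * χ n = 1 := by rw [← hadd, hnn, χ.map_zero_eq_one]
    refine (mul_self_eq_one_iff.mp h1).resolve_left fun h => ?_
    have h2 := (ZMod.natCast_eq_zero_iff _ _).mp (hχ _ h)
    have := Nat.le_of_dvd (Nat.pos_of_ne_zero (NeZero.ne n)) h2
    have := NeZero.ne n
    omega
  have hn' : χ (-n) = -1 := by rw [neg_eq_of_add_eq_zero_right hnn, hn]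
  let act : QuaternionGroup n → ℂ × ℂ → ℂ × ℂ := fun g v =>
    match g with
    | a i => (χ i * v.1, χ (-i) * v.2)
    | xa i => (-(χ (-i) * v.2), χ i * v.1)
  let _ : DistribMulAction (QuaternionGroup n) (ℂ × ℂ) :=
    { smul := act
      one_smul := fun v => by
        change (χ 0 * v.1, χ (-0) * v.2) = v
        simp
      mul_smul := fun g h v => by
        change act (g * h) v = act g (act h v)
        rcases g with i | i <;> rcases h with j | j <;>
          simp only [act, a_mul_a, a_mul_xa, xa_mul_a, xa_mul_xa, sub_eq_add_neg, neg_add, neg_neg,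
            hadd, hn, hn', Prod.mk.injEq] <;> constructor <;> ring
      smul_zero := fun g => by
        change act g 0 = 0
        rcases g with i | i <;> simp [act]
      smul_add := fun g v w => by
        change act g (v + w) = act g v + act g w
        rcases g with i | i <;> simp only [act, Prod.fst_add, Prod.snd_add, Prod.mk_add_mk,
          Prod.mk.injEq] <;> constructor <;> ring }
  refine GT.Frob.hasFpfAction_of_distribMulAction (ℂ × ℂ) fun g hg v hv => ?_
  change act g v = v at hv
  obtain ⟨v, w⟩ := v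
  rcases g with i | i
  · simp only [act, Prod.mk.injEq] at hv
    have hi : i ≠ 0 := fun e => hg (by rw [e]; rfl)
    have h1 : (χ i - 1) * v = 0 := by linear_combination hv.1
    have h2 : (χ (-i) - 1) * w = 0 := by linear_combination hv.2
    rw [(mul_eq_zero.mp h1).resolve_left fun e => hi (hχ _ (sub_eq_zero.mp e)),
      (mul_eq_zero.mp h2).resolve_left fun e => hi (neg_eq_zero.mp (hχ _ (sub_eq_zero.mp e)))]
    rfl
  · simp only [act, Prod.mk.injEq] at hv
    have h1 : v = 0 := by
      linear_combination (-1 / 2 : ℂ) * hv.1 + (χ (-i) / 2) * hv.2 - (v / 2) * hneg i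
    have h2 : w = 0 := by rw [← hv.2, h1, mul_zero]
    rw [h1, h2]; rfl

/-- For every n ≥ 2 the dicyclic group of order 4n (generated by an element a of order 2n and an element x with x² = aⁿ and x a x⁻¹ = a⁻¹) occurs as a Frobenius complement of some finite Frobenius group. -/
theorem result (n : ℕ) (hn : 2 ≤ n) :
    ∃ (L : Type) (_ : Group L) (_ : Finite L) (H : Subgroup L), Cfsg.IsFrobeniusComplement H ∧ Nonempty (H ≃* QuaternionGroup n) := by
  have : NeZero n := ⟨by omega⟩
  have : Nontrivial (QuaternionGroup n) := inferInstance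
  obtain ⟨L, _, _, H, hH, ⟨e⟩⟩ := (hasFpfAction_quaternion n).exists_isFrobeniusComplement
  exact ⟨L, inferInstance, inferInstance, H, hH, ⟨e.symm⟩⟩

end Cfsg.Agent.S4297
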