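import Mathlib
-- Template for statement S4298 (row 4298; see /opt/grader/pristine/manifest.json for weights).
-- Copy to Cfsg/Agent/S4298.lean and replace the sorry. The statement below is byte-identical to the frozen
-- statement Cfsg.CfsgFrozen.S4298 (Cfsg/Statements/S4298.lean; the theorem Cfsg.fg18_binary_tetrahedral_group_is_frobenius_complement);
-- the grader kernel-checks Cfsg.Agent.S4298.result against that frozen type. Keep the theorem IN THIS FILE
-- (a `result` declared elsewhere and merely imported here is not credited); helpers may live anywhere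
-- under Cfsg/Agent/.
import Cfsg.Statements.S4298
import Cfsg.Agent.GT.FrobeniusSL2
-- import your own Cfsg.Agent.* helpers here

set_option autoImplicit false
open Cfsg

namespace Cfsg.Agent.S4298

/-- The group SL(2,3) of order 24 (the binary tetrahedral group) occurs as a Frobenius complement of some finite Frobenius group. -/
theorem result :
    ∃ (L : Type) (_ : Group L) (_ : Finite L) (H : Subgroup L), Cfsg.IsFrobeniusComplement H ∧ Nonempty (H ≃* Matrix.SpecialLinearGroup (Fin 2) (ZMod 3)) := by
  have : Nontrivial (Matrix.SpecialLinearGroup (Fin 2) (ZMod 3)) :=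
    ⟨⟨1, -1, fun h => absurd (congrArg (fun g : Matrix.SpecialLinearGroup (Fin 2) (ZMod 3) => g 0 0) h)
      (by decide)⟩⟩
  obtain ⟨L, _, _, H, hH, ⟨e⟩⟩ := GT.Frob.hasFpfAction_sl2_three.exists_isFrobeniusComplement
  exact ⟨L, _, ‹_›, H, hH, ⟨e.symm⟩⟩

end Cfsg.Agent.S4298
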