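import Mathlib
import Cfsg.Statements.S4299
import Cfsg.Agent.GT.FrobeniusFpf

set_option autoImplicit false
open Cfsg

namespace Cfsg.Agent.S4299

/-- Every nontrivial finite cyclic group occurs as a Frobenius complement of some finite Frobenius group. -/
theorem result {C : Type*} [Group C] [Finite C] [IsCyclic C] [Nontrivial C] :
    ∃ (L : Type) (_ : Group L) (_ : Finite L) (H : Subgroup L), Cfsg.IsFrobeniusComplement H ∧ Nonempty (C ≃* H) := by
  have : NeZero (Nat.card C) := ⟨Nat.card_pos.ne'⟩
  have e : C ≃* rootsOfUnity (Nat.card C) ℂ :=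
    mulEquivOfCyclicCardEq (HasEnoughRootsOfUnity.natCard_rootsOfUnity ℂ _).symm
  exact (GT.Frob.hasFpfAction_of_injective_units
    ((rootsOfUnity (Nat.card C) ℂ).subtype.comp e.toMonoidHom)
    ((Subgroup.subtype_injective _).comp e.injective)).exists_isFrobeniusComplement

end Cfsg.Agent.S4299
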