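import Cfsg.Statements.S4300
import Mathlib
import Cfsg.Agent.Perm.Regular
-- import your own Cfsg.Agent.* helpers here

set_option autoImplicit false
open Cfsg

namespace Cfsg.Agent.S4300

open MulAction Cfsg.Agent.Perm

/-- Let G act faithfully and primitively on a set X, and suppose the stabilizer of some point is a simple group. Then either G is simple, or G has a normal subgroup, neither trivial nor the whole group, that acts regularly on X (transitively with trivial point stabilizers). -/
theorem result {G : Type*} [Group G] {X : Type*} [MulAction G X] [FaithfulSMul G X]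
    (hprim : MulAction.IsPreprimitive G X) (x : X) (hsimple : IsSimpleGroup (MulAction.stabilizer G x)) :
    IsSimpleGroup G ∨ ∃ N : Subgroup G, N.Normal ∧ N ≠ ⊥ ∧ N ≠ ⊤ ∧
      MulAction.IsPretransitive N X ∧ ∀ y : X, MulAction.stabilizer N y = ⊥ := by
  by_cases hs : IsSimpleGroup G
  · exact Or.inl hs
  right
  have hnt : Nontrivial G := by
    obtain ⟨s, hs⟩ := exists_ne (1 : stabilizer G x)
    exact ⟨⟨s, 1, fun h => hs (Subtype.ext h)⟩⟩
  have : ∃ N : Subgroup G, N.Normal ∧ N ≠ ⊥ ∧ N ≠ ⊤ := by
    by_contra hc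
    push Not at hc
    exact hs ⟨fun N hN => by
      by_cases h : N = ⊥
      · exact Or.inl h
      · exact Or.inr (hc N hN h)⟩
  obtain ⟨N, hN, h1, h2⟩ := this
  have ht := isPretransitive_of_normal_ne_bot hprim N h1
  refine ⟨N, hN, h1, h2, ht, fun y => ?_⟩
  rcases hsimple.eq_bot_or_eq_top_of_normal (N.subgroupOf (stabilizer G x)) inferInstance with h | h
  · rw [stabilizer_subgroup_eq_bot_iff]
    intro n hn hy
    obtain ⟨g, rfl⟩ := exists_smul_eq G x y
    have h3 : g⁻¹ * n * g ∈ stabilizer G x := by
      rw [mem_stabilizer_iff, mul_smul, mul_smul, hy, inv_smul_smul]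
    have h4 : (⟨_, h3⟩ : stabilizer G x) ∈ N.subgroupOf (stabilizer G x) := by
      rw [Subgroup.mem_subgroupOf]
      simpa using hN.conj_mem n hn g⁻¹
    rw [h, Subgroup.mem_bot] at h4
    have h5 : g⁻¹ * n * g = 1 := congrArg Subtype.val h4
    have : n = g * (g⁻¹ * n * g) * g⁻¹ := by group
    rw [this, h5]; simp
  · exact absurd (eq_top_of_stabilizer_le N x (Subgroup.subgroupOf_eq_top.1 h)) h2

end Cfsg.Agent.S4300
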