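import Cfsg.Statements.S4301
import Mathlib
import Cfsg.Agent.Perm.Basic
-- import your own Cfsg.Agent.* helpers here

set_option autoImplicit false
open Cfsg

namespace Cfsg.Agent.S4301

open MulAction Cfsg.Agent.Perm

/-- One-point extension of a multiply transitive group. Let X be a set and G a group of permutations of Option X (the set X with one extra point ∗ = none) all of whose elements fix ∗, such that G is k-transitive on the points of X for some k ≥ 2, X having at least k points. Suppose a permutation h of Option X and an element g of G satisfy: h interchanges ∗ with a point x of X and fixes a point y of X; g interchanges x and y; (g h)³ and h² lie in G; and for every f in G fixing x, the product h f h lies in G and fixes x. Then an element of the group generated by G and h fixes ∗ exactly when it lies in G, and that group acts (k+1)-transitively on Option X. -/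
theorem result {X : Type*} (G : Subgroup (Equiv.Perm (Option X))) (hfix : ∀ f ∈ G, f none = none)
    (k : ℕ) (hk : 2 ≤ k) (hkX : Nonempty (Fin k ↪ X))
    (htrans : ∀ a b : Fin k ↪ X, ∃ f ∈ G, ∀ i, f (some (a i)) = some (b i))
    (h g : Equiv.Perm (Option X)) (hg : g ∈ G) (x y : X)
    (h1 : h none = some x) (h2 : h (some x) = none) (h3 : h (some y) = some y)
    (h4 : g (some x) = some y) (h5 : g (some y) = some x)
    (h6 : (g * h) ^ 3 ∈ G) (h7 : h ^ 2 ∈ G)
    (h8 : ∀ f ∈ G, f (some x) = some x → h * f * h ∈ G ∧ (h * f * h) (some x) = some x) :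
    (∀ f ∈ Subgroup.closure ((G : Set (Equiv.Perm (Option X))) ∪ {h}), f none = none ↔ f ∈ G) ∧
      MulAction.IsMultiplyPretransitive (Subgroup.closure ((G : Set (Equiv.Perm (Option X))) ∪ {h})) (Option X) (k + 1) := by
  classical
  have hxy : x ≠ y := by
    rintro rfl
    rw [h2] at h3
    exact absurd h3 (by simp)
  -- two-transitivity of `G` on `X`
  have hG2 : ∀ a b c d : X, a ≠ b → c ≠ d → ∃ f ∈ G, f (some a) = some c ∧ f (some b) = some d := by
    intro a b c d hab hcd
    obtain ⟨e⟩ := hkX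
    have h01 : (⟨0, by omega⟩ : Fin k) ≠ ⟨1, by omega⟩ := by simp
    have h2p := Equiv.Perm.isMultiplyPretransitive X 2
    obtain ⟨σ, hσ1, hσ2⟩ := exists_smul_eq_two h2p (e.injective.ne h01) hab
    obtain ⟨τ, hτ1, hτ2⟩ := exists_smul_eq_two h2p (e.injective.ne h01) hcd
    obtain ⟨f, hf, hf'⟩ := htrans (e.trans σ.toEmbedding) (e.trans τ.toEmbedding)
    refine ⟨f, hf, ?_, ?_⟩
    · rw [← hσ1, ← hτ1]; exact hf' _
    · rw [← hσ2, ← hτ2]; exact hf' _
  have hsome : ∀ f ∈ G, ∀ z : X, ∃ w, f (some z) = some w := by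
    intro f hf z
    rw [← Option.ne_none_iff_exists']
    rw [← hfix f hf]
    exact f.injective.ne (by simp)
  have hh2 : (h ^ 2)⁻¹ ∈ G := G.inv_mem h7
  have hgh : ∃ a ∈ G, ∃ b ∈ G, h⁻¹ * g * h⁻¹ = a * h * b :=
    ⟨(h ^ 2)⁻¹ * g⁻¹ * (g * h) ^ 3 * (h ^ 2)⁻¹,
      G.mul_mem (G.mul_mem (G.mul_mem hh2 (G.inv_mem hg)) h6) hh2, g⁻¹ * (h ^ 2)⁻¹,
      G.mul_mem (G.inv_mem hg) hh2, by simp only [pow_succ, pow_zero]; group⟩
  have hfh : ∀ f ∈ G, h * f * h ∈ G ∨ ∃ a ∈ G, ∃ b ∈ G, h * f * h = a * h * b := by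
    intro f hf
    obtain ⟨w, hw⟩ := hsome f hf x
    by_cases hwx : w = x
    · exact Or.inl (h8 f hf (hwx ▸ hw)).1
    right
    obtain ⟨a, ha, ha1, ha2⟩ := hG2 x y x w hxy (Ne.symm hwx)
    have hb : g⁻¹ * a⁻¹ * f ∈ G := G.mul_mem (G.mul_mem (G.inv_mem hg) (G.inv_mem ha)) hf
    have hb1 : (g⁻¹ * a⁻¹ * f) (some x) = some x := by
      rw [Equiv.Perm.mul_apply, Equiv.Perm.mul_apply, hw, ← ha2, Equiv.Perm.inv_eq_iff_eq, h4]
      simp
    obtain ⟨c, hc, d, hd, e⟩ := hgh
    refine ⟨h * a * h * c, G.mul_mem (h8 a ha ha1).1 hc, d * (h * (g⁻¹ * a⁻¹ * f) * h),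
      G.mul_mem hd (h8 _ hb hb1).1, ?_⟩
    calc h * f * h = h * a * h * (h⁻¹ * g * h⁻¹) * (h * (g⁻¹ * a⁻¹ * f) * h) := by group
      _ = _ := by rw [e]; group
  let K : Subgroup (Equiv.Perm (Option X)) :=
    { carrier := {f | f ∈ G ∨ ∃ a ∈ G, ∃ b ∈ G, f = a * h * b}
      one_mem' := Or.inl G.one_mem
      mul_mem' := by
        rintro u v (hu | ⟨a, ha, b, hb, rfl⟩) (hv | ⟨c, hc, d, hd, rfl⟩)
        · exact Or.inl (G.mul_mem hu hv)
        · exact Or.inr ⟨u * c, G.mul_mem hu hc, d, hd, by group⟩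
        · exact Or.inr ⟨a, ha, b * v, G.mul_mem hb hv, by group⟩
        · rcases hfh (b * c) (G.mul_mem hb hc) with h' | ⟨a', ha', b', hb', e⟩
          · left
            have := G.mul_mem (G.mul_mem ha h') hd
            convert this using 1
            group
          · refine Or.inr ⟨a * a', G.mul_mem ha ha', b' * d, G.mul_mem hb' hd, ?_⟩
            calc _ = a * (h * (b * c) * h) * d := by group
              _ = _ := by rw [e]; group
      inv_mem' := by
        rintro u (hu | ⟨a, ha, b, hb, rfl⟩)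
        · exact Or.inl (G.inv_mem hu)
        · exact Or.inr ⟨b⁻¹ * (h ^ 2)⁻¹, G.mul_mem (G.inv_mem hb) hh2, a⁻¹, G.inv_mem ha, by
            simp only [pow_succ, pow_zero]; group⟩ }
  set H := Subgroup.closure ((G : Set (Equiv.Perm (Option X))) ∪ {h}) with hH
  have hHK : H ≤ K := by
    rw [hH, Subgroup.closure_le]
    rintro f (hf | rfl)
    · exact Or.inl hf
    · exact Or.inr ⟨1, G.one_mem, 1, G.one_mem, by simp⟩
  have hGH : G ≤ H := fun f hf => Subgroup.subset_closure (Or.inl hf)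
  have hhH : h ∈ H := Subgroup.subset_closure (Or.inr rfl)
  refine ⟨fun f hf => ⟨fun hn => ?_, hfix f⟩, ?_⟩
  · rcases hHK hf with h' | ⟨a, ha, b, hb, rfl⟩
    · exact h'
    · obtain ⟨w, hw⟩ := hsome a ha x
      rw [Equiv.Perm.mul_apply, Equiv.Perm.mul_apply, hfix b hb, h1, hw] at hn
      exact absurd hn (by simp)
  have key : ∀ z : Option X, ∃ f ∈ H, f none = z := by
    rintro (_ | z)
    · exact ⟨1, H.one_mem, rfl⟩
    · by_cases hz : z = x
      · exact ⟨h, hhH, hz ▸ h1⟩
      · obtain ⟨a, ha, ha1, -⟩ := hG2 x y z x hxy hz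
        exact ⟨a * h, H.mul_mem (hGH ha) hhH, by rw [Equiv.Perm.mul_apply, h1, ha1]⟩
  have : IsPretransitive H (Option X) := (isPretransitive_subgroup_iff H).2 fun a b => by
    obtain ⟨u, hu, rfl⟩ := key a
    obtain ⟨v, hv, rfl⟩ := key b
    exact ⟨v * u⁻¹, H.mul_mem hv (H.inv_mem hu), by simp⟩
  refine (SubMulAction.ofStabilizer.isMultiplyPretransitive (a := none)).2 ?_
  rw [isMultiplyPretransitive_iff]
  intro a b
  choose a' ha' using fun i => Option.ne_none_iff_exists'.1 (a i).2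
  choose b' hb' using fun i => Option.ne_none_iff_exists'.1 (b i).2
  obtain ⟨f, hf, hf'⟩ := htrans
    ⟨a', fun i j e => a.injective (Subtype.ext (by rw [ha', ha', e]))⟩
    ⟨b', fun i j e => b.injective (Subtype.ext (by rw [hb', hb', e]))⟩
  refine ⟨⟨⟨f, hGH hf⟩, hfix f hf⟩, ?_⟩
  refine Function.Embedding.ext fun i => Subtype.ext ?_
  change f (a i) = b i
  rw [ha', hb']
  exact hf' i

end Cfsg.Agent.S4301
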