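import Mathlib
import Cfsg.Statements.S4302
import Cfsg.Agent.Loc.FFSep
import Cfsg.Agent.GT.ThompsonFactor
import Cfsg.Agent.GT.Conj
import Cfsg.Agent.FG.ClassCount
import Cfsg.Agent.Cl.LinearIso
import Cfsg.Agent.GT.ThompsonOffender
import Cfsg.Agent.GT.CoprimeAbelian
import Cfsg.Agent.GT.PGroupMaxClass

set_option autoImplicit false
open Cfsg

namespace Cfsg.Agent.S4302

open Subgroup Cfsg.Agent.Loc.Am Cfsg.Agent.Loc.FF Cfsg.Agent.GT
open scoped commutatorElement Cfsg.Agent.GT.CopAct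

section
variable {G : Type*} [Group G] [Finite G]

omit [Finite G] in
theorem best_cj {p : ℕ} {V A : Subgroup G} [V.Normal] (h : IsBestOffenderOn p V A) (g : G) :
    IsBestOffenderOn p V (cj g A) := by
  have hV : ∀ x : G, cj x V = V := fun x => map_conj_eq_of_normal V x
  have key : ∀ (x : G) (B : Subgroup G), offM V (cj x B) = offM V B := fun x B => by
    rw [offM, offM, card_cj, ← cj_centralizer, ← card_cj x (V ⊓ centralizer (B : Set G)), cj_inf,
      hV]
  refine ⟨fun B hB => ?_, ?_, ?_⟩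
  · have h1 := h.1 (cj g⁻¹ B) (by rw [← cj_inv_cj g A]; exact cj_mono _ hB)
    exact (key g⁻¹ B).ge.trans (h1.trans (key g A).ge)
  · rw [← cj_commutator, ← hV g, ← cj_centralizer]
    exact cj_mono g h.2.1
  · rintro _ ⟨a, ha, rfl⟩
    rw [← map_pow, ← hV g, ← cj_centralizer]
    exact mem_map_of_mem _ (h.2.2 a ha)

variable [Group.IsSolvable G] {V : Subgroup G} [V.Normal] (hV : IsElementaryAbelian 2 V)
  (hO : thOp 2 V ≤ centralizer (V : Set G))
include hV hO

theorem rf_closure {J : Subgroup G}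
    (hJ : ∀ K : Subgroup G, (∀ A ≤ J, IsBestOffenderOn 2 V A → A ≤ K) → J ≤ K) :
    RF 2 V (normalClosure (J : Set G)) := by
  refine rf_of_isPSolvable (L := ⊤) hV le_normalizer_of_normal le_top le_normalizer_of_normal
    (isPSolvable_of_isSolvable inferInstance) (fun D _ hn _ hpow => ?_) fun K hK => ?_
  · have : D.Normal := normalizer_eq_top_iff.mp (top_le_iff.mp hn)
    exact (le_thOp hpow).trans hO
  · rw [normalClosure_eq_iSup_map_conj]
    refine iSup_le fun g => map_conj_le_iff.2 (hJ _ fun A hA hb => map_conj_le_iff.1 ?_)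
    exact hK _ (map_conj_le_of_normal (hA.trans le_normalClosure) g) (best_cj hb g)

theorem sq_mem (n : ℕ) : ∀ A : Subgroup G, Nat.card A = n → IsMulCommutative A → IsPGroup 2 A →
    (∀ B ≤ A, offM V B ≤ offM V A) → ∀ a ∈ A, a ^ 2 ∈ centralizer (V : Set G) := by
  induction n using Nat.strong_induction_on with
  | _ n ih =>
  intro A hn hA hP hbest
  by_cases hAV : A ≤ centralizer (V : Set G)
  · exact fun a ha => pow_mem (hAV ha) 2
  have hVp : IsPGroup 2 V := CopAct.isPGroup_of_isElementaryAbelian hV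
  have hab : ⁅A, A⁆ ≤ centralizer (V : Set G) := by
    rw [commutator_self_eq_bot_iff.2 hA]; exact bot_le
  obtain ⟨B, hB⟩ : ∃ B, B = A ⊓ centralizer ((⁅V, A⁆ : Subgroup G) : Set G) := ⟨_, rfl⟩
  have hBA : B ≤ A := hB ▸ inf_le_left
  have h1 : offM V A = offM V B := hB ▸ (off_replace hV.1 le_normalizer_of_normal hab hbest le_rfl).2
  have h2 : ⁅V, B⁆ ≠ ⊥ := hB ▸ off_ne_bot hVp hV.1 le_normalizer_of_normal hab (fun a ha => by
      obtain ⟨k, hk⟩ := hP ⟨a, ha⟩
      exact ⟨k, by rw [show a ^ 2 ^ k = 1 from congrArg Subtype.val hk]; exact one_mem _⟩)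
    hbest le_rfl fun h => hAV (le_centralizer_iff.1 (commutator_eq_bot_iff_le_centralizer.1 h))
  have hBb : IsBestOffenderOn 2 V B := ⟨fun D hD => (hbest D (hD.trans hBA)).trans h1.le,
    (commutator_mono hBA hBA).trans hab, fun b hb => pow_mem_centralizer_of_quad hV
      le_normalizer_of_normal (commutator_mono le_rfl hBA) (hB ▸ inf_le_right) hb⟩
  have hrf := rf_closure hV hO (J := B) fun K hK => hK B le_rfl hBb
  obtain ⟨a, haB, hta, haV⟩ : ∃ a ∈ B, RTv 2 V a ∧ a ∉ centralizer (V : Set G) := by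
    by_contra hne
    push Not at hne
    exact h2 (commutator_eq_bot_iff_le_centralizer.2 (le_centralizer_iff.1
      (hrf.le_of_rTv le_normalClosure hBb inf_le_right hne)))
  have haJ : a ∈ normalClosure (B : Set G) := le_normalClosure haB
  obtain ⟨W, hW⟩ : ∃ W, W = rW 2 V (normalClosure (B : Set G)) a := ⟨_, rfl⟩
  have hWV : W ≤ V := hW ▸ rW_le
  have hW4 : Nat.card W = 2 ^ 2 := hW ▸ hrf.card_rW haJ hta
  have hAW : ∀ g ∈ A, cj g W = W := fun g hg => by
    rw [hW, cj_rW hrf.hJ hta.1 (le_normalizer_of_normal (mem_top g))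
      (le_normalizer_of_normal (mem_top g)), th_comm_iff.1 hA g hg a (hBA haB),
      mul_inv_cancel_right]
  obtain ⟨w, hw, haw⟩ : ∃ w ∈ W, a ∉ centralizer ({w} : Set G) := by
    by_contra hne
    push Not at hne
    apply haV
    rw [← hrf.rE_inf haJ hta, ← hW]
    exact ⟨mem_rE hta.1, mem_centralizer_iff.2 fun w hw =>
      (mem_centralizer_singleton_iff.1 (hne w hw)).symm⟩
  have hi : (centralizer ({w} : Set G)).relIndex A = 2 := by
    obtain ⟨k, hk⟩ := hP.index ((centralizer ({w} : Set G)).subgroupOf A)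
    have h3 : (centralizer ({w} : Set G)).relIndex A < 2 ^ 2 := by
      rw [← FG.ncard_conj_orbit_subgroup, ← hW4]
      change _ < Set.ncard (W : Set G)
      refine Set.ncard_lt_ncard ⟨?_, fun h => ?_⟩
      · rintro _ ⟨g, hg, rfl⟩
        rw [← hAW g hg]
        exact conj_mem_cj g hw
      · obtain ⟨g, -, hg⟩ := h (one_mem W)
        rw [conj_eq_one_iff] at hg
        exact haw (hg ▸ mem_centralizer_singleton_iff.2 (by simp))
    rw [relIndex, hk] at h3 ⊢
    have h4 := (Nat.pow_lt_pow_iff_right one_lt_two).1 h3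
    have h5 : k ≠ 0 := by
      rintro rfl
      exact haw (subgroupOf_eq_top.1 (index_eq_one.1 hk) (hBA haB))
    rw [show k = 1 by omega, pow_one]
  have h3 : offM V A ≤ offM V (centralizer {w} ⊓ A) := by
    have h4 := card_inf_mul_relIndex (centralizer ({w} : Set G)) A
    have h5 := PG.mul_card_le_of_lt (hVp.to_le (inf_le_left :
        V ⊓ centralizer ((centralizer {w} ⊓ A : Subgroup G) : Set G) ≤ V))
      (lt_of_le_of_ne (inf_le_inf_left V (GT.centralizer_anti inf_le_right)) fun h => by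
        have h6 : w ∈ V ⊓ centralizer (A : Set G) := h ▸ ⟨hWV hw,
          le_centralizer_singleton_iff.1 inf_le_left⟩
        exact haw (le_centralizer_singleton_iff.2 h6.2 (hBA haB)))
    rw [offM, offM, ← h4, hi, mul_assoc]
    exact Nat.mul_le_mul_left _ h5
  have h4 := ih _ (hn ▸ card_lt_of_lt (lt_of_le_of_ne inf_le_right fun h =>
      haw (h.ge (hBA haB)).1)) (centralizer {w} ⊓ A) rfl (th_comm_mono hA inf_le_right)
    (hP.to_le inf_le_right) fun D hD => (hbest D (hD.trans inf_le_right)).trans h3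
  intro x hx
  by_cases hxw : x ∈ centralizer ({w} : Set G)
  · exact h4 x ⟨hxw, hx⟩
  have h5 : x * a ∈ centralizer ({w} : Set G) :=
    (mul_mem_iff_of_index_two (H := (centralizer ({w} : Set G)).subgroupOf A) hi
      (a := ⟨x, hx⟩) (b := ⟨a, hBA haB⟩)).2 (iff_of_false hxw haw)
  have h6 := h4 _ ⟨h5, mul_mem hx (hBA haB)⟩
  rw [Commute.mul_pow (th_comm_iff.1 hA x hx a (hBA haB))] at h6
  exact (mul_mem_cancel_right hta.pow_mem).1 h6

end

theorem exists_equiv {G : Type*} [Group G] [Finite G] {V H : Subgroup G} (h : FF1 2 V H)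
    (hH : H ≠ ⊥) : ∃ n : ℕ, 1 ≤ n ∧ Nonempty (H ≃* (Fin n → Equiv.Perm (Fin 3))) := by
  classical
  let ι := {E : Subgroup G // ∃ a ∈ H, IsTv 2 V a ∧ E = tvE 2 H a}
  have := Fintype.ofFinite ι
  obtain ⟨a, ha, hta⟩ := h.exists_isTv hH
  have : Nonempty ι := ⟨⟨_, a, ha, hta, rfl⟩⟩
  have hcomm : Pairwise fun E F : ι => ∀ x y : G, x ∈ E.1 → y ∈ F.1 → Commute x y := by
    rintro ⟨_, b, hb, htb, rfl⟩ ⟨_, c, hc, htc, rfl⟩ hne x y hx hy
    exact (commutator_eq_bot_iff_le_centralizer.1 (h.commutator_tvE_of_ne hb htb hc htc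
      fun e => hne (Subtype.ext e)) hx y hy).symm
  have hind : iSupIndep fun E : ι => E.1 := by
    rintro ⟨_, b, hb, htb, rfl⟩
    refine Disjoint.mono_right (iSup₂_le ?_) (disjoint_iff.mpr (h.tvE_inf_eq_bot hb htb))
    rintro ⟨_, c, hc, htc, rfl⟩ hF
    exact le_inf (tvE_le hc) (h.cases_of_ne hb htb hc htc fun k => hF (Subtype.ext k.symm)).1
  have hsup : ⨆ E : ι, E.1 = H := by
    refine le_antisymm (iSup_le ?_) (h.gen _ fun b hb htb => ?_)
    · rintro ⟨_, b, hb, htb, rfl⟩
      exact tvE_le hb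
    · exact (le_iSup_of_le (⟨_, b, hb, htb, rfl⟩ : ι) le_rfl : tvE 2 H b ≤ _)
        (mem_sup_right (mem_zpowers b))
  have he : ∀ E : ι, Nonempty (E.1 ≃* Equiv.Perm (Fin 3)) := by
    rintro ⟨_, b, hb, htb, rfl⟩
    obtain ⟨e1⟩ := (h.toFF0.tvData hb htb).sl2
    obtain ⟨e2⟩ := Cl.sl2_two_equiv_perm (F := ZMod 2) (by simp)
    exact ⟨e1.trans e2⟩
  refine ⟨Fintype.card ι, Fintype.card_pos, ⟨?_⟩⟩
  refine (MulEquiv.subgroupCongr ((noncommPiCoprod_range (hcomm := hcomm)).trans hsup).symm).trans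
    ((MonoidHom.ofInjective (injective_noncommPiCoprod_of_iSupIndep hind)).symm.trans
      ((MulEquiv.piCongrRight fun E => (he E).some).trans ?_))
  exact MulEquiv.arrowCongr (Fintype.equivFin ι) (MulEquiv.refl _)

/-- Let `X` be a finite solvable group whose Fitting subgroup is a 2-group (equivalently `F(X) = O₂(X)`), `T` a Sylow 2-subgroup of `X`, `J(T)` the subgroup generated by the abelian subgroups of `T` of largest order, `C` the largest normal subgroup of `X` centralizing the centre `Z(T)`, and `Y` the normal closure of `J(T)` in `X`. Then `X = C · Y · N_X(J(T))`, and either `Y ≤ C`, or `CY/C` is isomorphic to a direct product of at least one copy of the symmetric group of degree 3. -/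
theorem result {X : Type*} [Group X] [Finite X]
    [Group.IsSolvable X] (hF : Cfsg.fittingSubgroup X = Cfsg.pCore 2 X) (T : Sylow 2 X) :
    ((Subgroup.centralizer (((T : Subgroup X) ⊓ Subgroup.centralizer ((T : Subgroup X) : Set X) : Subgroup X) : Set X)).normalCore
        ⊔ Subgroup.normalClosure (Cfsg.thompsonSubgroupAOf (T : Subgroup X) : Set X)
        ⊔ Subgroup.normalizer (Cfsg.thompsonSubgroupAOf (T : Subgroup X) : Set X) = ⊤) ∧
    (Subgroup.normalClosure (Cfsg.thompsonSubgroupAOf (T : Subgroup X) : Set X)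
        ≤ (Subgroup.centralizer (((T : Subgroup X) ⊓ Subgroup.centralizer ((T : Subgroup X) : Set X) : Subgroup X) : Set X)).normalCore
      ∨ ∃ n : ℕ, 1 ≤ n ∧
        Nonempty (↥(Subgroup.normalClosure (Cfsg.thompsonSubgroupAOf (T : Subgroup X) : Set X)) ⧸
            ((Subgroup.centralizer (((T : Subgroup X) ⊓ Subgroup.centralizer ((T : Subgroup X) : Set X) : Subgroup X) : Set X)).normalCore).subgroupOf
              (Subgroup.normalClosure (Cfsg.thompsonSubgroupAOf (T : Subgroup X) : Set X))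
          ≃* (Fin n → Equiv.Perm (Fin 3)))) := by
  rw [thompsonSubgroupAOf_eq]
  obtain ⟨E, hE⟩ : ∃ E, E = normalClosure (thJ 0 (T : Subgroup X) : Set X) := ⟨_, rfl⟩
  have hEn : E.Normal := hE ▸ inferInstance
  have hJE : thJ 0 (T : Subgroup X) ≤ E := hE ▸ le_normalClosure
  constructor
  · rw [← hE, eq_top_iff]
    intro g _
    obtain ⟨m, hm, hk⟩ := ((isSylowOf_top T).inf_of_normal (N := E) le_top
      le_normalizer_of_normal).frattini (g := g) (le_normalizer_of_normal (mem_top g))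
    have h1 := normalizer_le_normalizer_thJ 0 _ hk
    rw [thJ_eq_of_le (le_inf (thJ_le 0 _) hJE) inf_le_left] at h1
    rw [← mul_inv_cancel_left m g]
    exact mul_mem_sup (mem_sup_right hm) h1
  obtain ⟨Z, hZ⟩ : ∃ Z, Z = normalClosure (((T : Subgroup X) ⊓
    centralizer ((T : Subgroup X) : Set X) : Subgroup X) : Set X) := ⟨_, rfl⟩
  have hZn : Z.Normal := hZ ▸ inferInstance
  have hC : (centralizer (((T : Subgroup X) ⊓ centralizer ((T : Subgroup X) : Set X) :
      Subgroup X) : Set X)).normalCore = centralizer (Z : Set X) := by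
    refine le_antisymm (le_centralizer_iff.1 ?_) (normal_le_normalCore.2 ?_)
    · rw [hZ]
      exact normalClosure_le_normal (le_centralizer_iff.1 (normalCore_le _))
    · exact GT.centralizer_anti (hZ ▸ le_normalClosure)
  have hc : centralizer (pCore 2 X : Set X) ≤ pCore 2 X := hF ▸ centralizer_fitting_le
  have hZ1 : Z ≤ centralizer (pCore 2 X : Set X) := by
    rw [hZ]
    exact normalClosure_le_normal (inf_le_right.trans (GT.centralizer_anti (pCore_le_sylow T)))
  have hZc : IsMulCommutative Z := PG.isMulCommutative_iff_le_centralizer.2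
    (hZ1.trans (GT.centralizer_anti (hZ1.trans hc)))
  have hZp : IsPGroup 2 Z := (isPGroup_pCore 2).to_le (hZ1.trans hc)
  have hO : thOp 2 Z ≤ centralizer (Z : Set X) := by
    refine thOp_le_centralizer_of_le_iSup ?_
    nth_rw 1 [hZ]
    rw [normalClosure_eq_iSup_map_conj]
    refine iSup_le fun g => le_iSup_of_le (g • T) (le_inf ?_ ?_)
    · exact map_conj_le_of_normal (hZ ▸ le_normalClosure) g
    · rw [coe_smul_sylow_eq_map_conj, centralizer_map_conj]
      exact map_mono inf_le_right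
  obtain ⟨V, hV⟩ : ∃ V, V = omegaOne 2 Z := ⟨_, rfl⟩
  have hVZ : V ≤ Z := hV ▸ th_omegaOne_le 2 Z
  have hVn : V.Normal := by
    rw [← normalizer_eq_top_iff, eq_top_iff, hV]
    exact le_normalizer_of_normal.trans (th_normalizer_le_normalizer_omegaOne 2 Z)
  have hVe : IsElementaryAbelian 2 V :=
    ⟨th_comm_mono hZc hVZ, fun a ha => ((th_mem_omegaOne_iff hZc).1 (hV ▸ ha)).2⟩
  have hCV : centralizer (V : Set X) = centralizer (Z : Set X) := by
    refine le_antisymm ((le_thOp fun m hm => ?_).trans hO) (GT.centralizer_anti hVZ)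
    obtain ⟨k, r, hr, hk⟩ := Nat.exists_eq_pow_mul_and_not_dvd (orderOf_pos m).ne' 2 (by norm_num)
    refine ⟨k, zpowers_le.1 (CopAct.le_centralizer_of_pow_prime_eq_one hZc hZp
      le_normalizer_of_normal ?_ fun v hv h2 => le_centralizer_iff.1 (zpowers_le.2 (pow_mem hm _))
        (hV ▸ th_mem_omegaOne hv h2 : v ∈ V))⟩
    rw [Nat.card_zpowers, orderOf_pow_of_dvd (by positivity) ⟨r, hk⟩, hk,
      Nat.mul_div_cancel_left _ (by positivity)]
    exact ((Nat.Prime.coprime_iff_not_dvd Nat.prime_two).2 hr).symm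
  have hOV : thOp 2 V ≤ centralizer (V : Set X) := by
    rw [hCV]
    exact (le_thOp fun m hm => hCV ▸ exists_pow_mem_of_mem_thOp hm).trans hO
  have hVT : V ≤ T := hVZ.trans (hZ1.trans (hc.trans (pCore_le_sylow T)))
  have hrf := rf_closure hVe hOV (J := thJ 0 (T : Subgroup X)) fun K hK =>
    thJ_le_iff.2 fun A hA => hK A (le_thJ hA) ⟨fun B hB =>
      offM_le_of_abFam hA hVT hVe.1 (fun v _ => pow_zero v) hB, by
        rw [commutator_self_eq_bot_iff.2 (abFam_comm hA)]; exact bot_le,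
      sq_mem hVe hOV _ A rfl (abFam_comm hA) (T.isPGroup'.to_le (abFam_le hA)) fun B hB =>
        offM_le_of_abFam hA hVT hVe.1 (fun v _ => pow_zero v) hB⟩
  by_cases h : normalClosure (thJ 0 (T : Subgroup X) : Set X) ≤ centralizer (V : Set X)
  · exact Or.inl (by rwa [hC, ← hCV])
  right
  obtain ⟨n, hn, ⟨e⟩⟩ := exists_equiv hrf.ff fun h1 => h ((bar_eq_bot_iff hrf.hJ).1 h1)
  obtain ⟨e'⟩ := nonempty_quotient_equiv hrf.hJ
  exact ⟨n, hn, ⟨(QuotientGroup.quotientMulEquivOfEq (by rw [hC, hCV])).trans (e'.trans e)⟩⟩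

end Cfsg.Agent.S4302
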