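import Mathlib
import Cfsg.Statements.S4305
import Cfsg.Agent.Loc.ShuD

set_option autoImplicit false
open Cfsg

namespace Cfsg.Agent.S4305

open Cfsg.Agent.GT Cfsg.Agent.Loc.Shu

/-- Let the symmetric group of degree 3 act by automorphisms on a finite solvable group `G` of order prime to 6, so that only the identity of `G` is fixed by all of it. Then the derived subgroup of `G` is nilpotent. -/
theorem result {G : Type*} [Group G] [Finite G] [Group.IsSolvable G]
    [MulDistribMulAction (Equiv.Perm (Fin 3)) G] (hcop : (Nat.card G).Coprime 6)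
    (hfpf : ∀ g : G, (∀ a : Equiv.Perm (Fin 3), a • g = g) → g = 1) :
    Group.IsNilpotent ↥(commutator G) := by
  let φ := MulDistribMulAction.toMulAut (Equiv.Perm (Fin 3)) G
  have := CopAct.instFiniteSemidirect φ
  have := CopAct.sdL_top_normal φ
  have hA : Nat.card (Equiv.Perm (Fin 3)) = 3 * 2 := by
    rw [Nat.card_eq_fintype_card, Fintype.card_perm]; rfl
  have h1 := isNilpotent_comm (G := CopAct.sdL φ ⊤) (A := CopAct.sdR φ ⊤)
    ((CopAct.isSolvable_sdL_iff _ _).2 inferInstance) (by rw [CopAct.card_sdR_top, hA])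
    (fun h => absurd (SemidirectProduct.inr_injective (φ := φ) (by
        rw [map_mul, map_mul]
        exact congrArg Subtype.val (h.is_comm.comm ⟨_, Equiv.swap 0 1, trivial, rfl⟩
          ⟨_, Equiv.swap 1 2, trivial, rfl⟩)) :
      (Equiv.swap 0 1 * Equiv.swap 1 2 : Equiv.Perm (Fin 3)) = Equiv.swap 1 2 * Equiv.swap 0 1)
      (by decide))
    (by rw [CopAct.card_sdR_top, CopAct.card_sdL_top, hA]; exact hcop.symm)
    (by
      rw [CopAct.sdL_inf_centralizer_top, eq_bot_iff]
      rintro _ ⟨g, hg, rfl⟩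
      rw [hfpf g (CopAct.mem_actFixed.1 hg.2), map_one]
      exact one_mem _)
  rw [CopAct.sdL, ← Subgroup.map_commutator] at h1
  exact (CopAct.isNilpotent_sdL_iff φ _).1 h1

end Cfsg.Agent.S4305
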