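import Mathlib
import Cfsg.Statements.S4306
import Cfsg.Agent.Loc.ShuC

set_option autoImplicit false
open Cfsg

namespace Cfsg.Agent.S4306

open Cfsg.Agent.GT Cfsg.Agent.Loc.Shu Cfsg.Agent.FG.H93

/-- Let `A` be a non-abelian group of order `pq` with `p, q` distinct primes, acting by automorphisms on a finite solvable group `G` of order prime to `pq`, so that only the identity of `G` is fixed by all of `A`. Then `G` has Fitting height at most 2: there is a normal nilpotent subgroup `F` of `G` with `G/F` nilpotent. -/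
theorem result {G A : Type*} [Group G] [Finite G]
    [Group.IsSolvable G] [Group A] [Finite A] [MulDistribMulAction A G] (p q : ℕ) (hp : p.Prime) (hq : q.Prime) (hpq : p ≠ q)
    (hA : Nat.card A = p * q) (hAna : ¬ IsMulCommutative A) (hcop : (Nat.card G).Coprime (p * q))
    (hfpf : ∀ g : G, (∀ a : A, a • g = g) → g = 1) :
    ∃ F : Subgroup G, ∃ hF : F.Normal, Group.IsNilpotent ↥F ∧ Group.IsNilpotent (G ⧸ F) := by
  wlog hlt : q < p generalizing p q
  · exact this q p hq hp hpq.symm (by rw [hA, mul_comm]) (by rwa [mul_comm]) (by omega)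
  let φ := MulDistribMulAction.toMulAut A G
  have := CopAct.instFiniteSemidirect φ
  have := CopAct.sdL_top_normal φ
  have h1 := isNilpotent_nilRes (G := CopAct.sdL φ ⊤) (A := CopAct.sdR φ ⊤)
    ((CopAct.isSolvable_sdL_iff _ _).2 inferInstance) hp hq hlt
    ⟨by rw [CopAct.card_sdR_top, hA], fun _ h => hAna ⟨⟨fun a b => SemidirectProduct.inr_injective
      (φ := φ) (by
        rw [map_mul, map_mul]
        exact congrArg Subtype.val (h.is_comm.comm ⟨_, a, trivial, rfl⟩ ⟨_, b, trivial, rfl⟩))⟩⟩⟩
    (by rw [CopAct.card_sdR_top, CopAct.card_sdL_top, hA]; exact hcop.symm)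
    (by
      rw [CopAct.sdL_inf_centralizer_top, eq_bot_iff]
      rintro _ ⟨g, hg, rfl⟩
      rw [hfpf g (CopAct.mem_actFixed.1 hg.2), map_one]
      exact one_mem _)
  rw [CopAct.sdL, ← map_nilRes] at h1
  refine ⟨nilRes ⊤, inferInstance, (CopAct.isNilpotent_sdL_iff φ _).1 h1, ?_⟩
  have h2 : Group.IsNilpotent (⊤ : Subgroup (G ⧸ nilRes (⊤ : Subgroup G))) := by
    rw [← nilRes_eq_bot_iff, ← Subgroup.map_top_of_surjective _
      (QuotientGroup.mk'_surjective (nilRes (⊤ : Subgroup G))), ← map_nilRes,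
      Subgroup.map_eq_bot_iff, QuotientGroup.ker_mk']
  exact Group.nilpotent_of_mulEquiv Subgroup.topEquiv

end Cfsg.Agent.S4306
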