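import Mathlib
import Cfsg.Statements.S4316
import Cfsg.Agent.Loc.MssSyl
import Cfsg.Agent.GT.CoprimeGen
import Cfsg.Agent.GT.CoprimeProd
import Cfsg.Agent.GT.CoprimeAct
import Cfsg.Agent.FG.ClassCount

set_option autoImplicit false
universe u
open Cfsg

namespace Cfsg.Agent.S4316

open Subgroup Cfsg.Agent.GT Cfsg.Agent.Loc.Mss
open scoped commutatorElement

/-- Dietzmann's lemma, quantitative form. -/
theorem dietzmann {H : Type*} [Group H] [Finite H] {Y : Set H} (hY : closure Y = ⊤) {k M n : ℕ}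
    (hk : Nat.card Y ≤ k) (hM : 0 < M) (hy : ∀ y ∈ Y, y ^ M = 1) (hn : (center H).index ≤ n) :
    Nat.card H ≤ (n * M) ^ (n * k) * n := by
  have h0 : 0 < (center H).index := Nat.pos_of_ne_zero index_ne_zero_of_finite
  have h1 : ∀ g : H, MonoidHom.transferCenterPow H g ^ M = 1 := fun g => by
    have hg : g ∈ closure Y := hY ▸ mem_top g
    induction hg using closure_induction with
    | mem y h => rw [← map_pow, hy y h, map_one]
    | one => simp
    | mul a b _ _ ha hb =>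
      rw [map_mul, Commute.mul_pow (Subtype.ext (mem_center_iff.1
        (MonoidHom.transferCenterPow H b).2 _)), ha, hb, one_mul]
    | inv a _ ha => rw [map_inv, inv_pow, ha, inv_one]
  have h2 : ∀ z : center H, z ^ ((center H).index * M) = 1 := fun z => Subtype.ext (by
    have := congrArg Subtype.val (h1 z)
    rw [coe_pow, MonoidHom.transferCenterPow_apply] at this
    rw [coe_pow, pow_mul]
    exact this)
  have h3 : Group.rank H ≤ k := by
    have := rank_closure_finite_le_nat_card Y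
    rw [Group.rank_congr (MulEquiv.subgroupCongr hY), Group.rank_congr topEquiv] at this
    exact this.trans hk
  let _ : CommGroup (center H) := IsMulCommutative.instCommGroup
  have h4 := Nat.le_of_dvd (by positivity) (card_dvd_exponent_pow_rank' (center H) h2)
  rw [← (center H).card_mul_index]
  refine Nat.mul_le_mul (h4.trans ?_) hn
  have h5 := (rank_le_index_mul_rank (center H)).trans (Nat.mul_le_mul hn h3)
  exact (Nat.pow_le_pow_left (Nat.mul_le_mul_right M hn) _).trans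
    (Nat.pow_le_pow_right (by nlinarith) h5)

variable {Ω : Type*} [Group Ω] [Finite Ω] {A G : Subgroup Ω}

/-- `A / B` is cyclic. -/
def Coc (A B : Subgroup Ω) : Prop := B ≤ A ∧ ∃ a ∈ A, B ⊔ zpowers a = A

theorem idx_p [Fintype {B // Coc A B}] (hA : IsMulCommutative A) {r : ℕ} [Fact r.Prime]
    {S : Subgroup Ω} (hS : IsPGroup r S) (hAS : A ≤ 𝐍[S])
    (hcop : (Nat.card A).Coprime (Nat.card S)) (X : Subgroup Ω) : X ≤ S → A ≤ 𝐍[X] →
      X.relIndex S ≤ ∏ B : {B // Coc A B}, (X ⊓ 𝐂[B.1]).relIndex (S ⊓ 𝐂[B.1]) := by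
  have pos : ∀ U V : Subgroup Ω, 1 ≤ U.relIndex V := fun U V =>
    Nat.pos_of_ne_zero index_ne_zero_of_finite
  induction X using WellFoundedGT.induction with
  | _ X ih =>
  intro hX hAX
  rcases hX.eq_or_lt with rfl | hlt
  · rw [relIndex_self]
    exact Finset.one_le_prod' fun B _ => pos _ _
  have h1 := Tr.lt_inf_normalizer hS hlt
  have h2 : A ≤ 𝐍[S ⊓ 𝐍[X]] := norm_inf hAS (norm_norm hAX)
  obtain ⟨B, hB, h3⟩ : ∃ B, Coc A B ∧ ¬ S ⊓ 𝐍[X] ⊓ 𝐂[B] ≤ X := by
    by_contra hc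
    push Not at hc
    exact h1.not_ge (CopAct.le_of_cocyclic_centralizer_le hA h2
      (hcop.coprime_dvd_right (card_dvd_of_le inf_le_left)) fun B h4 h5 => hc B ⟨h4, h5⟩)
  obtain ⟨Z, hZ⟩ : ∃ Z, Z = S ⊓ 𝐍[X] ⊓ 𝐂[B] ⊔ X := ⟨_, rfl⟩
  have hXZ : X ≤ Z := hZ ▸ le_sup_right
  have hUZ : S ⊓ 𝐍[X] ⊓ 𝐂[B] ≤ Z := hZ ▸ le_sup_left
  have hZS : Z ≤ S := hZ ▸ sup_le (inf_le_left.trans inf_le_left) hX
  have h4 := ih Z (lt_of_le_of_ne hXZ fun e => h3 (hUZ.trans e.ge)) hZS (by
    rw [hZ]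
    exact norm_sup (CopAct.le_normalizer_inf_centralizer_of_isMulCommutative hA hB.1 h2) hAX)
  have h5 : X.relIndex Z ≤ (X ⊓ 𝐂[B]).relIndex (Z ⊓ 𝐂[B]) := by
    have e : X.relIndex Z = X.relIndex (S ⊓ 𝐍[X] ⊓ 𝐂[B]) := by
      rw [hZ, relIndex_sup_of_le_normalizer (inf_le_left.trans inf_le_right)]
    rw [e]
    calc X.relIndex (S ⊓ 𝐍[X] ⊓ 𝐂[B]) ≤ X.relIndex (Z ⊓ 𝐂[B]) :=
          relIndex_le_of_le_right (le_inf hUZ inf_le_right) index_ne_zero_of_finite
      _ ≤ _ := relIndex_le_of_le_left inf_le_left index_ne_zero_of_finite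
  have h6 := Finset.single_le_prod' (s := Finset.univ)
    (f := fun B' : {B // Coc A B} => (X ⊓ 𝐂[B'.1]).relIndex (Z ⊓ 𝐂[B'.1]))
    (fun B' _ => pos (X ⊓ 𝐂[B'.1]) (Z ⊓ 𝐂[B'.1])) (Finset.mem_univ ⟨B, hB⟩)
  beta_reduce at h6
  calc X.relIndex S = X.relIndex Z * Z.relIndex S := (relIndex_mul_relIndex X Z S hXZ hZS).symm
    _ ≤ _ := Nat.mul_le_mul (h5.trans h6) h4
    _ = _ := by
      rw [← Finset.prod_mul_distrib]
      exact Finset.prod_congr rfl fun B _ => relIndex_mul_relIndex _ _ _ (inf_le_inf_right _ hXZ)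
        (inf_le_inf_right _ hZS)

omit [Finite Ω] in
theorem card_coc [Finite A] : Nat.card {B // Coc A B} ≤ 2 ^ Nat.card A := by
  have := Fintype.ofFinite A
  have h := Nat.card_le_card_of_injective (fun B : {B // Coc A B} => (B.1.subgroupOf A : Set A))
    fun B B' e => Subtype.ext (by
      rw [← map_subgroupOf_eq_of_le B.2.1, ← map_subgroupOf_eq_of_le B'.2.1, SetLike.coe_injective e])
  rwa [Nat.card_eq_fintype_card (α := Set A), Fintype.card_set, ← Nat.card_eq_fintype_card] at h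

theorem idx (hA : IsMulCommutative A) (hAG : A ≤ 𝐍[G]) (hcop : (Nat.card A).Coprime (Nat.card G))
    {X : Subgroup Ω} (hAX : A ≤ 𝐍[X]) {n : ℕ} (hn : ∀ B, Coc A B → X.relIndex (G ⊓ 𝐂[B]) ≤ n) :
    X.relIndex G ≤ (n ^ 2 ^ Nat.card A).factorial := by
  have := Fintype.ofFinite {B // Coc A B}
  have hn1 : 1 ≤ n := (Nat.pos_of_ne_zero index_ne_zero_of_finite).trans_le
    (hn A ⟨le_rfl, 1, one_mem _, by simp⟩)
  refine Nat.le_of_dvd (Nat.factorial_pos _) ((Nat.dvd_iff_prime_pow_dvd_dvd _ _).2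
    fun r j hr hd => Nat.dvd_factorial (pow_pos hr.pos _) ?_)
  have := Fact.mk hr
  obtain ⟨S, h1, h2, h3, h4⟩ := CopAct.exists_invariant_sylowIn hAG hcop
    (Or.inl (CopAct.isSolvable_of_isMulCommutative hA)) r
  have h5 : r ^ j ∣ (S ⊓ X).relIndex S := by
    refine Nat.Coprime.dvd_of_dvd_mul_right ((hr.coprime_iff_not_dvd.2 h3).pow_left j) ?_
    rw [relIndex_mul_relIndex _ S G inf_le_left h1]
    exact hd.trans (relIndex_dvd_of_le_left G inf_le_right)
  refine (Nat.le_of_dvd (Nat.pos_of_ne_zero index_ne_zero_of_finite) h5).trans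
    ((idx_p hA h2 h4 (hcop.coprime_dvd_right (card_dvd_of_le h1)) _ inf_le_left
      (norm_inf h4 hAX)).trans ((Finset.prod_le_pow_card _ _ n fun B _ => ?_).trans ?_))
  · rw [inf_right_comm, inf_relIndex_left]
    exact (relIndex_le_of_le_right (inf_le_inf_right _ h1) index_ne_zero_of_finite).trans
      (hn B.1 B.2)
  · refine Nat.pow_le_pow_right hn1 ?_
    rw [Finset.card_univ, ← Nat.card_eq_fintype_card]
    exact card_coc

omit [Finite Ω] in
theorem ncard_biUnion {α β : Type*} {t : Set α} (ht : t.Finite) {s : α → Set β} {m : ℕ}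
    (h : ∀ a ∈ t, (s a).ncard ≤ m) : (⋃ a ∈ t, s a).ncard ≤ t.ncard * m := by
  have h1 := ht.toFinset.set_ncard_biUnion_le s
  simp only [Set.Finite.mem_toFinset] at h1
  rw [Set.ncard_eq_toFinset_card t ht]
  exact h1.trans (Finset.sum_le_card_nsmul _ _ m fun a ha => h a (ht.mem_toFinset.1 ha))

theorem main (hA : IsMulCommutative A) (hAG : A ≤ 𝐍[G]) (hcop : (Nat.card A).Coprime (Nat.card G))
    (h3 : ∀ B B', Coc A B → Coc A B' → B ⊓ B' ≠ ⊥) {m : ℕ}
    (hm : ∀ a ∈ A, a ≠ 1 → Nat.card ↥⁅G ⊓ 𝐂[zpowers a], G ⊓ 𝐂[zpowers a]⁆ ≤ m) {k n : ℕ}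
    (hk : k = Nat.card A) (hn : n = ((m ^ k) ^ 2 ^ k).factorial) :
    Nat.card ↥⁅G, G⁆ ≤ (n ^ (k * m * n) * m.factorial) ^ (n ^ (k * m * n) * (k * m * n)) *
      n ^ (k * m * n) := by
  have hc : ∀ B B', Coc A B → Coc A B' → ∃ a ∈ A, a ≠ 1 ∧
      ⁅G ⊓ 𝐂[B], G ⊓ 𝐂[B']⁆ ≤ ⁅G ⊓ 𝐂[zpowers a], G ⊓ 𝐂[zpowers a]⁆ := fun B B' hB hB' => by
    obtain ⟨⟨a, ha⟩, h1⟩ := ne_bot_iff_exists_ne_one.1 (h3 B B' hB hB')
    exact ⟨a, hB.1 ha.1, fun e => h1 (Subtype.ext e), commutator_mono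
      (inf_le_inf_left _ (cent_anti (zpowers_le.2 ha.1)))
      (inf_le_inf_left _ (cent_anti (zpowers_le.2 ha.2)))⟩
  have h1 : ∀ B, Coc A B → ∀ x ∈ G ⊓ 𝐂[B], (centralizer {x}).relIndex G ≤ n := fun B hB x hx => by
    have := Fintype.ofFinite A
    have h4 := idx hA hAG hcop (X := ⨅ a : A, centralizer {(a : Ω) * x * (a : Ω)⁻¹}) (n := m ^ k)
      (norm_of_forall_cj_le fun b hb => le_iInf fun a => cj_le_iff.2 fun y hy => by
        have := mem_centralizer_singleton_iff.1 (mem_iInf.1 hy (⟨b, hb⟩⁻¹ * a))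
        rw [mem_centralizer_singleton_iff]
        simp only [coe_mul, InvMemClass.coe_inv] at this
        calc b * y * b⁻¹ * (a * x * (a : Ω)⁻¹) = b * (y * (b⁻¹ * a * x * (b⁻¹ * a)⁻¹)) * b⁻¹ := by group
          _ = _ := by rw [this]; group) fun B' hB' => by
        refine (relIndex_iInf_le _).trans ((Finset.prod_le_pow_card _ _ m fun a _ => ?_).trans ?_)
        · obtain ⟨c, hc1, hc2, hc3⟩ := hc B' B hB' hB
          have hy := conj_mem_of_norm
            (CopAct.le_normalizer_inf_centralizer_of_isMulCommutative hA hB.1 hAG a.2) hx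
          generalize (a : Ω) * x * (a : Ω)⁻¹ = y at hy
          rw [← FG.ncard_conj_orbit_subgroup]
          refine le_trans (Set.ncard_le_ncard_of_injOn (fun z => z * y⁻¹) ?_
            (mul_left_injective _).injOn (Set.toFinite _)) (hm c hc1 hc2)
          rintro _ ⟨g, hg, rfl⟩
          exact hc3 (commutator_mem_commutator hg hy)
        · rw [Finset.card_univ, ← Nat.card_eq_fintype_card, hk]
    rw [← hk, ← hn] at h4
    refine (relIndex_le_of_le_left ((iInf_le _ 1).trans (le_of_eq ?_))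
      index_ne_zero_of_finite).trans h4
    simp
  let E : Set Ω := ⋃ a ∈ (A \ {1} : Set Ω),
    {e | e ∈ ⁅G ⊓ 𝐂[zpowers a], G ⊓ 𝐂[zpowers a]⁆ ∧ ∃ B, Coc A B ∧ e ∈ 𝐂[B]}
  let Y : Set Ω := ⋃ e ∈ E, {y | ∃ g ∈ G, g * e * g⁻¹ = y}
  have hDG : ∀ a : Ω, ⁅G ⊓ 𝐂[zpowers a], G ⊓ 𝐂[zpowers a]⁆ ≤ G := fun a =>
    (comm_le_left le_normalizer).trans inf_le_left
  have hE : ∀ e ∈ E, e ^ m.factorial = 1 ∧ ∃ B, Coc A B ∧ e ∈ G ⊓ 𝐂[B] := fun e he => by
    obtain ⟨a, ha, he, B, hB, h4⟩ := Set.mem_iUnion₂.1 he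
    exact ⟨orderOf_dvd_iff_pow_eq_one.1 ((orderOf_dvd_natCard _ he).trans
      (Nat.dvd_factorial Nat.card_pos (hm a ha.1 ha.2))), B, hB, hDG a he, h4⟩
  have hEc : E.ncard ≤ k * m := by
    refine (ncard_biUnion (Set.toFinite _) fun a ha => ?_).trans
      (Nat.mul_le_mul_right m (hk ▸ Set.ncard_le_ncard Set.sdiff_subset))
    exact (Set.ncard_le_ncard fun e he => he.1).trans (hm a ha.1 ha.2)
  have hYc : Y.ncard ≤ k * m * n := by
    refine (ncard_biUnion (Set.toFinite _) fun e he => ?_).trans (Nat.mul_le_mul_right n hEc)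
    obtain ⟨-, B, hB, h4⟩ := hE e he
    rw [FG.ncard_conj_orbit_subgroup]
    exact h1 B hB e h4
  have hY : ∀ y ∈ Y, y ∈ G ∧ y ^ m.factorial = 1 ∧ (centralizer {y}).relIndex G ≤ n := by
    intro y hy
    obtain ⟨e, he, g, hg, rfl⟩ := Set.mem_iUnion₂.1 hy
    obtain ⟨h4, B, hB, h5⟩ := hE e he
    refine ⟨G.mul_mem (G.mul_mem hg h5.1) (G.inv_mem hg), by rw [conj_pow, h4]; simp, ?_⟩
    refine le_of_eq_of_le ?_ (h1 B hB e h5)
    rw [← FG.ncard_conj_orbit_subgroup, ← FG.ncard_conj_orbit_subgroup]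
    congr 1
    ext z
    exact ⟨fun ⟨h, hh, e'⟩ => ⟨h * g, G.mul_mem hh hg, by rw [← e']; group⟩,
      fun ⟨h, hh, e'⟩ => ⟨h * g⁻¹, G.mul_mem hh (G.inv_mem hg), by rw [← e']; group⟩⟩
  have hGY : G ≤ 𝐍[closure Y] := norm_of_forall_cj_le fun g hg => by
    rw [MonoidHom.map_closure, closure_le]
    rintro _ ⟨y, hy, rfl⟩
    obtain ⟨e, he, h, hh, rfl⟩ := Set.mem_iUnion₂.1 hy
    exact subset_closure (Set.mem_iUnion₂.2 ⟨e, he, g * h, G.mul_mem hg hh, by simp [mul_assoc]⟩)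
  have h2 : ⁅G, G⁆ ≤ closure Y := by
    have h4 : ∀ B, Coc A B → ⁅G ⊓ 𝐂[B], G⁆ ≤ closure Y := fun B hB => by
      refine (le_cmod.1 (CopAct.le_of_cocyclic_centralizer_le hA hAG hcop fun B' h5 h6 =>
        le_cmod.2 ⟨inf_le_left.trans hGY, ?_⟩)).2
      obtain ⟨a, ha, ha1, h7⟩ := hc B B' hB ⟨h5, h6⟩
      have h8 := CopAct.le_normalizer_inf_centralizer_of_isMulCommutative hA (zpowers_le.2 ha) hAG
      refine h7.trans (CopAct.le_of_cocyclic_centralizer_le hA (norm_comm h8 h8)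
        (hcop.coprime_dvd_right (card_dvd_of_le (hDG a))) fun B₁ h9 h10 e he => subset_closure ?_)
      exact Set.mem_iUnion₂.2 ⟨e, Set.mem_iUnion₂.2 ⟨a, ⟨ha, ha1⟩, he.1, B₁, ⟨h9, h10⟩, he.2⟩,
        1, one_mem _, by simp⟩
    exact (le_cmod.1 (CopAct.le_of_cocyclic_centralizer_le hA hAG hcop fun B h5 h6 =>
      le_cmod.2 ⟨inf_le_left.trans hGY, by rw [commutator_comm]; exact h4 B ⟨h5, h6⟩⟩)).2
  refine (card_le_of_le h2).trans (dietzmann (Y := Subtype.val ⁻¹' Y) closure_closure_coe_preimage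
    ?_ (Nat.factorial_pos m) (fun y hy => Subtype.ext (hY y hy).2.1) ?_)
  · exact (Set.ncard_le_ncard_of_injOn Subtype.val (fun y hy => hy) Subtype.val_injective.injOn
      (Set.toFinite _)).trans hYc
  · have := Fintype.ofFinite Y
    have hYG : closure Y ≤ G := (closure_le _).2 fun y hy => (hY y hy).1
    have hn1 : 1 ≤ n := hn ▸ Nat.factorial_pos _
    calc (center (closure Y)).index ≤ (⨅ y : Y, centralizer {(y : Ω)}).relIndex (closure Y) := by
          refine Nat.le_of_dvd (Nat.pos_of_ne_zero index_ne_zero_of_finite) (index_dvd_of_le ?_)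
          intro z hz
          have h5 : closure Y ≤ centralizer {(z : Ω)} := (closure_le _).2 fun y hy =>
            mem_centralizer_singleton_iff.2
              (mem_centralizer_singleton_iff.1 (mem_iInf.1 hz ⟨y, hy⟩)).symm
          exact mem_center_iff.2 fun w => Subtype.ext (mem_centralizer_singleton_iff.1 (h5 w.2))
      _ ≤ ∏ y : Y, (centralizer {(y : Ω)}).relIndex (closure Y) := relIndex_iInf_le _
      _ ≤ n ^ (Finset.univ : Finset Y).card := Finset.prod_le_pow_card _ _ n fun y _ =>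
          (relIndex_le_of_le_right hYG index_ne_zero_of_finite).trans (hY y y.2).2.2
      _ ≤ _ := Nat.pow_le_pow_right hn1 (by
          rw [Finset.card_univ, ← Nat.card_eq_fintype_card]
          exact hYc)

/-- The bound. -/
def bound (k m n : ℕ) : ℕ :=
  (n ^ (k * m * n) * m.factorial) ^ (n ^ (k * m * n) * (k * m * n)) * n ^ (k * m * n)


/-- There is a function `f` of two natural-number arguments with the following property. Let `q` be a prime and `A` an elementary abelian group of order `q³` acting by automorphisms on a finite group `G` of order prime to `q`, and suppose that for every non-identity `a ∈ A` the derived subgroup of the fixed-point subgroup `C_G(a)` has order at most `m`. Then the derived subgroup of `G` has order at most `f(q, m)`. -/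
theorem result :
    ∃ f : ℕ → ℕ → ℕ, ∀ (q m : ℕ) (A G : Type u) [Group A] [Finite A] [Group G] [Finite G] [MulDistribMulAction A G],
      q.Prime → Nat.card A = q ^ 3 → (∀ a b : A, a * b = b * a) → (∀ a : A, a ^ q = 1) → ¬ q ∣ Nat.card G →
      (∀ a : A, a ≠ 1 → Nat.card ↥(commutator ↥(FixedPoints.subgroup (Subgroup.zpowers a) G)) ≤ m) →
      Nat.card ↥(commutator G) ≤ f q m := by
  refine ⟨fun q m => bound (q ^ 3) m ((m ^ q ^ 3) ^ 2 ^ q ^ 3).factorial, ?_⟩
  intro q m A G _ _ _ _ _ hq hA hc he hG hm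
  have := Fact.mk hq
  let φ := MulDistribMulAction.toMulAut A G
  have := CopAct.instFiniteSemidirect φ
  have hcom : IsMulCommutative (CopAct.sdR φ ⊤) := ⟨⟨by
    rintro ⟨_, a, -, rfl⟩ ⟨_, b, -, rfl⟩
    exact Subtype.ext (by simp only [coe_mul, ← map_mul, hc a b])⟩⟩
  have hel : IsElementaryAbelian q (CopAct.sdR φ ⊤) := ⟨hcom, by
    rintro _ ⟨a, -, rfl⟩
    rw [← map_pow, he, map_one]⟩
  have hcA : Nat.card (CopAct.sdR φ ⊤) = q ^ 3 := by rw [CopAct.card_sdR_top, hA]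
  have h1 : ∀ B, Coc (CopAct.sdR φ ⊤) B → q ^ 2 ≤ Nat.card B := fun B hB => by
    have h2 := (B.subgroupOf (CopAct.sdR φ ⊤)).card_mul_index
    rw [hcA, Nat.card_congr (subgroupOfEquivOfLe hB.1).toEquiv] at h2
    rcases CopAct.eq_or_relIndex_eq_of_cocyclic hel hB.1 hB.2 with rfl | h3
    · rw [hcA]
      exact Nat.pow_le_pow_right hq.pos (by norm_num)
    · rw [show (B.subgroupOf _).index = q from h3, pow_succ] at h2
      exact (Nat.eq_of_mul_eq_mul_right hq.pos h2).ge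
  have h2 := main (G := CopAct.sdL φ ⊤) hcom (CopAct.sdR_le_normalizer_top φ ⊤) (m := m)
    (by rw [hcA, CopAct.card_sdL_top]; exact (hq.coprime_iff_not_dvd.2 hG).pow_left 3)
    (fun B B' hB hB' h0 => by
      have h3 := card_sup_mul_card_inf_of_le_normalizer
        (CopAct.le_normalizer_of_isMulCommutative hcom hB.1 hB'.1)
      have h4 := card_le_of_le (sup_le hB.1 hB'.1)
      rw [h0, card_bot, mul_one] at h3
      rw [h3, hcA] at h4
      have h5 := (Nat.mul_le_mul (h1 B hB) (h1 B' hB')).trans h4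
      rw [← pow_add] at h5
      exact absurd ((Nat.pow_le_pow_iff_right hq.one_lt).1 h5) (by norm_num))
    (by
      rintro _ ⟨a, -, rfl⟩ ha
      have e : CopAct.sdL φ ⊤ ⊓ 𝐂[zpowers (SemidirectProduct.inr a)] =
          CopAct.sdL φ (FixedPoints.subgroup (zpowers a) G) := by
        rw [← MonoidHom.map_zpowers, CopAct.sdL_inf_centralizer, top_inf_eq]
        rfl
      rw [e, ← map_commutator, CopAct.card_sdL, ← map_subtype_commutator,
        card_map_of_injective (subtype_injective _)]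
      exact hm a fun e => ha (by rw [e, map_one])) hcA.symm rfl
  rwa [← map_commutator, CopAct.card_sdL] at h2

end Cfsg.Agent.S4316
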