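import Mathlib
import Cfsg.Statements.S4321
import Cfsg.Agent.FG.ClassGraph

set_option autoImplicit false
open Cfsg

namespace Cfsg.Agent.S4321

open Subgroup Cfsg.Agent.GT Cfsg.Agent.FG.CI Cfsg.Agent.FG.CG

theorem aux {G : Type*} [Group G] [Finite G] {p : ℕ} [hp : Fact p.Prime]
    (hZ : ∀ x : G, p ∣ orderOf x → x ∉ center G) {a b : G} (ha : ∃ k, orderOf a = p ^ k)
    (hb : ∃ k, orderOf b = p ^ k) (ha1 : p ∣ orderOf a) (hb1 : p ∣ orderOf b)
    (h : ∀ w : G, p ∣ orderOf w → (cidx w).Coprime (cidx a) ∨ (cidx w).Coprime (cidx b))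
    (hpb : ¬ p ∣ cidx b) : False := by
  have hne : ∀ {x : G}, p ∣ orderOf x → ∀ {n : ℕ}, cidx x ∣ n → ¬ n.Coprime (cidx x) :=
    fun hx _ h1 h2 => hZ _ hx (cidx_eq_one_iff.1 (Nat.eq_one_of_dvd_coprimes h2 h1 dvd_rfl))
  have hcop : ∀ {x : G} {n : ℕ}, (∃ k, orderOf x = p ^ k) → ¬ p ∣ n → (orderOf x).Coprime n := by
    rintro x n ⟨k, hk⟩ h1
    rw [hk]
    exact ((Nat.Prime.coprime_iff_not_dvd hp.out).2 h1).pow_left k
  have hdvd : ∀ {x : G}, (∃ k, orderOf x = p ^ k) → x ≠ 1 → p ∣ orderOf x := by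
    rintro x ⟨k, hk⟩ h1
    rw [hk]
    refine dvd_pow_self p ?_
    rintro rfl
    exact h1 (orderOf_eq_one_iff.1 hk)
  have hle : ∀ {u v : G}, (cidx u).Coprime (cidx v) → (cidx (u * v)).Coprime (cidx v) →
      cidx (u * v) ≤ cidx u := fun h1 h2 =>
    Nat.le_of_dvd (cidx_pos _) (h2.dvd_of_dvd_mul_right (cidx_mul_dvd h1))
  have hab : (cidx a).Coprime (cidx b) := (h a ha1).resolve_left (hne ha1 dvd_rfl)
  have hpa : p ∣ cidx a := by
    by_contra h7
    have h8 : Commute a b := by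
      simpa using mem_cent_commute.1 (mem_cent_of_coprime ha hpb hab 1)
    have h9 : ∃ k, orderOf (a * b) = p ^ k := by
      obtain ⟨i, hi⟩ := ha
      obtain ⟨j, hj⟩ := hb
      have h9 := h8.orderOf_mul_dvd_mul_orderOf
      rw [hi, hj, ← pow_add] at h9
      obtain ⟨k, -, hk⟩ := (Nat.dvd_prime_pow hp.out).1 h9
      exact ⟨k, hk⟩
    have h10 : a * b ≠ 1 := fun e => hne ha1 (x := a) (n := cidx b)
      (by rw [eq_inv_of_mul_eq_one_left e, cidx_inv]) hab.symm
    rcases h _ (hdvd h9 h10) with h11 | h11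
    · rw [h8.eq] at h11
      exact hZ a ha1 (mem_center_of_le hab.symm (hle hab.symm h11) (hcop ha hpb))
    · exact hZ b hb1 (mem_center_of_le hab (hle hab h11) (hcop hb h7))
  obtain ⟨P, hbP, hPb⟩ := exists_sylow_mem_le_cent hb hpb
  have hH : centralizer {b} = (P : Subgroup G) ⊔ centralizer ((P : Subgroup G) : Set G) := by
    refine le_antisymm ?_ (sup_le hPb (centralizer_le_centralizer_singleton hbP))
    have h1 := sylow_sup_centralizer_eq_top (P.subtype hPb) fun u hu h1 => by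
      have h2 : Commute b u := (mem_cent_commute.1 u.2).symm
      have h3 : (orderOf b).Coprime (orderOf (u : G)) := hcop hb
        ((Nat.Prime.coprime_iff_not_dvd hp.out).1 (by simpa using hu.symm))
      have h4 : p ∣ orderOf (b * u) := by
        rw [h2.orderOf_mul_eq_mul_orderOf_of_coprime h3]
        exact hb1.mul_right _
      have h5 := (h _ h4).resolve_right (hne hb1 (cidx_dvd_cidx_mul_left h2 h3))
      have h6 : p ∣ cidx (b * u) := by
        rw [cidx_mul_of_coprime h2 h3, ← cidx_coe]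
        exact h1.mul_right _
      exact hp.out.one_lt.ne' (Nat.eq_one_of_dvd_coprimes h5 h6 hpa)
    have h2 := congrArg (map (centralizer ({b} : Set G)).subtype) h1
    rw [Subgroup.map_sup, map_centralizer_subtype_eq, Sylow.coe_subtype,
      map_subtype_subgroupOf_of_le hPb, ← MonoidHom.range_eq_map, range_subtype] at h2
    exact h2.ge.trans (sup_le_sup_left inf_le_right _)
  have hcore : ∀ w : G, (∃ k, orderOf w = p ^ k) → (cidx w).Coprime (cidx b) →
      w ∈ (P : Subgroup G).normalCore := by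
    intro w hw h1 g
    have h2 := mem_cent_of_coprime hw hpb h1 g
    rw [hH] at h2
    have h3 : g * w * g⁻¹ ∈ normalizer ((P : Subgroup G) : Set G) :=
      sup_le le_normalizer (centralizer_le_normalizer _) h2
    have h4 : IsPGroup p (zpowers (g * w * g⁻¹)) := isPGroup_zpowers (by rwa [GT.orderOf_conj])
    have h5 := P.is_maximal' (PG.isPGroup_sup_of_le_normalizer h4 P.isPGroup' (zpowers_le.2 h3))
      le_sup_right
    exact h5 ▸ mem_sup_left (mem_zpowers _)
  have haO := hcore a ha hab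
  have hPn : (P : Subgroup G).Normal := by
    rw [← le_antisymm (normalCore_le (P : Subgroup G)) (fun w hw => by_contra fun hwO => ?_)]
    · infer_instance
    have key : ∀ w ∈ (P : Subgroup G), w ∉ (P : Subgroup G).normalCore →
        (cidx w).Coprime (cidx a) := fun w hw hwO =>
      (h w (hdvd (orderOf_of_mem P.isPGroup' hw) fun e => hwO (e ▸ one_mem _))).resolve_right
        fun h1 => hwO (hcore w (orderOf_of_mem P.isPGroup' hw) h1)
    have h1 := key w hw hwO
    have h2 := key (w * a) (mul_mem hw (normalCore_le _ haO))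
      fun h2 => hwO ((mul_mem_cancel_right haO).1 h2)
    exact hZ a ha1 (mem_center_of_le h1 (hle h1 h2) (hcop ha fun h3 =>
      hp.out.one_lt.ne' (Nat.eq_one_of_dvd_coprimes h1 h3 hpa)))
  have hHn : (centralizer ({b} : Set G)).Normal := by rw [hH]; infer_instance
  obtain ⟨q, hq, hqb⟩ := Nat.exists_prime_and_dvd fun e => hZ b hb1 (cidx_eq_one_iff.1 e)
  have := Fact.mk hq
  obtain ⟨Q⟩ : Nonempty (Sylow q G) := inferInstance
  refine not_dvd_cidx_of_mem_centralizer Q (inf_le_of_cover (L := P) (fun w hw hwC => ?_)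
    (fun h1 => not_dvd_cidx_of_mem_centralizer P (h1 (normalCore_le _ haO)) hpa)
    ⟨hbP, le_cent_iff.1 hPb⟩) hqb
  have h1 : p ∣ cidx w := by
    by_contra h1
    obtain ⟨g, hg⟩ := (not_dvd_cidx_iff_conj P w).1 h1
    have h2 := (inferInstance : (centralizer ((P : Subgroup G) : Set G)).Normal).conj_mem _ hg g⁻¹
    exact hwC (by simpa [mul_assoc] using h2)
  have h2 := (h w (hdvd (orderOf_of_mem P.isPGroup' hw) fun e => hwC (e ▸ one_mem _))).resolve_left
    fun h2 => hp.out.one_lt.ne' (Nat.eq_one_of_dvd_coprimes h2 h1 hpa)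
  obtain ⟨g, hg, h3⟩ := exists_conj_mem_centralizer (H := centralizer {b}) Q.isPGroup' h2
    fun h3 => hq.one_lt.ne' (Nat.eq_one_of_dvd_coprimes h2 h3 hqb)
  rw [hH] at hg
  obtain ⟨u, hu, c, hc, rfl⟩ := mem_sup_of_normal_right.1 hg
  refine ⟨u, hu, ?_⟩
  rwa [show u * c * w * (u * c)⁻¹ = u * (c * w * c⁻¹) * u⁻¹ by group,
    ← mem_centralizer_iff.1 hc w hw, mul_inv_cancel_right] at h3

theorem exists_part {G : Type*} [Group G] [Finite G] {p : ℕ} [Fact p.Prime] {x : G}
    (hx : p ∣ orderOf x) : ∃ a : G, (∃ k, orderOf a = p ^ k) ∧ p ∣ orderOf a ∧ cidx a ∣ cidx x := by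
  refine ⟨x ^ (orderOf x / p), ⟨1, ?_⟩, ?_, cidx_pow_dvd _ _⟩ <;>
    rw [orderOf_pow_orderOf_div (orderOf_pos x).ne' hx]
  rw [pow_one]

/-- Let `G` be a finite group and `p` a prime not dividing the order of the centre of `G`. Consider the primes dividing the size of some conjugacy class of a `p`-singular element (an element of order divisible by `p`), two of them adjacent when their product divides such a class size. Then any two distinct such primes are joined by a path with at most 3 edges (the graph is connected of diameter at most 3). -/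
theorem result {G : Type*} [Group G] [Finite G] (p : ℕ) [Fact p.Prime]
    (hZ : ¬ p ∣ Nat.card ↥(Subgroup.center G)) (r s : ℕ) (hr : (r.Prime ∧ ∃ x : G, p ∣ orderOf x ∧ r ∣ (Subgroup.centralizer ({x} : Set G)).index)) (hs : (s.Prime ∧ ∃ x : G, p ∣ orderOf x ∧ s ∣ (Subgroup.centralizer ({x} : Set G)).index)) (hrs : r ≠ s) :
    (∃ x : G, p ∣ orderOf x ∧ r * s ∣ (Subgroup.centralizer ({x} : Set G)).index) ∨ (∃ t : ℕ, (t.Prime ∧ ∃ x : G, p ∣ orderOf x ∧ t ∣ (Subgroup.centralizer ({x} : Set G)).index) ∧ t ≠ r ∧ t ≠ s ∧ (∃ x : G, p ∣ orderOf x ∧ r * t ∣ (Subgroup.centralizer ({x} : Set G)).index) ∧ (∃ x : G, p ∣ orderOf x ∧ t * s ∣ (Subgroup.centralizer ({x} : Set G)).index)) ∨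
      (∃ t u : ℕ, (t.Prime ∧ ∃ x : G, p ∣ orderOf x ∧ t ∣ (Subgroup.centralizer ({x} : Set G)).index) ∧ (u.Prime ∧ ∃ x : G, p ∣ orderOf x ∧ u ∣ (Subgroup.centralizer ({x} : Set G)).index) ∧ t ≠ r ∧ u ≠ s ∧ t ≠ u ∧ (∃ x : G, p ∣ orderOf x ∧ r * t ∣ (Subgroup.centralizer ({x} : Set G)).index) ∧ (∃ x : G, p ∣ orderOf x ∧ t * u ∣ (Subgroup.centralizer ({x} : Set G)).index) ∧ (∃ x : G, p ∣ orderOf x ∧ u * s ∣ (Subgroup.centralizer ({x} : Set G)).index)) := by
  by_contra hne
  obtain ⟨hr, x, hx, hrx⟩ := hr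
  obtain ⟨hs, y, hy, hsy⟩ := hs
  have hZ' : ∀ x : G, p ∣ orderOf x → x ∉ center G := fun x h1 h2 =>
    hZ (h1.trans (orderOf_dvd_natCard _ h2))
  obtain ⟨a, ha, ha1, hax⟩ := exists_part hx
  obtain ⟨b, hb, hb1, hby⟩ := exists_part hy
  have h : ∀ w : G, p ∣ orderOf w → (cidx w).Coprime (cidx a) ∨ (cidx w).Coprime (cidx b) := by
    intro w hw
    by_contra h
    rw [not_or] at h
    refine hne ((path_three (fun g : G => p ∣ orderOf g) hr hs hrs hx hy hw hrx hsy
      (fun h1 => h.1 (h1.coprime_dvd_right hax))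
      fun h1 => h.2 (h1.coprime_dvd_right hby)).imp_right (Or.imp_right ?_))
    rintro ⟨t, u, h1, h2, h3, h4, h5, -, -, h6⟩
    exact ⟨t, u, h1, h2, h3, h4, h5, h6⟩
  by_cases hpb : p ∣ cidx b
  · refine aux hZ' hb ha hb1 ha1 (fun w hw => (h w hw).symm) fun hpa => ?_
    rcases h a ha1 with h1 | h1
    exacts [(Fact.out : p.Prime).one_lt.ne' (Nat.eq_one_of_dvd_coprimes h1 hpa hpa),
      (Fact.out : p.Prime).one_lt.ne' (Nat.eq_one_of_dvd_coprimes h1 hpa hpb)]
  · exact aux hZ' ha hb ha1 hb1 h hpb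

end Cfsg.Agent.S4321
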