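import Mathlib
import Cfsg.Statements.S4323
import Cfsg.Agent.FG.MartD

set_option autoImplicit false
open Cfsg

namespace Cfsg.Agent.S4323

open Cfsg.Agent.GT
open scoped Cfsg.Agent.GT.CopAct

/-- Let `q` be a prime and `A` a non-cyclic group of order `q²` acting by automorphisms on a finite group `G` of order prime to `q`, such that the fixed-point subgroup `C_G(a)` is abelian for every non-identity `a ∈ A`. Then `G` is solvable. -/
theorem result {A G : Type*} [Group A] [Finite A]
    [Group G] [Finite G] [MulDistribMulAction A G] (q : ℕ) (hq : q.Prime) (hA : Nat.card A = q ^ 2) (hnc : ¬ IsCyclic A)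
    (hcop : ¬ q ∣ Nat.card G) (h : ∀ a : A, a ≠ 1 → IsMulCommutative ↥(FixedPoints.subgroup (Subgroup.zpowers a) G)) :
    Group.IsSolvable G := by
    have := Fact.mk hq
    let φ : A →* MulAut G := MulDistribMulAction.toMulAut A G
    have h1 : FG.Mart.MH q (CopAct.sdL φ ⊤) (CopAct.sdR φ ⊤) := by
      refine ⟨IsElementaryAbelian.of_card_sq (by rw [CopAct.card_sdR_top, hA]) fun hc => hnc ?_,
        by rw [CopAct.card_sdR_top, hA], CopAct.sdR_le_normalizer_top φ ⊤,
        by rwa [CopAct.card_sdL_top], ?_⟩
      · exact isCyclic_of_surjective _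
          ((CopAct.sdREquiv φ ⊤).symm.trans Subgroup.topEquiv).surjective
      · rintro _ ⟨a, -, rfl⟩ h1
        have ha : a ≠ 1 := by rintro rfl; exact h1 (map_one _)
        have key : ∀ x : G, SemidirectProduct.inl x ∈ Subgroup.centralizer
            ((Subgroup.zpowers (SemidirectProduct.inr a : G ⋊[φ] A) : Subgroup (G ⋊[φ] A)) :
              Set (G ⋊[φ] A)) →
            x ∈ FixedPoints.subgroup (Subgroup.zpowers a) G := by
          intro x hx
          rw [← MonoidHom.map_zpowers] at hx
          exact fun b => (CopAct.inl_mem_centralizer_sdR φ).1 hx b b.2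
        rintro _ ⟨⟨x, -, rfl⟩, hx⟩
        refine Loc.Mss.mem_cent.2 ?_
        rintro _ ⟨⟨y, -, rfl⟩, hy⟩
        have := h a ha
        rw [← map_mul, ← map_mul]
        exact congrArg _ (congrArg Subtype.val
          (mul_comm' (⟨y, key y hy⟩ : FixedPoints.subgroup (Subgroup.zpowers a) G) ⟨x, key x hx⟩))
    have h2 := (CopAct.isSolvable_sdL_iff φ ⊤).1 h1.solvable
    exact isSolvable_of_mulEquiv Subgroup.topEquiv

end Cfsg.Agent.S4323
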