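import Mathlib
import Cfsg.Statements.S4423
import Cfsg.Agent.NT.Zsigmondy

set_option autoImplicit false
open Cfsg

namespace Cfsg.Agent.S4423

theorem exc_check : ∀ x ∈ NT.primExceptions, ∃ B ∈ List.range 42, 0 < B ∧ B ≤ 2 * x.2 + 1 ∧
    x.1 ^ x.2 - 1 ∣ B * (∏ i ∈ Finset.Ico 1 x.2, (x.1 ^ i - 1)) ^ 2 := by
  decide +kernel

/-- Size of the primitive part of `q^e - 1`. For a prime power `q` and `e ≥ 3`, call a divisor of `q^e - 1` primitive when it is coprime to `q^i - 1` for every `1 ≤ i < e`; the primitive part is the largest primitive divisor. Apart from thirteen exceptional pairs, the primitive part is at least `3e + 1`: there is a primitive divisor `m ≥ 3e + 1` unless `(q, e)` is `(2, 6)` (where every primitive divisor is 1), one of `(2,4), (2,10), (2,12), (2,18), (3,4), (3,6), (5,6)` (where the primitive part is exactly `e + 1`), or one of `(2,3), (2,8), (2,20), (4,3), (4,6)` (where it is exactly `2e + 1`). The statement asserts the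 existence of a primitive divisor `m ≥ 3e + 1` outside the thirteen pairs, and that every primitive divisor is at most `2e + 1` for the thirteen pairs. -/
theorem result (q e : ℕ) (hq : IsPrimePow q) (he : 3 ≤ e) :
    ((q, e) ∉ [(2, 6), (2, 4), (2, 10), (2, 12), (2, 18), (3, 4), (3, 6), (5, 6), (2, 3), (2, 8), (2, 20), (4, 3), (4, 6)] →
      ∃ m : ℕ, m ∣ q ^ e - 1 ∧ (∀ i : ℕ, 1 ≤ i → i < e → Nat.Coprime m (q ^ i - 1)) ∧ 3 * e + 1 ≤ m) ∧
    ((q, e) ∈ [(2, 6), (2, 4), (2, 10), (2, 12), (2, 18), (3, 4), (3, 6), (5, 6), (2, 3), (2, 8), (2, 20), (4, 3), (4, 6)] →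
      ∀ m : ℕ, m ∣ q ^ e - 1 → (∀ i : ℕ, 1 ≤ i → i < e → Nat.Coprime m (q ^ i - 1)) → m ≤ 2 * e + 1) := by
  refine ⟨fun h => ?_, fun h m hm hcop => ?_⟩
  · obtain ⟨m, hm, hle⟩ := NT.exists_primDivisor_ge hq.two_le he h
    exact ⟨m, hm.1, hm.2, hle⟩
  · obtain ⟨B, -, hB0, hB, hd⟩ := exc_check _ h
    have hc : Nat.Coprime m ((∏ i ∈ Finset.Ico 1 e, (q ^ i - 1)) ^ 2) :=
      Nat.Coprime.pow_right _ (Nat.Coprime.prod_right fun i hi =>
        hcop i (Finset.mem_Ico.mp hi).1 (Finset.mem_Ico.mp hi).2)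
    exact (Nat.le_of_dvd hB0 (hc.dvd_of_dvd_mul_right (hm.trans hd))).trans hB

end Cfsg.Agent.S4423
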