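import Mathlib
import Cfsg.Statements.S4425
import Cfsg.Agent.Blk.Contrib2

set_option autoImplicit false
open Cfsg

namespace Cfsg.Agent.S4425

open Cfsg.Agent.Ch Cfsg.Agent.Blk.Om

/-- Let χ be an irreducible character of the finite group G, p a prime, p^a the p-part of the order of G and p^b the p-part of the degree χ(1). Let χ̃ be the class function equal to p^a · χ on p-regular elements and zero on p-singular elements. Then p^(−b) · χ̃ is a generalized character of G, while p^(−(b+1)) · χ̃ is not. -/
theorem result {G : Type*} [Group G] [Finite G] (p : ℕ) [Fact p.Prime] (χ : Cfsg.IrrCharacter G) : Cfsg.IsGeneralizedCharacter G (fun x : G => if p ∣ orderOf x then (0 : ℂ) else ((p ^ ((Nat.card G).factorization p - (Cfsg.charDegree (χ : G → ℂ)).factorization p) : ℕ) : ℂ) * (χ : G → ℂ) x) ∧ ¬ Cfsg.IsGeneralizedCharacter G (fun x : G => if p ∣ orderOf x then (0 : ℂ) else ((p ^ (Nat.card G).factorization p : ℕ) : ℂ) / ((p ^ ((Cfsg.charDegree (χ : G → ℂ)).factorization p + 1) : ℕ) : ℂ) * (χ : G → ℂ) x) := by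
  classical
  have hp : p.Prime := Fact.out
  obtain ⟨M, hM⟩ := Blk.exists_isPModular hp
  haveI := hM.isMaximal
  haveI := Fintype.ofFinite G
  have hle := factorization_charDegree_le (p := p) χ.2
  rw [ite_dvd_eq_smul_pRegularPart, ite_dvd_eq_smul_pRegularPart]
  constructor
  · refine IsGeneralizedCharacter.of_classInner
      ((isClassFunction_pRegularPart χ.isClassFunction).smul _) fun η => ?_
    rw [classInner_smul_left]
    push_cast
    exact exists_int_pow_mul_contr hp χ η (by omega)
  · intro h
    obtain ⟨x, hx⟩ := S0906.result p M hM _ (isPBlock_blockOf χ)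
    have hxp := not_dvd_orderOf_of_isDefectClass hM (isPBlock_blockOf χ) hx
    refine hx.2.2 χ (self_mem_blockOf χ) ?_
    have h1 := apply_div_card_memLocalRing hM h.isClassFunction
      (fun g hg => by simp [pRegularPart_of_dvd _ hg]) (fun η => by
        obtain ⟨n, hn⟩ := h.exists_int_classInner η.isGeneralizedCharacter
        rw [hn]; exact MemLocalRing.intCast n) x
    rw [Pi.smul_apply, pRegularPart_of_not_dvd _ hxp, smul_eq_mul] at h1
    have hd := χ.2.charDegree_pos.ne'
    have hpa : p ^ (Nat.card G).factorization p * charDegree (χ : G → ℂ) ≠ 0 :=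
      mul_ne_zero (pow_ne_zero _ hp.ne_zero) hd
    have h2 := (pow_mul_div_memLocalIdeal_iff hM (m := Nat.card G)
      (k := (charDegree (χ : G → ℂ)).factorization p + 1) Nat.card_pos.ne' hpa).2 (by
        simp [Nat.factorization_mul (pow_ne_zero _ hp.ne_zero) hd, hp.factorization_pow]
        omega)
    have h3 := h2.mul_right h1
    rw [centralChar_eq_div]
    convert h3 using 1
    have hp0 : (p : ℂ) ≠ 0 := Nat.cast_ne_zero.2 hp.ne_zero
    have := χ.2.apply_one_ne_zero
    have := natCard_ne_zero (Subgroup.centralizer ({x} : Set G))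
    push_cast
    rw [χ.2.coe_charDegree]
    field_simp

end Cfsg.Agent.S4425
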