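import Mathlib
import Cfsg.Statements.S4426
import Cfsg.Agent.Blk.Contrib2

set_option autoImplicit false
open Cfsg

namespace Cfsg.Agent.S4426

open Cfsg.Agent.Ch Cfsg.Agent.Blk.Om

/-- Let χ be an irreducible character in the p-block B of the finite group G (relative to a maximal ideal M of the algebraic integers containing p), let p^a be the p-part of the order of G, and let χ̃ be the class function equal to p^a · χ on p-regular elements and zero elsewhere. For ξ ∈ B the inner product [χ̃, ξ] is an integer. The following are equivalent: (a) χ has height zero in B; (b) for some ξ ∈ B the integer [χ̃, ξ] is nonzero and the exact power of p dividing it equals the exact power of p dividing ξ(1); (c) the same holds for every ξ ∈ B. -/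
theorem result {G : Type*} [Group G] [Fintype G] (p : ℕ) [Fact p.Prime] (M : Ideal Cfsg.AlgInt) (hM : Cfsg.IsPModular p M) (B : Set (Cfsg.IrrCharacter G)) (hB : Cfsg.IsPBlock M B) (χ : Cfsg.IrrCharacter G) (hχ : χ ∈ B) : (Cfsg.blockHeight p B (χ : G → ℂ) = 0 ↔ ∃ ξ ∈ B, ∃ n : ℤ, Cfsg.classInner (fun x : G => if p ∣ orderOf x then (0 : ℂ) else ((p ^ (Nat.card G).factorization p : ℕ) : ℂ) * (χ : G → ℂ) x) (ξ : G → ℂ) = (n : ℂ) ∧ n ≠ 0 ∧ padicValInt p n = (Cfsg.charDegree (ξ : G → ℂ)).factorization p) ∧ (Cfsg.blockHeight p B (χ : G → ℂ) = 0 ↔ ∀ ξ ∈ B, ∃ n : ℤ, Cfsg.classInner (fun x : G => if p ∣ orderOf x then (0 : ℂ) else ((p ^ (Nat.card G).factorization p : ℕ) : ℂ) * (χ : G → ℂ) x) (ξ : G → ℂ) = (n : ℂ) ∧ n ≠ 0 ∧ padicValInt p n = (Cfsg.charDegree (ξ : G → ℂ)).factorization p) := by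
  classical
  have hp : p.Prime := Fact.out
  haveI := hM.isMaximal
  rw [ite_dvd_eq_smul_pRegularPart]
  have key : ∀ ξ ∈ B, (blockHeight p B (χ : G → ℂ) = 0 ↔ ∃ n : ℤ,
      classInner (((p ^ (Nat.card G).factorization p : ℕ) : ℂ) • pRegularPart p (χ : G → ℂ))
        (ξ : G → ℂ) = (n : ℂ) ∧ n ≠ 0 ∧
        padicValInt p n = (charDegree (ξ : G → ℂ)).factorization p) := by
    intro ξ hξ
    obtain ⟨n, hn⟩ := exists_int_pow_card_mul_contr (p := p) χ ξ
    have h1 : (n : ℂ) / charDegree (ξ : G → ℂ) =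
        (p : ℂ) ^ (Nat.card G).factorization p / Nat.card G *
          om (ξ : G → ℂ) (zReg p (χ : G → ℂ)) := by
      rw [← hn, contr_symm, contr_eq_om, ξ.2.coe_charDegree]
      have := ξ.2.apply_one_ne_zero
      field_simp
    have hR := pow_factorization_div_memLocalRing hM (Nat.card_pos (α := G)).ne'
    have hU := pow_factorization_div_not_memLocalIdeal hM (Nat.card_pos (α := G)).ne'
    have hR' := memLocalRing_om_zReg (p := p) (M := M) ξ χ.isGeneralizedCharacter
    have h2 := intCast_div_not_memLocalIdeal_iff hM (n := n) ξ.2.charDegree_pos.ne'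
      (by rw [h1]; exact hR.mul hR')
    have h3 : ¬ MemLocalIdeal M ((n : ℂ) / charDegree (ξ : G → ℂ)) ↔
        blockHeight p B (χ : G → ℂ) = 0 := by
      rw [h1]
      constructor
      · intro h
        exact ((om_zReg_not_mem_iff hM hB hξ).1 fun h' => h (MemLocalIdeal.mul_left hR h')).2
      · intro h h'
        rcases MemLocalIdeal.of_mul hR hR' h' with h'' | h''
        · exact hU h''
        · exact om_zReg_not_mem_of_height_zero hM hB hχ hξ h h''
    rw [← h3, h2, classInner_smul_left]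
    push_cast
    rw [hn]
    constructor
    · rintro ⟨h4, h5⟩
      exact ⟨n, rfl, h4, by rw [← h5, padicValInt, Nat.factorization_def _ hp]⟩
    · rintro ⟨m, hm, h4, h5⟩
      obtain rfl : n = m := by exact_mod_cast hm
      exact ⟨h4, by rw [← h5, padicValInt, Nat.factorization_def _ hp]⟩
  refine ⟨⟨fun h => ⟨χ, hχ, (key χ hχ).1 h⟩, fun ⟨ξ, hξ, h⟩ => (key ξ hξ).2 h⟩,
    ⟨fun h ξ hξ => (key ξ hξ).1 h, fun h => (key χ hχ).2 (h χ hχ)⟩⟩

end Cfsg.Agent.S4426
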