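import Mathlib
import Cfsg.Statements.S4427
import Cfsg.Agent.Blk.Pim
import Cfsg.Agent.Blk.PairKer

set_option autoImplicit false
open Cfsg

namespace Cfsg.Agent.S4427

set_option linter.style.haveILetI false
open MonoidAlgebra Cfsg.Agent.Blk Cfsg.Agent.Blk.Mod Cfsg.Agent.Blk.BA Cfsg.Agent.Ch
open scoped ComplexConjugate

section

variable {G : Type*} [Group G] [Fintype G]

/-- The idempotent of a subgroup. -/
noncomputable def av (H : Subgroup G) : ℂ[G] := (Nat.card H : ℂ)⁻¹ • setSum ℂ (H : Set G)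

theorem av_mul_av (H : Subgroup G) : av H * av H = av H := by
  rw [av, smul_mul_smul_comm, (PK.triv_setSum H).setSum_mul, smul_smul,
    inv_mul_cancel_right₀ (Nat.cast_ne_zero.2 Nat.card_pos.ne')]

theorem aug_av (H : Subgroup G) : aug (av H) = 1 := by
  classical
  simp only [av, map_smul, aug_eq_sum, coeff_setSum, smul_eq_mul, Finset.sum_boole]
  rw [Nat.card_eq_fintype_card, Fintype.card_subtype]
  exact inv_mul_cancel₀ (Nat.cast_ne_zero.2 (Finset.card_ne_zero.2 ⟨1, by simp⟩))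

theorem charLin_le {χ : G → ℂ} (hχ : IsCharacter G χ) {e y : ℂ[G]} (he : e * e = e)
    (hy : y * y = y) (h : e * y = y) : ∃ m n : ℕ, charLin χ y = m ∧ charLin χ e = n ∧ m ≤ n := by
  obtain ⟨m, hm⟩ := exists_nat_charLin hy hχ
  obtain ⟨n, hn⟩ := exists_nat_charLin (y := e - y * e) (by
    rw [sub_mul, mul_sub, mul_sub, he, ← mul_assoc e, h, mul_assoc y e e, he, mul_assoc y e,
      ← mul_assoc e, h, ← mul_assoc, hy, sub_self, sub_zero]) hχ
  refine ⟨m, m + n, hm, ?_, Nat.le_add_right _ _⟩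
  rw [map_sub, charLin_mul_comm hχ.isClassFunction, h, hm] at hn
  rw [Nat.cast_add, ← hn, add_sub_cancel]

theorem sum_av {Q R : Subgroup G} (h : (Nat.card Q).Coprime (Nat.card R)) :
    ∑ χ : IrrCharacter G, charLin χ (av Q) * charLin χ (av R) =
      Nat.card G / (Nat.card Q * Nat.card R) := by
  classical
  have h1 := congrArg (charLin · (av R)) (pim_eq_sum (av Q))
  simp only [charLin_sum_left, charLin_smul_left] at h1
  rw [← h1, charLin_apply, Finset.sum_eq_single 1 (fun g _ hg => ?_) (by simp)]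
  · simp [pim, av, coeff_smul_eq, coeff_setSum]
    ring
  · simp only [pim, av, coeff_smul_eq, coeff_setSum]
    split_ifs with h2
    · rw [Finset.sum_eq_zero fun x _ => ?_, mul_zero]
      rw [if_neg fun h3 => hg ?_, mul_zero]
      have h4 := Q.orderOf_dvd_natCard h3
      rw [show x⁻¹ * g⁻¹ * x = MulAut.conj x⁻¹ g⁻¹ by simp, MulEquiv.orderOf_eq, orderOf_inv] at h4
      exact orderOf_eq_one_iff.1 (Nat.eq_one_of_dvd_coprimes h h4 (R.orderOf_dvd_natCard h2))
    · rw [mul_zero, zero_mul]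

/-- A projective character that is a constituent of both permutation characters. -/
theorem exists_proj {p : ℕ} (hp : p.Prime) {Q R : Subgroup G} (hQ : ¬ p ∣ Nat.card Q)
    (hR : ¬ p ∣ Nat.card R) (h : (Nat.card Q).Coprime (Nat.card R)) :
    ∃ Φ : G → ℂ, IsCharacter G Φ ∧ (∀ g, p ∣ orderOf g → Φ g = 0) ∧
      1 ≤ (classInner Φ fun _ => 1).re ∧
      (classInner Φ Φ).re ≤ Nat.card G / (Nat.card Q * Nat.card R) := by
  obtain ⟨M, hM⟩ := exists_isPModular hp
  haveI := hM.isMaximal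
  have h1 : ∀ H : Subgroup G, ¬ p ∣ Nat.card H → av H ∈ locAlg M G := fun H hH =>
    smul_mem_locAlg (hM.inv_natCast_mem hH) (PK.setSum_mem_locAlg _)
  have h2 : ∀ x ∈ locAlg M G, aug (redAlg M x) = red M (aug x) := fun x hx => by
    rw [aug_eq_sum, aug_eq_sum, red_sum fun g _ => hx g]
    rfl
  have ha := mul_mem (h1 Q hQ) (h1 R hR)
  obtain ⟨c, hc, -, h3, n, h4⟩ := exists_fitting ha
  have hy : av Q * av R * c * (av Q * av R * c) = av Q * av R * c := by
    rw [mul_assoc, ← mul_assoc c, h3]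
  have hw : av R * c * av Q * (av R * c * av Q) = av R * c * av Q := by
    conv_rhs => rw [← h3]
    simp only [mul_assoc]
  have h5 : ∀ χ : G → ℂ, IsCharacter G χ → ∃ m n k : ℕ, charLin χ (av Q * av R * c) = m ∧
      charLin χ (av Q) = n ∧ charLin χ (av R) = k ∧ m ≤ n ∧ m ≤ k := fun χ hχ => by
    obtain ⟨m, n, e1, e2, e3⟩ := charLin_le hχ (av_mul_av Q) hy
      (by simp only [← mul_assoc, av_mul_av])
    obtain ⟨m', k, e4, e5, e6⟩ := charLin_le hχ (av_mul_av R) hw
      (by simp only [← mul_assoc, av_mul_av])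
    rw [charLin_mul_comm hχ.isClassFunction, ← mul_assoc, e1, Nat.cast_inj] at e4
    exact ⟨m, n, k, e1, e2, e5, e3, e4 ▸ e6⟩
  refine ⟨pim _, isCharacter_pim hy, fun g hg => pim_eq_zero hM (mul_mem ha hc) hy hg, ?_, ?_⟩
  · obtain ⟨m, -, -, e1, -⟩ := h5 _ IsCharacter.one
    rw [classInner_pim _ IsCharacter.one.isGeneralizedCharacter, e1, Complex.natCast_re,
      Nat.one_le_cast, Nat.one_le_iff_ne_zero]
    rintro rfl
    have h6 := congrArg aug h4
    rw [← redAlg_mul ha hc, map_mul, map_sub, map_one, map_pow, h2 _ ha, h2 _ (mul_mem ha hc),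
      map_mul aug (av Q), aug_av, aug_av, aug_eq_sum, show ∑ g, (av Q * av R * c).coeff g = 0 by
        simpa [charLin_apply] using e1] at h6
    simp at h6
  · choose m n k e1 e2 e3 e4 e5 using fun χ : IrrCharacter G => h5 χ χ.isCharacter
    have h6 := congrArg Complex.re (sum_av h)
    rw [classInner_pim _ (isCharacter_pim hy).isGeneralizedCharacter, pim_eq_sum, charLin_sum_left]
    simp only [charLin_smul_left, e1, e2, e3, ← Nat.cast_mul, ← Nat.cast_sum, Complex.natCast_re,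
      Complex.div_natCast_re] at h6 ⊢
    rw [← h6]
    exact Nat.cast_le.2 (Finset.sum_le_sum fun χ _ => Nat.mul_le_mul (e4 χ) (e5 χ))

end

/-- Let G be a finite group of order p^a · q^b · r^c with p, q, r distinct primes, and suppose that G has exactly q^b · r^c elements of order not divisible by p. Then G has a normal p-complement: a normal subgroup of order q^b · r^c. -/
theorem result {G : Type*} [Group G] [Finite G] (p q r a b c : ℕ) (hp : p.Prime) (hq : q.Prime) (hr : r.Prime) (hpq : p ≠ q) (hpr : p ≠ r) (hqr : q ≠ r) (hG : Nat.card G = p ^ a * q ^ b * r ^ c) (hcount : Nat.card {g : G // ¬ p ∣ orderOf g} = q ^ b * r ^ c) : ∃ N : Subgroup G, N.Normal ∧ Nat.card N = q ^ b * r ^ c := by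
  classical
  haveI := Fintype.ofFinite G
  haveI := Fact.mk hq
  haveI := Fact.mk hr
  obtain ⟨Q, hQ⟩ := Sylow.exists_subgroup_card_pow_prime (G := G) q (n := b)
    ⟨p ^ a * r ^ c, by rw [hG]; ring⟩
  obtain ⟨R, hR⟩ := Sylow.exists_subgroup_card_pow_prime (G := G) r (n := c) ⟨_, by rw [hG, mul_comm]⟩
  obtain ⟨Φ, h1, h2, h3, h4⟩ := exists_proj hp (Q := Q) (R := R)
    (fun h => hpq ((Nat.prime_dvd_prime_iff_eq hp hq).1 (hp.dvd_of_dvd_pow (hQ ▸ h))))
    (fun h => hpr ((Nat.prime_dvd_prime_iff_eq hp hr).1 (hp.dvd_of_dvd_pow (hR ▸ h))))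
    (by rw [hQ, hR]; exact Nat.coprime_pow_primes _ _ hq hr hqr)
  have hq0 : (0 : ℝ) < q ^ b := pow_pos (Nat.cast_pos.2 hq.pos) _
  have hr0 : (0 : ℝ) < r ^ c := pow_pos (Nat.cast_pos.2 hr.pos) _
  have hp0 : (0 : ℝ) < p ^ a := pow_pos (Nat.cast_pos.2 hp.pos) _
  rw [Nat.card_eq_fintype_card, Fintype.card_subtype] at hcount
  have h5 : ∀ F : G → ℝ, (∀ g, p ∣ orderOf g → F g = 0) →
      ∑ g with ¬ p ∣ orderOf g, F g = ∑ g, F g := fun F hF =>
    Finset.sum_filter_of_ne fun g _ h0 h => h0 (hF g h)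
  simp only [classInner, Complex.mul_conj, map_one, mul_one, ← Complex.ofReal_natCast,
    ← Complex.ofReal_inv, Complex.re_ofReal_mul, Complex.re_sum, Complex.ofReal_re] at h3 h4
  simp only [hG, hQ, hR, Nat.cast_mul, Nat.cast_pow] at h3 h4
  rw [← h5 _ fun g hg => by simp [h2 g hg], le_inv_mul_iff₀ (by positivity)] at h3
  rw [← h5 _ fun g hg => by simp [h2 g hg], inv_mul_le_iff₀ (by positivity)] at h4
  have h6 : ∑ g with ¬ p ∣ orderOf g, Complex.normSq (Φ g - (p ^ a : ℝ)) ≤ 0 := by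
    simp only [Complex.normSq_sub, Complex.normSq_ofReal, Complex.conj_ofReal,
      Complex.re_mul_ofReal, Finset.sum_sub_distrib, Finset.sum_add_distrib, Finset.sum_const,
      hcount, nsmul_eq_mul, ← Finset.mul_sum, ← Finset.sum_mul, Nat.cast_mul, Nat.cast_pow]
    rw [mul_assoc ((p : ℝ) ^ a), mul_div_cancel_right₀ _ (by positivity)] at h4
    nlinarith
  have h7 : ∀ g, ¬ p ∣ orderOf g → Φ g = (p ^ a : ℝ) := fun g hg => sub_eq_zero.1
    (Complex.normSq_eq_zero.1 ((Finset.sum_eq_zero_iff_of_nonneg fun _ _ =>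
      Complex.normSq_nonneg _).1 (h6.antisymm (Finset.sum_nonneg fun _ _ =>
        Complex.normSq_nonneg _)) g (Finset.mem_filter.2 ⟨Finset.mem_univ _, hg⟩)))
  refine ⟨charKer Φ, h1.charKer_normal, ?_⟩
  rw [← hcount, Nat.card_eq_fintype_card, Fintype.card_subtype]
  congr 1
  refine Finset.filter_congr fun g _ => ?_
  rw [h1.mem_charKer, h7 1 (by simpa using hp.one_lt.ne')]
  exact ⟨fun h h8 => hp0.ne' (by exact_mod_cast (h.symm.trans (h2 g h8))), h7 g⟩

end Cfsg.Agent.S4427
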