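import Mathlib
import Cfsg.Statements.S4428
import Cfsg.Agent.Blk.DefectVanish

set_option autoImplicit false
open Cfsg

namespace Cfsg.Agent.S4428

open Cfsg.Agent.Ch Cfsg.Agent.Blk Cfsg.Agent.Blk.Om
open scoped ComplexConjugate

theorem aux {G : Type*} [Group G] [Finite G] {p : ℕ} {M : Ideal Cfsg.AlgInt}
    (hM : Cfsg.IsPModular p M) {B : Set (Cfsg.IrrCharacter G)} (hB : Cfsg.IsPBlock M B)
    {χ : Cfsg.IrrCharacter G} (hχ : χ ∈ B) (h0 : Cfsg.blockHeight p B (χ : G → ℂ) = 0) {x : G}
    (hx : ∃ k : ℕ, orderOf x = p ^ k) {C : Subgroup G} (hC : ∀ g, g ∈ C ↔ g * x = x * g)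
    {b : Set (Cfsg.IrrCharacter C)} (hb : Cfsg.IsInducedBlock M C b B) :
    ∃ y : C, ¬ p ∣ orderOf y ∧
      Cfsg.blockPart b (fun c : C => (χ : G → ℂ) (x * (c : G))) y ≠ 0 := by
  classical
  have := hM.isMaximal
  have := Fintype.ofFinite G
  have := Fintype.ofFinite C
  by_contra hne
  push Not at hne
  obtain ⟨ψ, hψ⟩ := hb.1.nonempty
  set ϑ : C → ℂ := fun c => (χ : G → ℂ) (x * c) with hϑ
  have hϑc : IsClassFunction C ϑ := isClassFunction_translate hC χ.isClassFunction
  have h1 : pRegularPart p (blockPart b ϑ) = 0 := by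
    ext y
    rw [Blk.pRegularPart_apply]
    split_ifs with hy
    · rfl
    · exact hne y hy
  have h2 : classInner (pRegularPart p ϑ) ψ = 0 := by
    have h3 := classInner_blockPart_irr b (pRegularPart p ϑ) ψ
    rw [blockPart_pRegularPart hM hb.1.blockCoeff_mem, h1, classInner_zero_left, if_pos hψ] at h3
    exact h3.symm
  have h3 : om (ψ : C → ℂ) (zReg p ϑ) = 0 := by
    rw [om_zReg, Blk.classInner_pRegularPart_comm, classInner_eq_zero_comm.1 h2]
    simp
  have h4 : MemLocalIdeal M (om (ψ : C → ℂ)
      (zReg p ϑ - zReg p (fun c : C => (χ : G → ℂ) c))) := by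
    refine memLocalIdeal_om ψ.2 ((isClassFunction_zReg hϑc).sub
      (isClassFunction_zReg (χ.isClassFunction.restrict C))) fun c => ?_
    rw [Pi.sub_apply, zReg_apply, zReg_apply]
    split_ifs with hc
    · rw [sub_self]; exact MemLocalIdeal.zero
    · exact genChar_mul_sub_mem hM χ.isGeneralizedCharacter.complexConj hx ((hC c).1 c.2).symm
  rw [om_sub, h3, zero_sub] at h4
  have h5 := indAlong_of_isInducedBlock hb ψ hψ χ hχ _
    (isClassFunction_zReg (p := p) χ.isClassFunction)
    (memLocalRing_zReg (p := p) (M := M) χ.isGeneralizedCharacter)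
  rw [zReg_restrict] at h5
  refine om_zReg_not_mem_of_height_zero hM hB hχ hχ h0 ?_
  have h6 := (h4.add h5).neg
  simpa using h6


/-- Let χ be an irreducible character of height zero in the p-block B of the finite group G (relative to a maximal ideal M of the algebraic integers containing p). Let x be a p-element of G with centralizer C, and let b be a block of C that induces B. Form the class function ϑ(c) = χ(x c) on C and its b-part (the sum over ψ ∈ b of the inner product of ϑ with ψ, times ψ). Then the b-part of ϑ does not vanish identically on the p-regular elements of C. (Compare the second main Theorem, which gives vanishing when b does not induce B.) -/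
theorem result {G : Type*} [Group G] [Finite G] (p : ℕ) [Fact p.Prime] (M : Ideal Cfsg.AlgInt) (hM : Cfsg.IsPModular p M) (B : Set (Cfsg.IrrCharacter G)) (hB : Cfsg.IsPBlock M B) (χ : Cfsg.IrrCharacter G) (hχ : χ ∈ B) (h0 : Cfsg.blockHeight p B (χ : G → ℂ) = 0) (x : G) (hx : ∃ k : ℕ, orderOf x = p ^ k) (b : Set (Cfsg.IrrCharacter (Subgroup.centralizer ({x} : Set G)))) (hb : Cfsg.IsInducedBlock M (Subgroup.centralizer ({x} : Set G)) b B) : ∃ y : Subgroup.centralizer ({x} : Set G), ¬ p ∣ orderOf y ∧ Cfsg.blockPart b (fun c : Subgroup.centralizer ({x} : Set G) => (χ : G → ℂ) (x * (c : G))) y ≠ 0 := by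
  exact aux hM hB hχ h0 hx (mem_centralizer_singleton_iff' x) hb

end Cfsg.Agent.S4428
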