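import Mathlib
import Cfsg.Statements.S4429
import Cfsg.Agent.Inv.M11B

set_option autoImplicit false
open Cfsg

namespace Cfsg.Agent.S4429

/-- Let G be a simple group of order 7920. Then G has exactly ten irreducible complex characters, and their degrees, listed with multiplicity, are 1, 10, 10, 10, 11, 16, 16, 44, 45, 55: for every natural number n, the number of irreducible characters of degree n is 1 if n ∈ {1, 11, 44, 45, 55}, 3 if n = 10, 2 if n = 16, and 0 otherwise. -/
theorem result {G : Type*} [Group G] [Finite G] [IsSimpleGroup G] (hG : Nat.card G = 7920) : Nat.card (Cfsg.IrrCharacter G) = 10 ∧ ∀ n : ℕ, Nat.card {χ : Cfsg.IrrCharacter G // Cfsg.charDegree (χ : G → ℂ) = n} = (if n = 1 ∨ n = 11 ∨ n = 44 ∨ n = 45 ∨ n = 55 then 1 else if n = 10 then 3 else if n = 16 then 2 else 0) := by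
  classical
  obtain ⟨a, χ, θ, θ', ξ, ζ, η, h⟩ := Cfsg.Agent.Inv.M11.exists_tab hG
  refine ⟨h.card_irr, fun n => ?_⟩
  rw [Nat.card_eq_fintype_card, Fintype.card_subtype, Finset.card_filter, h.sum_eq]
  simp only [Cfsg.Agent.Inv.M11.deg_irrOne, h.deg_a, h.deg_χ, h.deg_θ, h.deg_θ', h.deg_ξ, h.deg_ζ,
    h.deg_η]
  split_ifs <;> omega

end Cfsg.Agent.S4429
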