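import Mathlib
import Cfsg.Statements.S4430
import Cfsg.Agent.Blk.Contrib2
import Cfsg.Agent.Ch.Induction

set_option autoImplicit false
open Cfsg

namespace Cfsg.Agent.S4430

open Cfsg.Agent.Ch Cfsg.Agent.Blk.Om

/-- Let H be a subgroup of the finite group G, b a block of H whose induced block B₀ in G is defined (relative to a maximal ideal M of the algebraic integers containing p), and ξ ∈ b. For a block B of G let n_B be the value at 1 of the B-part of the induced character ξ^G (a natural number: the sum over χ ∈ B of the multiplicity of χ in ξ^G times χ(1)). Then for B = B₀ the exact power of p dividing n_B equals the exact power of p dividing ξ^G(1), while for every other block B either n_B = 0 or n_B is divisible by a strictly higher power of p than ξ^G(1). -/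
theorem result {G : Type*} [Group G] [Fintype G] (p : ℕ) [Fact p.Prime] (M : Ideal Cfsg.AlgInt) (hM : Cfsg.IsPModular p M) (H : Subgroup G) [Fintype H] (b : Set (Cfsg.IrrCharacter H)) (B₀ : Set (Cfsg.IrrCharacter G)) (hind : Cfsg.IsInducedBlock M H b B₀) (ξ : Cfsg.IrrCharacter H) (hξ : ξ ∈ b) : (∃ n : ℕ, Cfsg.blockPart B₀ (Cfsg.indFun H (ξ : H → ℂ)) 1 = (n : ℂ) ∧ n ≠ 0 ∧ n.factorization p = (Cfsg.charDegree (Cfsg.indFun H (ξ : H → ℂ))).factorization p) ∧ ∀ B : Set (Cfsg.IrrCharacter G), Cfsg.IsPBlock M B → B ≠ B₀ → ∃ n : ℕ, Cfsg.blockPart B (Cfsg.indFun H (ξ : H → ℂ)) 1 = (n : ℂ) ∧ (n = 0 ∨ (Cfsg.charDegree (Cfsg.indFun H (ξ : H → ℂ))).factorization p < n.factorization p) := by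
  classical
  have hp : p.Prime := Fact.out
  haveI := hM.isMaximal
  have hchar := isCharacter_indFun H ξ.isCharacter
  obtain ⟨m, hm, -⟩ := hchar.exists_mult
  have hd : charDegree (indFun H (ξ : H → ℂ)) ≠ 0 := by
    intro h
    have := hchar.coe_charDegree
    rw [h, indFun_one] at this
    exact mul_ne_zero (Nat.cast_ne_zero.2 H.index_ne_zero_of_finite) ξ.2.apply_one_ne_zero
      (by simpa using this.symm)
  obtain ⟨χ, hχ⟩ := block_nonempty hind.2.1
  have key : ∀ B : Set (IrrCharacter G), IsPBlock M B → ∃ n : ℕ,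
      blockPart B (indFun H (ξ : H → ℂ)) 1 = n ∧
        MemLocalIdeal M ((n : ℂ) / charDegree (indFun H (ξ : H → ℂ)) -
          om (χ : G → ℂ) (blockCoeff B)) := by
    intro B hB
    refine ⟨∑ η : IrrCharacter G, if η ∈ B then m η * charDegree (η : G → ℂ) else 0, ?_, ?_⟩
    · unfold blockPart
      beta_reduce
      rw [finsum_mem_irr_eq_sum]
      push_cast
      refine Finset.sum_congr rfl fun η _ => ?_
      rw [classInner_congr_inst _ ‹_›, hm, η.2.coe_charDegree]
    · have h := indAlong_of_isInducedBlock hind ξ hξ χ hχ _ (isClassFunction_blockCoeff B)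
        (memLocalRing_blockCoeff hM hB)
      convert h using 2
      have := om_indFun H (ξ : H → ℂ) (isClassFunction_blockCoeff B)
      simp only [Subgroup.coe_subtype]
      rw [← this, om_eq_sum, sum_blockCoeff_mul, hchar.coe_charDegree]
      push_cast
      congr 1
      refine Finset.sum_congr rfl fun η _ => ?_
      rw [hm, η.2.coe_charDegree, mul_comm]
  constructor
  · obtain ⟨n, h1, h2⟩ := key B₀ hind.2.1
    rw [om_blockCoeff_of_mem hχ] at h2
    have h3 : ¬ MemLocalIdeal M ((n : ℂ) / charDegree (indFun H (ξ : H → ℂ))) := fun h =>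
      MemLocalIdeal.not_one (M := M) (by simpa using h.sub h2)
    have h4 : MemLocalRing M ((n : ℂ) / charDegree (indFun H (ξ : H → ℂ))) := by
      simpa using h2.memLocalRing.add MemLocalRing.one
    have hn : n ≠ 0 := by
      rintro rfl
      exact h3 (by simpa using MemLocalIdeal.zero)
    rw [hM.natCast_div_memLocalIdeal_iff hn hd] at h3
    rw [hM.natCast_div_memLocalRing_iff hn hd] at h4
    exact ⟨n, h1, hn, by omega⟩
  · intro B hB hne
    obtain ⟨n, h1, h2⟩ := key B hB
    rw [om_blockCoeff_of_not_mem (fun h => hne (block_eq_of_mem hB hind.2.1 h hχ)), sub_zero] at h2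
    refine ⟨n, h1, ?_⟩
    by_cases hn : n = 0
    · exact Or.inl hn
    · exact Or.inr ((hM.natCast_div_memLocalIdeal_iff hn hd).1 h2)

end Cfsg.Agent.S4430
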