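import Mathlib
import Cfsg.Statements.S4431
import Cfsg.Agent.Blk.Contrib

set_option autoImplicit false
open Cfsg

namespace Cfsg.Agent.S4431

open Cfsg.Agent.Ch Cfsg.Agent.Blk.Om

/-- Let H be a subgroup of the finite group G and b a block of H whose induced block B₀ in G is defined (relative to a maximal ideal M of the algebraic integers containing p). Let χ be an irreducible character of G, ψ ∈ b, and let η be the class function on H equal to p^a · χ on the p-regular elements of H and zero elsewhere, p^a being the p-part of the order of H. Then (a) if χ ∉ B₀, the number [η, ψ]/ψ(1) lies in the local ideal at M; (b) if χ ∈ B₀ has height zero, it does not. -/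
theorem result {G : Type*} [Group G] [Fintype G] (p : ℕ) [Fact p.Prime] (M : Ideal Cfsg.AlgInt) (hM : Cfsg.IsPModular p M) (H : Subgroup G) [Fintype H] (b : Set (Cfsg.IrrCharacter H)) (B₀ : Set (Cfsg.IrrCharacter G)) (hind : Cfsg.IsInducedBlock M H b B₀) (χ : Cfsg.IrrCharacter G) (ψ : Cfsg.IrrCharacter H) (hψ : ψ ∈ b) : (χ ∉ B₀ → Cfsg.MemLocalIdeal M (Cfsg.classInner (fun h : H => if p ∣ orderOf h then (0 : ℂ) else ((p ^ (Nat.card H).factorization p : ℕ) : ℂ) * (χ : G → ℂ) h) (ψ : H → ℂ) / (ψ : H → ℂ) 1)) ∧ (χ ∈ B₀ → Cfsg.blockHeight p B₀ (χ : G → ℂ) = 0 → ¬ Cfsg.MemLocalIdeal M (Cfsg.classInner (fun h : H => if p ∣ orderOf h then (0 : ℂ) else ((p ^ (Nat.card H).factorization p : ℕ) : ℂ) * (χ : G → ℂ) h) (ψ : H → ℂ) / (ψ : H → ℂ) 1)) := by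
  classical
  haveI := hM.isMaximal
  obtain ⟨η, hη⟩ := block_nonempty hind.2.1
  have h1 := indAlong_of_isInducedBlock hind ψ hψ η hη _
    (isClassFunction_zReg (p := p) χ.isClassFunction)
    (memLocalRing_zReg (p := p) (M := M) χ.isGeneralizedCharacter)
  rw [zReg_restrict] at h1
  have hf : (fun h : H => if p ∣ orderOf h then (0 : ℂ) else
      ((p ^ (Nat.card H).factorization p : ℕ) : ℂ) * (χ : G → ℂ) h) =
      ((p ^ (Nat.card H).factorization p : ℕ) : ℂ) •
        pRegularPart p (fun h : H => (χ : G → ℂ) h) := by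
    ext h
    rw [Pi.smul_apply, pRegularPart_apply]
    split_ifs <;> simp
  have hp0 : p ^ (Nat.card H).factorization p ≠ 0 := pow_ne_zero _ hM.prime.ne_zero
  have hu : ¬ MemLocalIdeal M (((p ^ (Nat.card H).factorization p : ℕ) : ℂ) / Nat.card H) := by
    rw [hM.natCast_div_memLocalIdeal_iff hp0 Nat.card_pos.ne', hM.prime.factorization_pow]
    simp
  have hR : MemLocalRing M (((p ^ (Nat.card H).factorization p : ℕ) : ℂ) / Nat.card H) := by
    rw [hM.natCast_div_memLocalRing_iff hp0 Nat.card_pos.ne', hM.prime.factorization_pow]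
    simp
  have key : classInner (fun h : H => if p ∣ orderOf h then (0 : ℂ) else
      ((p ^ (Nat.card H).factorization p : ℕ) : ℂ) * (χ : G → ℂ) h) (ψ : H → ℂ) / (ψ : H → ℂ) 1 =
      ((p ^ (Nat.card H).factorization p : ℕ) : ℂ) / Nat.card H *
        om (ψ : H → ℂ) (zReg p (fun h : H => (χ : G → ℂ) h)) := by
    rw [hf, classInner_smul_left, om_zReg, classInner_pRegularPart_symm
      (χ.isCharacter.restrict H).apply_inv ψ.isCharacter.apply_inv]
    have := natCard_ne_zero H
    field_simp
  rw [key]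
  constructor
  · intro hχ
    refine MemLocalIdeal.mul_left hR ?_
    have h2 : MemLocalIdeal M (om (η : G → ℂ) (zReg p (χ : G → ℂ))) := by
      by_contra h3
      exact hχ ((om_zReg_not_mem_iff hM hind.2.1 hη).1 h3).1
    simpa using h1.add h2
  · intro hχ h0 h3
    rcases MemLocalIdeal.of_mul hR
      (memLocalRing_om_zReg ψ (χ.isGeneralizedCharacter.restrict H)) h3 with h4 | h4
    · exact hu h4
    · exact om_zReg_not_mem_of_height_zero hM hind.2.1 hχ hη h0 (by simpa using h4.sub h1)

end Cfsg.Agent.S4431
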