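import Mathlib
import Cfsg.Statements.S4437
import Cfsg.Agent.Blk.Roots

set_option autoImplicit false
open Cfsg

namespace Cfsg.Agent.S4437

/-- Let P be a p-subgroup of the finite group G, H = P·C_G(P), and b a block of H (relative to a maximal ideal M of the algebraic integers containing p) having P as a defect group; let B be the block of G induced by b. Let T be the stabilizer of b in N_G(P): the elements g of N_G(P) such that the g-conjugate of every member of b is again a member of b. Then B has defect group P if and only if p does not divide the index of H in T. -/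
theorem result {G : Type*} [Group G] [Fintype G] (p : ℕ) [Fact p.Prime] (M : Ideal Cfsg.AlgInt) (hM : Cfsg.IsPModular p M) (P : Subgroup G) (hP : IsPGroup p P) (H : Subgroup G) [Fintype H] (hH : H = P ⊔ Subgroup.centralizer (P : Set G)) (b : Set (Cfsg.IrrCharacter H)) (hb : Cfsg.IsPBlock M b) (hbP : Cfsg.IsDefectGroup p M b (P.subgroupOf H)) (B : Set (Cfsg.IrrCharacter G)) (hind : Cfsg.IsInducedBlock M H b B) (T : Subgroup G) (hT : ∀ g : G, g ∈ T ↔ (g ∈ Subgroup.normalizer (P : Set G) ∧ ∀ θ ∈ b, ∀ θ' : Cfsg.IrrCharacter H, (∀ h h' : H, (h' : G) = g * h * g⁻¹ → (θ' : H → ℂ) h' = (θ : H → ℂ) h) → θ' ∈ b)) : Cfsg.IsDefectGroup p M B P ↔ ¬ p ∣ H.relIndex T := by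
  have := hM.isMaximal
  have hN : Agent.Blk.Mod.NIn H (Subgroup.normalizer (P : Set G)) :=
    hH ▸ Agent.Blk.nIn_sup_centralizer P
  have e : T = Agent.Blk.Mod.pstab ⊤ P (Agent.Blk.epsIn M H b) := by
    refine Subgroup.ext fun g => (hT g).trans ?_
    rw [Agent.Blk.Mod.mem_pstab]
    refine ⟨fun h => ⟨Subgroup.mem_top _, h.1, ((Agent.Blk.PD.stabilizesBlock_iff hb).1
      ⟨hN.norm h.1, fun θ hθ => ?_⟩).2⟩, fun h => ⟨h.2.1, fun θ hθ θ' hθ' => ?_⟩⟩
    · have h1 := (Agent.Blk.PD.eq_irrCongr_cjEquiv_iff g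
        (Agent.GT.Tr.map_conj_eq_of_mem (hN.norm h.1)) θ _).1 rfl
      exact ⟨_, h.2 θ hθ _ h1, h1⟩
    · have h1 := (Agent.Blk.PD.stabilizesBlock_iff_blkCongr (hN.norm h.2.1)).1
        ((Agent.Blk.PD.stabilizesBlock_iff hb).2 ⟨hN.norm h.2.1, h.2.2⟩)
      rw [← h1, Agent.Blk.PD.mem_blkCongr_cjEquiv]
      exact ⟨θ, hθ, hθ'⟩
  rw [e]
  exact hind.isDefectGroup_iff_not_dvd hM hP hH hbP

end Cfsg.Agent.S4437
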