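import Mathlib
-- Template for statement S4442 (row 4442; see /opt/grader/pristine/manifest.json for weights).
-- Copy to Cfsg/Agent/S4442.lean and replace the sorry. The statement below is byte-identical to the frozen
-- statement Cfsg.CfsgFrozen.S4442 (Cfsg/Statements/S4442.lean; the theorem Cfsg.blk_sylow_prime_order_full_defect_block_count);
-- the grader kernel-checks Cfsg.Agent.S4442.result against that frozen type. Keep the theorem IN THIS FILE
-- (a `result` declared elsewhere and merely imported here is not credited); helpers may live anywhere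
-- under Cfsg/Agent/.
import Cfsg.Statements.S4442
import Cfsg.Agent.Blk.OneData

set_option autoImplicit false
set_option linter.style.haveILetI false
set_option linter.unusedVariables false
open Cfsg

namespace Cfsg.Agent.S4442


/-- Blocks of defect one. Let p be an odd prime and G a finite group whose Sylow p-subgroup P has order p; let C = C_G(P) and N = N_G(P), and fix a maximal ideal M of the algebraic integers containing p. Let B be a block of G with defect group P, b a block of C inducing B, and θ the member of b having P in its kernel (there is exactly one). Let T be the stabilizer of θ in N (the elements g ∈ N with θ(g c g⁻¹) = θ(c) for all c ∈ C) and e the index of C in T. Then e divides p − 1 and B contains exactly e + (p − 1)/e irreducible characters. Moreover B is the disjoint union of a set X of e characters and a set Y of (p − 1)/e characters such that, with f the index of C in N: every χ ∈ X has χ(1) ≡ ±(f/e)·θ(1) (mod p), there is one sign ε with ψ(1) ≡ ε f θ(1) (mod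 p) for all ψ ∈ Y, and all members of Y agree on the p-regular elements of G. -/
theorem result {G : Type*} [Group G] [Finite G] (p : ℕ) [Fact p.Prime] (M : Ideal Cfsg.AlgInt) (hM : Cfsg.IsPModular p M) (hodd : p ≠ 2) (P : Sylow p G) (hP : Nat.card P = p) (B : Set (Cfsg.IrrCharacter G)) (hB : Cfsg.IsPBlock M B) (hBP : Cfsg.IsDefectGroup p M B P) (b : Set (Cfsg.IrrCharacter (Subgroup.centralizer ((P : Subgroup G) : Set G)))) (hind : Cfsg.IsInducedBlock M (Subgroup.centralizer ((P : Subgroup G) : Set G)) b B) (θ : Cfsg.IrrCharacter (Subgroup.centralizer ((P : Subgroup G) : Set G))) (hθ : θ ∈ b) (hθP : ∀ x : Subgroup.centralizer ((P : Subgroup G) : Set G), (x : G) ∈ (P : Subgroup G) → (θ : Subgroup.centralizer ((P : Subgroup G) : Set G) → ℂ) x = (θ : Subgroup.centralizer ((P : Subgroup G) : Set G) → ℂ) 1) (T : Subgroup G) (hT : ∀ g : G, g ∈ T ↔ (g ∈ Subgroup.normalizer ((P : Subgroup G) : Set G) ∧ ∀ c c' : Subgroup.centralizer ((P : Subgroup G) : Set G), (c' : G) = g * c * g⁻¹ → (θ : Subgroup.centralizer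 ((P : Subgroup G) : Set G) → ℂ) c' = (θ : Subgroup.centralizer ((P : Subgroup G) : Set G) → ℂ) c)) (e f : ℕ) (he : (Subgroup.centralizer ((P : Subgroup G) : Set G)).relIndex T = e) (hf : (Subgroup.centralizer ((P : Subgroup G) : Set G)).relIndex (Subgroup.normalizer ((P : Subgroup G) : Set G)) = f) : e ∣ p - 1 ∧ Nat.card B = e + (p - 1) / e ∧ ∃ X Y : Set (Cfsg.IrrCharacter G), B = X ∪ Y ∧ Disjoint X Y ∧ Nat.card X = e ∧ Nat.card Y = (p - 1) / e ∧ (∀ χ ∈ X, (Cfsg.charDegree (χ : G → ℂ) : ℤ) ≡ ((f / e * Cfsg.charDegree (θ : Subgroup.centralizer ((P : Subgroup G) : Set G) → ℂ) : ℕ) : ℤ) [ZMOD p] ∨ (Cfsg.charDegree (χ : G → ℂ) : ℤ) ≡ -((f / e * Cfsg.charDegree (θ : Subgroup.centralizer ((P : Subgroup G) : Set G) → ℂ) : ℕ) : ℤ) [ZMOD p]) ∧ (∃ ε : ℤ, (ε = 1 ∨ ε = -1) ∧ ∀ ψ ∈ Y, (Cfsg.charDegree (ψ : G → ℂ) : ℤ) ≡ ε * ((f * Cfsg.charDegree (θ : Subgroup.centralizer ((P : Subgroup G) : Set G) → ℂ) : ℕ) : ℤ) [ZMOD p]) ∧ ∀ ψ ∈ Y, ∀ ψ' ∈ Y, ∀ g : G, ¬ p ∣ orderOf g → (ψ : G → ℂ) g = (ψ' : G → ℂ)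 g := by
  open Cfsg.Agent.Blk.One Subgroup in
  haveI := Fintype.ofFinite G
  haveI := hM.isMaximal
  obtain ⟨S, h1, h2, h3⟩ := exists_setup P hP
  revert b θ T e f
  rw [← h2, ← h3, ← h1]
  intro b hind θ hθ hθP T hT e f he hf
  have hθt : S.Triv θ := hθP S.xc (mem_zpowers _)
  rw [hind.1.eq_blockOf hθ] at hind
  obtain ⟨D, -⟩ := hθt.exists_data' hM hind
  have hTS : T = (S.St θ).map S.N.subtype := by
    ext g
    rw [hT, mem_map]
    constructor
    · rintro ⟨hg, h⟩
      exact ⟨⟨g, hg⟩, Subtype.ext (funext fun c => h c _ rfl), rfl⟩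
    · rintro ⟨n, hn, rfl⟩
      refine ⟨n.2, fun c c' h => ?_⟩
      have : c' = S.cj n c := Subtype.ext h
      rw [this, ← S.cjI_apply, S.mem_St.1 hn]
  have he' : e = Nat.card (S.A θ) := by
    rw [S.card_A, ← he, hTS, ← relIndex_map_map_of_injective _ _ S.N.subtype_injective,
      subgroupOf_map_subtype, inf_eq_left.2 S.C_le_N]
  have hfe : f / e = (S.St θ).index := by
    rw [← hf, ← S.card_A_mul_index_St θ, he', Nat.mul_div_cancel_left _ Nat.card_pos]
  rw [hfe]
  subst he' hf
  refine ⟨S.card_A_dvd θ, D.card_B, D.X, Set.range D.Y, D.eq_union, D.disjoint, ?_,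
    D.card_range_Y, fun χ hχ => ?_, ⟨D.ε, D.ε_sign, ?_⟩, ?_⟩
  · rw [← D.card_X]; simp
  · have := D.X_modEq hχ
    rcases D.δ_sign χ hχ with h | h <;> rw [h] at this
    · rw [one_mul] at this; exact Or.inl this
    · rw [neg_one_mul] at this; exact Or.inr this
  · rintro _ ⟨i, rfl⟩
    exact D.Y_modEq i
  · rintro _ ⟨i, rfl⟩ _ ⟨j, rfl⟩ g hg
    exact D.Y_regular i j hg

end Cfsg.Agent.S4442
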