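import Mathlib
import Cfsg.Statements.S4443
import Cfsg.Agent.Blk.BlockCount
import Cfsg.Agent.Blk.Contrib
import Cfsg.Agent.Blk.PBKlein
import Cfsg.Agent.Blk.DefectCard

set_option autoImplicit false
open Cfsg

namespace Cfsg.Agent.S4443

section

open MonoidAlgebra Cfsg.Agent.Blk Cfsg.Agent.Ch Cfsg.Agent.GT
open scoped ComplexConjugate

theorem rank_map_le {k K ι : Type*} [Field k] [Field K] [Fintype ι] [DecidableEq ι] (f : k →+* K)
    (A : Matrix ι ι k) : (A.map f).rank = A.rank := by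
  classical
  obtain ⟨L, L', D, h⟩ := Matrix.Pivot.exists_list_transvec_mul_diagonal_mul_list_transvec A
  have h1 := Matrix.TransvectionStruct.det_toMatrix_prod L
  have h2 := Matrix.TransvectionStruct.det_toMatrix_prod L'
  have h3 : ∀ X : Matrix ι ι k, X.det = 1 → (X.map f).det ≠ 0 := fun X hX => by
    have := RingHom.map_det f X
    rw [RingHom.mapMatrix_apply] at this
    rw [← this, hX, map_one]
    exact one_ne_zero
  rw [h, Matrix.map_mul, Matrix.map_mul, Matrix.rank_mul_eq_left_of_det_ne_zero _ _ (h3 _ h2),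
    Matrix.rank_mul_eq_right_of_det_ne_zero _ _ (h3 _ h1),
    Matrix.rank_mul_eq_left_of_det_ne_zero _ _ (h2 ▸ one_ne_zero),
    Matrix.rank_mul_eq_right_of_det_ne_zero _ _ (h1 ▸ one_ne_zero),
    Matrix.diagonal_map (map_zero f), Matrix.rank_diagonal, Matrix.rank_diagonal]
  simp

theorem rank_eq_card {k ι β : Type*} [Field k] [Fintype ι] [Fintype β] [DecidableEq β]
    {A : Matrix ι ι k} {X X' Y Y' : β → ι → k} {u : β → k} (hu : ∀ b, u b ≠ 0)
    (hA : ∀ i j, A i j = ∑ b, X b i * u b * Y b j)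
    (hX : ∀ b b', ∑ i, X' b i * X b' i = if b = b' then 1 else 0)
    (hY : ∀ b b', ∑ i, Y' b i * Y b' i = if b = b' then 1 else 0) : A.rank = Fintype.card β := by
  have h1 : A = (Matrix.of X).transpose * Matrix.diagonal u * Matrix.of Y := by
    ext i j
    rw [hA, Matrix.mul_apply]
    simp
  have h2 : Matrix.of X' * (Matrix.of X).transpose = 1 := by
    ext b b'
    simp [Matrix.mul_apply, hX, Matrix.one_apply]
  have h3 : Matrix.of Y * (Matrix.of Y').transpose = 1 := by
    ext b b'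
    simp only [Matrix.mul_apply, Matrix.one_apply, Matrix.of_apply, Matrix.transpose_apply]
    simp only [mul_comm (Y b _), hY, eq_comm]
  refine le_antisymm ?_ ?_
  · rw [h1]
    exact (Matrix.rank_mul_le_left _ _).trans (Matrix.rank_le_card_width _)
  · have h4 : Matrix.of X' * A * (Matrix.of Y').transpose = Matrix.diagonal u := by
      rw [h1, ← Matrix.mul_assoc, ← Matrix.mul_assoc, h2, Matrix.one_mul, Matrix.mul_assoc, h3,
        Matrix.mul_one]
    rw [← Matrix.rank_of_det_ne_zero (A := Matrix.diagonal u)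
      (by rw [Matrix.det_diagonal]; exact Finset.prod_ne_zero_iff.2 fun b _ => hu b), ← h4]
    exact (Matrix.rank_mul_le_left _ _).trans (Matrix.rank_mul_le_right _ _)

variable {G : Type*} [Group G] [Fintype G]

theorem card_pairs (S : Subgroup G) [Fintype S] (x y : G) :
    (Nat.card {yz : G × G // yz.1 ∈ (ConjClasses.mk x).carrier ∧
      yz.2 ∈ (ConjClasses.mk y).carrier ∧ yz.2 * yz.1⁻¹ ∈ S} : ℂ) =
      ∑ s : S, (classSum ℂ y * classSum ℂ x⁻¹).coeff s := by
  classical
  rw [← Finset.sum_subtype (Finset.univ.filter (· ∈ S)) (by simp)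
    (fun g : G => (classSum ℂ y * classSum ℂ x⁻¹).coeff g), Finset.sum_filter,
    Nat.card_eq_fintype_card, Fintype.card_subtype, Finset.card_filter, Nat.cast_sum,
    Fintype.sum_prod_type_right]
  simp only [coeff_mul_sum, coeff_classSum]
  symm
  rw [Finset.sum_congr rfl (g := fun g : G => ∑ h : G, if g ∈ S then (if IsConj y h then (1 : ℂ)
    else 0) * if IsConj x⁻¹ (h⁻¹ * g) then 1 else 0 else 0) fun g _ => by
      by_cases h : g ∈ S <;> simp only [h, if_true, if_false, Finset.sum_const_zero],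
    Finset.sum_comm]
  refine Finset.sum_congr rfl fun h _ => ?_
  rw [← Equiv.sum_comp ((Equiv.inv G).trans (Equiv.mulLeft h))]
  refine Finset.sum_congr rfl fun a _ => ?_
  have e : IsConj x⁻¹ a⁻¹ ↔ IsConj x a := by
    simp only [isConj_iff]
    refine exists_congr fun c => ?_
    rw [← inv_inj, inv_inv]
    simp [mul_assoc]
  simp only [ConjClasses.mem_carrier_iff_mk_eq, ConjClasses.mk_eq_mk_iff_isConj, Equiv.trans_apply,
    Equiv.inv_apply, Equiv.coe_mulLeft, inv_mul_cancel_left, e, isConj_comm (g := a),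
    isConj_comm (g := h)]
  by_cases h1 : IsConj x a <;> by_cases h2 : IsConj y h <;> by_cases h3 : h * a⁻¹ ∈ S <;>
    simp only [h1, h2, h3, if_true, if_false, and_true, and_false, true_and, false_and, mul_one,
      mul_zero, Nat.cast_one, Nat.cast_zero]

theorem index_mul_card_pairs (S : Subgroup G) [Fintype S] {n : IrrCharacter G → ℕ}
    (hn : ∀ χ : IrrCharacter G, ∑ s : S, (χ : G → ℂ) s = Nat.card S * n χ) (x y : G) :
    (S.index : ℂ) * Nat.card {yz : G × G // yz.1 ∈ (ConjClasses.mk x).carrier ∧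
      yz.2 ∈ (ConjClasses.mk y).carrier ∧ yz.2 * yz.1⁻¹ ∈ S} =
      ∑ χ : IrrCharacter G, n χ * (χ : G → ℂ) 1 *
        (centralChar (χ : G → ℂ) y * centralChar (χ : G → ℂ) x⁻¹) := by
  have hz := Subalgebra.mul_mem _ (classSum_mem_ctr (R := ℂ) y) (classSum_mem_ctr (R := ℂ) x⁻¹)
  have hS : (Nat.card S : ℂ) ≠ 0 := Nat.cast_ne_zero.2 Nat.card_pos.ne'
  have hi : (S.index : ℂ) ≠ 0 := Nat.cast_ne_zero.2 S.index_ne_zero_of_finite
  have e3 : (Nat.card G : ℂ) = Nat.card S * S.index := by exact_mod_cast S.card_mul_index.symm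
  rw [card_pairs]
  simp only [coeff_ctr_eq_sum hz]
  rw [← Finset.mul_sum, Finset.sum_comm, Finset.mul_sum, Finset.mul_sum]
  refine Finset.sum_congr rfl fun χ _ => ?_
  rw [← Finset.mul_sum, ← Finset.mul_sum, ← map_sum, hn, omega_ctr_mul χ (classSum_mem_ctr y),
    omega_classSum χ.isClassFunction, omega_classSum χ.isClassFunction, map_mul, map_natCast,
    map_natCast, e3]
  field_simp

variable {p : ℕ} [Fact p.Prime] {M : Ideal AlgInt} [M.IsMaximal]

theorem sum_om_zReg (S : Sylow p G) [Fintype (S : Subgroup G)] {n : IrrCharacter G → ℕ}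
    (hn : ∀ χ : IrrCharacter G, ∑ s : (S : Subgroup G), (χ : G → ℂ) s =
      Nat.card (S : Subgroup G) * n χ) (χ : IrrCharacter G) :
    ∑ η : IrrCharacter G, Om.om (χ : G → ℂ) (Om.zReg p (η : G → ℂ)) * n η =
      ((S : Subgroup G).index : ℂ) := by
  have hQ0 : (Nat.card (S : Subgroup G) : ℂ) ≠ 0 := Nat.cast_ne_zero.2 Nat.card_pos.ne'
  have h0 := χ.2.apply_one_ne_zero
  have e1 : ∑ u : (S : Subgroup G), pRegularPart p (χ : G → ℂ) u = (χ : G → ℂ) 1 := by
    rw [Finset.sum_eq_single (1 : (S : Subgroup G))]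
    · exact Om.pRegularPart_one Fact.out _
    · intro u _ hu
      rw [Om.pRegularPart_of_dvd]
      obtain ⟨k, hk⟩ := (IsPGroup.iff_orderOf.1 S.isPGroup') u
      rw [Subgroup.orderOf_coe, hk]
      refine dvd_pow_self _ fun h => hu ?_
      rw [h, pow_zero, orderOf_eq_one_iff] at hk
      exact hk
    · simp
  have e2 := fun u : (S : Subgroup G) =>
    (Om.isClassFunction_pRegularPart (p := p) χ.2.isClassFunction).apply_eq_sum_irr (u : G)
  simp only [e2] at e1
  rw [Finset.sum_comm] at e1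
  simp only [← Finset.mul_sum, hn] at e1
  have e3 : (Nat.card G : ℂ) = Nat.card (S : Subgroup G) * (S : Subgroup G).index := by
    exact_mod_cast (S : Subgroup G).card_mul_index.symm
  refine mul_left_cancel₀ (mul_ne_zero hQ0 h0) ?_
  rw [Finset.mul_sum, mul_right_comm, ← e3]
  conv_rhs => rw [← e1, Finset.mul_sum]
  refine Finset.sum_congr rfl fun η _ => ?_
  rw [Om.om_zReg]
  field_simp

theorem deg_div_mem (hM : IsPModular p M) {B : Set (IrrCharacter G)} {χ : IrrCharacter G}
    (hχ : χ ∈ B) : MemLocalRing M ((χ : G → ℂ) 1 / (p ^ Om.minVal p B : ℕ)) := by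
  rw [← χ.2.isCharacter.coe_charDegree, hM.natCast_div_memLocalRing_iff χ.2.charDegree_pos.ne'
    (pow_ne_zero _ hM.prime.ne_zero), hM.prime.factorization_pow, Finsupp.single_eq_same]
  exact Om.minVal_le hχ

open Classical in
theorem unit_ne_zero (hM : IsPModular p M) (S : Sylow p G) [Fintype (S : Subgroup G)]
    {n : IrrCharacter G → ℕ} (hn : ∀ χ : IrrCharacter G, ∑ s : (S : Subgroup G), (χ : G → ℂ) s =
      Nat.card (S : Subgroup G) * n χ) {B : Set (IrrCharacter G)} (hB : IsPBlock M B) :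
    ∑ χ with χ ∈ B, (n χ : Res M) * red M ((χ : G → ℂ) 1 / (p ^ Om.minVal p B : ℕ)) ≠ 0 := by
  obtain ⟨χ, hχ, h0⟩ := Om.exists_height_zero (p := p) hB.nonempty
  have hR : ∀ η : IrrCharacter G, MemLocalRing M (Om.om (η : G → ℂ) (Om.zReg p (χ : G → ℂ))) :=
    fun η => Om.memLocalRing_om_zReg η χ.isGeneralizedCharacter
  have h1 : (χ : G → ℂ) 1 / (p ^ Om.minVal p B : ℕ) * ((S : Subgroup G).index : ℂ) =
      ∑ η with η ∈ B, n η * ((η : G → ℂ) 1 / (p ^ Om.minVal p B : ℕ)) *
        Om.om (η : G → ℂ) (Om.zReg p (χ : G → ℂ)) := by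
    rw [← sum_om_zReg S hn χ, Finset.mul_sum, Finset.sum_filter]
    refine Finset.sum_congr rfl fun η _ => ?_
    split_ifs with h
    · have := Om.om_zReg_symm (p := p) χ η
      linear_combination (-(n η : ℂ) / (p ^ Om.minVal p B : ℕ)) * this
    · rw [Om.om_zReg_eq_zero hM fun h' => h (Om.mem_block_of_sameBlock hB hχ h'), zero_mul,
        mul_zero]
  have h2 := congrArg (red M) h1
  rw [red_mul (deg_div_mem hM hχ) (MemLocalRing.natCast _), red_sum fun η hη =>
    ((MemLocalRing.natCast _).mul (deg_div_mem hM (Finset.mem_filter.1 hη).2)).mul (hR η),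
    Finset.sum_congr rfl (g := fun η => (n η : Res M) *
      red M ((η : G → ℂ) 1 / (p ^ Om.minVal p B : ℕ)) *
        red M (Om.om (χ : G → ℂ) (Om.zReg p (χ : G → ℂ)))) fun η hη => by
      have hη' := (Finset.mem_filter.1 hη).2
      rw [red_mul ((MemLocalRing.natCast _).mul (deg_div_mem hM hη')) (hR η),
        red_mul (MemLocalRing.natCast _) (deg_div_mem hM hη'), red_natCast,
        (red_eq_red_iff (hR η) (hR χ)).2 (Om.block_om_sub hB hη' hχ
          (Om.isClassFunction_zReg χ.isClassFunction)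
          (Om.memLocalRing_zReg χ.isGeneralizedCharacter))], ← Finset.sum_mul] at h2
  intro h
  rw [h, zero_mul, mul_eq_zero, red_natCast, hM.natCast_res_eq_zero_iff,
    red_eq_zero_iff (deg_div_mem hM hχ), ← χ.2.isCharacter.coe_charDegree,
    hM.natCast_div_memLocalIdeal_iff χ.2.charDegree_pos.ne' (pow_ne_zero _ hM.prime.ne_zero),
    hM.prime.factorization_pow, Finsupp.single_eq_same, (Om.blockHeight_eq_zero_iff hχ).1 h0] at h2
  exact h2.elim (lt_irrefl _) S.not_dvd_index

theorem sum_coeff_mul (hM : IsPModular p M) {D : Subgroup G} [hN : D.Normal] {ι : Type*}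
    [Fintype ι] {y : ι → G} (hy : Function.Injective fun i => ConjClasses.mk (y i))
    (hs : ∀ g, ¬ p ∣ orderOf g → IsClassDefect p g D → ∃ i, IsConj (y i) g)
    {B B' : Set (IrrCharacter G)} (hB : IsPBlock M B) (hB' : IsPBlock M B')
    (hD : IsDefectGroup p M B D) (hD' : IsDefectGroup p M B' D) {χ : IrrCharacter G} (hχ : χ ∈ B')
    [Decidable (B = B')] :
    ∑ i, (eps M B).coeff (y i) * red M (centralChar (χ : G → ℂ) (y i)) =
      if B = B' then 1 else 0 := by
  classical
  have := Fintype.ofFinite (ConjClasses G)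
  have h1 : ∀ g, IsConj (Quotient.out (ConjClasses.mk g) : G) g := fun g =>
    ConjClasses.mk_eq_mk_iff_isConj.1 (Quotient.out_eq _)
  rw [show (if B = B' then 1 else 0) = lam M (χ : G → ℂ) (eps M B) by
    split_ifs with e
    · subst e; exact (hB.lam_eps_of_mem hχ).symm
    · exact (hB.lam_eps_of_not_mem fun h' => e (hB.eq_of_mem hB' h' hχ)).symm,
    lam_eq_sum_classes χ (eps_mem_ctr B)]
  refine Finset.sum_bij_ne_zero (fun i _ _ => ConjClasses.mk (y i)) (fun _ _ _ => Finset.mem_univ _)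
    (fun _ _ _ _ _ _ h => hy h) (fun C _ hC => ?_) fun i _ _ => ?_
  · have h2 := left_ne_zero_of_mul hC
    obtain ⟨z, hz, hzD⟩ := hD'.exists_isConj_mem_centralizer hM hB' hχ
      (red_ne_zero_iff.1 (right_ne_zero_of_mul hC)).2
    rw [coeff_eq_of_isConj (eps_mem_ctr B) hz] at h2
    obtain ⟨i, hi⟩ := hs z (Om.not_dvd_orderOf_of_blockCoeff hM hB (coeff_eps_ne_zero_iff.1 h2).2)
      (hD.isClassDefect hM hB h2 hzD)
    have h3 := hi.trans hz.symm
    refine ⟨i, Finset.mem_univ _, ?_, ?_⟩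
    · rwa [coeff_eq_of_isConj (eps_mem_ctr B) h3, centralChar_eq_of_isConj χ.isClassFunction h3]
    · exact (ConjClasses.mk_eq_mk_iff_isConj.2 h3).trans (Quotient.out_eq C)
  · rw [coeff_eq_of_isConj (eps_mem_ctr B) (h1 _), centralChar_eq_of_isConj χ.isClassFunction (h1 _)]

omit [Fintype G] in
theorem isClassDefect_inv [Finite G] {D : Subgroup G} {g : G} (h : IsClassDefect p g D) :
    IsClassDefect p g⁻¹ D := by
  have : Subgroup.centralizer ({g⁻¹} : Set G) = Subgroup.centralizer ({g} : Set G) := by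
    ext x
    simp only [Subgroup.mem_centralizer_singleton_iff]
    exact ⟨fun h => by simpa using (Commute.inv_right (h : Commute x g⁻¹)).eq,
      fun h => (Commute.inv_right (h : Commute x g)).eq⟩
  rwa [isClassDefect_iff, this, ← isClassDefect_iff]

theorem isDefectGroup_of (hM : IsPModular p M) {D : Subgroup G} [hN : D.Normal] {g : G}
    (hg : IsClassDefect p g D) {B : Set (IrrCharacter G)} (hB : IsPBlock M B) {χ : IrrCharacter G}
    (hχ : χ ∈ B) (h : ¬ MemLocalIdeal M (centralChar (χ : G → ℂ) g)) : IsDefectGroup p M B D := by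
  obtain ⟨E, hE⟩ := hB.exists_isDefectGroup p
  obtain ⟨x, hx⟩ := hE.exists_conj_le_of_lam hM hB hχ ((lam_classSum_ne_zero_iff χ g).2 h) hg
  have h1 := hE.conj x
  rwa [le_antisymm hx (h1.normal_le hM hB hg.isPGroup)] at h1

open Classical in
theorem entry_eq (hM : IsPModular p M) (S : Sylow p G) [Fintype (S : Subgroup G)]
    {n : IrrCharacter G → ℕ} (hn : ∀ χ : IrrCharacter G, ∑ s : (S : Subgroup G), (χ : G → ℂ) s =
      Nat.card (S : Subgroup G) * n χ) {D : Subgroup G} [hN : D.Normal]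
    [Fintype {B : Set (IrrCharacter G) // IsPBlock M B ∧ IsDefectGroup p M B D}]
    {r : {B : Set (IrrCharacter G) // IsPBlock M B ∧ IsDefectGroup p M B D} → IrrCharacter G}
    (hr : ∀ B, r B ∈ B.1) {x y : G} (hx : IsClassDefect p x D) (hy : IsClassDefect p y D) :
    ((Nat.card {yz : G × G // yz.1 ∈ (ConjClasses.mk x).carrier ∧
      yz.2 ∈ (ConjClasses.mk y).carrier ∧ yz.2 * yz.1⁻¹ ∈ (S : Subgroup G)} /
        p ^ ((Nat.card G).factorization p - (Nat.card D).factorization p) : ℕ) : Res M) =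
      ∑ B, red M (centralChar (r B : G → ℂ) x⁻¹) * ((((S : Subgroup G).index : ℕ) : Res M)⁻¹ *
        ∑ χ with χ ∈ B.1, (n χ : Res M) * red M ((χ : G → ℂ) 1 / (p ^ Om.minVal p B.1 : ℕ))) *
          red M (centralChar (r B : G → ℂ) y) := by
  set N := Nat.card {yz : G × G // yz.1 ∈ (ConjClasses.mk x).carrier ∧
      yz.2 ∈ (ConjClasses.mk y).carrier ∧ yz.2 * yz.1⁻¹ ∈ (S : Subgroup G)} with hNdef
  set m := (Nat.card G).factorization p - (Nat.card D).factorization p with hm
  have hp0 : p ^ m ≠ 0 := pow_ne_zero _ hM.prime.ne_zero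
  have hmB : ∀ B, IsPBlock M B → IsDefectGroup p M B D → Om.minVal p B = m := fun B hB hD => by
    rw [hm, hD.card_eq_pow_blockDefect hM hB, hM.prime.factorization_pow, Finsupp.single_eq_same,
      ← Om.minVal_add_blockDefect hB.nonempty, Nat.add_sub_cancel]
  have hC := (Subgroup.centralizer ({y} : Set G)).card_mul_index
  have hi : ((Subgroup.centralizer ({y} : Set G)).index).factorization p = m := by
    rw [hm, hy.card_eq, hM.prime.factorization_pow, Finsupp.single_eq_same, ← hC,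
      Nat.factorization_mul Nat.card_pos.ne' Subgroup.index_ne_zero_of_finite, Finsupp.add_apply,
      Nat.add_sub_cancel_left]
  have h1 : ∀ χ : IrrCharacter G,
      MemLocalRing M ((χ : G → ℂ) 1 / (p ^ m : ℕ) * centralChar (χ : G → ℂ) y) := fun χ => by
    have := χ.2.apply_one_ne_zero
    rw [show (χ : G → ℂ) 1 / (p ^ m : ℕ) * centralChar (χ : G → ℂ) y =
      (Subgroup.centralizer ({y} : Set G)).index / (p ^ m : ℕ) * (χ : G → ℂ) y by
        rw [centralChar]; field_simp]
    refine MemLocalRing.mul ?_ (memLocalRing_irr χ y)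
    rw [hM.natCast_div_memLocalRing_iff Subgroup.index_ne_zero_of_finite hp0, hi,
      hM.prime.factorization_pow, Finsupp.single_eq_same]
  have h2 : ((S : Subgroup G).index : ℂ) * (N / (p ^ m : ℕ)) = ∑ χ : IrrCharacter G,
      n χ * ((χ : G → ℂ) 1 / (p ^ m : ℕ) * centralChar (χ : G → ℂ) y) *
        centralChar (χ : G → ℂ) x⁻¹ := by
    rw [mul_div_assoc', hNdef, index_mul_card_pairs _ hn, Finset.sum_div]
    exact Finset.sum_congr rfl fun χ _ => by ring
  have h3 : ∀ χ : IrrCharacter G, MemLocalRing M (n χ * ((χ : G → ℂ) 1 / (p ^ m : ℕ) *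
      centralChar (χ : G → ℂ) y) * centralChar (χ : G → ℂ) x⁻¹) := fun χ =>
    ((MemLocalRing.natCast _).mul (h1 χ)).mul (memLocalRing_centralChar χ _)
  have hS : (((S : Subgroup G).index : ℕ) : ℂ) ≠ 0 :=
    Nat.cast_ne_zero.2 Subgroup.index_ne_zero_of_finite
  have h4 : MemLocalRing M ((N : ℂ) / (p ^ m : ℕ)) := by
    rw [← inv_mul_cancel_left₀ hS ((N : ℂ) / (p ^ m : ℕ)), h2]
    exact (hM.inv_natCast_mem S.not_dvd_index).mul (MemLocalRing.sum fun χ _ => h3 χ)
  have h5 : p ^ m ∣ N := by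
    rcases eq_or_ne N 0 with h | h
    · rw [h]; exact dvd_zero _
    · rw [hM.natCast_div_memLocalRing_iff h hp0, hM.prime.factorization_pow,
        Finsupp.single_eq_same] at h4
      exact (hM.prime.pow_dvd_iff_le_factorization h).2 h4
  have hS' : (((S : Subgroup G).index : ℕ) : Res M) ≠ 0 :=
    fun h => S.not_dvd_index ((hM.natCast_res_eq_zero_iff _).1 h)
  have h6 := congrArg (red M) h2
  rw [red_mul (MemLocalRing.natCast _) h4, ← Nat.cast_div h5 (Nat.cast_ne_zero.2 hp0), red_natCast,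
    red_natCast, red_sum fun χ _ => h3 χ] at h6
  refine mul_left_cancel₀ hS' ?_
  rw [h6, Finset.mul_sum]
  symm
  rw [Finset.sum_congr rfl (g := fun B => ∑ χ : IrrCharacter G, if χ ∈ B.1 then
    red M (n χ * ((χ : G → ℂ) 1 / (p ^ m : ℕ) * centralChar (χ : G → ℂ) y) *
      centralChar (χ : G → ℂ) x⁻¹) else 0) fun B _ => ?_, Finset.sum_comm]
  · refine Finset.sum_congr rfl fun χ _ => ?_
    by_cases h : IsDefectGroup p M (blockOf M (χ : G → ℂ)) D
    · rw [Finset.sum_eq_single ⟨_, isPBlock_blockOf χ, h⟩, if_pos (Om.self_mem_blockOf χ)]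
      · intro B _ hB
        exact if_neg fun h' => hB (Subtype.ext (Om.block_eq_blockOf B.2.1 h'))
      · simp
    · rw [Finset.sum_eq_zero fun (B : {B // IsPBlock M B ∧ IsDefectGroup p M B D}) _ =>
        if_neg fun h' => h (Om.block_eq_blockOf B.2.1 h' ▸ B.2.2)]
      refine (MemLocalIdeal.red_eq_zero (MemLocalIdeal.mul_left
        ((MemLocalRing.natCast _).mul (h1 χ)) ?_)).symm
      by_contra h'
      exact h (isDefectGroup_of hM (isClassDefect_inv hx) (isPBlock_blockOf χ)
        (Om.self_mem_blockOf χ) h')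
  · rw [← Finset.sum_filter, hmB _ B.2.1 B.2.2, mul_comm (red M _), ← mul_assoc, ← mul_assoc,
      mul_inv_cancel_left₀ hS', Finset.sum_mul, Finset.sum_mul]
    refine Finset.sum_congr rfl fun χ hχ => ?_
    have hχ' := (Finset.mem_filter.1 hχ).2
    have h7 := deg_div_mem hM hχ'
    rw [hmB _ B.2.1 B.2.2] at h7
    have h8 := sameBlock_iff_red.1 (Om.sameBlock_of_mem B.2.1 hχ' (hr B))
    rw [red_mul ((MemLocalRing.natCast _).mul (h1 χ)) (memLocalRing_centralChar χ _),
      red_mul (MemLocalRing.natCast _) (h1 χ), red_mul h7 (memLocalRing_centralChar χ _),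
      red_natCast, h8, h8]
    ring

end

/-- Let D be a normal p-subgroup of the finite group G, of order p^d, let p^a be the p-part of the order of G, and fix a Sylow p-subgroup S and a maximal ideal M of the algebraic integers containing p. Index by a finite type ι (via an injective map K) exactly the conjugacy classes of p-regular elements x of G for which D is a Sylow p-subgroup of C_G(x). For classes K_i, K_j let ω(i, j) be the number of pairs (y, z) ∈ K_i × K_j with z y⁻¹ ∈ S; this number is divisible by p^(a−d). Then the number of p-blocks of G having D as a defect group equals the rank over ℤ/pℤ of the matrix with (i, j) entry ω(i, j)/p^(a−d) reduced modulo p. -/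
theorem result {G : Type*} [Group G] [Finite G] (p : ℕ) [Fact p.Prime] (M : Ideal Cfsg.AlgInt) (hM : Cfsg.IsPModular p M) (D : Subgroup G) [D.Normal] (hD : IsPGroup p D) (S : Sylow p G) {ι : Type*} [Fintype ι] [DecidableEq ι] (K : ι → ConjClasses G) (hKinj : Function.Injective K) (hK : ∀ C : ConjClasses G, (∃ i, K i = C) ↔ ∃ x ∈ C.carrier, ¬ p ∣ orderOf x ∧ ∃ Q : Sylow p (Subgroup.centralizer ({x} : Set G)), (Q : Subgroup (Subgroup.centralizer ({x} : Set G))).map (Subgroup.centralizer ({x} : Set G)).subtype = D) : Nat.card {B : Set (Cfsg.IrrCharacter G) // Cfsg.IsPBlock M B ∧ Cfsg.IsDefectGroup p M B D} = (Matrix.of fun i j : ι => ((Nat.card {yz : G × G // yz.1 ∈ (K i).carrier ∧ yz.2 ∈ (K j).carrier ∧ yz.2 * yz.1⁻¹ ∈ (S : Subgroup G)} / p ^ ((Nat.card G).factorization p - (Nat.card D).factorization p) : ℕ) : ZMod p)).rank := by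
  classical
  have := hM.isMaximal
  have := hM.charP
  have := Fintype.ofFinite G
  have := Fintype.ofFinite
    {B : Set (Cfsg.IrrCharacter G) // Cfsg.IsPBlock M B ∧ Cfsg.IsDefectGroup p M B D}
  choose x hx1 hx2 hx3 using fun i => (hK (K i)).1 ⟨i, rfl⟩
  have hx : ∀ i, K i = ConjClasses.mk (x i) := fun i =>
    (ConjClasses.mem_carrier_iff_mk_eq.1 (hx1 i)).symm
  have hs : ∀ g, ¬ p ∣ orderOf g → Agent.Blk.IsClassDefect p g D → ∃ i, IsConj (x i) g :=
    fun g h1 h2 => by
      obtain ⟨i, hi⟩ := (hK (ConjClasses.mk g)).2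
        ⟨g, ConjClasses.mem_carrier_iff_mk_eq.2 rfl, h1, h2.imp fun _ => Eq.symm⟩
      exact ⟨i, ConjClasses.mk_eq_mk_iff_isConj.1 ((hx i).symm.trans hi)⟩
  have hinj : Function.Injective fun i => ConjClasses.mk (x i) := fun i j h =>
    hKinj ((hx i).trans (h.trans (hx j).symm))
  have e : ∀ a b : G, IsConj a⁻¹ b⁻¹ ↔ IsConj a b := fun a b => by
    simp only [isConj_iff]
    refine exists_congr fun c => ?_
    rw [← inv_inj, inv_inv]
    simp [mul_assoc]
  choose n hn using fun η : IrrCharacter G =>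
    Agent.Blk.PB.exists_sum_subgroup η.2.isCharacter (S : Subgroup G)
  choose r hr using fun B : {B : Set (Cfsg.IrrCharacter G) // Cfsg.IsPBlock M B ∧
    Cfsg.IsDefectGroup p M B D} => B.2.1.nonempty
  rw [← rank_map_le (ZMod.castHom (dvd_refl p) (Agent.Blk.Res M)), Nat.card_eq_fintype_card]
  refine (rank_eq_card (X' := fun B i => (Agent.Blk.eps M B.1).coeff (x i)⁻¹)
    (X := fun B i => Agent.Blk.red M (centralChar (r B : G → ℂ) (x i)⁻¹))
    (Y := fun B i => Agent.Blk.red M (centralChar (r B : G → ℂ) (x i)))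
    (Y' := fun B i => (Agent.Blk.eps M B.1).coeff (x i)) (fun B => mul_ne_zero (inv_ne_zero
      fun h => S.not_dvd_index ((hM.natCast_res_eq_zero_iff _).1 h)) (unit_ne_zero hM S hn B.2.1))
    (fun i j => ?_) (fun B B' => ?_) (fun B B' => ?_)).symm
  · rw [Matrix.map_apply, Matrix.of_apply, map_natCast, hx i, hx j]
    exact entry_eq hM S hn hr ((hx3 i).imp fun _ => Eq.symm) ((hx3 j).imp fun _ => Eq.symm)
  · rw [sum_coeff_mul hM (y := fun i => (x i)⁻¹) (fun i j h => hinj
      (ConjClasses.mk_eq_mk_iff_isConj.2 ((e _ _).1 (ConjClasses.mk_eq_mk_iff_isConj.1 h))))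
      (fun g h1 h2 => (hs g⁻¹ (by rwa [orderOf_inv]) (isClassDefect_inv h2)).imp fun i hi =>
        (e _ _).1 (by rwa [inv_inv])) B.2.1 B'.2.1 B.2.2 B'.2.2 (hr B')]
    simp only [Subtype.ext_iff]
  · rw [sum_coeff_mul hM hinj hs B.2.1 B'.2.1 B.2.2 B'.2.2 (hr B')]
    simp only [Subtype.ext_iff]

end Cfsg.Agent.S4443
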