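import Mathlib
import Cfsg.Statements.S4446
import Cfsg.Agent.Ch.GlaubCyclic

set_option autoImplicit false
open Cfsg

namespace Cfsg.Agent.S4446

/-- Let the finite group Γ be generated by a normal subgroup G and a cyclic subgroup S of coprime orders, C = G ⊓ C(S), and let χ be an S-invariant irreducible character of G with canonical extension χ̂ to Γ (the extension whose determinantal order is coprime to the order of S). Then there are exactly one irreducible character β of C and one sign ε such that χ̂(c s) = ε β(c) for every c ∈ C and every generator s of S; this β is a constituent of the restriction of χ to C; distinct S-invariant χ give distinct β; and every irreducible character of C arises in this way. -/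
theorem result {Γ : Type*} [Group Γ] [Fintype Γ] (G S : Subgroup Γ) [Fintype G] (hnorm : ∀ s ∈ S, ∀ g ∈ G, s * g * s⁻¹ ∈ G) (hcop : (Nat.card G).Coprime (Nat.card S)) (htop : G ⊔ S = ⊤) (hcyc : IsCyclic S) (C : Subgroup Γ) [Fintype C] (hC : C = G ⊓ Subgroup.centralizer (S : Set Γ)) (hCG : C ≤ G) : (∀ (χ : Cfsg.IrrCharacter G) (χh : Cfsg.IrrCharacter Γ), (∀ s ∈ S, ∀ g g' : G, (g' : Γ) = s * g * s⁻¹ → (χ : G → ℂ) g' = (χ : G → ℂ) g) → (∀ g : G, (χh : Γ → ℂ) g = (χ : G → ℂ) g) → (Cfsg.detOrder (χh : Γ → ℂ)).Coprime (Nat.card S) → (∃! βε : Cfsg.IrrCharacter C × ℤ, (βε.2 = 1 ∨ βε.2 = -1) ∧ ∀ c : C, ∀ s : Γ, Subgroup.zpowers s = S → (χh : Γ → ℂ) ((c : Γ) * s) = (βε.2 : ℂ) * (βε.1 : C → ℂ) c) ∧ ∀ β : Cfsg.IrrCharacter C, ∀ ε : ℤ, (ε = 1 ∨ ε = -1) → (∀ c : C, ∀ s : Γ, Subgroup.zpowers s = S → (χh : Γ → ℂ) ((c : Γ) * s) = (ε : ℂ) * (β : C → ℂ) c) → Cfsg.classInner (fun c : C => (χ : G → ℂ) ⟨c, hCG c.2⟩)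 (β : C → ℂ) ≠ 0) ∧ (∀ (χ χ' : Cfsg.IrrCharacter G) (χh χh' : Cfsg.IrrCharacter Γ), (∀ s ∈ S, ∀ g g' : G, (g' : Γ) = s * g * s⁻¹ → (χ : G → ℂ) g' = (χ : G → ℂ) g) → (∀ s ∈ S, ∀ g g' : G, (g' : Γ) = s * g * s⁻¹ → (χ' : G → ℂ) g' = (χ' : G → ℂ) g) → (∀ g : G, (χh : Γ → ℂ) g = (χ : G → ℂ) g) → (∀ g : G, (χh' : Γ → ℂ) g = (χ' : G → ℂ) g) → (Cfsg.detOrder (χh : Γ → ℂ)).Coprime (Nat.card S) → (Cfsg.detOrder (χh' : Γ → ℂ)).Coprime (Nat.card S) → ∀ β : Cfsg.IrrCharacter C, ∀ ε ε' : ℤ, (ε = 1 ∨ ε = -1) → (ε' = 1 ∨ ε' = -1) → (∀ c : C, ∀ s : Γ, Subgroup.zpowers s = S → (χh : Γ → ℂ) ((c : Γ) * s) = (ε : ℂ) * (β : C → ℂ) c) → (∀ c : C, ∀ s : Γ, Subgroup.zpowers s = S → (χh' : Γ → ℂ) ((c : Γ) * s) = (ε' : ℂ) * (β : C → ℂ) c) → χ = χ') ∧ (∀ β : Cfsg.IrrCharacter C, ∃ (χ : Cfsg.IrrCharacter G) (χh : Cfsg.IrrCharacter Γ) (ε : ℤ), (∀ s ∈ S, ∀ g g' : G, (g' : Γ) = s * g * s⁻¹ → (χ : G → ℂ) g' = (χ : G → ℂ) g)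 ∧ (∀ g : G, (χh : Γ → ℂ) g = (χ : G → ℂ) g) ∧ (Cfsg.detOrder (χh : Γ → ℂ)).Coprime (Nat.card S) ∧ (ε = 1 ∨ ε = -1) ∧ ∀ c : C, ∀ s : Γ, Subgroup.zpowers s = S → (χh : Γ → ℂ) ((c : Γ) * s) = (ε : ℂ) * (β : C → ℂ) c) := by
  obtain ⟨s, rfl⟩ := (Subgroup.isCyclic_iff_exists_zpowers_eq_top S).mp hcyc
  have hG : G.Normal := by
    rw [← Subgroup.normalizer_eq_top_iff, eq_top_iff, ← htop]
    exact sup_le Subgroup.le_normalizer fun t ht => Subgroup.mem_normalizer_fintype (hnorm t ht)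
  rw [Nat.card_zpowers] at hcop ⊢
  have hC' : ∀ c, c ∈ C ↔ c ∈ G ∧ c * s = s * c := fun c => by
    rw [hC, Ch.Glb.mem_inf_centralizer_zpowers]
  refine ⟨fun χ χh _ hext hdet => ?_, fun χ χ' χh χh' _ _ hext hext' hdet hdet' β ε ε' hε hε' h h' => ?_,
    fun β => ?_⟩
  · have ha : Ch.Glb.CanExt (orderOf s) (χ : G → ℂ) χh := ⟨χ.2, χh.2, hext, hdet⟩
    constructor
    · obtain ⟨β, ε, hε, h⟩ := ha.exists_sign htop hcop hC'
      refine ⟨(β, ε), ⟨hε, fun c t ht => ?_⟩, ?_⟩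
      · rw [ha.apply_mul_pow htop hcop hC' ht, h]
      · rintro ⟨β', ε'⟩ ⟨hε', h'⟩
        simp only at hε' h'
        have h1 : (ε' : ℂ) • (β' : C → ℂ) = (ε : ℂ) • (β : C → ℂ) := by
          funext c; simp only [Pi.smul_apply, smul_eq_mul]; rw [← h, h' c s rfl]
        have h2 := congrArg (fun f => classInner f (β : C → ℂ)) h1
        simp only [Ch.classInner_smul_left, β.2.classInner_self, mul_one] at h2
        have h3 : β' = β := by
          by_contra hne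
          rw [β'.2.classInner_eq_zero β.2 (fun h => hne (Subtype.ext h)), mul_zero] at h2
          rcases hε with rfl | rfl <;> simp at h2
        subst h3
        rw [β'.2.classInner_self, mul_one] at h2
        rw [Int.cast_injective h2]
    · intro β ε hε h h0
      have hψ := Ch.Glb.isCharacter_slice_subgroup C (Subgroup.zpowers s) (Ch.Glb.comm_zpowers hC')
        χh.2.isCharacter β.2
      have h1 := hψ.eq_zero_of_apply_one (by
        simp only [OneMemClass.coe_one, mul_one]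
        rw [← h0]
        congr 1
        funext c
        exact hext ⟨c, hCG c.2⟩)
      have h2 := congrFun h1 ⟨s, Subgroup.mem_zpowers s⟩
      simp only [Pi.zero_apply] at h2
      rw [show (fun c : C => (χh : Γ → ℂ) (c * s)) = (ε : ℂ) • (β : C → ℂ) from
        funext fun c => h c s rfl, Ch.classInner_smul_left, β.2.classInner_self] at h2
      rcases hε with rfl | rfl <;> simp at h2
  · have ha : Ch.Glb.CanExt (orderOf s) (χ : G → ℂ) χh := ⟨χ.2, χh.2, hext, hdet⟩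
    have hb : Ch.Glb.CanExt (orderOf s) (χ' : G → ℂ) χh' := ⟨χ'.2, χh'.2, hext', hdet'⟩
    exact Subtype.ext (ha.eq_of_sign hcop hC' hb β.2 hε hε' (fun c => h c s rfl) fun c => h' c s rfl)
  · obtain ⟨χ, a, ε, ha, hε, h⟩ := Ch.Glb.exists_canExt_sign htop hcop hC' β
    refine ⟨⟨χ, ha.irr⟩, ⟨a, ha.irrh⟩, ε, ha.inv.mono le_top, ha.ext, ha.cop, hε, fun c t ht => ?_⟩
    simp only
    rw [ha.apply_mul_pow htop hcop hC' ht, h]

end Cfsg.Agent.S4446
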