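import Mathlib
import Cfsg.Statements.S4451
import Cfsg.Agent.Ch.NearRegular
import Cfsg.Agent.Ch.GlaubCyclic

set_option autoImplicit false
open Cfsg

namespace Cfsg.Agent.S4451

/-- Let the finite group Γ be generated by a normal subgroup G and a cyclic subgroup S of coprime orders such that every non-identity element of S has the same centraliser C = G ⊓ C(S) in G. Let χ be an S-invariant irreducible character of G, χ̂ its canonical extension to Γ (determinantal order coprime to the order of S), and β the irreducible character of C with χ̂(c s) = ε₀ β(c) for c ∈ C and generators s of S (ε₀ = ±1). Then there are a sign ε = ±1, which may differ from ε₀, and a linear character μ of S with μ² = 1, such that: (a) χ̂(c x) = ε β(c) μ(x) for all c ∈ C and all x ∈ S other than 1; (b) the restriction of χ to C equals |S|·ϑ + ε β for some character ϑ of C or ϑ = 0; (c) |S| divides χ(1) − ε β(1). -/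
theorem result {Γ : Type*} [Group Γ] [Fintype Γ] (G S : Subgroup Γ) [Fintype G] (hnorm : ∀ s ∈ S, ∀ g ∈ G, s * g * s⁻¹ ∈ G) (hcop : (Nat.card G).Coprime (Nat.card S)) (htop : G ⊔ S = ⊤) (hcyc : IsCyclic S) (C : Subgroup Γ) [Fintype C] (hC : C = G ⊓ Subgroup.centralizer (S : Set Γ)) (hCG : C ≤ G) (hfpf : ∀ x ∈ S, x ≠ 1 → G ⊓ Subgroup.centralizer ({x} : Set Γ) = C) (χ : Cfsg.IrrCharacter G) (hinv : (∀ s ∈ S, ∀ g g' : G, (g' : Γ) = s * g * s⁻¹ → (χ : G → ℂ) g' = (χ : G → ℂ) g)) (χh : Cfsg.IrrCharacter Γ) (hext : (∀ g : G, (χh : Γ → ℂ) g = (χ : G → ℂ) g)) (hdet : (Cfsg.detOrder (χh : Γ → ℂ)).Coprime (Nat.card S)) (β : Cfsg.IrrCharacter C) (ε₀ : ℤ) (hε₀ : ε₀ = 1 ∨ ε₀ = -1) (hβ : ∀ c : C, ∀ s : Γ, Subgroup.zpowers s = S → (χh : Γ → ℂ) ((c : Γ) * s) = (ε₀ : ℂ) * (β : C → ℂ) c) : ∃ ε : ℤ, (ε = 1 ∨ ε = -1) ∧ (∃ μ : S → ℂ, Cfsg.IsCharacter S μ ∧ μ 1 = 1 ∧ (∀ x : S, μ x * μ x = 1) ∧ ∀ c : C, ∀ x : S, x ≠ 1 → (χh : Γ → ℂ) ((c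 : Γ) * x) = (ε : ℂ) * (β : C → ℂ) c * μ x) ∧ (∃ ϑ : C → ℂ, Cfsg.IsCharacter C ϑ ∧ (fun c : C => (χ : G → ℂ) ⟨c, hCG c.2⟩) = fun c => (Nat.card S : ℂ) * ϑ c + (ε : ℂ) * (β : C → ℂ) c) ∧ (Nat.card S : ℤ) ∣ (Cfsg.charDegree (χ : G → ℂ) : ℤ) - ε * (Cfsg.charDegree (β : C → ℂ) : ℤ) := by
  classical
  have := Fintype.ofFinite S
  have hG : G.Normal := by
    rw [← Subgroup.normalizer_eq_top_iff, eq_top_iff, ← htop, sup_le_iff]
    refine ⟨Subgroup.le_normalizer, fun s hs => ?_⟩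
    rw [Subgroup.mem_normalizer_iff]
    refine fun g => ⟨hnorm s hs g, fun h => ?_⟩
    have := hnorm s⁻¹ (S.inv_mem hs) _ h
    simpa [mul_assoc] using this
  have hcomm : ∀ c ∈ C, ∀ s ∈ S, c * s = s * c := by
    intro c hc s hs
    rw [hC] at hc
    exact ((Subgroup.mem_centralizer_iff.1 (Subgroup.mem_inf.1 hc).2) s hs).symm
  have hSc : ∀ a b : S, a * b = b * a := fun a b => by
    let := hcyc.commGroup
    exact mul_comm a b
  obtain ⟨s0, hs0⟩ := hcyc.exists_generator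
  have hgen : Subgroup.zpowers (s0 : Γ) = S := by
    refine le_antisymm (Subgroup.zpowers_le.2 s0.2) fun x hx => ?_
    obtain ⟨k, hk⟩ := hs0 ⟨x, hx⟩
    exact ⟨k, by simpa using congrArg Subtype.val hk⟩
  have hdegc : ∀ (ε : ℤ) (ϑ : C → ℂ), IsCharacter C ϑ →
      ((fun c : C => (χ : G → ℂ) ⟨c, hCG c.2⟩) =
        fun c => (Nat.card S : ℂ) * ϑ c + (ε : ℂ) * (β : C → ℂ) c) →
      (Nat.card S : ℤ) ∣ (charDegree (χ : G → ℂ) : ℤ) - ε * (charDegree (β : C → ℂ) : ℤ) := by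
    intro ε ϑ hϑ h
    refine ⟨charDegree ϑ, ?_⟩
    have h1 := congrFun h 1
    have h2 : (χ : G → ℂ) ⟨((1 : C) : Γ), hCG (1 : C).2⟩ = (χ : G → ℂ) 1 := rfl
    rw [h2, ← χ.2.coe_charDegree, ← β.2.coe_charDegree, ← hϑ.coe_charDegree] at h1
    have h3 : (((charDegree (χ : G → ℂ) : ℤ) - ε * (charDegree (β : C → ℂ) : ℤ) : ℤ) : ℂ) =
        (((Nat.card S : ℤ) * (charDegree ϑ : ℤ) : ℤ) : ℂ) := by
      push_cast
      rw [h1]
      ring
    exact_mod_cast h3
  by_cases h1 : s0 = 1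
  · have hall : ∀ x : S, x = 1 := fun x => by
      obtain ⟨k, hk⟩ := hs0 x
      rw [← hk, h1]
      simp
    have hres : (fun c : C => (χ : G → ℂ) ⟨c, hCG c.2⟩) =
        fun c => (Nat.card S : ℂ) * (0 : C → ℂ) c + (ε₀ : ℂ) * (β : C → ℂ) c := by
      funext c
      have := hβ c s0 hgen
      rw [h1] at this
      simp only [OneMemClass.coe_one, mul_one] at this
      rw [← hext]
      simpa using this
    exact ⟨ε₀, hε₀, ⟨fun _ => 1, IsCharacter.one, rfl, fun _ => one_mul _,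
      fun c x hx => (hx (hall x)).elim⟩, ⟨0, IsCharacter.zero, hres⟩,
      hdegc ε₀ 0 IsCharacter.zero hres⟩
  have hcan : Ch.Glb.CanExt (Nat.card S) (χ : G → ℂ) (χh : Γ → ℂ) := ⟨χ.2, χh.2, hext, hdet⟩
  set ψ : IrrCharacter C → S → ℂ := fun γ t =>
    classInner (fun c : C => (χh : Γ → ℂ) (c * t)) γ with hψ
  have hψc : ∀ γ, IsCharacter S (ψ γ) := fun γ =>
    Ch.Glb.isCharacter_slice_subgroup C S hcomm χh.isCharacter γ.2
  have hcf : ∀ t : S, IsClassFunction C fun c : C => (χh : Γ → ℂ) (c * t) := by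
    intro t
    refine IsClassFunction.of_isConj fun a b hab => ?_
    obtain ⟨u, rfl⟩ := isConj_iff.1 hab
    have h2 : ((u * a * u⁻¹ : C) : Γ) * t = u * (a * t) * (u : Γ)⁻¹ := by
      have := hcomm _ (C.inv_mem u.2) _ t.2
      push_cast
      rw [mul_assoc, this]
      group
    rw [h2, χh.isClassFunction.conj_eq]
  have hsum : ∀ x : S, x ≠ 1 → ∑ γ, ‖ψ γ x‖ ^ 2 = 1 := by
    intro x hx
    have hx' : (x : Γ) ≠ 1 := fun h => hx (Subtype.ext h)
    have h2 : classInner (fun c : C => (χh : Γ → ℂ) (c * x))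
        (fun c : C => (χh : Γ → ℂ) (c * x)) = 1 := by
      refine hcan.classInner_theta_self ?_ fun c => ?_
      · refine hcop.coprime_dvd_right ?_
        rw [Subgroup.orderOf_coe]
        exact orderOf_dvd_natCard x
      · rw [← hfpf x x.2 hx', Subgroup.mem_inf, Subgroup.mem_centralizer_singleton_iff]
    have h3 := (hcf x).re_classInner_self_eq_sum
    rw [h2] at h3
    simpa using h3.symm
  have hle : ∀ γ (x : S), x ≠ 1 → ‖ψ γ x‖ ≤ 1 := by
    intro γ x hx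
    have h2 : ‖ψ γ x‖ ^ 2 ≤ 1 := by
      rw [← hsum x hx]
      exact Finset.single_le_sum (f := fun γ => ‖ψ γ x‖ ^ 2) (fun _ _ => by positivity)
        (Finset.mem_univ γ)
    have := norm_nonneg (ψ γ x)
    nlinarith
  have hβs : ψ β s0 = ε₀ := by
    have h2 : (fun c : C => (χh : Γ → ℂ) (c * s0)) = (ε₀ : ℂ) • (β : C → ℂ) :=
      funext fun c => hβ c s0 hgen
    simp only [hψ]
    rw [h2, Ch.classInner_smul_left, β.2.classInner_self, mul_one]
  have hε0 : (ε₀ : ℂ) * ε₀ = 1 := by rcases hε₀ with rfl | rfl <;> simp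
  choose a ha using fun γ => Ch.near_regular_of_comm hSc (hψc γ) (hle γ)
  obtain ⟨ε, μ, hε, hμ⟩ := (ha β).resolve_left fun h => by
    have := h s0
    rw [hβs, Ch.regChar_of_ne h1, mul_zero] at this
    rw [this, zero_mul] at hε0
    exact zero_ne_one hε0
  have hεε : (ε : ℂ) * ε = 1 := by rcases hε with rfl | rfl <;> simp
  have hεn : ‖(ε : ℂ)‖ = 1 := by rcases hε with rfl | rfl <;> simp
  have hψβ : ∀ x : S, x ≠ 1 → ψ β x = ε * μ x := fun x hx => by
    rw [hμ, Ch.regChar_of_ne hx, mul_zero, zero_add]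
  have hzero : ∀ γ, γ ≠ β → ∀ x : S, x ≠ 1 → ψ γ x = 0 := by
    intro γ hγ x hx
    have h2 := Finset.add_le_sum (f := fun γ => ‖ψ γ x‖ ^ 2) (s := Finset.univ)
      (fun _ _ => by positivity) (Finset.mem_univ γ) (Finset.mem_univ β) hγ
    rw [hsum x hx, hψβ x hx, norm_mul, hεn, Ch.norm_monoidHom_units] at h2
    have h3 : ‖ψ γ x‖ ^ 2 = 0 := le_antisymm (by linarith) (by positivity)
    exact norm_eq_zero.1 (pow_eq_zero_iff two_ne_zero |>.1 h3)
  have hreg : ∀ γ, γ ≠ β → ψ γ 1 = a γ * Nat.card S := by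
    intro γ hγ
    rcases ha γ with h | ⟨ε', μ', hε', h⟩
    · rw [h, Ch.regChar_one]
    · have h2 := h s0
      rw [hzero γ hγ s0 h1, Ch.regChar_of_ne h1, mul_zero, zero_add] at h2
      have h3 : (ε' : ℂ) ≠ 0 := by rcases hε' with rfl | rfl <;> simp
      exact (mul_ne_zero h3 (μ' s0).ne_zero h2.symm).elim
  have hres : (fun c : C => (χ : G → ℂ) ⟨c, hCG c.2⟩) =
      fun c => (Nat.card S : ℂ) * (∑ γ : IrrCharacter C, a γ • (γ : C → ℂ)) c +
        (ε : ℂ) * (β : C → ℂ) c := by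
    funext c
    have h2 := (hcf 1).apply_eq_sum_irr c
    have h3 : ∀ γ : IrrCharacter C, ψ γ 1 = a γ * Nat.card S + if γ = β then (ε : ℂ) else 0 := by
      intro γ
      split_ifs with h
      · rw [h, hμ, Ch.regChar_one]
        simp
      · rw [hreg γ h, add_zero]
    change _ = ∑ γ : IrrCharacter C, ψ γ 1 * (γ : C → ℂ) c at h2
    simp only [OneMemClass.coe_one, mul_one, h3, add_mul, Finset.sum_add_distrib, ite_mul,
      zero_mul, Finset.sum_ite_eq', Finset.mem_univ, if_true] at h2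
    rw [← hext, h2, Finset.sum_apply, Finset.mul_sum]
    congr 1
    refine Finset.sum_congr rfl fun γ _ => ?_
    simp only [Pi.smul_apply, nsmul_eq_mul]
    ring
  refine ⟨ε, hε, ⟨fun x => μ x, Ch.isCharacter_monoidHom_units μ, by simp, fun x => ?_,
    fun c x hx => ?_⟩, ⟨_, IsCharacter.of_sum_nat a, hres⟩,
    hdegc ε _ (IsCharacter.of_sum_nat a) hres⟩
  · have h2 : μ s0 * μ s0 = 1 := by
      have h3 := hψβ s0 h1
      rw [hβs] at h3
      rw [h3] at hε0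
      ext
      push_cast
      linear_combination hε0 - (μ s0 : ℂ) * μ s0 * hεε
    obtain ⟨k, rfl⟩ := hs0 x
    have h3 : μ (s0 ^ k) * μ (s0 ^ k) = 1 := by
      rw [map_zpow, ← mul_zpow, h2, one_zpow]
    change ((μ (s0 ^ k) : ℂˣ) : ℂ) * ((μ (s0 ^ k) : ℂˣ) : ℂ) = 1
    rw [← Units.val_mul, h3, Units.val_one]
  · have h2 := (hcf x).apply_eq_sum_irr c
    change _ = ∑ γ : IrrCharacter C, ψ γ x * (γ : C → ℂ) c at h2
    rw [Finset.sum_eq_single β (fun γ _ h => by rw [hzero γ h x hx, zero_mul]) (by simp),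
      hψβ x hx] at h2
    simp only at h2 ⊢
    rw [h2]
    ring

end Cfsg.Agent.S4451
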