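import Mathlib
import Cfsg.Statements.S4454
import Cfsg.Agent.Ch.NearRegular
import Cfsg.Agent.Ch.CliffordRel

set_option autoImplicit false
open Cfsg

namespace Cfsg.Agent.S4454

theorem sum_coset {Γ : Type*} [Group Γ] [Finite Γ] (G N : Subgroup Γ) [hG : G.Normal]
    [hN : N.Normal] [Fintype G] [Fintype N] (hNG : N ≤ G) {y : Γ}
    (hy : ∀ g ∈ G, y * g * y⁻¹ * g⁻¹ ∈ N → g ∈ N) {F : Γ → ℂ} (hF : IsClassFunction Γ F) :
    (Nat.card N : ℂ) * ∑ g : G, F (g * y) = Nat.card G * ∑ n : N, F (n * y) := by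
  classical
  set π := QuotientGroup.mk' N with hπ
  have : Fintype (G.map π) := Fintype.ofFinite _
  have hGb : (G.map π).Normal := hG.map π (QuotientGroup.mk'_surjective N)
  set A : Γ → ℂ := fun h => ∑ n : N, F (n * h * y) with hA
  have hAN : ∀ h h' : Γ, π h = π h' → A h = A h' := by
    intro h h' hh
    have h1 : h * h'⁻¹ ∈ N := by
      rw [← QuotientGroup.ker_mk' N, MonoidHom.mem_ker, map_mul, map_inv, ← hπ, hh, mul_inv_cancel]
    simp only [hA]
    refine Fintype.sum_equiv (Equiv.mulRight ⟨_, h1⟩) _ _ fun n => ?_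
    simp [mul_assoc]
  set B : G.map π → ℂ := fun q => A (Quotient.out (q : Γ ⧸ N)) with hB
  have hBA : ∀ (g : Γ) (hg : π g ∈ G.map π), B ⟨π g, hg⟩ = A g := fun g hg =>
    hAN _ _ (by simp [hπ])
  set c : G.map π → G.map π := fun q => ⟨q * π y * (q : Γ ⧸ N)⁻¹ * (π y)⁻¹, by
    rw [mul_assoc, mul_assoc, ← mul_assoc (π y)]
    exact (G.map π).mul_mem q.2 (hGb.conj_mem _ ((G.map π).inv_mem q.2) _)⟩ with hc
  have hcinj : Function.Injective c := by
    rintro ⟨_, a, ha, rfl⟩ ⟨_, b, hb, rfl⟩ hab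
    have h1 := congrArg Subtype.val hab
    simp only [hc] at h1
    have h2 : π (y * (b⁻¹ * a) * y⁻¹ * (b⁻¹ * a)⁻¹) = 1 := by
      have h3 : π a * π y * (π a)⁻¹ = π b * π y * (π b)⁻¹ := mul_right_cancel h1
      simp only [map_mul, map_inv]
      calc π y * ((π b)⁻¹ * π a) * (π y)⁻¹ * ((π b)⁻¹ * π a)⁻¹
          = π y * (π b)⁻¹ * (π a * π y * (π a)⁻¹)⁻¹ * π b := by group
        _ = 1 := by rw [h3]; group
    have h4 := hy _ (G.mul_mem (G.inv_mem hb) ha) (by
      rw [← QuotientGroup.ker_mk' N]; exact h2)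
    rw [← QuotientGroup.ker_mk' N, MonoidHom.mem_ker, map_mul, map_inv, inv_mul_eq_one] at h4
    exact Subtype.ext h4.symm
  have hcb := Finite.injective_iff_bijective.1 hcinj
  have h1 := Ch.sum_comp_surjective (π.subgroupMap G) (π.subgroupMap_surjective G) B
  have h2 := Ch.sum_comp_surjective (π.subgroupMap G) (π.subgroupMap_surjective G)
    fun q => B (c q)
  rw [hcb.sum_comp B, ← h1] at h2
  have h3 : ∀ g : G, B (π.subgroupMap G g) = A g := fun g => hBA g _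
  have h4 : ∀ g : G, B (c (π.subgroupMap G g)) = ∑ n : N, F (n * y) := by
    intro g
    have h5 : c (π.subgroupMap G g) = ⟨π (g * y * (g : Γ)⁻¹ * y⁻¹), by
        refine ⟨_, ?_, rfl⟩
        rw [mul_assoc, mul_assoc, ← mul_assoc y]
        exact G.mul_mem g.2 (hG.conj_mem _ (G.inv_mem g.2) _)⟩ := by
      apply Subtype.ext
      simp [hc]
    rw [h5]
    refine (hBA _ _).trans ?_
    simp only [hA]
    symm
    refine Fintype.sum_equiv (MulAut.conjNormal (g : Γ)).toEquiv _ _ fun n => ?_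
    rw [← hF.conj_eq (n * y) g]
    congr 1
    simp [mul_assoc]
  simp only [h3, h4, Finset.sum_const, Finset.card_univ, nsmul_eq_mul, hA] at h2
  rw [Nat.card_eq_fintype_card (α := G), h2, Finset.sum_comm, Nat.card_eq_fintype_card,
    ← Finset.card_univ, ← nsmul_eq_mul, ← Finset.sum_const]
  refine Finset.sum_congr rfl fun n _ => ?_
  symm
  refine Fintype.sum_equiv (Equiv.mulLeft ⟨n, hNG n.2⟩) _ _ fun g => ?_
  simp

/-- Let N ≤ G be normal subgroups of the finite group Γ with Γ/G cyclic and Γ/N a Frobenius group with kernel G/N: G ≠ Γ, N ≠ G, and no element of Γ outside G fixes a non-identity coset of N in G under conjugation. Let ϑ be an irreducible character of N invariant under conjugation by Γ and suppose ϑ is fully ramified in G: the character of G induced from ϑ equals e·χ for an irreducible character χ of G and a natural number e. Then the index of G in Γ divides e − 1 or e + 1. -/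
theorem result {Γ : Type*} [Group Γ] [Fintype Γ] (G N : Subgroup Γ) [hG : G.Normal] [hN : N.Normal] [Fintype G] [Fintype N] (hNG : N ≤ G) (hGlt : G ≠ ⊤) (hNlt : N ≠ G) (hcyc : IsCyclic (Γ ⧸ G)) (hfrob : ∀ x : Γ, x ∉ G → ∀ g : Γ, g ∈ G → x * g * x⁻¹ * g⁻¹ ∈ N → g ∈ N) (θ : Cfsg.IrrCharacter N) (hinv : ∀ (x : Γ) (n : N), (θ : N → ℂ) ⟨x * n * x⁻¹, hN.conj_mem n n.2 x⟩ = (θ : N → ℂ) n) (χ : Cfsg.IrrCharacter G) (e : ℕ) (hram : Cfsg.indFun (N.subgroupOf G) (fun n : N.subgroupOf G => (θ : N → ℂ) ⟨(n : G), n.2⟩) = fun g => (e : ℂ) * (χ : G → ℂ) g) : (G.index : ℤ) ∣ (e : ℤ) - 1 ∨ (G.index : ℤ) ∣ (e : ℤ) + 1 := by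
  classical
  obtain ⟨xb, hxb⟩ := hcyc.exists_generator
  obtain ⟨x, rfl⟩ := QuotientGroup.mk_surjective xb
  have hgen : ∀ y : Γ, ∃ k : ℤ, (x ^ k)⁻¹ * y ∈ G := by
    intro y
    obtain ⟨k, hk⟩ := hxb (y : Γ ⧸ G)
    exact ⟨k, QuotientGroup.eq.1 (by simpa using hk)⟩
  have hxG : x ∉ G := by
    intro hx
    refine hGlt (eq_top_iff.2 fun y _ => ?_)
    obtain ⟨k, hk⟩ := hgen y
    simpa using G.mul_mem (G.zpow_mem hx k) hk
  set S : Subgroup Γ := N ⊔ Subgroup.zpowers x with hS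
  have : Fintype S := Fintype.ofFinite S
  have hNS : N ≤ S := le_sup_left
  have hxS : x ∈ S := (le_sup_right : Subgroup.zpowers x ≤ S) (Subgroup.mem_zpowers x)
  have hmem : ∀ y ∈ S, ∃ k : ℤ, (x ^ k)⁻¹ * y ∈ N := by
    intro y hy
    rw [hS, sup_comm, ← SetLike.mem_coe, Subgroup.mul_normal] at hy
    obtain ⟨_, ⟨k, rfl⟩, n, hn, rfl⟩ := hy
    exact ⟨k, by simpa using hn⟩
  have hSG : ∀ y ∈ S, y ∈ G → y ∈ N := by
    intro y hy hyG
    obtain ⟨k, hk⟩ := hmem y hy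
    have h1 : x ^ k ∈ G := by
      simpa using G.mul_mem hyG (G.inv_mem (hNG hk))
    have h2 := hfrob x hxG _ h1 (by
      have : x * x ^ k * x⁻¹ * (x ^ k)⁻¹ = 1 := by group
      rw [this]; exact N.one_mem)
    simpa using N.mul_mem h2 hk
  have hsup : S ⊔ G = ⊤ := by
    refine eq_top_iff.2 fun y _ => ?_
    obtain ⟨k, hk⟩ := hgen y
    simpa using (S ⊔ G).mul_mem ((le_sup_left : S ≤ S ⊔ G) (S.zpow_mem hxS k))
      ((le_sup_right : G ≤ S ⊔ G) hk)
  have hcard : Nat.card (S ⧸ N.subgroupOf S) = G.index := by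
    have h1 : N.subgroupOf S = G.subgroupOf S := by
      ext y
      simp only [Subgroup.mem_subgroupOf]
      exact ⟨fun h => hNG h, hSG y y.2⟩
    rw [← Subgroup.index_eq_card, h1, ← Subgroup.relIndex, ← Subgroup.relIndex_sup_right, hsup,
      Subgroup.relIndex_top_right]
  have hcS : IsCyclic (S ⧸ N.subgroupOf S) := by
    refine ⟨⟨((⟨x, hxS⟩ : S) : S ⧸ N.subgroupOf S), fun q => ?_⟩⟩
    obtain ⟨y, rfl⟩ := QuotientGroup.mk_surjective q
    obtain ⟨k, hk⟩ := hmem y y.2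
    refine ⟨k, ?_⟩
    simp only
    rw [← QuotientGroup.mk_zpow, QuotientGroup.eq, Subgroup.mem_subgroupOf]
    simpa using hk
  have hinv' : ∀ g : Γ, Ch.conjChar g (θ : N → ℂ) = θ := fun g => funext (hinv g)
  have hT : Ch.inertia N (θ : N → ℂ) = ⊤ := Ch.inertia_eq_top_iff.2 hinv'
  obtain ⟨θh, hθh, hθe⟩ := Ch.extends_of_isCyclic (N := N.subgroupOf S)
    (Ch.isIrrCharacter_subgroupOf hNS θ.2)
    fun g => congrFun (Ch.subOf_invariant (K := S) (θ := (θ : N → ℂ)) (hT ▸ le_top) g)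
  have he : (e : ℂ) ≠ 0 := by
    intro h
    refine Ch.indFun_ne_zero (N.subgroupOf G)
      (θ := fun n : N.subgroupOf G => (θ : N → ℂ) ⟨(n : G), n.2⟩) θ.2.apply_one_ne_zero ?_
    rw [hram, h]
    funext g
    simp
  have hχinv : ∀ (y : Γ) (g : G), (χ : G → ℂ) ⟨y * g * y⁻¹, hG.conj_mem g g.2 y⟩ =
      (χ : G → ℂ) g := by
    intro y g
    have h1 := Ch.indFun_mulEquiv (MulAut.conjNormal (H := G) y) (N.subgroupOf G) (N.subgroupOf G)
      (fun z => by
        simp only [Subgroup.mem_subgroupOf, MulAut.conjNormal_apply]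
        exact ⟨fun h => hN.conj_mem _ h y, fun h => by simpa [mul_assoc] using hN.conj_mem _ h y⁻¹⟩)
      (fun n : N.subgroupOf G => (θ : N → ℂ) ⟨(n : G), n.2⟩)
      (fun n : N.subgroupOf G => (θ : N → ℂ) ⟨(n : G), n.2⟩)
      (fun n => (hinv y ⟨(n : G), n.2⟩).symm) g
    rw [hram] at h1
    exact mul_left_cancel₀ he h1
  obtain ⟨χh, hχh, hχe⟩ := Ch.extends_of_isCyclic (N := G) χ.2 hχinv
  have hres : ∀ n : N, (χ : G → ℂ) ⟨n, hNG n.2⟩ = e * (θ : N → ℂ) n := by
    have h1 : classInner (fun n : N => (χ : G → ℂ) ⟨n, hNG n.2⟩) θ = e := by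
      rw [← Ch.classInner_indFun_subgroupOf_eq_res hNG θ.isCharacter χ.isCharacter, hram]
      exact (Ch.classInner_smul_left (e : ℂ) _ _).trans (by rw [χ.2.classInner_self, mul_one])
    have h2 := Ch.res_eq_smul_of_le_inertia hNG θ.2 (hT ▸ le_top) χ.2 (h1 ▸ he)
    intro n
    rw [congrFun h2 n, h1]
    rfl
  have hθirr : IsIrrCharacter (N.subgroupOf S) fun n => θh n := by
    rw [funext hθe]
    exact Ch.isIrrCharacter_subgroupOf hNS θ.2
  obtain ⟨ψ, hψ, hψ1, hψe⟩ := Ch.exists_quot_mul_of_res hθh.isCharacter hθirr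
    (hχh.isCharacter.restrict S) (c := e) fun n => by
      rw [hθe, ← hres]
      exact hχe ⟨n, hNG n.2⟩
  have hnorm : ∀ q, q ≠ 1 → ‖ψ q‖ = 1 := by
    intro q hq
    obtain ⟨y, rfl⟩ := QuotientGroup.mk_surjective q
    have hyG : (y : Γ) ∉ G := fun h => hq ((QuotientGroup.eq_one_iff y).2 (hSG y y.2 h))
    have h1 := sum_coset G N hNG (hfrob y hyG)
      (hχh.isClassFunction.map fun z => ((‖z‖ ^ 2 : ℝ) : ℂ))
    have h2 := Ch.sum_coset_norm_sq (N := G) hχh.isCharacter (by rw [funext hχe]; exact χ.2) y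
    have h3 := Ch.sum_coset_norm_sq hθh.isCharacter hθirr y
    rw [← Complex.ofReal_sum, ← Complex.ofReal_sum, h2, mul_comm] at h1
    have h4 : ∑ n : N, ‖χh (n * y)‖ ^ 2 = Nat.card N := by
      have := mul_left_cancel₀ (Ch.natCard_ne_zero G) (by simpa only [Complex.ofReal_natCast] using h1)
      exact_mod_cast this.symm
    have h5 : ∑ n : N, ‖χh (n * y)‖ ^ 2 = ‖ψ y‖ ^ 2 * ∑ n : N.subgroupOf S, ‖θh (n * y)‖ ^ 2 := by
      rw [Finset.mul_sum]
      symm
      refine Fintype.sum_equiv (Subgroup.subgroupOfEquivOfLe hNS).toEquiv _ _ fun n => ?_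
      have h6 := hψe (n * y)
      have h7 : (((n : S) * y : S) : S ⧸ N.subgroupOf S) = y := by
        rw [QuotientGroup.mk_mul, (QuotientGroup.eq_one_iff _).2 n.2, one_mul]
      rw [h7] at h6
      rw [← mul_pow, ← norm_mul, ← h6]
      rfl
    rw [h4, h3, Ch.card_subgroupOf_eq hNS] at h5
    have h8 : (Nat.card N : ℝ) ≠ 0 := by exact_mod_cast Nat.card_pos.ne'
    have h9 : ‖ψ y‖ ^ 2 = 1 := by
      field_simp at h5
      linarith
    exact (pow_eq_one_iff_of_nonneg (norm_nonneg _) two_ne_zero).1 h9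
  have hq : ((⟨x, hxS⟩ : S) : S ⧸ N.subgroupOf S) ≠ 1 := fun h =>
    hxG (hNG ((QuotientGroup.eq_one_iff (⟨x, hxS⟩ : S)).1 h))
  obtain ⟨a, h | ⟨ε, μ, hε, h⟩⟩ := Ch.near_regular_of_comm
    (fun a b => by let := hcS.commGroup; exact mul_comm a b) hψ fun q hq => (hnorm q hq).le
  · have h1 := hnorm _ hq
    rw [h, Ch.regChar_of_ne hq] at h1
    simp at h1
  · have h1 := h 1
    rw [hψ1, Ch.regChar_one, hcard] at h1
    simp only [map_one, Units.val_one, mul_one] at h1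
    have h2 : (e : ℤ) = a * G.index + ε := by exact_mod_cast h1
    rcases hε with rfl | rfl
    · exact Or.inl ⟨a, by rw [h2]; ring⟩
    · exact Or.inr ⟨a, by rw [h2]; ring⟩

end Cfsg.Agent.S4454
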