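import Mathlib
import Cfsg.Agent.Ch.Deg12B
import Cfsg.Statements.S4459
-- import your own Cfsg.Agent.* helpers here

set_option autoImplicit false
open Cfsg

namespace Cfsg.Agent.S4459

/-- Let G be a non-abelian finite group and p a prime. Then the irreducible character degrees of G are exactly 1 and p if and only if either G has an abelian normal subgroup of index p or the centre of G has index p³. -/
theorem result {G : Type*} [Group G] [Finite G] (hG : ∃ a b : G, a * b ≠ b * a) (p : ℕ) (hp : p.Prime) : ((∀ χ : Cfsg.IrrCharacter G, Cfsg.charDegree (χ : G → ℂ) = 1 ∨ Cfsg.charDegree (χ : G → ℂ) = p) ∧ ∃ χ : Cfsg.IrrCharacter G, Cfsg.charDegree (χ : G → ℂ) = p) ↔ ((∃ A : Subgroup G, A.Normal ∧ (∀ a ∈ A, ∀ b ∈ A, a * b = b * a) ∧ A.index = p) ∨ (Subgroup.center G).index = p ^ 3) := by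
  constructor
  · rintro ⟨h, χ, hχ⟩
    exact Ch.deg12_prime_degree hp (fun χ hχ h1 => (h ⟨χ, hχ⟩).resolve_left h1) ⟨χ, χ.2, hχ⟩
  · intro h
    have h1 : ∀ χ : IrrCharacter G, charDegree (χ : G → ℂ) = 1 ∨ charDegree (χ : G → ℂ) = p := by
      intro χ
      rcases h with ⟨A, _, hA, hi⟩ | h
      · exact (Nat.dvd_prime hp).1 (hi ▸ χ.2.charDegree_dvd_index_of_comm A hA)
      · obtain ⟨j, -, hj⟩ := (Nat.dvd_prime_pow hp).1 (h ▸ χ.2.charDegree_dvd_index_center)
        have h2 := χ.2.charDegree_sq_le_index_center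
        rw [h, hj, ← pow_mul, Nat.pow_le_pow_iff_right hp.one_lt] at h2
        have h3 : j ≤ 1 := by omega
        interval_cases j
        · exact Or.inl hj
        · exact Or.inr (by rw [hj, pow_one])
    obtain ⟨a, b, hab⟩ := hG
    obtain ⟨χ, hχ⟩ := Ch.exists_irr_nonlinear fun h => hab (h a b)
    exact ⟨h1, χ, (h1 χ).resolve_left (mt χ.isCharacter.charDegree_eq_one_iff.1 hχ)⟩

end Cfsg.Agent.S4459
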