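import Mathlib
import Cfsg.Agent.Ch.LinTwoP
import Cfsg.Statements.S4471
-- import your own Cfsg.Agent.* helpers here

set_option autoImplicit false
open Cfsg

namespace Cfsg.Agent.S4471

/-- Let p ≥ 7 be a prime and let the finite group G have a faithful irreducible character of degree n with n < 2p and n ≠ p. If the Sylow p-subgroups of G are non-abelian then p² does not divide the index of O_p(G) in G; consequently, in every case G/O_p(G) has abelian Sylow p-subgroups. -/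
theorem result {G : Type*} [Group G] [Finite G] (χ : Cfsg.IrrCharacter G) (hfaith : ∀ g : G, (χ : G → ℂ) g = (χ : G → ℂ) 1 → g = 1) (n : ℕ) (hn : Cfsg.charDegree (χ : G → ℂ) = n) (p : ℕ) (hp : p.Prime) (h7 : 7 ≤ p) (hn2 : n < 2 * p) (hnp : n ≠ p) : ((∃ P : Sylow p G, ∃ x ∈ (P : Subgroup G), ∃ y ∈ (P : Subgroup G), x * y ≠ y * x) → ¬ p ^ 2 ∣ (Cfsg.pCore p G).index) ∧ ∀ Q : Sylow p (G ⧸ Cfsg.pCore p G), ∀ x ∈ (Q : Subgroup (G ⧸ Cfsg.pCore p G)), ∀ y ∈ (Q : Subgroup (G ⧸ Cfsg.pCore p G)), x * y = y * x := by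
  have := Fact.mk hp
  subst hn
  have key : (∃ P : Sylow p G, ∃ x ∈ (P : Subgroup G), ∃ y ∈ (P : Subgroup G), x * y ≠ y * x) →
      ¬ p ^ 2 ∣ (Cfsg.pCore p G).index := fun ⟨P, x, hx, y, hy, h⟩ =>
    Ch.lin2p_not_dvd h7 χ.2 (χ.isCharacter.charKer_eq_bot_iff.2 hfaith) hn2 hnp P.isPGroup' fun hc =>
      h (congrArg Subtype.val (Subgroup.commutator_eq_bot_iff_le_centralizer.1 hc
        (Subgroup.mem_top (⟨y, hy⟩ : (P : Subgroup G))) ⟨x, hx⟩ trivial))
  refine ⟨key, fun Q => ?_⟩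
  by_cases h : ∃ P : Sylow p G, ∃ x ∈ (P : Subgroup G), ∃ y ∈ (P : Subgroup G), x * y ≠ y * x
  · obtain ⟨k, hk⟩ := Q.isPGroup'.exists_card_eq
    have h1 : k ≤ 1 := by_contra fun h1 => key h ((pow_dvd_pow p (by omega)).trans
      (hk ▸ (Q : Subgroup (G ⧸ pCore p G)).card_subgroup_dvd_card))
    have h2 : IsCyclic (Q : Subgroup (G ⧸ pCore p G)) :=
      isCyclic_of_card_dvd_prime (p := p) (hk ▸ (pow_dvd_pow p h1).trans (pow_one p).dvd)
    exact fun x hx y hy => congrArg Subtype.val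
      (h2.isMulCommutative.is_comm.comm (⟨x, hx⟩ : (Q : Subgroup (G ⧸ pCore p G))) ⟨y, hy⟩)
  · push Not at h
    obtain ⟨P, rfl⟩ := Sylow.mapSurjective_surjective (QuotientGroup.mk'_surjective (pCore p G)) p Q
    rintro _ ⟨x, hx, rfl⟩ _ ⟨y, hy, rfl⟩
    rw [← map_mul, h P x hx y hy, map_mul]

end Cfsg.Agent.S4471
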