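import Mathlib
import Cfsg.Agent.Ch.LinDixon
import Cfsg.Statements.S4472
-- import your own Cfsg.Agent.* helpers here

set_option autoImplicit false
open Cfsg

namespace Cfsg.Agent.S4472

/-- Let the finite p-solvable group G have a faithful character of degree n, and let p^a be the index of O_p(G) in a Sylow p-subgroup of G (the p-part of [G : O_p(G)]). Then a ≤ Σ_{i ≥ 0} ⌊n / ((p − 1) p^i)⌋ (a finite sum; the terms vanish for p^i > n). -/
theorem result {G : Type*} [Group G] [Finite G] (χ : G → ℂ) (hχ : Cfsg.IsCharacter G χ) (hfaith : ∀ g : G, χ g = χ 1 → g = 1) (n : ℕ) (hn : Cfsg.charDegree χ = n) (p : ℕ) (hp : p.Prime) (hsolv : Cfsg.IsPSolvable p G) : ((Cfsg.pCore p G).index).factorization p ≤ ∑ i ∈ Finset.range (n + 1), n / ((p - 1) * p ^ i) := by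
  have := Fact.mk hp
  have h := Ch.linD_dixon hχ (hχ.charKer_eq_bot_iff.2 hfaith) hsolv
  rw [hn, hp.pow_dvd_iff_le_factorization (mul_ne_zero (pow_ne_zero _ hp.ne_zero)
    (Nat.factorial_ne_zero _)), Nat.factorization_mul (pow_ne_zero _ hp.ne_zero)
    (Nat.factorial_ne_zero _), Finsupp.add_apply, hp.factorization_pow, Finsupp.single_eq_same,
    Nat.factorization_factorial hp (b := n + 1)
      (Nat.lt_succ_of_le ((Nat.log_le_self _ _).trans (Nat.div_le_self _ _)))] at h
  rw [Finset.range_eq_Ico, Finset.sum_eq_sum_Ico_succ_bot (Nat.succ_pos n), pow_zero, mul_one]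
  simpa only [Nat.div_div_eq_div_mul] using h

end Cfsg.Agent.S4472
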