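import Mathlib
import Cfsg.Agent.Ch.DegTwo
import Cfsg.Statements.S4473
-- import your own Cfsg.Agent.* helpers here

set_option autoImplicit false
open Cfsg

namespace Cfsg.Agent.S4473

/-- Let the finite group G have a faithful irreducible character χ of degree 2 that is primitive: χ is not induced from a character of any proper subgroup. Then the centre of G has index 12, 24 or 60. -/
theorem result {G : Type*} [Group G] [Fintype G] (χ : Cfsg.IrrCharacter G) (hfaith : ∀ g : G, (χ : G → ℂ) g = (χ : G → ℂ) 1 → g = 1) (h2 : Cfsg.charDegree (χ : G → ℂ) = 2) (hprim : ∀ H : Subgroup G, H ≠ ⊤ → ∀ θ : H → ℂ, Cfsg.IsCharacter H θ → (χ : G → ℂ) ≠ Cfsg.indFun H θ) : (Subgroup.center G).index = 12 ∨ (Subgroup.center G).index = 24 ∨ (Subgroup.center G).index = 60 := by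
  rcases Ch.degTwo_classify χ.2 (χ.isCharacter.charKer_eq_bot_iff.2 hfaith) h2 with
    ⟨A, hA, hi⟩ | ⟨⟨e⟩⟩ | ⟨⟨e⟩⟩ | ⟨⟨e⟩⟩
  · obtain ⟨θ, hθ, h1, h⟩ := Ch.degTwo_exists_indFun χ.2 A hA (h2 ▸ hi)
    refine absurd h.symm (hprim A ?_ θ hθ.isCharacter)
    rintro rfl
    have h3 := χ.2.apply_one_eq_one_of_comm fun a b => hA a trivial b trivial
    rw [← χ.isCharacter.charDegree_eq_one_iff, h2] at h3
    omega
  · left
    rw [Subgroup.index, Nat.card_congr e.toEquiv, nat_card_alternatingGroup]
    simp [Nat.factorial]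
  · right; left
    rw [Subgroup.index, Nat.card_congr e.toEquiv, Nat.card_perm]
    simp [Nat.factorial]
  · right; right
    rw [Subgroup.index, Nat.card_congr e.toEquiv, nat_card_alternatingGroup]
    simp [Nat.factorial]

end Cfsg.Agent.S4473
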