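import Mathlib
import Cfsg.Statements.S4476
import Cfsg.Agent.Ch.InvolutionCount

set_option autoImplicit false
open Cfsg

namespace Cfsg.Agent.S4476

/-- Let G be a finite group of even order g with exactly t involutions, and put α = (g − 1)/t (a rational number). Then (a) some non-identity element x of G has at most α² conjugates; and (b) some non-principal real-valued irreducible character of G has degree at most α. -/
theorem result {G : Type*} [Group G] [Fintype G] (heven : Even (Nat.card G)) (t : ℕ) (ht : Nat.card {x : G // orderOf x = 2} = t) : (∃ x : G, x ≠ 1 ∧ ((Subgroup.centralizer ({x} : Set G)).index : ℚ) ≤ (((Nat.card G : ℚ) - 1) / t) ^ 2) ∧ ∃ χ : Cfsg.IrrCharacter G, (χ : G → ℂ) ≠ (fun _ => 1) ∧ (∀ g : G, ((χ : G → ℂ) g).im = 0) ∧ (Cfsg.charDegree (χ : G → ℂ) : ℚ) ≤ ((Nat.card G : ℚ) - 1) / t := by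
  classical
  have ht0 : 0 < t := ht ▸ Ch.FS.card_involutions_pos heven
  have ht0' : (0 : ℚ) < t := by exact_mod_cast ht0
  have hg : 2 ≤ Nat.card G := Nat.le_of_dvd Nat.card_pos (even_iff_two_dvd.mp heven)
  have hg' : (0 : ℚ) < (Nat.card G : ℚ) - 1 := by
    have : (2 : ℚ) ≤ Nat.card G := by exact_mod_cast hg
    linarith
  constructor
  · by_contra hcon
    push Not at hcon
    have h1 := Ch.FS.card_involutions_sq_le (G := G)
    have hk : 1 ≤ Nat.card (ConjClasses G) := Nat.card_pos
    rw [ht] at h1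
    have h1' : (t : ℚ) ^ 2 ≤ ((Nat.card (ConjClasses G) : ℚ) - 1) * ((Nat.card G : ℚ) - 1) := by
      have : ((t ^ 2 : ℕ) : ℚ) ≤ (((Nat.card (ConjClasses G) - 1) * (Nat.card G - 1) : ℕ) : ℚ) := by
        exact_mod_cast h1
      rwa [Nat.cast_mul, Nat.cast_sub hk, Nat.cast_sub (by omega), Nat.cast_pow, Nat.cast_one]
        at this
    have h2 := Ch.sum_card_centralizer (G := G)
    rw [← Finset.add_sum_erase _ _ (Finset.mem_univ (1 : G))] at h2
    have e1 : Subgroup.centralizer ({1} : Set G) = ⊤ := by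
      ext x; simp [Subgroup.mem_centralizer_singleton_iff]
    rw [e1, Subgroup.card_top] at h2
    have hne : ((Finset.univ : Finset G).erase 1).Nonempty := by
      rw [← Finset.card_pos, Finset.card_erase_of_mem (Finset.mem_univ _), Finset.card_univ,
        ← Nat.card_eq_fintype_card]
      omega
    have h3 : ∑ x ∈ (Finset.univ : Finset G).erase 1,
        (Nat.card (Subgroup.centralizer ({x} : Set G)) : ℚ) * (((Nat.card G : ℚ) - 1) / t) ^ 2 <
        ∑ x ∈ (Finset.univ : Finset G).erase 1, (Nat.card G : ℚ) := by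
      refine Finset.sum_lt_sum_of_nonempty hne fun x hx => ?_
      rw [← (Subgroup.centralizer ({x} : Set G)).card_mul_index]
      nth_rewrite 2 [Nat.cast_mul]
      refine mul_lt_mul_of_pos_left ?_ (by exact_mod_cast Nat.card_pos)
      rw [(Subgroup.centralizer ({x} : Set G)).card_mul_index]
      exact hcon x (Finset.mem_erase.mp hx).1
    rw [← Finset.sum_mul, Finset.sum_const, Finset.card_erase_of_mem (Finset.mem_univ _),
      Finset.card_univ, ← Nat.card_eq_fintype_card, nsmul_eq_mul, Nat.cast_sub (by omega),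
      ← Nat.cast_sum] at h3
    have h4 : ((∑ x ∈ (Finset.univ : Finset G).erase 1,
        Nat.card (Subgroup.centralizer ({x} : Set G)) : ℕ) : ℚ) =
        ((Nat.card (ConjClasses G) : ℚ) - 1) * Nat.card G := by
      have : ((Nat.card G + ∑ x ∈ (Finset.univ : Finset G).erase 1,
        Nat.card (Subgroup.centralizer ({x} : Set G)) : ℕ) : ℚ) =
        ((Nat.card (ConjClasses G) * Nat.card G : ℕ) : ℚ) := by rw [h2]
      push_cast at this ⊢
      linarith
    rw [h4, div_pow, Nat.cast_one, ← mul_div_assoc, div_lt_iff₀ (by positivity)] at h3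
    have h5 : (0 : ℚ) < Nat.card G := by linarith
    have h6 := mul_le_mul_of_nonneg_left h1' (le_of_lt (mul_pos hg' h5))
    nlinarith
  · by_contra hcon
    push Not at hcon
    set R := (Finset.univ.filter
      (fun χ : IrrCharacter G => ∀ g, ((χ : G → ℂ) g).im = 0)).erase (Ch.irrOne G) with hR
    have h1 := Ch.FS.card_involutions_le (G := G) R (fun χ h1 h2 => by simp [hR, h1, h2])
    rw [ht] at h1
    have hne : R.Nonempty := by
      rw [Finset.nonempty_iff_ne_empty]
      intro h
      rw [h, Finset.sum_empty] at h1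
      omega
    have h2 : ∑ χ ∈ R, ((Nat.card G : ℚ) - 1) / t * charDegree (χ : G → ℂ) <
        ∑ χ ∈ R, (charDegree (χ : G → ℂ) : ℚ) ^ 2 := by
      refine Finset.sum_lt_sum_of_nonempty hne fun χ hχ => ?_
      rw [pow_two]
      refine mul_lt_mul_of_pos_right ?_ (by exact_mod_cast χ.2.charDegree_pos)
      exact hcon χ (fun e => (Finset.mem_erase.mp hχ).1 (Subtype.ext e))
        (Finset.mem_filter.mp (Finset.mem_erase.mp hχ).2).2
    have h3 : ∑ χ ∈ R, charDegree (χ : G → ℂ) ^ 2 + 1 ≤ Nat.card G := by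
      rw [← Ch.FS.sum_sq_erase_one]
      exact Nat.add_le_add_right (Finset.sum_le_sum_of_subset
        (Finset.erase_subset_erase _ (Finset.filter_subset _ _))) 1
    have h3' : ∑ χ ∈ R, (charDegree (χ : G → ℂ) : ℚ) ^ 2 + 1 ≤ Nat.card G := by exact_mod_cast h3
    have h1' : (t : ℚ) ≤ ∑ χ ∈ R, (charDegree (χ : G → ℂ) : ℚ) := by exact_mod_cast h1
    rw [← Finset.mul_sum] at h2
    have h4 := mul_le_mul_of_nonneg_left h1' (le_of_lt (div_pos hg' ht0'))
    rw [div_mul_cancel₀ _ ht0'.ne'] at h4
    linarith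

end Cfsg.Agent.S4476
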