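import Mathlib
import Cfsg.Statements.S4477
import Cfsg.Agent.Ch.InvolutionCount
import Cfsg.Agent.Ch.MGroup
import Cfsg.Agent.Ch.Integrality
import Cfsg.Agent.Ch.ClassPairs
import Cfsg.Agent.GT.PGroupRank

set_option autoImplicit false
open Cfsg

namespace Cfsg.Agent.S4477

open Subgroup
open scoped ComplexConjugate commutatorElement

universe u

theorem card_dvd_of_central {G : Type*} [Group G] [Finite G] (B : Subgroup G)
    (hB : B ≤ center G) (h2 : ∀ b ∈ B, b * b = 1) : Nat.card B ∣ Nat.card {s : G // s * s = 1} := by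
  have h := QuotientGroup.card_preimage_mk B (QuotientGroup.mk '' {s : G | s * s = 1})
  have e : (QuotientGroup.mk ⁻¹' (QuotientGroup.mk '' {s : G | s * s = 1}) : Set G) =
      {s : G | s * s = 1} := (QuotientGroup.preimage_image_mk_eq_mul B _).trans (by
    apply Set.Subset.antisymm
    · rintro _ ⟨s, hs, b, hb, rfl⟩
      have hc := mem_center_iff.mp (hB hb) s
      change s * b * (s * b) = 1
      calc s * b * (s * b) = s * (b * s) * b := by group
        _ = (s * s) * (b * b) := by rw [← hc]; group
        _ = 1 := by rw [hs, h2 b hb, one_mul]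
    · intro s hs
      exact ⟨s, hs, 1, B.one_mem, mul_one s⟩)
  rw [e] at h
  exact ⟨_, h⟩

/-- A 2-group with a faithful real irreducible character of degree two. -/
theorem index_le {G : Type*} [Group G] [Fintype G] (hG : IsPGroup 2 G) {χ : G → ℂ}
    (hχ : IsIrrCharacter G χ) (hd : χ 1 = 2) (hf : ∀ g, χ g = 2 → g = 1)
    (hr : ∀ g, (χ g).im = 0) (hc : commutator G ≠ ⊥) : (commutator G).index ≤ 4 := by
  classical
  have := hG.isNilpotent
  obtain ⟨H, l, rfl⟩ := Ch.isMonomial_of_isNilpotent hχ
  have := Fintype.ofFinite H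
  have hi : H.index = 2 := by
    rw [Ch.indFun_one] at hd
    have h2 : (H.index : ℂ) = 2 := by simpa using hd
    exact_mod_cast h2
  have hn : H.Normal := normal_of_index_eq_two hi
  obtain ⟨g, hg, hg2⟩ := index_eq_two_iff_exists_notMem_and'.mp hi
  have hcard : Nat.card G = Nat.card H * 2 := by rw [← H.card_mul_index, hi]
  let m : H →* ℂˣ := l.comp (MulAut.conjNormal g⁻¹ : H ≃* H).toMonoidHom
  have hval : ∀ h : H, indFun H (fun h => (l h : ℂ)) h = l h + m h := by
    intro h
    rw [Ch.TI.indFun_eq_add (Ch.isCharacter_monoidHom_units l).isClassFunction _ g hg, Ch.TI.ext_coe,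
      Ch.TI.ext_of_mem H _ (by simpa using hn.conj_mem h h.2 g⁻¹)]
    · have e : (MulAut.conjNormal g⁻¹ : H ≃* H) h =
          ⟨g⁻¹ * h * g, by simpa using hn.conj_mem h h.2 g⁻¹⟩ := Subtype.ext (by simp)
      simp only [m, MonoidHom.comp_apply, MulEquiv.coe_toMonoidHom, e]
    · intro x _ _ _
      rcases hg2 x⁻¹ with h1 | h1
      · by_cases hx : x ∈ H
        · exact Or.inl hx
        · right
          rw [mul_mem_iff_of_index_two hi]
          simp [hg, hx]
      · exact Or.inl (by simpa using h1)
  have hinj : ∀ h : H, l h = 1 → m h = 1 → h = 1 := by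
    intro h h1 h2
    apply Subtype.ext
    apply hf
    rw [hval, h1, h2]
    norm_num
  have hreal : (fun h : H => (l h : ℂ)) + (fun h : H => (m h : ℂ)) =
      (fun h : H => ((l⁻¹ h : ℂˣ) : ℂ)) + (fun h : H => ((m⁻¹ h : ℂˣ) : ℂ)) := by
    funext h
    simp only [Pi.add_apply]
    rw [← Ch.conj_monoidHom_units', ← Ch.conj_monoidHom_units', ← map_add, ← hval]
    exact (Complex.conj_eq_iff_im.mpr (hr _)).symm
  have hcases : l = l⁻¹ ∨ m = l⁻¹ := by
    by_contra hcon
    push Not at hcon
    have h1 := congrArg (fun f => classInner f (fun h : H => ((l⁻¹ h : ℂˣ) : ℂ))) hreal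
    simp only [Ch.classInner_add_left, Ch.classInner_monoidHom_units, if_neg hcon.1,
      if_neg hcon.2, if_true] at h1
    split_ifs at h1 <;> norm_num at h1
  have hc2 : 2 ≤ Nat.card (commutator G) := (one_lt_card_iff_ne_bot _).mpr hc
  have hmul := (commutator G).card_mul_index
  rcases hcases with h1 | h1
  · have hsq : ∀ h : H, l h = 1 ∨ l h = -1 := by
      intro h
      have h2 := DFunLike.congr_fun h1 h
      rw [MonoidHom.inv_apply, eq_inv_iff_mul_eq_one] at h2
      have h3 : (l h : ℂ) * l h = 1 := by rw [← Units.val_mul, h2, Units.val_one]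
      rcases mul_self_eq_one_iff.mp h3 with h4 | h4
      · exact Or.inl (Units.ext h4)
      · exact Or.inr (Units.ext h4)
    have h4 : Nat.card H ≤ Nat.card (Prop × Prop) := by
      refine Nat.card_le_card_of_injective (fun h => (l h = 1, m h = 1)) fun a b hab => ?_
      simp only [Prod.mk.injEq, eq_iff_iff] at hab
      have key : ∀ a b : H, (l a = 1 ↔ l b = 1) → l (a * b⁻¹) = 1 := by
        intro a b hab
        rw [map_mul, map_inv, mul_inv_eq_one]
        rcases hsq a with ha | ha
        · rw [ha, hab.mp ha]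
        · rcases hsq b with hb | hb
          · rw [hb, hab.mpr hb]
          · rw [ha, hb]
      refine mul_inv_eq_one.mp (hinj _ (key a b hab.1) ?_)
      have := key _ _ hab.2
      simpa [m] using this
    have h5 : Nat.card (Prop × Prop) = 4 := by simp
    nlinarith
  · have hl : Function.Injective l := by
      rw [injective_iff_map_eq_one]
      intro h hh
      exact hinj h hh (by rw [h1, MonoidHom.inv_apply, hh, inv_one])
    have hcyc : IsCyclic H :=
      isCyclic_of_injective_ringHom ((Units.coeHom ℂ).comp l) (Units.val_injective.comp hl)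
    obtain ⟨a, ha⟩ := IsCyclic.exists_ofOrder_eq_natCard (α := H)
    have h2 : (g⁻¹ * a * g : G) = (a : G)⁻¹ := by
      have h3 := DFunLike.congr_fun h1 a
      rw [MonoidHom.inv_apply, ← map_inv] at h3
      have := congrArg Subtype.val (hl h3)
      simpa using this
    have h3 : (a : G) ^ 2 ∈ commutator G := by
      have := commutator_mem_commutator (mem_top (a : G)) (mem_top g⁻¹)
      rw [commutatorElement_def] at this
      have e : (a : G) ^ 2 = a * g⁻¹ * (a : G)⁻¹ * g⁻¹⁻¹ := by
        calc (a : G) ^ 2 = a * (g⁻¹ * a * g)⁻¹ := by rw [h2, inv_inv, pow_two]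
          _ = _ := by group
      rw [e]
      exact this
    have h4 := Nat.le_of_dvd Nat.card_pos (orderOf_dvd_natCard _ h3)
    have h5 : Nat.card H ≤ orderOf ((a : G) ^ 2) * 2 := by
      rw [← ha, ← orderOf_coe]
      refine Nat.le_of_dvd (Nat.mul_pos (orderOf_pos _) two_pos) (orderOf_dvd_of_pow_eq_one ?_)
      rw [mul_comm, pow_mul, pow_orderOf_eq_one]
    nlinarith

theorem aux (n : ℕ) : ∀ (G : Type u) [Group G] [Finite G], Nat.card G = n → IsPGroup 2 G →
    Nat.card {x : G // orderOf x = 2} % 4 = 1 → IsCyclic G ∨ (commutator G).index = 4 := by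
  induction n using Nat.strong_induction_on with
  | _ n ih =>
  intro G _ _ hn hG ht
  classical
  have := Fintype.ofFinite G
  have hs := Ch.FS.card_sqrt_one (G := G)
  have hZ : IsCyclic (center G) := by
    by_contra hcon
    obtain ⟨B, hB, hBe, hBc⟩ := GT.PG.exists_elementary_sq_of_not_isCyclic (hG.to_subgroup _)
      inferInstance hcon
    have := card_dvd_of_central B hB (fun b hb => by rw [← pow_two]; exact hBe.2 b hb)
    rw [hBc] at this
    omega
  by_cases hc : commutator G = ⊥
  · left
    have h1 : center G = ⊤ := (commutator_eq_bot_iff_center_eq_top G).mp hc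
    rw [h1] at hZ
    exact isCyclic_of_surjective _ topEquiv.surjective
  right
  have hnil := hG.isNilpotent
  have hncyc : ¬ IsCyclic G := fun h => hc (by
    rw [commutator_eq_bot_iff_center_eq_top, eq_top_iff]
    intro x _
    exact mem_center_iff.mpr fun y => h.isMulCommutative.is_comm.comm y x)
  -- every nontrivial normal subgroup contains a central involution
  have hinv : ∀ M : Subgroup G, M.Normal → M ≠ ⊥ → ∃ z ∈ M, z ∈ center G ∧ orderOf z = 2 := by
    intro M hM hM1
    have h1 := GT.PG.inf_center_ne_bot M hM1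
    have h2 : 2 ∣ Nat.card (M ⊓ center G : Subgroup G) :=
      ((hG.to_subgroup _).card_eq_or_dvd).resolve_left (fun h => h1 (card_eq_one.mp h))
    obtain ⟨z, hz⟩ := exists_prime_orderOf_dvd_card' 2 h2
    exact ⟨z, z.2.1, z.2.2, by rw [orderOf_coe, hz]⟩
  obtain ⟨z, hzc, hzZ, hz⟩ := hinv _ inferInstance hc
  have hz1 : z ≠ 1 := fun h => by simp [h] at hz
  have hzz : z * z = 1 := by rw [← pow_two, ← hz, pow_orderOf_eq_one]
  have huniq : ∀ w ∈ center G, orderOf w = 2 → w = z := by
    intro w hw hw2
    have := IsCyclic.card_orderOf_eq_totient (α := center G) (d := 2) (by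
      rw [← Nat.card_eq_fintype_card, ← hz]; exact orderOf_dvd_natCard _ hzZ)
    rw [Nat.totient_two, Finset.card_eq_one] at this
    obtain ⟨a, ha⟩ := this
    have h1 : (⟨w, hw⟩ : center G) ∈ ({a} : Finset (center G)) := by
      rw [← ha]; simpa using hw2
    have h2 : (⟨z, hzZ⟩ : center G) ∈ ({a} : Finset (center G)) := by
      rw [← ha]; simpa using hz
    rw [Finset.mem_singleton] at h1 h2
    exact congrArg Subtype.val (h1.trans h2.symm)
  have hZn : (zpowers z).Normal := ⟨fun a ha g => by
    rwa [mem_center_iff.mp (zpowers_le_of_mem hzZ ha) g, mul_inv_cancel_right]⟩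
  have hZc : Nat.card (zpowers z) = 2 := by rw [Nat.card_zpowers, hz]
  have hmemZ : ∀ x, x ∈ zpowers z ↔ x = 1 ∨ x = z := by
    intro x
    rw [mem_zpowers_iff_mem_range_orderOf, hz]
    simp [Finset.range_add_one, eq_comm, or_comm]
  by_cases hq : Nat.card {x : G ⧸ zpowers z // orderOf x = 2} % 4 = 1
  · have hlt : Nat.card (G ⧸ zpowers z) < n := by
      have := card_eq_card_quotient_mul_card_subgroup (zpowers z)
      rw [hZc] at this
      have : 0 < Nat.card (G ⧸ zpowers z) := Nat.card_pos
      omega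
    rcases ih _ hlt (G ⧸ zpowers z) rfl (hG.to_quotient _) hq with h1 | h1
    · exfalso
      have := (QuotientGroup.mk' (zpowers z)).isMulCommutative_of_isCyclic_of_ker_le_center
        (by rw [QuotientGroup.ker_mk']; exact zpowers_le_of_mem hzZ)
      apply hc
      rw [commutator_eq_bot_iff_center_eq_top, eq_top_iff]
      intro x _
      exact mem_center_iff.mpr fun y => this.is_comm.comm y x
    · rw [← h1, _root_.commutator_def (G ⧸ zpowers z),
        ← map_top_of_surjective _ (QuotientGroup.mk'_surjective (zpowers z)), ← map_commutator,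
        index_map_eq _ (QuotientGroup.mk'_surjective _) (by
          rw [QuotientGroup.ker_mk']; exact zpowers_le_of_mem hzc)]
      rfl
  -- counting square roots of `1` and of `z`
  have hcount : Nat.card {s : G // s * s = 1} + Nat.card {s : G // s * s = z} =
      2 * Nat.card {s : G ⧸ zpowers z // s * s = 1} := by
    have h1 := QuotientGroup.card_preimage_mk (zpowers z) {s : G ⧸ zpowers z | s * s = 1}
    rw [hZc] at h1
    refine Eq.trans ?_ h1
    rw [← Nat.card_sum]
    refine Nat.card_congr ((subtypeOrEquiv _ _ ?_).symm.trans (Equiv.subtypeEquivRight fun s => ?_))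
    · rw [Pi.disjoint_iff]
      intro s
      rw [Prop.disjoint_iff]
      rintro ⟨h2, h3⟩
      exact hz1 (h3.symm.trans h2)
    · rw [← hmemZ, Set.mem_preimage, Set.mem_ofPred_eq, ← QuotientGroup.mk_mul,
        QuotientGroup.eq_one_iff]
  have heven : 2 ∣ Nat.card {s : G ⧸ zpowers z // s * s = 1} := by
    have hnt : Nontrivial (G ⧸ zpowers z) := by
      rw [QuotientGroup.nontrivial_iff]
      intro h
      exact hncyc (isCyclic_iff_exists_zpowers_eq_top.mpr ⟨z, h⟩)
    have hp := hG.to_quotient (zpowers z)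
    have := hp.center_nontrivial
    have h2 : 2 ∣ Nat.card (center (G ⧸ zpowers z)) :=
      ((hp.to_subgroup _).card_eq_or_dvd).resolve_left Finite.one_lt_card.ne'
    obtain ⟨w, hw⟩ := exists_prime_orderOf_dvd_card' 2 h2
    have := card_dvd_of_central (zpowers (w : G ⧸ zpowers z)) (zpowers_le_of_mem w.2) (by
      intro b hb
      rw [← pow_two, ← orderOf_dvd_iff_pow_eq_one, ← hw, ← orderOf_coe]
      exact orderOf_dvd_of_mem_zpowers hb)
    rwa [Nat.card_zpowers, orderOf_coe, hw] at this
  have hs' := Ch.FS.card_sqrt_one (G := G ⧸ zpowers z)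
  obtain ⟨ν, -, hν, hν0, -, -⟩ := Ch.FS.exists_int_indicators (G := G)
  -- a real faithful character of degree two
  have hex : ∃ χ : IrrCharacter G, ν χ ≠ 0 ∧ (χ : G → ℂ) z ≠ (χ : G → ℂ) 1 ∧
      (χ : G → ℂ) 1 = 2 := by
    by_contra hcon
    push Not at hcon
    have h8 : ∀ χ : IrrCharacter G, ∃ k : ℤ,
        Ch.fsInd (χ : G → ℂ) * ((χ : G → ℂ) 1 - (χ : G → ℂ) z) = 8 * k := by
      intro χ
      by_cases h0 : ν χ = 0
      · exact ⟨0, by simp [hν, h0]⟩
      by_cases h1 : (χ : G → ℂ) z = (χ : G → ℂ) 1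
      · exact ⟨0, by simp [h1]⟩
      have h2 : (χ : G → ℂ) z = - (χ : G → ℂ) 1 := by
        have := χ.2.apply_mul_of_mem_center hzZ z
        rw [hzz] at this
        exact (mul_self_eq_mul_self_iff.mp this.symm).resolve_left h1
      obtain ⟨k, hk⟩ := hG.exists_card_eq
      obtain ⟨i, -, hi⟩ := (Nat.dvd_prime_pow Nat.prime_two).mp (hk ▸ χ.2.charDegree_dvd_card)
      have hi' : (χ : G → ℂ) 1 = 2 ^ i := by rw [← χ.2.coe_charDegree, hi]; simp
      rcases i with _ | _ | i
      · exact absurd (χ.2.mem_charKer.mp (χ.2.apply_one_eq_one_iff_commutator_le.mp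
          (by simpa using hi') hzc)) h1
      · exact absurd (by simpa using hi') (hcon χ h0 h1)
      · exact ⟨ν χ * 2 ^ i, by rw [h2, hi', hν]; push_cast; ring⟩
    choose k hk using h8
    have h1 : (Nat.card {s : G // s * s = 1} : ℂ) - Nat.card {s : G // s * s = z} =
        8 * ∑ χ, (k χ : ℂ) := by
      rw [Ch.card_sqrt_eq_sum, Ch.card_sqrt_eq_sum, ← Finset.sum_sub_distrib, Finset.mul_sum]
      exact Finset.sum_congr rfl fun χ _ => by rw [← hk, mul_sub]
    have h2 : (Nat.card {s : G // s * s = 1} : ℤ) - Nat.card {s : G // s * s = z} =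
        8 * ∑ χ, k χ := by exact_mod_cast h1
    omega
  obtain ⟨χ, h0, h1, h2⟩ := hex
  have hker : Ch.charKer (χ : G → ℂ) = ⊥ := by
    by_contra hne
    obtain ⟨w, hw, hwZ, hw2⟩ := hinv _ χ.2.isCharacter.charKer_normal hne
    exact h1 (χ.2.mem_charKer.mp (huniq w hwZ hw2 ▸ hw))
  have h3 := index_le hG χ.2 h2 (fun g hg => χ.2.isCharacter.charKer_eq_bot_iff.mp hker g
    (hg.trans h2.symm)) ((hν0 χ).mp h0) hc
  have h4 := Nat.le_of_dvd (Nat.pos_of_ne_zero index_ne_zero_of_finite)
    (GT.PG.sq_le_index_commutator_of_not_isCyclic hG hncyc)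
  omega

/-- Let G be a finite 2-group whose number of involutions is congruent to 1 modulo 4. Then G is cyclic or its commutator subgroup has index 4. -/
theorem result {G : Type*} [Group G] [Finite G] (hG : IsPGroup 2 G) (ht : Nat.card {x : G // orderOf x = 2} % 4 = 1) : IsCyclic G ∨ (commutator G).index = 4 := by
  exact aux _ G rfl hG ht

end Cfsg.Agent.S4477
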