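import Cfsg.Statements.S4478
import Cfsg.Agent.Ch.BrauerPi
import Cfsg.Agent.Ch.SmallDegree
import Cfsg.Agent.Ch.FrobeniusSchur
-- import your own Cfsg.Agent.* helpers here

set_option autoImplicit false
open Cfsg

namespace Cfsg.Agent.S4478

/-- Let G be a finite group of even order and χ an irreducible character of G whose degree x is divisible by the full power of 2 dividing the order of G and, for every odd prime p such that G has an element of order 2p, by the full power of p dividing the order of G. Then all involutions of G are conjugate, the centralizer of every involution has order exactly x with x coprime to its index, and the Frobenius–Schur indicator of χ equals 1. -/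
theorem result {G : Type*} [Group G] [Fintype G] (heven : Even (Nat.card G)) (χ : Cfsg.IrrCharacter G) (h2 : 2 ^ (Nat.card G).factorization 2 ∣ Cfsg.charDegree (χ : G → ℂ)) (hp : ∀ p : ℕ, p.Prime → p ≠ 2 → (∃ g : G, orderOf g = 2 * p) → p ^ (Nat.card G).factorization p ∣ Cfsg.charDegree (χ : G → ℂ)) : (∀ s t : G, orderOf s = 2 → orderOf t = 2 → IsConj s t) ∧ (∀ s : G, orderOf s = 2 → Nat.card (Subgroup.centralizer ({s} : Set G)) = Cfsg.charDegree (χ : G → ℂ) ∧ (Nat.card (Subgroup.centralizer ({s} : Set G))).Coprime (Subgroup.centralizer ({s} : Set G)).index) ∧ (Nat.card G : ℂ)⁻¹ * ∑ g : G, (χ : G → ℂ) (g * g) = 1 := by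
  classical
  have hv2 : ∀ g : G, 2 ∣ orderOf g → (χ : G → ℂ) g = 0 := fun g hg =>
    Ch.apply_eq_zero_of_defect_zero Nat.prime_two χ.2 h2 hg
  have hC : ∀ s : G, orderOf s = 2 → ∀ q : ℕ, q.Prime →
      q ∣ Nat.card (Subgroup.centralizer ({s} : Set G)) →
      q ^ (Nat.card G).factorization q ∣ charDegree (χ : G → ℂ) := by
    intro s hs q hq hd
    by_cases hq2 : q = 2
    · exact hq2 ▸ h2
    have := Fact.mk hq
    obtain ⟨y, hy⟩ := exists_prime_orderOf_dvd_card' q hd
    rw [← Subgroup.orderOf_coe] at hy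
    refine hp q hq hq2 ⟨s * y, ?_⟩
    rw [← hs, ← hy]
    refine Commute.orderOf_mul_eq_mul_orderOf_of_coprime
      (Subgroup.mem_centralizer_singleton_iff.mp y.2).symm ?_
    rw [hs, hy]
    exact (Nat.coprime_primes Nat.prime_two hq).mpr (Ne.symm hq2)
  have hvan : ∀ s : G, orderOf s = 2 → ∀ g ∈ Subgroup.centralizer ({s} : Set G), g ≠ 1 →
      (χ : G → ℂ) g = 0 := by
    intro s hs g hg hg1
    obtain ⟨q, hq, hd⟩ := Nat.exists_prime_and_dvd (mt orderOf_eq_one_iff.mp hg1)
    exact Ch.apply_eq_zero_of_defect_zero hq χ.2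
      (hC s hs q hq (hd.trans (Subgroup.orderOf_dvd_natCard _ hg))) hd
  have hdvd := fun s hs => χ.2.isCharacter.card_dvd_charDegree_of_vanish _ (hvan s hs)
  set T := Finset.univ.filter fun g : G => orderOf g = 2 with hT
  have hsq : ∀ g : G, (χ : G → ℂ) (g * g) = (if ¬ 2 ∣ orderOf g then (χ : G → ℂ) (g * g) else 0) +
      if orderOf g = 2 then (χ : G → ℂ) 1 else 0 := by
    intro g
    by_cases h : 2 ∣ orderOf g
    · by_cases h' : orderOf g = 2
      · rw [if_neg (not_not.mpr h), if_pos h', zero_add, ← sq, ← h', pow_orderOf_eq_one]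
      · rw [if_neg (not_not.mpr h), if_neg h', zero_add]
        refine hvan (g ^ (orderOf g / 2)) (orderOf_pow_orderOf_div (orderOf_pos g).ne' h) _
          (Subgroup.mem_centralizer_singleton_iff.mpr
            ((Commute.self_pow g _).mul_left (Commute.self_pow g _))) fun h1 => h' ?_
        exact Nat.dvd_antisymm (orderOf_dvd_of_pow_eq_one (by rw [sq, h1])) h
    · rw [if_pos h, if_neg (fun h' : orderOf g = 2 => h (h' ▸ dvd_rfl)), add_zero]
  have := Fact.mk Nat.prime_two
  obtain ⟨s₀, hs₀⟩ := exists_prime_orderOf_dvd_card' (G := G) 2 heven.two_dvd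
  have hodd : ∑ g : G, (if ¬ 2 ∣ orderOf g then (χ : G → ℂ) (g * g) else 0) = 0 := by
    have h1 : ∑ g : G, (χ : G → ℂ) g = 0 := χ.2.sum_eq_zero fun h => by
      have := hv2 s₀ (hs₀ ▸ dvd_rfl)
      rw [h] at this
      exact one_ne_zero this
    rw [← Finset.sum_filter, ← h1, ← Finset.sum_filter_of_ne (p := fun g => ¬ 2 ∣ orderOf g)
      (f := (χ : G → ℂ)) fun g _ h h' => h (hv2 g h')]
    have hinj : ∀ g : G, ¬ 2 ∣ orderOf g → (g * g) ^ ((orderOf g + 1) / 2) = g := fun g hg => by
      rw [← sq, ← pow_mul, Nat.mul_div_cancel' (by omega), pow_succ, pow_orderOf_eq_one, one_mul]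
    have hord : ∀ g : G, ¬ 2 ∣ orderOf g → orderOf (g * g) = orderOf g := fun g hg => by
      rw [← sq]
      exact Nat.Coprime.orderOf_pow ((Nat.Prime.coprime_iff_not_dvd Nat.prime_two).mpr hg).symm
    refine Finset.sum_bij (fun g _ => g * g) (fun g hg => ?_) (fun g hg g' hg' h => ?_)
      (fun g hg => ?_) fun _ _ => rfl
    · rw [Finset.mem_filter] at hg ⊢
      exact ⟨Finset.mem_univ _, by rw [hord g hg.2]; exact hg.2⟩
    · rw [Finset.mem_filter] at hg hg'
      rw [← hinj g hg.2, ← hinj g' hg'.2, ← hord g hg.2, ← hord g' hg'.2, h]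
    · rw [Finset.mem_filter] at hg
      refine ⟨g ^ ((orderOf g + 1) / 2), Finset.mem_filter.mpr ⟨Finset.mem_univ _, fun h =>
        hg.2 (h.trans (orderOf_pow_dvd _))⟩, ?_⟩
      rw [← (Commute.refl g).mul_pow, hinj g hg.2]
  have hsum : ∑ g : G, (χ : G → ℂ) (g * g) = (T.card * charDegree (χ : G → ℂ) : ℕ) := by
    rw [Finset.sum_congr rfl fun g _ => hsq g, Finset.sum_add_distrib, hodd, zero_add,
      ← Finset.sum_filter, Finset.sum_const, nsmul_eq_mul, Nat.cast_mul, χ.2.coe_charDegree]
  have hG0 : (Nat.card G : ℂ) ≠ 0 := Nat.cast_ne_zero.mpr Nat.card_pos.ne'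
  have hpos : 0 < T.card * charDegree (χ : G → ℂ) := Nat.mul_pos
    (Finset.card_pos.mpr ⟨s₀, Finset.mem_filter.mpr ⟨Finset.mem_univ _, hs₀⟩⟩) χ.2.charDegree_pos
  have hν : (Nat.card G : ℂ)⁻¹ * ∑ g : G, (χ : G → ℂ) (g * g) = 1 := by
    obtain ⟨ν, hν, h⟩ := Ch.exists_int_fsInd χ.2
    rw [Ch.fsInd_def] at h
    have h1 := h
    rw [hsum, inv_mul_eq_iff_eq_mul₀ hG0] at h1
    have h3 : ((T.card * charDegree (χ : G → ℂ) : ℕ) : ℤ) = Nat.card G * ν := by exact_mod_cast h1
    rcases hν with rfl | rfl | rfl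
    · omega
    · simpa using h
    · omega
  have hcard : T.card * charDegree (χ : G → ℂ) = Nat.card G := by
    rw [hsum, inv_mul_eq_one₀ hG0] at hν
    exact_mod_cast hν.symm
  have key : ∀ s : G, orderOf s = 2 → Nat.card (Subgroup.centralizer ({s} : Set G)) =
      charDegree (χ : G → ℂ) ∧ (Finset.univ.filter fun t => IsConj s t) = T := by
    intro s hs
    have h1 : (Finset.univ.filter fun t => IsConj s t) ⊆ T := fun t ht => by
      rw [Finset.mem_filter] at ht ⊢
      obtain ⟨c, rfl⟩ := isConj_iff.mp ht.2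
      exact ⟨Finset.mem_univ _, by rw [← hs]; exact (MulAut.conj c).orderOf_eq s⟩
    have h3 : (Finset.univ.filter fun t => IsConj s t).card =
        (Subgroup.centralizer ({s} : Set G)).index := by
      rw [← Ch.card_isConj_eq_index, Nat.card_eq_fintype_card, Fintype.card_subtype]
    have h4 := Finset.card_le_card h1
    have h5 := Nat.le_of_dvd χ.2.charDegree_pos (hdvd s hs)
    have h6 := (Subgroup.centralizer ({s} : Set G)).card_mul_index
    rw [← h3, ← hcard] at h6
    have h7 := χ.2.charDegree_pos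
    have h8 : 0 < T.card := Nat.pos_of_mul_pos_right hpos
    refine ⟨by nlinarith, Finset.eq_of_subset_of_card_le h1 (by nlinarith)⟩
  refine ⟨fun s t hs ht => ?_, fun s hs => ⟨(key s hs).1, ?_⟩, hν⟩
  · have : t ∈ T := Finset.mem_filter.mpr ⟨Finset.mem_univ _, ht⟩
    rw [← (key s hs).2] at this
    exact (Finset.mem_filter.mp this).2
  · refine Nat.coprime_of_dvd fun q hq h1 h3 => ?_
    have h4 := Nat.mul_dvd_mul (hC s hs q hq h1) h3
    rw [← (key s hs).1, Subgroup.card_mul_index, ← pow_succ] at h4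
    exact Nat.pow_succ_factorization_not_dvd Nat.card_pos.ne' hq h4

end Cfsg.Agent.S4478
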