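import Mathlib
import Cfsg.Statements.S4482
import Cfsg.Agent.Blk.PBDih
import Cfsg.Agent.Blk.PBPairs

set_option autoImplicit false
open Cfsg

namespace Cfsg.Agent.S4482

/-- An order formula for groups with dihedral Sylow 2-subgroups and one class of involutions. Let G be a finite group whose Sylow 2-subgroup P = ⟨σ, τ⟩ is dihedral of order 2^n ≥ 8 (σ of order 2^(n−1), τ an involution inverting σ), let J be the central involution σ^(2^(n−2)), and suppose J, τ and στ are conjugate in G. Fix M over 2 and let χ₁ be an irreducible character in the principal 2-block taking one constant value δ₁ = ±1 at every non-identity power of σ, with χ₁ ≠ 1. Then, with x₁ = χ₁(1) and c(·) denoting orders of centralizers, x₁ ≠ δ₁ and #G · (x₁ − δ₁)² = 2·x₁(x₁ + δ₁)·c(J)³·(1/c(J, τ) + 1/c(J, στ))², where c(J, y) is the order of the joint centralizer of J and y. -/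
theorem result {G : Type*} [Group G] [Finite G] (M : Ideal Cfsg.AlgInt) (hM : Cfsg.IsPModular 2 M) (n : ℕ) (hn : 3 ≤ n) (P : Sylow 2 G) (σ τ : G) (hσ : σ ∈ (P : Subgroup G)) (hτ : τ ∈ (P : Subgroup G)) (hσo : orderOf σ = 2 ^ (n - 1)) (hτo : orderOf τ = 2) (hrel : τ * σ * τ⁻¹ = σ⁻¹) (hgen : Subgroup.closure ({σ, τ} : Set G) = (P : Subgroup G)) (hconj : IsConj (σ ^ (2 ^ (n - 2))) τ ∧ IsConj (σ ^ (2 ^ (n - 2))) (σ * τ)) (χ₁ : Cfsg.IrrCharacter G) (hχ₁ : χ₁ ∈ Cfsg.principalBlock M G) (h1 : (χ₁ : G → ℂ) ≠ (fun _ => 1)) (δ₁ : ℤ) (hδ₁ : δ₁ = 1 ∨ δ₁ = -1) (hval : ∀ l : ℕ, 0 < l → l < 2 ^ (n - 1) → (χ₁ : G → ℂ) (σ ^ l) = δ₁) : (Cfsg.charDegree (χ₁ : G → ℂ) : ℤ) ≠ δ₁ ∧ (Nat.card G : ℚ) * ((Cfsg.charDegree (χ₁ : G → ℂ) : ℚ) - δ₁) ^ 2 = 2 * (Cfsg.charDegree (χ₁ : G → ℂ) : ℚ) * ((Cfsg.charDegree (χ₁ : G → ℂ) : ℚ) + δ₁) * (Nat.card (Subgroup.centralizer ({σ ^ (2 ^ (n -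 2))} : Set G)) : ℚ) ^ 3 * (1 / (Nat.card (Subgroup.centralizer ({σ ^ (2 ^ (n - 2)), τ} : Set G)) : ℚ) + 1 / (Nat.card (Subgroup.centralizer ({σ ^ (2 ^ (n - 2)), σ * τ} : Set G)) : ℚ)) ^ 2 := by
  classical
  have := Fintype.ofFinite G
  obtain ⟨k, rfl⟩ : ∃ k, n = k + 2 := ⟨n - 2, by omega⟩
  have hk : 1 ≤ k := by omega
  simp only [show k + 2 - 1 = k + 1 from rfl, show k + 2 - 2 = k from rfl] at *
  have h : Blk.Q8.DD (P : Subgroup G) σ τ k := ⟨hσo, Inv.mul_self_of_two hτo, hrel,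
    Blk.Q8.notMem_zpowers_of_inverts hk hσo hrel, hgen⟩
  have hp : 2 ^ (k + 1) = 2 * 2 ^ k := by ring
  have hk2 : 2 ^ 1 ≤ 2 ^ k := Nat.pow_le_pow_right two_pos hk
  have hζ := Complex.isPrimitiveRoot_exp (2 ^ (k + 1)) (by positivity)
  generalize Complex.exp _ = ζ at hζ
  obtain ⟨l, hl, -, hlv⟩ := Blk.PB.exists_hom_gen (σ := σ) (ζ := ζ) (hσo ▸ hζ)
  rw [hσo] at hl
  obtain ⟨χ, χ₂, χ₃, χ', δ, δ₂, δ₃, s1, s2, s3, hinj, n1, n2, n3, n4, n5, n6, n7, m1, m2, m3, m4,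
    hw, hβ⟩ := Blk.PB.dd_block hM h hk hl
  have hne : ∀ i : ℕ, 0 < i → i < 2 ^ (k + 1) → l ^ i ≠ 1 := Blk.PB.cyc_pow_ne_one hl
  let j : Fin (2 ^ k - 1) := ⟨0, by omega⟩
  have hw0 : ∀ ψ ∈ Blk.PB.pb M G, Inv.Exc.av _ (l ^ 1) ψ = Blk.Q8.uv (Ch.irrOne G) ψ +
      δ * Blk.Q8.uv χ ψ - δ * Blk.Q8.uv (χ' j) ψ := hw j
  have hconst : ∀ x ∈ Subgroup.zpowers σ, x ≠ 1 → χ₁.1 x = δ₁ := by
    intro x hx hx1
    rw [mem_zpowers_iff_mem_range_orderOf, Finset.mem_image] at hx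
    obtain ⟨i, hi, rfl⟩ := hx
    refine hval i (Nat.pos_of_ne_zero ?_) (hσo ▸ Finset.mem_range.mp hi)
    rintro rfl
    exact hx1 (pow_zero σ)
  have h1' : χ₁ ≠ Ch.irrOne G := fun e => h1 (by rw [e]; rfl)
  obtain ⟨rfl, rfl⟩ : χ₁ = χ ∧ δ₁ = δ := by
    have e1 := hw0 χ₁ (Blk.PB.mem_pb.mpr hχ₁)
    have e2 := hβ χ₁ (Blk.PB.mem_pb.mpr hχ₁)
    rw [Blk.PB.av_eq_of_const (hne _ (by omega) (by omega)) χ₁ hconst, Blk.Q8.uv_ne h1'] at e1 e2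
    by_cases e : χ₁ = χ
    · refine ⟨e, ?_⟩
      rw [e, Blk.Q8.uv_self, Blk.Q8.uv_ne (n7 j).1.symm] at e1
      omega
    · exfalso
      by_cases e' : χ₁ = χ' j
      · rw [e', Blk.Q8.uv_ne (n7 j).1, Blk.Q8.uv_ne (n7 j).2.1, Blk.Q8.uv_ne (n7 j).2.2.1] at e2
        omega
      · rw [Blk.Q8.uv_ne e, Blk.Q8.uv_ne e'] at e1
        omega
  have hsum : ∀ F : IrrCharacter G → ℂ, ∑ ψ ∈ Blk.PB.pb M G, (Inv.Exc.av _ (l ^ 1) ψ : ℂ) * F ψ =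
      F (Ch.irrOne G) + δ₁ * F χ₁ - δ₁ * F (χ' j) := by
    intro F
    have key : ∀ x ∈ Blk.PB.pb M G, ∑ χ ∈ Blk.PB.pb M G, (Blk.Q8.uv x χ : ℂ) * F χ = F x := by
      intro x hx
      rw [Finset.sum_eq_single_of_mem x hx fun χ _ e => by simp [Blk.Q8.uv_ne e], Blk.Q8.uv_self]
      simp
    rw [Finset.sum_congr rfl fun χ hχ => by rw [hw0 χ hχ]]
    push_cast
    simp only [add_mul, sub_mul, mul_assoc, Finset.sum_add_distrib, Finset.sum_sub_distrib,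
      ← Finset.mul_sum, key _ m1, key _ (m4 j), key _ (Blk.PB.one_mem_pb hM)]
  have hone : ∀ t : G, orderOf t = 2 → IsConj t (σ ^ 2 ^ k) := by
    intro t ht
    obtain ⟨g, hg⟩ := Inv.exists_conj_mem_sylow_two ht P
    refine (Inv.isConj_conj g t).trans ?_
    rcases h.invol_cases hg (by rw [Inv.orderOf_conj', ht]) with e | ⟨i, e⟩
    · rw [e]
    · rw [e]
      obtain ⟨m, rfl | rfl⟩ := Int.even_or_odd' i
      · have := h.conj_refl 0 m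
        rw [zero_add, zpow_zero, one_mul] at this
        exact (hconj.1.trans (isConj_iff.mpr ⟨_, this⟩)).symm
      · have := h.conj_refl 1 m
        rw [add_comm, zpow_one] at this
        exact (hconj.2.trans (isConj_iff.mpr ⟨_, this⟩)).symm
  have hlz : ∀ (d : ℤ) (hd : σ ^ d ∈ Subgroup.zpowers σ), ((l ^ 1) ⟨σ ^ d, hd⟩ : ℂ) = ζ ^ d := by
    intro d hd
    have e1 := hlv 1 (Subgroup.npow_mem_zpowers σ 1)
    have e2 : (⟨σ ^ d, hd⟩ : Subgroup.zpowers σ) = ⟨σ ^ 1, Subgroup.npow_mem_zpowers σ 1⟩ ^ d :=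
      Subtype.ext (by simp)
    rw [MonoidHom.pow_apply, pow_one, e2, map_zpow, Units.val_zpow_eq_zpow_val, e1, pow_one]
  have hD : ∀ d : ℤ, σ ^ d ≠ 1 → ∑ ψ ∈ Blk.PB.pb M G, (Inv.Exc.av _ (l ^ 1) ψ : ℂ) * ψ.1 (σ ^ d) =
      2 - ζ ^ d - ζ ^ (-d) := by
    intro d hd
    have := Blk.PB.dd_sum_av hM h (l ^ 1) (a := ⟨σ ^ d, Subgroup.zpow_mem_zpowers σ d⟩)
      fun e => hd (congrArg Subtype.val e)
    rw [hlz, ← zpow_neg] at this
    exact this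
  obtain ⟨a, b, A, B, ha, hb, he, hA, -⟩ := Blk.PB.dd_order hM h hone hζ.pow_eq_one
    (fun ψ => (Inv.Exc.av _ (l ^ 1) ψ : ℂ))
    (fun g hg => Blk.PB.sum_av_mul_regular hM (Blk.PB.dd_isPGroup h) (l ^ 1) hg) hD
  have e0 := Blk.PB.sum_av_mul_regular hM (Blk.PB.dd_isPGroup h) (l ^ 1) (g := 1) (by simp)
  have eJ := hD ((2 ^ k : ℕ) : ℤ) (by rw [zpow_natCast]; exact h.J_ne_one)
  have hm1 : ζ ^ 2 ^ k = -1 := (hζ.pow (by positivity)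
    (show 2 ^ (k + 1) = 2 ^ k * 2 by ring)).eq_neg_one_of_two_right
  have vJ : χ₁.1 (σ ^ 2 ^ k) = δ₁ := hconst _ Blk.Q8.DD.J_mem_rot h.J_ne_one
  rw [zpow_neg, zpow_natCast, zpow_natCast, hm1, hsum, vJ] at eJ
  rw [hA (hζ.pow_ne_one_of_pos_of_lt two_ne_zero (by omega)), hsum, vJ] at he
  rw [hsum] at e0
  have o1 : ∀ g, (Ch.irrOne G).1 g = 1 := fun _ => rfl
  simp only [o1] at he e0 eJ
  have hδ : (δ₁ : ℂ) * δ₁ = 1 := by rcases s1 with e | e <;> simp [e]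
  have v1 : (χ' j).1 (σ ^ 2 ^ k) = -2 * δ₁ := by
    linear_combination (-δ₁ : ℂ) * eJ + (δ₁ - (χ' j).1 (σ ^ 2 ^ k)) * hδ
  have v2 : (χ' j).1 1 = χ₁.1 1 + δ₁ := by
    linear_combination (-δ₁ : ℂ) * e0 + (χ₁.1 1 - (χ' j).1 1) * hδ
  have z1 : χ₁.1 1 ≠ 0 := χ₁.2.apply_one_ne_zero
  have z2 : χ₁.1 1 + δ₁ ≠ 0 := v2 ▸ (χ' j).2.apply_one_ne_zero
  rw [v1, v2] at he
  rw [← χ₁.2.coe_charDegree] at he z1 z2
  generalize charDegree χ₁.1 = x at *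
  have c0 : 0 < Nat.card (Subgroup.centralizer ({σ ^ 2 ^ k} : Set G)) := Nat.card_pos
  have c1 : 0 < Nat.card (Subgroup.centralizer ({σ ^ 2 ^ k, τ} : Set G)) := Nat.card_pos
  have c2 : 0 < Nat.card (Subgroup.centralizer ({σ ^ 2 ^ k, σ * τ} : Set G)) := Nat.card_pos
  generalize Nat.card (Subgroup.centralizer ({σ ^ 2 ^ k} : Set G)) = c at *
  generalize Nat.card (Subgroup.centralizer ({σ ^ 2 ^ k, τ} : Set G)) = c' at *
  generalize Nat.card (Subgroup.centralizer ({σ ^ 2 ^ k, σ * τ} : Set G)) = c'' at *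
  have key : (Nat.card G : ℂ) * (x - δ₁) ^ 2 = 2 * x * (x + δ₁) * c * (a + b) ^ 2 := by
    field_simp at he
    linear_combination he - (Nat.card G : ℂ) * (δ₁ * (x + δ₁) - 4 * δ₁ * x - 1 + 1) * hδ
  have key' : (Nat.card G : ℚ) * (x - δ₁) ^ 2 = 2 * x * (x + δ₁) * c * (a + b) ^ 2 := by
    apply Rat.cast_injective (α := ℂ)
    push_cast
    exact key
  have ha0 : 0 < a := Nat.pos_of_ne_zero (by rintro rfl; omega)
  constructor
  · intro e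
    have e' : (x : ℂ) = δ₁ := by exact_mod_cast e
    rw [e', sub_self] at key
    rw [e'] at z1 z2
    have : (2 : ℂ) * δ₁ * (δ₁ + δ₁) * c * (a + b) ^ 2 ≠ 0 := by
      refine mul_ne_zero (mul_ne_zero (mul_ne_zero (mul_ne_zero two_ne_zero z1) z2) ?_)
        (pow_ne_zero 2 ?_)
      · exact_mod_cast c0.ne'
      · exact_mod_cast (by omega : a + b ≠ 0)
    exact this (by rw [← key]; ring)
  · have ha' : (a : ℚ) = c / c' := by
      rw [eq_div_iff (by positivity)]; exact_mod_cast ha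
    have hb' : (b : ℚ) = c / c'' := by
      rw [eq_div_iff (by positivity)]; exact_mod_cast hb
    rw [key', ha', hb']
    ring

end Cfsg.Agent.S4482
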