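import Cfsg.Statements.S4484
import Cfsg.Agent.Blk.PB0
import Cfsg.Agent.Ch.Unitary
import Cfsg.Agent.Ch.Burnside
import Cfsg.Agent.Sym.Nilpotent
-- import your own Cfsg.Agent.* helpers here

set_option autoImplicit false
open Cfsg

namespace Cfsg.Agent.S4484

open Cfsg.Agent.Ch Cfsg.Agent.Blk Finset
open scoped InnerProductSpace

/-- Blichfeldt: conjugates of `y` normalise an eigenspace whose eigenvalue is near all others. -/
theorem blichfeldt {G E : Type*} [Group G] [Finite G] [NormedAddCommGroup E]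
    [InnerProductSpace ℂ E] [FiniteDimensional ℂ E] (ρ : Representation ℂ G E)
    (hU : ∀ g v, ‖ρ g v‖ = ‖v‖) {y : G} {α : ℂ} (hα : ‖α‖ = 1) {c : ℝ} (hc0 : 0 ≤ c) (hc : c < 1)
    (h : ∀ v, ‖ρ y v - α • v‖ ≤ c * ‖v‖) {t : G} (ht : IsConj y t) :
    ∀ w ∈ Module.End.eigenspace (ρ y) α, ρ t w ∈ Module.End.eigenspace (ρ y) α := by
  let W : G → Submodule ℂ E := fun s => Module.End.eigenspace (ρ s) α
  have hW : ∀ {s w}, w ∈ W s ↔ ρ s w = α • w := Module.End.mem_eigenspace_iff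
  have hm : ∀ a b v, ρ a (ρ b v) = ρ (a * b) v := fun a b v => by rw [map_mul]; rfl
  have hc' : ∀ t, IsConj y t → ∀ v, ‖ρ t v - α • v‖ ≤ c * ‖v‖ := fun t ht v => by
    obtain ⟨g, rfl⟩ := isConj_iff.1 ht
    have := h (ρ g⁻¹ v)
    rwa [← hU g, map_sub, map_smul, hm, hm, hm, mul_inv_cancel, map_one, hU] at this
  have hi : ∀ s v w, ⟪ρ s v, ρ s w⟫_ℂ = ⟪v, w⟫_ℂ := fun s =>
    (⟨ρ s, hU s⟩ : E →ₗᵢ[ℂ] E).inner_map_map
  let N : ℕ → G → G → Prop := fun n s t => ∀ w ∈ W s, ∃ v ∈ W t, ‖w - v‖ ≤ c ^ n * ‖w‖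
  let S : ℕ → Prop := fun n => ∀ s t, IsConj y s → IsConj y t → N n s t → ∀ w ∈ W s, ρ t w ∈ W s
  have h1 : ∀ n, S (n + 1) → S n := fun n ih s t hs ht hN w hw => by
    have h2 : ∀ x ∈ W (t * s * t⁻¹), ρ t⁻¹ x ∈ W s := fun x hx => hW.2 (by
      rw [← map_smul, ← hW.1 hx, hm, hm]; congr 2; group)
    have h3 : ∀ x, ρ t (ρ t⁻¹ x) = x := fun x => by rw [hm, mul_inv_cancel, map_one]; rfl
    have h4 := ih (t * s * t⁻¹) s (hs.trans (isConj_iff.2 ⟨t, rfl⟩)) hs (fun x hx => by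
      obtain ⟨v, hv, e⟩ := hN _ (h2 x hx)
      refine ⟨α • ρ t⁻¹ x, (W s).smul_mem _ (h2 x hx), ?_⟩
      have := hc' t ht (ρ t⁻¹ x - v)
      rw [map_sub, h3, hW.1 hv, smul_sub, sub_sub_sub_cancel_right] at this
      rw [hU] at e
      rw [pow_succ', mul_assoc]
      exact this.trans (mul_le_mul_of_nonneg_left e hc0))
    have h5 : ρ t w ∈ W (t * s * t⁻¹) := hW.2 (by
      rw [← map_smul, ← hW.1 hw, hm, hm, inv_mul_cancel_right])
    set z := ρ s (ρ t w) - α • ρ t w with hz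
    have h6 := h2 z ((W _).sub_mem (h4 _ h5) ((W _).smul_mem _ h5))
    have h7 : ⟪α • ρ t⁻¹ z, z⟫_ℂ = 0 := by
      generalize ρ t⁻¹ z = u at h6
      rw [hz, inner_sub_right, inner_smul_right, ← hW.1 h6, hi, hW.1 h6, inner_smul_left, ← mul_assoc,
        Complex.mul_conj, Complex.normSq_eq_norm_sq, hα]
      simp
    have h8 := hc' t ht (ρ t⁻¹ z)
    have h9 := norm_add_sq_eq_norm_sq_add_norm_sq_of_inner_eq_zero (𝕜 := ℂ) (-(α • ρ t⁻¹ z)) z
      (by rw [inner_neg_left, h7, neg_zero])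
    rw [neg_add_eq_sub, norm_neg, norm_smul, hα, hU, one_mul] at h9
    rw [h3, hU] at h8
    have h10 := mul_self_le_mul_self (norm_nonneg _)
      (h8.trans (mul_le_of_le_one_left (norm_nonneg z) hc.le))
    exact hW.2 (sub_eq_zero.1 (norm_eq_zero.1 (mul_self_eq_zero.1
      (le_antisymm (by linarith) (mul_self_nonneg ‖z‖)))))
  obtain ⟨n, hn⟩ : ∃ n, ∀ s t, N n s t → W s ≤ W t := by
    refine Filter.Eventually.exists (f := Filter.atTop) (Filter.eventually_all.2 fun s =>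
      Filter.eventually_all.2 fun t => ?_)
    by_cases e : W s ≤ W t
    · exact Filter.Eventually.of_forall fun _ _ => e
    obtain ⟨w, hw, hw'⟩ := SetLike.not_le_iff_exists.1 e
    have h2 := ((W t).closed_of_finiteDimensional.notMem_iff_infDist_pos ⟨0, (W t).zero_mem⟩).1 hw'
    have h3 := (tendsto_pow_atTop_nhds_zero_of_lt_one hc0 hc).mul_const ‖w‖
    rw [zero_mul] at h3
    filter_upwards [h3.eventually (gt_mem_nhds h2)] with n hn hN
    obtain ⟨v, hv, e⟩ := hN w hw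
    exact absurd ((Metric.infDist_le_dist_of_mem hv).trans (dist_eq_norm w v ▸ e)) hn.not_ge
  have h2 : S 0 := Nat.decreasingInduction (n := n) (motive := fun k _ => S k)
    (fun k _ => h1 k) (fun s t _ _ hN w hw => hW.1 (hn s t hN hw) ▸ (W s).smul_mem _ hw) n.zero_le
  exact h2 y t (IsConj.refl y) ht fun w _ => ⟨0, (W t).zero_mem, by simp⟩

theorem norm_sub_lt {z w : ℂ} (hz : ‖z‖ = 1) (hw : ‖w‖ = 1)
    (h : ⌊(Real.pi - z.arg) / (Real.pi / 3)⌋ = ⌊(Real.pi - w.arg) / (Real.pi / 3)⌋) :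
    ‖z⁻¹ * w - 1‖ < 1 := by
  have hpi := Real.pi_pos
  have h1 := Int.abs_sub_lt_one_of_floor_eq_floor h
  rw [← sub_div, abs_div, abs_of_pos (by positivity : 0 < Real.pi / 3),
    div_lt_one (by positivity), show Real.pi - z.arg - (Real.pi - w.arg) = w.arg - z.arg by ring]
    at h1
  have h2 := Real.cos_lt_cos_of_nonneg_of_le_pi (abs_nonneg _) (by linarith) h1
  rw [Real.cos_abs, Real.cos_pi_div_three] at h2
  have h3 : z⁻¹ * w = Complex.exp (((w.arg - z.arg : ℝ) : ℂ) * Complex.I) := by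
    conv_lhs => rw [← Complex.norm_mul_exp_arg_mul_I z, ← Complex.norm_mul_exp_arg_mul_I w, hz, hw]
    rw [Complex.ofReal_one, one_mul, one_mul, ← Complex.exp_neg, ← Complex.exp_add]
    congr 1
    push_cast
    ring
  rw [h3]
  refine lt_of_pow_lt_pow_left₀ 2 (by norm_num) ?_
  rw [Complex.sq_norm, Complex.normSq_apply]
  simp only [Complex.sub_re, Complex.exp_ofReal_mul_I_re, Complex.one_re, Complex.sub_im,
    Complex.exp_ofReal_mul_I_im, Complex.one_im, sub_zero]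
  have h4 := Real.sin_sq_add_cos_sq (w.arg - z.arg)
  nlinarith

theorem floor_mem (z : ℂ) : ⌊(Real.pi - z.arg) / (Real.pi / 3)⌋ ∈ Ico (0 : ℤ) 6 := by
  have hpi := Real.pi_pos
  rw [mem_Ico, Int.floor_nonneg, Int.floor_lt, div_lt_iff₀ (by positivity)]
  have h1 := z.arg_le_pi
  have h2 := z.neg_pi_lt_arg
  exact ⟨div_nonneg (by linarith) (by positivity), by push_cast; linarith⟩


/-- A refinement of Burnside's result on simple groups of order divisible by only two primes. Let G be a finite simple group of order p^a · q^b · g₀ with p, q distinct primes, a > 0, g₀ coprime to p and q, and the order of G different from p. Then g₀ − 1 > log p / log 6, that is 6^(g₀ − 1) > p. -/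
theorem result {G : Type*} [Group G] [Finite G] [IsSimpleGroup G] (p q a b g₀ : ℕ) (hp : p.Prime) (hq : q.Prime) (hpq : p ≠ q) (ha : 0 < a) (hg : Nat.card G = p ^ a * q ^ b * g₀) (hcop : ¬ p ∣ g₀) (hcoq : ¬ q ∣ g₀) (hne : Nat.card G ≠ p) : p < 6 ^ (g₀ - 1) := by
  classical
  have : Fact p.Prime := ⟨hp⟩
  obtain ⟨M, hM⟩ := exists_isPModular hp
  have := hM.isMaximal
  obtain ⟨P⟩ : Nonempty (Sylow p G) := inferInstance
  have hpG : p ∣ Nat.card G := hg ▸ ((dvd_pow_self p ha.ne').mul_right _).mul_right _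
  obtain ⟨x, hx, hxP⟩ : ∃ x : G, orderOf x = p ∧
      ¬ p ∣ (Subgroup.centralizer ({x} : Set G)).index := by
    have := P.isPGroup'.isNilpotent
    obtain ⟨z, hz, hz'⟩ := Sym.exists_mem_center_orderOf_eq hp (P.dvd_card_of_dvd_card hpG)
    refine ⟨z, by rw [Subgroup.orderOf_coe, hz'], fun h => P.not_dvd_index (h.trans
      (Subgroup.index_dvd_of_le fun g hg => Subgroup.mem_centralizer_singleton_iff.2 ?_))⟩
    exact congrArg Subtype.val (Subgroup.mem_center_iff.1 hz ⟨g, hg⟩)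
  set K := (Subgroup.centralizer ({x} : Set G)).index with hK
  have hK' : K ∣ q ^ b * g₀ := ((hp.coprime_iff_not_dvd.2 hxP).symm.pow_right a).dvd_of_dvd_mul_left
    (by rw [← mul_assoc, ← hg]; exact Subgroup.index_dvd_card _)
  obtain ⟨χ, hχ, h1, hχq⟩ : ∃ χ ∈ PB.pb M G, χ ≠ irrOne G ∧ ¬ q ∣ charDegree (χ : G → ℂ) := by
    by_contra! h
    have h1 := PB.sum_mul_eq_zero_of_regular hM (g := 1) (by simpa using hp.ne_one) hx.symm.dvd
    rw [← add_sum_erase _ _ (PB.one_mem_pb hM)] at h1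
    refine hq.ne_one (Nat.eq_one_of_dvd_one (integral_nat_dvd_of_eq_mul (ω := -∑ χ ∈ (PB.pb M G).erase
      (irrOne G), (charDegree (χ : G → ℂ) / q : ℕ) * (χ : G → ℂ) x) (IsIntegral.neg
        (IsIntegral.sum _ fun χ _ => (integral_natCast _).mul (χ.2.isCharacter.isIntegral x))) ?_))
    rw [mul_neg, mul_sum, sum_congr rfl fun χ hχ => by
      rw [← mul_assoc, ← Nat.cast_mul, Nat.mul_div_cancel' (h χ (mem_of_mem_erase hχ)
        (ne_of_mem_erase hχ)), χ.2.coe_charDegree]]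
    simpa [eq_neg_iff_add_eq_zero] using h1
  obtain ⟨ρ, hρ, hU⟩ := χ.2.isCharacter.exists_unitary
  have hirr := (isIrreducible_iff_isIrrCharacter ρ).2 (by rw [hρ]; exact χ.2)
  obtain ⟨e, μ, hμ, he⟩ := exists_eigenbasis ρ (isOfFinOrder_of_finite x)
  rw [hx] at hμ
  let n := charDegree (χ : G → ℂ)
  have hn0 : 0 < n := χ.2.charDegree_pos
  have hv : ∀ k : ℕ, (χ : G → ℂ) (x ^ k) = ∑ i, μ i ^ k := fun k =>
    (congrFun hρ _).symm.trans (trace_eq_sum_of_eigenbasis e _ _ fun i => by simpa using he k i)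
  have hdvd : ∀ l ∈ univ.image μ, n ≤ g₀ * #{i | μ i = l} := fun l hl => by
    obtain ⟨i, -, rfl⟩ := mem_image.1 hl
    have h0 : μ i ≠ 0 := fun e => by simpa [e, hp.ne_zero] using hμ i
    have hl : ∀ k : ℕ, ((μ i)⁻¹ ^ k) ^ p ^ 1 = 1 := fun k => by
      rw [pow_one, ← pow_mul, mul_comm, pow_mul, inv_pow, hμ, inv_one, one_pow]
    have h2 : ∀ k < p, IsIntegral ℤ (K * (χ : G → ℂ) (x ^ k) / n) ∧
        red M (K * (χ : G → ℂ) (x ^ k) / n) = K := fun k hk => by
      obtain rfl | hk0 := k.eq_zero_or_pos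
      · rw [pow_zero, ← χ.2.coe_charDegree, mul_div_cancel_right₀ _ (Nat.cast_ne_zero.2 hn0.ne')]
        exact ⟨integral_natCast _, red_natCast _⟩
      have h3 : Subgroup.centralizer ({x ^ k} : Set G) = Subgroup.centralizer {x} := by
        obtain ⟨j, hj⟩ := exists_pow_eq_self_of_coprime (x := x)
          (hx ▸ (Nat.coprime_of_lt_prime hk0.ne' hk hp).symm)
        refine Subgroup.ext fun g => ?_
        simp only [Subgroup.mem_centralizer_singleton_iff]
        exact ⟨fun h => hj ▸ ((show Commute g _ from h).pow_right j).eq,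
          fun h => ((show Commute g _ from h).pow_right k).eq⟩
      have h4 := χ.2.isIntegral_centralChar (x ^ k)
      have h5 := P0.mem_iff_red.1 (PB.mem_pb.1 hχ) (x ^ k)
      rw [centralChar, h3, ← χ.2.coe_charDegree] at h4 h5
      exact ⟨h4, h5⟩
    have h3 : ((p * K * #{j | μ j = μ i} : ℕ) : ℂ) / n =
        ∑ k ∈ range p, K * (χ : G → ℂ) (x ^ k) / n * (μ i)⁻¹ ^ k := by
      simp only [hv, div_mul_eq_mul_div, mul_assoc, sum_mul, ← mul_pow, ← sum_div, ← mul_sum]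
      rw [sum_comm, card_filter]
      push_cast
      rw [mul_left_comm, mul_sum]
      refine congrArg (· / _) (congrArg _ (sum_congr rfl fun j _ => ?_))
      split_ifs with h
      · simp [h, h0]
      · rw [geom_sum_eq (mt (mul_inv_eq_one₀ h0).1 h), mul_pow, inv_pow, hμ, hμ]; simp
    obtain ⟨c, hc⟩ := integral_nat_dvd_of_div hn0.ne' (h3 ▸ IsIntegral.sum _ fun k hk =>
      (h2 k (mem_range.1 hk)).1.mul (isIntegral_of_pow_eq_one (pow_ne_zero _ hp.ne_zero) (hl k)))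
    obtain ⟨d, rfl⟩ : p ∣ c := by
      rw [hc, Nat.cast_mul, mul_div_cancel_left₀ _ (Nat.cast_ne_zero.2 hn0.ne')] at h3
      rw [← hM.natCast_res_eq_zero_iff, ← red_natCast, h3, red_sum fun k hk =>
        (MemLocalRing.of_isIntegral (h2 k (mem_range.1 hk)).1).mul
          (memLocalRing_of_pow_eq_one (pow_ne_zero _ hp.ne_zero) (hl k)),
        sum_congr rfl fun k hk => by
          rw [red_mul (MemLocalRing.of_isIntegral (h2 k (mem_range.1 hk)).1)
            (memLocalRing_of_pow_eq_one (pow_ne_zero _ hp.ne_zero) (hl k)),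
            (h2 k (mem_range.1 hk)).2, hM.red_eq_one_of_pow_prime_pow (hl k)]]
      simp [(hM.natCast_res_eq_zero_iff p).2 dvd_rfl]
    rw [mul_assoc, mul_left_comm n] at hc
    refine Nat.le_of_dvd (Nat.mul_pos (Nat.pos_of_ne_zero fun e => hcop (e ▸ dvd_zero p))
      (card_pos.2 ⟨i, by simp⟩)) (((hq.coprime_iff_not_dvd.2 hχq).symm.pow_right b).dvd_of_dvd_mul_left ?_)
    rw [← mul_assoc]
    exact (Dvd.intro _ (Nat.eq_of_mul_eq_mul_left hp.pos hc).symm).trans (mul_dvd_mul_right hK' _)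
  have hS : #(univ.image μ) ≤ g₀ := by
    have h2 := card_nsmul_le_sum _ _ _ hdvd
    rw [← mul_sum, ← card_eq_sum_card_image, card_univ, Fintype.card_fin, smul_eq_mul] at h2
    exact Nat.le_of_mul_le_mul_right (h2.trans_eq (congrArg _ finrank_euclideanSpace_fin)) hn0
  by_contra! hlt
  obtain ⟨i₀⟩ : Nonempty (Fin (Module.finrank ℂ (EuclideanSpace ℂ (Fin (charDegree (χ : G → ℂ)))))) :=
    ⟨⟨0, by rwa [finrank_euclideanSpace_fin]⟩⟩
  have hμ1 : ∀ i, ‖μ i‖ = 1 := fun i => norm_eq_one_of_pow_eq_one' hp.ne_zero (hμ i)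
  have h0 : ∀ i, μ i ≠ 0 := fun i => norm_ne_zero_iff.1 (by simp [hμ1])
  obtain ⟨k, hk, k', hk', hkk, hf⟩ := exists_ne_map_eq_of_card_lt_of_maps_to (s := range p)
    (t := Fintype.piFinset fun _ : (univ.image μ).erase (μ i₀) => Ico (0 : ℤ) 6)
    (f := fun k l => ⌊(Real.pi - ((l / μ i₀ : ℂ) ^ k).arg) / (Real.pi / 3)⌋) (by
      rw [card_range, Fintype.card_piFinset, prod_const, card_univ, Fintype.card_coe,
        card_erase_of_mem (mem_image_of_mem μ (mem_univ _))]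
      refine ((Nat.pow_le_pow_right (by simp) (Nat.sub_le_sub_right hS 1)).trans hlt).lt_of_ne
        fun e => ?_
      have h6 : (6 ^ _).Prime := e.symm ▸ hp
      rw [h6.eq_one_of_pow] at h6
      exact absurd h6 (by decide))
    fun k _ => Fintype.mem_piFinset.2 fun _ => floor_mem _
  set d : ℤ := k' - k with hd
  have := Nonempty.intro i₀
  obtain ⟨i₁, hi₁⟩ := Finite.exists_max fun i => ‖μ i ^ d - μ i₀ ^ d‖
  have h2 : ‖μ i₁ ^ d - μ i₀ ^ d‖ < 1 := by
    by_cases e : μ i₁ = μ i₀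
    · simp [e]
    have := norm_sub_lt (by simp [hμ1]) (by simp [hμ1])
      (congrFun hf ⟨μ i₁, mem_erase.2 ⟨e, mem_image_of_mem μ (mem_univ _)⟩⟩)
    rwa [← zpow_natCast, ← zpow_natCast, ← zpow_neg, ← zpow_add₀ (div_ne_zero (h0 _) (h0 _)),
      neg_add_eq_sub, ← hd, div_zpow, div_sub_one (zpow_ne_zero _ (h0 _)), norm_div, norm_zpow, hμ1,
      one_zpow, div_one] at this
  have hy : x ^ d ≠ 1 := fun e => hkk (by
    rw [← orderOf_dvd_iff_zpow_eq_one, hx] at e
    have := Int.eq_zero_of_dvd_of_natAbs_lt_natAbs e (by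
      have := mem_range.1 hk; have := mem_range.1 hk'; omega)
    omega)
  have h3 := fun t => blichfeldt ρ hU (t := t) (by simp [hμ1]) (norm_nonneg _) h2
    (unitary_norm_sub_le (hU (x ^ d)) e _ (he d) (norm_nonneg _) hi₁)
  set W := Module.End.eigenspace (ρ (x ^ d)) (μ i₀ ^ d)
  let H : Submonoid G :=
    { carrier := {g | ∀ w ∈ W, ρ g w ∈ W}
      mul_mem' := fun ha hb w hw => by rw [map_mul]; exact ha _ (hb w hw)
      one_mem' := fun w hw => by simpa using hw }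
  let H' : Subgroup G := { H with
    inv_mem' := fun {g} hg => by
      rw [inv_eq_of_mul_eq_one_right (b := g ^ (Nat.card G - 1)) (by
        rw [← pow_succ', Nat.sub_add_cancel Nat.card_pos, pow_card_eq_one'])]
      exact H.pow_mem hg _ }
  have h4 : Subgroup.normalClosure {x ^ d} ≤ H' := (Subgroup.closure_le _).2 fun t ht => by
    obtain ⟨_, rfl, h⟩ := Group.mem_conjugatesOfSet_iff.1 ht
    exact h3 t h
  rw [(Subgroup.normalClosure_normal.eq_bot_or_eq_top.resolve_left fun e =>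
    hy (by simpa [e] using Subgroup.subset_normalClosure (s := {x ^ d}) rfl))] at h4
  have h5 := (((isIrreducible_iff ρ).1 hirr).2 W fun g => h4 (Subgroup.mem_top g)).resolve_left
    fun e' => e.ne_zero i₀ ((Submodule.eq_bot_iff _).1 e' _
      (Module.End.mem_eigenspace_iff.2 (he d i₀)))
  have h6 := (mem_charCenter_character ρ (x ^ d)).2 ⟨_, LinearMap.ext fun v =>
    Module.End.mem_eigenspace_iff.1 (h5 ▸ Submodule.mem_top : v ∈ W)⟩
  rw [hρ, χ.2.charCenter_eq_center (χ.2.charKer_eq_bot_of_simple fun e => h1 (Subtype.ext e))] at h6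
  exact hne ((Nat.prime_dvd_prime_iff_eq hp (burnside_prime_card_of_mem_center hy h6)).1 hpG).symm

end Cfsg.Agent.S4484
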