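import Cfsg.Statements.S4485
import Cfsg.Agent.S4486
import Cfsg.Agent.GT.MinNormal
-- import your own Cfsg.Agent.* helpers here

set_option autoImplicit false
open Cfsg

namespace Cfsg.Agent.S4485

/-- Let G be a finite group and p a prime dividing its order such that every non-identity element of a Sylow p-subgroup P has the same centralizer as P itself (so P is abelian); let p^n be the order of P. If G has a faithful character of degree x with x² < p^n − 1, then P is normal in G. -/
theorem result {G : Type*} [Group G] [Finite G] (p : ℕ) (hp : p.Prime) (hpG : p ∣ Nat.card G) (P : Sylow p G) (hstar : ∀ x ∈ (P : Subgroup G), x ≠ 1 → Subgroup.centralizer ({x} : Set G) = Subgroup.centralizer ((P : Subgroup G) : Set G)) (n : ℕ) (hn : Nat.card P = p ^ n) (χ : G → ℂ) (hχ : Cfsg.IsCharacter G χ) (hfaith : ∀ g : G, χ g = χ 1 → g = 1) (hdeg : Cfsg.charDegree χ ^ 2 + 1 < p ^ n) : (P : Subgroup G).Normal := by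
  classical
  have : Fact p.Prime := ⟨hp⟩
  revert P χ hpG
  refine GT.card_induction (P := fun G _ _ => p ∣ Nat.card G → ∀ P : Sylow p G,
    (∀ x ∈ (P : Subgroup G), x ≠ 1 → Subgroup.centralizer ({x} : Set G) =
      Subgroup.centralizer ((P : Subgroup G) : Set G)) → Nat.card P = p ^ n → ∀ χ : G → ℂ,
      IsCharacter G χ → (∀ g : G, χ g = χ 1 → g = 1) → charDegree χ ^ 2 + 1 < p ^ n →
      (P : Subgroup G).Normal) ?_ G
  intro G _ _ ih hpG P hstar hn χ hχ hfaith hdeg
  have := Fintype.ofFinite G
  by_cases hK : ∃ K : Subgroup G, K.Normal ∧ K ≠ ⊤ ∧ (P : Subgroup G) ≤ K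
  · obtain ⟨K, hKn, hKt, hPK⟩ := hK
    have hc : Nat.card (P.subtype hPK) = p ^ n := by
      rw [← hn, Sylow.coe_subtype]
      exact Nat.card_congr (Subgroup.subgroupOfEquivOfLe hPK).toEquiv
    have hn0 : n ≠ 0 := by rintro rfl; simp at hdeg
    have h1 := ih K (lt_of_le_of_ne (Subgroup.card_le_card_group K)
        fun e => hKt (Subgroup.eq_top_of_card_eq K e))
      ((dvd_pow_self p hn0).trans (hc ▸ Subgroup.card_subgroup_dvd_card _)) (P.subtype hPK)
      (fun x hx h1 => ?_) hc (fun k => χ k) (hχ.restrict K)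
      (fun g hg => Subtype.ext (hfaith g hg)) hdeg
    · have := Sylow.characteristic_of_normal _ h1
      have h2 := ConjAct.normal_of_characteristic_of_normal (H := K)
        (K := (P.subtype hPK : Subgroup K))
      rwa [Sylow.coe_subtype, Subgroup.subgroupOf_map_subtype, inf_eq_left.2 hPK] at h2
    · have h2 := hstar x hx fun e => h1 (Subtype.ext e)
      ext g
      rw [Subgroup.mem_centralizer_singleton_iff, Subtype.ext_iff, Subgroup.coe_mul,
        Subgroup.coe_mul, ← Subgroup.mem_centralizer_singleton_iff, h2]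
      exact ⟨fun h y hy => Subtype.ext (h y hy),
        fun h y hy => congrArg Subtype.val (h ⟨y, hPK hy⟩ hy)⟩
  · have h1 : commutator G ≤ Ch.charKer χ := fun g hg =>
      hχ.mem_charKer_iff_forall_constituent.2 fun φ hφ hne => by
        refine hφ.apply_one_eq_one_iff_commutator_le.1 ?_ hg
        by_cases h1 : φ = fun _ => 1
        · rw [h1]
        · have h2 := hχ.charDegree_irr_le hφ hne
          have h3 := (S4486.result p hp hpG P hstar n hn ⟨φ, hφ⟩ h1
            (lt_of_le_of_lt (by dsimp only; gcongr) hdeg)).resolve_left hK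
          rw [← hφ.coe_charDegree, show charDegree φ = 1 from h3.2, Nat.cast_one]
    rw [hχ.charKer_eq_bot_iff.2 hfaith] at h1
    exact Subgroup.Normal.of_commutator_le G (h1.trans bot_le)

end Cfsg.Agent.S4485
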