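import Cfsg.Statements.S4488
import Cfsg.Agent.Ch.Galois
import Cfsg.Agent.Ch.GaloisFix
-- import your own Cfsg.Agent.* helpers here

set_option autoImplicit false
open Cfsg

namespace Cfsg.Agent.S4488

open Cfsg.Agent.Ch Finset

theorem re_bound {P : Type*} [Group P] [Finite P] {p : ℕ} (hp : p.Prime) {χ : P → ℂ}
    (hχ : IsCharacter P χ) {x : P} {k : ℕ} (hx : orderOf x = p ^ (k + 1))
    (h : ∀ j, (p ^ (k + 1)).Coprime j → χ (x ^ j) = χ x) :
    0 ≤ charDegree χ + (p - 1 : ℝ) * (χ x).re := by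
  obtain ⟨μ, h1, h2⟩ := hχ.exists_roots_nat x
  have h3 : 0 ≤ ∑ j ∈ range (p ^ (k + 1)), (χ (x ^ j)).re := by
    simp only [h2]
    rw [← Complex.re_sum, sum_comm, Complex.re_sum]
    refine sum_nonneg fun i _ => ?_
    by_cases e : μ i = 1
    · simp only [e, one_pow, sum_const, nsmul_eq_mul, mul_one, Complex.natCast_re]; positivity
    · rw [geom_sum_eq e, ← hx, h1]; simp
  have h4 : #{j ∈ range (p ^ (k + 1)) | (p ^ (k + 1)).Coprime j} = p ^ k * (p - 1) :=
    Nat.totient_prime_pow_succ hp k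
  have h5 := card_filter_add_card_filter_not (s := range (p ^ (k + 1))) (p ^ (k + 1)).Coprime
  rw [h4, card_range] at h5
  have h6 : #{j ∈ range (p ^ (k + 1)) | ¬ (p ^ (k + 1)).Coprime j} = p ^ k := by
    obtain ⟨q, rfl⟩ := Nat.exists_eq_add_of_le' hp.one_le
    rw [Nat.add_sub_cancel] at h5
    refine Nat.add_left_cancel (h5.trans ?_)
    ring
  rw [← sum_filter_add_sum_filter_not _ (p ^ (k + 1)).Coprime, sum_congr rfl fun j hj =>
    congrArg Complex.re (h j (mem_filter.1 hj).2), sum_const, h4] at h3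
  have h7 := h3.trans (add_le_add_right (sum_le_card_nsmul _ _ (charDegree χ : ℝ) fun j _ =>
    hχ.re_apply_one ▸ hχ.re_le _) _)
  rw [h6, nsmul_eq_mul, nsmul_eq_mul, Nat.cast_mul, Nat.cast_sub hp.one_le, mul_assoc, ← mul_add,
    add_comm] at h7
  exact_mod_cast nonneg_of_mul_nonneg_right h7 (Nat.cast_pos.2 (pow_pos hp.pos k))


/-- Let the finite group G have a faithful p-rational character χ of degree n (all values of χ lie in the field generated over ℚ by a root of unity of order prime to p), and let p^a be the order of a Sylow p-subgroup of G. Then a ≤ Σ_{i ≥ 0} ⌊n / ((p − 1)·p^i)⌋ (a finite sum; the terms vanish once (p − 1)p^i > n). -/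
theorem result {G : Type*} [Group G] [Finite G] (p : ℕ) (hp : p.Prime) (χ : G → ℂ) (hχ : Cfsg.IsCharacter G χ) (hfaith : ∀ g : G, χ g = χ 1 → g = 1) (hrat : (∃ r : ℕ, 0 < r ∧ ¬ p ∣ r ∧ ∀ g : G, χ g ∈ IntermediateField.adjoin ℚ ({Complex.exp (2 * Real.pi * Complex.I / r)} : Set ℂ))) (n : ℕ) (hn : Cfsg.charDegree χ = n) : (Nat.card G).factorization p ≤ ∑ i ∈ Finset.range (n + 1), n / ((p - 1) * p ^ i) := by
  classical
  have : Fact p.Prime := ⟨hp⟩
  obtain ⟨r, hr, hpr, hrat⟩ := hrat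
  obtain ⟨P⟩ : Nonempty (Sylow p G) := inferInstance
  have := Fintype.ofFinite (P : Subgroup G)
  set a := (Nat.card G).factorization p
  have hP : Nat.card (P : Subgroup G) = p ^ a := P.card_eq_multiplicity
  set ψ : ↥(P : Subgroup G) → ℂ := fun x => χ x with hψ
  have hc : IsCharacter _ ψ := hχ.restrict _
  have hd : charDegree ψ = n := hn
  have h1 : ∀ x (j : ℕ), j.Coprime p → ψ (x ^ j) = ψ x := fun x j hj => by
    obtain ⟨σ, h1, h2⟩ := galois_exists_pow_fix (pow_ne_zero a hp.ne_zero) hr.ne'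
      ((hp.coprime_iff_not_dvd.2 hpr).pow_left a) (hj.pow_right a)
    rw [← hc.galois_apply_of_pow_eq_one σ.toRingHom h1 (hP ▸ pow_card_eq_one')]
    exact galois_fix_of_mem_cyclotomic hr.ne' (hrat x) σ h2
  set m := n / (p - 1) with hm
  have h2 : ∀ x, x ≠ 1 → ∃ y ∈ range m, ψ x = n - p * (y + 1 : ℕ) := fun x hx => by
    obtain ⟨k, hk⟩ := P.isPGroup'.exists_orderOf_eq_pow x
    obtain _ | k := k
    · exact absurd (orderOf_eq_one_iff.1 hk) hx
    have h3 := re_bound hp hc hk fun j hj =>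
      h1 x j ((Nat.coprime_pow_left_iff k.succ_pos _ _).1 hj).symm
    obtain ⟨v, hv⟩ : ∃ v : ℤ, (v : ℂ) = ψ x := by
      refine galois_exists_int_of_fixed (hc.isIntegral x) fun σ => ?_
      obtain ⟨j, hj, hσ⟩ := galois_exists_exponent σ.toRingHom (pow_ne_zero (k + 1) hp.ne_zero)
      exact (hc.galois_apply_of_pow_eq_one σ.toRingHom hσ (hk ▸ pow_orderOf_eq_one x)).trans
        (h1 x j ((Nat.coprime_pow_right_iff k.succ_pos _ _).1 hj))
    obtain ⟨c, h4⟩ := hc.prime_dvd_sub_charDegree hp (hk ▸ pow_orderOf_eq_one x) hv.symm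
    have h5 : (v : ℝ) < n := by
      have := hc.re_le x
      rw [hc.re_apply_one, hd, ← hv] at this
      refine lt_of_le_of_ne this fun e => hx (Subtype.ext (hfaith x ?_))
      rw [← hχ.coe_charDegree, hn]
      exact hv.symm.trans (by exact_mod_cast e)
    rw [hd] at h3 h4
    rw [← hv] at h3 ⊢
    have h6 : (0 : ℤ) ≤ n + (p - 1) * v := by exact_mod_cast h3
    have h7 : v < n := by exact_mod_cast h5
    have hp0 : (0 : ℤ) < p := by exact_mod_cast hp.pos
    obtain ⟨y, rfl⟩ : ∃ y : ℕ, c = -(y + 1) := ⟨(-c - 1).toNat, by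
      have : c < 0 := by nlinarith
      omega⟩
    refine ⟨y, mem_range.2 ((Nat.le_div_iff_mul_le (Nat.sub_pos_of_lt hp.one_lt)).2 ?_), ?_⟩
    · zify [hp.one_le]
      nlinarith
    · rw [eq_add_of_sub_eq h4]; push_cast; ring
  obtain ⟨z, hz⟩ := (IsGeneralizedCharacter.prod (s := range m)
    (f := fun y => (fun _ => ((p * (y + 1) : ℕ) : ℂ)) + ψ - fun _ => (n : ℂ)) fun y _ =>
      ((IsCharacter.natCast_const _).add hc).isGeneralizedCharacter.sub
        (IsCharacter.natCast_const _).isGeneralizedCharacter).exists_int_classInner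
    IsGeneralizedCharacter.one
  rw [classInner_one_right, sum_eq_single 1 (fun x _ hx => ?_) (by simp), Finset.prod_apply] at hz
  · simp only [Pi.sub_apply, Pi.add_apply, ← hc.coe_charDegree, hd, add_sub_cancel_right] at hz
    rw [← Nat.cast_prod, prod_mul_distrib, prod_const, card_range, prod_range_add_one_eq_factorial,
      inv_mul_eq_iff_eq_mul₀ (natCard_ne_zero _), hP] at hz
    have h3 : p ^ a ∣ p ^ m * m.factorial :=
      Int.natCast_dvd_natCast.1 ⟨z, Int.cast_injective (α := ℂ) (by exact_mod_cast hz)⟩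
    have h4 := (hp.pow_dvd_iff_le_factorization
      (mul_ne_zero (pow_ne_zero _ hp.ne_zero) m.factorial_ne_zero)).1 h3
    rw [Nat.factorization_mul (pow_ne_zero _ hp.ne_zero) m.factorial_ne_zero, Finsupp.add_apply,
      hp.factorization_pow, Finsupp.single_eq_same, Nat.factorization_factorial hp (b := n + 1)
        (Nat.lt_succ_of_le ((Nat.log_le_self _ _).trans (Nat.div_le_self _ _)))] at h4
    rw [range_eq_Ico, sum_eq_sum_Ico_succ_bot n.succ_pos]
    simpa only [← Nat.div_div_eq_div_mul, pow_zero, Nat.div_one] using h4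
  · obtain ⟨y, hy, e⟩ := h2 x hx
    rw [Finset.prod_apply]
    exact prod_eq_zero hy (by simp [e])

end Cfsg.Agent.S4488
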