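import Cfsg.Statements.S4489
import Cfsg.Agent.Ch.Galois
import Cfsg.Agent.Ch.GaloisFix
import Cfsg.Agent.Ch.Clifford
import Cfsg.Agent.Ch.Linear
import Cfsg.Agent.GT.PGroupMaxClass
import Cfsg.Agent.GT.PGroupCyclicNormal
import Cfsg.Agent.FT.B4Aux
import Cfsg.Agent.GT.MinNormal
import Cfsg.Agent.Deg.Basic
-- import your own Cfsg.Agent.* helpers here

set_option autoImplicit false
open Cfsg

namespace Cfsg.Agent.S4489

section
open Cfsg.Agent.Ch Polynomial IntermediateField Module

theorem totient_le (K : IntermediateField ℚ ℂ) [FiniteDimensional ℚ K] {ζ : ℂ} {n : ℕ}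
    (hζ : IsPrimitiveRoot ζ n) (hn : 0 < n) {q : K[X]} (hq : q.Monic) (h : aeval ζ q = 0) :
    n.totient ≤ finrank ℚ K * q.natDegree := by
  have hi : IsIntegral K ζ := ⟨q, hq, h⟩
  have := adjoin.finiteDimensional hi
  have : FiniteDimensional ℚ K⟮ζ⟯ := Module.Finite.trans K _
  calc n.totient = (minpoly ℚ (AdjoinSimple.gen K ζ)).natDegree := by
        rw [← natDegree_cyclotomic n ℚ, cyclotomic_eq_minpoly_rat hζ hn,
          ← minpoly.algebraMap_eq (algebraMap K⟮ζ⟯ ℂ).injective]; rfl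
    _ ≤ finrank ℚ K⟮ζ⟯ := minpoly.natDegree_le _
    _ = finrank ℚ K * (minpoly K ζ).natDegree := by
        rw [← finrank_mul_finrank ℚ K, adjoin.finrank hi]
    _ ≤ _ := Nat.mul_le_mul_left _ (natDegree_le_natDegree (minpoly.min K ζ hq h))

theorem finDim {G : Type*} [Group G] [Finite G] {χ : G → ℂ} (hχ : IsCharacter G χ) :
    FiniteDimensional ℚ (adjoin ℚ (Set.range χ)) :=
  finiteDimensional_adjoin (by rintro _ ⟨g, rfl⟩; exact (hχ.isIntegral g).tower_top)

theorem exists_prim {G : Type*} [Group G] [Finite G] {χ : G → ℂ} (hχ : IsCharacter G χ)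
    (hf : charKer χ = ⊥) {p k : ℕ} (hp : p.Prime) {u : G} (hu : orderOf u = p ^ (k + 1)) :
    ∃ (μ : Fin (charDegree χ) → ℂ) (i : Fin (charDegree χ)), IsPrimitiveRoot (μ i) (p ^ (k + 1)) ∧
      ∀ m : ℕ, χ (u ^ m) = ∑ i, μ i ^ m := by
  have : Fact p.Prime := ⟨hp⟩
  obtain ⟨μ, h1, h2⟩ := hχ.exists_roots_nat u
  by_contra! h
  have h3 : ∀ i, μ i ^ p ^ k = 1 := fun i => by
    by_contra e
    obtain ⟨m, hm⟩ := h μ i (orderOf_eq_prime_pow e (hu ▸ h1 i) ▸ IsPrimitiveRoot.orderOf _)
    exact hm (h2 m)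
  have h4 := hχ.charKer_eq_bot_iff.1 hf (u ^ p ^ k) (by simp [h2, h3, hχ.coe_charDegree])
  exact absurd (Nat.le_of_dvd (pow_pos hp.pos k) (hu ▸ orderOf_dvd_of_pow_eq_one h4))
    (Nat.pow_lt_pow_succ hp.one_lt).not_ge

theorem aux {p : ℕ} [hp : Fact p.Prime] (G : Type*) [Group G] [Finite G] :
    ∀ (a t : ℕ) (χ : G → ℂ), Nat.card G = p ^ a → IsIrrCharacter G χ → charKer χ = ⊥ →
      finrank ℚ (adjoin ℚ (Set.range χ)) ≤ (p - 1) * p ^ t →
      (p - 1) * a + 1 ≤ charDegree χ + (p - 1) * (t + 1) * charDegree χ := by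
  refine GT.card_induction (P := fun G _ _ => ∀ (a t : ℕ) (χ : G → ℂ), Nat.card G = p ^ a →
    IsIrrCharacter G χ → charKer χ = ⊥ → finrank ℚ (adjoin ℚ (Set.range χ)) ≤ (p - 1) * p ^ t →
      (p - 1) * a + 1 ≤ charDegree χ + (p - 1) * (t + 1) * charDegree χ) ?_ G
  intro G _ _ ih a t χ ha hχ hf hd
  classical
  have := Fintype.ofFinite G
  have hG : IsPGroup p G := IsPGroup.of_card ha
  have := finDim hχ.isCharacter
  have hp1 : 0 < p - 1 := Nat.sub_pos_of_lt hp.out.one_lt
  have hmem : ∀ g, χ g ∈ adjoin ℚ (Set.range χ) := fun g => subset_adjoin _ _ ⟨g, rfl⟩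
  by_cases h : ∀ A : Subgroup G, A.Normal → IsElementaryAbelian p A → Nat.card A ≠ p ^ 2
  · rcases GT.PG.isCyclic_or_maxTwo_of_no_normal_elementary_sq hG h with hc | ⟨rfl, m, u, b, hm⟩
    · have h1 := hχ.isCharacter.charDegree_eq_one_iff.2 (hχ.apply_one_eq_one_of_comm
        fun a b => (IsCyclic.isMulCommutative (α := G)).is_comm.comm a b)
      obtain _ | a := a
      · simp [h1]
      obtain ⟨u, hu⟩ := isCyclic_iff_exists_orderOf_eq_natCard.1 hc
      obtain ⟨μ, i, h2, h3⟩ := exists_prim hχ.isCharacter hf hp.out (hu.trans ha)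
      have h4 := totient_le _ h2 (pow_pos hp.out.pos _) (monic_X_sub_C ⟨χ u, hmem u⟩) (by
        have : Subsingleton (Fin (charDegree χ)) := h1 ▸ inferInstance
        simpa [sub_eq_zero, Fintype.sum_subsingleton _ i] using (h3 1).symm)
      rw [natDegree_X_sub_C, mul_one, Nat.totient_prime_pow_succ hp.out, mul_comm] at h4
      have := (Nat.pow_le_pow_iff_right hp.out.one_lt).1 (Nat.le_of_mul_le_mul_left (h4.trans hd) hp1)
      rw [h1, mul_one, add_comm]
      gcongr
    · have h1 : charDegree χ = 2 := le_antisymm (hm.index_eq ▸ hχ.charDegree_le_index_of_comm _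
        fun a ha b hb => (setLike_mul_comm ha hb))
        (hχ.two_le_charDegree fun e => hm.not_isMulCommutative ⟨⟨fun a b => by
          have := (hχ.apply_one_eq_one_iff_commutator_le.1 e).trans hf.le
            (Subgroup.commutator_mem_commutator (Subgroup.mem_top a) (Subgroup.mem_top b))
          exact commutatorElement_eq_one_iff_mul_comm.1 this⟩⟩)
      obtain ⟨μ, i, h2, h3⟩ := exists_prim hχ.isCharacter hf hp.out hm.orderOf_eq
      have h4 := totient_le _ h2 (by positivity) (q := X ^ 2 - C ⟨χ u, hmem u⟩ * X +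
        C ((⟨χ u, hmem u⟩ ^ 2 - ⟨χ (u ^ 2), hmem _⟩) / 2)) (by monicity!) (by
          have h5 := h3 1
          have h6 := h3 2
          rw [pow_one] at h5
          simp only [map_add, map_sub, map_mul, aeval_X, aeval_C, map_div₀, map_pow,
            map_ofNat, IntermediateField.algebraMap_apply, h5, h6]
          clear h2 h3 h5 h6
          generalize charDegree χ = n at *
          subst h1
          fin_cases i <;> simp <;> ring)
      have h5 : 2 ^ m ≤ 2 ^ (t + 1) := by
        rw [Nat.totient_prime_pow_succ Nat.prime_two] at h4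
        refine (by simpa using h4 : 2 ^ m ≤ _).trans (Nat.mul_le_mul (by simpa using hd) ?_)
        compute_degree
      have := (Nat.pow_le_pow_iff_right one_lt_two).1 h5
      have := hm.eq_of_card ha
      rw [h1]
      omega
  push Not at h
  obtain ⟨A, hA, hAe, hAc⟩ := h
  have := Fintype.ofFinite A
  obtain ⟨lam, hl, hl'⟩ := exists_irr_under A hχ
  set T := inertia A lam with hT
  have hAT : A ≤ T := le_inertia hl.isClassFunction
  have := Fintype.ofFinite T
  obtain ⟨ψ, hψ, h1, h2, -⟩ := clifford_corr_surj hl hT hAT hχ hl'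
  have hl1 := hl.apply_one_eq_one_of_comm fun a b => Subtype.ext (hAe.comm a.2 b.2)
  have hTt : T ≠ ⊤ := fun e => by
    have h3 := res_eq_smul_of_invariant hχ hl (inertia_eq_top_iff.1 e) hl'
    have h4 : A ≤ Subgroup.center G := fun x hx => by
      rw [← hχ.charCenter_eq_center hf, hχ.isCharacter.mem_charCenter_iff_norm]
      refine (congrArg norm (congrFun h3 ⟨x, hx⟩)).trans (Eq.trans ?_ (congrArg norm (congrFun h3 1)).symm)
      simp [hl.isCharacter.norm_eq_one_of_apply_one hl1]
    have := hχ.isCyclic_center hf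
    have := hAe.isCyclic_iff.1 (Subgroup.isCyclic_of_le h4)
    rw [hAc] at this
    exact absurd this (by nlinarith [hp.out.one_lt])
  have hCT : Subgroup.centralizer (A : Set G) ≤ T := fun g hg => conjChar_of_mem_centralizer lam hg
  have hC := FT.b4_relIndex_cent_le (H := ⊤) hAe.isPGroup (hG.to_subgroup _)
    (by rw [Subgroup.normalizer_eq_top]) hAc.le
  rw [Subgroup.relIndex_top_right] at hC
  have hTi : T.index = p := by
    obtain ⟨j, hj⟩ := hG.index T
    refine le_antisymm ((Subgroup.index_antitone hCT).trans hC) (hj ▸ Nat.le_self_pow (fun e => hTt ?_) p)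
    rw [← Subgroup.index_eq_one, hj, e, pow_zero]
  have hTn : T.Normal := by
    rw [← Subgroup.eq_of_le_of_card_ge hCT (Nat.le_of_mul_le_mul_right (by
      rw [← hTi, T.card_mul_index, ← Subgroup.card_mul_index (Subgroup.centralizer (A : Set G))]
      exact Nat.mul_le_mul_left _ (hTi ▸ hC)) hp.out.pos)]
    infer_instance
  have hle : adjoin ℚ (Set.range ψ) ≤ adjoin ℚ (Set.range χ) := by
    refine (galois_adjoin_le_iff (by
      rintro _ ⟨g, rfl⟩; exact (hψ.isCharacter.isIntegral g).tower_top)).2 fun σ hσ => ?_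
    replace hσ : ∀ g, σ (χ g) = χ g := fun g => hσ _ ⟨g, rfl⟩
    have hζ : ∀ ζ : ℂ, ζ ^ p = 1 → σ ζ = ζ := by
      have : Nontrivial G := not_subsingleton_iff_nontrivial.1 fun _ => hTt (Subsingleton.elim _ _)
      obtain ⟨l, h3, h4⟩ := hχ.exists_center_hom
      obtain ⟨k, hk0, hk⟩ := (hG.to_subgroup _).nontrivial_iff_card.1 hG.center_nontrivial
      obtain ⟨z, hz⟩ := exists_prime_orderOf_dvd_card' p (hk ▸ dvd_pow_self p hk0.ne')
      have h5 : orderOf (l z : ℂ) = p := by
        rw [orderOf_units, orderOf_injective l ((MonoidHom.ker_eq_bot_iff l).1 (by simp [h4, hf])), hz]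
      have h6 := hσ (z * 1)
      rw [h3, map_mul, hσ, mul_left_inj' hχ.apply_one_ne_zero] at h6
      intro ζ hζ
      have := NeZero.mk hp.out.ne_zero
      obtain ⟨i, -, rfl⟩ := (h5 ▸ IsPrimitiveRoot.orderOf (l z : ℂ)).eq_pow_of_pow_eq_one hζ
      rw [map_pow, h6]
    have h3 : ∀ x, σ.toRingHom (lam x) = lam x := fun x =>
      hl.isCharacter.galois_apply_of_fix σ.toRingHom hζ (Subtype.ext (hAe.2 x x.2))
    have h4 : classInner (fun t : T => χ t) ψ ≠ 0 := by
      rw [← classInner_indFun_right T ψ hχ.isClassFunction, h2, hχ.classInner_self]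
      exact one_ne_zero
    have h5 := clifford_corr_unique hl hT hAT hχ (hψ.galois σ.toRingHom) hψ (by
      have := hl.isGeneralizedCharacter.classInner_galois σ.toRingHom fun n : A => ψ ⟨n, hAT n.2⟩
      simp only [h3] at this
      exact this ▸ (_root_.map_ne_zero _).2 h1) h1 (by
      have := hψ.isGeneralizedCharacter.classInner_galois σ.toRingHom fun t : T => χ t
      simp only [show ∀ g, σ.toRingHom (χ g) = χ g from hσ] at this
      exact this ▸ (_root_.map_ne_zero _).2 h4) h4
    rintro _ ⟨g, rfl⟩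
    exact congrFun h5 g
  have := hψ.isCharacter.charKer_normal
  obtain ⟨φ, hφ, h3, h4⟩ := hψ.exists_faithful_quotient _ rfl
  obtain ⟨a', ha'⟩ := (hG.to_subgroup T).index (charKer ψ)
  have h5 := ih _ ((Subgroup.index_dvd_card (charKer ψ) |> Nat.le_of_dvd Nat.card_pos).trans_lt
    (by rw [← T.card_mul_index, hTi]; exact lt_mul_of_one_lt_right Nat.card_pos hp.out.one_lt)) a' t φ ha' hφ h3 (by
      rw [(QuotientGroup.mk_surjective.range_comp φ).symm.trans (congrArg _ h4.symm)]
      exact (finrank_le_of_le_right hle).trans hd)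
  have h6 : ⨅ q : G ⧸ T, charKer (conjChar q.out ψ) = ⊥ := eq_bot_iff.2 fun x hx => by
    have h6 : ∀ g : G, conjChar g ψ x = ψ 1 := fun g => by
      obtain ⟨s, hs⟩ := QuotientGroup.mk_out_eq_mul T g
      have := apply_eq_of_mem_charKer (Subgroup.mem_iInf.1 hx g)
      rwa [hs, conjChar_mul, conjChar_of_mem (isClassFunction_conjChar hψ.isClassFunction g) s.2,
        conjChar_apply_one] at this
    refine Subtype.ext (hχ.isCharacter.charKer_eq_bot_iff.1 hf x ?_)
    rw [← h2]
    refine (congrFun (res_indFun_eq_sum_conjChar ψ) x).trans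
      (Eq.trans ?_ (congrFun (res_indFun_eq_sum_conjChar ψ) 1).symm)
    simp only [Pi.smul_apply, Finset.sum_apply, h6, conjChar_apply_one]
  have h7 := Subgroup.index_iInf_le fun q : G ⧸ T => charKer (conjChar q.out ψ)
  rw [h6, Subgroup.index_bot, Finset.prod_congr rfl (g := fun _ => p ^ a') fun q _ => by
    rw [conjChar_eq_comp, ← ha']
    exact (congrArg _ (charKer_comp_of_surjective ψ (MulAut.conjNormal q.out).toMonoidHom
      (MulAut.conjNormal q.out).surjective)).trans
      (Subgroup.index_comap_of_surjective _ (MulAut.conjNormal q.out).surjective),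
    Finset.prod_const, Finset.card_univ, ← Nat.card_eq_fintype_card, ← Subgroup.index, hTi] at h7
  have h8 : a ≤ a' * p + 1 := by
    rw [← Nat.pow_le_pow_iff_right hp.out.one_lt, ← ha, ← T.card_mul_index, hTi, pow_succ, pow_mul]
    exact Nat.mul_le_mul_right _ h7
  rw [← h2, Deg.charDegree_indFun T hψ.isCharacter, hTi, show charDegree ψ = charDegree φ from
    charDegree_congr (congrFun h4 1)]
  obtain ⟨q, hq⟩ : ∃ q, p = q + 1 := ⟨p - 1, by omega⟩
  subst hq
  rw [Nat.add_sub_cancel] at h5 ⊢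
  nlinarith [Nat.mul_le_mul_left q h8, Nat.mul_le_mul_left (q + 1) h5]


end

/-- Let P be a finite p-group of order p^a with a > 0, and χ a faithful irreducible character of P of degree f whose field of values ℚ(χ) has degree (p − 1)·p^t over ℚ. Then a ≤ (f − 1)/(p − 1) + (t + 1)·f; in integer form, (p − 1)·a ≤ (f − 1) + (p − 1)(t + 1)·f. -/
theorem result {P : Type*} [Group P] [Finite P] (p a : ℕ) (hp : p.Prime) (ha : 0 < a) (hP : Nat.card P = p ^ a) (χ : Cfsg.IrrCharacter P) (hfaith : ∀ g : P, (χ : P → ℂ) g = (χ : P → ℂ) 1 → g = 1) (f t : ℕ) (hf : Cfsg.charDegree (χ : P → ℂ) = f) (hfield : Module.finrank ℚ (IntermediateField.adjoin ℚ (Set.range (χ : P → ℂ))) = (p - 1) * p ^ t) : (p - 1) * a ≤ (f - 1) + (p - 1) * (t + 1) * f := by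
  have : Fact p.Prime := ⟨hp⟩
  have := aux P a t χ hP χ.2 (χ.2.isCharacter.charKer_eq_bot_iff.2 hfaith) hfield.le
  have := χ.2.charDegree_pos
  subst hf
  omega

end Cfsg.Agent.S4489
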