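import Mathlib
import Cfsg.Statements.S4490
import Cfsg.Agent.Blk.PB0
import Cfsg.Agent.Blk.DefectCard
import Cfsg.Agent.Blk.Cover

set_option autoImplicit false
open Cfsg

namespace Cfsg.Agent.S4490

open Cfsg.Agent.Ch Cfsg.Agent.Blk.Om

/-- Let G be a finite group and M a maximal ideal of the algebraic integers containing 2. Every 2-block B of G whose defect groups are the Sylow 2-subgroups of G (a block of full defect) and which is not the principal block is different from its complex-conjugate block, the block formed by the complex conjugates of the members of B. -/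
theorem result {G : Type*} [Group G] [Finite G] (M : Ideal Cfsg.AlgInt) (hM : Cfsg.IsPModular 2 M) (B : Set (Cfsg.IrrCharacter G)) (hB : Cfsg.IsPBlock M B) (P : Sylow 2 G) (hfull : Cfsg.IsDefectGroup 2 M B (P : Subgroup G)) (hnp : B ≠ Cfsg.principalBlock M G) : {ψ : Cfsg.IrrCharacter G | ∃ χ ∈ B, (ψ : G → ℂ) = fun g => (starRingEnd ℂ) ((χ : G → ℂ) g)} ≠ B := by
  haveI := hM.isMaximal
  haveI : Fact (Nat.Prime 2) := ⟨Nat.prime_two⟩
  intro h
  obtain ⟨χ, hχ, hodd⟩ := (hB.blockDefect_eq_iff hM).1 ((hB.isDefectGroup_sylow_iff hM P).1 hfull)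
  have h1 : (⟨_, χ.2.complexConj⟩ : IrrCharacter G) ∈ B := by
    rw [← h]; exact ⟨χ, hχ, rfl⟩
  have h2 := Blk.P0.mem_of_odd_degree hM hodd (hB.sameBlock hχ h1) fun y _ =>
    (χ.isCharacter.apply_inv y).symm
  exact hnp (hB.eq_of_mem Blk.isPBlock_principalBlock hχ h2)

end Cfsg.Agent.S4490
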