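import Mathlib
import Cfsg.Statements.S4491
import Cfsg.Agent.Blk.Contrib2
import Cfsg.Agent.Ch.Mackey

set_option autoImplicit false
open Cfsg

namespace Cfsg.Agent.S4491

open Cfsg.Agent.Ch Cfsg.Agent.Blk.Om

/-- Let B be a p-block of defect d of the finite group G (relative to a maximal ideal M of the algebraic integers containing p), and let p^a be the p-part of the order of G. Then the exact power of p dividing the sum of the squares of the degrees of the irreducible characters in B is p^(2a − d). -/
theorem result {G : Type*} [Group G] [Finite G] (p : ℕ) [Fact p.Prime] (M : Ideal Cfsg.AlgInt) (hM : Cfsg.IsPModular p M) (B : Set (Cfsg.IrrCharacter G)) (hB : Cfsg.IsPBlock M B) : (∑ᶠ χ ∈ B, Cfsg.charDegree (χ : G → ℂ) ^ 2).factorization p = 2 * (Nat.card G).factorization p - Cfsg.blockDefect p B := by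
  classical
  have hp : p.Prime := Fact.out
  haveI := hM.isMaximal
  haveI := Fintype.ofFinite G
  obtain ⟨χ, hχ, h0⟩ := exists_height_zero (p := p) (block_nonempty hB)
  obtain ⟨S⟩ : Nonempty (Sylow p G) := inferInstance
  haveI := Fintype.ofFinite (S : Subgroup G)
  set π : G → ℂ := indFun (S : Subgroup G) (fun _ => 1) with hπ
  have hπc : IsCharacter G π := isCharacter_indFun _ IsCharacter.one
  obtain ⟨m, hm, hsum⟩ := hπc.exists_mult
  have hG := natCard_ne_zero G
  set i : ℕ := (S : Subgroup G).index with hi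
  have hi0 : (i : ℂ) ≠ 0 := Nat.cast_ne_zero.2 Subgroup.index_ne_zero_of_finite
  have hreg : pRegularPart p π = ((i : ℂ) / Nat.card G) • regChar G := by
    ext x
    by_cases hx : x = 1
    · subst hx
      rw [pRegularPart_one hp, hπ, indFun_one, Pi.smul_apply, regChar_one, smul_eq_mul]
      field_simp
      rfl
    · rw [Pi.smul_apply, regChar_of_ne hx, smul_zero, pRegularPart_apply]
      split_ifs with h
      · rfl
      · refine indFun_eq_zero_of_forall_not_mem _ _ fun y hy => h ?_
        obtain ⟨k, hk⟩ := IsPGroup.iff_orderOf.1 S.isPGroup' ⟨_, hy⟩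
        rw [← Subgroup.orderOf_coe] at hk
        have e : orderOf (y * x * y⁻¹) = orderOf x := orderOf_conj_eq x y
        have e' : orderOf (y⁻¹ * x * y) = orderOf x := by simpa using orderOf_conj_eq x y⁻¹
        simp only [e, e'] at hk
        rw [hk]
        refine dvd_pow_self p fun h0 => hx ?_
        rw [h0, pow_zero] at hk
        exact orderOf_eq_one_iff.1 hk
  -- the basic relation
  have hA : ∀ ψ : IrrCharacter G, ∑ η : IrrCharacter G,
      (m η : ℂ) * classInner (pRegularPart p (η : G → ℂ)) (ψ : G → ℂ) =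
        i / Nat.card G * (ψ : G → ℂ) 1 := by
    intro ψ
    have h1 : classInner (pRegularPart p π) (ψ : G → ℂ) = i / Nat.card G * (ψ : G → ℂ) 1 := by
      rw [hreg, classInner_smul_left, classInner_regChar_left, ψ.isCharacter.conj_apply_one]
    rw [← h1]
    conv_rhs => rw [hsum, pRegularPart_sum, classInner_sum_left]
    refine Finset.sum_congr rfl fun η _ => ?_
    rw [← Nat.cast_smul_eq_nsmul ℂ, pRegularPart_smul, classInner_smul_left]
  -- the block idempotent is supported on regular elements
  have hBz : ∀ η : IrrCharacter G, ∑ ψ : IrrCharacter G, (if ψ ∈ B then (ψ : G → ℂ) 1 *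
      classInner (pRegularPart p (η : G → ℂ)) (ψ : G → ℂ) else 0) =
        if η ∈ B then (η : G → ℂ) 1 else 0 := by
    intro η
    rw [← sum_blockCoeff_mul]
    have h1 : ∑ g, blockCoeff B g * pRegularPart p (η : G → ℂ) g =
        ∑ g, blockCoeff B g * (η : G → ℂ) g := by
      refine Finset.sum_congr rfl fun g _ => ?_
      by_cases hg : p ∣ orderOf g
      · simp [blockCoeff_eq_zero_of_dvd hM hB hg]
      · rw [pRegularPart_of_not_dvd _ hg]
    rw [h1, ← apply_one_mul_om η.2.apply_one_ne_zero, om_blockCoeff]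
    split_ifs <;> simp
  set N : ℕ := ∑ η : IrrCharacter G, if η ∈ B then m η * charDegree (η : G → ℂ) else 0 with hN
  set D : ℕ := ∑ η : IrrCharacter G, if η ∈ B then charDegree (η : G → ℂ) ^ 2 else 0 with hD
  have hND : Nat.card G * N = i * D := by
    have h1 : (N : ℂ) = ∑ η : IrrCharacter G, m η * if η ∈ B then (η : G → ℂ) 1 else 0 := by
      rw [hN]; push_cast
      refine Finset.sum_congr rfl fun η _ => ?_
      rw [η.2.coe_charDegree]; split_ifs <;> simp
    have h2 : (N : ℂ) = i / Nat.card G * D := by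
      rw [h1]
      simp only [← hBz, Finset.mul_sum]
      rw [Finset.sum_comm, hD]
      push_cast
      rw [Finset.mul_sum]
      refine Finset.sum_congr rfl fun ψ _ => ?_
      split_ifs
      · rw [ψ.2.coe_charDegree, sq, ← mul_assoc, ← hA, Finset.sum_mul]
        exact Finset.sum_congr rfl fun η _ => by ring
      · simp
    have h3 : ((Nat.card G * N : ℕ) : ℂ) = (i * D : ℕ) := by
      push_cast; rw [h2]; field_simp
    exact_mod_cast h3
  -- `N / χ 1` is a unit
  have hχ1 := χ.2.apply_one_ne_zero
  have hz := isClassFunction_zReg (p := p) χ.isClassFunction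
  have hzR := memLocalRing_zReg (p := p) (M := M) χ.isGeneralizedCharacter
  have hdiv : ∀ η ∈ B, MemLocalRing M ((η : G → ℂ) 1 / (χ : G → ℂ) 1) := fun η hη => by
    rw [degree_div_memLocalRing_iff hM η.2 χ.2, (blockHeight_eq_zero_iff hχ).1 h0]
    exact minVal_le hη
  have hNeq : (N : ℂ) / charDegree (χ : G → ℂ) =
      ∑ η : IrrCharacter G, if η ∈ B then m η * ((η : G → ℂ) 1 / (χ : G → ℂ) 1) else 0 := by
    rw [hN, χ.2.coe_charDegree]; push_cast
    rw [Finset.sum_div]
    refine Finset.sum_congr rfl fun η _ => ?_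
    rw [η.2.coe_charDegree]; split_ifs
    · ring
    · simp
  have hNR : MemLocalRing M ((N : ℂ) / charDegree (χ : G → ℂ)) := by
    rw [hNeq]
    refine MemLocalRing.sum fun η _ => ?_
    split_ifs with hη
    · exact (MemLocalRing.natCast _).mul (hdiv η hη)
    · exact MemLocalRing.zero
  have hcong : MemLocalIdeal M ((i : ℂ) - (N : ℂ) / charDegree (χ : G → ℂ) *
      om (χ : G → ℂ) (zReg p (χ : G → ℂ))) := by
    have h1 : (i : ℂ) = ∑ η : IrrCharacter G, if η ∈ B then
        m η * ((η : G → ℂ) 1 / (χ : G → ℂ) 1) * om (η : G → ℂ) (zReg p (χ : G → ℂ)) else 0 := by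
      have h2 : (i : ℂ) = Nat.card G / (χ : G → ℂ) 1 * (i / Nat.card G * (χ : G → ℂ) 1) := by
        field_simp
      rw [h2, ← hA, Finset.mul_sum]
      refine Finset.sum_congr rfl fun η _ => ?_
      split_ifs with hη
      · rw [contr_eq_om]; field_simp
      · rw [contr_symm, contr_eq_zero_of_not_mem hM hB hχ hη]; simp
    rw [h1, hNeq, Finset.sum_mul, ← Finset.sum_sub_distrib]
    refine MemLocalIdeal.sum fun η _ => ?_
    split_ifs with hη
    · rw [← mul_sub]
      exact MemLocalIdeal.mul_left ((MemLocalRing.natCast _).mul (hdiv η hη))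
        (block_om_sub hB hη hχ hz hzR)
    · simpa using MemLocalIdeal.zero
  have hNU : ¬ MemLocalIdeal M ((N : ℂ) / charDegree (χ : G → ℂ)) := by
    intro h
    have := hcong.add (h.mul_right (memLocalRing_om_zReg (p := p) χ χ.isGeneralizedCharacter))
    rw [sub_add_cancel, hM.natCast_mem_iff] at this
    exact S.not_dvd_index this
  have hN0 : N ≠ 0 := by
    rintro h
    rw [h] at hNU
    exact hNU (by simpa using MemLocalIdeal.zero)
  rw [hM.natCast_div_memLocalIdeal_iff hN0 χ.2.charDegree_pos.ne'] at hNU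
  rw [hM.natCast_div_memLocalRing_iff hN0 χ.2.charDegree_pos.ne'] at hNR
  have hG0 : Nat.card G ≠ 0 := Nat.card_pos.ne'
  have hi0' : i ≠ 0 := Subgroup.index_ne_zero_of_finite
  have hD0 : D ≠ 0 := by
    intro h
    rw [h, mul_zero] at hND
    exact mul_ne_zero hG0 hN0 hND
  have hfac : (Nat.card G * N).factorization p = (i * D).factorization p := by rw [hND]
  have hip : i.factorization p = 0 := Nat.factorization_eq_zero_of_not_dvd S.not_dvd_index
  rw [Nat.factorization_mul hG0 hN0, Nat.factorization_mul hi0' hD0, Finsupp.add_apply,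
    Finsupp.add_apply, hip] at hfac
  have h5 := (blockHeight_eq_zero_iff hχ).1 h0
  have h6 := minVal_add_blockDefect (p := p) (block_nonempty hB)
  rw [finsum_mem_irr_eq_sum, ← hD]
  omega

end Cfsg.Agent.S4491
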