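import Cfsg.Statements.S4493
import Cfsg.Agent.Deg.Ito
-- import your own Cfsg.Agent.* helpers here

set_option autoImplicit false
open Cfsg

namespace Cfsg.Agent.S4493

open Cfsg.Agent.Ch Cfsg.Agent.Deg
open scoped ComplexConjugate

/-- Let G be a finite solvable group and p a prime. Then G has a normal abelian Sylow p-subgroup if and only if no irreducible character degree of G is divisible by p. -/
theorem result {G : Type*} [Group G] [Finite G] (hsolv : Group.IsSolvable G) (p : ℕ) (hp : p.Prime) : (∃ P : Subgroup G, P.Normal ∧ (∀ x ∈ P, ∀ y ∈ P, x * y = y * x) ∧ IsPGroup p P ∧ ¬ p ∣ P.index) ↔ ∀ χ : Cfsg.IrrCharacter G, ¬ p ∣ Cfsg.charDegree (χ : G → ℂ) := by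
  have : Fact p.Prime := ⟨hp⟩
  have hG : IsPSolvable p G := GT.isPSolvable_of_isSolvable hsolv
  constructor
  · rintro ⟨P, hn, hc, -, hi⟩ χ hd
    exact hi (hd.trans (χ.2.charDegree_dvd_index_of_comm P hc))
  · intro h
    obtain ⟨P⟩ : Nonempty (Sylow p G) := inferInstance
    exact ⟨P, ito_normal hG (fun χ hχ => h ⟨χ, hχ⟩) P, fun x hx y hy => congrArg Subtype.val
      (ito_comm hG (fun χ hχ => h ⟨χ, hχ⟩) P ⟨x, hx⟩ ⟨y, hy⟩), P.isPGroup', P.not_dvd_index⟩

end Cfsg.Agent.S4493
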