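import Mathlib
-- Template for statement S4495 (row 4495; see /opt/grader/pristine/manifest.json for weights).
-- Copy to Cfsg/Agent/S4495.lean and replace the sorry. The statement below is byte-identical to the frozen
-- statement Cfsg.CfsgFrozen.S4495 (Cfsg/Statements/S4495.lean; the theorem Cfsg.chr_self_centralizing_prime_order_element_abelianization_bound);
-- the grader kernel-checks Cfsg.Agent.S4495.result against that frozen type. Keep the theorem IN THIS FILE
-- (a `result` declared elsewhere and merely imported here is not credited); helpers may live anywhere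
-- under Cfsg/Agent/.
import Cfsg.Statements.S4495
import Cfsg.Agent.Blk.OneSelf

set_option autoImplicit false
set_option linter.style.haveILetI false
set_option linter.unusedVariables false
open Cfsg

namespace Cfsg.Agent.S4495


/-- Let the finite group G contain an element x of prime order p with C_G(x) = ⟨x⟩, and let t be the number of conjugacy classes of elements of order p. If t ≠ p − 1 then the commutator subgroup has index at most (p − 1)/t; if t = p − 1 it has index exactly p. -/
theorem result {G : Type*} [Group G] [Finite G] (p : ℕ) (hp : p.Prime) (x : G) (hx : orderOf x = p) (hC : Subgroup.centralizer ({x} : Set G) = Subgroup.zpowers x) (t : ℕ) (ht : Nat.card {C : ConjClasses G // ∃ g ∈ C.carrier, orderOf g = p} = t) : (t ≠ p - 1 → (commutator G).index * t ≤ p - 1) ∧ (t = p - 1 → (commutator G).index = p) := by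
  open Cfsg.Agent.Blk.One Subgroup in
  haveI := Fact.mk hp
  set S := selfSetup hx hC
  have hS : S.C = zpowers S.x := rfl
  have h1 := S.card_classes'
  rw [ht] at h1
  have hp1 : 0 < p - 1 := Nat.sub_pos_of_lt hp.one_lt
  refine ⟨fun h => ?_, fun h => (Setup.index_commutator_of_eq_one hS ?_).2⟩
  · have h2 := Setup.index_dvd_of_mem hS _
      (S.x_mem_commutator fun h2 => h (by rw [← h1, h2, mul_one]))
    rw [← h1, mul_comm]
    exact Nat.mul_le_mul_left _ (Nat.le_of_dvd S.relIndex_pos' h2)
  · rw [h] at h1
    exact Nat.eq_of_mul_eq_mul_left hp1 (h1.trans (mul_one _).symm)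

end Cfsg.Agent.S4495
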