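import Mathlib
-- Template for statement S4496 (row 4496; see /opt/grader/pristine/manifest.json for weights).
-- Copy to Cfsg/Agent/S4496.lean and replace the sorry. The statement below is byte-identical to the frozen
-- statement Cfsg.CfsgFrozen.S4496 (Cfsg/Statements/S4496.lean; the theorem Cfsg.chr_self_centralizing_prime_order_element_normal_subgroups);
-- the grader kernel-checks Cfsg.Agent.S4496.result against that frozen type. Keep the theorem IN THIS FILE
-- (a `result` declared elsewhere and merely imported here is not credited); helpers may live anywhere
-- under Cfsg/Agent/.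
import Cfsg.Statements.S4496
import Cfsg.Agent.Blk.OneSelf

set_option autoImplicit false
set_option linter.style.haveILetI false
set_option linter.unusedVariables false
open Cfsg

namespace Cfsg.Agent.S4496


/-- Let the finite group G contain an element x of prime order p with C_G(x) = ⟨x⟩. Then: (a) every normal subgroup of order divisible by p contains the commutator subgroup; (b) every normal subgroup S of order prime to p has order dividing the number of subgroups of order p of G and congruent to 1 modulo p, and in G/S the image of x again has prime order p and commutes only with its own powers. -/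
theorem result {G : Type*} [Group G] [Finite G] (p : ℕ) (hp : p.Prime) (x : G) (hx : orderOf x = p) (hC : Subgroup.centralizer ({x} : Set G) = Subgroup.zpowers x) (S : Subgroup G) [S.Normal] : (p ∣ Nat.card S → commutator G ≤ S) ∧ (¬ p ∣ Nat.card S → Nat.card S ∣ Nat.card {H : Subgroup G // Nat.card H = p} ∧ Nat.card S % p = 1 ∧ orderOf (QuotientGroup.mk x : G ⧸ S) = p ∧ Subgroup.centralizer ({(QuotientGroup.mk x : G ⧸ S)} : Set (G ⧸ S)) = Subgroup.zpowers (QuotientGroup.mk x : G ⧸ S)) := by
  open Cfsg.Agent.Blk.One Subgroup in
  haveI := Fact.mk hp
  set T := selfSetup hx hC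
  have hS : T.C = zpowers T.x := rfl
  refine ⟨fun h => Setup.commutator_le hS S (T.x_mem_of_normal S h), fun h => ⟨?_, ?_,
    T.orderOf_mk h, ((T.quot S h).C_eq.symm.trans (Setup.quot_self hS S h))⟩⟩
  · rw [T.card_subgroups, Setup.index_N_quot hS h]
    exact dvd_mul_right _ _
  · rw [Setup.card_modEq hS h, Nat.mod_eq_of_lt hp.one_lt]

end Cfsg.Agent.S4496
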