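import Mathlib
-- Template for statement S4497 (row 4497; see /opt/grader/pristine/manifest.json for weights).
-- Copy to Cfsg/Agent/S4497.lean and replace the sorry. The statement below is byte-identical to the frozen
-- statement Cfsg.CfsgFrozen.S4497 (Cfsg/Statements/S4497.lean; the theorem Cfsg.chr_self_centralizing_prime_order_element_derived_mod_core_simple);
-- the grader kernel-checks Cfsg.Agent.S4497.result against that frozen type. Keep the theorem IN THIS FILE
-- (a `result` declared elsewhere and merely imported here is not credited); helpers may live anywhere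
-- under Cfsg/Agent/.
import Cfsg.Statements.S4497
import Cfsg.Agent.Blk.OneSelf2

set_option autoImplicit false
set_option linter.style.haveILetI false
set_option linter.unusedVariables false
open Cfsg

namespace Cfsg.Agent.S4497


/-- Let the finite group G contain an element x of prime order p with C_G(x) = ⟨x⟩, let t be the number of conjugacy classes of elements of order p, and let S* = O_{p′}(G) be the largest normal subgroup of order prime to p. Then S* ≤ G′; if t ≠ p − 1 the quotient G′/S* is simple (in particular non-trivial); if t = p − 1 then G′ = S*. -/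
theorem result {G : Type*} [Group G] [Finite G] (p : ℕ) (hp : p.Prime) (x : G) (hx : orderOf x = p) (hC : Subgroup.centralizer ({x} : Set G) = Subgroup.zpowers x) (t : ℕ) (ht : Nat.card {C : ConjClasses G // ∃ g ∈ C.carrier, orderOf g = p} = t) : Cfsg.pPrimeCore p G ≤ commutator G ∧ (t ≠ p - 1 → ∀ h : ((Cfsg.pPrimeCore p G).subgroupOf (commutator G)).Normal, IsSimpleGroup (↥(commutator G) ⧸ (Cfsg.pPrimeCore p G).subgroupOf (commutator G))) ∧ (t = p - 1 → commutator G = Cfsg.pPrimeCore p G) := by
  open Cfsg.Agent.Blk.One Subgroup in
  haveI := Fact.mk hp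
  haveI := Fintype.ofFinite G
  set S := selfSetup hx hC
  have hS : S.C = zpowers S.x := rfl
  have h1 := S.card_classes'
  rw [ht] at h1
  have h2 := Setup.le_commutator hS (GT.not_dvd_card_pPrimeCore (G := G) hp)
  rw [Ne, Setup.eq_one_iff h1]
  refine ⟨h2, fun h hn => ?_, fun h => le_antisymm (GT.le_pPrimeCore_of_not_dvd hp
    (Setup.index_commutator_of_eq_one hS h).1) h2⟩
  have hxc := S.x_mem_commutator h
  haveI : Nontrivial (↥(commutator G) ⧸ (Cfsg.pPrimeCore p G).subgroupOf (commutator G)) := by
    rw [QuotientGroup.nontrivial_iff, Ne, subgroupOf_eq_top]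
    exact fun h3 => GT.not_dvd_card_pPrimeCore hp (S.dvd_card_of_mem (h3 hxc))
  refine ⟨fun L hL => ?_⟩
  haveI := hL.comap (QuotientGroup.mk' _)
  have h3 := map_comap_eq_self_of_surjective (QuotientGroup.mk'_surjective _) L
  rcases Setup.eq_of_normal_in_commutator hS hxc (L.comap (QuotientGroup.mk' _))
    (QuotientGroup.le_comap_mk' _ _) with h4 | h4
  · left
    rw [← h3, h4, QuotientGroup.map_mk'_self]
  · right
    rw [← h3, h4, map_top_of_surjective _ (QuotientGroup.mk'_surjective _)]

end Cfsg.Agent.S4497
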