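import Mathlib
import Cfsg.Statements.S4498
import Cfsg.Agent.Blk.Contrib2

set_option autoImplicit false
open Cfsg

namespace Cfsg.Agent.S4498

open Cfsg.Agent.Ch Cfsg.Agent.Blk.Om

/-- Let p and q be distinct primes dividing the order of the finite group G, and suppose G has no element of order p·q. Fix maximal ideals M_p over p and M_q over q of the algebraic integers. Then the principal p-block and the principal q-block of G have a non-principal irreducible character in common. -/
theorem result {G : Type*} [Group G] [Finite G] (p q : ℕ) [Fact p.Prime] [Fact q.Prime] (hpq : p ≠ q) (hp : p ∣ Nat.card G) (hq : q ∣ Nat.card G) (hno : ∀ g : G, orderOf g ≠ p * q) (Mp Mq : Ideal Cfsg.AlgInt) (hMp : Cfsg.IsPModular p Mp) (hMq : Cfsg.IsPModular q Mq) : ∃ χ : Cfsg.IrrCharacter G, (χ : G → ℂ) ≠ (fun _ => 1) ∧ χ ∈ Cfsg.principalBlock Mp G ∧ χ ∈ Cfsg.principalBlock Mq G := by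
  classical
  have hpp : p.Prime := Fact.out
  have hqq : q.Prime := Fact.out
  haveI := hMp.isMaximal
  haveI := hMq.isMaximal
  haveI := Fintype.ofFinite G
  by_contra hcon
  push Not at hcon
  set a : G → ℂ := pRegularPart p (irrOne G : G → ℂ) with ha
  set b : G → ℂ := pRegularPart q (irrOne G : G → ℂ) with hb
  have hacf : IsClassFunction G a := isClassFunction_pRegularPart (irrOne G).isClassFunction
  have h1 : classInner a b = classInner a (fun _ => 1) * (starRingEnd ℂ) (classInner b fun _ => 1) := by
    rw [hacf.classInner_eq_sum, Finset.sum_eq_single (irrOne G)]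
    · rfl
    · intro χ _ hχ
      by_cases h : χ ∈ principalBlock Mp G
      · have h' := hcon χ (fun e => hχ (Subtype.ext e)) h
        rw [contr_eq_zero_of_not_mem hMq isPBlock_principal irrOne_mem_principal h']
        simp
      · rw [contr_eq_zero_of_not_mem hMp isPBlock_principal irrOne_mem_principal h, zero_mul]
    · simp
  -- pass to the complements
  have h2 : classInner ((fun _ => 1) - a) ((fun _ => 1) - b) =
      classInner ((fun _ => 1) - a) (fun _ => 1) *
        (starRingEnd ℂ) (classInner ((fun _ => 1) - b) fun _ => 1) := by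
    simp only [classInner_sub_left, classInner_sub_right, classInner_one_one, h1, map_sub, map_one,
      classInner_conj_symm]
    ring
  have h3 : classInner ((fun _ => 1) - a) ((fun _ => 1) - b) = 0 := by
    refine classInner_eq_zero_of_disjoint fun g => ?_
    by_contra hg
    push Not at hg
    have hp' : p ∣ orderOf g := by
      by_contra h
      exact hg.1 (by simp [ha, pRegularPart_of_not_dvd _ h])
    have hq' : q ∣ orderOf g := by
      by_contra h
      exact hg.2 (by simp [hb, pRegularPart_of_not_dvd _ h])
    have hd : p * q ∣ orderOf g :=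
      ((Nat.coprime_primes hpp hqq).2 hpq).mul_dvd_of_dvd_of_dvd hp' hq'
    exact hno _ (orderOf_pow_orderOf_div (orderOf_pos g).ne' hd)
  have key : ∀ r : ℕ, r.Prime → r ∣ Nat.card G →
      classInner ((fun _ => 1) - pRegularPart r (irrOne G : G → ℂ)) (fun _ => 1) ≠ 0 := by
    intro r hr hrd
    haveI : Fact r.Prime := ⟨hr⟩
    obtain ⟨x, hx⟩ := exists_prime_orderOf_dvd_card' r hrd
    have e : classInner ((fun _ => 1) - pRegularPart r (irrOne G : G → ℂ)) (fun _ => 1) =
        classInner ((fun _ => 1) - pRegularPart r (irrOne G : G → ℂ))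
          ((fun _ => 1) - pRegularPart r (irrOne G : G → ℂ)) := by
      refine classInner_congr_right fun g hg => ?_
      by_cases h : r ∣ orderOf g
      · simp [pRegularPart_of_dvd _ h]
      · exact absurd (by simp [pRegularPart_of_not_dvd _ h]) hg
    rw [e, Ne, classInner_self_eq_zero]
    intro h
    have := congrFun h x
    simp [pRegularPart_of_dvd _ (hx ▸ dvd_rfl : r ∣ orderOf x)] at this
  rw [h3] at h2
  exact mul_ne_zero (key p hpp hp) ((map_ne_zero _).2 (key q hqq hq)) h2.symm

end Cfsg.Agent.S4498
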