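import Mathlib
-- Template for statement S4499 (row 4499; see /opt/grader/pristine/manifest.json for weights).
-- Copy to Cfsg/Agent/S4499.lean and replace the sorry. The statement below is byte-identical to the frozen
-- statement Cfsg.CfsgFrozen.S4499 (Cfsg/Statements/S4499.lean; the theorem Cfsg.blk_degree_divisible_by_near_full_p_power_whole_block);
-- the grader kernel-checks Cfsg.Agent.S4499.result against that frozen type. Keep the theorem IN THIS FILE
-- (a `result` declared elsewhere and merely imported here is not credited); helpers may live anywhere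
-- under Cfsg/Agent/.
import Cfsg.Statements.S4499
import Cfsg.Agent.Blk.OneNear

set_option autoImplicit false
open Cfsg

namespace Cfsg.Agent.S4499


/-- Let G be a finite group whose order has p-part p^a (a ≥ 1), and fix a maximal ideal M of the algebraic integers containing p. If the degree of one irreducible character of a p-block B is divisible by p^(a−1), then the degree of every irreducible character in B is divisible by p^(a−1) (so B has defect at most 1). -/
theorem result {G : Type*} [Group G] [Finite G] (p : ℕ) [Fact p.Prime] (M : Ideal Cfsg.AlgInt) (hM : Cfsg.IsPModular p M) (hpa : p ∣ Nat.card G) (B : Set (Cfsg.IrrCharacter G)) (hB : Cfsg.IsPBlock M B) (χ : Cfsg.IrrCharacter G) (hχ : χ ∈ B) (hdiv : p ^ ((Nat.card G).factorization p - 1) ∣ Cfsg.charDegree (χ : G → ℂ)) (ψ : Cfsg.IrrCharacter G) (hψ : ψ ∈ B) : p ^ ((Nat.card G).factorization p - 1) ∣ Cfsg.charDegree (ψ : G → ℂ) := by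
  have hp := hM.prime
  have h1 := (hp.pow_dvd_iff_le_factorization χ.2.charDegree_pos.ne').1 hdiv
  have h2 := Cfsg.Agent.Blk.One.factorization_le_of_le hM hB hχ hψ (by omega)
  exact (hp.pow_dvd_iff_le_factorization ψ.2.charDegree_pos.ne').2 (by omega)

end Cfsg.Agent.S4499
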