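import Mathlib
-- Template for statement S4500 (row 4500; see /opt/grader/pristine/manifest.json for weights).
-- Copy to Cfsg/Agent/S4500.lean and replace the sorry. The statement below is byte-identical to the frozen
-- statement Cfsg.CfsgFrozen.S4500 (Cfsg/Statements/S4500.lean; the theorem Cfsg.chr_three_prime_order_small_p_exponent_prime_power_degrees);
-- the grader kernel-checks Cfsg.Agent.S4500.result against that frozen type. Keep the theorem IN THIS FILE
-- (a `result` declared elsewhere and merely imported here is not credited); helpers may live anywhere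
-- under Cfsg/Agent/.
import Cfsg.Statements.S4500
import Cfsg.Agent.Blk.OneNear
import Cfsg.Agent.Blk.BlockOrth2
import Cfsg.Agent.Blk.Local2
import Cfsg.Agent.Blk.Idem
import Cfsg.Agent.Ch.Burnside
import Cfsg.Agent.Ch.Linear
import Cfsg.Agent.Ch.Integrality

set_option autoImplicit false
set_option linter.style.haveILetI false
set_option linter.unusedVariables false
open Cfsg

namespace Cfsg.Agent.S4500

open Cfsg.Agent.Ch Cfsg.Agent.Blk in
theorem aux {G : Type*} [Group G] [Finite G] [Nontrivial G] (p q r a b c : ℕ) (hp : p.Prime)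
    (hq : q.Prime) (hr : r.Prime) (hpq : p ≠ q) (hpr : p ≠ r) (ha : a ≤ 2)
    (hG : Nat.card G = p ^ a * q ^ b * r ^ c) :
    ∃ χ : Cfsg.IrrCharacter G, (χ : G → ℂ) ≠ (fun _ => 1) ∧
      ∃ k : ℕ, Cfsg.charDegree (χ : G → ℂ) = q ^ k := by
  classical
  rcases Nat.eq_zero_or_pos a with rfl | ha0
  · have hsol : Group.IsSolvable G :=
      burnside_isSolvable_of_card_eq (a := b) (b := c) hq hr (by simpa using hG)
    have hlt : commutator G < ⊤ := Group.IsSolvable.commutator_lt_top_of_nontrivial G
    obtain ⟨g, -, hg⟩ := SetLike.exists_of_lt hlt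
    obtain ⟨f, hf⟩ := exists_monoidHom_units_ne_one hg
    refine ⟨linIrr f, ?_, 0, ?_⟩
    · intro h
      apply hf
      have := congrFun h g
      rw [linIrr_apply] at this
      exact Units.val_eq_one.1 this
    · rw [pow_zero]
      exact charDegree_of_apply_one (by simp [linIrr_apply])
  by_contra hne
  push Not at hne
  haveI := Fact.mk hp
  obtain ⟨M, hM⟩ := exists_isPModular hp
  obtain ⟨N, hN⟩ := exists_isPModular hr
  haveI := hM.isMaximal
  haveI := hN.isMaximal
  have hpG : p ∣ Nat.card G := by
    rw [hG]; exact ((dvd_pow_self p ha0.ne').mul_right _).mul_right _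
  obtain ⟨y, hy⟩ := exists_prime_orderOf_dvd_card' p hpG
  have hfac : (Nat.card G).factorization p = a := by
    rw [hG, Nat.factorization_mul (mul_ne_zero (pow_ne_zero _ hp.ne_zero) (pow_ne_zero _ hq.ne_zero))
      (pow_ne_zero _ hr.ne_zero),
      Nat.factorization_mul (pow_ne_zero _ hp.ne_zero) (pow_ne_zero _ hq.ne_zero)]
    simp [hp.factorization_pow, hq.factorization_pow, hr.factorization_pow, hpq.symm, hpr.symm]
  have hB : IsPBlock M (principalBlock M G) := isPBlock_principalBlock
  have hnd : ∀ χ ∈ principalBlock M G, ¬ p ∣ charDegree (χ : G → ℂ) := by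
    intro χ hχ hd
    have h1 : 1 ≤ (charDegree (χ : G → ℂ)).factorization p :=
      (hp.dvd_iff_one_le_factorization χ.2.charDegree_pos.ne').1 hd
    have h2 := One.factorization_le_of_le hM hB hχ irrOne_mem_principalBlock (by omega)
    simp at h2
    omega
  have hrd : ∀ χ ∈ principalBlock M G, χ ≠ irrOne G → r ∣ charDegree (χ : G → ℂ) := by
    intro χ hχ h1
    by_contra hr'
    have hd := χ.2.charDegree_dvd_card
    rw [hG, mul_assoc] at hd
    have hd1 := (Nat.Coprime.pow_right a ((Nat.coprime_comm.1 ((hp.coprime_iff_not_dvd).2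
      (hnd χ hχ))))).dvd_of_dvd_mul_left hd
    have hd2 := (Nat.Coprime.pow_right c ((Nat.coprime_comm.1 ((hr.coprime_iff_not_dvd).2
      hr')))).dvd_of_dvd_mul_right hd1
    obtain ⟨k, -, hk⟩ := (Nat.dvd_prime_pow hq).1 hd2
    exact hne χ (fun h => h1 (Subtype.ext h)) k hk
  have h0 := weak_block_orthogonality (x := 1) (y := y) hM hB.blockCoeff_mem
    (by simpa using hp.one_lt.ne') (by rw [hy])
  rw [finsum_mem_irr, ← Finset.add_sum_erase _ _ (Finset.mem_univ (irrOne G))] at h0
  simp only [irrOne_mem_principalBlock, if_true, coe_irrOne, mul_one] at h0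
  have hI : MemLocalIdeal N (∑ χ ∈ Finset.univ.erase (irrOne G),
      if χ ∈ principalBlock M G then (χ : G → ℂ) 1 * (χ : G → ℂ) y⁻¹ else 0) := by
    refine MemLocalIdeal.sum fun χ hχ => ?_
    split_ifs with h
    · refine MemLocalIdeal.mul_right ?_ (MemLocalRing.of_isIntegral (χ.2.isCharacter.isIntegral _))
      rw [← χ.2.coe_charDegree, hN.natCast_mem_iff]
      exact hrd χ h (Finset.ne_of_mem_erase hχ)
    · exact MemLocalIdeal.zero
  have := hI.neg
  rw [← eq_neg_of_add_eq_zero_left h0] at this
  exact MemLocalIdeal.not_one this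


/-- Let G be a non-trivial finite group of order p^a · q^b · r^c with p, q, r distinct primes and a ≤ 2. Then G has a non-principal irreducible character whose degree is a power of q, and a non-principal irreducible character whose degree is a power of r; the power may be the zeroth, so a non-principal linear character serves for both. -/
theorem result {G : Type*} [Group G] [Finite G] [Nontrivial G] (p q r a b c : ℕ) (hp : p.Prime) (hq : q.Prime) (hr : r.Prime) (hpq : p ≠ q) (hpr : p ≠ r) (hqr : q ≠ r) (ha : a ≤ 2) (hG : Nat.card G = p ^ a * q ^ b * r ^ c) : (∃ χ : Cfsg.IrrCharacter G, (χ : G → ℂ) ≠ (fun _ => 1) ∧ ∃ k : ℕ, Cfsg.charDegree (χ : G → ℂ) = q ^ k) ∧ ∃ χ : Cfsg.IrrCharacter G, (χ : G → ℂ) ≠ (fun _ => 1) ∧ ∃ k : ℕ, Cfsg.charDegree (χ : G → ℂ) = r ^ k := by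
  exact ⟨aux p q r a b c hp hq hr hpq hpr ha hG,
    aux p r q a c b hp hr hq hpr hpq ha (by rw [hG]; ring)⟩

end Cfsg.Agent.S4500
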