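import Mathlib
-- Template for statement S4502 (row 4502; see /opt/grader/pristine/manifest.json for weights).
-- Copy to Cfsg/Agent/S4502.lean and replace the sorry. The statement below is byte-identical to the frozen
-- statement Cfsg.CfsgFrozen.S4502 (Cfsg/Statements/S4502.lean; the theorem Cfsg.chr_prime_to_first_power_p_prime_degree_count);
-- the grader kernel-checks Cfsg.Agent.S4502.result against that frozen type. Keep the theorem IN THIS FILE
-- (a `result` declared elsewhere and merely imported here is not credited); helpers may live anywhere
-- under Cfsg/Agent/.
import Cfsg.Statements.S4502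
import Cfsg.Agent.Blk.OneCount

set_option autoImplicit false
set_option linter.style.haveILetI false
set_option linter.unusedVariables false
open Cfsg

namespace Cfsg.Agent.S4502


/-- Let G be a finite group whose order is divisible by the prime p exactly once, and let P be a Sylow p-subgroup. Then the number of irreducible characters of G of degree not divisible by p equals the number of conjugacy classes of the normalizer of P. -/
theorem result {G : Type*} [Group G] [Finite G] (p : ℕ) [Fact p.Prime] (hdiv : p ∣ Nat.card G) (hsq : ¬ p ^ 2 ∣ Nat.card G) (P : Sylow p G) : Nat.card {χ : Cfsg.IrrCharacter G // ¬ p ∣ Cfsg.charDegree (χ : G → ℂ)} = Nat.card (ConjClasses (Subgroup.normalizer ((P : Subgroup G) : Set G))) := by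
  open Cfsg.Agent.Blk.One Subgroup in
  haveI := Fintype.ofFinite G
  obtain ⟨S, -, -, h⟩ := exists_setup P (card_sylow_of_not_sq P hdiv hsq)
  rw [← h]
  exact S.card_not_dvd_eq

end Cfsg.Agent.S4502
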