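import Mathlib
-- Template for statement S4506 (row 4506; see /opt/grader/pristine/manifest.json for weights).
-- Copy to Cfsg/Agent/S4506.lean and replace the sorry. The statement below is byte-identical to the frozen
-- statement Cfsg.CfsgFrozen.S4506 (Cfsg/Statements/S4506.lean; the theorem Cfsg.chr_p_conjugate_count_times_degree_p_part_bound);
-- the grader kernel-checks Cfsg.Agent.S4506.result against that frozen type. Keep the theorem IN THIS FILE
-- (a `result` declared elsewhere and merely imported here is not credited); helpers may live anywhere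
-- under Cfsg/Agent/.
import Cfsg.Statements.S4506
import Cfsg.Agent.Blk.Contrib2
import Cfsg.Agent.Ch.Galois

set_option autoImplicit false
set_option linter.style.haveILetI false
set_option linter.unusedVariables false
open Cfsg

namespace Cfsg.Agent.S4506

open Cfsg.Agent.Ch Cfsg.Agent.Blk.Om in
theorem aux {G : Type*} [Group G] [Fintype G] (p : ℕ) (hp : p.Prime) (χ : IrrCharacter G)
    (S : Finset (IrrCharacter G)) (hχ : χ ∈ S)
    (hreg : ∀ ψ ∈ S, ∀ g, ¬ p ∣ orderOf g → (ψ : G → ℂ) g = (χ : G → ℂ) g)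
    (hgal : ∀ ψ ∈ S, ∃ σ : ℂ ≃+* ℂ, (ψ : G → ℂ) = fun g => σ ((χ : G → ℂ) g)) :
    (S.card * charDegree (χ : G → ℂ)).factorization p ≤ (Nat.card G).factorization p ∧
      (p ^ (Nat.card G).factorization p ∣ S.card * charDegree (χ : G → ℂ) →
        p ^ (Nat.card G).factorization p ∣ charDegree (χ : G → ℂ)) := by
  classical
  haveI := Fact.mk hp
  set a := (Nat.card G).factorization p with ha
  set v := (charDegree (χ : G → ℂ)).factorization p with hv
  have hva : v ≤ a := factorization_charDegree_le χ.2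
  obtain ⟨d, hd⟩ := Nat.exists_eq_add_of_le hva
  choose n hn using fun η : IrrCharacter G =>
    exists_int_pow_mul_contr hp χ η (k := d) (by omega)
  have hp0 : (p : ℂ) ^ d ≠ 0 := pow_ne_zero _ (by exact_mod_cast hp.ne_zero)
  have hS : ∀ ψ ∈ S, n ψ = n χ := by
    intro ψ hψ
    have : classInner (pRegularPart p (χ : G → ℂ)) (ψ : G → ℂ) =
        classInner (pRegularPart p (χ : G → ℂ)) (χ : G → ℂ) := by
      refine classInner_congr_right fun g hg => hreg ψ hψ g fun h => hg ?_
      exact pRegularPart_of_dvd _ h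
    have h2 : (n ψ : ℂ) = n χ := by rw [← hn, ← hn, this]
    exact_mod_cast h2
  have hsq : (p : ℤ) ^ d * n χ = ∑ η, n η ^ 2 := by
    have h1 := contr_self_eq_sum_sq (p := p) χ
    have : ((p : ℤ) ^ d * n χ : ℂ) = ∑ η, ((n η : ℂ)) ^ 2 := by
      push_cast
      rw [← hn χ, h1, Finset.mul_sum, Finset.mul_sum]
      refine Finset.sum_congr rfl fun η _ => ?_
      rw [← hn η]; ring
    exact_mod_cast this
  have hexp : ∀ g, (p : ℂ) ^ d * pRegularPart p (χ : G → ℂ) g =
      ∑ η, (n η : ℂ) * (η : G → ℂ) g := by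
    intro g
    rw [(isClassFunction_pRegularPart χ.2.isClassFunction).apply_eq_sum_irr g, Finset.mul_sum]
    refine Finset.sum_congr rfl fun η _ => ?_
    rw [← hn η]; ring
  have hsplit : ∑ η, n η ^ 2 = S.card * n χ ^ 2 + ∑ η ∈ Sᶜ, n η ^ 2 := by
    rw [← Finset.sum_add_sum_compl S, Finset.sum_congr rfl fun ψ hψ => by rw [hS ψ hψ]]
    simp
  have hnn : 0 ≤ ∑ η ∈ Sᶜ, n η ^ 2 := Finset.sum_nonneg fun _ _ => sq_nonneg _
  have hn0 : n χ ≠ 0 := by
    intro h0
    rw [h0, mul_zero] at hsq
    have hall := (Finset.sum_eq_zero_iff_of_nonneg fun η _ => sq_nonneg (n η)).1 hsq.symm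
    have := hexp 1
    rw [pRegularPart_one hp, Finset.sum_eq_zero fun η hη => by
      rw [pow_eq_zero_iff two_ne_zero |>.1 (hall η hη)]; simp] at this
    exact mul_ne_zero hp0 χ.2.apply_one_ne_zero this
  have hr : 0 < S.card := Finset.card_pos.2 ⟨χ, hχ⟩
  have hpd : (0 : ℤ) < (p : ℤ) ^ d := by have := hp.pos; positivity
  have hnpos : 0 < n χ := by
    have h1 : 0 < n χ ^ 2 := by positivity
    have h2 : (0 : ℤ) < S.card * n χ ^ 2 := by positivity
    have h3 : 0 < (p : ℤ) ^ d * n χ := by omega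
    by_contra hc
    push Not at hc
    nlinarith
  have hle : (S.card : ℤ) * n χ ≤ (p : ℤ) ^ d := by
    have : (S.card : ℤ) * n χ * n χ ≤ (p : ℤ) ^ d * n χ := by nlinarith
    exact le_of_mul_le_mul_right this hnpos
  have hle' : S.card ≤ p ^ d := by
    have : (S.card : ℤ) ≤ (p : ℤ) ^ d := by nlinarith
    exact_mod_cast this
  have hfac : (S.card * charDegree (χ : G → ℂ)).factorization p = S.card.factorization p + v := by
    rw [Nat.factorization_mul hr.ne' χ.2.charDegree_pos.ne']; rfl
  have hfr : S.card.factorization p ≤ d := by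
    by_contra hc
    have h1 : p ^ (d + 1) ∣ S.card := (hp.pow_dvd_iff_le_factorization hr.ne').2 (by omega)
    have h2 := Nat.le_of_dvd hr h1
    have h3 : p ^ d < p ^ (d + 1) := Nat.pow_lt_pow_right hp.one_lt (by omega)
    omega
  refine ⟨by omega, fun hdv => ?_⟩
  have h1 := (hp.pow_dvd_iff_le_factorization
    (mul_ne_zero hr.ne' χ.2.charDegree_pos.ne')).1 hdv
  have h2 : p ^ d ∣ S.card := (hp.pow_dvd_iff_le_factorization hr.ne').2 (by omega)
  have h3 : S.card = p ^ d := le_antisymm hle' (Nat.le_of_dvd hr h2)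
  have h3' : (S.card : ℤ) = (p : ℤ) ^ d := by exact_mod_cast h3
  have hn1 : n χ = 1 := by
    rw [h3'] at hle
    have : n χ ≤ 1 := by
      by_contra hc
      nlinarith
    omega
  have hz : ∀ η ∈ Sᶜ, n η = 0 := by
    have : ∑ η ∈ Sᶜ, n η ^ 2 = 0 := by rw [hn1, h3'] at hsplit; rw [hn1] at hsq; omega
    intro η hη
    exact pow_eq_zero_iff two_ne_zero |>.1
      ((Finset.sum_eq_zero_iff_of_nonneg fun η _ => sq_nonneg (n η)).1 this η hη)
  have hexp' : ∀ g, (p : ℂ) ^ d * pRegularPart p (χ : G → ℂ) g = ∑ η ∈ S, (η : G → ℂ) g := by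
    intro g
    rw [hexp, ← Finset.sum_add_sum_compl S, Finset.sum_eq_zero (s := Sᶜ) fun η hη => by
      rw [hz η hη]; simp, add_zero]
    exact Finset.sum_congr rfl fun η hη => by rw [hS η hη, hn1]; simp
  obtain ⟨P⟩ : Nonempty (Sylow p G) := inferInstance
  obtain ⟨k, hk⟩ := (χ.2.isCharacter.restrict (P : Subgroup G)).exists_nat_classInner
    IsCharacter.one
  rw [classInner_one_right] at hk
  have hk' : ∑ u : (P : Subgroup G), (χ : G → ℂ) u = (Nat.card (P : Subgroup G) * k : ℕ) := by
    push_cast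
    rw [← hk, ← mul_assoc, mul_inv_cancel₀ (natCard_ne_zero _), one_mul]
  have hsum : ∑ u : (P : Subgroup G), (p : ℂ) ^ d * pRegularPart p (χ : G → ℂ) u =
      S.card * (Nat.card (P : Subgroup G) * k : ℕ) := by
    simp_rw [hexp']
    rw [Finset.sum_comm, Finset.sum_congr rfl fun η hη => ?_, Finset.sum_const, nsmul_eq_mul]
    obtain ⟨σ, hσ⟩ := hgal η hη
    simp only [hσ]
    rw [← map_sum, hk', map_natCast]
  rw [Finset.sum_eq_single (1 : (P : Subgroup G)), OneMemClass.coe_one, pRegularPart_one hp, h3,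
    Nat.cast_pow] at hsum
  · have h5 := mul_left_cancel₀ hp0 hsum
    rw [← χ.2.coe_charDegree, Nat.cast_inj] at h5
    rw [h5, P.card_eq_multiplicity]
    exact dvd_mul_right _ _
  · intro u _ hu
    rw [pRegularPart_of_dvd, mul_zero]
    obtain ⟨j, hj⟩ := (IsPGroup.iff_orderOf.1 P.isPGroup') u
    rw [Subgroup.orderOf_coe, hj]
    refine dvd_pow_self p fun h => hu ?_
    rw [h, pow_zero] at hj
    exact orderOf_eq_one_iff.1 hj
  · simp


/-- Let G be a finite group, p a prime, p^a the p-part of the order of G and g′ its p′-part. Call two irreducible characters p-conjugate when one is obtained from the other by applying a field automorphism of ℂ that fixes the g′-th roots of unity, and let r be the number of characters p-conjugate to the irreducible character χ (χ included). Then the exponent of p in r·χ(1) is at most a; and if p^a divides r·χ(1) then p^a already divides χ(1). -/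
theorem result {G : Type*} [Group G] [Finite G] (p : ℕ) (hp : p.Prime) (χ : Cfsg.IrrCharacter G) (r : ℕ) (hr : Nat.card {ψ : Cfsg.IrrCharacter G // ∃ σ : ℂ ≃+* ℂ, σ (Complex.exp (2 * Real.pi * Complex.I / ((Nat.card G / p ^ (Nat.card G).factorization p) : ℕ))) = Complex.exp (2 * Real.pi * Complex.I / ((Nat.card G / p ^ (Nat.card G).factorization p) : ℕ)) ∧ (ψ : G → ℂ) = fun g => σ ((χ : G → ℂ) g)} = r) : (r * Cfsg.charDegree (χ : G → ℂ)).factorization p ≤ (Nat.card G).factorization p ∧ (p ^ (Nat.card G).factorization p ∣ r * Cfsg.charDegree (χ : G → ℂ) → p ^ (Nat.card G).factorization p ∣ Cfsg.charDegree (χ : G → ℂ)) := by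
  classical
  haveI := Fintype.ofFinite G
  set m := Nat.card G / p ^ (Nat.card G).factorization p with hm
  have hm0 : m ≠ 0 := (Nat.ordCompl_pos p Nat.card_pos.ne').ne'
  have hprim := Complex.isPrimitiveRoot_exp m hm0
  rw [Nat.card_eq_fintype_card, Fintype.card_subtype] at hr
  subst hr
  refine aux p hp χ _ (by simpa using ⟨RingEquiv.refl ℂ, rfl, rfl⟩) ?_ ?_
  · intro ψ hψ g hg
    obtain ⟨σ, hσ, hψ'⟩ := (Finset.mem_filter.1 hψ).2
    rw [hψ']
    refine χ.2.isCharacter.galois_apply_of_fix (σ : ℂ →+* ℂ) (n := m) ?_ ?_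
    · intro ζ hζ
      haveI : NeZero m := ⟨hm0⟩
      obtain ⟨i, -, rfl⟩ := hprim.eq_pow_of_pow_eq_one hζ
      simp only [RingEquiv.coe_toRingHom, map_pow]
      rw [hσ]
    · rw [← orderOf_dvd_iff_pow_eq_one]
      have h1 : orderOf g ∣ Nat.card G := orderOf_dvd_natCard g
      rw [← Nat.ordProj_mul_ordCompl_eq_self (Nat.card G) p] at h1
      exact (Nat.Coprime.pow_right _ ((Nat.coprime_comm.1 ((hp.coprime_iff_not_dvd).2
        hg)))).dvd_of_dvd_mul_left h1
  · intro ψ hψ
    obtain ⟨σ, -, hψ'⟩ := (Finset.mem_filter.1 hψ).2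
    exact ⟨σ, hψ'⟩

end Cfsg.Agent.S4506
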