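import Mathlib
-- Template for statement S4507 (row 4507; see /opt/grader/pristine/manifest.json for weights).
-- Copy to Cfsg/Agent/S4507.lean and replace the sorry. The statement below is byte-identical to the frozen
-- statement Cfsg.CfsgFrozen.S4507 (Cfsg/Statements/S4507.lean; the theorem Cfsg.blk_prime_to_first_power_full_defect_block_families_and_sign_relation);
-- the grader kernel-checks Cfsg.Agent.S4507.result against that frozen type. Keep the theorem IN THIS FILE
-- (a `result` declared elsewhere and merely imported here is not credited); helpers may live anywhere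
-- under Cfsg/Agent/.
import Cfsg.Statements.S4507
import Cfsg.Agent.Blk.OneGalois

set_option autoImplicit false
set_option linter.style.haveILetI false
set_option linter.unusedVariables false
open Cfsg

namespace Cfsg.Agent.S4507


/-- Let G be a finite group whose order g is divisible by the prime p exactly once, g′ = g/p, and fix a maximal ideal M of the algebraic integers containing p. Call two irreducible characters p-conjugate when a field automorphism of ℂ fixing the g′-th roots of unity carries one to the other. Let B be a p-block of positive defect (its defect group is a Sylow p-subgroup). Then B contains a subset Y (the exceptional family) such that: Y is a full p-conjugacy class (its members are pairwise p-conjugate and every p-conjugate of a member of Y lies in Y); every member of B outside Y is p-conjugate only to itself; the size t of Y divides p − 1 and B has exactly t + (p − 1)/t members; and there are signs δ_χ = ±1 (χ ∈ B) such that for every p-regular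 element x and every θ ∈ Y, Σ_{χ ∈ B ∖ Y} δ_χ χ(x) + δ_θ θ(x) = 0. -/
theorem result {G : Type*} [Group G] [Finite G] (p : ℕ) [Fact p.Prime] (M : Ideal Cfsg.AlgInt) (hM : Cfsg.IsPModular p M) (hdiv : p ∣ Nat.card G) (hsq : ¬ p ^ 2 ∣ Nat.card G) (B : Set (Cfsg.IrrCharacter G)) (hB : Cfsg.IsPBlock M B) (hd : 0 < Cfsg.blockDefect p B) : ∃ Y : Set (Cfsg.IrrCharacter G), Y ⊆ B ∧ Y.Nonempty ∧ (∀ θ ∈ Y, ∀ ψ : Cfsg.IrrCharacter G, (∃ σ : ℂ ≃+* ℂ, σ (Complex.exp (2 * Real.pi * Complex.I / ((Nat.card G / p ^ (Nat.card G).factorization p) : ℕ))) = Complex.exp (2 * Real.pi * Complex.I / ((Nat.card G / p ^ (Nat.card G).factorization p) : ℕ)) ∧ (ψ : G → ℂ) = fun g => σ ((θ : G → ℂ) g)) ↔ ψ ∈ Y) ∧ (∀ χ ∈ B, χ ∉ Y → ∀ ψ : Cfsg.IrrCharacter G, (∃ σ : ℂ ≃+* ℂ, σ (Complex.exp (2 * Real.pi * Complex.I / ((Nat.card G / p ^ (Nat.card G).factorization p) : ℕ))) = Complex.exp (2 * Real.pi * Complex.I / ((Nat.card G / p ^ (Nat.card G).factorization p) : ℕ)) ∧ (ψ : G → ℂ) = fun g => σ ((χ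 : G → ℂ) g)) → ψ = χ) ∧ Nat.card Y ∣ p - 1 ∧ Nat.card B = Nat.card Y + (p - 1) / Nat.card Y ∧ ∃ δ : Cfsg.IrrCharacter G → ℤ, (∀ χ ∈ B, δ χ = 1 ∨ δ χ = -1) ∧ ∀ x : G, ¬ p ∣ orderOf x → ∀ θ ∈ Y, (∑ᶠ χ ∈ B \ Y, (δ χ : ℂ) * (χ : G → ℂ) x) + (δ θ : ℂ) * (θ : G → ℂ) x = 0 := by
  open Cfsg.Agent.Blk.One Subgroup in
  classical
  haveI := Fintype.ofFinite G
  obtain ⟨P⟩ : Nonempty (Sylow p G) := inferInstance
  obtain ⟨S, -⟩ := exists_setup P (card_sylow_of_not_sq P hdiv hsq)
  obtain ⟨θ, -, D, -⟩ := S.exists_data_of_defect hM hB hd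
  have hX : ∀ χ ∈ B, χ ∉ Set.range D.Y → χ ∈ D.X := fun χ h1 h2 =>
    ((D.mem_iff χ).1 h1).resolve_right h2
  have hdiff : B \ Set.range D.Y = D.X := by
    refine Set.ext fun χ => ⟨fun h => hX χ h.1 h.2, fun h => ⟨D.mem_of_mem_X h, ?_⟩⟩
    rintro ⟨i, rfl⟩
    exact D.Y_notMem i h
  have he := S.card_A_dvd θ
  have hp1 : 0 < p - 1 := Nat.sub_pos_of_lt (Fact.out : p.Prime).one_lt
  refine ⟨Set.range D.Y, ?_, ⟨_, 1, rfl⟩, ?_, fun χ h1 h2 ψ => ?_, ?_, ?_,
    fun χ => if χ ∈ D.X then D.δ χ else -D.ε, fun χ hχ => ?_, ?_⟩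
  · rintro _ ⟨i, rfl⟩; exact D.Y_mem i
  · rintro _ ⟨i, rfl⟩ ψ
    constructor
    · rintro ⟨σ, h1, h2⟩
      obtain ⟨k, hk⟩ := exists_galois_ps (p := p) (σ : ℂ →+* ℂ)
      refine ⟨k * i, Subtype.ext ?_⟩
      rw [h2]
      exact funext fun g => (D.galois_Y ((S.fix_iff σ).2 h1) hk i g).symm
    · rintro ⟨j, rfl⟩
      obtain ⟨σ, h1, h2⟩ := S.exists_fix (j * i⁻¹)
      refine ⟨σ, (S.fix_iff σ).1 h1, funext fun g => ?_⟩
      have := D.galois_Y h1 h2 i g
      rw [inv_mul_cancel_right] at this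
      exact this.symm
  · rintro ⟨σ, h3, h4⟩
    exact Subtype.ext (h4.trans (funext fun g => D.galois_X ((S.fix_iff σ).2 h3) (hX χ h1 h2) g))
  · rw [D.card_range_Y]; exact Nat.div_dvd_of_dvd he
  · rw [D.card_range_Y, D.card_B, Nat.div_div_self he hp1.ne', add_comm]
  · beta_reduce
    split_ifs with h
    · exact D.δ_sign χ h
    · rcases D.ε_sign with h | h <;> simp [h]
  · rintro x hx _ ⟨i, rfl⟩
    beta_reduce
    rw [hdiff, finsum_mem_coe_finset, if_neg (D.Y_notMem i), Int.cast_neg, neg_mul,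
      D.regular_rel i hx, add_neg_eq_zero]
    exact Finset.sum_congr rfl fun χ hχ => by rw [if_pos hχ]

end Cfsg.Agent.S4507
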