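import Mathlib
-- Template for statement S4508 (row 4508; see /opt/grader/pristine/manifest.json for weights).
-- Copy to Cfsg/Agent/S4508.lean and replace the sorry. The statement below is byte-identical to the frozen
-- statement Cfsg.CfsgFrozen.S4508 (Cfsg/Statements/S4508.lean; the theorem Cfsg.chr_self_centralizing_prime_order_element_degree_p_minus_one_parity);
-- the grader kernel-checks Cfsg.Agent.S4508.result against that frozen type. Keep the theorem IN THIS FILE
-- (a `result` declared elsewhere and merely imported here is not credited); helpers may live anywhere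
-- under Cfsg/Agent/.
import Cfsg.Statements.S4508
import Cfsg.Agent.Blk.OneFrob

set_option autoImplicit false
set_option linter.style.haveILetI false
set_option linter.unusedVariables false
open Cfsg

namespace Cfsg.Agent.S4508


/-- Let the finite group G contain an element x of prime order p with C_G(x) = ⟨x⟩, and let t be the number of conjugacy classes of elements of order p. If G has an irreducible character of degree p − 1, then t is even or the commutator subgroup has even index. -/
theorem result {G : Type*} [Group G] [Finite G] (p : ℕ) (hp : p.Prime) (x : G) (hx : orderOf x = p) (hC : Subgroup.centralizer ({x} : Set G) = Subgroup.zpowers x) (t : ℕ) (ht : Nat.card {C : ConjClasses G // ∃ g ∈ C.carrier, orderOf g = p} = t) (χ : Cfsg.IrrCharacter G) (hχ : Cfsg.charDegree (χ : G → ℂ) + 1 = p) : Even t ∨ Even (commutator G).index := by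
  open Cfsg.Agent.Blk.One Subgroup in
  haveI := Fact.mk hp
  haveI := Fintype.ofFinite G
  set S := selfSetup hx hC
  have hS : S.C = zpowers S.x := rfl
  have h1 := S.card_classes'
  rw [ht] at h1
  by_cases he : S.C.relIndex S.N = 1
  · rw [(Setup.index_commutator_of_eq_one hS he).2, (Setup.eq_one_iff h1).2 he]
    rcases hp.eq_two_or_odd' with rfl | h
    · exact Or.inr even_two
    · exact Or.inl (Nat.Odd.sub_odd h odd_one)
  have h2 : 2 ≤ S.C.relIndex S.N := by have := S.relIndex_pos; omega
  have h3 : S.C.relIndex S.N ≤ p - 1 := Nat.le_of_dvd (by have := hp.one_lt; omega) S.relIndex_dvd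
  refine Setup.even_or_even hS χ.2.isCharacter (by omega) ?_ he h1 (by omega)
  obtain ⟨M, hM⟩ := Blk.exists_isPModular hp
  obtain ⟨D, -, -⟩ := S.exists_pData hM
  have h4 : (Cfsg.charDegree (χ : G → ℂ) : ℤ) = p - 1 := by omega
  have h5 : (χ : G → ℂ) 1 = p - 1 := by rw [← χ.2.coe_charDegree]; exact_mod_cast h4
  rcases (D.mem_iff χ).1 (Setup.mem_principal hS hM fun h => by
    have := Nat.le_of_dvd χ.2.charDegree_pos h; omega) with h | ⟨i, rfl⟩
  · have h6 := (D.X_modEq' h).dvd
    rw [D.sx_X h, h5]
    rcases D.δ_sign χ h with h7 | h7 <;> rw [h7] at h6 ⊢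
    · have := Int.le_of_dvd (by omega) (Int.dvd_neg.2 h6)
      omega
    · push_cast; ring
  · have h6 := (D.Y_modEq' i).dvd
    rw [D.sx_Y, h5]
    rcases D.ε_sign with h7 | h7 <;> rw [h7] at h6 ⊢
    · have : (S.C.relIndex S.N : ℤ) = p - 1 := by
        by_contra h8
        have := Int.le_of_dvd (by omega) (Int.dvd_neg.2 h6)
        omega
      have h8 : (S.C.relIndex S.N : ℂ) = p - 1 := by exact_mod_cast this
      rw [h8]; push_cast; ring
    · have := Int.le_of_dvd (by omega) (Int.dvd_sub (Int.dvd_neg.2 h6) (dvd_refl (p : ℤ)))
      omega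

end Cfsg.Agent.S4508
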