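import Mathlib
-- Template for statement S4509 (row 4509; see /opt/grader/pristine/manifest.json for weights).
-- Copy to Cfsg/Agent/S4509.lean and replace the sorry. The statement below is byte-identical to the frozen
-- statement Cfsg.CfsgFrozen.S4509 (Cfsg/Statements/S4509.lean; the theorem Cfsg.chr_self_centralizing_prime_order_element_normal_subgroup_of_sylow_count_order_iff);
-- the grader kernel-checks Cfsg.Agent.S4509.result against that frozen type. Keep the theorem IN THIS FILE
-- (a `result` declared elsewhere and merely imported here is not credited); helpers may live anywhere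
-- under Cfsg/Agent/.
import Cfsg.Statements.S4509
import Cfsg.Agent.Blk.OneSelf2

set_option autoImplicit false
set_option linter.style.haveILetI false
set_option linter.unusedVariables false
open Cfsg

namespace Cfsg.Agent.S4509


/-- Let the finite group G contain an element x of prime order p with C_G(x) = ⟨x⟩; let t be the number of conjugacy classes of elements of order p and 1 + n·p the number of subgroups of order p. Then G has a normal subgroup of order 1 + n·p if and only if either t = p − 1, or t < p − 1 and G″ ≠ G′. Moreover, if t = p − 1 then G′ has order 1 + n·p and G/G′ is cyclic of order p; and if t < p − 1 and G″ ≠ G′ then G″ has order 1 + n·p and G′ has order p·(1 + n·p). -/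
theorem result {G : Type*} [Group G] [Finite G] (p : ℕ) (hp : p.Prime) (x : G) (hx : orderOf x = p) (hC : Subgroup.centralizer ({x} : Set G) = Subgroup.zpowers x) (t : ℕ) (ht : Nat.card {C : ConjClasses G // ∃ g ∈ C.carrier, orderOf g = p} = t) (n : ℕ) (hn : Nat.card {H : Subgroup G // Nat.card H = p} = 1 + n * p) : ((∃ S : Subgroup G, S.Normal ∧ Nat.card S = 1 + n * p) ↔ (t = p - 1 ∨ (t < p - 1 ∧ derivedSeries G 2 ≠ derivedSeries G 1))) ∧ (t = p - 1 → Nat.card (commutator G) = 1 + n * p ∧ IsCyclic (G ⧸ commutator G) ∧ (commutator G).index = p) ∧ (t < p - 1 → derivedSeries G 2 ≠ derivedSeries G 1 → Nat.card (derivedSeries G 2) = 1 + n * p ∧ Nat.card (commutator G) = p * (1 + n * p)) := by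
  open Cfsg.Agent.Blk.One Subgroup in
  haveI := Fact.mk hp
  haveI := Fintype.ofFinite G
  set S := selfSetup hx hC
  have hS : S.C = zpowers S.x := rfl
  have h1 := S.card_classes'
  rw [ht] at h1
  rw [S.card_subgroups] at hn
  have hle : t ≤ p - 1 := h1 ▸ Nat.le_mul_of_pos_right _ S.relIndex_pos'
  have hD1 : derivedSeries G 1 = commutator G := derivedSeries_one G
  have hD2 : derivedSeries G 2 = ⁅commutator G, commutator G⁆ := by
    rw [derivedSeries_succ, hD1]
  rw [hD1, hD2, ← hn]
  have hA : t = p - 1 → Nat.card (commutator G) = S.N.index ∧ IsCyclic (G ⧸ commutator G) ∧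
      (commutator G).index = p := fun h => by
    obtain ⟨h2, h3⟩ := Setup.index_commutator_of_eq_one hS ((Setup.eq_one_iff h1).1 h)
    exact ⟨Setup.card_eq_index_N hS (H := ⊤) (mem_top _) le_top h2
      (by rw [card_top, ← h3, index_mul_card]), isCyclic_of_prime_card h3, h3⟩
  have hB : t < p - 1 → ⁅commutator G, commutator G⁆ ≠ commutator G →
      Nat.card (⁅commutator G, commutator G⁆ : Subgroup G) = S.N.index ∧
      Nat.card (commutator G) = p * S.N.index := fun h h2 => by
    have hxc := S.x_mem_commutator fun h3 => h.ne ((Setup.eq_one_iff h1).2 h3)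
    obtain ⟨h3, h4⟩ := Setup.card_of_commutator_ne hS hxc h2
    have h5 := Setup.card_eq_index_N hS hxc (commutator_le_left _ _) h3 h4
    exact ⟨h5, h5 ▸ h4⟩
  refine ⟨⟨fun ⟨K, hK, h2⟩ => ?_, ?_⟩, hA, hB⟩
  · refine hle.eq_or_lt.imp_right fun h => ⟨h, fun h3 => ?_⟩
    have hxc := S.x_mem_commutator fun h3 => h.ne ((Setup.eq_one_iff h1).2 h3)
    obtain ⟨h4, h5⟩ := Setup.commutator_le_of_card hS h2
    exact h4 (S.dvd_card_of_mem (h5 (h3.symm ▸ hxc)))
  · rintro (h | ⟨h, h2⟩)
    · exact ⟨_, inferInstance, (hA h).1⟩
    · exact ⟨_, inferInstance, (hB h h2).1⟩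

end Cfsg.Agent.S4509
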