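import Mathlib
import Cfsg.Statements.S4510
import Cfsg.Agent.Blk.Roots

set_option autoImplicit false
open Cfsg

namespace Cfsg.Agent.S4510

/-- Let G be a finite group, p a prime, M a maximal ideal of the algebraic integers containing p, and call the defect of a conjugacy class the exponent of p in the order of the centralizer of its elements. Two irreducible characters lying in p-blocks of defect exactly d lie in the same block if and only if their central characters (class size times χ(x)/χ(1)) agree modulo the local ideal at M at every p-regular element x whose class has defect exactly d. -/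
theorem result {G : Type*} [Group G] [Finite G] (p : ℕ) [Fact p.Prime] (M : Ideal Cfsg.AlgInt) (hM : Cfsg.IsPModular p M) (d : ℕ) (χ ψ : Cfsg.IrrCharacter G) (hχ : Cfsg.blockDefect p (Cfsg.blockOf M (χ : G → ℂ)) = d) (hψ : Cfsg.blockDefect p (Cfsg.blockOf M (ψ : G → ℂ)) = d) : Cfsg.SameBlock M (χ : G → ℂ) (ψ : G → ℂ) ↔ ∀ x : G, ¬ p ∣ orderOf x → (Nat.card (Subgroup.centralizer ({x} : Set G))).factorization p = d → Cfsg.MemLocalIdeal M (Cfsg.centralChar (χ : G → ℂ) x - Cfsg.centralChar (ψ : G → ℂ) x) := by
  have := hM.isMaximal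
  refine ⟨fun h x _ _ => h x, fun h => ?_⟩
  have hB := Agent.Blk.isPBlock_blockOf (M := M) χ
  have hB' := Agent.Blk.isPBlock_blockOf (M := M) ψ
  have := Fintype.ofFinite (ConjClasses G)
  have h1 := hB.lam_eps_of_mem (Agent.Blk.mem_blockOf_self χ)
  refine hB.mem_of_lam_eps_ne_zero (χ := ψ) ?_
  rw [Agent.Blk.lam_eq_sum_classes _ (Agent.Blk.eps_mem_ctr _)] at h1 ⊢
  rw [Finset.sum_congr rfl fun C _ => ?_, h1]
  · exact one_ne_zero
  set x := Quotient.out C
  by_cases hx : MemLocalIdeal M (blockCoeff (blockOf M (χ : G → ℂ)) x)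
  · rw [Agent.Blk.coeff_eps, (Agent.Blk.red_eq_zero_iff (hB.blockCoeff_mem x)).2 hx, zero_mul, zero_mul]
  have h2 := hB.factorization_le_blockDefect hM hx
  congr 1
  rcases h2.lt_or_eq with h3 | h3
  · have k1 : MemLocalIdeal M (centralChar (χ : G → ℂ) x) := by
      by_contra hc
      exact h3.not_ge (hB.blockDefect_le_of_centralChar hM (Agent.Blk.mem_blockOf_self χ) hc)
    have k2 : MemLocalIdeal M (centralChar (ψ : G → ℂ) x) := by
      by_contra hc
      have := hB'.blockDefect_le_of_centralChar hM (Agent.Blk.mem_blockOf_self ψ) hc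
      omega
    rw [(Agent.Blk.red_eq_zero_iff (Agent.Blk.memLocalRing_centralChar χ x)).2 k1,
      (Agent.Blk.red_eq_zero_iff (Agent.Blk.memLocalRing_centralChar ψ x)).2 k2]
  · exact ((Agent.Blk.red_eq_red_iff (Agent.Blk.memLocalRing_centralChar χ x)
      (Agent.Blk.memLocalRing_centralChar ψ x)).2
      (h x (Agent.Blk.Om.not_dvd_orderOf_of_blockCoeff hM hB hx) (h3.trans hχ))).symm

end Cfsg.Agent.S4510
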