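import Mathlib
import Cfsg.Statements.S4512
import Cfsg.Agent.Blk.PBKlein

set_option autoImplicit false
open Cfsg

namespace Cfsg.Agent.S4512

/-- If G is a finite group with a Sylow 2-subgroup that is a Klein four-group and a single conjugacy class of involutions, then its principal 2-block (relative to a maximal ideal M of the algebraic integers containing 2) has 2-regular rank 3: the restrictions of its irreducible characters to the elements of odd order span a space of dimension 3 (it has three irreducible Brauer characters). -/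
theorem result {G : Type*} [Group G] [Finite G] (M : Ideal Cfsg.AlgInt) (hM : Cfsg.IsPModular 2 M) (P : Sylow 2 G)
    (hP : Nat.card P = 4) (hexp : ∀ x : P, x * x = 1)
    (hone : ∀ s t : G, orderOf s = 2 → orderOf t = 2 → IsConj s t) :
    Cfsg.blockRank 2 (Cfsg.principalBlock M G) = 3 := by
  classical
  have := Fintype.ofFinite G
  have h : Blk.Q8.KD G := Blk.Q8.kd_of_sylow P hP hexp hone
  obtain ⟨z, hz⟩ := h.exists_invol
  obtain ⟨ζ₂, ζ₃, ζ₄, ε, hε, n2, n3, n4, -, -, -, -, hsum, hval, -, -, -, hy⟩ :=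
    Blk.PB.klein_block hM h
  have h1 := Blk.card_mul_blockRank hM (Blk.PB.coeff_mem (G := G) hM)
  have h2 := Blk.card_mul_natCard_eq_sum (Cfsg.principalBlock M G)
  rw [Blk.PB.natCard_principalBlock, (Blk.PB.klein_values hM h hz).1] at h2
  have h3 : ∑ g : G, (1 + (ζ₂ : G → ℂ) g + (ε : ℂ) * (ζ₃ : G → ℂ) g - (ζ₄ : G → ℂ) g) =
      Nat.card G := by
    rw [Finset.sum_sub_distrib, Finset.sum_add_distrib, Finset.sum_add_distrib, ← Finset.mul_sum,
      ζ₂.2.sum_eq_zero fun e => n2 (Subtype.ext e), ζ₃.2.sum_eq_zero fun e => n3 (Subtype.ext e),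
      ζ₄.2.sum_eq_zero fun e => n4 (Subtype.ext e)]
    simp
  have h4 : (Nat.card G : ℂ) * (4 : ℕ) = Nat.card G * Cfsg.blockRank 2 (Cfsg.principalBlock M G) +
      Nat.card G := by
    rw [h2, h1]
    nth_rw 1 [← h3]
    rw [← Finset.sum_add_distrib]
    refine Finset.sum_congr rfl fun g _ => ?_
    split_ifs with hg
    · obtain ⟨a2, a3, a4⟩ := hval g hg
      obtain ⟨b2, b3, b4⟩ := hval g⁻¹ (by rwa [orderOf_inv])
      rw [Blk.PB.finsum_pb, hsum, a2, a3, a4, b2, b3, b4, Ch.coe_irrOne]
      ring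
    · rw [hy g hg, add_zero]
  have h5 : ((4 : ℕ) : ℂ) = Cfsg.blockRank 2 (Cfsg.principalBlock M G) + 1 :=
    mul_left_cancel₀ (Ch.natCard_ne_zero G) (by rw [h4]; ring)
  have h6 : 4 = Cfsg.blockRank 2 (Cfsg.principalBlock M G) + 1 := by exact_mod_cast h5
  omega

end Cfsg.Agent.S4512
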