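import Mathlib
import Cfsg.Statements.S4513
import Cfsg.Agent.Blk.PBCentral
import Cfsg.Agent.S4494
import Cfsg.Agent.Blk.Roots
import Cfsg.Agent.Blk.DefectCard

set_option autoImplicit false
open Cfsg

namespace Cfsg.Agent.S4513

open Cfsg.Agent.Ch Cfsg.Agent.Blk

theorem exists_pair {G : Type*} [Group G] [Finite G] {M : Ideal AlgInt} (hM : IsPModular 2 M)
    {B : Set (IrrCharacter G)} (hB : IsPBlock M B) {D : Subgroup G}
    (hD : IsDefectGroup 2 M B D) (h2 : Nat.card D = 2) {χ : IrrCharacter G} (hχ : χ ∈ B) :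
    ∃ ψ, χ ≠ ψ ∧ B = {χ, ψ} := by
  have h1 : blockDefect 2 B = 1 :=
    Nat.pow_right_injective le_rfl ((hD.card_eq_pow_blockDefect hM hB).symm.trans h2)
  have h3 := S4494.result 2 M hM B hB
  rw [h1, Nat.card_coe_set_eq] at h3
  have h4 : B ≠ {χ} := fun e => by
    rw [← hB.blockDefect_eq_zero_iff_singleton hM hχ] at e
    omega
  obtain ⟨ψ, hψ, hne⟩ : ∃ ψ ∈ B, ψ ≠ χ := by
    by_contra hc
    push Not at hc
    exact h4 (Set.eq_singleton_iff_unique_mem.mpr ⟨hχ, hc⟩)
  refine ⟨ψ, hne.symm, (Set.eq_of_subset_of_ncard_le (Set.pair_subset hχ hψ) ?_).symm⟩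
  rw [Set.ncard_pair hne.symm]
  omega

/-- Blocks of defect one for p = 2. Let M be a maximal ideal of the algebraic integers containing 2, B a 2-block of the finite group G whose defect group is the subgroup generated by an involution x, C = C_G(x), b a block of C inducing B and θ a member of b taking the same value at x as at 1 (there is exactly one). Then B consists of exactly two irreducible characters, which agree on every element of odd order, and they can be labelled χ₁, χ₂ with signs ε₁, ε₂ = ±1, ε₁ε₂ = −1, such that χᵢ(x y) = εᵢ θ(y) for every element y of C of odd order. -/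
theorem result {G : Type*} [Group G] [Finite G] (M : Ideal Cfsg.AlgInt) (hM : Cfsg.IsPModular 2 M) (x : G) (hx : orderOf x = 2)
    (B : Set (Cfsg.IrrCharacter G)) (hB : Cfsg.IsPBlock M B) (hBD : Cfsg.IsDefectGroup 2 M B (Subgroup.zpowers x))
    (b : Set (Cfsg.IrrCharacter ↥(Subgroup.centralizer ({x} : Set G)))) (hb : Cfsg.IsInducedBlock M (Subgroup.centralizer ({x} : Set G)) b B)
    (θ : Cfsg.IrrCharacter ↥(Subgroup.centralizer ({x} : Set G))) (hθ : θ ∈ b)
    (hθx : ∀ z : ↥(Subgroup.centralizer ({x} : Set G)), (z : G) = x → (θ : ↥(Subgroup.centralizer ({x} : Set G)) → ℂ) z = (θ : ↥(Subgroup.centralizer ({x} : Set G)) → ℂ) 1) :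
    Nat.card B = 2 ∧ (∀ χ ∈ B, ∀ ψ ∈ B, ∀ g : G, ¬ 2 ∣ orderOf g → (χ : G → ℂ) g = (ψ : G → ℂ) g) ∧
      ∃ χ₁ ∈ B, ∃ χ₂ ∈ B, χ₁ ≠ χ₂ ∧ ∃ ε₁ ε₂ : ℤ, (ε₁ = 1 ∨ ε₁ = -1) ∧ (ε₂ = 1 ∨ ε₂ = -1) ∧ ε₁ * ε₂ = -1 ∧
        ∀ y : ↥(Subgroup.centralizer ({x} : Set G)), ¬ 2 ∣ orderOf y →
          (χ₁ : G → ℂ) (x * y) = (ε₁ : ℂ) * (θ : ↥(Subgroup.centralizer ({x} : Set G)) → ℂ) y ∧ (χ₂ : G → ℂ) (x * y) = (ε₂ : ℂ) * (θ : ↥(Subgroup.centralizer ({x} : Set G)) → ℂ) y := by
  classical
  have := hM.isMaximal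
  have := Fintype.ofFinite G
  have := Fintype.ofFinite (Subgroup.centralizer ({x} : Set G))
  have hC := mem_centralizer_singleton_iff' x
  have hxx := Inv.iso_mul_self_of_orderOf hx
  have hxC : x ∈ Subgroup.centralizer ({x} : Set G) := (hC x).mpr rfl
  have hDC : Subgroup.zpowers x ≤ Subgroup.centralizer ({x} : Set G) := Subgroup.zpowers_le.mpr hxC
  have hCC : Subgroup.centralizer (Subgroup.zpowers x : Set G) =
      Subgroup.centralizer ({x} : Set G) := by
    ext g; rw [mem_centralizer_zpowers_iff', hC]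
  have hNC : Subgroup.normalizer (Subgroup.zpowers x : Set G) =
      Subgroup.centralizer ({x} : Set G) := by
    refine le_antisymm (fun g hg => ?_) (hCC ▸ Subgroup.centralizer_le_normalizer _)
    have h1 := GT.Tr.conj_mem_of_mem_normalizer hg (Subgroup.mem_zpowers x)
    rw [mem_zpowers_iff_mem_range_orderOf, hx] at h1
    simp only [Finset.range_add_one, Finset.range_zero, Finset.mem_image, Finset.mem_insert,
      Finset.notMem_empty, or_false, exists_eq_or_imp, exists_eq_left, pow_one, pow_zero] at h1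
    rcases h1 with h1 | h1
    · exact (hC g).mpr (mul_inv_eq_iff_eq_mul.mp h1.symm)
    · exact absurd (by simpa using h1.symm) (Inv.iso_ne_one_of_orderOf hx)
  have hD2 : Nat.card (Subgroup.zpowers x) = 2 := by rw [Nat.card_zpowers, hx]
  obtain ⟨χ₁, hχ₁⟩ := Om.block_nonempty hB
  obtain ⟨χ₂, h12, hB2⟩ := exists_pair hM hB hBD hD2 hχ₁
  obtain ⟨θ', hθθ, hb2⟩ := exists_pair hM hb.1 (hb.isDefectGroup_of_normal hM hBD hDC hNC.ge)
    (by rw [Nat.card_congr (Subgroup.subgroupOfEquivOfLe hDC).toEquiv, hD2]) hθ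
  have huniq : ∀ b', IsInducedBlock M _ b' B → b' = b := by
    intro b' hb'
    obtain ⟨c, hc, hcb⟩ := hBD.exists_conj_epsIn hM hDC hCC.le (by
      rw [hNC]; exact ⟨le_rfl, Subgroup.le_normalizer⟩) hb' hb
    rw [hNC] at hc
    rw [(epsIn_mem_ZA _ b').2 c hc] at hcb
    exact hb'.1.eq_of_epsIn_eq hb.1 hcb
  set z : Subgroup.centralizer ({x} : Set G) := ⟨x, hxC⟩ with hz
  have hzc : z ∈ Subgroup.center _ := Blk.Q8.zpowers_le_center_centralizer x (Subgroup.mem_zpowers _)
  have hzz : z * z = 1 := Subtype.ext hxx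
  have hz2 : 2 ∣ orderOf z⁻¹ := by rw [orderOf_inv, ← Subgroup.orderOf_coe, hx]
  have h0 : ¬ 2 ∣ orderOf (1 : Subgroup.centralizer ({x} : Set G)) := by simp
  have hθ1 := θ.2.apply_one_ne_zero
  have hpos : ∀ {K : Type _} [Group K] (a b : IrrCharacter K),
      (a : K → ℂ) 1 + (b : K → ℂ) 1 ≠ 0 := by
    intro K _ a b
    rw [← a.2.coe_charDegree, ← b.2.coe_charDegree, ← Nat.cast_add, Nat.cast_ne_zero]
    have := a.2.charDegree_pos
    omega
  have hθθ' : ∀ y, ¬ 2 ∣ orderOf y → θ'.1 y = θ.1 y := by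
    have horth : ∀ y, ¬ 2 ∣ orderOf y →
        θ.1 y * θ.1 1 + θ'.1 y * θ'.1 z = 0 := by
      intro y hy
      have := weak_block_orthogonality hM (hb.1.memLocalRing_blockCoeff hM) hy hz2
      rwa [hb2, finsum_mem_pair hθθ, inv_inv, hθx z rfl] at this
    have h1 := horth 1 h0
    rcases PB.irr_apply_central_invol θ' hzc hzz with e | e
    · exfalso
      have e1 := e 1
      rw [mul_one] at e1
      rw [e1, ← θ.2.coe_charDegree, ← θ'.2.coe_charDegree] at h1
      have h2 : charDegree θ.1 * charDegree θ.1 +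
        charDegree θ'.1 * charDegree θ'.1 = 0 := by exact_mod_cast h1
      have := θ.2.charDegree_pos
      nlinarith
    · have e1 := e 1
      rw [mul_one] at e1
      rw [e1] at h1 horth
      have h2 : θ'.1 1 = θ.1 1 := by
        apply mul_left_cancel₀ (hpos θ θ')
        linear_combination -h1
      intro y hy
      apply mul_left_cancel₀ hθ1
      have := horth y hy
      rw [h2] at this
      linear_combination -this
  have hn : ∀ χ ∈ B, ∃ n : ℤ, ∀ y : Subgroup.centralizer ({x} : Set G), ¬ 2 ∣ orderOf y →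
      (χ : G → ℂ) (x * y) = n * θ.1 y := by
    intro χ hχ
    have h1 := PB.isGeneralizedCharacter_translate (χ.isGeneralizedCharacter.restrict _) hzc hzz
    obtain ⟨n, hn⟩ := h1.exists_int_classInner θ.isGeneralizedCharacter
    obtain ⟨n', hn'⟩ := h1.exists_int_classInner θ'.isGeneralizedCharacter
    refine ⟨n + n', fun y hy => ?_⟩
    rw [irr_mul_eq_blockPart_of_unique hM ⟨1, hx⟩ hC hb huniq hχ hy, blockPart_apply,
      ← finsum_mem_irr, hb2, finsum_mem_pair hθθ, hθθ' y hy]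
    erw [hn, hn']
    push_cast
    ring
  have hχ₂ : χ₂ ∈ B := by rw [hB2]; simp
  obtain ⟨n₁, hn₁⟩ := hn χ₁ hχ₁
  obtain ⟨n₂, hn₂⟩ := hn χ₂ hχ₂
  have e₁ := hn₁ 1 h0
  have e₂ := hn₂ 1 h0
  rw [OneMemClass.coe_one, mul_one] at e₁ e₂
  have hxi : x⁻¹ = x := inv_eq_of_mul_eq_one_right hxx
  have hsq : n₁ ^ 2 + n₂ ^ 2 = 2 := by
    have h1 := finsum_block_mul_eq_sum hM ⟨1, hx⟩ hC hB h0 h0
    rw [Finset.sum_eq_single b (fun b' _ hne => if_neg fun h => hne (huniq b' h))
      (fun h => absurd (mem_blockSet.mpr hb.1) h), if_pos hb, OneMemClass.coe_one, mul_one, hxi,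
      inv_one] at h1
    rw [hB2, hb2, finsum_mem_pair h12, finsum_mem_pair hθθ, e₁, e₂, hθθ' 1 h0] at h1
    apply Int.cast_injective (α := ℂ)
    apply mul_left_cancel₀ (mul_ne_zero hθ1 hθ1)
    push_cast
    linear_combination h1
  have horth : ∀ g : G, ¬ 2 ∣ orderOf g → (χ₁ : G → ℂ) g * n₁ + (χ₂ : G → ℂ) g * n₂ = 0 := by
    intro g hg
    have := weak_block_orthogonality hM (hB.memLocalRing_blockCoeff hM) hg (y := x) (by rw [hx])
    rw [hB2, finsum_mem_pair h12, hxi, e₁, e₂] at this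
    apply mul_left_cancel₀ hθ1
    linear_combination this
  have s₁ : n₁ = 1 ∨ n₁ = -1 := by
    have : -2 < n₁ := by nlinarith
    have : n₁ < 2 := by nlinarith
    have : -2 < n₂ := by nlinarith
    have : n₂ < 2 := by nlinarith
    interval_cases n₁ <;> interval_cases n₂ <;> omega
  have s₂ : n₂ = -n₁ := by
    have s : n₂ = 1 ∨ n₂ = -1 := by
      rcases s₁ with rfl | rfl <;> exact sq_eq_one_iff.mp (by linarith)
    have h1 := horth 1 (by simp)
    have h2 := hpos χ₁ χ₂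
    rcases s₁ with rfl | rfl <;> rcases s with rfl | rfl
    · exact absurd (by simpa using h1) h2
    · rfl
    · rfl
    · exact absurd (by push_cast at h1; linear_combination -h1) h2
  have heq : ∀ g : G, ¬ 2 ∣ orderOf g → (χ₁ : G → ℂ) g = (χ₂ : G → ℂ) g := by
    intro g hg
    have := horth g hg
    rw [s₂] at this
    rcases s₁ with rfl | rfl <;> push_cast at this
    · linear_combination this
    · linear_combination -this
  refine ⟨by rw [hB2, Nat.card_coe_set_eq, Set.ncard_pair h12], ?_, χ₁, hχ₁, χ₂, hχ₂, h12, n₁, n₂,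
    s₁, by omega, by rcases s₁ with rfl | rfl <;> rw [s₂] <;> rfl,
    fun y hy => ⟨hn₁ y hy, hn₂ y hy⟩⟩
  rw [hB2]
  rintro χ (rfl | rfl) ψ (rfl | rfl) g hg
  · rfl
  · exact heq g hg
  · exact (heq g hg).symm
  · rfl

end Cfsg.Agent.S4513
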