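import Mathlib
-- Template for statement S4633 (row 4633; see /opt/grader/pristine/manifest.json for weights).
-- Copy to Cfsg/Agent/S4633.lean and replace the sorry. The statement below is byte-identical to the frozen
-- statement Cfsg.CfsgFrozen.S4633 (Cfsg/Statements/S4633.lean; the theorem Cfsg.blk6_cyclic_defect_inertial_quotient_structure);
-- the grader kernel-checks Cfsg.Agent.S4633.result against that frozen type. Keep the theorem IN THIS FILE
-- (a `result` declared elsewhere and merely imported here is not credited); helpers may live anywhere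
-- under Cfsg/Agent/.
import Cfsg.Statements.S4633
import Cfsg.Agent.Blk.CycAut

set_option autoImplicit false
set_option linter.style.haveILetI false
set_option linter.unusedVariables false
open Cfsg

namespace Cfsg.Agent.S4633


/-- Let B be a block of the finite group G relative to a maximal ideal M of the algebraic integers containing the prime p, with a nontrivial cyclic defect group P. Let c be a block of C_G(P) inducing B and T the stabilizer of c in N_G(P) (the elements of N_G(P) conjugating c to itself); T contains C_G(P). Then T/C_G(P) is cyclic of order dividing p − 1, and it acts freely on the non-identity elements of P: an element of T fixing some non-identity element of P under conjugation lies in C_G(P). -/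
theorem result {G : Type*} [Group G] [Finite G] (p : ℕ) [Fact p.Prime] (M : Ideal Cfsg.AlgInt) (hM : Cfsg.IsPModular p M) (B : Set (Cfsg.IrrCharacter G)) (hB : Cfsg.IsPBlock M B) (P : Subgroup G) (hPD : Cfsg.IsDefectGroup p M B P) (hP1 : P ≠ ⊥) (hcyc : IsCyclic P) (c : Set (Cfsg.IrrCharacter (Subgroup.centralizer (P : Set G)))) (hc : Cfsg.IsInducedBlock M (Subgroup.centralizer (P : Set G)) c B) (T : Subgroup G) (hT : ∀ g : G, g ∈ T ↔ (g ∈ Subgroup.normalizer (P : Set G) ∧ Cfsg.StabilizesBlock (Subgroup.centralizer (P : Set G)) c g)) [hn : ((Subgroup.centralizer (P : Set G)).subgroupOf T).Normal] : IsCyclic (T ⧸ (Subgroup.centralizer (P : Set G)).subgroupOf T) ∧ (Subgroup.centralizer (P : Set G)).relIndex T ∣ p - 1 ∧ ∀ g ∈ T, ∀ x ∈ P, x ≠ 1 → g * x * g⁻¹ = x → g ∈ Subgroup.centralizer (P : Set G) := by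
  open Cfsg.Agent.Blk Cfsg.Agent.Blk.Ab Cfsg.Agent.Blk.CD Cfsg.Agent.Blk.PD Cfsg.Agent.Blk.Mod in
  haveI := hM.isMaximal
  obtain ⟨hcb, h⟩ := absOf hM hPD (fun x hx y hy => congrArg Subtype.val
    (mul_comm' (⟨x, hx⟩ : P) ⟨y, hy⟩)) hc
  obtain rfl := eq_pstab_top hcb hT
  obtain ⟨h1, h2⟩ := isCyclic_iq h hP1
  refine ⟨?_, h.card_iq ▸ h2, fun g hg x hx => free_of_cyclic h hg hx⟩
  let f : pstab ⊤ P (epsIn M _ c) →* iq P (epsIn M _ c) :=
    (P.normalizerMonoidHom.comp (Subgroup.inclusion pstab_le_normalizer)).codRestrict _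
      fun t => mem_iq.2 ⟨t, t.2, fun _ => rfl⟩
  refine isCyclic_of_injective (QuotientGroup.lift _ f fun t ht => Subtype.ext (MulEquiv.ext fun y =>
    Subtype.ext (mul_inv_eq_iff_eq_mul.2 (ht y y.2).symm))) ((injective_iff_map_eq_one _).2 ?_)
  rintro ⟨t⟩ ht
  refine (QuotientGroup.eq_one_iff t).2 fun y hy => ?_
  have := congrArg Subtype.val (DFunLike.congr_fun (congrArg Subtype.val ht) ⟨y, hy⟩)
  exact (mul_inv_eq_iff_eq_mul.1 this).symm

end Cfsg.Agent.S4633
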