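import Mathlib
-- Template for statement S4634 (row 4634; see /opt/grader/pristine/manifest.json for weights).
-- Copy to Cfsg/Agent/S4634.lean and replace the sorry. The statement below is byte-identical to the frozen
-- statement Cfsg.CfsgFrozen.S4634 (Cfsg/Statements/S4634.lean; the theorem Cfsg.blk6_cyclic_defect_perfect_isometry_with_frobenius_group);
-- the grader kernel-checks Cfsg.Agent.S4634.result against that frozen type. Keep the theorem IN THIS FILE
-- (a `result` declared elsewhere and merely imported here is not credited); helpers may live anywhere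
-- under Cfsg/Agent/.
import Cfsg.Statements.S4634
import Cfsg.Agent.Blk.CycPerf
import Cfsg.Agent.Blk.AbTwo

set_option autoImplicit false
set_option linter.style.haveILetI false
set_option linter.unusedVariables false
open Cfsg

namespace Cfsg.Agent.S4634


/-- Let B be a block of the finite group G relative to a maximal ideal M of the algebraic integers containing the prime p, with a nontrivial cyclic defect group P, let c be a block of C_G(P) inducing B, T the stabilizer of c in N_G(P) and e the index of C_G(P) in T. Let F be any finite group of order #P · e having a cyclic subgroup Q of order #P that is its own centralizer (F is then the semidirect product of Q by a cyclic group of order e acting faithfully). Then there is a perfect isometry from the set of all irreducible characters of F onto B whose signs agree on all the characters of F that do not contain Q in their kernel. -/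
theorem result {G : Type*} [Group G] [Finite G] (p : ℕ) [Fact p.Prime] (M : Ideal Cfsg.AlgInt) (hM : Cfsg.IsPModular p M) (B : Set (Cfsg.IrrCharacter G)) (hB : Cfsg.IsPBlock M B) (P : Subgroup G) (hPD : Cfsg.IsDefectGroup p M B P) (hP1 : P ≠ ⊥) (hcyc : IsCyclic P) (c : Set (Cfsg.IrrCharacter (Subgroup.centralizer (P : Set G)))) (hc : Cfsg.IsInducedBlock M (Subgroup.centralizer (P : Set G)) c B) (T : Subgroup G) (hT : ∀ g : G, g ∈ T ↔ (g ∈ Subgroup.normalizer (P : Set G) ∧ Cfsg.StabilizesBlock (Subgroup.centralizer (P : Set G)) c g)) (e : ℕ) (he : (Subgroup.centralizer (P : Set G)).relIndex T = e) (F : Type*) [Group F] [Finite F] (hF : Nat.card F = Nat.card P * e) (Q : Subgroup F) (hQ : IsCyclic Q) (hQcard : Nat.card Q = Nat.card P) (hQC : Subgroup.centralizer (Q : Set F) = Q) : ∃ (I : Cfsg.IrrCharacter F → Cfsg.IrrCharacter G) (ε : Cfsg.IrrCharacter F → ℤ), Cfsg.IsPerfectIsometry p M (Set.univ : Set (Cfsg.IrrCharacter F)) B I ε ∧ ∀ η η' : Cfsg.IrrCharacter F, (∃ x ∈ Q, (η : F → ℂ) x ≠ (η : F → ℂ) 1)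 → (∃ x ∈ Q, (η' : F → ℂ) x ≠ (η' : F → ℂ) 1) → ε η = ε η' := by
  open Cfsg.Agent.Blk Cfsg.Agent.Blk.Ab Cfsg.Agent.Blk.CD Cfsg.Agent.Blk.PD Cfsg.Agent.Blk.Mod Cfsg.Agent.GT Cfsg.Agent.Ch in
  classical
  haveI := hM.isMaximal
  haveI := Fintype.ofFinite G
  haveI := Fintype.ofFinite F
  obtain ⟨hcb, h⟩ := absOf hM hPD (fun x hx y hy => congrArg Subtype.val
    (mul_comm' (⟨x, hx⟩ : P) ⟨y, hy⟩)) hc
  obtain rfl := eq_pstab_top hcb hT
  rw [← h.card_iq] at he
  have h1 := he ▸ (isCyclic_iq h hP1).2
  have h2 : Q.index = e := Nat.eq_of_mul_eq_mul_left (Nat.card_pos (α := Q))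
    (by rw [Q.card_mul_index, hF, hQcard])
  have hp := hM.prime
  have h3 : e < p := (Nat.le_of_dvd (by have := hp.two_le; omega) h1).trans_lt
    (Nat.sub_one_lt hp.ne_zero)
  have h0 : 0 < e := he ▸ Nat.card_pos
  obtain ⟨S, rfl⟩ : ∃ S : Sylow p F, (S : Subgroup F) = Q :=
    ⟨(IsPGroup.of_card (hQcard.trans h.card_eq)).toSylow
      (h2 ▸ Nat.not_dvd_of_pos_of_lt h0 h3), rfl⟩
  have h4 : Nat.card (Sylow p F) = 1 := by
    have h5 := card_sylow_modEq_one p F
    rwa [Nat.ModEq, Nat.mod_eq_of_lt ((Nat.le_of_dvd h0 (h2 ▸ S.card_dvd_index)).trans_lt h3),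
      Nat.mod_eq_of_lt hp.one_lt] at h5
  haveI := (Nat.card_eq_one_iff_unique.1 h4).1
  haveI hn : (S : Subgroup F).Normal := S.normal_of_subsingleton
  obtain ⟨h', h5⟩ := AT.absP hM S (fun x hx y hy => congrArg Subtype.val
    (mul_comm' (⟨x, hx⟩ : (S : Subgroup F)) ⟨y, hy⟩))
  rw [Subgroup.normalizer_eq_top] at h5
  rw [eq_univ_of_normal hM S.isPGroup' hQC.le isPBlock_principalBlock] at h'
  have h6 := h'.card_iq.trans (c := e) (by rw [h5, Subgroup.relIndex_top_right, hQC, h2])
  have hS : (S : Subgroup F) ≠ ⊥ := fun h7 => hP1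
    (Subgroup.card_eq_one.1 (by rw [← hQcard, h7, Subgroup.card_bot]))
  have hg := glue_res h' fun v hv => (le_inf (le_top.trans h5.ge) le_rfl).trans
    ((h'.free_of_isCyclic v hv).trans hQC.le)
  obtain ⟨r, rep, hr⟩ := (h'.freeAut h'.free_of_isCyclic).exists_reps h'.comm
  obtain ⟨X, μ, δ, ε, hc⟩ := exists_cs h' hS hg hr
  obtain ⟨I, s, h7, h8⟩ := exists_perfect hc h' hg hr hS h hQcard (h6.trans he.symm)
  refine ⟨I, s, h7, fun η η' hη hη' => ?_⟩
  have h9 := hr.card_eq h'.comm
  rw [h6, Fintype.card_fin] at h9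
  have hF' : Nat.card F = (1 + r * e) * e := by rw [hF, ← hQcard, h9]
  have hX : ∀ χ ∈ X, (∃ x ∈ (S : Subgroup F), (χ : F → ℂ) x ≠ (χ : F → ℂ) 1) →
      r * e ≤ charDegree (χ : F → ℂ) := fun χ hχ h10 => by
    have := le_charDegree_of_const χ (n := -δ χ) (by rcases hc.sgn χ hχ with h | h <;> simp [h])
      (fun v hv => by simpa using hc.val χ hχ v hv) h10
    omega
  by_cases hr1 : r = 1
  · subst hr1
    have h10 : ∀ χ : IrrCharacter F, (∃ x ∈ (S : Subgroup F), (χ : F → ℂ) x ≠ (χ : F → ℂ) 1) →
        e ≤ charDegree (χ : F → ℂ) := fun χ h11 => by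
      rcases (hc.mem χ).1 trivial with h12 | ⟨i, rfl⟩
      · simpa using hX χ h12 h11
      · have := le_charDegree_of_const (μ i) (n := -ε) (by rcases hc.sgn' with h | h <;> simp [h])
          (fun v hv => by
            have h12 := hr.sum_eta h'.comm hv
            rw [Fintype.sum_unique, Subsingleton.elim default i] at h12
            have h13 := hc.val' i v hv
            rw [h12] at h13
            simpa using h13) h11
        omega
    by_contra h11
    have h12 : η ≠ η' := fun h => h11 (h ▸ rfl)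
    have h13 : ∀ χ : IrrCharacter F, (∃ x ∈ (S : Subgroup F), (χ : F → ℂ) x ≠ (χ : F → ℂ) 1) →
        irrOne F ≠ χ := by
      rintro _ ⟨x, -, hx⟩ rfl
      exact hx rfl
    have h14 := Finset.sum_le_sum_of_subset (f := fun χ : IrrCharacter F =>
      charDegree (χ : F → ℂ) ^ 2) (Finset.subset_univ {irrOne F, η, η'})
    rw [sum_sq_charDegree, Finset.sum_insert (by simp [h13 η hη, h13 η' hη']), Finset.sum_pair h12,
      hF'] at h14
    have := (irrOne F).2.charDegree_pos
    nlinarith [h10 η hη, h10 η' hη']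
  · have h10 : ∀ χ : IrrCharacter F, (∃ x ∈ (S : Subgroup F), (χ : F → ℂ) x ≠ (χ : F → ℂ) 1) →
        ∃ i, μ i = χ := fun χ h11 => ((hc.mem χ).1 trivial).resolve_left fun h12 => by
      have h13 := hX χ h12 h11
      have h14 := χ.2.charDegree_sq_le
      have h15 : 2 ≤ r := by
        rcases Nat.eq_zero_or_pos r with rfl | h16
        · exact absurd (Subgroup.card_eq_one.1 (by simpa using h9)) hS
        · omega
      rw [hF'] at h14
      have h16 : (r * e) ^ 2 ≤ (1 + r * e) * e := (Nat.pow_le_pow_left h13 2).trans h14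
      have h17 : r * e * (2 * e) ≤ r * e * (r * e) := Nat.mul_le_mul_left _
        (Nat.mul_le_mul_right _ h15)
      nlinarith [Nat.mul_le_mul h15 h0]
    obtain ⟨i, rfl⟩ := h10 η hη
    obtain ⟨k, rfl⟩ := h10 η' hη'
    exact h8 i k

end Cfsg.Agent.S4634
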