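import Mathlib
-- Template for statement S4635 (row 4635; see /opt/grader/pristine/manifest.json for weights).
-- Copy to Cfsg/Agent/S4635.lean and replace the sorry. The statement below is byte-identical to the frozen
-- statement Cfsg.CfsgFrozen.S4635 (Cfsg/Statements/S4635.lean; the theorem Cfsg.blk6_cyclic_defect_perfect_isometry_with_correspondent_in_normalizer_of_order_p_subgroup);
-- the grader kernel-checks Cfsg.Agent.S4635.result against that frozen type. Keep the theorem IN THIS FILE
-- (a `result` declared elsewhere and merely imported here is not credited); helpers may live anywhere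
-- under Cfsg/Agent/.
import Cfsg.Statements.S4635
import Cfsg.Agent.Blk.CycPerf
import Cfsg.Agent.Blk.PairKer
import Cfsg.Agent.Blk.Watanabe
import Cfsg.Agent.S4636

set_option autoImplicit false
set_option linter.style.haveILetI false
set_option linter.unusedVariables false
open Cfsg

namespace Cfsg.Agent.S4635


/-- Let B be a block of the finite group G relative to a maximal ideal M of the algebraic integers containing the prime p, with a nontrivial cyclic defect group P; let Z be the subgroup of order p of P and H = N_G(Z), which contains N_G(P). Let c be the block of H with defect group P that induces B. Then B and c contain the same number of irreducible characters, have the same p-regular rank, and there is a perfect isometry from c onto B. -/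
theorem result {G : Type*} [Group G] [Finite G] (p : ℕ) [Fact p.Prime] (M : Ideal Cfsg.AlgInt) (hM : Cfsg.IsPModular p M) (B : Set (Cfsg.IrrCharacter G)) (hB : Cfsg.IsPBlock M B) (P : Subgroup G) (hPD : Cfsg.IsDefectGroup p M B P) (hP1 : P ≠ ⊥) (hcyc : IsCyclic P) (Z : Subgroup G) (hZ : Z ≤ P) (hZcard : Nat.card Z = p) (H : Subgroup G) (hH : H = Subgroup.normalizer (Z : Set G)) (c : Set (Cfsg.IrrCharacter H)) (hcD : Cfsg.IsDefectGroup p M c (P.subgroupOf H)) (hc : Cfsg.IsInducedBlock M H c B) : Nat.card c = Nat.card B ∧ Cfsg.blockRank p c = Cfsg.blockRank p B ∧ ∃ (I : Cfsg.IrrCharacter H → Cfsg.IrrCharacter G) (ε : Cfsg.IrrCharacter H → ℤ), Cfsg.IsPerfectIsometry p M c B I ε := by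
  open Cfsg.Agent.Blk Cfsg.Agent.Blk.Ab Cfsg.Agent.Blk.CD Cfsg.Agent.Blk.PD Cfsg.Agent.Blk.Mod Cfsg.Agent.GT in
  classical
  haveI := hM.isMaximal
  haveI := hM.charP
  haveI := Fintype.ofFinite G
  have hP := (hPD.isDef hM hB).pgroup
  have hN : Subgroup.normalizer (P : Set G) ≤ H := hH ▸ fun x hx =>
    (S4636.result p P hP hP1 hcyc Z hZ hZcard).2 P le_rfl hP1 hx
  have hK : ℭ[P] ≤ H := (centralizer_le_normalizer' P).trans hN
  have hPH : P ≤ H := Subgroup.le_normalizer.trans hN
  obtain ⟨c₀, h1, h2, h3⟩ := PK.exists_root hM hc.1 hP hPH hK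
    ((hc.1.isDefectGroup_subgroupOf_iff hM hPH).1 hcD).br_ne
  obtain ⟨-, h⟩ := absOf hM hPD (fun x hx y hy => congrArg Subtype.val
    (mul_comm' (⟨x, hx⟩ : P) ⟨y, hy⟩)) ((h3 B).1 hc)
  rw [← h.ib_eq hK hc.1 h2]
  have j := Subgroup.subgroupOfEquivOfLe hPH
  haveI : IsCyclic (P.subgroupOf H) := isCyclic_of_injective j.toMonoidHom j.injective
  haveI := (Subgroup.nontrivial_iff_ne_bot P).2 hP1
  haveI := j.toEquiv.nontrivial
  have h4 : P.subgroupOf H ≠ ⊥ := (Subgroup.nontrivial_iff_ne_bot _).1 ‹_›
  obtain ⟨a, ha⟩ := exists_ne (1 : P.subgroupOf H)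
  have h5 := h.ncl_sub hK (pstab_le_normalizer.trans hN) a
  rw [(h.sub hK).ncl_of_free ((h.sub hK).free_of_isCyclic a ha),
    h.ncl_of_free (h.free_of_isCyclic _ (by simpa using ha))] at h5
  have h6 := Nat.card_congr j.toEquiv
  refine ⟨?_, ?_, exists_perfect' (h.sub hK) h4 h h6 h5⟩
  · rw [(card_eq (h.sub hK) h4).2, (card_eq h hP1).2, h5, h6]
  · rw [(card_eq (h.sub hK) h4).1, (card_eq h hP1).1, h5]

end Cfsg.Agent.S4635
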