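import Mathlib
import Cfsg.Statements.S4638
import Cfsg.Agent.Blk.Klein4

set_option autoImplicit false
open Cfsg

namespace Cfsg.Agent.S4638

open Cfsg.Agent.Blk Cfsg.Agent.Blk.Mod Cfsg.Agent.Blk.PD Cfsg.Agent.GT Cfsg.Agent.Ch

/-- Let B be a block of the finite group G relative to a maximal ideal M of the algebraic integers containing 2, with a Klein four defect group P, and let c be its Brauer correspondent: the block of N_G(P) with defect group P that induces B. Then there is a perfect isometry from c onto B. -/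
theorem result {G : Type*} [Group G] [Finite G] (M : Ideal Cfsg.AlgInt) (hM : Cfsg.IsPModular 2 M) (B : Set (Cfsg.IrrCharacter G)) (hB : Cfsg.IsPBlock M B) (P : Subgroup G) (hPD : Cfsg.IsDefectGroup 2 M B P) (hV : IsKleinFour P) (c : Set (Cfsg.IrrCharacter (Subgroup.normalizer (P : Set G)))) (hcD : Cfsg.IsDefectGroup 2 M c (P.subgroupOf (Subgroup.normalizer (P : Set G)))) (hc : Cfsg.IsInducedBlock M (Subgroup.normalizer (P : Set G)) c B) : ∃ (I : Cfsg.IrrCharacter (Subgroup.normalizer (P : Set G)) → Cfsg.IrrCharacter G) (ε : Cfsg.IrrCharacter (Subgroup.normalizer (P : Set G)) → ℤ), Cfsg.IsPerfectIsometry 2 M c B I ε := by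
---
  classical
  haveI := hM.isMaximal; haveI := hM.charP
  haveI := Fintype.ofFinite G
  obtain ⟨e, h⟩ := Ab.exists_absOf hM hB hPD (fun x hx y hy => congrArg Subtype.val
    ((IsKleinFour.isMulCommutative (G := P)).is_comm.comm ⟨x, hx⟩ ⟨y, hy⟩))
  have hK : ℭ[P] ≤ Subgroup.normalizer (P : Set G) := centralizer_le_normalizer' P
  have h1 := (hc.isDefectGroup_of_normalizer hM h.pgroup hcD).2
  rw [← h.ib_eq hK hc.1 (by rw [← h1, br_br_of_le le_rfl]; exact h.max.eq)]
  have j := Subgroup.subgroupOfEquivOfLe (h.ab.trans hK)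
  haveI hV' : IsKleinFour (P.subgroupOf (Subgroup.normalizer (P : Set G))) :=
    ⟨(Nat.card_congr j.toEquiv).trans hV.card_four,
      (Monoid.exponent_eq_of_mulEquiv j).trans hV.exponent_two⟩
  refine h.klein_perfect (h.sub hK) ?_
  haveI : Nontrivial (P.subgroupOf (Subgroup.normalizer (P : Set G))) :=
    Finite.one_lt_card_iff_nontrivial.1 (by rw [hV'.card_four]; norm_num)
  obtain ⟨a, ha⟩ := exists_ne (1 : P.subgroupOf (Subgroup.normalizer (P : Set G)))
  rw [← (h.sub hK).ncl_of_free ((h.sub hK).klein_free a ha), h.ncl_sub hK pstab_le_normalizer,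
    h.ncl_of_free (h.klein_free _ (by simpa using ha))]

end Cfsg.Agent.S4638
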