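import Cfsg.Statements.S4642
import Cfsg.Agent.Blk.Fong
import Cfsg.Agent.Blk.PairDict2

set_option autoImplicit false
open Cfsg

namespace Cfsg.Agent.S4642

set_option linter.unusedVariables false
set_option linter.style.haveILetI false
open Cfsg.Agent.Blk Cfsg.Agent.Blk.Mod Cfsg.Agent.Blk.PD Cfsg.Agent.GT Cfsg.Agent.Ch

/-- In a `p`-constrained group an invariant block idempotent of `O_{p'}(G)` is a block idempotent
of `G`. -/
theorem prim_top {G : Type*} [Group G] [Finite G] {p : ℕ} [Fact p.Prime] {M : Ideal AlgInt}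
    [M.IsMaximal] (hM : IsPModular p M) (hG : IsPConstrained p G) {e : MonoidAlgebra (Res M) G}
    (he : IsPrim (ZA (pPrimeCore p G) (pPrimeCore p G)) e) (hF : e ∈ Mod.Fix ⊤) :
    IsPrim (ZA ⊤ ⊤) e := by
  obtain ⟨b, hb, rfl⟩ := isPrim_ZA_iff.1 he
  obtain ⟨θ, hθ⟩ := hb.nonempty
  have hb' := Om.isPBlock_singleton_of_not_dvd hM (not_dvd_card_pPrimeCore hM.prime) θ
  obtain rfl : b = {θ} := hb.eq_of_mem hb' hθ rfl
  have hst := eq_top_iff.2 ((Cov.epsIn_mem_Fix_iff hb).1 hF)
  have hB := (Om.isPBlock_overSet_of_invariant hM hG rfl (θ := θ)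
    (by rw [← Om.blkStab_singleton, hst])).1
  rw [← (blockCoeff_eq_iff_top hB hb).1 fun g => by
    rw [Om.blockCoeff_overSet hst, Om.subgroupBlockCoeff_eq]]
  exact hB.isPrim_ZA_top

/-- Let G be a finite group, p a prime, M a maximal ideal of the algebraic integers containing p, K the largest normal subgroup of G of order prime to p, and L the preimage in G of the largest normal p-subgroup of G/K. Let Q be a Sylow p-subgroup of L and suppose C_G(Q) ≤ L. Let θ be an irreducible character of K invariant under conjugation by every element of G, and let B be the set of irreducible characters of G whose restriction to K contains θ. Then B is a block of G, every Sylow p-subgroup of G is a defect group of B, and B is of principal type: for every p-subgroup R of G exactly one block of C_G(R) induces B. -/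
theorem result {G : Type*} [Group G] [Fintype G] (p : ℕ) [Fact p.Prime] (M : Ideal Cfsg.AlgInt) (hM : Cfsg.IsPModular p M) (K : Subgroup G) (hK : K = Cfsg.pPrimeCore p G) [Fintype K] (L : Subgroup G) (hL : L = Cfsg.pPrimePCore p G) (Q : Subgroup G) (hQL : Q ≤ L) (hQp : IsPGroup p Q) (hQS : ¬ p ∣ Q.relIndex L) (hCQ : Subgroup.centralizer (Q : Set G) ≤ L) (θ : Cfsg.IrrCharacter K) (hθ : ∀ g : G, Cfsg.IsConjCharOf K g (θ : K → ℂ) (θ : K → ℂ)) (B : Set (Cfsg.IrrCharacter G)) (hBdef : ∀ χ : Cfsg.IrrCharacter G, χ ∈ B ↔ Cfsg.classInner (fun k : K => (χ : G → ℂ) k) (θ : K → ℂ) ≠ 0) : Cfsg.IsPBlock M B ∧ (∀ S : Sylow p G, Cfsg.IsDefectGroup p M B S) ∧ ∀ R : Subgroup G, IsPGroup p R → ∃! f : Set (Cfsg.IrrCharacter (Subgroup.centralizer (R : Set G))), Cfsg.IsInducedBlock M (Subgroup.centralizer (R : Set G)) f B := by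
  classical
  haveI := hM.isMaximal; haveI := hM.charP
  subst hK hL
  have hG : IsPConstrained p G := by
    let P : Sylow p (pPrimePCore p G) := (hQp.comap_of_injective _ Subtype.val_injective :
      IsPGroup p (Q.subgroupOf (pPrimePCore p G))).toSylow hQS
    have hP : (P : Subgroup (pPrimePCore p G)).map (pPrimePCore p G).subtype = Q :=
      Subgroup.map_subgroupOf_eq_of_le hQL
    rw [isPConstrained_iff, ← map_centralizer_sylow_pPrimePCore P, hP, ← map_pPrimePCore]
    exact Subgroup.map_mono hCQ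
  have hinv : inertia (pPrimeCore p G) (θ : pPrimeCore p G → ℂ) = ⊤ :=
    eq_top_iff.2 fun g _ => mem_inertia'.2 (by simpa using (Om.isConjCharOf_iff.1 (hθ g⁻¹)).symm)
  obtain rfl : B = Om.overSet _ {θ} := Set.ext fun χ => by
    rw [hBdef, ← Om.over_subtype_iff]
    exact ⟨fun h => ⟨θ, rfl, h⟩, fun ⟨_, h1, h⟩ => h1 ▸ h⟩
  obtain ⟨hB, hd⟩ := Om.isPBlock_overSet_of_invariant hM hG rfl hinv
  have hKp := not_dvd_card_pPrimeCore (G := G) hM.prime
  have hb := Om.isPBlock_singleton_of_not_dvd hM hKp θ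
  have hst : Om.blkStab _ {θ} = ⊤ := by rw [Om.blkStab_singleton, hinv]
  have heps := (blockCoeff_eq_iff_top hB hb).1 fun g => by
    rw [Om.blockCoeff_overSet hst, Om.subgroupBlockCoeff_eq]
  have hF := hB.isPrim_ZA_top.mem.2
  have hS : ∀ S : Sylow p G, IsDef p ⊤ (eps M (Om.overSet _ {θ})) S := fun S => by
    obtain ⟨D, hD⟩ := hB.exists_isDefectGroup p
    obtain ⟨S', hS'⟩ := hD.isPGroup.exists_le_sylow
    have h1 : D = S' := Subgroup.eq_of_le_of_card_ge hS' (by
      rw [hD.card_eq_pow_blockDefect hM hB, hd, S'.card_eq_multiplicity])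
    obtain ⟨x, rfl⟩ := MulAction.exists_smul_eq G S' S
    exact (h1 ▸ hD.isDef hM hB).conj_mem hF (Subgroup.mem_top x)
  refine ⟨hB, fun S => (hB.isDefectGroup_iff_isDef hM).2 (hS S), fun R hR => ?_⟩
  have hbr : br R (eps M (Om.overSet _ {θ})) ≠ 0 := by
    obtain ⟨S, h⟩ := hR.exists_le_sylow
    exact (hS S).br_ne_of_le h
  have hN : NIn (pPrimeCore p G) (pPrimeCore p G ⊔ R) := Cov.nIn_of_le le_sup_left
  have hpr : IsPrim (ZA _ (pPrimeCore p G ⊔ R)) (eps M (Om.overSet _ {θ})) :=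
    (heps ▸ hb.isPrim_epsIn).of_fix le_sup_left (Fix_anti le_top hF)
  have hdis : ∀ {R' : Subgroup G}, IsPGroup p R' → ∀ x ∈ pPrimeCore p G, x ∈ R' → x = 1 := by
    intro R' hR' x h1 h2
    obtain ⟨k, hk⟩ := IsPGroup.iff_orderOf.1 hR' ⟨x, h2⟩
    rw [Subgroup.orderOf_mk] at hk
    rcases k with _ | k
    · exact orderOf_eq_one_iff.1 hk
    · exact (hKp ((hk ▸ dvd_pow_self p k.succ_ne_zero).trans
        (Subgroup.orderOf_dvd_natCard _ h1))).elim
  have hD := isDef_of_maximal hN hpr hR le_sup_right hbr fun R' hR' h1 h2 _ => by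
    refine le_antisymm (fun x hx => ?_) h1
    obtain ⟨n, hn, u, hu, rfl⟩ := Subgroup.mem_sup_of_normal_left.1 (h2 hx)
    rw [hdis hR' n hn ((mul_mem_cancel_right (h1 hu)).1 hx), one_mul]
    exact hu
  have h1 := hD.br_prim hN hpr
  have h2 : IsPrim (ZA (pPrimeCore p G ⊓ ℭ[R]) (pPrimeCore p G ⊓ ℭ[R]))
      (br R (eps M (Om.overSet _ {θ}))) := by
    have hle : (pPrimeCore p G ⊔ R) ⊓ Subgroup.normalizer (R : Set G) ≤
        (pPrimeCore p G ⊓ ℭ[R]) ⊔ R := fun x hx => by
      obtain ⟨n, hn, u, hu, rfl⟩ := Subgroup.mem_sup_of_normal_left.1 hx.1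
      refine Subgroup.mul_mem_sup ⟨hn, fun y hy => ?_⟩ hu
      have h2 : n ∈ Subgroup.normalizer (R : Set G) :=
        (mul_mem_cancel_right (Subgroup.le_normalizer hu)).1 hx.2
      have h3 := hdis hR (n * y * n⁻¹ * y⁻¹) (by
        rw [mul_assoc, mul_assoc, ← mul_assoc y]
        exact mul_mem hn (Subgroup.Normal.conj_mem inferInstance _ (inv_mem hn) y))
        (mul_mem ((Subgroup.mem_normalizer_iff.1 h2 y).1 hy) (inv_mem hy))
      rw [mul_inv_eq_one, mul_inv_eq_iff_eq_mul] at h3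
      exact h3.symm
    refine le_antisymm (ZA_mono (R := Res M) le_rfl (le_inf (inf_le_left.trans le_sup_left)
      (inf_le_right.trans (centralizer_le_normalizer' R)))) (fun a ha => ?_) ▸ h1
    exact ⟨ha.1, Fix_anti hle (mem_Fix_sup.2
      ⟨ha.2, mem_Fix_of_Supp_centralizer (Supp_mono inf_le_right ha.1)⟩)⟩
  have h3 : IsPrim (ZA ℭ[R] ℭ[R]) (br R (eps M (Om.overSet _ {θ}))) := by
    rw [← hG.pPrimeCoreOf_centralizer hR] at h2
    obtain ⟨a, ha⟩ := exists_mp_eq ℭ[R].subtype_injective h2.mem.1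
    have h4 := (br_mem_ZA_centralizer (P := R) (Fix_anti le_top hF)).2
    rw [← ha] at h2 h4 ⊢
    have h5 := (isPrim_mp ℭ[R].subtype_injective).2 (prim_top hM (hG.centralizer hR)
      ((isPrim_mp ℭ[R].subtype_injective).1 h2) ((mp_mem_Fix ℭ[R].subtype_injective).1
        (by rwa [map_subtype_top])))
    rwa [map_subtype_top] at h5
  have h4 : IsPair p ⊤ R (br R (eps M (Om.overSet _ {θ}))) :=
    ⟨hR, le_normalizer_top R, by rwa [cen_top]⟩
  obtain ⟨f, hf, hfe⟩ := exists_eq_epsIn h4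
  refine ⟨f, (isInducedBlock_centralizer_iff hM hR).2 ⟨hB, hf, by rw [← hfe, h4.idem]⟩,
    fun c hc => ?_⟩
  obtain ⟨-, hc, h⟩ := (isInducedBlock_centralizer_iff hM hR).1 hc
  refine hc.eq_of_epsIn_eq hf ?_
  rw [← hfe]
  exact (h4.eq_of_mul_ne_zero (isPair_epsIn hR hc) (h.symm ▸ (isPair_epsIn hR hc).ne_zero)).symm

end Cfsg.Agent.S4642
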