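import Cfsg.Statements.S4643
import Cfsg.Agent.Blk.DgnFin
import Cfsg.Agent.Blk.Fong
import Cfsg.Agent.Blk.CoverDict

set_option autoImplicit false
set_option linter.unusedSectionVars false
set_option linter.unusedVariables false
set_option linter.style.haveILetI false
open Cfsg

namespace Cfsg.Agent.Blk.Dgn

open MonoidAlgebra Cfsg.Agent.Blk.Mod Cfsg.Agent.Blk.PD Cfsg.Agent.Blk.Om Cfsg.Agent.Ch
  Cfsg.Agent.GT

universe u v

section Comap

variable {F : Type*} [Field F] {G K : Type*} [Group G] [Finite G] [Group K] [Finite K]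
  {Γ : Type*} [Group Γ] {π : G →* Γ} {H N : Subgroup G} {f : K →* G}

theorem Dat.comap (D : Dat π f.range N) : Dat (π.comp f) ⊤ (N.comap f) :=
  ⟨fun x _ => Subgroup.mem_normalizer_iff.2 fun y => by
    simpa using Subgroup.mem_normalizer_iff.1 (D.norm ⟨x, rfl⟩) (f y), fun x => by
    obtain ⟨_, ⟨h, rfl⟩, e⟩ := D.surj x
    exact ⟨h, trivial, e⟩, fun h _ e => D.ker _ ⟨h, rfl⟩ e, fun n hn => D.le _ hn⟩

theorem Sys.comap (hf : Function.Injective f) (D : Dat π f.range N) (hN : N ≤ f.range) {e : F[K]}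
    {c : Γ → F[G]} {a : Γ → Γ → F} (S : Sys π f.range N (mp f e) c a) :
    ∃ d, Sys (π.comp f) ⊤ (N.comap f) e d a := by
  have hm := Subgroup.map_comap_eq_self hN
  choose d hd using fun x => exists_mp_eq hf (H := ⊤) (b := c x) (by
    obtain ⟨h, hh, e⟩ := D.surj x
    have := mul_mem (Supp_mono hN ((S.hm x).supp h hh e)) (single_mem_Supp hh (1 : F))
    rwa [mul_assoc, single_mul_single, inv_mul_cancel, mul_one, ← one_def, mul_one,
      MonoidHom.range_eq_map] at this)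
  refine ⟨d, fun x => ⟨fun h _ e => (mp_mem_Supp hf).1 ?_, (mp_mem_Fix hf).1 ?_,
    mp_injective hf ?_⟩, mp_injective hf (by rw [hd, S.one]), fun x y => mp_injective hf (by
      rw [map_mul, map_smul, hd, hd, hd, S.mul]), S.ne⟩
  · rw [hm, map_mul, hd, mp_single, map_inv]
    exact (S.hm x).supp _ ⟨h, rfl⟩ e
  · rw [hm, hd]; exact (S.hm x).fix
  · rw [map_mul, hd, (S.hm x).mul]

end Comap

variable {p : ℕ} [hp : Fact p.Prime] {M : Ideal AlgInt} [M.IsMaximal]

section Base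

variable {G K : Type*} [Group G] [Finite G] [Group K] [Finite K] {f : K →* G}
  {B : Set (IrrCharacter G)} {P : Subgroup G} {c : Set (IrrCharacter K)}

theorem indAlong_iff (hM : IsPModular p M) (hB : IsPBlock M B) (hP : IsDefectGroup p M B P)
    (hf : Function.Injective f) (hr : f.range = Subgroup.normalizer (P : Set G))
    (hc : IsPBlock M c) : IndAlong M f c B ↔ mp f (eps M c) = br P (eps M B) := by
  let e := ((MonoidHom.ofInjective hf).trans (MulEquiv.subgroupCongr hr)).symm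
  have he : f.comp (e : _ →* K) = (Subgroup.normalizer (P : Set G)).subtype := by
    ext x
    obtain ⟨y, rfl⟩ := e.symm.surjective x
    simp [e, MonoidHom.ofInjective_apply]
  rw [← indAlong_blkCongr_left e, he, ← mp_eps_blkCongr e, mp_comp, he, ← epsIn_eq_mp, eq_comm,
    ← hP.isInducedBlock_iff hM hB (isPBlock_blkCongr e hc), isInducedBlock_iff,
    and_iff_right (isPBlock_blkCongr e hc), and_iff_right hB]

theorem exists_indAlong (hM : IsPModular p M) (hB : IsPBlock M B) (hP : IsDefectGroup p M B P)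
    (hf : Function.Injective f) (hr : f.range = Subgroup.normalizer (P : Set G)) :
    ∃ c, IsPBlock M c ∧ IndAlong M f c B := by
  obtain ⟨b, hb, -, h⟩ := hP.exists_br_eq_epsIn hM hB
  let e := (MonoidHom.ofInjective hf).trans (MulEquiv.subgroupCongr hr)
  exact ⟨_, isPBlock_blkCongr e hb, ((indAlong_blkCongr_left e).2 (indAlong_of_isInducedBlock
    ((hP.isInducedBlock_iff hM hB hb).2 h))).congr fun x => by simp [e, MonoidHom.ofInjective_apply]⟩

theorem coeff_epsIn_ne (hM : IsPModular p M) {N : Subgroup G} (hN : ¬ p ∣ Nat.card N)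
    (θ : IrrCharacter N) : (epsIn M N {θ}).coeff 1 ≠ 0 := fun h => by
  have h1 := congrArg (red M) (card_mul_coeff_setIdem θ)
  rw [red_mul (.natCast _) (mem_locAlg.1 (isPBlock_singleton_of_not_dvd hM hN θ).setIdem_mem 1),
    show red M ((setIdem {θ}).coeff 1) = 0 from (coeff_extendFrom_coe N (eps M {θ}) 1).symm.trans h,
    mul_zero, ← Nat.cast_pow, red_natCast, eq_comm, hM.natCast_res_eq_zero_iff] at h1
  exact hN ((hM.prime.dvd_of_dvd_pow h1).trans θ.2.charDegree_dvd_card)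

theorem pf_base (hM : IsPModular p M) (hG : IsPConstrained p G) (hB : IsPBlock M B)
    (hP : IsDefectGroup p M B P) (hab : ∀ x ∈ P, ∀ y ∈ P, x * y = y * x)
    (hf : Function.Injective f) (hr : f.range = Subgroup.normalizer (P : Set G))
    (hc : IsPBlock M c) (h : IndAlong M f c B) {N : Subgroup G} [N.Normal]
    (hNd : N = pPrimeCore p G) {θ : IrrCharacter N}
    (hθ : inertia _ θ.1 = ⊤) (hcov : Covers N.subtype B {θ}) : PF p M B c := by
  haveI := hM.charP
  have hN : ¬ p ∣ Nat.card N := hNd ▸ not_dvd_card_pPrimeCore hp.out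
  have hG' : ℭ[pCore p (G ⧸ N)] ≤ pCore p (G ⧸ N) := by subst hNd; exact isPConstrained_iff.1 hG
  have hb := isPBlock_singleton_of_not_dvd hM hN θ
  obtain ⟨h1, h2⟩ := isPBlock_overSet_of_invariant hM hG hNd hθ
  obtain ⟨χ, hχ, hχ'⟩ := hcov
  rw [← hB.eq_of_mem h1 hχ hχ'] at h2
  have h3 : eps M B = epsIn M N {θ} := (blockCoeff_eq_iff_top hB hb).1 fun g => by
    rw [hB.eq_of_mem h1 hχ hχ', blockCoeff_overSet ((blkStab_singleton θ).trans hθ),
      subgroupBlockCoeff_eq]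
  obtain ⟨S, hS⟩ := hP.isPGroup.exists_le_sylow
  obtain rfl : P = S := Subgroup.eq_of_le_of_card_ge hS (by
    rw [hP.card_eq_pow_blockDefect hM hB, h2, S.card_eq_multiplicity])
  let π := QuotientGroup.mk' N
  have D : Dat π ⊤ N := ⟨Subgroup.le_normalizer_of_normal, fun x => (QuotientGroup.mk'_surjective N x).imp
    fun _ e => ⟨trivial, e⟩, fun g _ => (QuotientGroup.eq_one_iff g).1,
    fun g => (QuotientGroup.eq_one_iff g).2⟩
  have D' : Dat π f.range N := ⟨le_top.trans D.norm, fun x => by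
    have h4 : pCore p (G ⧸ N) ≤ S.1.map π :=
      (isPGroup_pCore p).le_sylow_of_normal (S.mapSurjective (QuotientGroup.mk'_surjective N))
    obtain ⟨g, -, rfl⟩ := D.surj x
    have h5 := S.normalizer_sup_eq_top' (N := (pCore p (G ⧸ N)).comap π) fun u hu =>
      hG' (Subgroup.mem_centralizer_iff.2 fun y hy => by
        obtain ⟨z, hz, rfl⟩ := h4 hy
        rw [← map_mul, ← map_mul, hab z hz u hu])
    obtain ⟨h, hh, l, hl, rfl⟩ := Subgroup.mem_sup_of_normal_right.1 (h5 ▸ Subgroup.mem_top g)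
    obtain ⟨u, hu, e⟩ := h4 hl
    exact ⟨h * u, hr ▸ mul_mem hh (Subgroup.le_normalizer hu), by rw [map_mul, e, map_mul]⟩,
    fun g _ => D.ker g trivial, D.le⟩
  have he : IsPrim (ZA N N) (eps M B) := h3 ▸ hb.isPrim_epsIn
  have h4 : (eps M B).coeff 1 ≠ 0 := h3 ▸ coeff_epsIn_ne hM hN θ
  obtain ⟨d, γ, -, S₁, -⟩ := exists_sys D (fun e => hN ((hM.natCast_res_eq_zero_iff _).1 e)) he
    (mem_Fix_of_ctr (eps_mem_ctr B) _)
  haveI : IsMulCommutative S.1 := ⟨⟨fun x y => Subtype.ext (hab _ x.2 _ y.2)⟩⟩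
  obtain ⟨m, hm⟩ := IsPGroup.iff_card.1 S.isPGroup'
  have hle : S.1 ≤ f.range := hr ▸ Subgroup.le_normalizer
  obtain ⟨d', S₂⟩ := Sys.loc (H := f.range) ⟨fun x => ⟨fun g _ => (S₁.hm x).supp g trivial,
    (S₁.hm x).fix, (S₁.hm x).mul⟩, S₁.one, S₁.mul, S₁.ne⟩ D' hN he
    (mem_Fix_of_ctr (eps_mem_ctr B) _) h4 m S.1 S.isPGroup' hle hr.le fun u hu => by
      rw [← hm, show u ^ Nat.card S.1 = 1 from
        congrArg Subtype.val (pow_card_eq_one' (x := (⟨u, hu⟩ : S.1)))]
      exact one_mem _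
  have D'' := D'.loc S.isPGroup' hN hle hr.le
  have h5 := isPrim_br S.isPGroup' hN Subgroup.le_normalizer_of_normal he
    (mem_Fix_of_ctr (eps_mem_ctr B) _) h4
  have hC : N ⊓ ℭ[S.1] ≤ f.range := hr ▸ inf_le_right.trans (centralizer_le_normalizer' _)
  rw [← (indAlong_iff hM hB hP hf hr hc).1 h] at S₂ h5
  obtain ⟨d₀, S₃⟩ := S₂.comap hf D'' hC
  rw [← Subgroup.map_comap_eq_self hC, isPrim_mp hf] at h5
  obtain ⟨c₁, a₁, n₁, T₁, e₁⟩ := exists_side hM D hN hB he S₁
  obtain ⟨c₂, a₂, n₂, T₂, e₂⟩ := exists_side hM D''.comap (fun e => hN (e.trans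
    ((Subgroup.card_comap_dvd_of_injective _ f hf).trans (Subgroup.card_dvd_of_le inf_le_left))))
    hc h5 S₃
  obtain rfl : a₁ = a₂ := funext₂ fun x y => by
    obtain ⟨_, h6, h7⟩ := T₁.root x y
    obtain ⟨_, h8, h9⟩ := T₂.root x y
    exact hM.eq_of_red_eq h6 h8 h7 h9 ((e₁ x y).trans (e₂ x y).symm)
  haveI := Fintype.ofFinite (G ⧸ N)
  exact T₁.pf hM T₂

end Base

theorem pf_indSet {G : Type*} [Group G] [Fintype G] {N T : Subgroup G} [N.Normal]
    {b : Set (IrrCharacter N)} (hb : IsPBlock M b) {hNT : N ≤ T} (hT : blkStab N b ≤ T)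
    {B : Set (IrrCharacter T)} (hB : IsPBlock M B) (hc : Covers (Subgroup.inclusion hNT) B b)
    {K : Type*} [Group K] [Finite K] {c : Set (IrrCharacter K)} (h : PF p M B c) :
    PF p M (Om.indSet T B) c :=
  h.ind (fun _ => FR.isIrr hb hT hB hc) fun ψ hψ ψ' hψ' e => by
    obtain ⟨θ, hθ, h1⟩ := hc.exists_over_inclusion hB hb hψ
    obtain ⟨θ', hθ', h2⟩ := hc.exists_over_inclusion hB hb hψ'
    have h3 := FR.isIrr hb hT hB hc hψ
    exact FR.eq_of_over hb hT hθ hθ' h1 h2 (χ := ⟨_, h3⟩) (over_indFun ψ.2.isCharacter h3)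
      (by change Over _ (indFun _ _) _; rw [e]; exact over_indFun ψ'.2.isCharacter (e ▸ h3))

theorem pf_main (hM : IsPModular p M) (n : ℕ) : ∀ (G : Type u) [Group G] [Finite G],
    Nat.card G = n → IsPSolvable p G → ∀ {B : Set (IrrCharacter G)}, IsPBlock M B →
    ∀ {P : Subgroup G}, IsDefectGroup p M B P → (∀ x ∈ P, ∀ y ∈ P, x * y = y * x) →
    ∀ (K : Type v) [Group K] [Finite K] (f : K →* G), Function.Injective f →
    f.range = Subgroup.normalizer (P : Set G) → ∀ {c : Set (IrrCharacter K)}, IsPBlock M c →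
    IndAlong M f c B → PF p M B c := by
  induction n using Nat.strong_induction_on with
  | _ n ih =>
  intro G _ _ hn hG B hB P hP hab K _ _ f hf hr c hc h
  haveI := hM.charP
  haveI := Fintype.ofFinite G
  haveI := Fintype.ofFinite K
  obtain ⟨χ, hχ⟩ := hB.nonempty
  obtain ⟨N, hNd⟩ : ∃ N, N = pPrimeCore p G := ⟨_, rfl⟩
  haveI : N.Normal := hNd ▸ inferInstance
  obtain ⟨θ, hθ⟩ := exists_over_under N.subtype χ
  have hN : ¬ p ∣ Nat.card N := hNd ▸ not_dvd_card_pPrimeCore hp.out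
  have hb := isPBlock_singleton_of_not_dvd hM hN θ
  have hcov : Covers _ B {θ} := ⟨χ, hχ, θ, rfl, hθ⟩
  by_cases hT : inertia _ θ.1 = ⊤
  · exact pf_base hM hG.isPConstrained hB hP hab hf hr hc h hNd hT hcov
  rw [← blkStab_singleton] at hT
  obtain ⟨T, hTd⟩ : ∃ T, blkStab N {θ} = T := ⟨_, rfl⟩
  have hNT : N ≤ T := hTd ▸ le_blkStab _
  obtain ⟨B', hB', hc', rfl⟩ := FR.exists_eq_indSet hb (hNT := hNT) hTd.le hB hcov
  obtain ⟨D, hD⟩ := hB'.exists_isDefectGroup p
  have h1 := FR.isDefectGroup hM hb hTd.le hB' hc' hD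
  obtain ⟨x, rfl⟩ := h1.exists_conj_eq hM hB hP
  set P := D.map T.subtype
  replace hab : ∀ y ∈ D, ∀ z ∈ D, y * z = z * y := fun y hy z hz => Subtype.ext
    ((MulAut.conj x).injective (by
      simpa using hab _ ⟨_, ⟨y, hy, rfl⟩, rfl⟩ _ ⟨_, ⟨z, hz, rfl⟩, rfl⟩))
  obtain ⟨f, hf, hr, h⟩ : ∃ f : K →* G, Function.Injective f ∧
      f.range = Subgroup.normalizer (P : Set G) ∧ IndAlong M f c (Om.indSet T B') :=
    ⟨(MulAut.conj x⁻¹).toMonoidHom.comp f, (MulAut.conj x⁻¹).injective.comp hf, by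
      rw [MonoidHom.range_comp, hr, Subgroup.map_equiv_normalizer_eq,
        show cs[x⁻¹] (cs[x] P) = P by simpa using map_conj_map_conj_inv P x⁻¹],
      h.conj fun y => isConj_iff.2 ⟨x⁻¹, rfl⟩⟩
  have hPT : P ≤ T := Subgroup.map_subtype_le D
  have he := hb.isPrim_epsIn
  have heT : epsIn M N {θ} ∈ Mod.Fix T := (Cov.epsIn_mem_Fix_iff hb).2 hTd.ge
  have h2 := isPrim_br h1.isPGroup hN Subgroup.le_normalizer_of_normal he (Fix_anti hPT heT)
    (coeff_epsIn_ne hM hN θ)
  have h3 : (N.comap f).map f = N ⊓ ℭ[P] := by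
    rw [Subgroup.map_comap_eq, hr]
    exact le_antisymm (fun g hg => ⟨hg.2, mem_cen_of_mem h1.isPGroup hN
      Subgroup.le_normalizer_of_normal hg.2 hg.1⟩) fun g hg =>
      ⟨centralizer_le_normalizer' _ hg.2, hg.1⟩
  obtain ⟨e₀, he₀⟩ := exists_mp_eq hf (h3 ▸ h2.mem.1)
  obtain ⟨b, hb', rfl⟩ := isPrim_ZA_iff.1 ((isPrim_mp hf).1 (by rw [h3, he₀]; exact h2))
  have h4 : blkStab (N.comap f) b ≤ T.comap f := fun y hy => by
    have hy' : f y ∈ Subgroup.normalizer (P : Set G) := hr ▸ ⟨y, rfl⟩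
    refine hTd.le <| (Cov.mem_blkStab_iff_cj hb).2 ((he.conj_of_normalizer (x := f y)
      (Subgroup.le_normalizer_of_normal (K := ⊤) trivial)
      (Subgroup.le_normalizer_of_normal (K := ⊤) trivial)).eq_of_mul_ne_zero (NIn.refl N).isComm he
      fun e => h2.ne_zero ?_)
    have h5 := congrArg (mp f) ((Cov.mem_blkStab_iff_cj hb').1 hy)
    rw [← cj_mp, he₀, cj_br, Tr.map_conj_eq_of_mem hy'] at h5
    rw [← h2.idem]
    nth_rewrite 1 [← h5]
    rw [← br_mul h1.isPGroup (cj_mem_Fix_of_normalizer (Fix_anti hPT heT) hy') (Fix_anti hPT heT), e,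
      map_zero]
  have hf' : Function.Injective (f.subgroupComap T) := fun y z e =>
    Subtype.ext (hf (congrArg Subtype.val e))
  have hr' : (f.subgroupComap T).range = Subgroup.normalizer (D : Set T) := by
    ext y
    rw [← mem_normalizer_map T.subtype_injective, ← hr]
    exact ⟨fun ⟨z, e⟩ => ⟨z, congrArg Subtype.val e⟩, fun ⟨z, e⟩ =>
      ⟨⟨z, show f z ∈ T from (show f z = y from e) ▸ y.2⟩, Subtype.ext e⟩⟩
  obtain ⟨c', hc'', h5⟩ := exists_indAlong hM hB' hD hf' hr'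
  have h6 : Covers (Subgroup.inclusion (Subgroup.comap_mono (f := f) hNT)) c' b := by
    rw [Cov.covers_inclusion_iff_eps _ hc'' hb', ← mp_ne_zero hf, map_mul, he₀, epsIn_eq_mp, mp_comp,
      show f.comp (T.comap f).subtype = T.subtype.comp (f.subgroupComap T) from rfl, ← mp_comp,
      (indAlong_iff hM hB' hD hf' hr' hc'').1 h5, ← br_mp T.subtype_injective, ← epsIn_eq_mp,
      ← br_mul h1.isPGroup (Fix_anti hPT (epsIn_mem_ZA T B').2) (Fix_anti hPT heT),
      comm_of_Fix_Supp (epsIn_mem_ZA T B').2 (Supp_mono hNT he.mem.1),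
      hB'.isPrim_epsIn.mul_eq_of_ne_zero ⟨Supp_mono hNT he.mem.1, heT⟩ he.idem (by
        rw [← comm_of_Fix_Supp (epsIn_mem_ZA T B').2 (Supp_mono hNT he.mem.1)]
        exact (Cov.covers_inclusion_iff_eps _ hB' hb).1 hc')]
    exact ((hB'.isDefectGroup_iff_isDef_map hM).1 hD).br_ne
  have h7 := FR.isInducedBlock hb' h4 hc'' h6
  obtain rfl : c = Om.indSet (T.comap f) c' := hc.eq_of_eps_eq h7.2.1 (mp_injective hf (by
    rw [(indAlong_iff hM hB h1 hf hr hc).1 h, (indAlong_iff hM hB h1 hf hr h7.2.1).1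
      ((indAlong_of_isInducedBlock h7).of_comp (h5.trans (indAlong_of_isInducedBlock
        (FR.isInducedBlock hb hTd.le hB' hc')) hB'.nonempty) hc''.nonempty)]))
  refine (pf_indSet hb' h4 hc'' h6 (pf_indSet hb hTd.le hB' hc'
    (ih _ ?_ _ rfl (hG.subgroup _) hB' hD hab _ _ hf' hr' hc'' h5)).symm).symm
  rw [← hn, ← Subgroup.card_top (G := G)]
  exact Tr.card_lt_of_lt (lt_top_iff_ne_top.2 (hTd ▸ hT))

end Cfsg.Agent.Blk.Dgn

namespace Cfsg.Agent.S4643

/-- Let G be a finite p-solvable group, M a maximal ideal of the algebraic integers containing the prime p, and B a block of G with a commutative defect group P. Let c be the Brauer correspondent of B: the block of N_G(P) with defect group P that induces B. Then B and c contain the same number of irreducible characters, have the same p-regular rank, and there is a perfect isometry from c onto B. -/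
theorem result {G : Type*} [Group G] [Finite G] (p : ℕ) [Fact p.Prime] (M : Ideal Cfsg.AlgInt) (hM : Cfsg.IsPModular p M) (hsolv : Cfsg.IsPSolvable p G) (B : Set (Cfsg.IrrCharacter G)) (hB : Cfsg.IsPBlock M B) (P : Subgroup G) (hPD : Cfsg.IsDefectGroup p M B P) (hPab : ∀ x ∈ P, ∀ y ∈ P, x * y = y * x) (c : Set (Cfsg.IrrCharacter (Subgroup.normalizer (P : Set G)))) (hcD : Cfsg.IsDefectGroup p M c (P.subgroupOf (Subgroup.normalizer (P : Set G)))) (hc : Cfsg.IsInducedBlock M (Subgroup.normalizer (P : Set G)) c B) : Nat.card c = Nat.card B ∧ Cfsg.blockRank p c = Cfsg.blockRank p B ∧ ∃ (I : Cfsg.IrrCharacter (Subgroup.normalizer (P : Set G)) → Cfsg.IrrCharacter G) (ε : Cfsg.IrrCharacter (Subgroup.normalizer (P : Set G)) → ℤ), Cfsg.IsPerfectIsometry p M c B I ε := by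
  haveI := hM.2.1
  exact (Blk.Dgn.pf_main hM _ G rfl hsolv hB hPD hPab _ _ (Subgroup.subtype_injective _)
    (Subgroup.range_subtype _) hc.1 (Blk.Om.indAlong_of_isInducedBlock hc)).result

end Cfsg.Agent.S4643
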