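import Cfsg.Statements.S4650
import Cfsg.Agent.Blk.PairDict2

set_option autoImplicit false
open Cfsg

namespace Cfsg.Agent.S4650

set_option linter.unusedVariables false
set_option linter.style.haveILetI false
open Cfsg.Agent.Blk Cfsg.Agent.Blk.Mod Cfsg.Agent.Blk.PD Cfsg.Agent.GT Cfsg.Agent.Ch

/-- Local structure of a block with abelian defect group. -/
theorem loc {G : Type*} [Group G] [Finite G] {p : ℕ} [Fact p.Prime] {M : Ideal Cfsg.AlgInt}
    [M.IsMaximal] (hM : Cfsg.IsPModular p M) {B : Set (Cfsg.IrrCharacter G)} {P : Subgroup G}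
    (hPD : Cfsg.IsDefectGroup p M B P) (hab : P ≤ ℭ[P]) {c : Set (Cfsg.IrrCharacter ℭ[P])}
    (hc : Cfsg.IsInducedBlock M ℭ[P] c B) :
    IsPBlock M c ∧ IsMaxPair p ⊤ ⊤ (eps M B) P (epsIn M _ c) ∧
      ∀ Q : Subgroup G, Q ≤ P → ∀ f : Set (Cfsg.IrrCharacter ℭ[Q]),
        (Cfsg.IsInducedBlockIn M ℭ[Q] ℭ[P] c f ↔
          IsPBlock M f ∧ Mod.Sub p ⊤ Q (epsIn M _ f) P (epsIn M _ c)) ∧
        (IsPBlock M f → Mod.Sub p ⊤ Q (epsIn M _ f) P (epsIn M _ c) →
          (Cfsg.IsNilpotentBlock p M f ↔ pstab ⊤ P (epsIn M _ c) ⊓ ℭ[Q] ≤ ℭ[P])) := by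
  haveI := hM.charP
  have hP := hPD.isPGroup
  obtain ⟨hB, hcb, hbr⟩ := (isInducedBlock_centralizer_iff hM hP).1 hc
  have hpair := isPair_epsIn hP hcb
  have hmax : IsMaxPair p ⊤ ⊤ (eps M B) P (epsIn M _ c) :=
    IsPairOf.isMaxPair (NIn.refl ⊤) hB.isPrim_ZA_top ⟨hpair, le_top, hbr⟩ (hPD.isDef hM hB)
  refine ⟨hcb, hmax, fun Q hQP f => ?_⟩
  have hPQ : P ≤ ℭ[Q] := hab.trans (Subgroup.centralizer_le hQP)
  have hK : ℭ[P] = cen[ℭ[Q]] P := (inf_eq_right.2 (Subgroup.centralizer_le hQP)).symm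
  have hn : P ≤ Subgroup.normalizer (Q : Set G) := hPQ.trans (centralizer_le_normalizer' Q)
  refine ⟨?_, fun hf hsub => ?_⟩
  · rw [isInducedBlockIn_iff_br hM hP hPQ hK]
    constructor
    · rintro ⟨hf, -, h⟩
      exact ⟨hf, NSub.sub ⟨isPair_epsIn (hP.to_le hQP) hf, hpair, hQP, hn,
        Fix_anti hPQ (mem_ZA.1 (epsIn_mem_ZA _ f)).2, h⟩⟩
    · rintro ⟨hf, h⟩
      exact ⟨hf, hcb, (h.nsub hn).eq⟩
  · have hloc := hmax.local_of_le (NIn.refl ⊤) hB.isPrim_ZA_top hsub (cen_top Q).le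
      (centralizer_le_pstab f) hPQ
    rw [cen_top] at hloc
    rw [isNilpotentBlock_iff_epsIn hM, and_iff_right hf,
      hloc.isNilp_iff_of_abelian (NIn.refl _) hf.isPrim_epsIn hab]
    refine ⟨fun h x hx => h (mem_pstab.2 ⟨hx.2, (mem_pstab.1 hx.1).2⟩), fun h x hx =>
      h ⟨mem_pstab.2 ⟨trivial, (mem_pstab.1 hx).2⟩, (mem_pstab.1 hx).1⟩⟩

/-- Let B be a block of the finite group G relative to a maximal ideal M of the algebraic integers containing the prime p, with a nontrivial commutative defect group P; let c be a block of C_G(P) inducing B and T the stabilizer of c in N_G(P). Then T/C_G(P) acts freely on the non-identity elements of P (an element of T fixing a non-identity element of P under conjugation lies in C_G(P)) if and only if, for every nontrivial subgroup Q of P, the block of C_G(Q) induced by c inside C_G(Q) is a nilpotent block of C_G(Q). -/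
theorem result {G : Type*} [Group G] [Finite G] (p : ℕ) [Fact p.Prime] (M : Ideal Cfsg.AlgInt) (hM : Cfsg.IsPModular p M) (B : Set (Cfsg.IrrCharacter G)) (hB : Cfsg.IsPBlock M B) (P : Subgroup G) (hPD : Cfsg.IsDefectGroup p M B P) (hPab : ∀ x ∈ P, ∀ y ∈ P, x * y = y * x) (hP1 : P ≠ ⊥) (c : Set (Cfsg.IrrCharacter (Subgroup.centralizer (P : Set G)))) (hc : Cfsg.IsInducedBlock M (Subgroup.centralizer (P : Set G)) c B) (T : Subgroup G) (hT : ∀ g : G, g ∈ T ↔ (g ∈ Subgroup.normalizer (P : Set G) ∧ Cfsg.StabilizesBlock (Subgroup.centralizer (P : Set G)) c g)) : (∀ g ∈ T, ∀ x ∈ P, x ≠ 1 → g * x * g⁻¹ = x → g ∈ Subgroup.centralizer (P : Set G)) ↔ ∀ Q : Subgroup G, Q ≤ P → Q ≠ ⊥ → ∀ f : Set (Cfsg.IrrCharacter (Subgroup.centralizer (Q : Set G))), Cfsg.IsInducedBlockIn M (Subgroup.centralizer (Q : Set G)) (Subgroup.centralizer (P : Set G)) c f → Cfsg.IsNilpotentBlock p M f := by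
  haveI := hM.isMaximal; haveI := hM.charP
  obtain ⟨hcb, hmax, h⟩ := loc hM hPD (fun x hx y hy => hPab y hy x hx) hc
  obtain rfl := eq_pstab_top hcb hT
  constructor
  · intro hfree Q hQP hQ f hf
    obtain ⟨hf1, hf2⟩ := (h Q hQP f).1.1 hf
    refine ((h Q hQP f).2 hf1 hf2).2 fun g hg => ?_
    obtain ⟨⟨x, hx⟩, hx1⟩ := Subgroup.ne_bot_iff_exists_ne_one.1 hQ
    refine hfree g hg.1 x (hQP hx) (fun h1 => hx1 (Subtype.ext h1)) ?_
    rw [mul_inv_eq_iff_eq_mul]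
    exact (hg.2 x hx).symm
  · intro hnil g hg x hx hx1 hgx
    have hQP : Subgroup.zpowers x ≤ P := (Subgroup.zpowers_le).2 hx
    obtain ⟨f', hf'⟩ := hmax.pair.exists_sub hQP
    obtain ⟨f, hf, rfl⟩ := exists_eq_epsIn hf'.left
    refine ((h _ hQP f).2 hf hf').1 (hnil _ hQP (by simpa using hx1) f
      ((h _ hQP f).1.2 ⟨hf, hf'⟩)) ⟨hg, ?_⟩
    rintro _ ⟨n, rfl⟩
    exact ((Commute.zpow_left (mul_inv_eq_iff_eq_mul.1 hgx).symm n))

end Cfsg.Agent.S4650
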