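import Cfsg.Statements.S4645
import Cfsg.Agent.Blk.Star4
import Cfsg.Agent.S4650
import Cfsg.Agent.S4689
import Cfsg.Agent.FT.B12Aux
import Cfsg.Agent.FT.Normal

set_option autoImplicit false
open Cfsg

namespace Cfsg.Agent.S4645

set_option linter.unusedVariables false
set_option linter.style.haveILetI false
open Cfsg.Agent.Blk Cfsg.Agent.Blk.Mod Cfsg.Agent.Blk.PD Cfsg.Agent.GT Cfsg.Agent.Ch

/-- A `p`-element of the stabilizer of a maximal pair with abelian defect group centralizes it. -/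
theorem mem_centralizer_of_pelt {G : Type*} [Group G] [Finite G] {p : ℕ} [Fact p.Prime]
    {k : Type*} [Field k] [CharP k p] [IsAlgClosed k] {b e : MonoidAlgebra k G} {P : Subgroup G}
    (hb : IsPrim (ZA ⊤ ⊤) b) (hmax : IsMaxPair p ⊤ ⊤ b P e) (hab : P ≤ ℭ[P]) {u : G}
    (hu : u ∈ pstab ⊤ P e) (ho : ∃ k : ℕ, orderOf u = p ^ k) : u ∈ ℭ[P] := by
  have h1 := hmax.pair.cen_le_pstab (L := ⊤) le_rfl
  have h2 := Sub.not_dvd_relIndex (NIn.refl ⊤) hmax.pair h1 le_rfl
    (hmax.isDef_of_le (NIn.refl ⊤) hb hmax.pair.sub_refl h1 le_rfl (hmax.pair.le_pstab le_top))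
  have h3 : ¬ p ∣ ℭ[P].relIndex (pstab ⊤ P e) := fun h =>
    h2 (h.trans (Subgroup.relIndex_dvd_of_le_left _ (sup_le inf_le_right hab)))
  haveI : (ℭ[P].subgroupOf (pstab ⊤ P e)).Normal := ⟨fun x hx y =>
    (conj_mem_centralizer_iff (pstab_le_normalizer y.2) _).2 hx⟩
  have h4 : u ^ ℭ[P].relIndex (pstab ⊤ P e) ∈ ℭ[P] :=
    (ℭ[P].subgroupOf (pstab ⊤ P e)).pow_index_mem ⟨u, hu⟩
  obtain ⟨m, hm⟩ := exists_pow_eq_self_of_coprime
    (coprime_of_pow_of_not_dvd Fact.out ho h3).symm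
  exact hm ▸ Subgroup.pow_mem _ h4 m

/-- Let B be a block of the finite group G relative to a maximal ideal M of the algebraic integers containing the prime p, with a nontrivial cyclic defect group P; let c be a block of C_G(P) inducing B and T the stabilizer of c in N_G(P). Let Q be a nontrivial subgroup of P (so C_G(P) ≤ C_G(Q)), f the block of C_G(Q) induced by c inside C_G(Q), and T' the stabilizer of f in N_G(Q). Then T' = T·C_G(Q), the index of C_G(Q) in T' equals the index of C_G(P) in T, f has p-regular rank 1, and f is a nilpotent block of C_G(Q). -/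
theorem result {G : Type*} [Group G] [Finite G] (p : ℕ) [Fact p.Prime] (M : Ideal Cfsg.AlgInt) (hM : Cfsg.IsPModular p M) (B : Set (Cfsg.IrrCharacter G)) (hB : Cfsg.IsPBlock M B) (P : Subgroup G) (hPD : Cfsg.IsDefectGroup p M B P) (hP1 : P ≠ ⊥) (hcyc : IsCyclic P) (c : Set (Cfsg.IrrCharacter (Subgroup.centralizer (P : Set G)))) (hc : Cfsg.IsInducedBlock M (Subgroup.centralizer (P : Set G)) c B) (T : Subgroup G) (hT : ∀ g : G, g ∈ T ↔ (g ∈ Subgroup.normalizer (P : Set G) ∧ Cfsg.StabilizesBlock (Subgroup.centralizer (P : Set G)) c g)) (Q : Subgroup G) (hQP : Q ≤ P) (hQ1 : Q ≠ ⊥) (f : Set (Cfsg.IrrCharacter (Subgroup.centralizer (Q : Set G)))) (hf : Cfsg.IsInducedBlockIn M (Subgroup.centralizer (Q : Set G)) (Subgroup.centralizer (P : Set G)) c f) (T' : Subgroup G) (hT' : ∀ g : G, g ∈ T' ↔ (g ∈ Subgroup.normalizer (Q : Set G) ∧ Cfsg.StabilizesBlock (Subgroup.centralizer (Q : Set G)) f g)) : T' = T ⊔ Subgroup.centralizer (Q : Set G)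 ∧ (Subgroup.centralizer (Q : Set G)).relIndex T' = (Subgroup.centralizer (P : Set G)).relIndex T ∧ Cfsg.blockRank p f = 1 ∧ Cfsg.IsNilpotentBlock p M f := by
  haveI := hM.isMaximal; haveI := hM.charP
  haveI := Fintype.ofFinite G
  have hP := hPD.isPGroup
  have hab : P ≤ ℭ[P] := fun x hx y hy => by
    haveI := hcyc
    exact congrArg Subtype.val (mul_comm' (⟨y, hy⟩ : P) ⟨x, hx⟩)
  obtain ⟨hcb, hmax, h⟩ := S4650.loc hM hPD hab hc
  obtain ⟨hfb, hsub⟩ := (h Q hQP f).1.1 hf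
  obtain rfl := eq_pstab_top hcb hT
  obtain rfl := eq_pstab_top hfb hT'
  have key : pstab ⊤ P (epsIn M _ c) ⊓ ℭ[Q] ≤ ℭ[P] := by
    intro t ht
    obtain ⟨u, v, hu, hv, rfl, -, ho, hv'⟩ := exists_p_parts hM.prime t
    have hz := Subgroup.zpowers_le.2 ht
    refine Subgroup.mul_mem _ (mem_centralizer_of_pelt hB.isPrim_ZA_top hmax hab (hz hu).1 ho) ?_
    rcases FT.B12.cyc_cent_or_reg hP hcyc
      (Subgroup.zpowers_le.2 (pstab_le_normalizer (hz hv).1)) (by
        rw [Nat.card_zpowers]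
        exact ((Nat.Prime.coprime_iff_not_dvd hM.prime).2 hv').symm) with h1 | h1
    · exact h1 (Subgroup.mem_zpowers v)
    · refine (hQ1 (eq_bot_iff.2 (h1 ▸ le_inf hQP ?_))).elim
      exact Subgroup.le_centralizer_iff.1 (Subgroup.zpowers_le.2 (hz hv).2)
  have hnil := ((h Q hQP f).2 hfb hsub).2 key
  have e1 : pstab ⊤ Q (epsIn M _ f) = pstab ⊤ P (epsIn M _ c) ⊔ ℭ[Q] := by
    rw [hmax.pstab_eq_of_abelian (NIn.refl ⊤) hB.isPrim_ZA_top hab hsub, hsub.left.cen_pstab,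
      cen_top, inf_eq_left.2 (pstab_le_normalizer.trans (FT.norm_le_norm_of_isCyclic hcyc hQP))]
  haveI := Fintype.ofFinite ℭ[Q]
  refine ⟨e1, ?_, (S4689.result p M hM f hnil).1, hnil⟩
  have hn : pstab ⊤ P (epsIn M _ c) ≤ Subgroup.normalizer (ℭ[Q] : Set G) :=
    (pstab_le_normalizer.trans (FT.norm_le_norm_of_isCyclic hcyc hQP)).trans
      (normalizer_le_normalizer_centralizer Q)
  rw [e1, relIndex_sup_of_le_normalizer hn, ← Subgroup.inf_relIndex_left,
    ← Subgroup.inf_relIndex_left (pstab ⊤ P (epsIn M _ c)) ℭ[P]]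
  congr 1
  exact le_antisymm (le_inf inf_le_left key) (inf_le_inf_left _ (Subgroup.centralizer_le hQP))

end Cfsg.Agent.S4645
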