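import Cfsg.Statements.S4647
import Cfsg.Agent.Blk.PPerm
import Cfsg.Agent.Blk.PairDict2
import Cfsg.Agent.Blk.CenDef

set_option autoImplicit false
open Cfsg

namespace Cfsg.Agent.S4647

set_option linter.unusedVariables false
set_option linter.style.haveILetI false
open Cfsg.Agent.Blk Cfsg.Agent.Blk.Mod Cfsg.Agent.Blk.PD Cfsg.Agent.GT Cfsg.Agent.Ch

/-- Left and right multiplication. -/
@[reducible] def biAct {G : Type*} [Group G] (S : Subgroup G) : MulAction (S × S) G where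
  smul g x := g.1 * x * (g.2 : G)⁻¹
  one_smul x := by change ((1 : S) : G) * x * ((1 : S) : G)⁻¹ = x; simp
  mul_smul g h x := by
    change ((g.1 * h.1 : S) : G) * x * ((g.2 * h.2 : S) : G)⁻¹ =
      g.1 * (h.1 * x * (h.2 : G)⁻¹) * (g.2 : G)⁻¹
    simp [mul_assoc]

/-- A twisted diagonal subgroup. -/
def tw {G : Type*} [Group G] (S Q : Subgroup G) (x : G) : Subgroup (S × S) where
  carrier := {g | (g.1 : G) ∈ Q ∧ g.1 * x * (g.2 : G)⁻¹ = x}
  one_mem' := ⟨Q.one_mem, by simp⟩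
  mul_mem' := fun {a b} ha hb => ⟨Q.mul_mem ha.1 hb.1, by
    rw [← ha.2]
    conv_rhs => rw [← hb.2]
    conv_lhs => rw [ha.2]
    simp [mul_assoc]⟩
  inv_mem' := fun {a} ha => ⟨Q.inv_mem ha.1, by
    conv_lhs => rw [← ha.2]
    simp [mul_assoc]⟩

/-- Let B be a block of the finite group G relative to a maximal ideal M of the algebraic integers containing the prime p, p^a the p-part of the order of G and p^d the order of a defect group D of B. If Σ_{χ ∈ B} χ(1)² = p^(2a−d) (the least possible value), then B is nilpotent. -/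
theorem result {G : Type*} [Group G] [Finite G] (p : ℕ) [Fact p.Prime] (M : Ideal Cfsg.AlgInt) (hM : Cfsg.IsPModular p M) (B : Set (Cfsg.IrrCharacter G)) (hB : Cfsg.IsPBlock M B) (D : Subgroup G) (hD : Cfsg.IsDefectGroup p M B D) (a d : ℕ) (ha : (Nat.card G).factorization p = a) (hd : Nat.card D = p ^ d) (hmin : ∑ᶠ χ ∈ B, Cfsg.charDegree (χ : G → ℂ) ^ 2 = p ^ (2 * a - d)) : Cfsg.IsNilpotentBlock p M B := by
  classical
  haveI := hM.isMaximal; haveI := hM.charP
  haveI := Fintype.ofFinite G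
  refine (isNilpotentBlock_iff hM).2 ⟨hB, fun Q f hf x hx hxp => ?_⟩
  have hF := hB.isPrim_ZA_top.mem.2
  obtain ⟨E, hE, hQE⟩ := (hD.isDef hM hB).exists_ge hF hf.pair.pgroup le_top hf.br_ne_zero
  have hEc : Nat.card E = p ^ d := (hE.card_eq (hD.isDef hM hB)).trans hd
  obtain ⟨S, hES⟩ := hE.pgroup.exists_le_sylow
  letI := biAct (S : Subgroup G)
  have hsm : ∀ (g : S × S) (y : G), g • y = g.1 * y * (g.2 : G)⁻¹ := fun _ _ => rfl
  have hbr : ∀ {R : Subgroup G} (y : G), br R (eps M B) ≠ 0 →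
      PP.Br (fun a b : G => (eps M B).coeff (a * b⁻¹)) (tw (S : Subgroup G) R y) := by
    intro R y h
    obtain ⟨c, hc, h0⟩ := br_ne_zero_iff.1 h
    refine ⟨c * y, y, fun g hg => ?_, fun g hg => hg.2, by simpa using h0⟩
    rw [MulAction.mem_stabilizer_iff, hsm, ← mul_assoc, hc _ hg.1, mul_assoc c, mul_assoc c, hg.2]
  have hinj : ∀ {R : Subgroup (S × S)} {y : G}, R ≤ MulAction.stabilizer _ y →
      Nat.card (R.map ((S : Subgroup G).subtype.comp (MonoidHom.fst S S))) = Nat.card R := by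
    intro R y h
    refine (Nat.card_eq_of_bijective _ ⟨fun g g' e => ?_,
      MonoidHom.subgroupMap_surjective _ R⟩).symm
    have h1 : g.1.1 = g'.1.1 := Subtype.ext (congrArg Subtype.val e :)
    have h2 := (h g.2).trans (h g'.2).symm
    rw [hsm, hsm, h1, mul_right_inj, inv_inj] at h2
    exact Subtype.ext (Prod.ext h1 (Subtype.ext h2))
  have hcE : Nat.card (tw (S : Subgroup G) E 1) = p ^ d := by
    rw [← hinj (R := tw (S : Subgroup G) E 1) (y := 1) fun g hg => hg.2, ← hEc]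
    congr 2
    refine le_antisymm ?_ fun u hu => ⟨(⟨u, hES hu⟩, ⟨u, hES hu⟩), ⟨hu, by simp⟩, rfl⟩
    rintro _ ⟨g, hg, rfl⟩
    exact hg.1
  have hS : Nat.card S = p ^ a := by rw [S.card_eq_multiplicity, ha]
  have hSS : IsPGroup p (S × S) := IsPGroup.of_card (n := a + a) (by
    rw [Nat.card_prod, hS, pow_add])
  have hmul : ∀ {R : Type} [CommRing R] (z : MonoidAlgebra R G), z * z = z → ∀ a b : G,
      ∑ c, z.coeff (a * c⁻¹) * z.coeff (c * b⁻¹) = z.coeff (a * b⁻¹) := by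
    intro R _ z hz a b
    conv_rhs => rw [← hz, coeff_mul_eq_sum', ← Equiv.sum_comp (Equiv.mulRight b⁻¹)]
    simp [mul_assoc]
  obtain ⟨g, hg⟩ := PP.exists_conj_le (P := S × S) hSS
    (π := fun a b : G => (eps M B).coeff (a * b⁻¹)) (fun g a b => by
      rw [← coeff_conj_of_Fix hF (Subgroup.mem_top (g.1 : G)) (a * b⁻¹), hsm, hsm]
      congr 1
      group) (hmul _ hB.eps_mul_self) (hbr x hf.br_ne_zero) (hbr 1 hE.br_ne)
    (fun R ⟨y, z, hy, hz, h⟩ => by
      rw [hcE, ← hEc, ← hinj hy]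
      refine hE.card_le ((hSS.to_subgroup R).map _) le_top
        (br_ne_zero_iff.2 ⟨_, ?_, h⟩)
      rintro _ ⟨g, hg, rfl⟩
      conv_rhs => rw [← show _ = y from hy hg, ← show _ = z from hz hg, hsm, hsm]
      simp [mul_assoc])
    fun Y hY => by
      have := PP.card_le_of_red (E := fun a b : G => blockCoeff B (a * b⁻¹))
        (fun _ _ => hB.memLocalRing_blockCoeff hM _)
        (by simpa only [coeff_setIdem] using hmul _ (setIdem_mul_self B)) (n := p ^ (2 * a - d))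
        (by rw [← hmin, ← card_mul_blockCoeff_one]; simp) (Y := Y)
        (by simpa only [coeff_eps] using hY)
      have h1 : d ≤ a := (Nat.pow_le_pow_iff_right hM.prime.one_lt).1
        (hEc ▸ hS ▸ Subgroup.card_le_of_le hES)
      rw [hcE, Nat.card_prod, hS, ← pow_add, show a + a = 2 * a - d + d by omega, pow_add]
      exact Nat.mul_le_mul_right _ this
  have hn := pstab_le_normalizer hx
  refine mem_centralizer_of_inner S.isPGroup' hn (u := (g.1 : G)⁻¹ * g.2)
    (mul_mem (inv_mem g.1.2) g.2.2) ?_ hxp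
  intro u hu
  have h0 := Tr.conj_mem_of_mem_normalizer hn hu
  have h1 : g.1 * (x * u * x⁻¹) * (g.1 : G)⁻¹ * 1 * (g.2 * u * (g.2 : G)⁻¹)⁻¹ = 1 :=
    (hg ⟨(⟨_, hES (hQE h0)⟩, ⟨u, hES (hQE hu)⟩), ⟨h0, by simp⟩, rfl⟩).2
  rw [mul_one, mul_inv_eq_one] at h1
  calc _ = (g.2 : G)⁻¹ * (g.2 * u * (g.2 : G)⁻¹) * g.1 * x := by group
    _ = _ := by rw [← h1]; group

end Cfsg.Agent.S4647
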