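import Cfsg.Statements.S4651
import Cfsg.Agent.Blk.KRChain
import Cfsg.Agent.Blk.PairDict2
import Cfsg.Agent.Blk.Subsection
import Cfsg.Agent.Blk.Cover

set_option autoImplicit false
open Cfsg

namespace Cfsg.Agent.S4651

set_option linter.unusedVariables false
set_option linter.style.haveILetI false
open Cfsg.Agent.Blk Cfsg.Agent.Blk.Mod Cfsg.Agent.Blk.PD Cfsg.Agent.GT Cfsg.Agent.Ch

section

set_option linter.unusedSectionVars false

variable {G : Type*} [Group G] [Finite G] {p : ℕ} [Fact p.Prime] {M : Ideal AlgInt} [M.IsMaximal]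

open Classical in
/-- `|K|` times the rank of the blocks of `K` below `e`. -/
noncomputable def phi (p : ℕ) (M : Ideal AlgInt) [M.IsMaximal] (K : Subgroup G)
    (e : MonoidAlgebra (Res M) G) : ℂ :=
  Nat.card K * ∑ c ∈ blockSet M K, if e * epsIn M K c = epsIn M K c then (blockRank p c : ℂ) else 0

theorem blockRank_blkCongr (hM : IsPModular p M) {H : Type*} [Group H] [Finite H] (e : H ≃* G)
    {B : Set (IrrCharacter G)} (hB : IsPBlock M B) :
    (blockRank p (Om.blkCongr e B) : ℂ) = blockRank p B := by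
  classical
  haveI := Fintype.ofFinite G
  haveI := Fintype.ofFinite H
  apply mul_left_cancel₀ (natCard_ne_zero G)
  rw [card_mul_blockRank hM (hB.memLocalRing_blockCoeff hM), ← Nat.card_congr e.toEquiv,
    card_mul_blockRank hM ((Om.isPBlock_blkCongr e hB).memLocalRing_blockCoeff hM),
    ← e.toEquiv.sum_comp]
  refine Finset.sum_congr rfl fun x _ => ?_
  rw [Om.finsum_mem_blkCongr]
  simp

theorem phi_subgroupOf (hM : IsPModular p M) {K L : Subgroup G} (h : K ≤ L)
    (e : MonoidAlgebra (Res M) L) : phi p M (K.subgroupOf L) e = phi p M K (mp L.subtype e) := by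
  rw [phi, phi, Nat.card_congr (Subgroup.subgroupOfEquivOfLe h).toEquiv]
  congr 1
  refine (Finset.sum_nbij' (Om.blkCongr (Subgroup.subgroupOfEquivOfLe h))
    (Om.blkCongr (Subgroup.subgroupOfEquivOfLe h).symm) (fun c hc => ?_) (fun c hc => ?_)
    (fun c _ => Om.blkCongr_symm_blkCongr _ c) (fun c _ => Om.blkCongr_blkCongr_symm _ c)
    fun c hc => ?_).symm
  · exact mem_blockSet.2 (Om.isPBlock_blkCongr _ (mem_blockSet.1 hc))
  · exact mem_blockSet.2 (Om.isPBlock_blkCongr _ (mem_blockSet.1 hc))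
  · rw [blockRank_blkCongr hM _ (mem_blockSet.1 hc), ← mp_epsIn_subgroupOf h, ← map_mul]
    split_ifs with h1 h2 h2
    exacts [rfl, (h2 (mp_injective L.subtype_injective h1)).elim, (h1 (congrArg _ h2)).elim, rfl]

open Classical in
theorem sum_section (hM : IsPModular p M) [Fintype G] {A : Set (IrrCharacter G)}
    (hA : IsBlockUnion M A) {u : G} (hu : ∃ k : ℕ, orderOf u = p ^ k) {C : Subgroup G}
    (hC : C = ℭ[Subgroup.zpowers u]) :
    (∑ g, if IsPPart p g u then ∑ᶠ χ ∈ A, (χ : G → ℂ) g * (χ : G → ℂ) g⁻¹ else 0) =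
      phi p M C (br (Subgroup.zpowers u) (eps M A)) := by
  haveI := hM.charP
  haveI := Fintype.ofFinite C
  have hC' : ∀ g, g ∈ C ↔ g * u = u * g := fun g => hC ▸ mem_centralizer_zpowers_iff' u g
  have hU := isPGroup_zpowers_of_orderOf hu
  have h1 : ∀ f : IrrCharacter G → ℂ, ∑ᶠ χ ∈ A, f χ =
      ∑ B ∈ blockSet M G, if B ⊆ A then ∑ᶠ χ ∈ B, f χ else 0 := fun f => by
    rw [finsum_mem_irr, sum_irr_eq_sum_blockSet (M := M)]
    refine Finset.sum_congr rfl fun B hB => ?_
    split_ifs with h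
    · rw [finsum_mem_irr]
      exact Finset.sum_congr rfl fun χ _ => if_ctx_congr Iff.rfl (fun h' => if_pos (h h'))
        fun _ => rfl
    · refine Finset.sum_eq_zero fun χ _ => ite_eq_right_iff.2 fun h' => if_neg ?_
      exact Set.disjoint_left.1
        ((hA.subset_or_disjoint (mem_blockSet.1 hB)).resolve_left h) h'
  have h2 : ∀ y : C, (if p ∣ orderOf y then 0 else
      ∑ᶠ χ ∈ A, (χ : G → ℂ) (u * y) * (χ : G → ℂ) (u * y)⁻¹) =
      ∑ B ∈ blockSet M G, if B ⊆ A then (if p ∣ orderOf y then 0 else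
        ∑ᶠ χ ∈ B, (χ : G → ℂ) (u * y) * (χ : G → ℂ) (u * y)⁻¹) else 0 := fun y => by
    split_ifs
    · simp
    · exact h1 _
  rw [← sum_regular_eq_sum_isPPart hu hC', Finset.sum_congr rfl fun y _ => h2 y, Finset.sum_comm,
    phi, Finset.mul_sum]
  simp only [Finset.sum_ite_irrel, Finset.sum_const_zero]
  rw [Finset.sum_congr rfl (g := fun B => ∑ b ∈ blockSet M C, if B ⊆ A ∧ IsInducedBlock M C b B
    then Nat.card C * (blockRank p b : ℂ) else 0), Finset.sum_comm]
  · refine Finset.sum_congr rfl fun b hb => ?_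
    obtain ⟨B, hB⟩ := exists_isInducedBlock_centralizer hM hu hC' (mem_blockSet.1 hb)
    obtain ⟨h3, h4, h5⟩ := (isInducedBlock_iff_of_eq hM hU hC).1 hB
    rw [Finset.sum_eq_single B (fun B' _ h => if_neg fun h' => h (h'.2.unique hB))
      fun h => absurd (mem_blockSet.2 h3) h, mul_ite, mul_zero]
    refine if_congr ?_ rfl rfl
    have h6 : br (Subgroup.zpowers u) (eps M A) * epsIn M C b =
        br (Subgroup.zpowers u) (eps M (A ∩ B)) * epsIn M C b := by
      rw [← hA.eps_mul_eps h3.isBlockUnion, br_mul hU (mem_Fix_of_ctr (eps_mem_ctr A) _)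
        (mem_Fix_of_ctr (eps_mem_ctr B) _), mul_assoc, h5]
    rw [h6]
    refine ⟨fun h => by rw [Set.inter_eq_right.2 h.1, h5], fun h => ⟨?_, hB⟩⟩
    refine (hA.subset_or_disjoint h3).resolve_right fun h7 => h4.isPrim_epsIn.ne_zero ?_
    rw [← h, Set.disjoint_iff_inter_eq_empty.1 h7.symm, eps_empty, map_zero, zero_mul]
  · intro B hB
    split_ifs with h
    · rw [sum_regular_finsum_block hM hu hC' (mem_blockSet.1 hB), Finset.mul_sum]
      simp only [h, true_and, mul_ite, mul_zero]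
    · simp only [h, false_and, if_false, Finset.sum_const_zero]

open Classical in
theorem card_mul_sub (hM : IsPModular p M) [Fintype G] {A : Set (IrrCharacter G)}
    (hA : IsBlockUnion M A) : (Nat.card G : ℂ) * (Nat.card A - blockRank p A) =
      ∑ u : G with u ≠ 1 ∧ ∃ k : ℕ, orderOf u = p ^ k,
        phi p M ℭ[Subgroup.zpowers u] (br (Subgroup.zpowers u) (eps M A)) := by
  rw [mul_sub, card_mul_natCard_eq_sum,
    card_mul_blockRank hM (Om.isBlockUnion_iff_blockCoeff.1 hA), ← Finset.sum_sub_distrib,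
    Finset.sum_congr rfl fun u hu => (sum_section hM hA (Finset.mem_filter.1 hu).2.2 rfl).symm,
    Finset.sum_comm]
  refine Finset.sum_congr rfl fun g _ => ?_
  obtain ⟨x, hx⟩ := exists_isPPart hM.prime g
  split_ifs with h
  · rw [sub_zero, Finset.sum_eq_single x (fun y _ hy => if_neg fun h' => hy (h'.unique hM.prime hx))
      fun h' => absurd (Finset.mem_filter.2 ⟨Finset.mem_univ _, hx.ne_one_of_dvd h,
        hx.exists_orderOf⟩) h', if_pos hx]
  · rw [sub_self]
    exact (Finset.sum_eq_zero fun y hy => if_neg fun h' =>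
      (Finset.mem_filter.1 hy).2.1 (h'.eq_one_of_not_dvd hM.prime h)).symm

open Classical in
theorem card_mul_sub_local (hM : IsPModular p M) [Fintype G] {b : Set (IrrCharacter G)}
    (hb : IsPBlock M b) {T H : Subgroup G} (hT : IsPGroup p T) (h1 : T ≤ H) (h2 : ℭ[T] ≤ H)
    (h3 : H ≤ Subgroup.normalizer (T : Set G)) : (Nat.card H : ℂ) *
      (Nat.card {ψ : IrrCharacter H | ∃ β, ψ ∈ β ∧ IsInducedBlock M H β b} -
        blockRank p {ψ : IrrCharacter H | ∃ β, ψ ∈ β ∧ IsInducedBlock M H β b}) =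
      ∑ u : G with u ≠ 1 ∧ ∃ k : ℕ, orderOf u = p ^ k, if u ∈ H then
        phi p M (H ⊓ ℭ[Subgroup.zpowers u]) (br (T ⊔ Subgroup.zpowers u) (eps M b)) else 0 := by
  haveI := hM.charP
  haveI := Fintype.ofFinite H
  have hF := hb.isPrim_ZA_top.mem.2
  obtain ⟨A, hA, hAe⟩ := exists_epsIn_eq_of_idem (br_mem_ZA_of_le h2 h3 (Fix_anti le_top hF))
    (by rw [← br_mul hT (Fix_anti le_top hF) (Fix_anti le_top hF), hb.isPrim_ZA_top.idem])
  have hk : ∀ β, IsPBlock M β → (IsInducedBlock M H β b ↔ β ⊆ A) := fun β hβ => by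
    rw [isInducedBlock_iff_br hM hT h1 h2 h3 hβ hb, ← hAe, epsIn_eq_mp, epsIn_eq_mp, ← map_mul,
      (mp_injective H.subtype_injective).eq_iff, hA.eps_mul_eps hβ.isBlockUnion]
    refine ⟨fun h => ?_, fun h => by rw [Set.inter_eq_right.2 h]⟩
    refine (hA.subset_or_disjoint hβ).resolve_right fun h7 => hβ.isPrim_ZA_top.ne_zero ?_
    rw [← h, Set.disjoint_iff_inter_eq_empty.1 h7.symm, eps_empty]
  have hAeq : {ψ : IrrCharacter H | ∃ β, ψ ∈ β ∧ IsInducedBlock M H β b} = A := Set.ext fun ψ =>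
    ⟨fun ⟨β, h, h'⟩ => (hk β h'.1).1 h' h, fun h => ⟨_, mem_blockOf_self ψ,
      (hk _ (isPBlock_blockOf ψ)).2 fun ξ hξ => hA ψ h ξ hξ⟩⟩
  rw [hAeq, card_mul_sub hM hA, ← Finset.sum_filter]
  refine Finset.sum_nbij Subtype.val (fun u hu => ?_) Subtype.val_injective.injOn
    (fun u hu => ?_) fun u hu => ?_
  · simpa using hu
  · simp only [Finset.coe_filter, Finset.mem_filter, Finset.mem_univ, true_and,
      Set.mem_ofPred_eq] at hu
    exact ⟨⟨u, hu.2⟩, by simpa using hu.1, rfl⟩
  · have h4 : (Subgroup.zpowers u).map H.subtype = Subgroup.zpowers (u : G) :=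
      MonoidHom.map_zpowers _ _
    rw [sup_comm T, ← br_br, ← hAe, epsIn_eq_mp, ← h4, br_mp H.subtype_injective,
      ← phi_subgroupOf hM inf_le_left]
    congr 1
    ext x
    rw [Subgroup.mem_subgroupOf, Subgroup.mem_inf, and_iff_right x.2]
    exact (mem_centralizer_map H.subtype_injective).symm

end

/-- An alternating-sum identity over chains of p-subgroups (the character-count form behind the chain reformulation of Alperin's weight conjecture, which holds unconditionally for the difference k − l). Let b be a block of the finite group G relative to a maximal ideal M of the algebraic integers containing the prime p. Consider the nonempty chains s = {Q_0 < Q_1 < ⋯ < Q_m} of nontrivial p-subgroups of G in which every member is normal in the largest member; let N_G(s) be the intersection of the normalizers of the members (the stabilizer of the chain), and let b_s be the set of irreducible characters of N_G(s) lying in blocks of N_G(s) that induce b. Then #G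 · (k(b) − l(b)) equals the sum over all such chains s of (−1)^m · #N_G(s) · (k(b_s) − l(b_s)), where k counts irreducible characters and l is the p-regular rank; equivalently, k(b) − l(b) is the alternating sum of k(b_s) − l(b_s) over representatives of the conjugacy classes of such chains. -/
theorem result {G : Type*} [Group G] [Finite G] (p : ℕ) [Fact p.Prime] (M : Ideal Cfsg.AlgInt) (hM : Cfsg.IsPModular p M) (b : Set (Cfsg.IrrCharacter G)) (hb : Cfsg.IsPBlock M b) : (Nat.card G : ℤ) * ((Nat.card b : ℤ) - (Cfsg.blockRank p b : ℤ)) = ∑ᶠ s ∈ {s : Finset (Subgroup G) | s.Nonempty ∧ (∀ Q ∈ s, ∀ R ∈ s, Q ≤ R ∨ R ≤ Q) ∧ (∀ Q ∈ s, Q ≠ ⊥ ∧ IsPGroup p Q) ∧ ∃ T ∈ s, ∀ Q ∈ s, Q ≤ T ∧ T ≤ Subgroup.normalizer ((Q : Subgroup G) : Set G)}, (-1 : ℤ) ^ (s.card - 1) * (Nat.card (((⨅ Q ∈ s, Subgroup.normalizer ((Q : Subgroup G) : Set G) : Subgroup G))) : ℤ) * ((Nat.card {ψ : Cfsg.IrrCharacter (((⨅ Q ∈ s, Subgroup.normalizer ((Q : Subgroup G) : Set G) : Subgroup G))) | ∃ β : Set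 (Cfsg.IrrCharacter (((⨅ Q ∈ s, Subgroup.normalizer ((Q : Subgroup G) : Set G) : Subgroup G)))), ψ ∈ β ∧ Cfsg.IsInducedBlock M (((⨅ Q ∈ s, Subgroup.normalizer ((Q : Subgroup G) : Set G) : Subgroup G))) β b} : ℤ) - (Cfsg.blockRank p {ψ : Cfsg.IrrCharacter (((⨅ Q ∈ s, Subgroup.normalizer ((Q : Subgroup G) : Set G) : Subgroup G))) | ∃ β : Set (Cfsg.IrrCharacter (((⨅ Q ∈ s, Subgroup.normalizer ((Q : Subgroup G) : Set G) : Subgroup G)))), ψ ∈ β ∧ Cfsg.IsInducedBlock M (((⨅ Q ∈ s, Subgroup.normalizer ((Q : Subgroup G) : Set G) : Subgroup G))) β b} : ℤ)) := by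
  classical
  haveI := hM.isMaximal; haveI := hM.charP
  haveI := Fintype.ofFinite G
  haveI := Fintype.ofFinite (Finset (Subgroup G))
  apply Int.cast_injective (α := ℂ)
  rw [finsum_mem_eq_finite_toFinset_sum _ (Set.toFinite _)]
  push_cast
  rw [card_mul_sub hM hb.isBlockUnion, Finset.sum_congr rfl (g := fun s => ∑ u : G with u ≠ 1 ∧
    ∃ k : ℕ, orderOf u = p ^ k, if u ∈ KR.stb s then -((-1 : ℂ) ^ s.card * phi p M
      (KR.stb s ⊓ ℭ[Subgroup.zpowers u]) (br (KR.top u s) (eps M b))) else 0), Finset.sum_comm]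
  · refine Finset.sum_congr rfl fun u hu => ?_
    obtain ⟨-, h1, hu⟩ := Finset.mem_filter.1 hu
    have h := KR.sum_chain_eq_zero (isPGroup_zpowers_of_orderOf hu) h1
      fun K W => phi p M K (br W (eps M b))
    rw [← Finset.add_sum_erase _ _ (a := ∅) (Finset.mem_filter.2 ⟨Finset.mem_univ _,
      by simp, by simp, fun x _ => KR.mem_stb.2 (by simp)⟩), add_eq_zero_iff_eq_neg] at h
    simp only [KR.stb, KR.top, Finset.card_empty, pow_zero, one_mul, Finset.sup_empty,
      bot_sup_eq, Finset.notMem_empty, iInf_false, iInf_top, top_inf_eq] at h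
    rw [h, ← Finset.sum_filter, ← Finset.sum_neg_distrib]
    refine Finset.sum_congr (Finset.ext fun s => ?_) fun _ _ => rfl
    simp only [Finset.mem_erase, Finset.mem_filter, Finset.mem_univ, true_and,
      Set.Finite.mem_toFinset, Set.mem_ofPred_eq, ← Finset.nonempty_iff_ne_empty]
    constructor
    · rintro ⟨h0, h2⟩
      refine ⟨⟨h0, h2.tot, h2.pg, s.sup id, (KR.sup_mem_or_bot h2.tot).resolve_left fun h3 => ?_,
        fun Q hQ => ⟨Finset.le_sup (f := id) hQ, fun x hx =>
          KR.mem_stb.1 (h2.nm (Subgroup.mem_sup_left hx)) Q hQ⟩⟩, h2.nm KR.self_mem_top⟩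
      obtain ⟨Q, hQ⟩ := h0
      exact (h2.pg Q hQ).1 (eq_bot_iff.2 (h3 ▸ Finset.le_sup (f := id) hQ))
    · rintro ⟨⟨h0, h2, h3, T, hT, h4⟩, h5⟩
      exact ⟨h0, h2, h3, sup_le (Finset.sup_le fun Q hQ x hx => KR.mem_stb.2 fun R hR =>
        (h4 R hR).2 ((h4 Q hQ).1 hx)) (Subgroup.zpowers_le.2 h5)⟩
  · intro s hs
    obtain ⟨h0, h2, h3, T, hT, h4⟩ := (Set.Finite.mem_toFinset _).1 hs
    have hTe : s.sup id = T :=
      le_antisymm (Finset.sup_le fun Q hQ => (h4 Q hQ).1) (Finset.le_sup (f := id) hT)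
    have := card_mul_sub_local hM hb (H := KR.stb s) (h3 T hT).2
      (fun x hx => KR.mem_stb.2 fun R hR => (h4 R hR).2 hx)
      (fun x hx => KR.mem_stb.2 fun R hR => centralizer_le_normalizer' R
        (Subgroup.centralizer_le (h4 R hR).1 hx)) fun x hx => KR.mem_stb.1 hx T hT
    rw [mul_assoc]
    refine (congrArg _ this).trans ?_
    rw [Finset.mul_sum]
    refine Finset.sum_congr rfl fun u _ => ?_
    obtain ⟨n, hn⟩ := Nat.exists_eq_add_one_of_ne_zero h0.card_ne_zero
    rw [KR.top, hTe, hn, Nat.add_sub_cancel, pow_succ, mul_ite, mul_zero]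
    refine if_congr Iff.rfl (by ring) rfl

end Cfsg.Agent.S4651
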