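import Cfsg.Statements.S4654
import Cfsg.Agent.Blk.PairDict2

set_option autoImplicit false
open Cfsg

namespace Cfsg.Agent.S4654

set_option linter.unusedVariables false
set_option linter.style.haveILetI false
open Cfsg.Agent.Blk Cfsg.Agent.Blk.Mod Cfsg.Agent.Blk.PD Cfsg.Agent.GT Cfsg.Agent.Ch

/-- Fix a prime p and a maximal ideal M of the algebraic integers containing p. Let P be a normal p-subgroup of the finite group G, B a p-block of G and e a p-block of C_G(P) such that (P, e) is a Brauer pair of B (as P is normal, this says that e occurs in the idempotent of B, which is supported on C_G(P)). Let T be the stabilizer of e in G under conjugation. Then the idempotent of e is a block idempotent of T: some block E of T has, at every element of T, the same idempotent coefficient as e (zero off C_G(P)); and the idempotent of B is the sum of the distinct G-conjugates of the idempotent of e: its coefficient at g is the sum over all x in G of the coefficient of e at x⁻¹ g x, divided by the order of T. -/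
theorem result {G : Type*} [Group G] [Fintype G] (p : ℕ) [Fact p.Prime] (M : Ideal Cfsg.AlgInt) (hM : Cfsg.IsPModular p M) (P : Subgroup G) [P.Normal] (hP : IsPGroup p P) (B : Set (Cfsg.IrrCharacter G)) (e : Set (Cfsg.IrrCharacter (Subgroup.centralizer (P : Set G)))) (hBe : Cfsg.IsBrauerPairOf p M B P e) (T : Subgroup G) (hT : ∀ x : G, x ∈ T ↔ Cfsg.StabilizesBlock (Subgroup.centralizer (P : Set G)) e x) : (∃ E : Set (Cfsg.IrrCharacter T), Cfsg.IsPBlock M E ∧ ∀ t : T, Cfsg.blockCoeff E t = Cfsg.subgroupBlockCoeff (Subgroup.centralizer (P : Set G)) e (t : G)) ∧ ∀ g : G, Cfsg.blockCoeff B g = (Nat.card T : ℂ)⁻¹ * ∑ x : G, Cfsg.subgroupBlockCoeff (Subgroup.centralizer (P : Set G)) e (x⁻¹ * g * x) := by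
  haveI := hM.isMaximal; haveI := hM.charP
  obtain ⟨hB, he, h⟩ := (isBrauerPairOf_iff hM).1 hBe
  have hn : ∀ x : G, x ∈ Subgroup.normalizer (P : Set G) := fun x => by
    rw [Subgroup.normalizer_eq_top]; exact Subgroup.mem_top x
  have hT' : T = pstab ⊤ P (epsIn M _ e) := eq_pstab_top he fun g => by
    rw [hT, and_iff_right (hn g)]
  have h1 : ℭ[P] ≤ T := hT' ▸ centralizer_le_pstab e
  constructor
  · obtain ⟨F, hF, h2⟩ := exists_block_of_le_pstab hM hP he (hT' ▸ h.pair.le_pstab le_top) h1 hT'.le
    exact ⟨F, hF, (blockCoeff_eq_iff h1 hF he).2 h2⟩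
  · intro g
    have hPN : NIn P ⊤ := ⟨le_top, fun x _ => hn x⟩
    have h2 := (isPrim_inf_centralizer_iff le_rfl hP hPN).2 hB.isPrim_ZA_top
    have h3 := h.eq
    rw [br_eq_self (Supp_mono inf_le_right (mem_ZA.1 h2.mem).1)] at h3
    rw [cen_top] at h2
    have h4 := setIdem_eq_sum_cj hB he (eq_orbSum ⟨le_top, fun x _ =>
      normalizer_le_normalizer_centralizer P (hn x)⟩ he.isPrim_epsIn h2 h3)
    have h5 : stab (idemIn _ e) = T := Subgroup.ext fun x => by
      rw [hT, stabilizesBlock_iff_idemIn, mem_stab,
        and_iff_right (normalizer_le_normalizer_centralizer P (hn x))]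
    have h6 := congrArg (fun a => a.coeff g) h4
    simp only [h5, coeff_sum_apply, coeff_cj, coeff_idemIn, ← Nat.cast_smul_eq_nsmul ℂ,
      coeff_smul_eq, coeff_setIdem] at h6
    rw [← h6, inv_mul_cancel_left₀ (Nat.cast_ne_zero.2 Nat.card_pos.ne')]

end Cfsg.Agent.S4654
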