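import Cfsg.Statements.S4655
import Cfsg.Agent.Blk.PairDict

set_option autoImplicit false
open Cfsg

namespace Cfsg.Agent.S4655

set_option linter.unusedVariables false
set_option linter.style.haveILetI false
open Cfsg.Agent.Blk Cfsg.Agent.Blk.Mod Cfsg.Agent.Blk.PD Cfsg.Agent.GT Cfsg.Agent.Ch

/-- Fix a prime p and a maximal ideal M of the algebraic integers containing p. Let (P, e) be a Brauer pair of the finite group G (P a p-subgroup, e a p-block of C_G(P)) and Q a subgroup of P. Then there is exactly one p-block f of C_G(Q) such that the Brauer pair (Q, f) lies below (P, e). -/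
theorem result {G : Type*} [Group G] [Fintype G] (p : ℕ) [Fact p.Prime] (M : Ideal Cfsg.AlgInt) (hM : Cfsg.IsPModular p M) (P Q : Subgroup G) (e : Set (Cfsg.IrrCharacter (Subgroup.centralizer (P : Set G)))) (hPe : Cfsg.IsBrauerPair p M P e) (hQP : Q ≤ P) : ∃! f : Set (Cfsg.IrrCharacter (Subgroup.centralizer (Q : Set G))), Cfsg.IsPBlock M f ∧ Cfsg.SubpairLE p M Q f P e := by
  haveI := hM.isMaximal; haveI := hM.charP
  obtain ⟨f, hf⟩ := (isPair_epsIn hPe.1 hPe.2).exists_sub hQP
  obtain ⟨f, hf', rfl⟩ := exists_eq_epsIn hf.left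
  exact ⟨f, ⟨hf', subpairLE_of_sub hM hf' hPe.2 hf⟩, fun g hg =>
    hg.1.eq_of_epsIn_eq hf' ((sub_of_subpairLE hM hPe hg.2).unique hf)⟩

end Cfsg.Agent.S4655
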