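import Cfsg.Statements.S4657
import Cfsg.Agent.Blk.PairDict

set_option autoImplicit false
open Cfsg

namespace Cfsg.Agent.S4657

set_option linter.unusedVariables false
set_option linter.style.haveILetI false
open Cfsg.Agent.Blk Cfsg.Agent.Blk.Mod Cfsg.Agent.Blk.PD Cfsg.Agent.GT Cfsg.Agent.Ch

/-- Fix a prime p and a maximal ideal M of the algebraic integers containing p. Every Brauer pair (P, e) of the finite group G is a Brauer pair of exactly one p-block B of G. -/
theorem result {G : Type*} [Group G] [Fintype G] (p : ℕ) [Fact p.Prime] (M : Ideal Cfsg.AlgInt) (hM : Cfsg.IsPModular p M) (P : Subgroup G) (e : Set (Cfsg.IrrCharacter (Subgroup.centralizer (P : Set G)))) (hPe : Cfsg.IsBrauerPair p M P e) : ∃! B : Set (Cfsg.IrrCharacter G), Cfsg.IsBrauerPairOf p M B P e := by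
  haveI := hM.isMaximal; haveI := hM.charP
  obtain ⟨b, hb, h⟩ := (isPair_epsIn hPe.1 hPe.2).exists_isPairOf (NIn.refl ⊤) le_top
  obtain ⟨B, hB, rfl⟩ := isPrim_ZA_top_iff.1 hb
  refine ⟨B, (isBrauerPairOf_iff hM).2 ⟨hB, hPe.2, h⟩, fun B' hB' => ?_⟩
  obtain ⟨h1, -, h2⟩ := (isBrauerPairOf_iff hM).1 hB'
  exact h1.eq_of_eps_eq hB (h2.unique (NIn.refl ⊤) h1.isPrim_ZA_top hb h)

end Cfsg.Agent.S4657
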