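import Cfsg.Statements.S4661
import Cfsg.Agent.Blk.PairDict

set_option autoImplicit false
open Cfsg

namespace Cfsg.Agent.S4661

set_option linter.unusedVariables false
set_option linter.style.haveILetI false
open Cfsg.Agent.Blk Cfsg.Agent.Blk.Mod Cfsg.Agent.Blk.PD Cfsg.Agent.GT Cfsg.Agent.Ch

/-- Fix a prime p and a maximal ideal M of the algebraic integers containing p. Let (P, e) be a maximal Brauer pair of the p-block B of the finite group G, Q ≤ P, and f the p-block of C_G(Q) with (Q, f) ≤ (P, e). Then C_P(Q) is contained in a defect group of f (as a block of the group C_G(Q)); and for some x in G the conjugate pair (x Q x⁻¹, conjugate of f) again lies below (P, e) and C_P(x Q x⁻¹) is a defect group of the conjugate of f in C_G(x Q x⁻¹). -/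
theorem result {G : Type*} [Group G] [Fintype G] (p : ℕ) [Fact p.Prime] (M : Ideal Cfsg.AlgInt) (hM : Cfsg.IsPModular p M) (B : Set (Cfsg.IrrCharacter G)) (P Q : Subgroup G) (e : Set (Cfsg.IrrCharacter (Subgroup.centralizer (P : Set G)))) (f : Set (Cfsg.IrrCharacter (Subgroup.centralizer (Q : Set G)))) (hmax : Cfsg.IsMaximalBrauerPair p M B P e) (hQP : Q ≤ P) (hf : Cfsg.IsPBlock M f) (hle : Cfsg.SubpairLE p M Q f P e) : (∃ D : Subgroup (Subgroup.centralizer (Q : Set G)), Cfsg.IsDefectGroup p M f D ∧ (P ⊓ Subgroup.centralizer (Q : Set G)).subgroupOf (Subgroup.centralizer (Q : Set G)) ≤ D) ∧ ∃ x : G, Cfsg.SubpairLE p M (Q.map (MulAut.conj x).toMonoidHom) (Cfsg.conjBlock Q x f) P e ∧ Cfsg.IsDefectGroup p M (Cfsg.conjBlock Q x f) ((P ⊓ Subgroup.centralizer ((Q.map (MulAut.conj x).toMonoidHom) : Set G)).subgroupOf (Subgroup.centralizer ((Q.map (MulAut.conj x).toMonoidHom) : Set G))) := by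
  haveI := hM.isMaximal; haveI := hM.charP
  obtain ⟨hB, he, h⟩ := (isMaximalBrauerPair_iff hM).1 hmax
  have h1 := sub_of_subpairLE hM hmax.1.1 hle
  have h2 : cen[⊤] Q ≤ ℭ[Q] := inf_le_right
  have h3 : ℭ[Q] ≤ pstab ⊤ Q (epsIn M _ f) :=
    (cen_top Q).ge.trans (h1.left.cen_le_pstab le_rfl)
  constructor
  · obtain ⟨D, hD, h4⟩ := h1.exists_isDef_ge (NIn.refl ⊤) h2 h3
    exact ⟨D.subgroupOf _, (hf.isDefectGroup_subgroupOf_iff hM hD.le).2 hD,
      Subgroup.comap_mono h4⟩
  · obtain ⟨x, -, h4, h5⟩ := h.exists_conj_local (NIn.refl ⊤) hB.isPrim_ZA_top h1 h2 h3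
    refine ⟨x, (subpairLE_conj_iff hM hmax.1.1 hf x).2 (h4 Q _ le_sup_left h1),
      (((isPBlock_conjBlock_iff Q x).2 hf).isDefectGroup_subgroupOf_iff hM inf_le_right).2 ?_⟩
    rwa [epsIn_conjBlock, Tr.centralizer_map_conj]

end Cfsg.Agent.S4661
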