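import Cfsg.Statements.S4662
import Cfsg.Agent.Blk.PairDict2

set_option autoImplicit false
open Cfsg

namespace Cfsg.Agent.S4662

set_option linter.unusedVariables false
set_option linter.style.haveILetI false
open Cfsg.Agent.Blk Cfsg.Agent.Blk.Mod Cfsg.Agent.Blk.PD Cfsg.Agent.GT Cfsg.Agent.Ch

/-- Fix a prime p and a maximal ideal M of the algebraic integers containing p. Let (P, e) be a maximal Brauer pair of the p-block B of the finite group G, Q ≤ P, and f the p-block of C_G(Q) with (Q, f) ≤ (P, e). Let T be the stabilizer of f in N_G(Q). Then the idempotent of f is a block idempotent of T, and N_P(Q) is contained in a defect group of that block of T; moreover for some x in G the conjugate pair (x Q x⁻¹, conjugate of f) again lies below (P, e) and, with T' the stabilizer of the conjugate of f in N_G(x Q x⁻¹), N_P(x Q x⁻¹) is a defect group of the block of T' whose idempotent is that of the conjugate of f. -/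
theorem result {G : Type*} [Group G] [Fintype G] (p : ℕ) [Fact p.Prime] (M : Ideal Cfsg.AlgInt) (hM : Cfsg.IsPModular p M) (B : Set (Cfsg.IrrCharacter G)) (P Q : Subgroup G) (e : Set (Cfsg.IrrCharacter (Subgroup.centralizer (P : Set G)))) (f : Set (Cfsg.IrrCharacter (Subgroup.centralizer (Q : Set G)))) (hmax : Cfsg.IsMaximalBrauerPair p M B P e) (hQP : Q ≤ P) (hf : Cfsg.IsPBlock M f) (hle : Cfsg.SubpairLE p M Q f P e) (T : Subgroup G) (hT : ∀ y : G, y ∈ T ↔ y ∈ Subgroup.normalizer (Q : Set G) ∧ Cfsg.StabilizesBlock (Subgroup.centralizer (Q : Set G)) f y) : (∃ F : Set (Cfsg.IrrCharacter T), Cfsg.IsPBlock M F ∧ (∀ t : T, Cfsg.blockCoeff F t = Cfsg.subgroupBlockCoeff (Subgroup.centralizer (Q : Set G)) f (t : G)) ∧ ∃ D : Subgroup T, Cfsg.IsDefectGroup p M F D ∧ (P ⊓ Subgroup.normalizer (Q : Set G)).subgroupOf T ≤ D) ∧ ∃ x : G, Cfsg.SubpairLE p M (Q.map (MulAut.conj x).toMonoidHom) (Cfsg.conjBlock Q x f) P e ∧ ∀ (T' : Subgroup G), (∀ y : G, y ∈ T' ↔ y ∈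 Subgroup.normalizer ((Q.map (MulAut.conj x).toMonoidHom) : Set G) ∧ Cfsg.StabilizesBlock (Subgroup.centralizer ((Q.map (MulAut.conj x).toMonoidHom) : Set G)) (Cfsg.conjBlock Q x f) y) → ∃ F' : Set (Cfsg.IrrCharacter T'), Cfsg.IsPBlock M F' ∧ (∀ t : T', Cfsg.blockCoeff F' t = Cfsg.subgroupBlockCoeff (Subgroup.centralizer ((Q.map (MulAut.conj x).toMonoidHom) : Set G)) (Cfsg.conjBlock Q x f) (t : G)) ∧ Cfsg.IsDefectGroup p M F' ((P ⊓ Subgroup.normalizer ((Q.map (MulAut.conj x).toMonoidHom) : Set G)).subgroupOf T') := by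
  haveI := hM.isMaximal; haveI := hM.charP
  obtain ⟨hB, he, h⟩ := (isMaximalBrauerPair_iff hM).1 hmax
  have h1 := sub_of_subpairLE hM hmax.1.1 hle
  obtain rfl := eq_pstab_top hf hT
  have h2 := h1.left.cen_le_pstab (L := ⊤) le_rfl
  constructor
  · obtain ⟨F, hF, h3⟩ := exists_block_of_le_pstab hM h1.left.pgroup hf (h1.left.le_pstab le_top)
      (centralizer_le_pstab f) le_rfl
    obtain ⟨D, hD, h4⟩ := h1.exists_isDef_ge (NIn.refl ⊤) h2 le_rfl
    rw [inf_pstab_eq h1 le_top] at h4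
    exact ⟨F, hF, (blockCoeff_eq_iff (centralizer_le_pstab f) hF hf).2 h3, D.subgroupOf _,
      (hF.isDefectGroup_subgroupOf_iff hM hD.le).2 (by rw [h3]; exact hD), Subgroup.comap_mono h4⟩
  · obtain ⟨x, hx, h4, h5⟩ := h.exists_conj_local (NIn.refl ⊤) hB.isPrim_ZA_top h1 h2 le_rfl
    have h6 := h4 Q _ le_sup_left h1
    refine ⟨x, (subpairLE_conj_iff hM hmax.1.1 hf x).2 h6, fun T' hT' => ?_⟩
    have hf' := (isPBlock_conjBlock_iff Q x).2 hf
    obtain rfl := eq_pstab_top hf' hT'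
    rw [map_conj_pstab_of_mem hx, inf_pstab_eq h6 le_top, ← epsIn_conjBlock] at h5
    rw [← epsIn_conjBlock] at h6
    obtain ⟨F, hF, h3⟩ := exists_block_of_le_pstab hM h6.left.pgroup hf' (h6.left.le_pstab le_top)
      (centralizer_le_pstab _) le_rfl
    exact ⟨F, hF, (blockCoeff_eq_iff (centralizer_le_pstab _) hF hf').2 h3,
      (hF.isDefectGroup_subgroupOf_iff hM h5.le).2 (by rw [h3]; exact h5)⟩

end Cfsg.Agent.S4662
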