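import Mathlib
import Cfsg.Statements.S4664
import Cfsg.Agent.Blk.BlockOrth2
import Cfsg.Agent.Blk.Idem

set_option autoImplicit false
open Cfsg

namespace Cfsg.Agent.S4664

open Cfsg.Agent.Ch Cfsg.Agent.Blk


/-- Fix a prime p and a maximal ideal M of the algebraic integers containing p, and let B be a p-block of the finite group G. Let m be the p'-part of the order of G and η = exp(2πi/m). Then every coefficient of the idempotent of B lies in the cyclotomic field ℚ(η). -/
theorem result {G : Type*} [Group G] [Fintype G] (p : ℕ) [Fact p.Prime] (M : Ideal Cfsg.AlgInt) (hM : Cfsg.IsPModular p M) (B : Set (Cfsg.IrrCharacter G)) (hB : Cfsg.IsPBlock M B) (g : G) : Cfsg.blockCoeff B g ∈ IntermediateField.adjoin ℚ ({Complex.exp (2 * Real.pi * Complex.I / ((Nat.card G / p ^ (Nat.card G).factorization p : ℕ) : ℂ))} : Set ℂ) := by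
  classical
  have := hM.isMaximal
  set m := Nat.card G / p ^ (Nat.card G).factorization p with hm
  set K := IntermediateField.adjoin ℚ ({Complex.exp (2 * Real.pi * Complex.I / (m : ℂ))} : Set ℂ)
    with hK
  by_cases hg : p ∣ orderOf g
  · rw [blockCoeff_eq_zero_of_dvd hM hB.blockCoeff_mem hg]
    exact K.zero_mem
  have hm0 : m ≠ 0 := (Nat.ordCompl_pos p Nat.card_pos.ne').ne'
  have hζ := Complex.isPrimitiveRoot_exp m hm0
  have hdvd : orderOf g ∣ m := by
    have h1 : orderOf g ∣ p ^ (Nat.card G).factorization p * m := by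
      rw [hm, Nat.ordProj_mul_ordCompl_eq_self]
      exact orderOf_dvd_natCard g
    exact (Nat.Coprime.pow_right _
      ((hM.prime.coprime_iff_not_dvd.2 hg).symm)).dvd_of_dvd_mul_left h1
  have hroot : ∀ μ : ℂ, μ ^ orderOf g = 1 → μ ∈ K := by
    intro μ hμ
    have : NeZero m := ⟨hm0⟩
    obtain ⟨i, -, rfl⟩ := hζ.eq_pow_of_pow_eq_one (ξ := μ)
      (by obtain ⟨c, hc⟩ := hdvd; rw [hc, pow_mul, hμ, one_pow])
    exact pow_mem (IntermediateField.mem_adjoin_simple_self ℚ _) i
  rw [blockCoeff_eq_sum_ite]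
  refine mul_mem (inv_mem (natCast_mem K _)) (sum_mem fun χ _ => ?_)
  split_ifs
  · refine mul_mem ?_ ?_
    · rw [← χ.2.coe_charDegree]; exact natCast_mem K _
    · obtain ⟨μ, hμ, e⟩ := χ.isCharacter.exists_roots g
      rw [← zpow_neg_one, e]
      exact sum_mem fun i _ => zpow_mem (hroot _ (hμ i)) _
  · exact K.zero_mem

end Cfsg.Agent.S4664
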