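import Mathlib
import Cfsg.Statements.S4665
import Cfsg.Agent.Blk.Contrib2

set_option autoImplicit false
open Cfsg

namespace Cfsg.Agent.S4665

open Cfsg.Agent.Ch Cfsg.Agent.Blk.Om

/-- Fix a prime p, a maximal ideal M of the algebraic integers containing p, and a p-block B of the finite group G, and let p^a be the p-part of the order of G. Let χ be an integer combination of the irreducible characters in B. If the function that agrees with χ on p-regular elements and vanishes on p-singular elements is again an integer combination of the irreducible characters in B, then p^a divides χ(1). -/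
theorem result {G : Type*} [Group G] [Fintype G] (p : ℕ) [Fact p.Prime] (M : Ideal Cfsg.AlgInt) (hM : Cfsg.IsPModular p M) (B : Set (Cfsg.IrrCharacter G)) (hB : Cfsg.IsPBlock M B) (χ : G → ℂ) (hχ : (∃ n : Cfsg.IrrCharacter G → ℤ, ∀ g : G, χ g = ∑ᶠ ψ ∈ B, (n ψ : ℂ) * (ψ : G → ℂ) g)) (h0 : (∃ n : Cfsg.IrrCharacter G → ℤ, ∀ g : G, Cfsg.pRegularPart p χ g = ∑ᶠ ψ ∈ B, (n ψ : ℂ) * (ψ : G → ℂ) g)) : ∃ k : ℤ, χ 1 = (p ^ (Nat.card G).factorization p : ℂ) * k := by
  classical
  have hp : p.Prime := Fact.out
  haveI := hM.isMaximal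
  obtain ⟨n, hn⟩ := h0
  have hgen : IsGeneralizedCharacter G (pRegularPart p χ) := by
    have : pRegularPart p χ = ∑ ψ : IrrCharacter G, (if ψ ∈ B then n ψ else 0) • (ψ : G → ℂ) := by
      ext g
      rw [hn, finsum_mem_irr_eq_sum, Finset.sum_apply]
      refine Finset.sum_congr rfl fun ψ _ => ?_
      split_ifs <;> simp
    rw [this]
    exact IsGeneralizedCharacter.of_sum_int _
  have h1 := apply_div_card_memLocalRing hM hgen.isClassFunction
    (fun g hg => pRegularPart_of_dvd _ hg) (fun η => by
      obtain ⟨n, hn⟩ := hgen.exists_int_classInner η.isGeneralizedCharacter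
      rw [hn]; exact MemLocalRing.intCast n) 1
  obtain ⟨m, hm⟩ := hgen.exists_int_apply_one
  have hc : Subgroup.centralizer ({1} : Set G) = ⊤ := by
    rw [eq_top_iff]; intro x _; simp [Subgroup.mem_centralizer_singleton_iff]
  rw [hm, hc, Subgroup.card_top] at h1
  rw [pRegularPart_one hp] at hm
  have hR := pow_factorization_div_memLocalRing hM (Nat.card_pos (α := G)).ne'
  have hU := pow_factorization_div_not_memLocalIdeal hM (Nat.card_pos (α := G)).ne'
  have h2 := h1.div hR hU
  have h3 : (m : ℂ) / Nat.card G / ((p : ℂ) ^ (Nat.card G).factorization p / Nat.card G) =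
      m / (p : ℂ) ^ (Nat.card G).factorization p := by
    have := natCard_ne_zero G
    field_simp
  rw [h3, hM.intCast_div_pow_mem_iff] at h2
  obtain ⟨k, hk⟩ := h2
  exact ⟨k, by rw [hm, hk]; push_cast; ring⟩

end Cfsg.Agent.S4665
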