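import Mathlib
import Cfsg.Statements.S4666
import Cfsg.Agent.Blk.Contrib2

set_option autoImplicit false
open Cfsg

namespace Cfsg.Agent.S4666

open Cfsg.Agent.Ch Cfsg.Agent.Blk.Om

/-- Fix a prime p and a maximal ideal M of the algebraic integers containing p, and a p-block B of the finite group G of defect d. For every integer combination χ of the irreducible characters in B, p^d times the function that agrees with χ on p-regular elements and vanishes elsewhere is again an integer combination of the irreducible characters in B. -/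
theorem result {G : Type*} [Group G] [Fintype G] (p : ℕ) [Fact p.Prime] (M : Ideal Cfsg.AlgInt) (hM : Cfsg.IsPModular p M) (B : Set (Cfsg.IrrCharacter G)) (hB : Cfsg.IsPBlock M B) (χ : G → ℂ) (hχ : (∃ n : Cfsg.IrrCharacter G → ℤ, ∀ g : G, χ g = ∑ᶠ ψ ∈ B, (n ψ : ℂ) * (ψ : G → ℂ) g)) : (∃ n : Cfsg.IrrCharacter G → ℤ, ∀ g : G, (p ^ Cfsg.blockDefect p B : ℂ) * Cfsg.pRegularPart p χ g = ∑ᶠ ψ ∈ B, (n ψ : ℂ) * (ψ : G → ℂ) g) := by
  classical
  have hp : p.Prime := Fact.out
  haveI := hM.isMaximal
  obtain ⟨n, hn⟩ := hχ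
  have hχ' : χ = ∑ ψ : IrrCharacter G, (if ψ ∈ B then (n ψ : ℂ) else 0) • (ψ : G → ℂ) := by
    ext g
    rw [hn, finsum_mem_irr_eq_sum, Finset.sum_apply]
    refine Finset.sum_congr rfl fun ψ _ => ?_
    split_ifs <;> simp
  have hcf : IsClassFunction G χ := by
    rw [hχ']; exact IsClassFunction.sum fun ψ _ => ψ.isClassFunction.smul _
  have key : ∀ η : IrrCharacter G, classInner (pRegularPart p χ) (η : G → ℂ) =
      ∑ ψ : IrrCharacter G, (if ψ ∈ B then (n ψ : ℂ) else 0) *
        classInner (pRegularPart p (ψ : G → ℂ)) (η : G → ℂ) := by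
    intro η
    conv_lhs => rw [hχ', pRegularPart_sum, classInner_sum_left]
    simp only [pRegularPart_smul, classInner_smul_left]
  have hint : ∀ η : IrrCharacter G, ∃ m : ℤ,
      (p : ℂ) ^ blockDefect p B * classInner (pRegularPart p χ) (η : G → ℂ) = m := by
    intro η
    have : ∀ ψ : IrrCharacter G, ∃ m : ℤ, (p : ℂ) ^ blockDefect p B *
        ((if ψ ∈ B then (n ψ : ℂ) else 0) *
          classInner (pRegularPart p (ψ : G → ℂ)) (η : G → ℂ)) = m := by
      intro ψ
      split_ifs with hψ
      · obtain ⟨m, hm⟩ := exists_int_pow_defect_mul_contr hp hψ η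
        exact ⟨n ψ * m, by rw [mul_left_comm, hm]; push_cast; ring⟩
      · exact ⟨0, by simp⟩
    choose m hm using this
    exact ⟨∑ ψ, m ψ, by rw [key, Finset.mul_sum]; simp only [hm]; push_cast; rfl⟩
  choose m hm using hint
  refine ⟨m, fun g => ?_⟩
  rw [(isClassFunction_pRegularPart hcf).apply_eq_sum_irr, finsum_mem_irr_eq_sum, Finset.mul_sum]
  refine Finset.sum_congr rfl fun η _ => ?_
  split_ifs with hη
  · rw [← mul_assoc, hm]
  · rw [key, Finset.sum_eq_zero, zero_mul, mul_zero]
    intro ψ _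
    split_ifs with hψ
    · rw [contr_eq_zero_of_not_mem hM hB hψ hη, mul_zero]
    · simp

end Cfsg.Agent.S4666
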