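import Mathlib
import Cfsg.Statements.S4668
import Cfsg.Agent.Blk.PairDict2
import Cfsg.Agent.Blk.Contrib
import Cfsg.Agent.GT.CoprimeNilp

set_option autoImplicit false
open Cfsg

namespace Cfsg.Agent.S4668

/-- Fix a prime p and a maximal ideal M of the algebraic integers containing p. Let Q₀ < Q₁ < ⋯ < Q_m be a strictly increasing chain of p-subgroups of the finite group G and N the intersection of their normalizers. Then every block idempotent of N is supported on C_G(Q_m): for every p-block E of N, the idempotent coefficient of E vanishes at every element of N outside C_G(Q_m). -/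
theorem result {G : Type*} [Group G] [Fintype G] (p : ℕ) [Fact p.Prime] (M : Ideal Cfsg.AlgInt) (hM : Cfsg.IsPModular p M) (m : ℕ) (Q : Fin (m + 1) → Subgroup G) (hQ : StrictMono Q) (hQp : ∀ i, IsPGroup p (Q i)) (N : Subgroup G) (hN : ∀ g : G, g ∈ N ↔ ∀ i, g ∈ Subgroup.normalizer (Q i : Set G)) (E : Set (Cfsg.IrrCharacter N)) (hE : Cfsg.IsPBlock M E) (n : N) (hn : (n : G) ∉ Subgroup.centralizer (Q (Fin.last m) : Set G)) : Cfsg.blockCoeff E n = 0 := by
  have := hM.isMaximal
  have := hM.charP
  by_cases hp : p ∣ orderOf n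
  · exact Agent.Blk.Om.blockCoeff_eq_zero_of_dvd hM hE hp
  set P : Subgroup G := Q (Fin.last m) ⊓ N with hP
  have hNi : ∀ i, N ≤ Subgroup.normalizer (Q i : Set G) := fun i g hg => (hN g).1 hg i
  have hNP : N ≤ Subgroup.normalizer (P : Set G) := fun g hg => by
    rw [hP]
    exact Subgroup.inf_normalizer_le_normalizer_inf ⟨hNi _ hg, Subgroup.le_normalizer hg⟩
  have hPp : IsPGroup p P := (hQp _).to_inf_left
  refine Agent.Blk.PD.blockCoeff_eq_zero_of_Supp hE
    (H := Subgroup.centralizer (P.subgroupOf N : Set N)) ?_ fun hc => hn ?_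
  · haveI : (P.subgroupOf N).Normal := by
      rw [Subgroup.normal_subgroupOf_iff_le_normalizer inf_le_right]
      exact hNP
    refine Agent.Blk.Mod.mem_Supp_centralizer_of_idem_ZA (N := ⊤) (L := ⊤) (P := P.subgroupOf N)
      (hPp.comap_subtype) le_top le_rfl (Subgroup.normalizer_eq_top _).ge ?_ hE.eps_mul_self
    exact Agent.Blk.ctr_eq_ZA (R := Agent.Blk.Res M) (G := N) ▸ Agent.Blk.eps_mem_ctr E
  · have hYP : P ≤ Subgroup.centralizer (Subgroup.zpowers (n : G) : Set G) := fun g hg => by
      rw [Subgroup.mem_centralizer_iff]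
      rintro _ ⟨k, rfl⟩
      have := congrArg Subtype.val (hc ⟨g, hg.2⟩ hg)
      exact (Commute.zpow_right (this : Commute g n) k).symm.eq
    have hY : (Nat.card (Subgroup.zpowers (n : G))).Coprime p := by
      rw [Nat.card_zpowers, Subgroup.orderOf_coe]
      exact ((Nat.Prime.coprime_iff_not_dvd Fact.out).2 hp).symm
    have hYN : Subgroup.zpowers (n : G) ≤ N := (Subgroup.zpowers_le_of_mem n.2)
    have hle : ∀ i j, i ≤ j → Q i ≤ Q j := fun i j h => hQ.monotone h
    have key : ∀ i : Fin (m + 1),
        Subgroup.zpowers (n : G) ≤ Subgroup.centralizer (Q i : Set G) := by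
      intro i
      induction i using Fin.induction with
      | zero =>
        rw [← Subgroup.le_centralizer_iff]
        refine le_trans (b := P) (fun g hg => Subgroup.mem_inf.2
          ⟨hle _ _ (Fin.le_last _) hg, (hN g).2 fun j => ?_⟩) hYP
        exact Subgroup.le_normalizer (hle _ _ (Fin.zero_le _) hg)
      | succ i ih =>
        refine Agent.GT.CopAct.thompson_times (hQp i.castSucc) hY (hQp i.succ)
          (Subgroup.le_centralizer_iff.1 ih)
          ((hle _ _ (Fin.castSucc_le_succ i)).trans Subgroup.le_normalizer) (hYN.trans (hNi _))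
          (le_trans (b := P) (fun g hg => Subgroup.mem_inf.2
            ⟨hle _ _ (Fin.le_last _) hg.1, (hN g).2 fun j => ?_⟩) hYP)
        rcases le_or_gt j i.castSucc with h | h
        · exact Subgroup.centralizer_le_normalizer _
            (Subgroup.centralizer_le (hle _ _ h) hg.2)
        · exact Subgroup.le_normalizer (hle _ _ (Fin.castSucc_lt_iff_succ_le.1 h) hg.1)
    exact key _ (Subgroup.mem_zpowers _)

end Cfsg.Agent.S4668
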