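import Cfsg.Statements.S4670
import Cfsg.Agent.Blk.PairDict

set_option autoImplicit false
open Cfsg

namespace Cfsg.Agent.S4670

set_option linter.unusedVariables false
set_option linter.style.haveILetI false
open Cfsg.Agent.Blk Cfsg.Agent.Blk.Mod Cfsg.Agent.Blk.PD Cfsg.Agent.GT Cfsg.Agent.Ch

/-- Fix a prime p and a maximal ideal M of the algebraic integers containing p. Let P be a p-subgroup of the finite group G and H a subgroup containing N_G(P). For every p-block B of G with defect group P there is exactly one p-block c of H with defect group P whose idempotent agrees with that of B, modulo the local ideal at M, at every element of C_G(P) (their Brauer-map images at P coincide); and every p-block c of H with defect group P arises in this way from exactly one such B. This is the Brauer correspondence over H. -/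
theorem result {G : Type*} [Group G] [Fintype G] (p : ℕ) [Fact p.Prime] (M : Ideal Cfsg.AlgInt) (hM : Cfsg.IsPModular p M) (P H : Subgroup G) (hP : IsPGroup p P) (hH : Subgroup.normalizer (P : Set G) ≤ H) : (∀ B : Set (Cfsg.IrrCharacter G), Cfsg.IsPBlock M B → Cfsg.IsDefectGroup p M B P → ∃! c : Set (Cfsg.IrrCharacter H), Cfsg.IsPBlock M c ∧ Cfsg.IsDefectGroup p M c (P.subgroupOf H) ∧ ∀ x : G, x ∈ Subgroup.centralizer (P : Set G) → Cfsg.MemLocalIdeal M (Cfsg.blockCoeff B x - Cfsg.subgroupBlockCoeff H c x)) ∧ (∀ c : Set (Cfsg.IrrCharacter H), Cfsg.IsPBlock M c → Cfsg.IsDefectGroup p M c (P.subgroupOf H) → ∃! B : Set (Cfsg.IrrCharacter G), Cfsg.IsPBlock M B ∧ Cfsg.IsDefectGroup p M B P ∧ ∀ x : G, x ∈ Subgroup.centralizer (P : Set G) → Cfsg.MemLocalIdeal M (Cfsg.blockCoeff B x - Cfsg.subgroupBlockCoeff H c x)) := by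
  haveI := hM.isMaximal; haveI := hM.charP
  have hPH : P ≤ H := Subgroup.le_normalizer.trans hH
  have e1 : H ⊓ Subgroup.normalizer (P : Set G) = ⊤ ⊓ Subgroup.normalizer (P : Set G) := by
    rw [top_inf_eq, inf_eq_right.2 hH]
  have e2 : cen[H] P = cen[⊤] P := by
    rw [top_inf_eq, inf_eq_right.2 ((centralizer_le_normalizer' P).trans hH)]
  have key : ∀ (B : Set (IrrCharacter G)) (c : Set (IrrCharacter H)), IsPBlock M B → IsPBlock M c →
      ((∀ x : G, x ∈ ℭ[P] → MemLocalIdeal M (blockCoeff B x - subgroupBlockCoeff H c x)) ↔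
        br P (eps M B) = br P (epsIn M H c)) := by
    intro B c hB hc
    constructor
    · intro h
      refine Mod.ext_coeff fun x => ?_
      by_cases hx : x ∈ ℭ[P]
      · rw [coeff_br_of_mem _ hx, coeff_br_of_mem _ hx, coeff_eps, coeff_epsIn,
          red_eq_red_iff (hB.blockCoeff_mem x) (memLocalRing_subgroupBlockCoeff hc x)]
        exact h x hx
      · rw [coeff_br_of_notMem _ hx, coeff_br_of_notMem _ hx]
    · intro h x hx
      rw [← red_eq_red_iff (hB.blockCoeff_mem x) (memLocalRing_subgroupBlockCoeff hc x),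
        ← coeff_eps, ← coeff_epsIn, ← coeff_br_of_mem _ hx, h, coeff_br_of_mem _ hx]
  constructor
  · intro B hB hD
    rw [hB.isDefectGroup_iff_isDef hM] at hD
    have h1 := hD.br_prim (NIn.refl ⊤) hB.isPrim_ZA_top
    have h2 := hD.br_isDef
    rw [← e1] at h1 h2
    rw [← e2] at h1
    obtain ⟨c, hc, h3, h4⟩ := exists_isDef_br_eq (NIn.refl H) hPH h1 h2
    obtain ⟨c, hc', rfl⟩ := isPrim_ZA_iff.1 hc
    refine ⟨c, ⟨hc', (hc'.isDefectGroup_subgroupOf_iff hM hPH).2 h3, (key B c hB hc').2 h4.symm⟩,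
      fun c' h => h.1.eq_of_epsIn_eq hc'
        (h.1.isPrim_epsIn.eq_of_br_mul_ne_zero (NIn.refl H) hP hPH hc ?_)⟩
    rw [← (key B c' hB h.1).1 h.2.2, h4, h1.idem]
    exact h1.ne_zero
  · intro c hc hD
    rw [hc.isDefectGroup_subgroupOf_iff hM hPH] at hD
    have h1 := hD.br_prim (NIn.refl H) hc.isPrim_epsIn
    have h2 := hD.br_isDef
    rw [e1] at h1 h2
    rw [e2] at h1
    obtain ⟨B, hB, h3, h4⟩ := exists_isDef_br_eq (NIn.refl ⊤) le_top h1 h2
    obtain ⟨B, hB', rfl⟩ := isPrim_ZA_top_iff.1 hB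
    refine ⟨B, ⟨hB', (hB'.isDefectGroup_iff_isDef hM).2 h3, (key B c hB' hc).2 h4⟩,
      fun B' h => h.1.eq_of_eps_eq hB'
        (h.1.isPrim_ZA_top.eq_of_br_mul_ne_zero (NIn.refl ⊤) hP le_top hB ?_)⟩
    rw [(key B' c h.1 hc).1 h.2.2, h4, h1.idem]
    exact h1.ne_zero

end Cfsg.Agent.S4670
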