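import Mathlib
import Cfsg.Statements.S4672
import Cfsg.Agent.Blk.CoverDict

set_option autoImplicit false
open Cfsg

namespace Cfsg.Agent.S4672

open Cfsg.Agent.Ch Cfsg.Agent.Blk.Om

/-- Fix a prime p and a maximal ideal M of the algebraic integers containing p. Let N be a normal subgroup of the finite group G of p-power index and c a p-block of N stable under conjugation by G. Then the idempotent of c is a block idempotent of G: there is a p-block B of G whose idempotent coefficients agree with those of c on N and vanish off N; and for every defect group P of such a block B, G = NP and P ∩ N is a defect group of c. -/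
theorem result {G : Type*} [Group G] [Fintype G] (p : ℕ) [Fact p.Prime] (M : Ideal Cfsg.AlgInt) (hM : Cfsg.IsPModular p M) (N : Subgroup G) [N.Normal] (hN : ∃ k : ℕ, N.index = p ^ k) (c : Set (Cfsg.IrrCharacter N)) (hc : Cfsg.IsPBlock M c) (hst : ∀ x : G, Cfsg.StabilizesBlock N c x) : (∃ B : Set (Cfsg.IrrCharacter G), Cfsg.IsPBlock M B ∧ ∀ g : G, Cfsg.blockCoeff B g = Cfsg.subgroupBlockCoeff N c g) ∧ ∀ B : Set (Cfsg.IrrCharacter G), Cfsg.IsPBlock M B → (∀ g : G, Cfsg.blockCoeff B g = Cfsg.subgroupBlockCoeff N c g) → ∀ P : Subgroup G, Cfsg.IsDefectGroup p M B P → N ⊔ P = ⊤ ∧ Cfsg.IsDefectGroup p M c ((P ⊓ N).subgroupOf N) := by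
  haveI := hM.isMaximal
  haveI := hM.charP
  have hst' : blkStab N c = ⊤ := eq_top_iff.2 fun x _ => stabilizesBlock_iff.1 (hst x)
  refine ⟨?_, fun B hB hBc P hP => ?_⟩
  · obtain ⟨B, hB, hcov⟩ := exists_covers_over hc
    have hBo : B = overSet N c := by
      refine Set.Subset.antisymm ((covers_iff_subset hB hc).1 hcov) fun χ hχ => ?_
      obtain ⟨θ, hθ, hov⟩ := hχ
      have h1 : Covers N.subtype (blockOf M (χ : G → ℂ)) c := ⟨χ, self_mem_blockOf χ, θ, hθ, hov⟩
      rw [hcov.eq_of_index_pow hM hN hB (isPBlock_blockOf χ) hc h1]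
      exact self_mem_blockOf χ
    refine ⟨B, hB, fun g => ?_⟩
    rw [hBo, blockCoeff_overSet hst', subgroupBlockCoeff_eq]
  · have he := (Blk.PD.blockCoeff_eq_iff_top hB hc).1 hBc
    have hD := hP.isDef hM hB
    rw [he] at hD
    have hF : Blk.epsIn M N c ∈ Blk.Mod.Fix ⊤ := (Blk.Cov.epsIn_mem_Fix_iff hc).2 hst'.ge
    refine ⟨?_, (hc.isDefectGroup_subgroupOf_iff hM inf_le_right).2
      (hD.inf_normal (Blk.Mod.NIn.refl N) (Blk.Cov.nIn_top N) hc.isPrim_epsIn)⟩
    have h1 := hD.not_dvd_relIndex_sup (Blk.Cov.nIn_top N) hc.isPrim_epsIn hF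
    rw [Subgroup.relIndex_top_right] at h1
    obtain ⟨k, hk⟩ := hN
    have h2 : (N ⊔ P).index ∣ p ^ k := hk ▸ Subgroup.index_dvd_of_le le_sup_left
    obtain ⟨j, -, hj⟩ := (Nat.dvd_prime_pow (Fact.out : p.Prime)).1 h2
    rcases j with _ | j
    · exact Subgroup.index_eq_one.1 (by simpa using hj)
    · exact absurd (hj ▸ dvd_pow_self p j.succ_ne_zero) h1

end Cfsg.Agent.S4672
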