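import Mathlib
import Cfsg.Statements.S4673
import Cfsg.Agent.Blk.CoverDict

set_option autoImplicit false
open Cfsg

namespace Cfsg.Agent.S4673

open Cfsg.Agent.Ch Cfsg.Agent.Blk.Om

open Cfsg.Agent.Blk.Mod Cfsg.Agent.GT

/-- Fix a prime p and a maximal ideal M of the algebraic integers containing p. Let N ≤ L be normal subgroups of the finite group G with L/N a p-group, let B be a p-block of G covering the p-block c of N (some member of B has a constituent in c on restriction to N), and suppose that N contains a defect group of B. Then the stabilizer T of c in G satisfies T ∩ L = N. -/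
theorem result {G : Type*} [Group G] [Fintype G] (p : ℕ) [Fact p.Prime] (M : Ideal Cfsg.AlgInt) (hM : Cfsg.IsPModular p M) (N L : Subgroup G) [N.Normal] [L.Normal] [Fintype N] (hNL : N ≤ L) (hLN : ∃ k : ℕ, (N.subgroupOf L).index = p ^ k) (B : Set (Cfsg.IrrCharacter G)) (hB : Cfsg.IsPBlock M B) (c : Set (Cfsg.IrrCharacter N)) (hc : Cfsg.IsPBlock M c) (hcov : (∃ χ ∈ B, ∃ θ ∈ c, Cfsg.classInner (fun n : N => (χ : G → ℂ) n) (θ : N → ℂ) ≠ 0)) (hD : ∃ D : Subgroup G, Cfsg.IsDefectGroup p M B D ∧ D ≤ N) (T : Subgroup G) (hT : ∀ x : G, x ∈ T ↔ Cfsg.StabilizesBlock N c x) : T ⊓ L = N := by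
  haveI := hM.isMaximal
  haveI := hM.charP
  obtain ⟨D, hD, hDN⟩ := hD
  have hT' : T = blkStab N c := by
    ext x; rw [hT, stabilizesBlock_iff]
  have hNT : N ≤ T := hT' ▸ le_blkStab c
  refine le_antisymm ?_ (le_inf hNT hNL)
  have hBe := (Blk.Cov.covers_subtype_iff_eps hB hc).1 (covers_subtype_iff.2 hcov)
  have he := hc.isPrim_epsIn
  obtain ⟨b, hb, hbe⟩ := exists_prim_mul_ne_zero (NIn.refl L).isComm hBe
  have hcomm := Blk.ctr_comm (Blk.eps_mem_ctr (M := M) B) b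
  have h1 : Blk.eps M B * b ≠ 0 := fun h => hbe (by rw [← mul_assoc, ← hcomm, h, zero_mul])
  have h2 : b * Blk.epsIn M N c ≠ 0 := fun h => hbe (by
    rw [← mul_assoc, ← hcomm, mul_assoc, h, mul_zero])
  have hbN : b ∈ Supp N := by
    obtain ⟨b', hb', rfl⟩ := Blk.isPrim_ZA_iff.1 hb
    refine mem_Supp.2 fun g hg => ?_
    rw [Blk.PD.coeff_epsIn]
    by_cases hgL : g ∈ L
    · have := Blk.PD.subgroupBlockCoeff_coe L b' ⟨g, hgL⟩
      rw [this, blockCoeff_eq_zero_of_index_pow hM hLN hb' (g := ⟨g, hgL⟩) hg, Blk.red_zero]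
    · rw [Blk.PD.subgroupBlockCoeff_of_notMem _ hgL, Blk.red_zero]
  have h3 : b * Blk.epsIn M N c = Blk.epsIn M N c :=
    he.mul_eq_of_ne_zero ⟨hbN, Fix_anti hNL hb.mem.2⟩ hb.idem h2
  obtain ⟨Q, hQ⟩ := exists_isDef (p := p) (NIn.refl L) hb
  obtain ⟨x, -, hx⟩ := Blk.Cov.exists_conj_inf_eq (Blk.Cov.nIn_top L) hB.isPrim_ZA_top hb h1 hQ
    (hD.isDef hM hB)
  have hnorm : ∀ (y : G) (A : Subgroup G), cs[y] A ≤ N → A ≤ N := by
    intro y A h
    rw [map_conj_le_iff_le_inv] at h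
    rwa [Tr.map_conj_eq_of_mem (by rw [Subgroup.normalizer_eq_top]; trivial)] at h
  have hQN : Q ≤ N := hnorm x Q (hx ▸ inf_le_left.trans hDN)
  have hNH : NIn N (T ⊓ L) := Blk.Cov.nIn_of_le (le_inf hNT hNL)
  have hF : Blk.epsIn M N c ∈ Blk.Mod.Fix (T ⊓ L) :=
    (Blk.Cov.epsIn_mem_Fix_iff hc).2 (hT' ▸ inf_le_left)
  obtain ⟨E, hE⟩ := exists_isDef (p := p) hNH (he.of_fix hNH.le hF)
  have h4 : br E b ≠ 0 := Blk.Cov.br_ne_zero_of_mul_eq hE.pgroup
    (Fix_anti (hE.le.trans inf_le_right) hb.mem.2) (Fix_anti hE.le hF) h3 hE.br_ne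
  obtain ⟨y, -, hy⟩ := hQ.exists_conj_le hE.pgroup (hE.le.trans inf_le_right) h4
  have hEN : E ≤ N := hnorm y E (hy.trans hQN)
  have h5 := hE.not_dvd_relIndex_sup hNH he hF
  rw [sup_eq_left.2 hEN] at h5
  obtain ⟨k, hk⟩ := hLN
  have h6 : N.relIndex (T ⊓ L) ∣ p ^ k := by
    rw [← hk]
    exact Dvd.intro _ (Subgroup.relIndex_mul_relIndex N (T ⊓ L) L hNH.le inf_le_right)
  obtain ⟨j, -, hj⟩ := (Nat.dvd_prime_pow (Fact.out : p.Prime)).1 h6
  rcases j with _ | j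
  · exact Subgroup.relIndex_eq_one.1 (by simpa using hj)
  · exact absurd (hj ▸ dvd_pow_self p j.succ_ne_zero) h5

end Cfsg.Agent.S4673
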