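import Mathlib
import Cfsg.Statements.S4674
import Cfsg.Agent.Blk.CoverDict

set_option autoImplicit false
open Cfsg

namespace Cfsg.Agent.S4674

open Cfsg.Agent.Ch Cfsg.Agent.Blk.Om

open Cfsg.Agent.Blk.Mod Cfsg.Agent.GT

local notation "𝓝[" Q "]" => Subgroup.normalizer (SetLike.coe Q)

theorem key {p : ℕ} [Fact p.Prime] {k : Type*} [Field k] [CharP k p] {G : Type*} [Group G]
    [Finite G] {N Q P : Subgroup G} [N.Normal] (hQ : IsPGroup p Q) {B c : MonoidAlgebra k G}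
    (hB : IsPrim (ZA (⊤ : Subgroup G) ⊤) B)
    (hc : IsPrim (ZA (Subgroup.normalizer (Q : Set G)) (Subgroup.normalizer (Q : Set G))) c)
    (hBc : br Q B * c = c) (hP : IsDef p (Subgroup.normalizer (Q : Set G)) c P)
    (hPQ : P ⊓ N = Q) : IsDef p ⊤ B P ∧ br P B = br P c := by
  have hQP : Q ≤ P := hPQ ▸ inf_le_left
  have h1 : Subgroup.normalizer (P : Set G) ≤ Subgroup.normalizer (Q : Set G) := by
    intro x hx
    rw [← hPQ]
    exact mem_normalizer_inf hx (by rw [Subgroup.normalizer_eq_top]; trivial)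
  have h2 : Subgroup.normalizer (Q : Set G) ⊓ Subgroup.centralizer (P : Set G) =
      ⊤ ⊓ Subgroup.centralizer (P : Set G) := by
    rw [top_inf_eq, inf_eq_right.2 ((centralizer_le_normalizer' P).trans h1)]
  have h3 : Subgroup.normalizer (Q : Set G) ⊓ Subgroup.normalizer (P : Set G) =
      ⊤ ⊓ Subgroup.normalizer (P : Set G) := by
    rw [top_inf_eq, inf_eq_right.2 h1]
  have h4 := hP.br_prim (NIn.refl _) hc
  have h5 := hP.br_isDef
  rw [h2, h3] at h4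
  rw [h3] at h5
  refine isDef_of_br_mul_ne_zero (NIn.refl ⊤) le_top h4 h5 hB ?_
  rw [← br_br_of_le hQP B, ← br_mul hP.pgroup (br_mem_Fix hP.le (Fix_anti le_top hB.mem.2))
    (Fix_anti hP.le hc.mem.2), hBc]
  exact hP.br_ne

/-- Fix a prime p and a maximal ideal M of the algebraic integers containing p. Let N be a normal subgroup of the finite group G, Q a p-subgroup of N, H = N_G(Q) and L = H ∩ N = N_N(Q). Let d be a p-block of N with defect group Q and e the p-block of L with defect group Q that induces d inside N (its Brauer correspondent). Then block induction from H to G is a bijection from the p-blocks of H covering e onto the p-blocks of G covering d: every block of H covering e induces exactly one block of G, and that block covers d; and every block of G covering d is induced by exactly one block of H covering e. -/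
theorem result {G : Type*} [Group G] [Fintype G] (p : ℕ) [Fact p.Prime] (M : Ideal Cfsg.AlgInt) (hM : Cfsg.IsPModular p M) (N : Subgroup G) [N.Normal] [Fintype N] (Q : Subgroup G) (hQ : IsPGroup p Q) (hQN : Q ≤ N) [Fintype ↥(Subgroup.normalizer (Q : Set G) ⊓ N)] (d : Set (Cfsg.IrrCharacter N)) (hd : Cfsg.IsPBlock M d) (hdQ : Cfsg.IsDefectGroup p M d (Q.subgroupOf N)) (e : Set (Cfsg.IrrCharacter ↥(Subgroup.normalizer (Q : Set G) ⊓ N))) (he : Cfsg.IsPBlock M e) (heQ : Cfsg.IsDefectGroup p M e (Q.subgroupOf (Subgroup.normalizer (Q : Set G) ⊓ N))) (hed : Cfsg.IsInducedBlockIn M N (Subgroup.normalizer (Q : Set G) ⊓ N) e d) : (∀ c : Set (Cfsg.IrrCharacter ↥(Subgroup.normalizer (Q : Set G))), Cfsg.IsPBlock M c → (∃ ψ ∈ c, ∃ ξ ∈ e, Cfsg.classInner (fun l : ↥(Subgroup.normalizer (Q : Set G) ⊓ N) => (ψ : ↥(Subgroup.normalizer (Q : Set G)) → ℂ) (Subgroup.inclusion inf_le_left l)) (ξ : ↥(Subgroup.normalizer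 (Q : Set G) ⊓ N) → ℂ) ≠ 0) → ∃! B : Set (Cfsg.IrrCharacter G), Cfsg.IsInducedBlock M (Subgroup.normalizer (Q : Set G)) c B ∧ (∃ χ ∈ B, ∃ θ ∈ d, Cfsg.classInner (fun n : N => (χ : G → ℂ) n) (θ : N → ℂ) ≠ 0)) ∧ (∀ B : Set (Cfsg.IrrCharacter G), Cfsg.IsPBlock M B → (∃ χ ∈ B, ∃ θ ∈ d, Cfsg.classInner (fun n : N => (χ : G → ℂ) n) (θ : N → ℂ) ≠ 0) → ∃! c : Set (Cfsg.IrrCharacter ↥(Subgroup.normalizer (Q : Set G))), (Cfsg.IsPBlock M c ∧ ∃ ψ ∈ c, ∃ ξ ∈ e, Cfsg.classInner (fun l : ↥(Subgroup.normalizer (Q : Set G) ⊓ N) => (ψ : ↥(Subgroup.normalizer (Q : Set G)) → ℂ) (Subgroup.inclusion inf_le_left l)) (ξ : ↥(Subgroup.normalizer (Q : Set G) ⊓ N) → ℂ) ≠ 0) ∧ Cfsg.IsInducedBlock M (Subgroup.normalizer (Q : Set G)) c B) := by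
  haveI := hM.isMaximal
  haveI := hM.charP
  have hQH : Q ≤ 𝓝[Q] := Subgroup.le_normalizer
  have hCH : Subgroup.centralizer (Q : Set G) ≤ 𝓝[Q] := centralizer_le_normalizer' Q
  have hNn : ∀ x : G, x ∈ Subgroup.normalizer (N : Set G) := fun x => by
    rw [Subgroup.normalizer_eq_top]; trivial
  have hLH : NIn (𝓝[Q] ⊓ N) 𝓝[Q] :=
    ⟨inf_le_left, fun x hx => mem_normalizer_inf (Subgroup.le_normalizer hx) (hNn x)⟩
  have hd' := hd.isPrim_epsIn
  have he' := he.isPrim_epsIn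
  have hdQ' := (hd.isDefectGroup_subgroupOf_iff hM hQN).1 hdQ
  have heQ' := (he.isDefectGroup_subgroupOf_iff hM (le_inf hQH hQN)).1 heQ
  have hde : br Q (Blk.epsIn M N d) = Blk.epsIn M (𝓝[Q] ⊓ N) e := by
    have h1 := (Blk.Cov.isInducedBlockIn_iff_br' hM hQ (le_inf hQH hQN)
      (le_inf (inf_le_right.trans hCH) inf_le_left) (inf_comm 𝓝[Q] N).le he hd).1 hed
    have h2 := hdQ'.br_prim (NIn.refl N) hd'
    have h3 : N ⊓ Subgroup.centralizer (Q : Set G) = 𝓝[Q] ⊓ N ⊓ Subgroup.centralizer (Q : Set G) :=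
      le_antisymm (le_inf (le_inf (inf_le_right.trans hCH) inf_le_left) inf_le_right)
        (inf_le_inf_right _ inf_le_right)
    rw [h3, inf_comm N, isPrim_inf_centralizer_iff le_rfl hQ ⟨le_inf hQH hQN, inf_le_left⟩] at h2
    exact h2.eq_of_mul_ne_zero (NIn.refl _).isComm he' (by rw [h1]; exact he'.ne_zero)
  have hcov : ∀ c : Set (IrrCharacter 𝓝[Q]), IsPBlock M c →
      ((∃ ψ ∈ c, ∃ ξ ∈ e, classInner (fun l : ↥(𝓝[Q] ⊓ N) =>
        (ψ : 𝓝[Q] → ℂ) (Subgroup.inclusion inf_le_left l)) (ξ : ↥(𝓝[Q] ⊓ N) → ℂ) ≠ 0) ↔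
        Blk.epsIn M 𝓝[Q] c * Blk.epsIn M (𝓝[Q] ⊓ N) e ≠ 0) := fun c hc => by
    rw [← Blk.Cov.covers_inclusion_iff_eps inf_le_left hc he, covers_iff]
  have hind : ∀ c : Set (IrrCharacter 𝓝[Q]), IsPBlock M c → ∀ B : Set (IrrCharacter G),
      IsPBlock M B → (IsInducedBlock M 𝓝[Q] c B ↔
        br Q (Blk.eps M B) * Blk.epsIn M 𝓝[Q] c = Blk.epsIn M 𝓝[Q] c) := fun c hc B hB =>
    Blk.isInducedBlock_iff_br hM hQ hQH hCH le_rfl hc hB
  refine ⟨fun c hc hce => ?_, fun B hB hBd => ?_⟩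
  · obtain ⟨B, hcB⟩ := hc.inducedBlockDefined hM hQ hQH hCH le_rfl
    have hB : IsPBlock M B := ((isInducedBlock_iff _ _ _).1 hcB).2.1
    refine ⟨B, ⟨hcB, ?_⟩, fun B' hB' => hB'.1.unique hcB⟩
    rw [← covers_subtype_iff, Blk.Cov.covers_subtype_iff_eps hB hd]
    have h1 := (hind c hc B hB).1 hcB
    have h2 := Blk.Cov.orbSum_mul_eq hLH hc.isPrim_epsIn he' ((hcov c hc).1 hce)
    have h3 := Blk.Cov.br_orbSum (Blk.Cov.nIn_top N) hd' hdQ'
    rw [top_inf_eq, inf_comm N, hde] at h3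
    refine Blk.Cov.mul_ne_zero_of_orbSum (Blk.Cov.nIn_top N) hB.isPrim_ZA_top.mem fun h0 => ?_
    have h4 := br_mul hQ (Fix_anti le_top (orbSum_mem (e := Blk.epsIn M N d)
      (Blk.Cov.nIn_top N).norm).2) (Fix_anti le_top hB.isPrim_ZA_top.mem.2)
    rw [h0, map_zero, h3] at h4
    apply hc.isPrim_epsIn.ne_zero
    rw [← h2, ← h1, ← mul_assoc, ← h4, zero_mul]
  · have hBd' := (Blk.Cov.covers_subtype_iff_eps hB hd).1 (covers_subtype_iff.2 hBd)
    have hB' := hB.isPrim_ZA_top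
    have h1 := Blk.Cov.br_mul_ne_zero (Blk.Cov.nIn_top N) (Blk.Cov.ZA_le_ZA le_top hB'.mem)
      hB'.idem hd' hBd' hQ hQN hdQ'.br_ne
    rw [hde] at h1
    have h2 : br Q (Blk.eps M B) ∈ ZA 𝓝[Q] 𝓝[Q] :=
      Blk.br_mem_ZA_of_le hCH le_rfl (Fix_anti le_top hB'.mem.2)
    obtain ⟨c, hc, hce⟩ := exists_prim_mul_ne_zero (NIn.refl 𝓝[Q]).isComm h1
    have hcomm := ZA_comm le_rfl hc.mem h2
    have h3 : br Q (Blk.eps M B) * c = c := hc.mul_eq_of_ne_zero h2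
      (br_idem hQ (Fix_anti le_top hB'.mem.2) hB'.idem) fun h => hce (by
        rw [← mul_assoc, hcomm, h, zero_mul])
    have h4 : c * Blk.epsIn M (𝓝[Q] ⊓ N) e ≠ 0 := fun h => hce (by
      rw [← mul_assoc, hcomm, mul_assoc, h, mul_zero])
    obtain ⟨c, hc', rfl⟩ := Blk.isPrim_ZA_iff.1 hc
    refine ⟨c, ⟨⟨hc', (hcov c hc').2 h4⟩, (hind c hc' B hB).2 h3⟩, ?_⟩
    rintro c₂ ⟨⟨hc₂, h5⟩, h6⟩
    have h7 := (hcov c₂ hc₂).1 h5
    have h8 := (hind c₂ hc₂ B hB).1 h6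
    obtain ⟨P, hP, hPQ⟩ := Blk.Cov.exists_isDef_inf_eq hLH hc he' h4 heQ'
    obtain ⟨P₂, hP₂, hPQ₂⟩ := Blk.Cov.exists_isDef_inf_eq hLH hc₂.isPrim_epsIn he' h7 heQ'
    rw [← inf_assoc, inf_eq_left.2 hP.le] at hPQ
    rw [← inf_assoc, inf_eq_left.2 hP₂.le] at hPQ₂
    obtain ⟨h9, -⟩ := key hQ hB' hc h3 hP hPQ
    obtain ⟨h10, h11⟩ := key hQ hB' hc₂.isPrim_epsIn h8 hP₂ hPQ₂
    obtain ⟨x, -, hx⟩ := h9.exists_conj_eq h10
    have hxH : x ∈ 𝓝[Q] := by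
      rw [← Tr.map_conj_eq_iff]
      conv_lhs => rw [← hPQ, Tr.map_conj_inf, hx, Tr.map_conj_eq_of_mem (hNn x), hPQ₂]
    have h12 := hP.conj_mem hc.mem.2 hxH
    rw [hx] at h12
    obtain ⟨-, h13⟩ := key hQ hB' hc h3 h12 hPQ₂
    refine hc₂.eq_of_epsIn_eq hc' (IsPrim.eq_of_br_mul_ne_zero (NIn.refl 𝓝[Q]) hP₂.pgroup hP₂.le
      hc₂.isPrim_epsIn hc ?_)
    rw [← h13, ← h11, br_idem hP₂.pgroup (Fix_anti le_top hB'.mem.2) hB'.idem]
    exact h10.br_ne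

end Cfsg.Agent.S4674
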