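import Cfsg.Statements.S4681
import Cfsg.Agent.Blk.PairDict2

set_option autoImplicit false
open Cfsg

namespace Cfsg.Agent.S4681

set_option linter.unusedVariables false
set_option linter.style.haveILetI false
open Cfsg.Agent.Blk Cfsg.Agent.Blk.Mod Cfsg.Agent.Blk.PD Cfsg.Agent.GT Cfsg.Agent.Ch

/-- Fix a prime p and a maximal ideal M of the algebraic integers containing p. Let B₀ be the principal p-block of the finite group G, P a Sylow p-subgroup and e₀ the principal p-block of C_G(P). Then (P, e₀) is a maximal Brauer pair of B₀, and the fusion system of B₀ on (P, e₀) is the fusion system of G on P: its maps from each subgroup of P are exactly the conjugation maps into P by elements of G. -/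
theorem result {G : Type*} [Group G] [Fintype G] (p : ℕ) [Fact p.Prime] (M : Ideal Cfsg.AlgInt) (hM : Cfsg.IsPModular p M) (S : Sylow p G) : Cfsg.IsMaximalBrauerPair p M (Cfsg.principalBlock M G) (S : Subgroup G) (Cfsg.principalBlock M (Subgroup.centralizer ((S : Subgroup G) : Set G))) ∧ ∀ F : Cfsg.FusionSystem (S : Subgroup G), Cfsg.IsBlockFusionSystemOn p M (Cfsg.principalBlock M G) (S : Subgroup G) (Cfsg.principalBlock M (Subgroup.centralizer ((S : Subgroup G) : Set G))) F → ∀ Q : Subgroup G, F.Hom Q = (Cfsg.groupFusionSystem (S : Subgroup G)).Hom Q := by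
  haveI := hM.isMaximal; haveI := hM.charP
  have hB : IsPBlock M (principalBlock M G) := isPBlock_principalBlock
  have he : IsPBlock M (principalBlock M ℭ[(S : Subgroup G)]) := isPBlock_principalBlock
  have h1 := (aug_epsIn_eq_one_iff he).2 rfl
  have h2 := isPair_epsIn S.isPGroup' he
  constructor
  · exact (isMaximalBrauerPair_iff hM).2 ⟨hB, he, (isPairOf_of_aug le_rfl hB.isPrim_ZA_top.mem
      hB.eps_mul_self aug_eps_principal h2 le_top h1).isMaxPair (NIn.refl ⊤) hB.isPrim_ZA_top
      ((isDef_iff_of_aug (NIn.refl ⊤) hB.isPrim_ZA_top aug_eps_principal).2 ⟨S.isPGroup', le_top,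
        by rw [Subgroup.relIndex_top_right]; exact S.not_dvd_index⟩)⟩
  · intro F hF Q
    refine FusionSystem.hom_eq_iff_mor.2 fun φ => ?_
    rw [((isBlockFusionSystemOn_iff hM).1 hF).2, FusionSystem.mor_group_iff]
    constructor
    · rintro ⟨g, h3, h4⟩
      exact ⟨h3.le, fun x hx => h4 x hx ▸ Tr.map_conj_le_iff.1 h3.conj_le x hx, g, h4⟩
    · rintro ⟨h3, h4, g, h5⟩
      obtain ⟨f, hf⟩ := h2.exists_sub h3
      exact ⟨g, ⟨Subgroup.mem_top g, f, hf, sub_of_aug (hf.left.conj_norm (mem_normalizer_top g)) h2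
        (Tr.map_conj_le_iff.2 fun x hx => h5 x hx ▸ h4 x hx)
        (by rw [aug_cj, hf.aug_eq_one h1]) h1⟩, h5⟩

end Cfsg.Agent.S4681
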