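import Cfsg.Statements.S4682
import Cfsg.Agent.Blk.PairDict2

set_option autoImplicit false
open Cfsg

namespace Cfsg.Agent.S4682

set_option linter.unusedVariables false
set_option linter.style.haveILetI false
open Cfsg.Agent.Blk Cfsg.Agent.Blk.Mod Cfsg.Agent.Blk.PD Cfsg.Agent.GT Cfsg.Agent.Ch

/-- Fix a prime p and a maximal ideal M of the algebraic integers containing p, a p-block B of the finite group G with maximal Brauer pair (P, e), P abelian, and a Brauer pair (Q, f) ≤ (P, e). Let T_Q be the stabilizer of f in N_G(Q) and T_P the stabilizer of e in N_G(P). Then every element of T_Q is a product of an element of T_P and an element of C_G(Q); and the index of C_G(Q) in T_Q equals the index of T_P ∩ C_G(Q) in T_P ∩ N_G(Q). -/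
theorem result {G : Type*} [Group G] [Fintype G] (p : ℕ) [Fact p.Prime] (M : Ideal Cfsg.AlgInt) (hM : Cfsg.IsPModular p M) (B : Set (Cfsg.IrrCharacter G)) (P : Subgroup G) (e : Set (Cfsg.IrrCharacter (Subgroup.centralizer (P : Set G)))) (hmax : Cfsg.IsMaximalBrauerPair p M B P e) (hab : ∀ x ∈ P, ∀ y ∈ P, x * y = y * x) (Q : Subgroup G) (f : Set (Cfsg.IrrCharacter (Subgroup.centralizer (Q : Set G)))) (hQP : Q ≤ P) (hf : Cfsg.IsPBlock M f) (hle : Cfsg.SubpairLE p M Q f P e) (TQ : Subgroup G) (hTQ : ∀ y : G, y ∈ TQ ↔ y ∈ Subgroup.normalizer (Q : Set G) ∧ Cfsg.StabilizesBlock (Subgroup.centralizer (Q : Set G)) f y) (TP : Subgroup G) (hTP : ∀ y : G, y ∈ TP ↔ y ∈ Subgroup.normalizer (P : Set G) ∧ Cfsg.StabilizesBlock (Subgroup.centralizer (P : Set G)) e y) : (∀ x ∈ TQ, ∃ y ∈ TP, ∃ c ∈ Subgroup.centralizer (Q : Set G), x = y * c) ∧ ((Subgroup.centralizer (Q : Set G)).subgroupOf TQ).index = ((TP ⊓ Subgroup.centralizer (Q : Set G)).subgroupOf (TP ⊓ Subgroup.normalizer (Q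 : Set G))).index := by
  haveI := hM.isMaximal; haveI := hM.charP
  obtain ⟨hB, he, h⟩ := (isMaximalBrauerPair_iff hM).1 hmax
  have h1 := sub_of_subpairLE hM hmax.1.1 hle
  obtain rfl := eq_pstab_top hf hTQ
  obtain rfl := eq_pstab_top he hTP
  have hab' : P ≤ ℭ[P] := fun x hx y hy => hab y hy x hx
  constructor
  · intro x hx
    obtain ⟨n, hn, h2⟩ := h.exists_of_abelian (NIn.refl ⊤) hB.isPrim_ZA_top hab' h1
      (h1.fz_of_mem_pstab hx)
    exact ⟨n, hn, _, h2.2, by group⟩
  · have h2 := h.pstab_eq_of_abelian (NIn.refl ⊤) hB.isPrim_ZA_top hab' h1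
    rw [h1.left.cen_pstab, cen_top] at h2
    change ℭ[Q].relIndex _ = Subgroup.relIndex _ _
    rw [h2, relIndex_sup_of_le_normalizer
      (inf_le_right.trans (normalizer_le_normalizer_centralizer Q)), ← Subgroup.inf_relIndex_right,
      ← Subgroup.inf_relIndex_right (_ ⊓ ℭ[Q])]
    congr 1
    ext x
    simp only [Subgroup.mem_inf]
    tauto

end Cfsg.Agent.S4682
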