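import Mathlib
import Cfsg.Statements.S4683
import Cfsg.Agent.Blk.Subsection

set_option autoImplicit false
open Cfsg

namespace Cfsg.Agent.S4683

open Cfsg.Agent.Ch Cfsg.Agent.Blk Cfsg.Agent.Blk.Om
open scoped ComplexConjugate

theorem blockPart_fun_sum {G : Type*} [Group G] [Fintype G] {ι : Type*} (s : Finset ι)
    (B : Set (IrrCharacter G)) (F : ι → G → ℂ) (a : ι → ℂ) (g : G) :
    blockPart B (fun c => ∑ i ∈ s, F i c * a i) g = ∑ i ∈ s, blockPart B (F i) g * a i := by
  have : (fun c => ∑ i ∈ s, F i c * a i) = ∑ i ∈ s, a i • F i := by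
    ext c; simp [mul_comm]
  rw [this, blockPart_sum, Finset.sum_apply]
  refine Finset.sum_congr rfl fun i _ => ?_
  rw [blockPart_smul, Pi.smul_apply, smul_eq_mul, mul_comm]

theorem aux {G : Type*} [Group G] [Fintype G] {p : ℕ} {M : Ideal Cfsg.AlgInt}
    (hM : Cfsg.IsPModular p M) {B : Set (Cfsg.IrrCharacter G)} {u : G}
    (hu : ∃ k : ℕ, orderOf u = p ^ k) {C : Subgroup G} (hC : ∀ g, g ∈ C ↔ g * u = u * g)
    {e : Set (Cfsg.IrrCharacter C)} (he : Cfsg.IsInducedBlock M C e B) :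
    ∑ᶠ χ ∈ B, ∑ᶠ s : C,
      Cfsg.pRegularPart p (Cfsg.blockPart e (fun c : C => (χ : G → ℂ) (u * c))) s *
        Cfsg.blockPart e (fun c : C => (χ : G → ℂ) (u⁻¹ * c)) s⁻¹ =
      (Nat.card C : ℂ) * (Cfsg.blockRank p e : ℂ) := by
  classical
  have := hM.isMaximal
  have := Fintype.ofFinite C
  have hR := he.1.blockCoeff_mem
  rw [card_mul_blockRank hM hR, finsum_mem_irr]
  simp only [finsum_eq_sum_of_fintype]
  have h1 : ∀ χ : IrrCharacter G, (if χ ∈ B then ∑ s : C,
      pRegularPart p (blockPart e (fun c : C => (χ : G → ℂ) (u * c))) s *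
        blockPart e (fun c : C => (χ : G → ℂ) (u⁻¹ * c)) s⁻¹ else 0) =
      ∑ s : C, if p ∣ orderOf s then 0 else blockPart e (fun c : C => (χ : G → ℂ) (u * c)) s *
        blockPart e (fun c : C => (χ : G → ℂ) (u⁻¹ * c)) s⁻¹ := by
    intro χ
    split_ifs with hχ
    · refine Finset.sum_congr rfl fun s _ => ?_
      rw [Blk.pRegularPart_apply]
      split_ifs <;> simp
    · refine (Finset.sum_eq_zero fun s _ => ?_).symm
      split_ifs with hs
      · rfl
      · rw [second_main_of_notMem hM hu hC he hχ hs, zero_mul]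
  simp only [h1]
  rw [Finset.sum_comm]
  refine Finset.sum_congr rfl fun s _ => ?_
  split_ifs with hs
  · simp
  have hs' : ¬ p ∣ orderOf s⁻¹ := by rwa [orderOf_inv]
  rw [← blockPart_fun_sum]
  have h2 : ∀ c : C, ¬ p ∣ orderOf c → ∑ χ : IrrCharacter G, (χ : G → ℂ) (u * c) *
      blockPart e (fun c : C => (χ : G → ℂ) (u⁻¹ * c)) s⁻¹ =
      ∑ ψ : IrrCharacter C, (ψ : C → ℂ) c * (if ψ ∈ e then (ψ : C → ℂ) s⁻¹ else 0) := by
    intro c hc
    simp only [mul_comm ((_ : G → ℂ) (u * c))]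
    rw [← blockPart_fun_sum]
    have h3 : ∀ c' : C, ¬ p ∣ orderOf c' →
        ∑ χ : IrrCharacter G, (χ : G → ℂ) (u⁻¹ * c') * (χ : G → ℂ) (u * c) =
        ∑ ψ : IrrCharacter C, (ψ : C → ℂ) c' * (ψ : C → ℂ) c := by
      intro c' hc'
      have h4 := sum_irr_mul_of_regular hM.prime hu hC hc (y' := c'⁻¹) (by rwa [orderOf_inv])
      have h5 : (u * ((c'⁻¹ : C) : G))⁻¹ = u⁻¹ * c' := by
        have := (hC c').1 c'.2
        rw [Subgroup.coe_inv, mul_inv_rev, inv_inv, mul_inv_eq_iff_eq_mul, mul_assoc, this,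
          inv_mul_cancel_left]
      rw [h5, inv_inv] at h4
      simpa only [mul_comm] using h4
    rw [blockPart_congr_of_regular hM hR hs' h3, blockPart_sum_irr, finsum_mem_irr]
    refine Finset.sum_congr rfl fun ψ _ => ?_
    split_ifs <;> simp [mul_comm]
  rw [blockPart_congr_of_regular hM hR hs h2, blockPart_sum_irr, finsum_mem_irr]
  refine Finset.sum_congr rfl fun ψ _ => ?_
  by_cases h : ψ ∈ e <;> simp [h]


/-- Fix a prime p and a maximal ideal M of the algebraic integers containing p, a p-block B of the finite group G, a p-element u and a p-block e of C = C_G(u) such that (⟨u⟩, e) is a Brauer pair of B (a Brauer element of B). For χ ∈ B let χ_u be the e-part of the class function c ↦ χ(u c) on C and χ_u' the e-part of c ↦ χ(u⁻¹ c). Then the sum over χ ∈ B and over the p-regular elements s of C of χ_u(s)·χ_u'(s⁻¹) equals the order of C times the p-regular rank of e (the number of irreducible Brauer characters of e). -/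
theorem result {G : Type*} [Group G] [Fintype G] (p : ℕ) [Fact p.Prime] (M : Ideal Cfsg.AlgInt) (hM : Cfsg.IsPModular p M) (B : Set (Cfsg.IrrCharacter G)) (u : G) (hu : ∃ k : ℕ, orderOf u = p ^ k) (e : Set (Cfsg.IrrCharacter (Subgroup.centralizer (Subgroup.zpowers u : Set G)))) (hBe : Cfsg.IsBrauerPairOf p M B (Subgroup.zpowers u) e) : ∑ᶠ χ ∈ B, ∑ᶠ s : Subgroup.centralizer (Subgroup.zpowers u : Set G), Cfsg.pRegularPart p (Cfsg.blockPart e (fun c : Subgroup.centralizer (Subgroup.zpowers u : Set G) => (χ : G → ℂ) (u * c))) s * Cfsg.blockPart e (fun c : Subgroup.centralizer (Subgroup.zpowers u : Set G) => (χ : G → ℂ) (u⁻¹ * c)) s⁻¹ = (Nat.card (Subgroup.centralizer (Subgroup.zpowers u : Set G)) : ℂ) * (Cfsg.blockRank p e : ℂ) := by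
  classical
  have := hM.isMaximal
  have hC := mem_centralizer_zpowers_iff' u
  obtain ⟨⟨-, he⟩, hB, hω⟩ := hBe
  obtain ⟨B', hB'⟩ := exists_isInducedBlock_centralizer hM hu hC he
  obtain ⟨ξ, hξ⟩ := he.nonempty
  obtain ⟨η, hη⟩ := hB'.2.1.nonempty
  have h1 := indAlong_of_isInducedBlock hB' ξ hξ η hη _ (Blk.isClassFunction_blockCoeff B)
    hB.blockCoeff_mem
  have h2 := hω ξ hξ
  have h3 : brauerOmega (Subgroup.zpowers u) (blockCoeff B) (ξ : _ → ℂ) =
      om (ξ : _ → ℂ) (fun h => blockCoeff B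
        ((Subgroup.centralizer (Subgroup.zpowers u : Set G)).subtype h)) := by
    have := Fintype.ofFinite (Subgroup.centralizer (Subgroup.zpowers u : Set G))
    rw [brauerOmega, om_eq_sum, finsum_eq_sum_of_fintype, Finset.sum_div]
    rfl
  rw [h3] at h2
  have h4 : η ∈ B := mem_of_om_blockCoeff_sub_one (h1.symm.trans h2)
  obtain rfl := hB.eq_of_mem hB'.2.1 h4 hη
  exact aux hM hu hC hB'

end Cfsg.Agent.S4683
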