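import Cfsg.Statements.S4684
import Cfsg.Agent.Blk.Star4
import Cfsg.Agent.Fus.Hyp

set_option autoImplicit false
open Cfsg

namespace Cfsg.Agent.S4684

set_option linter.unusedVariables false
set_option linter.style.haveILetI false
open Cfsg.Agent.Blk Cfsg.Agent.Blk.Mod Cfsg.Agent.Blk.PD Cfsg.Agent.GT Cfsg.Agent.Ch

/-- Fix a prime p and a maximal ideal M of the algebraic integers containing p, a p-block B of the finite group G with maximal Brauer pair (P, e) and fusion system F on P. Then the number of irreducible characters of height zero in B is divisible by the index in P of the focal subgroup of F. -/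
theorem result {G : Type*} [Group G] [Fintype G] (p : ℕ) [Fact p.Prime] (M : Ideal Cfsg.AlgInt) (hM : Cfsg.IsPModular p M) (B : Set (Cfsg.IrrCharacter G)) (P : Subgroup G) (e : Set (Cfsg.IrrCharacter (Subgroup.centralizer (P : Set G)))) (hmax : Cfsg.IsMaximalBrauerPair p M B P e) (F : Cfsg.FusionSystem P) (hF : Cfsg.IsBlockFusionSystemOn p M B P e F) : (F.focalSubgroup.subgroupOf P).index ∣ Nat.card {χ : Cfsg.IrrCharacter G // χ ∈ B ∧ Cfsg.blockHeight p B (χ : G → ℂ) = 0} := by
  haveI := hM.isMaximal; haveI := hM.charP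
  obtain ⟨hB, he, hm⟩ := (isMaximalBrauerPair_iff hM).1 hmax
  have hF' := ((isBlockFusionSystemOn_iff hM).1 hF).2
  rw [← Subgroup.relIndex_top_right]
  refine relIndex_dvd_card_height hM hB hm (fun x hx => ?_) le_top
    (fun v w x hx hw => ?_) 0 Set.univ (by simp) fun χ hχ h0 v _ => ?_
  · refine F.commutator_le_focal ?_
    rw [← Subgroup.map_subtype_commutator]
    exact Subgroup.mem_map_of_mem _ hx
  · have := (hF'.mor hx).mem_focal (Subgroup.mem_zpowers _)
    rwa [← hw] at this
  · exact exists_dcm_ne_zero_of_height_zero hM hB hχ h0 (hm.toIsPairOf.of_sub le_rfl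
      hB.isPrim_ZA_top.mem hB.eps_mul_self (sub_sb hM hm.pair v.2))

end Cfsg.Agent.S4684
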