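import Cfsg.Statements.S4685
import Cfsg.Agent.Blk.Star4
import Cfsg.Agent.Fus.Hyp

set_option autoImplicit false
open Cfsg

namespace Cfsg.Agent.S4685

set_option linter.unusedVariables false
set_option linter.style.haveILetI false
open Cfsg.Agent.Blk Cfsg.Agent.Blk.Mod Cfsg.Agent.Blk.PD Cfsg.Agent.GT Cfsg.Agent.Ch

/-- Fix a prime p and a maximal ideal M of the algebraic integers containing p, a p-block B of the finite group G with maximal Brauer pair (P, e) and fusion system F on P. Then for every h the number of irreducible characters of height h in B is divisible by the index of Z(P) ∩ foc(F) in Z(P), where foc(F) is the focal subgroup of F. -/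
theorem result {G : Type*} [Group G] [Fintype G] (p : ℕ) [Fact p.Prime] (M : Ideal Cfsg.AlgInt) (hM : Cfsg.IsPModular p M) (B : Set (Cfsg.IrrCharacter G)) (P : Subgroup G) (e : Set (Cfsg.IrrCharacter (Subgroup.centralizer (P : Set G)))) (hmax : Cfsg.IsMaximalBrauerPair p M B P e) (F : Cfsg.FusionSystem P) (hF : Cfsg.IsBlockFusionSystemOn p M B P e F) (h : ℕ) : ((P ⊓ Subgroup.centralizer (P : Set G) ⊓ F.focalSubgroup).subgroupOf (P ⊓ Subgroup.centralizer (P : Set G))).index ∣ Nat.card {χ : Cfsg.IrrCharacter G // χ ∈ B ∧ Cfsg.blockHeight p B (χ : G → ℂ) = h} := by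
  haveI := hM.isMaximal; haveI := hM.charP
  obtain ⟨hB, he, hm⟩ := (isMaximalBrauerPair_iff hM).1 hmax
  have hF' := ((isBlockFusionSystemOn_iff hM).1 hF).2
  have hK : commutator P ≤ F.focalSubgroup.subgroupOf P := fun x hx => by
    refine F.commutator_le_focal ?_
    rw [← Subgroup.map_subtype_commutator]
    exact Subgroup.mem_map_of_mem _ hx
  haveI : (F.focalSubgroup.subgroupOf P).Normal := Subgroup.Normal.of_commutator_le P hK
  have key := relIndex_dvd_card_height hM hB hm hK
    (L := F.focalSubgroup.subgroupOf P ⊔ (P ⊓ Subgroup.centralizer (P : Set G)).subgroupOf P)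
    le_sup_left (fun v w x hx hw => by
      have := (hF'.mor hx).mem_focal (Subgroup.mem_zpowers _)
      rwa [← hw] at this) h
    ((P ⊓ Subgroup.centralizer (P : Set G)).subgroupOf P : Subgroup P)
    (by rw [Subgroup.closure_eq]) fun χ hχ _ v hv =>
      exists_dcm_ne_zero_of_major hM hB hm (sub_sb hM hm.pair v.2) hv.2 hχ
  rw [Subgroup.relIndex_sup_left, Subgroup.relIndex_subgroupOf inf_le_left] at key
  rwa [← Subgroup.relIndex, Subgroup.inf_relIndex_left]

end Cfsg.Agent.S4685
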