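import Cfsg.Statements.S4688
import Cfsg.Agent.Blk.PairDict2

set_option autoImplicit false
open Cfsg

namespace Cfsg.Agent.S4688

set_option linter.unusedVariables false
set_option linter.style.haveILetI false
open Cfsg.Agent.Blk Cfsg.Agent.Blk.Mod Cfsg.Agent.Blk.PD Cfsg.Agent.GT Cfsg.Agent.Ch

/-- Fix a prime p and a maximal ideal M of the algebraic integers containing p, and a nilpotent p-block B of the finite group G with maximal Brauer pair (P, e). Then for every Brauer pair (Q, f) of B, f is a nilpotent block of C_G(Q); and if moreover (Q, f) ≤ (P, e), then C_P(Q) is a defect group of f as a block of C_G(Q). -/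
theorem result {G : Type*} [Group G] [Fintype G] (p : ℕ) [Fact p.Prime] (M : Ideal Cfsg.AlgInt) (hM : Cfsg.IsPModular p M) (B : Set (Cfsg.IrrCharacter G)) (P : Subgroup G) (e : Set (Cfsg.IrrCharacter (Subgroup.centralizer (P : Set G)))) (hmax : Cfsg.IsMaximalBrauerPair p M B P e) (hnil : Cfsg.IsNilpotentBlock p M B) (Q : Subgroup G) (f : Set (Cfsg.IrrCharacter (Subgroup.centralizer (Q : Set G)))) (hQf : Cfsg.IsBrauerPairOf p M B Q f) : Cfsg.IsNilpotentBlock p M f ∧ (Cfsg.SubpairLE p M Q f P e → Cfsg.IsDefectGroup p M f ((P ⊓ Subgroup.centralizer (Q : Set G)).subgroupOf (Subgroup.centralizer (Q : Set G)))) := by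
  haveI := hM.isMaximal; haveI := hM.charP
  obtain ⟨hB, he, h⟩ := (isMaximalBrauerPair_iff hM).1 hmax
  obtain ⟨-, hf, h1⟩ := (isBrauerPairOf_iff hM).1 hQf
  have h2 := ((isNilpotentBlock_iff hM).1 hnil).2
  constructor
  · have := h2.loc (NIn.refl ⊤) hB.isPrim_ZA_top.mem hB.eps_mul_self h1 (centralizer_le_pstab f)
    rw [cen_top] at this
    exact (isNilpotentBlock_iff_epsIn hM).2 ⟨hf, this⟩
  · intro hle
    exact (hf.isDefectGroup_subgroupOf_iff hM inf_le_right).2 ((h.inner_of_isNilp (NIn.refl ⊤)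
      hB.isPrim_ZA_top h2).isDef_cen hB.isPrim_ZA_top h (sub_of_subpairLE hM hmax.1.1 hle)
      inf_le_right (centralizer_le_pstab f))

end Cfsg.Agent.S4688
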