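import Cfsg.Statements.S4692
import Cfsg.Agent.Blk.PairDict2
import Cfsg.Agent.Blk.Cover
import Cfsg.Agent.GT.CoprimeFixed

set_option autoImplicit false
open Cfsg

namespace Cfsg.Agent.S4692

set_option linter.unusedVariables false
set_option linter.style.haveILetI false
open Cfsg.Agent.Blk Cfsg.Agent.Blk.Mod Cfsg.Agent.Blk.PD Cfsg.Agent.GT Cfsg.Agent.Ch

/-- Nilpotency of a stable block under an extension of `p`-power index. -/
theorem isNilp_iff {p : ℕ} [Fact p.Prime] {k : Type*} [Field k] [CharP k p] {G : Type*} [Group G]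
    [Finite G] {N : Subgroup G} [hN : N.Normal] (hi : ∃ n : ℕ, N.index = p ^ n)
    (hS : ∀ (Q : Subgroup G) (f : MonoidAlgebra k G), IsPair p ⊤ Q f → f ∈ Supp N)
    {b : MonoidAlgebra k G} (hb : b ∈ ZA N ⊤) (hbb : b * b = b) :
    IsNilp p N N b ↔ IsNilp p ⊤ ⊤ b := by
  have hp : p.Prime := Fact.out
  have hnorm : ∀ x : G, x ∈ Subgroup.normalizer (N : Set G) := fun x => by
    rw [Subgroup.normalizer_eq_top]; trivial
  have hNT : NIn N ⊤ := ⟨le_top, fun x _ => hnorm x⟩
  have hmem : ∀ {Q : Subgroup G} {f : MonoidAlgebra k G}, IsPair p ⊤ Q f →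
      f ∈ ZA (cen[N] Q) (cen[⊤] Q) := fun {Q f} hf =>
    mem_ZA.2 ⟨mem_Supp_inf.2 ⟨hS Q f hf, hf.supp_centralizer⟩, hf.fix_cen⟩
  have hle : ∀ Q : Subgroup G, cen[N] Q ≤ cen[⊤] Q := fun Q => inf_le_inf_right _ le_top
  have hbT : b ∈ ZA ⊤ ⊤ := ZA_mono le_top le_rfl hb
  constructor
  · intro h Q f' hf' x hx ho
    have hQ := hf'.pair.pgroup
    have hxn := pstab_le_normalizer hx
    obtain ⟨f, hf, hff⟩ := exists_isPair_mul_eq (N := N) hQ (fun y _ => hnorm y)
      (ZA_mono le_rfl (hle Q) (hmem hf'.pair)) hf'.pair.idem hf'.pair.ne_zero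
    have hpr : IsPrim (ZA (cen[N] Q) (cen[⊤] Q)) f' :=
      hf'.pair.prim.of_le (ZA_mono (hle Q) le_rfl) (hmem hf'.pair)
    have hNL : NIn (cen[N] Q) (cen[⊤] Q) := ⟨hle Q, fun y hy =>
      mem_normalizer_inf_centralizer (hnorm y) (centralizer_le_normalizer' Q hy.2)⟩
    obtain ⟨c, hc, hcx⟩ := exists_conj_of_mul_eq hNL hf.prim hpr
      (hf.prim.conj_self (mem_normalizer_inf_centralizer (hnorm x) hxn)) hff
      (by conv_lhs => rw [← (mem_pstab.1 hx).2.2]
          rw [← map_mul, hff])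
    have hcn := centralizer_le_normalizer' Q hc.2
    have hcx' : c⁻¹ * x ∈ pstab ⊤ Q f := mem_pstab.2 ⟨trivial,
      Subgroup.mul_mem _ (Subgroup.inv_mem _ hcn) hxn, by rw [cj_mul, ← hcx, cj_inv_cj]⟩
    have hpo : IsPairOf p N ⊤ b Q f := ⟨hf, le_top, by rw [← hff, ← mul_assoc, hf'.eq]⟩
    have hT : IsPGroup p (autInducedBy (pstab ⊤ Q f) Q) := by
      refine isPGroup_autInducedBy_of pstab_le_normalizer fun y hy hyo => ?_
      have hyN : y ∈ N := Om.mem_of_index_pow hp hi hyo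
      have hyn := pstab_le_normalizer hy
      obtain ⟨g, hg⟩ := hf.exists_sub (Q := Q ⊓ N) inf_le_left
      have hg' := hpo.of_sub le_top hb hbb hg
      have hy' := mem_pstab.1 (hg.pstab_inf_le hNT ⟨hy, mem_normalizer_inf hyn (hnorm y)⟩)
      have h1 := h (Q ⊓ N) g ⟨hg'.pair, inf_le_right, hg'.eq⟩ y
        (mem_pstab.2 ⟨hyN, hy'.2⟩) hyo
      have h2 : Subgroup.zpowers y ≤ Subgroup.centralizer (Q : Set G) := by
        refine CopAct.le_centralizer_of_commutator_le (N := Q ⊓ N) ?_ (le_inf ?_ ?_)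
          ((Subgroup.zpowers_le).2 h1)
        · obtain ⟨n, hn⟩ := IsPGroup.iff_card.1 (hQ.to_le (inf_le_left : Q ⊓ N ≤ Q))
          rw [hn, Nat.card_zpowers]
          exact Nat.Coprime.pow_right _ ((Nat.Prime.coprime_iff_not_dvd hp).2 hyo).symm
        · refine Subgroup.commutator_le.2 fun u hu v hv => ?_
          have hvn : v ∈ Subgroup.normalizer (Q : Set G) := (Subgroup.zpowers_le).2 hyn hv
          have := (Subgroup.mem_normalizer_iff.1 hvn u⁻¹).1 (Q.inv_mem hu)
          simpa [commutatorElement_def, mul_assoc] using Q.mul_mem hu this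
        · exact (Subgroup.commutator_mono le_top ((Subgroup.zpowers_le).2 hyN)).trans
            (Subgroup.commutator_le_right _ _)
      exact h2 (Subgroup.mem_zpowers y)
    rw [← autInducedBy_cen_sup (T := Subgroup.normalizer (Q : Set G)) pstab_le_normalizer le_rfl]
      at hT
    refine mem_centralizer_of_isPGroup_aut ?_ hxn hT ho
    have : x = c * (c⁻¹ * x) := by simp
    rw [this]
    exact Subgroup.mul_mem_sup ⟨hcn, hc.2⟩ hcx'
  · intro h Q f hf x hx ho
    have hQ := hf.pair.pgroup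
    have hxn := pstab_le_normalizer hx
    have hC := (NIn.refl (cen[⊤] Q)).isComm (k := k)
    obtain ⟨f', hf', hne⟩ := exists_prim_mul_ne_zero hC hf.pair.ne_zero
    have hP' : IsPair p ⊤ Q f' := ⟨hQ, le_normalizer_top Q, hf'⟩
    have hff : f' * f = f :=
      hf.pair.mul_eq_of_ne_zero (ZA_mono le_rfl (hle Q) (hmem hP')) hf'.idem hne
    have hbr : br Q b * f' = f' := by
      refine hP'.mul_eq_of_ne_zero (br_mem_ZA_cen' Q hbT)
        (br_idem hQ (Fix_anti le_top (mem_ZA.1 hb).2) hbb) fun h0 => hf.pair.ne_zero ?_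
      rw [← hf.eq, ← hff, ← mul_assoc, h0, zero_mul]
    refine h Q f' ⟨hP', le_top, hbr⟩ x (mem_pstab.2 ⟨trivial, hxn, ?_⟩) ho
    refine prim_above_unique hC hf.pair.ne_zero
      (hf'.conj_self (mem_normalizer_inf_centralizer (mem_normalizer_top x) hxn)) hf' ?_ hff
    conv_lhs => rw [← (mem_pstab.1 hx).2.2]
    rw [← map_mul, hff, (mem_pstab.1 hx).2.2]

/-- Fix a prime p and a maximal ideal M of the algebraic integers containing p. Let N be a normal subgroup of p-power index in the finite group G and c a p-block of N stable under conjugation by G, and let B be the p-block of G whose idempotent is that of c (it exists and is unique). Then c is nilpotent as a block of N if and only if B is nilpotent as a block of G. -/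
theorem result {G : Type*} [Group G] [Fintype G] (p : ℕ) [Fact p.Prime] (M : Ideal Cfsg.AlgInt) (hM : Cfsg.IsPModular p M) (N : Subgroup G) [N.Normal] (hN : ∃ k : ℕ, N.index = p ^ k) (c : Set (Cfsg.IrrCharacter N)) (hc : Cfsg.IsPBlock M c) (hst : ∀ x : G, Cfsg.StabilizesBlock N c x) (B : Set (Cfsg.IrrCharacter G)) (hB : Cfsg.IsPBlock M B) (hBc : ∀ g : G, Cfsg.blockCoeff B g = Cfsg.subgroupBlockCoeff N c g) : Cfsg.IsNilpotentBlock p M c ↔ Cfsg.IsNilpotentBlock p M B := by
  haveI := hM.isMaximal; haveI := hM.charP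
  have hp : p.Prime := Fact.out
  have heq := (blockCoeff_eq_iff_top hB hc).1 hBc
  rw [isNilpotentBlock_iff_epsIn hM, isNilpotentBlock_iff hM, and_iff_right hc, and_iff_right hB,
    ← heq]
  refine isNilp_iff hN (fun Q f hf => ?_) (mem_ZA.2 ⟨?_, (mem_ZA.1 hB.isPrim_ZA_top.mem).2⟩)
    hB.eps_mul_self
  · obtain ⟨e, he, rfl⟩ := exists_eq_epsIn hf
    refine mem_Supp.2 fun g hg => ?_
    rw [coeff_epsIn]
    by_cases hgC : g ∈ ℭ[Q]
    · rw [subgroupBlockCoeff_coe ℭ[Q] e ⟨g, hgC⟩, Om.blockCoeff_eq_zero_of_dvd hM he, red_zero]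
      by_contra ho
      rw [Subgroup.orderOf_mk] at ho
      exact hg (Om.mem_of_index_pow hp hN ho)
    · rw [subgroupBlockCoeff_of_notMem e hgC, red_zero]
  · rw [heq]
    exact (mem_ZA.1 (isPrim_ZA_iff.2 ⟨c, hc, rfl⟩).mem).1

end Cfsg.Agent.S4692
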