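import Cfsg.Statements.S4693
import Cfsg.Agent.Blk.PairDict2

set_option autoImplicit false
open Cfsg

namespace Cfsg.Agent.S4693

set_option linter.unusedVariables false
set_option linter.style.haveILetI false
open Cfsg.Agent.Blk Cfsg.Agent.Blk.Mod Cfsg.Agent.Blk.PD Cfsg.Agent.GT Cfsg.Agent.Ch

/-- Fix a prime p and a maximal ideal M of the algebraic integers containing p, a p-block B of the finite group G with maximal Brauer pair (P, e) and fusion system F on P, and a Brauer pair (Q, f) ≤ (P, e) with Q centric in F. Suppose every element of G normalizes Q and stabilizes f. Then the idempotent of B agrees with that of f modulo M at every element of G, and f is the idempotent of a nilpotent block of Q·C_G(Q): some p-block of Q·C_G(Q) has the idempotent coefficients of f and is nilpotent. -/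
theorem result {G : Type*} [Group G] [Fintype G] (p : ℕ) [Fact p.Prime] (M : Ideal Cfsg.AlgInt) (hM : Cfsg.IsPModular p M) (B : Set (Cfsg.IrrCharacter G)) (P : Subgroup G) (e : Set (Cfsg.IrrCharacter (Subgroup.centralizer (P : Set G)))) (hmax : Cfsg.IsMaximalBrauerPair p M B P e) (F : Cfsg.FusionSystem P) (hF : Cfsg.IsBlockFusionSystemOn p M B P e F) (Q : Subgroup G) (f : Set (Cfsg.IrrCharacter (Subgroup.centralizer (Q : Set G)))) (hQP : Q ≤ P) (hf : Cfsg.IsPBlock M f) (hle : Cfsg.SubpairLE p M Q f P e) (hcen : F.IsCentric Q) (hG : ∀ x : G, x ∈ Subgroup.normalizer (Q : Set G) ∧ Cfsg.StabilizesBlock (Subgroup.centralizer (Q : Set G)) f x) : (∀ g : G, Cfsg.MemLocalIdeal M (Cfsg.blockCoeff B g - Cfsg.subgroupBlockCoeff (Subgroup.centralizer (Q : Set G)) f g)) ∧ ∃ F' : Set (Cfsg.IrrCharacter ↥(Q ⊔ Subgroup.centralizer (Q : Set G))), Cfsg.IsPBlock M F' ∧ (∀ t : ↥(Q ⊔ Subgroup.centralizer (Q : Set G)), Cfsg.blockCoeff F' t = Cfsg.subgroupBlockCoeff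 (Subgroup.centralizer (Q : Set G)) f (t : G)) ∧ Cfsg.IsNilpotentBlock p M F' := by
  haveI := hM.isMaximal; haveI := hM.charP
  obtain ⟨hB, he, hm⟩ := (isMaximalBrauerPair_iff hM).1 hmax
  have hFus := ((isBlockFusionSystemOn_iff hM).1 hF).2
  have hsub := sub_of_subpairLE hM ⟨hm.pair.pgroup, he⟩ hle
  have hQ := hsub.left.pgroup
  have htop : (⊤ : Subgroup G) ≤ pstab ⊤ Q (epsIn M _ f) := fun x _ =>
    (mem_pstab_top_iff hf).2 (hG x)
  have hprim : IsPrim (ZA ⊤ ⊤) (epsIn M _ f) :=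
    isPrim_epsIn_of_le_pstab hM hQ hf le_top le_top htop
  have hpo := hm.toIsPairOf.of_sub le_rfl hB.isPrim_ZA_top.mem hB.eps_mul_self hsub
  have hNQ : (⊤ : Subgroup G) ≤ Subgroup.normalizer (Q : Set G) := fun x _ => (hG x).1
  have heq : eps M B = epsIn M _ f := by
    have h1 := br_eq_self_of_idem_ZA hQ le_top le_rfl hNQ hB.isPrim_ZA_top.mem hB.eps_mul_self
    have h2 := hpo.eq
    rw [h1] at h2
    exact hB.isPrim_ZA_top.eq_of_mul_ne_zero (NIn.refl ⊤).isComm hprim
      (by rw [h2]; exact hprim.ne_zero)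
  refine ⟨fun g => ?_, ?_⟩
  · rw [(blockCoeff_eq_iff_top hB hf).2 heq g, sub_self]
    exact MemLocalIdeal.zero
  · have hH : Q ⊔ ℭ[Q] ≤ pstab ⊤ Q (epsIn M _ f) := le_top.trans htop
    obtain ⟨F', hF', hE⟩ := exists_block_of_le_pstab hM hQ hf le_sup_left le_sup_right hH
    refine ⟨F', hF', (blockCoeff_eq_iff le_sup_right hF' hf).2 hE, ?_⟩
    rw [isNilpotentBlock_iff_epsIn hM, and_iff_right hF', hE]
    have hc := (hFus.centric_iff (NIn.refl ⊤) hB.isPrim_ZA_top hm hsub).1 hcen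
    rw [hsub.left.cen_pstab, cen_top] at hc
    have hpH := isPrim_epsIn_of_le_pstab hM hQ hf le_sup_left le_sup_right hH
    intro R g hg x hx ho
    obtain ⟨D, hD, hRD⟩ := exists_isDef_ge (NIn.refl _) hpH hg.pair.pgroup hg.le hg.br_ne_zero
    have hQD : Q ≤ D := hD.normal_le (NIn.refl _) hpH hQ ⟨le_sup_left, le_top.trans hNQ⟩
    have hDC : D ⊓ ℭ[Q] = cen[Q] Q := hc.eq_of_le (hD.pgroup.to_le inf_le_left) inf_le_right
      (hD.br_ne_of_le inf_le_left) (inf_le_inf_right _ hQD)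
    have hdec : ∀ y ∈ Q ⊔ ℭ[Q], ∃ u ∈ Q, u⁻¹ * y ∈ ℭ[Q] := by
      intro y hy
      rw [← SetLike.mem_coe,
        Subgroup.coe_mul_of_right_le_normalizer_left Q _ (centralizer_le_normalizer' Q)] at hy
      obtain ⟨u, hu, c, hc, rfl⟩ := hy
      exact ⟨u, hu, by simpa using hc⟩
    have hDQ : D ≤ Q := by
      intro y hy
      obtain ⟨u, hu, hc⟩ := hdec y (hD.le hy)
      have : u⁻¹ * y ∈ D ⊓ ℭ[Q] := ⟨D.mul_mem (D.inv_mem (hQD hu)) hy, hc⟩
      rw [hDC] at this
      simpa using Q.mul_mem hu this.1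
    obtain ⟨u, hu, hc⟩ := hdec x (pstab_le hx)
    exact mem_centralizer_of_inner hQ (pstab_le_normalizer hx) hu
      (Subgroup.centralizer_le (hRD.trans hDQ) hc) ho

end Cfsg.Agent.S4693
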