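import Cfsg.Statements.S4694
import Cfsg.Agent.Blk.CenDef
import Cfsg.Agent.Blk.PairDict2

set_option autoImplicit false
open Cfsg

namespace Cfsg.Agent.S4694

set_option linter.unusedVariables false
set_option linter.style.haveILetI false
open Cfsg.Agent.Blk Cfsg.Agent.Blk.Mod Cfsg.Agent.Blk.PD Cfsg.Agent.GT Cfsg.Agent.Ch

/-- A constituent of the restriction of a defect zero character along a map with normal image
has defect zero modulo the kernel. -/
theorem exists_over {H K : Type*} [Group H] [Group K] [Finite H] [Finite K] {p : ℕ}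
    [Fact p.Prime] (ψ : IrrCharacter K)
    (hψ : (charDegree (ψ : K → ℂ)).factorization p = (Nat.card K).factorization p)
    (f : H →* K) [f.range.Normal] : ∃ θ : IrrCharacter f.range,
      Om.Over f (ψ : K → ℂ) (infl _ f.rangeRestrict_surjective θ : H → ℂ) ∧
      (Nat.card f.range).factorization p ≤ (charDegree (θ : f.range → ℂ)).factorization p := by
  classical
  haveI := Fintype.ofFinite H
  haveI := Fintype.ofFinite f.range
  obtain ⟨θ, hθ⟩ := Om.exists_over_under f.range.subtype ψ
  refine ⟨θ, ?_, ?_⟩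
  · rw [Om.over_iff, coe_infl]
    rw [Om.over_iff, ← classInner_comp_surjective _ f.rangeRestrict_surjective] at hθ
    exact hθ
  · obtain ⟨e, he, h⟩ := hθ.exists_degree_eq_mul ψ.2 θ.2
    have h0 := ψ.2.charDegree_pos.ne'
    rw [h] at h0
    have h1 := (Nat.factorization_le_iff_dvd (left_ne_zero_of_mul h0)
      Subgroup.index_ne_zero_of_finite).2 he p
    have h2 := Om.factorization_index_add_card (p := p) f.range
    rw [h, Nat.factorization_mul (left_ne_zero_of_mul h0) (right_ne_zero_of_mul h0),
      Finsupp.add_apply] at hψ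
    omega

/-- Fix a prime p and a maximal ideal M of the algebraic integers containing p, a p-block B of the finite group G and a Brauer pair (Q, e) of B. Let T be the stabilizer of e in N_G(Q) and suppose that (Q, e) carries a weight: the block of T whose idempotent is that of e contains an irreducible character χ that is constant on the cosets of Q and whose degree has p-part equal to the p-part of the index of Q in T. Then Z(Q) is a defect group of e as a block of C_G(Q), and Q is the largest normal p-subgroup of T: every p-subgroup of T normalized by T lies in Q. -/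
theorem result {G : Type*} [Group G] [Fintype G] (p : ℕ) [Fact p.Prime] (M : Ideal Cfsg.AlgInt) (hM : Cfsg.IsPModular p M) (B : Set (Cfsg.IrrCharacter G)) (Q : Subgroup G) (e : Set (Cfsg.IrrCharacter (Subgroup.centralizer (Q : Set G)))) (hQe : Cfsg.IsBrauerPairOf p M B Q e) (T : Subgroup G) (hT : ∀ y : G, y ∈ T ↔ y ∈ Subgroup.normalizer (Q : Set G) ∧ Cfsg.StabilizesBlock (Subgroup.centralizer (Q : Set G)) e y) (F' : Set (Cfsg.IrrCharacter T)) (hF' : Cfsg.IsPBlock M F') (hF'e : ∀ t : T, Cfsg.blockCoeff F' t = Cfsg.subgroupBlockCoeff (Subgroup.centralizer (Q : Set G)) e (t : G)) (χ : Cfsg.IrrCharacter T) (hχ : χ ∈ F') (hχQ : ∀ q : G, q ∈ Q → ∀ t : T, ∀ t' : T, (t' : G) = q * (t : G) → (χ : T → ℂ) t' = (χ : T → ℂ) t) (hdeg : (Cfsg.charDegree (χ : T → ℂ)).factorization p + (Nat.card Q).factorization p = (Nat.card T).factorization p) : Cfsg.IsDefectGroup p M e ((Q ⊓ Subgroup.centralizer (Q : Set G)).subgroupOf (Subgroup.centralizer (Q : Set G))) ∧ ∀ R : Subgroup G, R ≤ T → IsPGroup p R → (∀ t ∈ T, t ∈ Subgroup.normalizer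 (R : Set G)) → R ≤ Q := by
  classical
  haveI := hM.isMaximal; haveI := hM.charP
  obtain ⟨hB, he, hpair⟩ := (isBrauerPairOf_iff hM).1 hQe
  have hQ : IsPGroup p Q := hpair.pair.pgroup
  have hT' := eq_pstab_top he hT
  have hTN : T ≤ Subgroup.normalizer (Q : Set G) := fun t ht => ((hT t).1 ht).1
  have hCT : ℭ[Q] ≤ T := hT' ▸ centralizer_le_pstab e
  have hQT : Q ≤ T := hT' ▸ hpair.pair.le_pstab le_top
  haveI : (Q.subgroupOf T).Normal := Subgroup.normal_subgroupOf_of_le_normalizer hTN
  have hker : (QuotientGroup.mk' (Q.subgroupOf T)).ker ≤ charKer (χ : T → ℂ) := by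
    rw [QuotientGroup.ker_mk']
    intro q hq
    exact χ.2.isCharacter.mem_charKer.2 (hχQ q hq 1 q (by simp))
  obtain ⟨ψ, rfl⟩ := (exists_infl_eq_iff (QuotientGroup.mk'_surjective _)).2 hker
  have hψ : (charDegree (ψ : T ⧸ Q.subgroupOf T → ℂ)).factorization p =
      (Nat.card (T ⧸ Q.subgroupOf T)).factorization p := by
    have h1 := Om.factorization_index_add_card (p := p) (Q.subgroupOf T)
    rw [Nat.card_congr (Subgroup.subgroupOfEquivOfLe hQT).toEquiv] at h1
    rw [charDegree_infl] at hdeg
    rw [← Subgroup.index_eq_card]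
    omega
  have hn : ∀ {R : Subgroup G} (hR : R ≤ T), T ≤ Subgroup.normalizer (R : Set G) →
      ((QuotientGroup.mk' (Q.subgroupOf T)).comp (Subgroup.inclusion hR)).range.Normal := by
    intro R hR h
    haveI : (R.subgroupOf T).Normal := Subgroup.normal_subgroupOf_of_le_normalizer h
    rw [MonoidHom.range_comp, Subgroup.inclusion_range]
    exact Subgroup.Normal.map inferInstance _ (QuotientGroup.mk'_surjective _)
  have hk : ∀ {R : Subgroup G} (hR : R ≤ T),
      ((QuotientGroup.mk' (Q.subgroupOf T)).comp (Subgroup.inclusion hR)).ker =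
        (Q ⊓ R).subgroupOf R := fun hR => by
    ext x
    simp [Subgroup.mem_subgroupOf]
  refine ⟨?_, fun R hR hRp hRn => ?_⟩
  · haveI := hn hCT (hTN.trans (Mod.normalizer_le_normalizer_centralizer Q))
    obtain ⟨θ, ho, hθ⟩ := exists_over ψ hψ
      ((QuotientGroup.mk' (Q.subgroupOf T)).comp (Subgroup.inclusion hCT))
    refine isDefectGroup_of_le_center hM (hQ.to_inf_left.comap_of_injective _ Subtype.val_injective)
      (fun z hz => Subgroup.mem_center_iff.2 fun c => Subtype.ext (c.2 z hz.1).symm) he
      (χ := infl _ (MonoidHom.rangeRestrict_surjective _) θ) ?_ ?_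
    · have hc := (Cov.covers_inclusion_iff_eps hCT hF' (isPBlock_blockOf _)).1
        ⟨_, hχ, _, mem_blockOf_self _, ho⟩
      rw [(blockCoeff_eq_iff hCT hF' he).1 hF'e] at hc
      rw [he.eq_of_epsIn_eq (isPBlock_blockOf _)
        (hpair.pair.eq_of_mul_ne_zero (isPair_epsIn hQ (isPBlock_blockOf _)) hc)]
      exact mem_blockOf_self _
    · rw [charDegree_infl, ← hk hCT, Subgroup.index_ker]
      exact hθ
  · haveI := hn hR hRn
    obtain ⟨θ, -, hθ⟩ := exists_over ψ hψ
      ((QuotientGroup.mk' (Q.subgroupOf T)).comp (Subgroup.inclusion hR))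
    obtain ⟨k, hk'⟩ := IsPGroup.iff_card.1 (hRp.of_surjective _
      ((QuotientGroup.mk' (Q.subgroupOf T)).comp (Subgroup.inclusion hR)).rangeRestrict_surjective)
    have h1 := θ.2.charDegree_sq_le
    rw [hk', hM.prime.factorization_pow, Finsupp.single_eq_same] at hθ
    have h2 := Nat.le_of_dvd θ.2.charDegree_pos
      ((hM.prime.pow_dvd_iff_le_factorization θ.2.charDegree_pos.ne').2 hθ)
    have h3 : p ^ k = 1 := by
      have := pow_pos hM.prime.pos k
      rw [hk'] at h1
      nlinarith
    rw [h3, ← Subgroup.index_ker, hk hR, Subgroup.index_eq_one, Subgroup.subgroupOf_eq_top] at hk'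
    exact hk'.trans inf_le_left

end Cfsg.Agent.S4694
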