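import Mathlib
-- Template for statement S4696 (row 4696; see /opt/grader/pristine/manifest.json for weights).
-- Copy to Cfsg/Agent/S4696.lean and replace the sorry. The statement below is byte-identical to the frozen
-- statement Cfsg.CfsgFrozen.S4696 (Cfsg/Statements/S4696.lean; the theorem Cfsg.blk7_cyclic_defect_heights_zero_and_sign_relation);
-- the grader kernel-checks Cfsg.Agent.S4696.result against that frozen type. Keep the theorem IN THIS FILE
-- (a `result` declared elsewhere and merely imported here is not credited); helpers may live anywhere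
-- under Cfsg/Agent/.
import Cfsg.Statements.S4696
import Cfsg.Agent.Blk.CycStruct

set_option autoImplicit false
set_option linter.style.haveILetI false
set_option linter.unusedVariables false
open Cfsg

namespace Cfsg.Agent.S4696


/-- Let p be a prime, M a maximal ideal of the algebraic integers containing p, and B a p-block of the finite group G whose defect group D is cyclic of order p^a with a ≥ 1. Let C = C_G(D), let b be a block of C inducing B, let T be the stabilizer of b in N_G(D) (the elements g of N_G(D) such that the g-conjugate of every member of b is again in b), and let e be the index of C in T (the inertial index of B). Then e divides p − 1, every irreducible character in B has height zero, and B is the disjoint union of a set X of e characters and a set Y of (p^a − 1)/e characters, the members of Y agreeing on p-regular elements, for which there are signs δ_χ = ±1 (χ ∈ X) and δ₀ = ±1 such that: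 for every ψ ∈ Y and every p-regular g, δ₀ ψ(g) + Σ_{χ ∈ X} δ_χ χ(g) = 0; for all χ, χ' ∈ X the integers δ_χ χ(1) and δ_χ' χ'(1) are congruent modulo p^a; and for ψ ∈ Y and χ ∈ X, ψ(1) ≡ −e δ₀ δ_χ χ(1) modulo p^a. -/
theorem result {G : Type*} [Group G] [Finite G] (p : ℕ) [Fact p.Prime] (M : Ideal Cfsg.AlgInt) (hM : Cfsg.IsPModular p M) (D : Subgroup G) (hD : IsCyclic D) (a : ℕ) (ha : 1 ≤ a) (hDa : Nat.card D = p ^ a) (B : Set (Cfsg.IrrCharacter G)) (hB : Cfsg.IsPBlock M B) (hBD : Cfsg.IsDefectGroup p M B D) (b : Set (Cfsg.IrrCharacter (Subgroup.centralizer (D : Set G)))) (hind : Cfsg.IsInducedBlock M (Subgroup.centralizer (D : Set G)) b B) (T : Subgroup G) (hT : ∀ g : G, g ∈ T ↔ (g ∈ Subgroup.normalizer (D : Set G) ∧ ∀ θ ∈ b, ∀ θ' : Cfsg.IrrCharacter (Subgroup.centralizer (D : Set G)), (∀ h h' : Subgroup.centralizer (D : Set G), (h' : G) = g * h * g⁻¹ → (θ' : Subgroup.centralizer (D : Set G) → ℂ) h' = (θ : Subgroup.centralizer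 (D : Set G) → ℂ) h) → θ' ∈ b)) (e : ℕ) (he : (Subgroup.centralizer (D : Set G)).relIndex T = e) : e ∣ p - 1 ∧ (∀ χ ∈ B, Cfsg.blockHeight p B (χ : G → ℂ) = 0) ∧ ∃ X Y : Set (Cfsg.IrrCharacter G), B = X ∪ Y ∧ Disjoint X Y ∧ Nat.card X = e ∧ Nat.card Y = (p ^ a - 1) / e ∧ (∀ ψ ∈ Y, ∀ ψ' ∈ Y, ∀ g : G, ¬ p ∣ orderOf g → (ψ : G → ℂ) g = (ψ' : G → ℂ) g) ∧ ∃ (δ : Cfsg.IrrCharacter G → ℤ) (δ₀ : ℤ), (∀ χ ∈ X, δ χ = 1 ∨ δ χ = -1) ∧ (δ₀ = 1 ∨ δ₀ = -1) ∧ (∀ ψ ∈ Y, ∀ g : G, ¬ p ∣ orderOf g → (δ₀ : ℂ) * (ψ : G → ℂ) g + ∑ᶠ χ ∈ X, (δ χ : ℂ) * (χ : G → ℂ) g = 0) ∧ (∀ χ ∈ X, ∀ χ' ∈ X, δ χ * (Cfsg.charDegree (χ : G → ℂ) : ℤ) ≡ δ χ' * (Cfsg.charDegree (χ' : G → ℂ) : ℤ) [ZMOD (p : ℤ) ^ a]) ∧ (∀ ψ ∈ Y, ∀ χ ∈ X, (Cfsg.charDegree (ψ : G → ℂ) : ℤ) ≡ -((e : ℤ) * δ₀ * δ χ * (Cfsg.charDegree (χ : G → ℂ) : ℤ)) [ZMOD (p : ℤ) ^ a]) := by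
  open Cfsg.Agent.Blk Cfsg.Agent.Blk.Ab Cfsg.Agent.Blk.CD Cfsg.Agent.Blk.PD Cfsg.Agent.Blk.Mod in
  haveI := hM.isMaximal
  haveI := Fintype.ofFinite G
  haveI := Fintype.ofFinite D
  obtain ⟨hcb, h⟩ := absOf hM hBD (fun x hx y hy => congrArg Subtype.val
    (mul_comm' (⟨x, hx⟩ : D) ⟨y, hy⟩)) hind
  obtain rfl := eq_pstab_top' hcb hT
  have hP : D ≠ ⊥ := fun h0 => (Nat.one_lt_pow (n := a) (by omega) hM.prime.one_lt).ne
    (by rw [← hDa, h0, Subgroup.card_bot])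
  rw [← h.card_iq] at he
  subst he
  obtain ⟨A, hA⟩ := h.exists_glue_of_isCyclic
  obtain ⟨r, rep, hr⟩ := (h.freeAut h.free_of_isCyclic).exists_reps h.comm
  obtain ⟨X, μ, δ, ε, hc⟩ := exists_cs h hP hA hr
  have hq : ((p : ℤ)) ^ a = Nat.card D := by rw [hDa, Nat.cast_pow]
  refine ⟨(isCyclic_iq h hP).2, fun χ hχ => hc.height h hA hP hχ, X, Set.range μ,
    Set.ext hc.mem, Set.disjoint_right.2 ?_, by simpa using hc.card, ?_, ?_, δ, ε, hc.sgn, hc.sgn',
    ?_, fun χ hχ ψ hψ => hq ▸ hc.modEq h hA hχ hψ, ?_⟩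
  · rintro _ ⟨i, rfl⟩
    exact hc.notMem i
  · rw [← hDa, hr.card_div h.comm, Nat.card_range_of_injective hc.inj, Nat.card_eq_fintype_card]
  · rintro _ ⟨i, rfl⟩ _ ⟨j, rfl⟩ g hg
    refine mul_left_cancel₀ (a := (ε : ℂ)) (by rcases hc.sgn' with h | h <;> simp [h]) ?_
    linear_combination hc.rel i g hg - hc.rel j g hg
  · rintro _ ⟨i, rfl⟩ g hg
    rw [finsum_mem_coe_finset]
    exact hc.rel i g hg
  · rintro _ ⟨i, rfl⟩ χ hχ
    exact hq ▸ hc.modEq' h hA i hχ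

end Cfsg.Agent.S4696
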