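import Mathlib
import Cfsg.Statements.S4697
import Cfsg.Agent.Blk.KWQuot

set_option autoImplicit false
open Cfsg

namespace Cfsg.Agent.S4697

theorem card_sup_le {K : Type*} [Group K] [Finite K] {y z : K} (h : Commute y z) :
    Nat.card (Subgroup.zpowers y ⊔ Subgroup.zpowers z : Subgroup K) ≤ orderOf y * orderOf z := by
  have h1 : Subgroup.zpowers y ≤ Subgroup.normalizer (Subgroup.zpowers z : Set K) :=
    (Subgroup.zpowers_le_of_mem (Subgroup.mem_centralizer_iff.2 (by
      rintro _ ⟨k, rfl⟩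
      exact (h.symm.zpow_left k).eq))).trans (Subgroup.centralizer_le_normalizer _)
  rw [← SetLike.coe_sort_coe, Subgroup.coe_mul_of_left_le_normalizer_right _ _ h1,
    ← Nat.card_zpowers, ← Nat.card_zpowers]
  exact Set.natCard_mul_le

open Cfsg.Agent.Blk in
theorem cube_le {G : Type*} [Group G] [Finite G] {p : ℕ} [hp : Fact p.Prime]
    {M : Ideal Cfsg.AlgInt} (hM : Cfsg.IsPModular p M) {B : Set (Cfsg.IrrCharacter G)}
    (hB : Cfsg.IsPBlock M B) {D : Subgroup G} (hD : Cfsg.IsDefectGroup p M B D)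
    (hab : IsMulCommutative D) {x y z : G}
    (hgen : D = Subgroup.zpowers x ⊔ (Subgroup.zpowers y ⊔ Subgroup.zpowers z))
    (hy : orderOf y ≤ orderOf x) (hz : orderOf z ≤ orderOf x) :
    Nat.card B ^ 3 ≤ p ^ (5 * Cfsg.blockDefect p B) := by
  have := hM.isMaximal
  have := Fintype.ofFinite G
  have hxD : x ∈ D := hgen ▸ Subgroup.mem_sup_left (Subgroup.mem_zpowers x)
  have hyD : y ∈ D := hgen ▸ Subgroup.mem_sup_right (Subgroup.mem_sup_left (Subgroup.mem_zpowers y))
  have hzD : z ∈ D :=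
    hgen ▸ Subgroup.mem_sup_right (Subgroup.mem_sup_right (Subgroup.mem_zpowers z))
  have hc : ∀ a ∈ D, ∀ b ∈ D, a * b = b * a := fun a ha b hb =>
    congrArg Subtype.val (mul_comm' (⟨a, ha⟩ : D) ⟨b, hb⟩)
  obtain ⟨C, _, u, b, hn, hu, hDC, h, hd, hb, hZ, hφ⟩ := exists_isSub_quot hM hB hD hxD
    fun d hd => hc d hd x hxD
  have := Fintype.ofFinite (C ⧸ Subgroup.zpowers u)
  have h1 := hφ.isDefectGroup_preimage hM h.ind.1 hb
  have h2 := hφ.isPBlock_preimage hM h.ind.1
  have h3 : (D.subgroupOf C).map (QuotientGroup.mk' (Subgroup.zpowers u)) =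
      Subgroup.zpowers (QuotientGroup.mk' (Subgroup.zpowers u) ⟨y, hDC hyD⟩) ⊔
        Subgroup.zpowers (QuotientGroup.mk' (Subgroup.zpowers u) ⟨z, hDC hzD⟩) := by
    have h4 : D.subgroupOf C = Subgroup.zpowers u ⊔ (Subgroup.zpowers ⟨y, hDC hyD⟩ ⊔
        Subgroup.zpowers ⟨z, hDC hzD⟩) := by
      refine Subgroup.map_injective C.subtype_injective ?_
      rw [Subgroup.subgroupOf_map_subtype, inf_eq_left.2 hDC, Subgroup.map_sup, Subgroup.map_sup,
        MonoidHom.map_zpowers, MonoidHom.map_zpowers, MonoidHom.map_zpowers, hgen, ← hu]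
      rfl
    rw [h4, Subgroup.map_sup, QuotientGroup.map_mk'_self, bot_sup_eq, Subgroup.map_sup,
      MonoidHom.map_zpowers, MonoidHom.map_zpowers]
  have hyz : Commute (QuotientGroup.mk' (Subgroup.zpowers u) ⟨y, hDC hyD⟩)
      (QuotientGroup.mk' (Subgroup.zpowers u) ⟨z, hDC hzD⟩) :=
    Commute.map (Subtype.ext (hc y hyD z hzD)) _
  have h4 := (blockRank_le_card (p := p) _).trans (card_le_of_two_gen hM h2 h1 hyz h3)
  rw [hφ.blockRank_preimage hM h.ind.1.isBlockUnion] at h4
  have h5 := (h.card_le_mul_rank hd).trans (Nat.mul_le_mul_left _ h4)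
  have h6 := hφ.card_ker_mul_pow_blockDefect hM h.ind.1
  rw [QuotientGroup.ker_mk', Nat.card_zpowers, ← Subgroup.orderOf_coe, hu, hd] at h6
  have h7 := card_sup_le hyz
  have h8 : ∀ w : C, orderOf (QuotientGroup.mk' (Subgroup.zpowers u) w) ≤ orderOf (w : G) :=
    fun w => Subgroup.orderOf_coe w ▸ Nat.le_of_dvd (orderOf_pos w) (orderOf_map_dvd _ w)
  rw [← h3, h1.card_eq_pow_blockDefect hM h2] at h7
  have h9 := h7.trans (Nat.mul_le_mul ((h8 _).trans hy) ((h8 _).trans hz))
  generalize p ^ Cfsg.blockDefect p (infl _ hφ.surj ⁻¹' b) = q at h5 h6 h9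
  refine (Nat.pow_le_pow_left h5 3).trans ?_
  rw [mul_comm 5, pow_mul, ← h6]
  calc (orderOf x * q * q) ^ 3 = (orderOf x * q) ^ 3 * q ^ 2 * q := by ring
    _ ≤ (orderOf x * q) ^ 3 * q ^ 2 * (orderOf x * orderOf x) := Nat.mul_le_mul_left _ h9
    _ = (orderOf x * q) ^ 5 := by ring

/-- Let p be a prime, M a maximal ideal of the algebraic integers containing p, and B a p-block of the finite group G with an abelian defect group D of order p^d. If D has rank 2 (its least number of generators is 2) then B contains at most p^d irreducible characters; if D has rank 3 then the number k of irreducible characters in B satisfies k^3 ≤ p^(5d). -/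
theorem result {G : Type*} [Group G] [Finite G] (p : ℕ) [Fact p.Prime] (M : Ideal Cfsg.AlgInt) (hM : Cfsg.IsPModular p M) (B : Set (Cfsg.IrrCharacter G)) (hB : Cfsg.IsPBlock M B) (D : Subgroup G) (hBD : Cfsg.IsDefectGroup p M B D) (hab : IsMulCommutative D) (d : ℕ) (hDd : Nat.card D = p ^ d) : (Group.rank D = 2 → Nat.card B ≤ p ^ d) ∧ (Group.rank D = 3 → Nat.card B ^ 3 ≤ p ^ (5 * d)) := by
  classical
  have := hM.isMaximal
  have := Fintype.ofFinite G
  obtain rfl : d = Cfsg.blockDefect p B := Nat.pow_right_injective hM.prime.two_le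
    (hDd.symm.trans (hBD.card_eq_pow_blockDefect hM hB))
  obtain ⟨S, h1, h2⟩ := Group.rank_spec D
  have h3 := congrArg (Subgroup.map D.subtype) h2
  rw [← MonoidHom.range_eq_map, Subgroup.range_subtype, MonoidHom.map_closure, eq_comm] at h3
  refine ⟨fun h => ?_, fun h => ?_⟩
  · obtain ⟨x, y, -, rfl⟩ := Finset.card_eq_two.1 (h1.trans h)
    refine Agent.Blk.card_le_of_two_gen hM hB hBD (x := x) (y := y)
      (congrArg Subtype.val (mul_comm' x y)) ?_
    simp only [Subgroup.zpowers_eq_closure, ← Subgroup.closure_union, Set.singleton_union]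
    simpa [Set.image_insert_eq] using h3
  · obtain ⟨x, hx, h4⟩ := S.exists_max_image (fun a : D => orderOf (a : G))
      (Finset.card_pos.1 (by omega))
    obtain ⟨y, z, -, h5⟩ := Finset.card_eq_two.1
      (show (S.erase x).card = 2 by rw [Finset.card_erase_of_mem hx]; omega)
    have h6 : S = {x, y, z} := by rw [← h5, Finset.insert_erase hx]
    refine cube_le hM hB hBD hab (x := x) (y := y) (z := z) ?_ (h4 y (by simp [h6]))
      (h4 z (by simp [h6]))
    simp only [Subgroup.zpowers_eq_closure, ← Subgroup.closure_union, Set.singleton_union]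
    simpa [h6, Set.image_insert_eq] using h3

end Cfsg.Agent.S4697
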