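import Mathlib
-- Template for statement S4699 (row 4699; see /opt/grader/pristine/manifest.json for weights).
-- Copy to Cfsg/Agent/S4699.lean and replace the sorry. The statement below is byte-identical to the frozen
-- statement Cfsg.CfsgFrozen.S4699 (Cfsg/Statements/S4699.lean; the theorem Cfsg.chr7_cyclic_ti_sylow_faithful_modular_irreducible_dim);
-- the grader kernel-checks Cfsg.Agent.S4699.result against that frozen type. Keep the theorem IN THIS FILE
-- (a `result` declared elsewhere and merely imported here is not credited); helpers may live anywhere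
-- under Cfsg/Agent/.
import Cfsg.Statements.S4699
import Cfsg.Agent.Blk.OneMod

set_option autoImplicit false
set_option linter.style.haveILetI false
set_option linter.unusedVariables false
open Cfsg

namespace Cfsg.Agent.S4699


/-- Let p be a prime and G a finite group whose Sylow p-subgroup P is cyclic of order p^n with n ≥ 2 and meets every other Sylow p-subgroup trivially. Then every faithful irreducible representation of G on a finite-dimensional space over a finite field of characteristic p has dimension at least p^n − (p − 1). -/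
theorem result {G : Type*} [Group G] [Finite G] (p : ℕ) [Fact p.Prime] (P : Sylow p G) (hcyc : IsCyclic P) (n : ℕ) (hn : 2 ≤ n) (hPn : Nat.card P = p ^ n) (hTI : ∀ Q : Sylow p G, Q ≠ P → (P : Subgroup G) ⊓ (Q : Subgroup G) = ⊥) (F : Type*) [Field F] [Finite F] [CharP F p] (V : Type*) [AddCommGroup V] [Module F V] [FiniteDimensional F V] (ρ : Representation F G V) (hfaith : Function.Injective ρ) (hirr : ρ.IsIrreducible) : p ^ n - (p - 1) ≤ Module.finrank F V := by
  open Cfsg.Agent.Blk.One Subgroup in
  classical
  have hp : p.Prime := Fact.out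
  obtain ⟨⟨x, hxP⟩, hx⟩ := hcyc.exists_generator
  have hP : zpowers x = P := le_antisymm (zpowers_le.2 hxP) fun y hy => by
    obtain ⟨i, hi⟩ := hx ⟨y, hy⟩
    exact ⟨i, congrArg Subtype.val hi⟩
  have ho : orderOf x = p ^ n := by rw [← Nat.card_zpowers, hP, hPn]
  have h1 : p ^ 2 ≤ p ^ n := Nat.pow_le_pow_right hp.pos hn
  by_contra hlt
  have h2 := pow_eq_zero_of_small ρ (fun Φ hΦ => (Representation.IsIrreducible.injective_or_eq_zero
    (Φ.intertwiningMap_of_isIntertwiningMap ρ ρ fun g v =>
      (LinearMap.congr_fun (hΦ g) v).symm)).imp id fun h => congrArg (·.toLinearMap) h) ho (by omega)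
    (fun g hg y hy hy' => ?_) (hP ▸ P.not_dvd_index)
    (pow_finrank_eq_zero ρ (ho ▸ pow_orderOf_eq_one x)) (by have := hp.pos; omega)
  · have h3 : x ^ p = 1 := hfaith (by
      rw [map_pow, map_one, ← sub_eq_zero, ← mul_geom_sum, ← pow_one p,
        ← sub_one_pow_eq_sum (k := F), pow_one, h2, mul_zero])
    have h4 := Nat.le_of_dvd hp.pos (orderOf_dvd_of_pow_eq_one h3)
    have := hp.one_lt
    nlinarith
  · rw [hP] at hg hy hy'
    have h3 := hTI (g • P) fun e => hg (by
      rw [← e]
      exact Subgroup.smul_mem_pointwise_smul _ _ _ hxP)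
    refine (mem_bot.1 (h3.le ⟨hy, ?_⟩))
    have := Subgroup.smul_mem_pointwise_smul _ (MulAut.conj g) _ hy'
    rwa [MulAut.smul_def, MulAut.conj_apply, show g * (g⁻¹ * y * g) * g⁻¹ = y by group] at this

end Cfsg.Agent.S4699
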