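import Mathlib
import Cfsg.Statements.S4708
import Cfsg.Agent.Blk.PB0
import Cfsg.Agent.Blk.CoverDict

set_option autoImplicit false
open Cfsg

namespace Cfsg.Agent.S4708

set_option linter.unusedVariables false
set_option linter.style.haveILetI false

/-- Let p be a prime, M a maximal ideal of the algebraic integers containing p, G a finite group and H a normal subgroup. Write λ(X) for the sum of the squares of the degrees of the irreducible characters in the principal p-block of a group X. Then λ(H) ≤ λ(G) ≤ [G : H]·λ(H). -/
theorem result {G : Type*} [Group G] [Finite G] (p : ℕ) [Fact p.Prime] (M : Ideal Cfsg.AlgInt) (hM : Cfsg.IsPModular p M) (H : Subgroup G) [H.Normal] : (∑ᶠ θ ∈ Cfsg.principalBlock M H, Cfsg.charDegree (θ : H → ℂ) ^ 2) ≤ (∑ᶠ χ ∈ Cfsg.principalBlock M G, Cfsg.charDegree (χ : G → ℂ) ^ 2) ∧ (∑ᶠ χ ∈ Cfsg.principalBlock M G, Cfsg.charDegree (χ : G → ℂ) ^ 2) ≤ H.index * ∑ᶠ θ ∈ Cfsg.principalBlock M H, Cfsg.charDegree (θ : H → ℂ) ^ 2 := by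
  open Cfsg.Agent.Blk Cfsg.Agent.Ch in
  · classical
    haveI := hM.isMaximal
    haveI := Fintype.ofFinite G
    haveI := Fintype.ofFinite H
    rw [finsum_mem_irr_eq_sum, finsum_mem_irr_eq_sum]
    choose m hm _ hdeg using fun χ : IrrCharacter G =>
      (χ.isCharacter.restrict H).exists_nat_classInner_self
    have hdeg' : ∀ χ : IrrCharacter G,
        charDegree (χ : G → ℂ) = ∑ θ, m χ θ * charDegree (θ : H → ℂ) := fun χ => by
      rw [← hdeg χ, charDegree_restrict]
    have hind : ∀ θ : IrrCharacter H, H.index * charDegree (θ : H → ℂ) =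
        ∑ χ, m χ θ * charDegree (χ : G → ℂ) := fun θ => by
      obtain ⟨m', hm', -, h⟩ := (isCharacter_indFun H θ.isCharacter).exists_nat_classInner_self
      have h1 : ∀ χ, m' χ = m χ θ := fun χ => by
        have := hm' χ
        rw [classInner_indFun_left H _ χ.isClassFunction,
          θ.isCharacter.classInner_comm (χ.isCharacter.restrict H), hm χ θ] at this
        exact_mod_cast this.symm
      simp only [h1] at h
      rw [← h]
      symm
      apply charDegree_of_apply_one
      rw [indFun_one, ← θ.2.coe_charDegree]; push_cast; rfl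
    have hz : ∀ χ ∈ principalBlock M G, ∀ θ, θ ∉ principalBlock M H → m χ θ = 0 :=
      fun χ hχ θ hθ => by
        by_contra h
        exact hθ (P0.mem_of_over hM hχ (by rw [hm]; exact_mod_cast h))
    have hcov : Om.Covers H.subtype (principalBlock M G) (principalBlock M H) :=
      Om.covers_subtype_iff.2 ⟨irrOne G, irrOne_mem_principalBlock, irrOne H,
        irrOne_mem_principalBlock, by
          have : classInner (fun n : H => (irrOne G : G → ℂ) n) (irrOne H : H → ℂ) = 1 :=
            classInner_one_one
          rw [this]; exact one_ne_zero⟩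
    constructor
    · calc ∑ θ with θ ∈ principalBlock M H, charDegree (θ : H → ℂ) ^ 2
          ≤ ∑ θ with θ ∈ principalBlock M H, ∑ χ with χ ∈ principalBlock M G,
              (m χ θ * charDegree (θ : H → ℂ)) ^ 2 := by
            refine Finset.sum_le_sum fun θ hθ => ?_
            obtain ⟨χ, hχ, h⟩ := Cov.exists_over_of_covers isPBlock_principalBlock
              isPBlock_principalBlock hcov (Finset.mem_filter.1 hθ).2
            have h1 : m χ θ ≠ 0 := by
              have := Om.over_subtype_iff.1 h
              rw [hm] at this
              exact_mod_cast this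
            refine le_trans ?_ (Finset.single_le_sum
              (f := fun χ => (m χ θ * charDegree (θ : H → ℂ)) ^ 2) (fun _ _ => Nat.zero_le _)
              (Finset.mem_filter.2 ⟨Finset.mem_univ χ, hχ⟩))
            exact Nat.pow_le_pow_left (Nat.le_mul_of_pos_left _ (Nat.pos_of_ne_zero h1)) 2
        _ ≤ ∑ χ with χ ∈ principalBlock M G, charDegree (χ : G → ℂ) ^ 2 := by
            rw [Finset.sum_comm]
            refine Finset.sum_le_sum fun χ _ => ?_
            rw [hdeg' χ]
            refine le_trans (Finset.sum_le_sum_of_subset (Finset.filter_subset _ _)) ?_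
            exact Finset.sum_sq_le_sq_sum_of_nonneg fun _ _ => Nat.zero_le _
    · calc ∑ χ with χ ∈ principalBlock M G, charDegree (χ : G → ℂ) ^ 2
          = ∑ χ with χ ∈ principalBlock M G, ∑ θ with θ ∈ principalBlock M H,
              charDegree (θ : H → ℂ) * (m χ θ * charDegree (χ : G → ℂ)) := by
            refine Finset.sum_congr rfl fun χ hχ => ?_
            rw [Finset.sum_filter_of_ne fun θ _ h => ?_]
            · rw [sq]
              nth_rewrite 1 [hdeg' χ]
              rw [Finset.sum_mul]
              exact Finset.sum_congr rfl fun _ _ => by ring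
            · by_contra hθ
              exact h (by rw [hz χ (Finset.mem_filter.1 hχ).2 θ hθ]; simp)
        _ ≤ _ := by
            rw [Finset.sum_comm, Finset.mul_sum]
            refine Finset.sum_le_sum fun θ _ => ?_
            rw [← Finset.mul_sum, sq, ← mul_assoc, mul_comm, hind θ]
            exact Nat.mul_le_mul_right _ (Finset.sum_le_sum_of_subset (Finset.filter_subset _ _))

end Cfsg.Agent.S4708
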