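import Mathlib
import Cfsg.Statements.S4711
import Cfsg.Agent.Blk.PSolvPB
import Cfsg.Agent.Blk.CoverDict
import Cfsg.Agent.GT.PLength
import Cfsg.Agent.GT.TransferPNilp

set_option autoImplicit false
open Cfsg

namespace Cfsg.Agent.S4711

open Cfsg.Agent.Ch Cfsg.Agent.Blk.Om

/-- Let p be a prime, M a maximal ideal of the algebraic integers containing p, G a finite group, P a Sylow p-subgroup and N = N_G(P). Then G has p-length 1 (G = O_{p',p,p'}(G)) if and only if every irreducible character in the principal p-block of G restricts to an irreducible character of N. -/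
theorem result {G : Type*} [Group G] [Finite G] (p : ℕ) [Fact p.Prime] (M : Ideal Cfsg.AlgInt) (hM : Cfsg.IsPModular p M) (P : Sylow p G) : Cfsg.PLengthLE p 1 G ↔ ∀ χ ∈ Cfsg.principalBlock M G, Cfsg.IsIrrCharacter ↥(Subgroup.normalizer ((P : Subgroup G) : Set G)) (fun n : ↥(Subgroup.normalizer ((P : Subgroup G) : Set G)) => (χ : G → ℂ) n) := by
  classical
  haveI := hM.isMaximal
  have hp : p.Prime := Fact.out
  constructor
  · intro h χ hχ
    have hs := QuotientGroup.mk'_surjective (pPrimeCore p G)
    have h1 : pCore p (G ⧸ pPrimeCore p G) ≤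
        (P : Subgroup G).map (QuotientGroup.mk' (pPrimeCore p G)) :=
      (GT.isPGroup_pCore p).le_sylow_of_normal (P.mapSurjective hs)
    have h2 : (P : Subgroup G).map (QuotientGroup.mk' (pPrimeCore p G)) ≤
        pCore p (G ⧸ pPrimeCore p G) :=
      Subgroup.map_le_iff_le_comap.2 ((GT.pLengthLE_one_iff_sylow_le P).1 h)
    have h3 := GT.map_normalizer_of_coprime_ker hs GT.coprime_card_ker_mk'_pPrimeCore P.isPGroup'
    rw [le_antisymm h2 h1, (Subgroup.normalizer_eq_top_iff (H := pCore p _)).2 inferInstance] at h3
    have hk := (mem_principal_iff_of_isPConstrained hM h.isPSolvable.isPConstrained χ).1 hχ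
    obtain ⟨ψ, hψ, e⟩ := χ.2.exists_quotient (pPrimeCore p G)
      (fun n hn => apply_eq_of_mem_charKer (hk hn))
    have hsurj : Function.Surjective ((QuotientGroup.mk' (pPrimeCore p G)).comp
        (Subgroup.normalizer ((P : Subgroup G) : Set G)).subtype) := by
      intro y
      have : y ∈ (Subgroup.normalizer ((P : Subgroup G) : Set G)).map
        (QuotientGroup.mk' (pPrimeCore p G)) := h3 ▸ Subgroup.mem_top y
      obtain ⟨x, hx, rfl⟩ := this
      exact ⟨⟨x, hx⟩, rfl⟩
    have := hψ.comp_surjective _ hsurj
    rw [e]
    exact this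
  · intro h
    let L : Subgroup G := Subgroup.normalClosure ((P : Subgroup G) : Set G)
    have hPL : (P : Subgroup G) ≤ L := Subgroup.le_normalClosure
    have hidx : L.index.Coprime p := by
      rw [Nat.coprime_comm, hp.coprime_iff_not_dvd]
      exact fun hd => P.not_dvd_index (hd.trans (Subgroup.index_dvd_of_le hPL))
    refine GT.pLengthLE_of_normal_of_coprime_index L hidx ?_
    haveI := Fintype.ofFinite G
    have hnil : HasNormalPComplement p L := by
      refine hasNormalPComplement_of_principal hM (P.subtype hPL) fun ψ hψ hne => ?_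
      have hc : Covers L.subtype (principalBlock M G) (principalBlock M L) :=
        ⟨irrOne G, irrOne_mem_principal, irrOne L, irrOne_mem_principal,
          over_one_iff.2 (by simp)⟩
      obtain ⟨χ, hχ, hover⟩ := Blk.Cov.exists_over_of_covers isPBlock_principal
        isPBlock_principal hc hψ
      have hnk : ¬ (P : Subgroup G) ≤ charKer (χ : G → ℂ) := by
        intro hle
        haveI := χ.isCharacter.charKer_normal
        have hL : L ≤ charKer (χ : G → ℂ) := Subgroup.normalClosure_le_normal hle
        obtain ⟨g, hg⟩ := Over.exists_conjIrr χ.2 (over_one_iff.2 hL) hover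
        exact hne (hg.trans (Subtype.ext rfl))
      let N := Subgroup.normalizer ((P : Subgroup G) : Set G)
      have hPN : (P : Subgroup G) ≤ N := Subgroup.le_normalizer
      haveI : ((P : Subgroup G).subgroupOf N).Normal := Subgroup.normal_in_normalizer
      have h0 := (h χ hχ).classInner_restrict_one_eq_zero ((P : Subgroup G).subgroupOf N) (by
        intro hle
        apply hnk
        intro x hx
        rw [χ.isCharacter.mem_charKer]
        have := apply_eq_of_mem_charKer (hle (x := ⟨x, hPN hx⟩) hx)
        exact this)
      have h1 : classInner (fun x : (P : Subgroup G) => (χ : G → ℂ) x) (fun _ => 1) = 0 := by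
        rw [← h0]
        exact (classInner_comp_mulEquiv (Subgroup.subgroupOfEquivOfLe hPN)
          (fun x : (P : Subgroup G) => (χ : G → ℂ) x) (fun _ => 1)).symm
      have h2 : classInner (fun x : ((P : Subgroup G).subgroupOf L) => (χ : G → ℂ) (x : L))
          (fun _ => 1) = 0 := by
        rw [← h1]
        exact classInner_comp_mulEquiv (Subgroup.subgroupOfEquivOfLe hPL)
          (fun x : (P : Subgroup G) => (χ : G → ℂ) x) (fun _ => 1)
      obtain ⟨ξ, hξ, e⟩ := (χ.isCharacter.restrict L).exists_eq_irr_add ψ.2
        (over_subtype_iff.1 hover)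
      by_contra hcon
      have h3 := ((ψ.isCharacter.restrict ((P : Subgroup G).subgroupOf L)).classInner_add_ne_zero_iff
        (hξ.restrict ((P : Subgroup G).subgroupOf L)) IsCharacter.one).2 (Or.inl hcon)
      apply h3
      rw [← h2]
      congr 1
      funext x
      exact (congrFun e x).symm
    obtain ⟨K, hK, hK1, k, hK2⟩ := hnil.exists_normal
    rw [GT.pLengthLE_iff_quotient_of_coprime K
      (Nat.coprime_comm.1 (hp.coprime_iff_not_dvd.2 hK1))]
    exact GT.pLengthLE_one_of_isPGroup (IsPGroup.of_card (by rw [← hK2]; rfl))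

end Cfsg.Agent.S4711
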