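import Mathlib
import Cfsg.Statements.S4712
import Cfsg.Agent.Blk.Pim
import Cfsg.Agent.Blk.Subsection

set_option autoImplicit false
open Cfsg

namespace Cfsg.Agent.S4712

section
open Agent.Blk Agent.Ch
open scoped ComplexConjugate

theorem section_nat {G : Type*} [Group G] [Fintype G] {p : ℕ} {M : Ideal AlgInt}
    (hM : IsPModular p M) {B : Set (IrrCharacter G)} (hB : IsPBlock M B) {k : ℕ}
    (hk : k.Coprime (Nat.card G)) (hreg : ∀ y : G, ¬ p ∣ orderOf y → y ^ k = y) (x : G)
    [DecidablePred fun g => IsPPart p g x] : ∃ n : ℕ, (∑ g, if IsPPart p g x then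
      ∑ᶠ χ ∈ B, (χ : G → ℂ) (g ^ k) * (χ : G → ℂ) g⁻¹ else 0) = n := by
  classical
  have := hM.isMaximal
  by_cases hx : ∃ j, orderOf x = p ^ j
  swap
  · exact ⟨0, by rw [Finset.sum_eq_zero fun g _ => if_neg fun h => hx h.exists_orderOf]; simp⟩
  let C := Subgroup.centralizer ({x} : Set G)
  have hC : ∀ g, g ∈ C ↔ g * x = x * g := mem_centralizer_singleton_iff' x
  have h1 : ∀ y : C, ¬ p ∣ orderOf y → (x * y) ^ k = x ^ k * y := fun y hy => by
    rw [(show Commute x y from ((hC y).1 y.2).symm).mul_pow,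
      hreg y (by rwa [Subgroup.orderOf_coe])]
  have h2 := sum_regular_eq_sum_isPPart hx hC
    fun g => ∑ᶠ χ ∈ B, (χ : G → ℂ) (g ^ k) * (χ : G → ℂ) g⁻¹
  rw [show (∑ g, if IsPPart p g x then
      ∑ᶠ χ ∈ B, (χ : G → ℂ) (g ^ k) * (χ : G → ℂ) g⁻¹ else 0) = _ by convert h2.symm]
  have hko : (orderOf x).Coprime k := (hk.symm.coprime_dvd_left (orderOf_dvd_natCard x))
  by_cases hc : IsConj (x ^ k) x
  swap
  · refine ⟨0, (Finset.sum_eq_zero fun y _ => ?_).trans Nat.cast_zero.symm⟩
    split_ifs with hy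
    · rfl
    have hy' : ¬ p ∣ orderOf (y : G) := by rwa [Subgroup.orderOf_coe]
    have hxy : Commute x y := ((hC y).1 y.2).symm
    rw [h1 y hy]
    exact block_orthogonality hM (hB.memLocalRing_blockCoeff hM) (isPPart_of_commute
      (hxy.pow_left k) (by rwa [hko.orderOf_pow]) hy') (isPPart_of_commute hxy hx hy') hc
  obtain ⟨t, ht⟩ := isConj_iff.1 hc
  have htn : t ∈ Subgroup.normalizer (C : Set G) := by
    refine Subgroup.mem_normalizer_fintype fun y hy => (hC _).2 ?_
    have : Commute y (x ^ k) := (show Commute y x from (hC y).1 hy).pow_right k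
    rw [← ht]
    simp only [mul_assoc, inv_mul_cancel_left, mul_right_inj]
    rw [← mul_assoc, this.eq, mul_assoc]
  let α : C ≃* C := C.normalizerMonoidHom ⟨t, htn⟩
  have hα : ∀ y : C, (α y : G) = t * y * t⁻¹ := fun y => rfl
  have h3 : ∀ y : C, (if p ∣ orderOf y then 0 else
      ∑ᶠ χ ∈ B, (χ : G → ℂ) ((x * y) ^ k) * (χ : G → ℂ) (x * y)⁻¹) = ∑ b ∈ blockSet M C,
      if IsInducedBlock M C b B then (if p ∣ orderOf y then 0 else
        ∑ᶠ ψ ∈ b, (ψ : C → ℂ) (α y) * (ψ : C → ℂ) y⁻¹) else 0 := fun y => by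
    split_ifs with hy
    · simp
    rw [← finsum_block_mul_eq_sum hM hx hC hB (by rwa [α.orderOf_eq]) hy, h1 y hy, hα]
    refine finsum_congr fun χ => finsum_congr fun _ => ?_
    rw [← χ.isClassFunction (x ^ k * y) t]
    congr 2
    conv_rhs => rw [← ht]
    group
  have h4 : ∀ b ∈ blockSet M C, ∃ n : ℕ, (∑ y : C, if IsInducedBlock M C b B then
      (if p ∣ orderOf y then 0 else ∑ᶠ ψ ∈ b, (ψ : C → ℂ) (α y) * (ψ : C → ℂ) y⁻¹) else 0) = n := by
    intro b hb
    split_ifs with h
    swap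
    · exact ⟨0, by simp⟩
    obtain ⟨n, hn⟩ := Pim.exists_nat_trace hM (h.1.memLocalRing_blockCoeff hM) α
    refine ⟨Nat.card C * n, ?_⟩
    rw [Nat.cast_mul, ← hn, finsum_mem_irr_eq_sum, Finset.mul_sum]
    simp only [classInner_def, mul_inv_cancel_left₀ (natCard_ne_zero C), finsum_mem_irr_eq_sum]
    rw [Finset.sum_comm]
    refine Finset.sum_congr rfl fun y _ => ?_
    simp only [pRegularPart_apply]
    split_ifs
    · simp
    · simp only [fun ψ : IrrCharacter C => ψ.isGeneralizedCharacter.apply_inv y]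
  choose! n hn using h4
  refine ⟨∑ b ∈ blockSet M C, n b, ?_⟩
  simp only [h3]
  rw [Finset.sum_comm, Nat.cast_sum]
  exact Finset.sum_congr rfl hn

theorem rank_le_card_fixed {G : Type*} [Group G] [Finite G] {p : ℕ} {M : Ideal AlgInt}
    (hM : IsPModular p M) {B : Set (IrrCharacter G)} (hB : IsPBlock M B) {k : ℕ}
    (hk : k.Coprime (Nat.card G)) (hreg : ∀ y : G, ¬ p ∣ orderOf y → y ^ k = y) :
    blockRank p B ≤ Nat.card {χ : IrrCharacter G // χ ∈ B ∧
      ∀ g, (χ : G → ℂ) (g ^ k) = (χ : G → ℂ) g} := by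
  classical
  have := Fintype.ofFinite G
  choose n hn using fun x => section_nat hM hB hk hreg x
  have h1 : (Nat.card G * Nat.card {χ : IrrCharacter G // χ ∈ B ∧
      ∀ g, (χ : G → ℂ) (g ^ k) = (χ : G → ℂ) g} : ℂ) = ∑ x, n x := by
    rw [Nat.cast_sum]
    simp only [← hn]
    rw [Finset.sum_comm, Finset.sum_congr rfl (g := fun g => ∑ᶠ χ ∈ B, (χ : G → ℂ) (g ^ k) *
      (χ : G → ℂ) g⁻¹) fun g _ => ?_]
    · simp only [finsum_mem_irr_eq_sum]
      rw [Finset.sum_comm, Nat.card_eq_fintype_card (α := Subtype _), Fintype.card_subtype,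
        ← Finset.filter_filter, Finset.card_filter, Nat.cast_sum, Finset.mul_sum]
      refine Finset.sum_congr rfl fun χ _ => ?_
      have h2 := (χ.2.comp_pow_of_coprime hk).classInner_eq_ite χ.2
      rw [classInner_def, inv_mul_eq_iff_eq_mul₀ (natCard_ne_zero G)] at h2
      simp only [χ.isGeneralizedCharacter.apply_inv, h2, funext_iff]
      simp
    · obtain ⟨x, hx⟩ := exists_isPPart hM.prime g
      rw [Finset.sum_eq_single x (fun y _ hy => if_neg fun h => hy (h.unique hM.prime hx))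
        (by simp), if_pos hx]
  have h2 : (Nat.card G * blockRank p B : ℂ) = n 1 := by
    rw [card_mul_blockRank hM (hB.memLocalRing_blockCoeff hM), ← hn]
    refine Finset.sum_congr rfl fun g _ => ?_
    by_cases hg : p ∣ orderOf g
    · rw [if_pos hg, if_neg fun h => h.ne_one_of_dvd hg rfl]
    · rw [if_neg hg, if_pos (isPPart_one_of_not_dvd hg), hreg g hg]
  refine Nat.le_of_mul_le_mul_left ?_ (Nat.card_pos (α := G))
  norm_cast at h1 h2
  rw [h1, h2]
  exact Finset.single_le_sum (fun _ _ => Nat.zero_le _) (Finset.mem_univ 1)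

end

/-- Let p be an odd prime, M a maximal ideal of the algebraic integers containing p, G a finite group of order n with p-part p^a, and B a p-block of G. Call an irreducible character χ p-rational when χ(g^k) = χ(g) for every g and every k coprime to n with k ≡ 1 modulo n/p^a (χ is fixed by the Galois automorphisms fixing the roots of unity of order prime to p). Then the number of p-rational irreducible characters in B is at least the p-regular rank of B (the number of irreducible Brauer characters in B). -/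
theorem result {G : Type*} [Group G] [Finite G] (p : ℕ) [Fact p.Prime] (hodd : p ≠ 2) (M : Ideal Cfsg.AlgInt) (hM : Cfsg.IsPModular p M) (B : Set (Cfsg.IrrCharacter G)) (hB : Cfsg.IsPBlock M B) : Cfsg.blockRank p B ≤ Nat.card {χ : Cfsg.IrrCharacter G // χ ∈ B ∧ ∀ k : ℕ, Nat.Coprime k (Nat.card G) → k ≡ 1 [MOD Nat.card G / p ^ (Nat.card G).factorization p] → ∀ g : G, (χ : G → ℂ) (g ^ k) = (χ : G → ℂ) g} := by
  have hp := hM.prime
  have hn := (Nat.card_pos (α := G)).ne'
  set a := (Nat.card G).factorization p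
  have hcop : (p ^ a).Coprime (Nat.card G / p ^ a) := (Nat.coprime_ordCompl hp hn).pow_left a
  have hmul : p ^ a * (Nat.card G / p ^ a) = Nat.card G := Nat.ordProj_mul_ordCompl_eq_self _ p
  have : NeZero (p ^ a) := ⟨pow_ne_zero _ hp.ne_zero⟩
  obtain ⟨γ, hγ⟩ := (ZMod.isCyclic_units_of_prime_pow p hp hodd a).exists_monoid_generator
  obtain ⟨k, hk1, hk2⟩ := Nat.chineseRemainder hcop (γ : ZMod (p ^ a)).val 1
  have hk : k.Coprime (Nat.card G) := by
    rw [← hmul]
    refine Nat.Coprime.mul_right ?_ ?_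
    · rw [Nat.Coprime, hk1.gcd_eq]; exact ZMod.val_coe_unit_coprime γ
    · rw [Nat.Coprime, hk2.gcd_eq]; exact Nat.gcd_one_left _
  refine (rank_le_card_fixed hM hB hk fun y hy => ?_).trans (Nat.card_le_card_of_injective
    (Subtype.map id fun χ h => ⟨h.1, fun j hj1 hj2 g => ?_⟩)
      (Subtype.map_injective _ Function.injective_id))
  · conv_rhs => rw [← pow_one y]
    exact pow_eq_pow_iff_modEq.2 (hk2.of_dvd (orderOf_dvd_of_pow_eq_one
      ((Agent.Ch.pow_ordCompl_card_eq_one_iff hp y).2 hy)))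
  obtain ⟨i, hi⟩ := hγ (ZMod.unitOfCoprime j (hj1.coprime_dvd_right (hmul ▸ dvd_mul_right _ _)))
  have h1 : k ^ i ≡ j [MOD Nat.card G] := by
    rw [← hmul, ← Nat.modEq_and_modEq_iff_modEq_mul hcop]
    refine ⟨(ZMod.natCast_eq_natCast_iff _ _ _).1 ?_, ((hk2.pow i).trans (by simp [Nat.ModEq])).trans
      hj2.symm⟩
    have := congrArg Units.val hi
    rw [Nat.cast_pow, (ZMod.natCast_eq_natCast_iff _ _ _).2 hk1, ZMod.natCast_zmod_val]
    simpa using this
  rw [← pow_eq_pow_iff_modEq.2 (h1.of_dvd (orderOf_dvd_natCard g))]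
  clear h1 hi
  induction i with
  | zero => simp
  | succ i ih => rw [pow_succ, pow_mul]; exact (h.2 _).trans ih

end Cfsg.Agent.S4712
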