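import Mathlib
import Cfsg.Statements.S4714
import Cfsg.Agent.Blk.CenDef

set_option autoImplicit false
open Cfsg

namespace Cfsg.Agent.S4714

/-- Let p be a prime, M a maximal ideal of the algebraic integers containing p, D a p-subgroup of the finite group G with G = D·C_G(D), and B a p-block with defect group D. Let χ be a member of B having D in its kernel (there is exactly one, the canonical character of B). Then the irreducible characters in B are exactly the functions θ on G for which there is an irreducible character ζ of D such that θ(yx) = ζ(y)χ(x) whenever y ∈ D, x has order prime to p and x commutes with y, and θ(z) = 0 whenever the p-part of z does not lie in D. -/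
theorem result {G : Type*} [Group G] [Finite G] (p : ℕ) [Fact p.Prime] (M : Ideal Cfsg.AlgInt) (hM : Cfsg.IsPModular p M) (D : Subgroup G) (hD : IsPGroup p D) (hG : D ⊔ Subgroup.centralizer (D : Set G) = ⊤) (B : Set (Cfsg.IrrCharacter G)) (hB : Cfsg.IsPBlock M B) (hBD : Cfsg.IsDefectGroup p M B D) (χ : Cfsg.IrrCharacter G) (hχ : χ ∈ B) (hχD : ∀ y ∈ D, (χ : G → ℂ) y = (χ : G → ℂ) 1) : (∀ θ : Cfsg.IrrCharacter G, θ ∈ B ↔ ∃ ζ : Cfsg.IrrCharacter D, (∀ (y : D) (x : G), ¬ p ∣ orderOf x → Commute (y : G) x → (θ : G → ℂ) ((y : G) * x) = (ζ : D → ℂ) y * (χ : G → ℂ) x) ∧ (∀ z : G, (∀ y : G, Cfsg.IsPPart p z y → y ∉ D) → (θ : G → ℂ) z = 0)) ∧ ∀ ζ : Cfsg.IrrCharacter D, ∃ θ ∈ B, (∀ (y : D) (x : G), ¬ p ∣ orderOf x → Commute (y : G) x → (θ : G → ℂ) ((y : G) * x) = (ζ : D → ℂ) y * (χ : G → ℂ) x) ∧ (∀ z : G, (∀ y : G, Cfsg.IsPPart p z y → y ∉ D) → (θ : G → ℂ) z = 0) := by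
  have := hM.isMaximal
  have h : Agent.Blk.Canon p M B D χ :=
    ⟨hM, hB, hBD, hG, hχ, fun x hx => χ.2.mem_charKer.2 (hχD x hx)⟩
  have h0 : ∀ θ ∈ B, ∀ z : G, (∀ y : G, Cfsg.IsPPart p z y → y ∉ D) → (θ : G → ℂ) z = 0 :=
    fun θ hθ z hz => by
      obtain ⟨y, hy⟩ := Agent.Ch.exists_isPPart hM.prime z
      exact h.apply_eq_zero hθ hy (hz y hy)
  have h1 : ∀ ζ : Cfsg.IrrCharacter D, ∃ θ ∈ B, (∀ (y : D) (x : G), ¬ p ∣ orderOf x →
      Commute (y : G) x → (θ : G → ℂ) ((y : G) * x) = (ζ : D → ℂ) y * (χ : G → ℂ) x) ∧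
      (∀ z : G, (∀ y : G, Cfsg.IsPPart p z y → y ∉ D) → (θ : G → ℂ) z = 0) := fun ζ => by
    obtain ⟨θ, h2, h3, -⟩ := h.existsUnique_over ζ
    exact ⟨θ, h2, fun y x hx _ => h.apply_mul h2 h3 y hx, h0 θ h2⟩
  refine ⟨fun θ => ⟨fun hθ => ?_, fun ⟨ζ, h2, h3⟩ => ?_⟩, h1⟩
  · obtain ⟨ζ, -, h2⟩ := h.exists_over θ
    exact ⟨ζ, fun y x hx _ => h.apply_mul hθ ((h2 ζ).2 rfl) y hx, h0 θ hθ⟩
  · obtain ⟨θ', h4, h5, h6⟩ := h1 ζ
    suffices θ = θ' by rwa [this]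
    refine Subtype.ext (funext fun g => ?_)
    obtain ⟨u, hu⟩ := Agent.Ch.exists_isPPart hM.prime g
    by_cases huD : u ∈ D
    · obtain ⟨y, rfl, h7, -, h8⟩ := hu
      exact (h2 ⟨u, huD⟩ y h8 h7).trans (h5 ⟨u, huD⟩ y h8 h7).symm
    · have h7 : ∀ y, Cfsg.IsPPart p g y → y ∉ D := fun y hy => hu.unique hM.prime hy ▸ huD
      exact (h3 g h7).trans (h6 g h7).symm

end Cfsg.Agent.S4714
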