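import Mathlib
import Cfsg.Statements.S4718
import Cfsg.Agent.FG.Landau
import Cfsg.Agent.S4494
import Cfsg.Agent.Blk.PBColumn

set_option autoImplicit false
universe u
open Cfsg

namespace Cfsg.Agent.S4718

set_option linter.unusedVariables false

open Cfsg.Agent.Blk Cfsg.Agent.Ch Cfsg.Agent.Blk.PB Cfsg.Agent.Blk.PC
open scoped ComplexConjugate

/-- Let p be a prime and a a natural number. There is a bound N such that every finite group whose Sylow p-subgroups have order p^a and whose only p-block (relative to a maximal ideal of the algebraic integers containing p) is the principal block has order at most N. -/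
theorem result (p : ℕ) [Fact p.Prime] (a : ℕ) : ∃ N : ℕ, ∀ (G : Type u) [Group G] [Finite G] (M : Ideal Cfsg.AlgInt), Cfsg.IsPModular p M → (Nat.card G).factorization p = a → (∀ B : Set (Cfsg.IrrCharacter G), Cfsg.IsPBlock M B → B = Cfsg.principalBlock M G) → Nat.card G ≤ N := by
  obtain ⟨N, hN⟩ := FG.Landau.landau.{u} (p ^ (2 * a) + 4)
  refine ⟨N, fun G _ _ M hM ha hB => hN G ?_⟩
  have h1 := S4494.result p M hM _ (PB.isPBlock (G := G) hM)
  have h2 : principalBlock M G = Set.univ := by
    refine Set.eq_univ_of_forall fun χ => ?_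
    rw [← hB (blockOf M (χ : G → ℂ)) ⟨χ, rfl⟩]
    have := hM.isMaximal
    exact mem_blockOf_self χ
  have h3 : blockDefect p (principalBlock M G) ≤ a := by
    unfold blockDefect
    omega
  rw [← card_irr, ← Nat.card_congr (Equiv.Set.univ (IrrCharacter G)), ← h2]
  have h4 : p ^ (2 * blockDefect p (principalBlock M G)) ≤ p ^ (2 * a) :=
    Nat.pow_le_pow_right hM.prime.pos (by omega)
  omega

end Cfsg.Agent.S4718
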