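import Mathlib
import Cfsg.Statements.S4719
import Cfsg.Agent.Blk.Major
import Cfsg.Agent.FG.FourBound
import Cfsg.Agent.S4718

set_option autoImplicit false
universe u
open Cfsg

namespace Cfsg.Agent.S4719

set_option linter.unusedVariables false

open Cfsg.Agent.Blk Cfsg.Agent.Blk.Maj Cfsg.Agent.Ch Subgroup

theorem aux (a r : ℕ) : ∃ N : ℕ, ∀ (G : Type u) [Group G] [Finite G] (M : Ideal AlgInt),
    IsPModular 2 M → (Nat.card G).factorization 2 ≤ a → DefClass 2 M G r →
    ∀ E : Subgroup G, (∀ x ∈ E, x * x = 1) → Nat.card E = 2 ^ (r + 1) → Nat.card G ≤ N := by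
  have : Fact (Nat.Prime 2) := ⟨Nat.prime_two⟩
  induction r with
  | zero =>
    choose f hf using fun b => S4718.result.{u} 2 b
    refine ⟨(Finset.range (a + 1)).sup f, fun G _ _ M hM ha hD E _ _ => ?_⟩
    refine (hf _ G M hM rfl fun B hB => ?_).trans
      (Finset.le_sup (f := f) (Finset.mem_range.2 (Nat.lt_succ_of_le ha)))
    by_contra h
    exact absurd (hD B hB h) (Nat.not_lt_zero _)
  | succ r ih =>
    obtain ⟨N, hN⟩ := ih
    obtain ⟨N', hN'⟩ := FG.Four.card_le_of_four.{u} (a + 2 ^ (r + 2) * (N * 2) + 1)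
    refine ⟨N', fun G _ _ M hM ha hD E hE hc => ?_⟩
    classical
    have := Fintype.ofFinite E
    have hEc : ∀ x ∈ E, ∀ y ∈ E, x * y = y * x := fun x hx y hy => by
      have e : ∀ k ∈ E, k⁻¹ = k := fun k hk => inv_eq_of_mul_eq_one_right (hE k hk)
      rw [← e (x * y) (E.mul_mem hx hy), mul_inv_rev, e x hx, e y hy]
    have hE' : ∀ k : E, k * k = 1 := fun k => Subtype.ext (hE k k.2)
    refine hN' G E E.subtype E.subtype_injective hE' (fun hcyc => ?_) ?_
    · obtain ⟨g, hg⟩ := hcyc.exists_ofOrder_eq_natCard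
      have h1 : orderOf g ∣ 2 := orderOf_dvd_of_pow_eq_one (by rw [sq, hE'])
      rw [hg, hc] at h1
      have h2 := Nat.le_of_dvd two_pos h1
      have h3 : 2 ^ 2 ≤ 2 ^ (r + 1 + 1) := Nat.pow_le_pow_right two_pos (by omega)
      omega
    have key : ∀ k ∈ Finset.univ.erase (1 : E),
        Nat.card (centralizer ({E.subtype k} : Set G)) ≤ N * 2 := by
      intro k hk
      have hk1 : (k : G) ≠ 1 := fun h => Finset.ne_of_mem_erase hk (Subtype.ext h)
      have hord : orderOf (k : G) = 2 := orderOf_eq_prime (by rw [sq, hE k k.2]) hk1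
      set C := centralizer ({(k : G)} : Set G) with hCdef
      change Nat.card C ≤ _
      have hC : ∀ g, g ∈ C ↔ g * k = k * g := fun g => mem_centralizer_singleton_iff
      have hEC : E ≤ C := fun x hx => (hC x).2 (hEc x hx k k.2)
      have hDC : DefClass 2 M C (r + 1) := hD.centralizer hM ⟨1, by rw [hord, pow_one]⟩ hC
      let z : C := ⟨k, hEC k.2⟩
      have hZ : zpowers z ≤ center C := by
        rw [zpowers_le, mem_center_iff]
        intro g
        exact Subtype.ext ((hC g).1 g.2)
      have : (zpowers z).Normal := ⟨fun x hx g => by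
        rw [mem_center_iff.1 (hZ hx) g, mul_inv_cancel_right]; exact hx⟩
      have hzc : Nat.card (zpowers z) = 2 := by
        rw [Nat.card_zpowers, ← hord, ← orderOf_coe]
      have hcard : Nat.card C = Nat.card (C ⧸ zpowers z) * 2 := by
        rw [card_eq_card_quotient_mul_card_subgroup (zpowers z), hzc]
      rw [hcard]
      refine Nat.mul_le_mul_right _ (hN (C ⧸ zpowers z) M hM ?_ (hDC.quotient hM hZ hzc)
        ((E.subgroupOf C).map (QuotientGroup.mk' _)) ?_ ?_)
      · refine le_trans ((Nat.factorization_le_iff_dvd Nat.card_pos.ne' Nat.card_pos.ne').2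
          ?_ 2) ha
        exact (Dvd.intro _ hcard.symm).trans (card_subgroup_dvd_card C)
      · rintro _ ⟨x, hx, rfl⟩
        rw [← map_mul, show x * x = 1 from Subtype.ext (hE x hx), map_one]
      · let f := (QuotientGroup.mk' (zpowers z)).comp (E.subgroupOf C).subtype
        have h2 : (E.subgroupOf C).map (QuotientGroup.mk' _) = f.range := by
          rw [MonoidHom.range_comp, range_subtype]
        have h3 : Nat.card (E.subgroupOf C) = Nat.card f.ker * Nat.card f.range := by
          rw [← f.ker.card_mul_index, index_ker]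
        have h4 : f.ker = (zpowers z).subgroupOf (E.subgroupOf C) := by
          rw [← MonoidHom.comap_ker, QuotientGroup.ker_mk']; rfl
        have h5 : zpowers z ≤ E.subgroupOf C := zpowers_le.2 k.2
        rw [h4, Nat.card_congr (subgroupOfEquivOfLe h5).toEquiv, hzc,
          Nat.card_congr (subgroupOfEquivOfLe hEC).toEquiv, hc, pow_succ'] at h3
        rw [h2]
        omega
    have h1 := Finset.sum_le_card_nsmul _ _ _ key
    have h2 : (Finset.univ.erase (1 : E)).card ≤ 2 ^ (r + 2) := by
      rw [← hc, Nat.card_eq_fintype_card]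
      exact Finset.card_le_univ _
    rw [smul_eq_mul] at h1
    have h3 := h1.trans (Nat.mul_le_mul_right _ h2)
    omega

/-- For every natural number a there is a bound N with the following property. Let G be a finite group with Sylow 2-subgroups of order 2^a and r ≥ 0 such that G has no non-principal 2-block (relative to a maximal ideal of the algebraic integers containing 2) of defect ≥ r, and suppose a Sylow 2-subgroup of G contains an elementary abelian subgroup of order 2^(r+1). Then the order of G is at most N. -/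
theorem result (a : ℕ) : ∃ N : ℕ, ∀ (G : Type u) [Group G] [Finite G] (M : Ideal Cfsg.AlgInt) (r : ℕ) (P : Sylow 2 G), Cfsg.IsPModular 2 M → Nat.card P = 2 ^ a → (∀ B : Set (Cfsg.IrrCharacter G), Cfsg.IsPBlock M B → B ≠ Cfsg.principalBlock M G → Cfsg.blockDefect 2 B < r) → (∃ E : Subgroup G, E ≤ (P : Subgroup G) ∧ IsMulCommutative E ∧ (∀ x ∈ E, x * x = 1) ∧ Nat.card E = 2 ^ (r + 1)) → Nat.card G ≤ N := by
  have : Fact (Nat.Prime 2) := ⟨Nat.prime_two⟩
  choose f hf using fun r => aux.{u} a r
  refine ⟨(Finset.range (a + 1)).sup f, fun G _ _ M r P hM hP hD hE => ?_⟩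
  obtain ⟨E, hEP, -, hE, hc⟩ := hE
  have h1 : (Nat.card G).factorization 2 = a := by
    have := P.card_eq_multiplicity
    rw [hP] at this
    exact (Nat.pow_right_injective le_rfl this).symm
  have h2 : r + 1 ≤ a := by
    have := card_dvd_of_le hEP
    rw [hc, hP] at this
    exact (Nat.pow_dvd_pow_iff_le_right one_lt_two).1 this
  exact (hf r G M hM h1.le hD E hE hc).trans
    (Finset.le_sup (f := f) (Finset.mem_range.2 (by omega)))

end Cfsg.Agent.S4719
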