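import Mathlib
import Cfsg.Statements.S4721
import Cfsg.Agent.Blk.AbFrob3

set_option autoImplicit false
open Cfsg

namespace Cfsg.Agent.S4721

set_option linter.unusedVariables false

open Cfsg.Agent.Blk Cfsg.Agent.Ch Cfsg.Agent.Blk.PB Cfsg.Agent.Blk.PC Cfsg.Agent.Blk.AF
open scoped ComplexConjugate

/-- Let p be a prime, M a maximal ideal of the algebraic integers containing p, and G a finite group with a nontrivial abelian Sylow p-subgroup P, N = N_G(P), C = C_G(P), such that N/C is cyclic of order 3, #P > 4, and C_G(y) ∩ N = C for every non-identity y ∈ P. Then the principal p-block is the disjoint union of a set X of exactly 3 characters containing the principal character and a set Y of (#P − 1)/3 characters, with signs a_χ = ±1 (χ ∈ X, a = 1 at the principal character) and δ = ±1 such that every χ ∈ X takes the value a_χ at every element whose p-part is a non-identity element of P, and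 there is a map ζ from the non-principal linear characters of P onto Y, constant on N-conjugacy classes, with ζ_ψ(z) = δ·Σ ψ'(y) over the N-orbit of ψ, for z with p-part y ≠ 1 in P. If moreover G has an involution lying in no proper normal subgroup of G, then exactly two of the three numbers −δ and a_χ (χ ∈ X non-principal) equal −1, and the product of the degrees of the two non-principal members of X and of any member of Y is a perfect square. -/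
theorem result {G : Type*} [Group G] [Finite G] (p : ℕ) [Fact p.Prime] (M : Ideal Cfsg.AlgInt) (hM : Cfsg.IsPModular p M) (P : Sylow p G) (hab : IsMulCommutative P) (hP1 : Nat.card P ≠ 1) (hCN : (Subgroup.centralizer ((P : Subgroup G) : Set G)).relIndex (Subgroup.normalizer ((P : Subgroup G) : Set G)) = 3) (hcyc : ∃ g : G, g ∈ Subgroup.normalizer ((P : Subgroup G) : Set G) ∧ Subgroup.centralizer ((P : Subgroup G) : Set G) ⊔ Subgroup.zpowers g = Subgroup.normalizer ((P : Subgroup G) : Set G)) (hm2 : 3 + 1 < Nat.card P) (hfrob : ∀ y : G, y ∈ (P : Subgroup G) → y ≠ 1 → Subgroup.centralizer ({y} : Set G) ⊓ Subgroup.normalizer ((P : Subgroup G) : Set G) = Subgroup.centralizer ((P : Subgroup G) : Set G)) : ∃ (X Y : Set (Cfsg.IrrCharacter G)), Cfsg.principalBlock M G = X ∪ Y ∧ Disjoint X Y ∧ Nat.card X = 3 ∧ Nat.card Y = (Nat.card P - 1) / 3 ∧ (∃ χ₁ ∈ X, (χ₁ : G → ℂ) = fun _ => 1) ∧ ∃ (a : Cfsg.IrrCharacter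 G → ℤ) (δ : ℤ) (ζ : (↥(P : Subgroup G) →* ℂˣ) → Cfsg.IrrCharacter G), (δ = 1 ∨ δ = -1) ∧ (∀ χ ∈ X, (a χ = 1 ∨ a χ = -1) ∧ ∀ z y : G, Cfsg.IsPPart p z y → y ∈ (P : Subgroup G) → y ≠ 1 → (χ : G → ℂ) z = (a χ : ℂ)) ∧ (∀ ψ : ↥(P : Subgroup G) →* ℂˣ, ψ ≠ 1 → ζ ψ ∈ Y) ∧ (∀ η ∈ Y, ∃ ψ : ↥(P : Subgroup G) →* ℂˣ, ψ ≠ 1 ∧ ζ ψ = η) ∧ (∀ ψ ψ' : ↥(P : Subgroup G) →* ℂˣ, ψ ≠ 1 → (∃ n : G, n ∈ Subgroup.normalizer ((P : Subgroup G) : Set G) ∧ ∀ w w' : ↥(P : Subgroup G), (w' : G) = n * w * n⁻¹ → ψ' w' = ψ w) → ζ ψ' = ζ ψ) ∧ (∀ ψ : ↥(P : Subgroup G) →* ℂˣ, ψ ≠ 1 → ∀ (z : G) (y : ↥(P : Subgroup G)), Cfsg.IsPPart p z (y : G) → (y : G) ≠ 1 → (ζ ψ : G → ℂ) z = (δ : ℂ) * ∑ᶠ ψ' ∈ {ψ' : ↥(P : Subgroup G) →* ℂˣ | ∃ n : G, n ∈ Subgroup.normalizer ((P : Subgroup G) : Set G) ∧ ∀ w w' : ↥(P : Subgroup G), (w' : G) = n * w * n⁻¹ → ψ' w' = ψ w}, ((ψ' y : ℂˣ) : ℂ)) ∧ ((∃ t : G, orderOf t = 2 ∧ ∀ K : Subgroup G, K.Normal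 → t ∈ K → K = ⊤) → Nat.card {χ : Cfsg.IrrCharacter G // χ ∈ X ∧ (χ : G → ℂ) ≠ (fun _ => 1) ∧ a χ = -1} + (if δ = 1 then 1 else 0) = 2 ∧ ∀ η ∈ Y, IsSquare (Cfsg.charDegree (η : G → ℂ) * ∏ᶠ χ ∈ {χ : Cfsg.IrrCharacter G | χ ∈ X ∧ (χ : G → ℂ) ≠ fun _ => 1}, Cfsg.charDegree (χ : G → ℂ))) := by
  have h : Hyp P := ⟨fun a ha b hb =>
    congrArg Subtype.val (hab.is_comm.comm (⟨a, ha⟩ : (P : Subgroup G)) ⟨b, hb⟩), hfrob⟩
  obtain ⟨D⟩ := h.exists_data hM hCN hm2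
  obtain ⟨hd, hX, ha⟩ := D.three hM hm2
  refine ⟨D.X, D.Y, D.eq_union, Finset.disjoint_coe.2 D.disj, by simpa using hX,
    by simpa using D.card_Y (by omega), ⟨irrOne G, D.one_mem, rfl⟩, D.a, D.δ, D.ζ, D.sign,
    fun χ hχ => ⟨ha χ hχ, fun z y hz hy hy1 => ?_⟩, D.ζ_mem, D.ζ_surj,
    fun ψ ψ' hψ hr => ?_, fun ψ hψ z y hz hy1 => ?_, ?_⟩
  · rw [h.apply_eq_of_isPPart hM (D.X_mem hχ) hz hy hy1, D.val_X χ hχ y hy hy1]
  · exact ((D.ζ_eq ψ ψ' hψ (Rel.ne_one hr hψ)).2 hr).symm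
  · rw [h.apply_eq_of_isPPart hM (D.Y_mem (D.ζ_mem ψ hψ)) hz y.2 hy1,
      D.val_Y ψ hψ y fun e => hy1 (congrArg Subtype.val e), hd, Int.cast_zero, zero_add]
    congr 1
    exact (finsum_rel _ ψ fun φ => (φ y : ℂ)).symm
  rintro ⟨t, ht, hgen⟩
  by_cases hp : p = 2
  · subst hp
    exact (D.two_false hM h hCN hm2 ht hgen).elim
  obtain ⟨χ₂, χ₃, hne, hmem, hsum⟩ := D.exists_pair hM hm2
  have n₂ := (hmem χ₂).2 (Or.inl rfl)
  have n₃ := (hmem χ₃).2 (Or.inr rfl)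
  have hiff : ∀ χ : IrrCharacter G, (χ : G → ℂ) ≠ (fun _ => 1) ↔ χ ≠ irrOne G := fun χ =>
    not_congr ⟨fun e => Subtype.ext e, fun e => by rw [e]; rfl⟩
  have key := fun η hη => D.odd_main hM h hCN hm2 hp ht hgen n₂ n₃ hsum (η := η) hη
  constructor
  · obtain ⟨η, hη⟩ : D.Y.Nonempty := Finset.card_pos.1 (by have := D.two_le hm2; omega)
    have k1 := (key η hη).1
    classical
    have e : Nat.card {χ : IrrCharacter G // χ ∈ (D.X : Set (IrrCharacter G)) ∧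
        (χ : G → ℂ) ≠ (fun _ => 1) ∧ D.a χ = -1} =
        (({χ₂, χ₃} : Finset (IrrCharacter G)).filter fun χ => D.a χ = -1).card := by
      rw [← Nat.card_eq_finsetCard]
      refine Nat.card_congr (Equiv.subtypeEquivRight fun χ => ?_)
      rw [hiff, ← and_assoc, Finset.mem_coe, hmem]
      simp
    rw [e, Finset.card_filter, Finset.sum_pair hne]
    rcases ha _ n₂.1 with e₂ | e₂ <;> rcases ha _ n₃.1 with e₃ | e₃ <;>
      rcases D.sign with e₄ | e₄ <;> rw [e₂, e₃, e₄] at k1 ⊢ <;> simp at k1 ⊢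
  · intro η hη
    have e : {χ : IrrCharacter G | χ ∈ (D.X : Set (IrrCharacter G)) ∧
        (χ : G → ℂ) ≠ fun _ => 1} = {χ₂, χ₃} := by
      ext χ
      rw [Set.mem_ofPred_eq, hiff, Finset.mem_coe, hmem]
      simp
    rw [e, finprod_mem_pair hne, mul_comm]
    exact (key η hη).2

end Cfsg.Agent.S4721
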