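import Mathlib
import Cfsg.Statements.S4722
import Cfsg.Agent.Blk.PBColumn2

set_option autoImplicit false
open Cfsg

namespace Cfsg.Agent.S4722

set_option linter.unusedVariables false

open Cfsg.Agent.Blk Cfsg.Agent.Ch Cfsg.Agent.Blk.PB Cfsg.Agent.Blk.PC
open scoped ComplexConjugate

/-- Let M be a maximal ideal of the algebraic integers containing 2, P a 2-subgroup of the finite group G, U a subset of P, and t an involution of G such that no element of U is inverted by any conjugate of t. Let θ be a generalized character of P vanishing outside U, and for χ in the principal 2-block B₀ put a_χ = #P⁻¹ Σ_{y ∈ P} χ(y) θ(y⁻¹). Then Σ_{χ ∈ B₀} a_χ χ(t)^2/χ(1) = 0, Σ_{χ ∈ B₀} a_χ χ(1) = 0 and Σ_{χ ∈ B₀} a_χ χ(t) = 0. If moreover #P⁻¹ Σ_{y ∈ P} θ(y) ≠ 0, then either at least two of the a_χ have positive real part and at least two have negative real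 part, or G has a proper normal subgroup containing O_2'(G) and t. -/
theorem result {G : Type*} [Group G] [Finite G] (M : Ideal Cfsg.AlgInt) (hM : Cfsg.IsPModular 2 M) (P : Subgroup G) (hP : IsPGroup 2 P) (U : Set G) (hUP : U ⊆ (P : Set G)) (t : G) (ht : orderOf t = 2) (hinv : ∀ u ∈ U, ∀ g : G, (g * t * g⁻¹) * u * (g * t * g⁻¹)⁻¹ ≠ u⁻¹) (θ : ↥P → ℂ) (hθ : Cfsg.IsGeneralizedCharacter ↥P θ) (hθU : ∀ y : ↥P, (y : G) ∉ U → θ y = 0) : (∑ᶠ χ ∈ Cfsg.principalBlock M G, ((Nat.card ↥P : ℂ)⁻¹ * ∑ᶠ y : ↥P, (χ : G → ℂ) (y : G) * θ y⁻¹) * (χ : G → ℂ) t ^ 2 / (χ : G → ℂ) 1 = 0) ∧ (∑ᶠ χ ∈ Cfsg.principalBlock M G, ((Nat.card ↥P : ℂ)⁻¹ * ∑ᶠ y : ↥P, (χ : G → ℂ) (y : G) * θ y⁻¹) * (χ : G → ℂ) 1 = 0) ∧ (∑ᶠ χ ∈ Cfsg.principalBlock M G, ((Nat.card ↥P : ℂ)⁻¹ * ∑ᶠ y : ↥P, (χ : G → ℂ) (y : G) * θ y⁻¹) * (χ : G → ℂ) t = 0) ∧ ((Nat.card ↥P : ℂ)⁻¹ * ∑ᶠ y : ↥P, θ y ≠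 0 → (2 ≤ Nat.card {χ : Cfsg.IrrCharacter G // χ ∈ Cfsg.principalBlock M G ∧ 0 < (((Nat.card ↥P : ℂ)⁻¹ * ∑ᶠ y : ↥P, (χ : G → ℂ) (y : G) * θ y⁻¹)).re} ∧ 2 ≤ Nat.card {χ : Cfsg.IrrCharacter G // χ ∈ Cfsg.principalBlock M G ∧ (((Nat.card ↥P : ℂ)⁻¹ * ∑ᶠ y : ↥P, (χ : G → ℂ) (y : G) * θ y⁻¹)).re < 0}) ∨ ∃ K : Subgroup G, K.Normal ∧ K ≠ ⊤ ∧ Cfsg.pPrimeCore 2 G ≤ K ∧ t ∈ K) := by
  classical
  have : Fintype P := Fintype.ofFinite _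
  have : Fact (Nat.Prime 2) := ⟨Nat.prime_two⟩
  have htt : t * t = 1 := by rw [← sq, ← ht, pow_orderOf_eq_one]
  have hti : t⁻¹ = t := inv_eq_of_mul_eq_one_right htt
  have hU : ∀ y : P, θ y ≠ 0 → (y : G) ∈ U := fun y hy => by
    by_contra h; exact hy (hθU y h)
  simp only [finsum_pb, aco_eq_finsum]
  have r1 : ∑ χ ∈ pb M G, aco P θ χ * (χ : G → ℂ) t ^ 2 / (χ : G → ℂ) 1 = 0 := by
    simp only [mul_div_assoc]
    exact sum_aco_mul_eq_zero P fun y hy =>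
      sum_sq_div_mul_inv_eq_zero hM htt (pelt_of_mem hP y.2) (hinv y (hU y hy))
  have r2 : ∑ χ ∈ pb M G, aco P θ χ * (χ : G → ℂ) 1 = 0 := by
    refine sum_aco_mul_eq_zero P fun y hy => sum_mul_inv_of_not_isConj hM (pelt_of_mem hP y.2)
      ⟨0, by simp⟩ fun hc => hinv y (hU y hy) 1 ?_
    rw [isConj_one_right.1 hc]; simp
  have r3 : ∑ χ ∈ pb M G, aco P θ χ * (χ : G → ℂ) t = 0 := by
    refine sum_aco_mul_eq_zero P fun y hy => sum_mul_inv_of_not_isConj hM (pelt_of_mem hP y.2)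
      ⟨1, by simp [ht]⟩ fun hc => ?_
    obtain ⟨c, hc⟩ := isConj_iff.1 hc
    apply hinv y (hU y hy) c
    rw [hc, mul_inv_cancel_right, ← hc]
    simp only [mul_inv_rev, inv_inv, hti, mul_assoc]
  refine ⟨r1, r2, r3, fun h0 => ?_⟩
  have hao : aco P θ (irrOne G : G → ℂ) ≠ 0 := by
    rw [aco_eq]
    simpa [finsum_eq_sum_of_fintype] using h0
  have two : ∀ Q : IrrCharacter G → Prop, (∃ χ ∈ pb M G, ∃ ψ ∈ pb M G, χ ≠ ψ ∧ Q χ ∧ Q ψ) →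
      2 ≤ Nat.card {χ : IrrCharacter G // χ ∈ principalBlock M G ∧ Q χ} := by
    rintro Q ⟨χ, hχ, ψ, hψ, hne, h1, h2⟩
    have : Nontrivial {χ : IrrCharacter G // χ ∈ principalBlock M G ∧ Q χ} :=
      ⟨⟨⟨χ, mem_pb.1 hχ, h1⟩, ⟨ψ, mem_pb.1 hψ, h2⟩, fun h => hne (congrArg Subtype.val h)⟩⟩
    exact Finite.one_lt_card
  rcases two_pos_two_neg (pb M G) (fun χ => aco P θ χ) (fun χ _ => by
      obtain ⟨n, hn⟩ := exists_int_aco P hθ χ.isCharacter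
      simp only [hn, Complex.intCast_im]) htt r1 r2 r3 (one_mem_pb hM) hao with
    ⟨hp, hn⟩ | ⟨χ, hχ, hne, hk⟩
  · exact Or.inl ⟨two _ hp, two _ hn⟩
  · exact Or.inr ⟨charKer (χ : G → ℂ), χ.isCharacter.charKer_normal, charKer_ne_top hne,
      pPrimeCore_le_charKer hM (mem_pb.1 hχ), hk⟩

end Cfsg.Agent.S4722
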