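import Mathlib
import Cfsg.Statements.S4723
import Cfsg.Agent.Blk.Cover
import Cfsg.Agent.Blk.Contrib
import Cfsg.Agent.Blk.ModBrauer
import Cfsg.Agent.Blk.PBKlein

set_option autoImplicit false
open Cfsg

namespace Cfsg.Agent.S4723

open Cfsg.Agent.Blk Cfsg.Agent.Blk.Om Cfsg.Agent.Ch Pointwise in
theorem sum_sylow_conj {G : Type*} [Group G] [Finite G] {p : ℕ} [Fact p.Prime] {H : Subgroup G}
    [H.Normal] (Q : Sylow p H) [Fintype (Q : Subgroup H)] (g : G) {η : H → ℂ}
    (hη : IsClassFunction H η) :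
    ∑ u : (Q : Subgroup H), conjChar g η u = ∑ u : (Q : Subgroup H), η u := by
  obtain ⟨h, hh⟩ := MulAction.exists_smul_eq H ((MulAut.conjNormal g : MulAut H) • Q) Q
  set φ : MulAut H := MulAut.conj h * MulAut.conjNormal g with hφ
  have h1 : (Q : Subgroup H).map (φ : H →* H) = Q := by
    conv_rhs => rw [← hh]
    rw [Sylow.coe_subgroup_smul, Sylow.pointwise_smul_def, smul_smul]
    rfl
  refine Fintype.sum_equiv (((Q : Subgroup H).equivMapOfInjective (φ : H →* H)
    φ.injective).trans (MulEquiv.subgroupCongr h1)).toEquiv _ _ fun u => ?_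
  change _ = η (h * MulAut.conjNormal g (u : H) * h⁻¹)
  rw [hη]
  rfl

open Cfsg.Agent.Blk Cfsg.Agent.Blk.Om Cfsg.Agent.Ch in
theorem exists_fixed {G : Type*} [Group G] [Finite G] {p : ℕ} [Fact p.Prime]
    {M : Ideal Cfsg.AlgInt} (hM : Cfsg.IsPModular p M) {H : Subgroup G} [H.Normal]
    {b : Set (IrrCharacter H)} (hb : IsPBlock M b) {P : Subgroup G} (hP : IsPGroup p P)
    (hPT : P ≤ blkStab H b) : ∃ θ ∈ b, blockHeight p b (θ : H → ℂ) = 0 ∧
      ∀ g ∈ P, conjIrr g θ = θ := by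
  classical
  have := hM.isMaximal
  have := hM.charP
  have := Fintype.ofFinite H
  obtain ⟨χ, hχ⟩ := hb.nonempty
  obtain ⟨Q⟩ : Nonempty (Sylow p H) := inferInstance
  choose n hn using fun η : IrrCharacter H =>
    PB.exists_sum_subgroup η.2.isCharacter (Q : Subgroup H)
  have hQ0 : (Nat.card (Q : Subgroup H) : ℂ) ≠ 0 := Nat.cast_ne_zero.2 Nat.card_pos.ne'
  have hH0 : (Nat.card H : ℂ) ≠ 0 := Nat.cast_ne_zero.2 Nat.card_pos.ne'
  have hnc : ∀ g η, (n (conjIrr g η) : ℂ) = n η := fun g η => by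
    refine mul_left_cancel₀ hQ0 ?_
    rw [← hn, ← hn, coe_conjIrr, sum_sylow_conj Q g η.2.isClassFunction]
  have hR : ∀ η : IrrCharacter H, MemLocalRing M (om (χ : H → ℂ) (zReg p (η : H → ℂ))) :=
    fun η => memLocalRing_om_zReg χ η.2.isGeneralizedCharacter
  have hnR : ∀ η, MemLocalRing M (n η : ℂ) := fun η => by
    first | exact MemLocalRing.natCast _ | exact MemLocalRing.intCast _
  have h1 : ∑ η : IrrCharacter H, om (χ : H → ℂ) (zReg p (η : H → ℂ)) * n η =
      ((Q : Subgroup H).index : ℂ) := by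
    have h0 := χ.2.apply_one_ne_zero
    have e1 : ∑ u : (Q : Subgroup H), pRegularPart p (χ : H → ℂ) u = (χ : H → ℂ) 1 := by
      rw [Finset.sum_eq_single (1 : (Q : Subgroup H))]
      · exact pRegularPart_one Fact.out _
      · intro u _ hu
        rw [Om.pRegularPart_of_dvd]
        obtain ⟨k, hk⟩ := (IsPGroup.iff_orderOf.1 Q.isPGroup') u
        rw [Subgroup.orderOf_coe, hk]
        refine dvd_pow_self _ fun h => hu ?_
        rw [h, pow_zero, orderOf_eq_one_iff] at hk
        exact hk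
      · simp
    have e2 := fun u : (Q : Subgroup H) =>
      (Om.isClassFunction_pRegularPart (p := p) χ.2.isClassFunction).apply_eq_sum_irr (u : H)
    simp only [e2] at e1
    rw [Finset.sum_comm] at e1
    simp only [← Finset.mul_sum, hn] at e1
    have e3 : (Nat.card H : ℂ) = Nat.card (Q : Subgroup H) * (Q : Subgroup H).index := by
      exact_mod_cast (Q : Subgroup H).card_mul_index.symm
    refine mul_left_cancel₀ (mul_ne_zero hQ0 h0) ?_
    rw [Finset.mul_sum, mul_right_comm, ← e3]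
    conv_rhs => rw [← e1, Finset.mul_sum]
    refine Finset.sum_congr rfl fun η _ => ?_
    rw [om_zReg]
    field_simp
  letI : MulAction P (IrrCharacter H) :=
    { smul := fun g θ => conjIrr (g⁻¹ : G) θ
      one_smul := fun θ => by change conjIrr _ θ = θ; simp
      mul_smul := fun g h θ => by
        change conjIrr _ θ = conjIrr _ (conjIrr _ θ)
        rw [← conjIrr_mul]
        simp }
  have h2 := Mod.sum_eq_sum_fixed hP
    (fun η : IrrCharacter H => red M (om (χ : H → ℂ) (zReg p (η : H → ℂ)) * n η))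
    (fun η => by rw [nsmul_eq_mul, CharP.cast_eq_zero, zero_mul]) (fun g η => by
      change red M (om _ (zReg p (conjIrr (g⁻¹ : G) η : H → ℂ)) * n (conjIrr (g⁻¹ : G) η)) = _
      rw [hnc, red_mul (hR _) (hnR _), red_mul (hR _) (hnR _)]
      congr 1
      have a1 : zReg p (conjIrr (g⁻¹ : G) η : H → ℂ) = conjChar (g⁻¹ : G) (zReg p (η : H → ℂ)) := by
        have := zReg_comp (p := p) (MulAut.conjNormal (g⁻¹ : G) : MulAut H).toMonoidHom
          (MulAut.conjNormal (g⁻¹ : G) : MulAut H).injective (η : H → ℂ)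
        exact this.symm
      have a2 : conjIrr (g : G) χ ∈ b := mem_blkStab_iff.1 (hPT g.2) χ hχ
      have a3 := om_conjChar (g⁻¹ : G) (conjIrr (g : G) χ : H → ℂ) (zReg p (η : H → ℂ))
      rw [← coe_conjIrr, conjIrr_inv_conjIrr] at a3
      rw [a1, a3, red_eq_red_iff (memLocalRing_om_zReg _ η.2.isGeneralizedCharacter) (hR η)]
      exact block_om_sub hb a2 hχ (isClassFunction_zReg η.2.isClassFunction)
        (memLocalRing_zReg η.2.isGeneralizedCharacter))
  rw [← red_sum fun η _ => (hR η).mul (hnR η), h1, red_natCast] at h2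
  have h3 : (((Q : Subgroup H).index : ℕ) : Res M) ≠ 0 := by
    rw [Ne, CharP.cast_eq_zero_iff _ p]
    exact Q.not_dvd_index
  rw [h2] at h3
  obtain ⟨η, hη, h4⟩ := Finset.exists_ne_zero_of_sum_ne_zero h3
  rw [red_mul (hR _) (hnR _)] at h4
  obtain ⟨h5, h6⟩ := (om_zReg_not_mem_iff hM hb hχ).1 (red_ne_zero_iff.1 (left_ne_zero_of_mul h4)).2
  refine ⟨η, h5, h6, fun g hg => ?_⟩
  have := (Finset.mem_filter.1 hη).2 ⟨g⁻¹, P.inv_mem hg⟩
  change conjIrr (g⁻¹⁻¹) η = η at this
  rwa [inv_inv] at this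

/-- Let p be a prime, M a maximal ideal of the algebraic integers containing p, H a normal subgroup of the finite group G and b a p-block of H. Let T be the stabilizer of b in G. Then b contains a character θ of height zero whose own stabilizer in G (the elements g with θ(g h g⁻¹) = θ(h) for all h ∈ H) has index prime to p in T, i.e. contains a Sylow p-subgroup of T. -/
theorem result {G : Type*} [Group G] [Finite G] (p : ℕ) [Fact p.Prime] (M : Ideal Cfsg.AlgInt) (hM : Cfsg.IsPModular p M) (H : Subgroup G) [H.Normal] (b : Set (Cfsg.IrrCharacter ↥H)) (hb : Cfsg.IsPBlock M b) (T : Subgroup G) (hT : (∀ g : G, g ∈ T ↔ ∀ θ ∈ b, ∀ θ' : Cfsg.IrrCharacter ↥H, (∀ h h' : ↥H, (h' : G) = g * h * g⁻¹ → (θ' : ↥H → ℂ) h' = (θ : ↥H → ℂ) h) → θ' ∈ b)) : ∃ θ ∈ b, Cfsg.blockHeight p b (θ : ↥H → ℂ) = 0 ∧ ∃ S : Subgroup G, S ≤ T ∧ (∀ g : G, g ∈ S ↔ (g ∈ T ∧ ∀ h h' : ↥H, (h' : G) = g * h * g⁻¹ → (θ : ↥H → ℂ) h' = (θ : ↥H → ℂ) h)) ∧ ¬ p ∣ S.relIndex T := by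
  have := hM.isMaximal
  have hTb : T = Agent.Blk.Om.blkStab H b := by
    refine Subgroup.ext fun g => ?_
    rw [hT, ← Subgroup.inv_mem_iff, Agent.Blk.Om.mem_blkStab_iff']
    refine forall₂_congr fun θ _ => forall_congr' fun θ' => imp_congr_left ?_
    constructor
    · intro h n
      exact h _ _ (by simp [mul_assoc])
    · intro h n n' hn
      exact (h n').trans (congrArg _ (Subtype.ext (by simp [hn, mul_assoc])))
  obtain ⟨P⟩ : Nonempty (Sylow p T) := inferInstance
  obtain ⟨θ, h1, h2, h3⟩ := exists_fixed hM hb (P := (P : Subgroup T).map T.subtype)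
    (P.isPGroup'.map _) (hTb ▸ Subgroup.map_subtype_le _)
  refine ⟨θ, h1, h2, T ⊓ Agent.Blk.Om.blkStab H {θ}, inf_le_left, fun g => ?_, ?_⟩
  · rw [Subgroup.mem_inf, Agent.Blk.Om.mem_blkStab_iff]
    refine and_congr_right fun _ => ?_
    simp only [Set.mem_singleton_iff, forall_eq]
    rw [eq_comm, Agent.Blk.Om.eq_conjIrr_iff]
    constructor
    · intro h n n' hn
      exact ((h n).trans (congrArg _ (Subtype.ext hn.symm))).symm
    · intro h n
      exact (h _ _ rfl).symm
  · refine fun h => P.not_dvd_index (h.trans (Subgroup.index_dvd_of_le fun x hx => ?_))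
    rw [Subgroup.mem_subgroupOf, Subgroup.mem_inf, Agent.Blk.Om.mem_blkStab_iff]
    refine ⟨x.2, fun θ' hθ' => ?_⟩
    rw [Set.mem_singleton_iff] at hθ' ⊢
    rw [hθ']
    exact h3 _ ⟨x, hx, rfl⟩

end Cfsg.Agent.S4723
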