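import Mathlib
import Cfsg.Statements.S4725
import Cfsg.Agent.Blk.SubBound

set_option autoImplicit false
open Cfsg

namespace Cfsg.Agent.S4725

/-- Let p be a prime, M a maximal ideal of the algebraic integers containing p, H a subgroup of the finite group G, and b a p-block of H inducing the p-block B of G, with b and B of the same defect. Then for every height-zero ζ ∈ b there is a height-zero χ ∈ B whose multiplicity in the character induced from ζ is not divisible by p. -/
theorem result {G : Type*} [Group G] [Fintype G] (p : ℕ) [Fact p.Prime] (M : Ideal Cfsg.AlgInt) (hM : Cfsg.IsPModular p M) (H : Subgroup G) (b : Set (Cfsg.IrrCharacter ↥H)) (B : Set (Cfsg.IrrCharacter G)) (hind : Cfsg.IsInducedBlock M H b B) (hdef : Cfsg.blockDefect p b = Cfsg.blockDefect p B) (ζ : Cfsg.IrrCharacter ↥H) (hζ : ζ ∈ b) (hζ0 : Cfsg.blockHeight p b (ζ : ↥H → ℂ) = 0) : ∃ χ ∈ B, Cfsg.blockHeight p B (χ : G → ℂ) = 0 ∧ ∃ a : ℕ, Cfsg.classInner (Cfsg.indFun H (ζ : ↥H → ℂ)) (χ : G → ℂ)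 = (a : ℂ) ∧ ¬ p ∣ a := by
  classical
  have := hM.isMaximal
  obtain ⟨ψ, hψ, h0⟩ := Agent.Blk.Om.exists_height_zero (p := p) hind.2.1.nonempty
  obtain ⟨a, ha, -⟩ := (Agent.Ch.isCharacter_indFun H ζ.isCharacter).exists_mult
  by_contra hc
  push Not at hc
  have h1 := Agent.Blk.degree_memLocalRing hM hζ
  have h2 := Agent.Blk.Om.memLocalRing_om_zReg (M := M) (p := p) ζ
    (ψ.isGeneralizedCharacter.restrict H)
  refine (hind.om_zReg_not_mem_iff hM hζ ψ).2 ⟨hψ, h0⟩ ((MemLocalIdeal.of_mul h1 h2 ?_).resolve_left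
    (Agent.Blk.degree_not_memLocalIdeal hM hζ hζ0))
  have e : pRegularPart p (fun x : H => (ψ : G → ℂ) x) =
      fun x : H => pRegularPart p (ψ : G → ℂ) x :=
    (Agent.Blk.Om.pRegularPart_comp H.subtype H.subtype_injective _).symm
  rw [← Agent.Blk.pow_mul_contr_eq, Agent.Blk.classInner_pRegularPart_comm, e,
    ← Agent.Ch.classInner_indFun_left H _
    (Agent.Blk.isClassFunction_pRegularPart ψ.isCharacter.isClassFunction), (Agent.Ch.indFun_isClassFunction H _).classInner_eq_sum, Finset.mul_sum]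
  refine .sum fun χ _ => ?_
  rw [ha, Agent.Ch.classInner_conj_symm, ← Agent.Blk.classInner_pRegularPart_comm, mul_left_comm]
  by_cases hχ : χ ∈ B
  · rw [hdef, Agent.Blk.pow_mul_contr_eq]
    have h3 := Agent.Blk.degree_memLocalRing hM hχ
    by_cases h4 : blockHeight p B (χ : G → ℂ) = 0
    · exact ((hM.natCast_mem_iff _).2 (hc χ hχ h4 _ (ha χ))).mul_right
        (h3.mul (Agent.Blk.Om.memLocalRing_om_zReg χ ψ.isGeneralizedCharacter))
    · obtain ⟨s, h5, -, h6⟩ := Agent.Blk.exists_unit_degree hM hχ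
      obtain ⟨k, hk⟩ := Nat.exists_eq_succ_of_ne_zero h4
      rw [h6, hk, pow_succ]
      exact (((hM.memLocalIdeal_p.mul_left ((MemLocalRing.natCast p).pow k)).mul_right h5).mul_right
        (Agent.Blk.Om.memLocalRing_om_zReg χ ψ.isGeneralizedCharacter)).mul_left (.natCast _)
  · rw [Agent.Blk.Om.contr_symm, Agent.Blk.Om.contr_eq_zero_of_not_mem hM hind.2.1 hψ hχ]
    simpa using MemLocalIdeal.zero

end Cfsg.Agent.S4725
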