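import Mathlib
import Cfsg.Statements.S4726
import Cfsg.Agent.Blk.PairKer

set_option autoImplicit false
open Cfsg

namespace Cfsg.Agent.S4726

set_option linter.unusedVariables false
set_option linter.style.haveILetI false

/-- Let p be a prime, M a maximal ideal of the algebraic integers containing p, H a subgroup of the finite group G and b a p-block of H with defect group D₀ such that C_G(D₀) ≤ H. Then b induces a block of G, and for every block B of G induced by b there is a defect group D of B with Z(D) ≤ Z(D₀) ≤ D₀ ≤ D (as subgroups of G). In particular, if the defect groups of B are abelian then D₀ is a defect group of B. -/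
theorem result {G : Type*} [Group G] [Finite G] (p : ℕ) [Fact p.Prime] (M : Ideal Cfsg.AlgInt) (hM : Cfsg.IsPModular p M) (H : Subgroup G) (b : Set (Cfsg.IrrCharacter ↥H)) (hb : Cfsg.IsPBlock M b) (D₀ : Subgroup ↥H) (hD₀ : Cfsg.IsDefectGroup p M b D₀) (hC : Subgroup.centralizer ((D₀.map H.subtype : Subgroup G) : Set G) ≤ H) : Cfsg.InducedBlockDefined M H b ∧ ∀ B : Set (Cfsg.IrrCharacter G), Cfsg.IsInducedBlock M H b B → (∃ D : Subgroup G, Cfsg.IsDefectGroup p M B D ∧ (Subgroup.center ↥D).map D.subtype ≤ ((Subgroup.center ↥D₀).map D₀.subtype).map H.subtype ∧ ((Subgroup.center ↥D₀).map D₀.subtype).map H.subtype ≤ D₀.map H.subtype ∧ D₀.map H.subtype ≤ D) ∧ (∀ D : Subgroup G, Cfsg.IsDefectGroup p M B D → IsMulCommutative ↥D → Cfsg.IsDefectGroup p M B (D₀.map H.subtype)) := by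
  open Cfsg.Agent.GT Cfsg.Agent.Blk Cfsg.Agent.Blk.Mod Cfsg.Agent.Blk.PD Cfsg.Agent.Blk.PK in
  · haveI := hM.isMaximal
    haveI := hM.charP
    have hdef := (hb.isDefectGroup_iff_isDef_map hM).1 hD₀
    obtain ⟨c, hc, h1, h2⟩ := exists_root hM hb hdef.pgroup hdef.le hC hdef.br_ne
    obtain ⟨B', hB'⟩ := inducedBlockDefined_centralizer hM hdef.pgroup hc
    refine ⟨⟨B', (h2 B').2 hB'⟩, fun B hbB => ?_⟩
    have hB := hbB.2.1
    have h3 := ((isInducedBlock_centralizer_iff hM hdef.pgroup).1 ((h2 B).1 hbB)).2.2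
    have hpair := isPair_epsIn hdef.pgroup hc
    obtain ⟨D, e, he, hsub⟩ := IsPairOf.exists_isMaxPair (NIn.refl ⊤) hB.isPrim_ZA_top
      ⟨hpair, le_top, h3⟩
    have hD := he.isDef (NIn.refl ⊤) hB.isPrim_ZA_top
    set Q := D₀.map H.subtype with hQ
    have hcen : D ⊓ Subgroup.centralizer (Q : Set G) ≤ Q := by
      set R := Q ⊔ D ⊓ Subgroup.centralizer (Q : Set G) with hR
      have hRD : R ≤ D ⊓ Subgroup.normalizer (Q : Set G) :=
        sup_le (le_inf hsub.le Subgroup.le_normalizer)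
          (inf_le_inf_left _ (centralizer_le_normalizer' Q))
      have hRp : IsPGroup p R := hD.pgroup.to_le (hRD.trans inf_le_left)
      have hRH : R ≤ H := sup_le hdef.le (inf_le_right.trans hC)
      have h4 := hsub.br_ne_zero hRD
      have h5 : br R (epsIn M H b) ≠ 0 := fun h0 => h4 (by
        have hF : br Q (epsIn M H b) ∈ Mod.Fix R :=
          br_mem_Fix (hRD.trans inf_le_right) (Fix_anti hRH (mem_ZA.1 (epsIn_mem_ZA _ _)).2)
        rw [← h1, br_mul hRp hF (Fix_anti hRD hsub.fix), br_br_of_le le_sup_left, h0, zero_mul])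
      exact le_sup_right.trans (hdef.eq_of_le hRp hRH h5 le_sup_left).le
    have hZ : (Subgroup.center D).map D.subtype ≤ D ⊓ Subgroup.centralizer (Q : Set G) := by
      rintro _ ⟨z, hz, rfl⟩
      exact ⟨z.2, fun q hq => congrArg Subtype.val
        (Subgroup.mem_center_iff.1 hz ⟨q, hsub.le hq⟩)⟩
    refine ⟨⟨D, (hB.isDefectGroup_iff_isDef hM).2 hD, fun z hz => ?_,
      Subgroup.map_mono (Subgroup.map_subtype_le _), hsub.le⟩, fun D' hD' hab => ?_⟩
    · obtain ⟨w, hw, rfl⟩ := hcen (hZ hz)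
      refine ⟨w, ⟨⟨w, hw⟩, Subgroup.mem_center_iff.2 fun u => Subtype.ext (Subtype.ext ?_), rfl⟩, rfl⟩
      exact (hZ hz).2 _ ⟨u, u.2, rfl⟩
    · obtain ⟨x, -, hx⟩ := ((hB.isDefectGroup_iff_isDef hM).1 hD').exists_conj_eq hD
      have hle : D ≤ Q := fun d hd => hcen ⟨hd, fun q hq => by
        have hq' := hsub.le hq
        rw [← hx] at hd hq'
        obtain ⟨d', hd', rfl⟩ := hd
        obtain ⟨q', hq', rfl⟩ := hq'
        have := congrArg Subtype.val (hab.is_comm.comm ⟨q', hq'⟩ ⟨d', hd'⟩)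
        rw [← map_mul, ← map_mul]
        exact congrArg _ this⟩
      rw [show Q = D from le_antisymm hsub.le hle]
      exact (hB.isDefectGroup_iff_isDef hM).2 hD

end Cfsg.Agent.S4726
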