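import Mathlib
import Cfsg.Statements.S4727
import Cfsg.Agent.Blk.PairKer
import Cfsg.Agent.Blk.Subsection

set_option autoImplicit false
open Cfsg

namespace Cfsg.Agent.S4727

set_option linter.unusedVariables false

/-- Let p be a prime, π a set of primes containing p, M a maximal ideal of the algebraic integers containing p, and B a p-block of the finite group G with defect group D; let B₁ be the block of N_G(D) with defect group D that induces B (the Brauer correspondent of B). Suppose every element of O_π'(N_G(D)), the largest normal subgroup of N_G(D) whose order has no prime divisor in π, lies in the kernel of every member of B₁. If y is a p-element whose centralizer C has a normal Hall π'-subgroup (every element of C whose order has no prime divisor in π lies in O_π'(C)), then χ(y x) = χ(y) for every χ ∈ B and every x ∈ C whose order has no prime divisor in π. -/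
theorem result {G : Type*} [Group G] [Finite G] (p : ℕ) [Fact p.Prime] (M : Ideal Cfsg.AlgInt) (hM : Cfsg.IsPModular p M) (π : Set ℕ) (hpπ : p ∈ π) (B : Set (Cfsg.IrrCharacter G)) (hB : Cfsg.IsPBlock M B) (D : Subgroup G) (hBD : Cfsg.IsDefectGroup p M B D) (B₁ : Set (Cfsg.IrrCharacter ↥(Subgroup.normalizer (D : Set G)))) (hB₁ : Cfsg.IsInducedBlock M (Subgroup.normalizer (D : Set G)) B₁ B) (hB₁D : Cfsg.IsDefectGroup p M B₁ (D.subgroupOf (Subgroup.normalizer (D : Set G)))) (hker : ∀ n : ↥(Subgroup.normalizer (D : Set G)), n ∈ Cfsg.piCore {q | q ∉ π} ↥(Subgroup.normalizer (D : Set G)) → n ∈ Cfsg.blockKer B₁) (y : G) (hy : ∃ k : ℕ, orderOf y = p ^ k) (hC : ∀ x : ↥(Subgroup.centralizer ({y} : Set G)), (∀ q : ℕ, q.Prime → q ∣ orderOf x → q ∉ π) → x ∈ Cfsg.piCore {q | q ∉ π} ↥(Subgroup.centralizer ({y} : Set G))) : ∀ χ ∈ B, ∀ x : G, x ∈ Subgroup.centralizer ({y} : Set G) → (∀ q : ℕ, q.Prime → q ∣ orderOf x → q ∉ π) → (χ : G → ℂ) (y * x) = (χ : G → ℂ) y := by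
  open Cfsg.Agent.GT Cfsg.Agent.Blk Cfsg.Agent.Blk.Mod Cfsg.Agent.Blk.PD Cfsg.Agent.Blk.PK in
  · haveI := hM.isMaximal
    haveI := hM.charP
    haveI := Fintype.ofFinite G
    haveI := Fintype.ofFinite (Subgroup.centralizer ({y} : Set G))
    have hp : p ∉ {q | q ∉ π} := fun h => h hpπ
    obtain ⟨e, he, hiff⟩ := exists_isMaxPair_pt_iff hM hp hB hBD hB₁
    intro χ hχ x hx hxπ
    have hY : IsPGroup p (Subgroup.zpowers y) := by
      obtain ⟨k, hk⟩ := hy
      exact IsPGroup.of_card (n := k) (by rw [Nat.card_zpowers, hk])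
    have hCY : Subgroup.centralizer ({y} : Set G) =
        Subgroup.centralizer (Subgroup.zpowers y : Set G) := by
      rw [Subgroup.zpowers_eq_closure, Subgroup.centralizer_closure]
    have hC' : ∀ g, g ∈ Subgroup.centralizer ({y} : Set G) ↔ g * y = y * g := fun g =>
      Subgroup.mem_centralizer_singleton_iff
    have hx' : ∀ q : ℕ, q.Prime → q ∣ orderOf (⟨x, hx⟩ : Subgroup.centralizer ({y} : Set G)) →
        q ∉ π := fun q hq hd => hxπ q hq (by rwa [Subgroup.orderOf_mk] at hd)
    have h1 := irr_mul_eq_sum hM hy hC' hB hχ (y := ⟨x, hx⟩) fun hd => hx' p Fact.out hd hpπ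
    have h2 := irr_mul_eq_sum hM hy hC' hB hχ (y := 1)
      (by rw [orderOf_one, Nat.dvd_one]; exact (Fact.out : p.Prime).ne_one)
    rw [OneMemClass.coe_one, mul_one] at h2
    rw [h2]
    refine h1.trans (Finset.sum_congr rfl fun b _ => ?_)
    split_ifs with hb
    · have h3 := ((isInducedBlock_iff_of_eq hM hY hCY).1 hb).2.2
      have h4 : IsPair p ⊤ (Subgroup.zpowers y) (epsIn M _ b) :=
        ⟨hY, le_normalizer_top _, by rw [cen_top, ← hCY]; exact hb.1.isPrim_epsIn⟩
      have h5 : PT {q | q ∉ π} (Subgroup.zpowers y) (epsIn M _ b) :=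
        (hiff.2 hker).of_isMaxPair hp hB.isPrim_ZA_top he ⟨h4, le_top, h3⟩
      rw [PT, ← hCY] at h5
      have h6 := (triv_piCoreOf_iff hM hp hb.1).1 h5 _ (hC _ hx')
      unfold blockPart
      refine finsum_mem_congr rfl fun ψ hψ => ?_
      rw [h6 ψ hψ]
    · rfl

end Cfsg.Agent.S4727
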