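import Mathlib
import Cfsg.Statements.S4728
import Cfsg.Agent.Blk.PairKer

set_option autoImplicit false
open Cfsg

namespace Cfsg.Agent.S4728

set_option linter.unusedVariables false

/-- Let p be a prime, π a set of primes containing p, M a maximal ideal of the algebraic integers containing p, B a p-block of the finite group G with defect group D, and B₁ the block of N_G(D) with defect group D inducing B. Let D₀ be a p-subgroup, H₀ = D₀·C_G(D₀), and b a block of H₀ inducing B. Write O_π'(X) for the largest normal subgroup of X whose order has no prime divisor in π. Suppose that O_π'(C_G(D₀)) is a normal Hall π'-subgroup of C_G(D₀) (it contains every element of C_G(D₀) whose order has no prime divisor in π) and that every element of it lies in the kernel of every member of b. Then every element of O_π'(N_G(D)) lies in the kernel of every member of B₁. -/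
theorem result {G : Type*} [Group G] [Finite G] (p : ℕ) [Fact p.Prime] (M : Ideal Cfsg.AlgInt) (hM : Cfsg.IsPModular p M) (π : Set ℕ) (hpπ : p ∈ π) (B : Set (Cfsg.IrrCharacter G)) (hB : Cfsg.IsPBlock M B) (D : Subgroup G) (hBD : Cfsg.IsDefectGroup p M B D) (B₁ : Set (Cfsg.IrrCharacter ↥(Subgroup.normalizer (D : Set G)))) (hB₁ : Cfsg.IsInducedBlock M (Subgroup.normalizer (D : Set G)) B₁ B) (hB₁D : Cfsg.IsDefectGroup p M B₁ (D.subgroupOf (Subgroup.normalizer (D : Set G)))) (D₀ : Subgroup G) (hD₀ : IsPGroup p D₀) (H₀ : Subgroup G) (hH₀ : H₀ = D₀ ⊔ Subgroup.centralizer (D₀ : Set G)) (b : Set (Cfsg.IrrCharacter ↥H₀)) (hb : Cfsg.IsInducedBlock M H₀ b B) (hcompl : ∀ x : ↥(Subgroup.centralizer (D₀ : Set G)), (∀ q : ℕ, q.Prime → q ∣ orderOf x → q ∉ π) → x ∈ Cfsg.piCore {q | q ∉ π} ↥(Subgroup.centralizer (D₀ : Set G))) (hkerb : ∀ x : ↥(Subgroup.centralizer (D₀ : Set G)), x ∈ Cfsg.piCore {q | q ∉ π} ↥(Subgroup.centralizer (D₀ : Set G)) → ∀ θ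 ∈ b, ∀ h : ↥H₀, (h : G) = (x : G) → (θ : ↥H₀ → ℂ) h = (θ : ↥H₀ → ℂ) 1) : ∀ n : ↥(Subgroup.normalizer (D : Set G)), n ∈ Cfsg.piCore {q | q ∉ π} ↥(Subgroup.normalizer (D : Set G)) → n ∈ Cfsg.blockKer B₁ := by
  open Cfsg.Agent.GT Cfsg.Agent.Blk Cfsg.Agent.Blk.Mod Cfsg.Agent.Blk.PD Cfsg.Agent.Blk.PK in
  · haveI := hM.isMaximal
    haveI := hM.charP
    have hp : p ∉ {q | q ∉ π} := fun h => h hpπ
    obtain ⟨e, he, hiff⟩ := exists_isMaxPair_pt_iff hM hp hB hBD hB₁
    have hDH : D₀ ≤ H₀ := hH₀ ▸ le_sup_left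
    have hCH : Subgroup.centralizer (D₀ : Set G) ≤ H₀ := hH₀ ▸ le_sup_right
    have hHN : H₀ ≤ Subgroup.normalizer (D₀ : Set G) :=
      hH₀ ▸ sup_le Subgroup.le_normalizer (centralizer_le_normalizer' D₀)
    have hbr : br D₀ (epsIn M H₀ b) = epsIn M H₀ b :=
      br_eq_self_of_idem_ZA hD₀ hDH le_rfl hHN (epsIn_mem_ZA _ _) hb.1.isPrim_epsIn.idem
    obtain ⟨c, hc, h1, h2⟩ := exists_root hM hb.1 hD₀ hDH hCH
      (by rw [hbr]; exact hb.1.isPrim_epsIn.ne_zero)
    have h3 := ((isInducedBlock_centralizer_iff hM hD₀).1 ((h2 B).1 hb)).2.2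
    have h4 : Triv (piCoreOf {q | q ∉ π} (Subgroup.centralizer (D₀ : Set G))) (epsIn M H₀ b) := by
      refine (triv_epsIn_iff hM ((piCoreOf_le _).trans hCH)
        (hHN.trans ((normalizer_le_normalizer_centralizer D₀).trans
          (normalizer_le_normalizer_piCoreOf _))) (not_dvd_card_piCoreOf hp _) hb.1).2 ?_
      rintro x ⟨y, hy, hxy⟩ θ hθ
      exact hkerb y hy θ hθ x hxy.symm
    have h5 : PT {q | q ∉ π} D₀ (epsIn M _ c) := by
      rw [hbr] at h1
      exact h1 ▸ h4.mul _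
    have h6 : HallC {q | q ∉ π} D₀ := fun x hx hσ =>
      ⟨⟨x, hx⟩, hcompl ⟨x, hx⟩ fun q hq hd => hσ q hq (by rwa [Subgroup.orderOf_mk] at hd), rfl⟩
    exact hiff.1 (h5.isMaxPair hp hB.isPrim_ZA_top he ⟨isPair_epsIn hD₀ hc, le_top, h3⟩ h6)

end Cfsg.Agent.S4728
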