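import Mathlib
import Cfsg.Statements.S4729
import Cfsg.Agent.Blk.Idem
import Cfsg.Agent.Ch.Det
import Cfsg.Agent.Ch.GlaubBase
import Cfsg.Agent.Ch.Linear

set_option autoImplicit false
open Cfsg

namespace Cfsg.Agent.S4729

set_option linter.unusedVariables false
set_option linter.style.haveILetI false

section
open Cfsg.Agent.Blk Cfsg.Agent.Ch

theorem not_dvd_index_centralizer {G : Type*} [Group G] [Finite G] {p : ℕ} [Fact p.Prime]
    (P : Sylow p G) {z : G} (hz : z ∈ Subgroup.centralizer ((P : Subgroup G) : Set G)) :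
    ¬ p ∣ (Subgroup.centralizer ({z} : Set G)).index := fun h =>
  P.not_dvd_index (h.trans (Subgroup.index_dvd_of_le fun u hu =>
    Subgroup.mem_centralizer_singleton_iff.2 (hz u hu)))

end

/-- Let p be a prime, M a maximal ideal of the algebraic integers containing p, G a finite perfect group and P a Sylow p-subgroup. If the principal p-block of G contains a faithful irreducible character of degree less than 2p, then the centralizer of P is a p-group. -/
theorem result {G : Type*} [Group G] [Finite G] (p : ℕ) [Fact p.Prime] (M : Ideal Cfsg.AlgInt) (hM : Cfsg.IsPModular p M) (hperf : commutator G = ⊤) (P : Sylow p G) (χ : Cfsg.IrrCharacter G) (hχ : χ ∈ Cfsg.principalBlock M G) (hfaith : ∀ g : G, (χ : G → ℂ) g = (χ : G → ℂ) 1 → g = 1) (hdeg : Cfsg.charDegree (χ : G → ℂ) < 2 * p) : IsPGroup p ↥(Subgroup.centralizer ((P : Subgroup G) : Set G)) := by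
  open Cfsg.Agent.Blk Cfsg.Agent.Ch in
  · classical
    haveI := hM.isMaximal
    have hp : p.Prime := Fact.out
    by_contra hnot
    obtain ⟨q, hq, hqd, hqp⟩ : ∃ q : ℕ, q.Prime ∧
        q ∣ Nat.card (Subgroup.centralizer ((P : Subgroup G) : Set G)) ∧ q ≠ p := by
      by_contra h
      push Not at h
      exact hnot (IsPGroup.of_card (Nat.eq_prime_pow_of_unique_prime_dvd Nat.card_pos.ne'
        fun hq hd => h _ hq hd))
    haveI := Fact.mk hq
    obtain ⟨y, hy⟩ := exists_prime_orderOf_dvd_card' q hqd
    set Y : Subgroup G := Subgroup.zpowers (y : G) with hY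
    haveI := Fintype.ofFinite Y
    have hYc : Nat.card Y = q := by rw [hY, Nat.card_zpowers, Subgroup.orderOf_coe, hy]
    have hpq : ¬ p ∣ Nat.card Y := by
      rw [hYc, Nat.prime_dvd_prime_iff_eq hp hq]; exact hqp.symm
    have hYle : Y ≤ Subgroup.centralizer ((P : Subgroup G) : Set G) :=
      (Subgroup.zpowers_le).2 y.2
    have hcomm : ∀ a b : Y, a * b = b * a := fun a b => mul_comm' a b
    have h0 := χ.2.apply_one_ne_zero
    have h1 : ∀ w ∈ Y, MemLocalIdeal M ((χ : G → ℂ) w / (χ : G → ℂ) 1 - 1) := fun w hw => by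
      have h4 := (hχ w).symm.mul_left (hM.inv_natCast_mem (not_dvd_index_centralizer P (hYle hw)))
      have h5 : ((Subgroup.centralizer ({w} : Set G)).index : ℂ) ≠ 0 :=
        Nat.cast_ne_zero.2 Subgroup.index_ne_zero_of_finite
      convert h4 using 1
      rw [centralChar, centralChar]; field_simp
    obtain ⟨m, hm, hsum⟩ := (χ.isCharacter.restrict Y).exists_mult
    have hlin : ∀ l : IrrCharacter Y, (l : Y → ℂ) 1 = 1 := fun l =>
      l.2.apply_one_eq_one_of_comm hcomm
    have hdvd : ∀ l : IrrCharacter Y, l ≠ irrOne Y → p ∣ m l := fun l hl => by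
      rw [← hM.natCast_mem_iff, ← hm l]
      have h2 : classInner (irrOne Y : Y → ℂ) (l : Y → ℂ) = 0 := by
        rw [classInner_irr, if_neg hl.symm]
      have h3 : classInner (fun w : Y => (χ : G → ℂ) w) (l : Y → ℂ) = (χ : G → ℂ) 1 *
          ((Nat.card Y : ℂ)⁻¹ * ∑ w : Y, ((χ : G → ℂ) w / (χ : G → ℂ) 1 - 1) *
            (starRingEnd ℂ) ((l : Y → ℂ) w)) := by
        rw [classInner_def] at h2 ⊢
        simp only [coe_irrOne] at h2
        simp only [sub_mul, Finset.sum_sub_distrib, mul_sub, h2, sub_zero]
        rw [Finset.mul_sum, Finset.mul_sum, Finset.mul_sum]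
        exact Finset.sum_congr rfl fun w _ => by field_simp
      rw [h3]
      exact MemLocalIdeal.mul_left (memLocalRing_irr χ 1) (MemLocalIdeal.mul_left
        (hM.inv_natCast_mem hpq) (MemLocalIdeal.sum fun w _ =>
          (h1 w w.2).mul_right (memLocalRing_conj_irr l w)))
    have hdeg' : charDegree (χ : G → ℂ) = ∑ l, m l := by
      apply charDegree_of_apply_one
      have := congrFun hsum 1
      rw [Finset.sum_apply] at this
      simp only [OneMemClass.coe_one] at this
      rw [this]; push_cast
      exact Finset.sum_congr rfl fun l _ => by rw [Pi.smul_apply, hlin, nsmul_eq_mul, mul_one]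
    have hdet : ∀ w : Y, ∏ l : IrrCharacter Y, (l : Y → ℂ) w ^ m l = 1 := fun w => by
      obtain ⟨f, hf⟩ := χ.isCharacter.exists_detHom
      have h2 : f w = 1 := by
        have : commutator G ≤ f.ker := Abelianization.commutator_subset_ker f
        exact this (hperf ▸ Subgroup.mem_top _)
      have h3 := χ.isCharacter.detChar_restrict Y w
      rw [hf] at h3
      simp only [h2, Units.val_one] at h3
      rw [← h3, hsum, Glb.detChar_sum _ _ fun l _ => l.isCharacter.nsmul _]
      refine Finset.prod_congr rfl fun l _ => ?_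
      rw [l.isCharacter.detChar_nsmul, l.isCharacter.detChar_of_apply_one (hlin l)]
    have hzero : ∀ l : IrrCharacter Y, l ≠ irrOne Y → m l = 0 := fun l hl => by
      by_contra hne
      have h2 : p ≤ m l := Nat.le_of_dvd (Nat.pos_of_ne_zero hne) (hdvd l hl)
      have h3 : ∀ l', l' ≠ l → l' ≠ irrOne Y → m l' = 0 := fun l' h' hl' => by
        by_contra hne'
        have h4 : p ≤ m l' := Nat.le_of_dvd (Nat.pos_of_ne_zero hne') (hdvd l' hl')
        have h5 : m l + m l' ≤ ∑ l, m l := by
          rw [← Finset.sum_pair h'.symm]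
          exact Finset.sum_le_sum_of_subset (Finset.subset_univ _)
        omega
      have h4 : m l = p := by
        obtain ⟨c, hc⟩ := hdvd l hl
        have h5 : m l ≤ ∑ l, m l :=
          Finset.single_le_sum (fun _ _ => Nat.zero_le _) (Finset.mem_univ l)
        have h6 : c < 2 := by
          by_contra h7
          have : p * 2 ≤ p * c := Nat.mul_le_mul_left _ (not_lt.1 h7)
          omega
        have h7 : c ≠ 0 := by rintro rfl; exact hne (by simpa using hc)
        have : c = 1 := by omega
        rw [hc, this, mul_one]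
      apply hl
      refine Subtype.ext (funext fun w => ?_)
      have h5 := hdet w
      rw [Finset.prod_eq_single l (fun l' _ h' => ?_) (by simp), h4] at h5
      · obtain ⟨f, hf⟩ := l.isCharacter.exists_detHom
        rw [l.isCharacter.detChar_of_apply_one (hlin l)] at hf
        have h6 : (l : Y → ℂ) w ^ Nat.card Y = 1 := by
          rw [hf, ← Units.val_pow_eq_pow_val, ← map_pow, pow_card_eq_one', map_one, Units.val_one]
        have h7 := (Nat.Prime.coprime_iff_not_dvd hp).2 hpq
        have h8 := (pow_gcd_eq_one).2 ⟨h5, h6⟩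
        rw [h7.gcd_eq_one, pow_one] at h8
        exact h8
      · by_cases h : l' = irrOne Y
        · rw [h]; simp
        · rw [h3 l' h' h, pow_zero]
    have h9 : ∀ w : Y, (χ : G → ℂ) w = m (irrOne Y) := fun w => by
      have := congrFun hsum w
      rw [this, Finset.sum_apply, Finset.sum_eq_single (irrOne Y)]
      · simp
      · intro l _ hl; rw [hzero l hl]; simp
      · simp
    have h10 := hfaith y ((h9 ⟨y, Subgroup.mem_zpowers _⟩).trans (h9 1).symm)
    rw [OneMemClass.coe_eq_one] at h10
    rw [h10, orderOf_one] at hy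
    exact hq.one_lt.ne hy

end Cfsg.Agent.S4729
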