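import Mathlib
import Cfsg.Statements.S4732
import Cfsg.Agent.FG.JordanFan3

set_option autoImplicit false
universe u v
open Cfsg

namespace Cfsg.Agent.S4732

set_option linter.unusedVariables false
set_option linter.style.haveILetI false

/-- Let p be a prime. There is a function f of two natural-number arguments such that every finite group G admitting a faithful representation of degree n over a field of characteristic p, with Sylow p-subgroups of order p^m, has a normal abelian subgroup A with [G : A] < f(m, n). -/
theorem result (p : ℕ) [Fact p.Prime] : ∃ f : ℕ → ℕ → ℕ, ∀ (G : Type u) [Group G] [Finite G] (F : Type v) [Field F] [CharP F p] (n : ℕ) (ρ : Representation F G (Fin n → F)), Function.Injective ρ → ∀ m : ℕ, (Nat.card G).factorization p = m → ∃ A : Subgroup G, A.Normal ∧ IsMulCommutative A ∧ A.index < f m n := by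
  choose N hN using Cfsg.Agent.FG.JF.brauer_feit.{u, v} p
  refine ⟨fun m n => N m n + 1, fun G _ _ F _ _ n ρ hρ m hm => ?_⟩
  obtain ⟨A, h1, h2, -, h3⟩ := hN m n G F
    ((Units.map (LinearMap.toMatrixAlgEquiv' (R := F) (n := Fin n)).toMonoidHom).comp
      ρ.toHomUnits) (fun a b h => hρ ((LinearMap.toMatrixAlgEquiv' (R := F) (n := Fin n)).injective
        (congrArg Units.val h))) hm
  exact ⟨A, h1, h2, Nat.lt_succ_of_le h3⟩

end Cfsg.Agent.S4732
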