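import Mathlib
import Cfsg.Statements.S4734
import Cfsg.Agent.Blk.PairKer

set_option autoImplicit false
open Cfsg

namespace Cfsg.Agent.S4734

set_option linter.unusedVariables false

/-- Let p be a prime, π a set of primes containing p, M a maximal ideal of the algebraic integers containing p, B a p-block of the finite group G with defect group D, and B₁ the block of N_G(D) with defect group D inducing B. Write O_π'(X) for the largest normal subgroup of X whose order has no prime divisor in π, and suppose every element of O_π'(N_G(D)) lies in the kernel of every member of B₁. Let G₀ be a subgroup and B₀ a block of G₀ with defect group D₀ such that C_G(D₀) ≤ G₀ and B₀ induces B. Then every element of O_π'(G₀) lies in the kernel of every member of B₀. -/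
theorem result {G : Type*} [Group G] [Finite G] (p : ℕ) [Fact p.Prime] (M : Ideal Cfsg.AlgInt) (hM : Cfsg.IsPModular p M) (π : Set ℕ) (hpπ : p ∈ π) (B : Set (Cfsg.IrrCharacter G)) (hB : Cfsg.IsPBlock M B) (D : Subgroup G) (hBD : Cfsg.IsDefectGroup p M B D) (B₁ : Set (Cfsg.IrrCharacter ↥(Subgroup.normalizer (D : Set G)))) (hB₁ : Cfsg.IsInducedBlock M (Subgroup.normalizer (D : Set G)) B₁ B) (hB₁D : Cfsg.IsDefectGroup p M B₁ (D.subgroupOf (Subgroup.normalizer (D : Set G)))) (hker : ∀ n : ↥(Subgroup.normalizer (D : Set G)), n ∈ Cfsg.piCore {q | q ∉ π} ↥(Subgroup.normalizer (D : Set G)) → n ∈ Cfsg.blockKer B₁) (G₀ : Subgroup G) (B₀ : Set (Cfsg.IrrCharacter ↥G₀)) (hB₀ : Cfsg.IsInducedBlock M G₀ B₀ B) (D₀ : Subgroup ↥G₀) (hD₀ : Cfsg.IsDefectGroup p M B₀ D₀) (hC : Subgroup.centralizer ((D₀.map G₀.subtype : Subgroup G) : Set G) ≤ G₀) : ∀ x : ↥G₀, x ∈ Cfsg.piCore {q | q ∉ π} ↥G₀ → x ∈ Cfsg.blockKer B₀ := by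
  open Cfsg.Agent.GT Cfsg.Agent.Blk Cfsg.Agent.Blk.Mod Cfsg.Agent.Blk.PD Cfsg.Agent.Blk.PK in
  · haveI := hM.isMaximal
    haveI := hM.charP
    have hp : p ∉ {q | q ∉ π} := fun h => h hpπ
    obtain ⟨e, he, hiff⟩ := exists_isMaxPair_pt_iff hM hp hB hBD hB₁
    have hdef := (hB₀.1.isDefectGroup_iff_isDef_map hM).1 hD₀
    obtain ⟨c, hc, h1, h2⟩ := exists_root hM hB₀.1 hdef.pgroup hdef.le hC hdef.br_ne
    have h3 := ((isInducedBlock_centralizer_iff hM hdef.pgroup).1 ((h2 B).1 hB₀)).2.2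
    have h4 : PT {q | q ∉ π} (D₀.map G₀.subtype) (epsIn M _ c) :=
      (hiff.2 hker).of_isMaxPair hp hB.isPrim_ZA_top he ⟨isPair_epsIn hdef.pgroup hc, le_top, h3⟩
    refine (triv_piCoreOf_iff hM hp hB₀.1).1 ?_
    exact triv_of_br (not_dvd_card_piCoreOf hp _) hdef.pgroup
      (hdef.le.trans (le_normalizer_piCoreOf _)) hB₀.1.isPrim_epsIn
      (avg_mem_ZA (piCoreOf_le _) (le_normalizer_piCoreOf _))
      (Fix_anti hdef.le (mem_ZA.1 (epsIn_mem_ZA _ _)).2) h1 (isPair_epsIn hdef.pgroup hc).ne_zero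
      (Triv.mono h4 (piCoreOf_inf_le hC))

end Cfsg.Agent.S4734
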