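import Mathlib
import Cfsg.Statements.S4735
import Cfsg.Agent.Blk.Quot
import Cfsg.Agent.Blk.PB0
import Cfsg.Agent.Blk.BlockOrth
import Cfsg.Agent.Ch.GaloisC
import Cfsg.Agent.GT.PPrimeCore

set_option autoImplicit false
open Cfsg

namespace Cfsg.Agent.S4735

theorem exists_nat {G : Type*} [Group G] [Finite G] {p : ℕ} {M : Ideal Cfsg.AlgInt}
    (hM : Cfsg.IsPModular p M) (x : G) : ∃ n : ℕ, 0 < n ∧
      ∑ᶠ χ ∈ Cfsg.principalBlock M G, Complex.normSq ((χ : G → ℂ) x) = n := by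
  classical
  have := hM.isMaximal
  rw [Agent.Blk.finsum_mem_irr]
  set t : ℝ := ∑ χ : IrrCharacter G,
    if χ ∈ Cfsg.principalBlock M G then Complex.normSq ((χ : G → ℂ) x) else 0 with ht
  have h1 : (t : ℂ) = ∑ χ : IrrCharacter G,
      if χ ∈ Cfsg.principalBlock M G then (χ : G → ℂ) x * (χ : G → ℂ) x⁻¹ else 0 := by
    rw [ht, Complex.ofReal_sum]
    refine Finset.sum_congr rfl fun χ _ => ?_
    split_ifs
    · rw [χ.2.isCharacter.apply_inv, Complex.mul_conj]
    · simp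
  obtain ⟨n, hn⟩ := Agent.Ch.galois_exists_int_of_fixed (x := (t : ℂ)) (by
      rw [h1]
      refine IsIntegral.sum _ fun χ _ => ?_
      split_ifs
      · exact (χ.2.isCharacter.isIntegral _).mul (χ.2.isCharacter.isIntegral _)
      · exact isIntegral_zero) (fun σ => by
      rw [h1, map_sum]
      refine Fintype.sum_equiv (Agent.Ch.galoisIrr G σ) _ _ fun χ => ?_
      have := Agent.Blk.P0.mem_iff_of_galois hM (χ := χ) (ψ := Agent.Ch.galoisIrr G σ χ)
        (σ : ℂ →+* ℂ) (fun y => Agent.Ch.galoisIrr_apply σ χ y)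
      by_cases h : χ ∈ Cfsg.principalBlock M G
      · rw [if_pos h, if_pos (this.2 h), map_mul, Agent.Ch.galoisIrr_apply,
          Agent.Ch.galoisIrr_apply]
      · rw [if_neg h, if_neg (mt this.1 h), map_zero])
  have h2 : (n : ℝ) = t := by exact_mod_cast hn
  have h3 : (1 : ℝ) ≤ t := by
    have := Finset.single_le_sum (f := fun χ : IrrCharacter G =>
      if χ ∈ Cfsg.principalBlock M G then Complex.normSq ((χ : G → ℂ) x) else 0)
      (fun χ _ => by
        split_ifs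
        · exact Complex.normSq_nonneg _
        · exact le_rfl) (Finset.mem_univ (Agent.Ch.irrOne G))
    simpa [Agent.Blk.irrOne_mem_principalBlock] using this
  have h4 : (1 : ℤ) ≤ n := by exact_mod_cast h2 ▸ h3
  refine ⟨n.toNat, by omega, ?_⟩
  rw [← h2]
  exact_mod_cast (Int.toNat_of_nonneg (by omega : 0 ≤ n)).symm

/-- Let p be a prime, M a maximal ideal of the algebraic integers containing p, G a finite group, H = O_p'(G) and Ḡ = G/H. For x ∈ G write λ(G, x) for the sum of |χ(x)|^2 over the irreducible characters χ in the principal p-block of G. Then λ(G, x) is a positive integer, λ(G, x) = λ(Ḡ, x̄) where x̄ is the image of x, and λ(G, x) ≤ #C_Ḡ(x̄). Moreover λ(G, 1) = [G : H] if and only if the principal block is the only p-block of Ḡ. -/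
theorem result {G : Type*} [Group G] [Finite G] (p : ℕ) [Fact p.Prime] (M : Ideal Cfsg.AlgInt) (hM : Cfsg.IsPModular p M) (x : G) : (∃ n : ℕ, 0 < n ∧ ∑ᶠ χ ∈ Cfsg.principalBlock M G, Complex.normSq ((χ : G → ℂ) x) = n) ∧ ∑ᶠ χ ∈ Cfsg.principalBlock M G, Complex.normSq ((χ : G → ℂ) x) = ∑ᶠ ψ ∈ Cfsg.principalBlock M (G ⧸ Cfsg.pPrimeCore p G), Complex.normSq ((ψ : G ⧸ Cfsg.pPrimeCore p G → ℂ) (QuotientGroup.mk x)) ∧ ∑ᶠ χ ∈ Cfsg.principalBlock M G, Complex.normSq ((χ : G → ℂ) x) ≤ (Nat.card ↥(Subgroup.centralizer ({(QuotientGroup.mk x : G ⧸ Cfsg.pPrimeCore p G)} : Set (G ⧸ Cfsg.pPrimeCore p G))) : ℝ) ∧ ((∑ᶠ χ ∈ Cfsg.principalBlock M G, Cfsg.charDegree (χ : G → ℂ) ^ 2) = (Cfsg.pPrimeCore p G).index ↔ ∀ B : Set (Cfsg.IrrCharacter (G ⧸ Cfsg.pPrimeCore p G)), Cfsg.IsPBlock M B → B = Cfsg.principalBlock M (G ⧸ Cfsg.pPrimeCore p G)) := by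
  classical
  have := hM.isMaximal
  have hφ := QuotientGroup.mk'_surjective (Cfsg.pPrimeCore p G)
  have hk : ¬ p ∣ Nat.card (QuotientGroup.mk' (Cfsg.pPrimeCore p G)).ker := by
    rw [QuotientGroup.ker_mk']
    exact Agent.GT.not_dvd_card_pPrimeCore Fact.out
  have him := Agent.Blk.image_infl_principalBlock hM hφ hk
  have key : ∀ {α : Type} [AddCommMonoid α] (f : IrrCharacter G → α),
      ∑ᶠ χ ∈ Cfsg.principalBlock M G, f χ =
        ∑ᶠ ψ ∈ Cfsg.principalBlock M (G ⧸ Cfsg.pPrimeCore p G),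
          f (Agent.Blk.infl _ hφ ψ) := fun f => by
    rw [← him, finsum_mem_image (Agent.Blk.infl_injective hφ).injOn]
  have h2 : ∑ᶠ χ ∈ Cfsg.principalBlock M G, Complex.normSq ((χ : G → ℂ) x) =
      ∑ᶠ ψ ∈ Cfsg.principalBlock M (G ⧸ Cfsg.pPrimeCore p G),
        Complex.normSq ((ψ : G ⧸ Cfsg.pPrimeCore p G → ℂ) (QuotientGroup.mk x)) := by
    rw [key]
    simp only [Agent.Blk.infl_apply, QuotientGroup.mk'_apply]
  refine ⟨exists_nat hM x, h2, ?_, ?_⟩
  · rw [h2, Agent.Blk.finsum_mem_irr, ← Agent.Ch.sum_irr_norm_sq]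
    refine Finset.sum_le_sum fun ψ _ => ?_
    split_ifs
    · rw [Complex.normSq_eq_norm_sq]
    · positivity
  · have h3 : ∀ ψ : IrrCharacter (G ⧸ Cfsg.pPrimeCore p G),
        charDegree ((Agent.Blk.infl _ hφ ψ : IrrCharacter G) : G → ℂ) =
          charDegree (ψ : G ⧸ Cfsg.pPrimeCore p G → ℂ) := fun ψ => by
      rw [(Agent.Blk.infl _ hφ ψ).2.isCharacter.charDegree_eq_iff, Agent.Blk.infl_apply, map_one,
        ψ.2.coe_charDegree]
    rw [key, Agent.Blk.finsum_mem_irr, Subgroup.index, ← Agent.Ch.sum_sq_charDegree]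
    simp only [h3]
    constructor
    · intro h B hB
      obtain ⟨ψ, hψ⟩ := hB.nonempty
      refine hB.eq_of_mem Agent.Blk.isPBlock_principalBlock hψ ?_
      by_contra hn
      refine absurd h (Finset.sum_lt_sum (fun χ _ => ?_) ⟨ψ, Finset.mem_univ _, ?_⟩).ne
      · split_ifs
        · exact le_rfl
        · exact Nat.zero_le _
      · rw [if_neg hn]
        exact pow_pos ψ.2.charDegree_pos 2
    · intro h
      refine Finset.sum_congr rfl fun ψ _ => if_pos ?_
      rw [← h _ (Agent.Blk.isPBlock_blockOf ψ)]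
      exact Agent.Blk.mem_blockOf_self ψ

end Cfsg.Agent.S4735
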