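import Mathlib
import Cfsg.Statements.S4736
import Cfsg.Agent.Blk.PSolvPB

set_option autoImplicit false
open Cfsg

namespace Cfsg.Agent.S4736

open Cfsg.Agent.Ch Cfsg.Agent.Blk.Om

/-- Let p be a prime, M a maximal ideal of the algebraic integers containing p, and G a finite p-solvable group with Sylow p-subgroup P. Then P is abelian if and only if every irreducible character in the principal p-block of G has height zero. -/
theorem result {G : Type*} [Group G] [Finite G] (p : ℕ) [Fact p.Prime] (M : Ideal Cfsg.AlgInt) (hM : Cfsg.IsPModular p M) (hsolv : Cfsg.IsPSolvable p G) (P : Sylow p G) : IsMulCommutative P ↔ ∀ χ ∈ Cfsg.principalBlock M G, Cfsg.blockHeight p (Cfsg.principalBlock M G) (χ : G → ℂ) = 0 := by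
  haveI := hM.isMaximal
  constructor
  · intro hP χ hχ
    have h := blockHeight_le_of_isPSolvable hM _ G rfl hsolv isPBlock_principal
      (Blk.isDefectGroup_principalBlock hM P) χ hχ
    have hc : Subgroup.center (P : Subgroup G) = ⊤ := by
      rw [eq_top_iff]
      intro a _
      rw [Subgroup.mem_center_iff]
      intro b
      exact hP.is_comm.comm b a
    rw [hc, Subgroup.index_top] at h
    simpa using h
  · intro h
    have hsurj := QuotientGroup.mk'_surjective (pPrimeCore p G)
    have hq := Deg.ito_comm (hsolv.quotient (pPrimeCore p G)) (fun ψ hψ => by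
      have h1 := (mem_principal_iff_of_isPConstrained hM hsolv.isPConstrained
        ⟨_, hψ.comp_mk⟩).2 (le_charKer_comp_mk _ ψ)
      exact (blockHeight_principal_eq_zero_iff hM _).1 (h _ h1)) (P.mapSurjective hsurj)
    refine ⟨⟨fun a b => Subtype.ext ?_⟩⟩
    refine eq_of_map_eq_of_coprime GT.coprime_card_ker_mk'_pPrimeCore P.isPGroup'
      (a * b).2 (b * a).2 ?_
    have := hq ⟨_, Subgroup.mem_map_of_mem _ a.2⟩ ⟨_, Subgroup.mem_map_of_mem _ b.2⟩
    have := congrArg Subtype.val this
    simpa using this

end Cfsg.Agent.S4736
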