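import Cfsg.Statements.S4955
import Cfsg.Agent.Deg.KGV
import Cfsg.Agent.Deg.Basic
import Cfsg.Agent.Ch.Galois
import Cfsg.Agent.Ch.Quotient
import Cfsg.Agent.Ch.Integrality
-- import your own Cfsg.Agent.* helpers here

set_option autoImplicit false
open Cfsg

namespace Cfsg.Agent.S4955

open Cfsg.Agent.Ch Cfsg.Agent.Deg
open scoped ComplexConjugate

/-- Let X be a finite group with an abelian normal Sylow p-subgroup V (a normal p-subgroup of index prime to p in which any two elements commute), and let G be a complement to V in X. Then for every v in V, writing C for the centralizer of v in G, the number k(X) of conjugacy classes of X satisfies k(X) ≤ (order of C)·(order of V) − ((order of G) − k(G)); the statement is written with the subtracted term moved to the left. In particular, if some v in V is centralized by no nonidentity element of G, then k(X) is at most the order of V. -/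
theorem result {X : Type*} [Group X] [Finite X] (p : ℕ) [Fact p.Prime] (V : Subgroup X) [V.Normal] (hVp : IsPGroup p V) (hidx : ¬ p ∣ V.index) (hab : ∀ a ∈ V, ∀ b ∈ V, a * b = b * a) (G : Subgroup X) (hGV : Subgroup.IsComplement' V G) (v : X) (hv : v ∈ V) : Nat.card (ConjClasses X) + Nat.card G ≤ Nat.card ↥(G ⊓ Subgroup.centralizer ({v} : Set X)) * Nat.card V + Nat.card (ConjClasses G) := by
  classical
  have hp : p.Prime := Fact.out
  obtain ⟨k, hk⟩ := hVp ⟨v, hv⟩
  have hk' : v ^ p ^ k = 1 := congrArg Subtype.val hk
  have h1 := sum_irr_norm_sq v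
  rw [card_centralizer_of_mem hab hGV hv, ← Finset.sum_filter_add_sum_filter_not Finset.univ
    (fun χ : IrrCharacter X => V ≤ charKer χ.1)] at h1
  have h2 : ∑ χ : IrrCharacter X with V ≤ charKer χ.1, ‖(χ : X → ℂ) v‖ ^ 2 = Nat.card G := by
    rw [← hGV.symm.index_eq_card, ← sum_irr_le_charKer_sq V, Nat.cast_sum]
    refine Finset.sum_congr rfl fun χ hχ => ?_
    rw [apply_eq_of_mem_charKer ((Finset.mem_filter.1 hχ).2 hv), χ.2.isCharacter.norm_apply_one, Nat.cast_pow]
  have h3 := (galois_card_le_sum_irr_norm_sq
    (Finset.univ.filter fun χ : IrrCharacter X => ¬ V ≤ charKer χ.1)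
    (fun χ hχ σ => by simpa only [Finset.mem_filter, Finset.mem_univ, true_and,
      charKer_galoisIrr] using hχ) v fun χ _ => χ.2.isCharacter.apply_ne_zero_of_not_dvd hp hk'
      fun h => hidx (h.trans (χ.2.charDegree_dvd_index_of_comm V hab))).1
  have h4 : (Finset.univ.filter fun χ : IrrCharacter X => V ≤ charKer χ.1).card =
      Nat.card (ConjClasses G) := by
    rw [FG.card_conjClasses_congr hGV.symm.QuotientMulEquiv.symm, ← card_irr,
      Nat.card_congr (irrQuotientEquiv V), Nat.card_eq_fintype_card, Fintype.card_subtype]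
  have h5 := Finset.card_filter_add_card_filter_not (s := Finset.univ)
    (fun χ : IrrCharacter X => V ≤ charKer χ.1)
  rw [h4, Finset.card_univ, fintype_card_irr] at h5
  rw [h2] at h1
  have h6 : ((Nat.card (ConjClasses X) + Nat.card G : ℕ) : ℝ) ≤
      (Nat.card V * Nat.card ↥(G ⊓ Subgroup.centralizer ({v} : Set X)) : ℕ) +
        Nat.card (ConjClasses G) := by
    rw [← h5, ← h1]; push_cast; linarith
  rw [mul_comm]
  exact_mod_cast h6

end Cfsg.Agent.S4955
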