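import Cfsg.Statements.S4956
import Cfsg.Agent.Deg.KGV
import Cfsg.Agent.Deg.Basic
-- import your own Cfsg.Agent.* helpers here

set_option autoImplicit false
open Cfsg

namespace Cfsg.Agent.S4956

open Cfsg.Agent.Ch Cfsg.Agent.Deg
open scoped ComplexConjugate

/-- Let X be a finite group, V an abelian normal subgroup of X (any two elements of V commute) and G a complement to V in X whose order is coprime to that of V. Let S be a set of representatives of the orbits of G on V under conjugation: S lies in V and every element of V is conjugate under G to exactly one member of S. Then the number of conjugacy classes of X equals the sum, over s in S, of the number of conjugacy classes of the centralizer of s in G. -/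
theorem result {X : Type*} [Group X] [Finite X] (V : Subgroup X) [V.Normal] (hab : ∀ a ∈ V, ∀ b ∈ V, a * b = b * a) (G : Subgroup X) (hGV : Subgroup.IsComplement' V G) (hcop : (Nat.card V).Coprime (Nat.card G)) (S : Finset X) (hSV : ∀ s ∈ S, s ∈ V) (hrep : ∀ v ∈ V, ∃! s, s ∈ S ∧ ∃ g ∈ G, g * v * g⁻¹ = s) : Nat.card (ConjClasses X) = ∑ s ∈ S, Nat.card (ConjClasses ↥(G ⊓ Subgroup.centralizer ({s} : Set X))) := by
  classical
  have := Fintype.ofFinite X
  have hG0 : 0 < Nat.card G := Nat.card_pos
  refine Nat.eq_of_mul_eq_mul_right hG0 ?_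
  choose! r hr using fun v hv => (hrep v hv).exists
  rw [card_conjClasses_mul_eq hab hGV hcop, Finset.sum_mul,
    ← Finset.sum_fiberwise_of_maps_to (t := S) (g := r) fun v hv => (hr v (Finset.mem_filter.1 hv).2).1]
  refine Finset.sum_congr rfl fun s hs => ?_
  have h1 : ∀ c, c ∈ (Finset.univ.filter (· ∈ V)).filter (r · = s) ↔ ∃ g ∈ G, g * s * g⁻¹ = c := by
    intro c
    simp only [Finset.mem_filter, Finset.mem_univ, true_and]
    constructor
    · rintro ⟨hc, rfl⟩
      obtain ⟨g, hg, h⟩ := (hr c hc).2
      exact ⟨g⁻¹, inv_mem hg, by rw [← h]; group⟩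
    · rintro ⟨g, hg, rfl⟩
      have hc := ‹V.Normal›.conj_mem s (hSV s hs) g
      exact ⟨hc, (hrep _ hc).unique (hr _ hc) ⟨hs, g⁻¹, inv_mem hg, by group⟩⟩
  have h2 : ∀ c ∈ (Finset.univ.filter (· ∈ V)).filter (r · = s),
      Nat.card (ConjClasses (G ⊓ Subgroup.centralizer ({c} : Set X) : Subgroup X)) *
        Nat.card (G ⊓ Subgroup.centralizer ({c} : Set X) : Subgroup X) =
      Nat.card (ConjClasses (G ⊓ Subgroup.centralizer ({s} : Set X) : Subgroup X)) *
        Nat.card (G ⊓ Subgroup.centralizer ({s} : Set X) : Subgroup X) := by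
    intro c hc
    obtain ⟨g, hg, rfl⟩ := (h1 c).1 hc
    have h3 : (G ⊓ Subgroup.centralizer ({s} : Set X)).map (MulAut.conj g).toMonoidHom =
        G ⊓ Subgroup.centralizer ({g * s * g⁻¹} : Set X) := by
      ext x
      simp only [Subgroup.mem_map, Subgroup.mem_inf, FG.mem_centralizer_single]
      constructor
      · rintro ⟨y, ⟨h4, h5⟩, rfl⟩
        refine ⟨mul_mem (mul_mem hg h4) (inv_mem hg), ?_⟩
        simp only [MulEquiv.coe_toMonoidHom, MulAut.conj_apply]
        rw [conj_mul, conj_mul, h5]
      · rintro ⟨h4, h5⟩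
        refine ⟨g⁻¹ * x * g, ⟨mul_mem (mul_mem (inv_mem hg) h4) hg, ?_⟩, by simp [mul_assoc]⟩
        calc g⁻¹ * x * g * s = g⁻¹ * (x * (g * s * g⁻¹)) * g := by group
          _ = _ := by rw [h5]; group
    have e := ((G ⊓ Subgroup.centralizer ({s} : Set X)).equivMapOfInjective _
      (MulAut.conj g).injective).trans (MulEquiv.subgroupCongr h3)
    rw [FG.card_conjClasses_congr e, Nat.card_congr e.toEquiv]
  rw [Finset.sum_congr rfl h2, Finset.sum_const, smul_eq_mul, mul_left_comm,
    FG.card_eq_relIndex_mul_card_inf (Subgroup.centralizer ({s} : Set X)) G,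
    ← FG.ncard_conj_orbit_subgroup, inf_comm (Subgroup.centralizer ({s} : Set X)),
    ← Set.ncard_coe_finset]
  congr 3
  exact Set.ext h1

end Cfsg.Agent.S4956
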