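import Cfsg.Statements.S4958
import Cfsg.Agent.Deg.KnorrB

set_option autoImplicit false
open Cfsg

namespace Cfsg.Agent.S4958

/-- Let X be a finite group and V a normal subgroup of X in which every element has order dividing the prime p, whose index in X is prime to p and which is its own centralizer in X; so V is an elementary abelian normal Sylow p-subgroup, and any complement G to V in X is a group of order prime to p acting faithfully on the vector space V by conjugation (the coprime linear setting of the k(GV) problem). Let G be a complement to V in X and suppose that for some v in V the centralizer of v in G is abelian. Then the number of conjugacy classes of X is at most the order of V (the abelian-stabilizer criterion for the k(GV) problem). -/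
theorem result {X : Type*} [Group X] [Finite X] (p : ℕ) [Fact p.Prime] (V : Subgroup X) [V.Normal] (hVexp : ∀ v ∈ V, v ^ p = 1) (hidx : ¬ p ∣ V.index) (hself : Subgroup.centralizer (V : Set X) = V) (G : Subgroup X) (hGV : Subgroup.IsComplement' V G) (v : X) (hv : v ∈ V) (hab : ∀ a ∈ G ⊓ Subgroup.centralizer ({v} : Set X), ∀ b ∈ G ⊓ Subgroup.centralizer ({v} : Set X), a * b = b * a) : Nat.card (ConjClasses X) ≤ Nat.card V := by
  have hp : p.Prime := Fact.out
  have hc : ∀ a ∈ V, ∀ b ∈ V, a * b = b * a := fun a ha b hb =>
    Subgroup.mem_centralizer_iff.1 (hself.ge hb) a ha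
  have hV : IsElementaryAbelian p V := ⟨⟨⟨fun a b => Subtype.ext (hc a a.2 b b.2)⟩⟩, hVexp⟩
  have hG : ¬ p ∣ Nat.card G := hGV.symm.index_eq_card ▸ hidx
  refine Deg.Kn.criterion_rep hp hVexp hidx hc hGV hv rfl le_rfl hV Subgroup.le_normalizer_of_normal
    (fun k hk h => ?_) ?_
  · have h1 : k ∈ V := hself.le (Subgroup.mem_centralizer_iff.2 fun u hu => (h u hu).symm)
    exact Subgroup.disjoint_def.1 hGV.disjoint h1 hk.1
  · letI : CommGroup ↥(G ⊓ Subgroup.centralizer ({v} : Set X)) :=
      { (inferInstance : Group ↥(G ⊓ Subgroup.centralizer ({v} : Set X))) with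
        mul_comm := fun a b => Subtype.ext (hab a a.2 b b.2) }
    exact Deg.Kn.gd_of_comm hp (ZMod.natCast_self p) (fun h => hG
      (((ZMod.natCast_eq_zero_iff _ _).1 h).trans (Subgroup.card_dvd_of_le inf_le_left))) _ _ rfl

end Cfsg.Agent.S4958
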