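import Cfsg.Statements.S4964
import Cfsg.Agent.Blk.Quot
import Cfsg.Agent.GT.CoprimeFixed
import Cfsg.Agent.GT.Frattini
import Cfsg.Agent.Deg.Basic
-- import your own Cfsg.Agent.* helpers here

set_option autoImplicit false
open Cfsg

namespace Cfsg.Agent.S4964

open Cfsg.Agent.Ch Cfsg.Agent.Deg
open scoped ComplexConjugate

/-- Let D be a normal p-subgroup of the finite group G, let D′ be its commutator subgroup (normal in G), and fix a maximal ideal M of the algebraic integers containing p. Then (i) two irreducible characters of G ⧸ D′ lie in the same p-block if and only if their inflations to G do, and (ii) every p-block of G contains the inflation of some irreducible character of G ⧸ D′; so inflation induces a bijection between the p-blocks of G ⧸ D′ and the p-blocks of G. -/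
theorem result {G : Type*} [Group G] [Finite G] (p : ℕ) [Fact p.Prime] (M : Ideal Cfsg.AlgInt) (hM : Cfsg.IsPModular p M) (D : Subgroup G) [D.Normal] (hD : IsPGroup p D) : (∀ χ ψ : Cfsg.IrrCharacter (G ⧸ ⁅D, D⁆), Cfsg.SameBlock M (χ : G ⧸ ⁅D, D⁆ → ℂ) (ψ : G ⧸ ⁅D, D⁆ → ℂ) ↔ Cfsg.SameBlock M ((χ : G ⧸ ⁅D, D⁆ → ℂ) ∘ QuotientGroup.mk) ((ψ : G ⧸ ⁅D, D⁆ → ℂ) ∘ QuotientGroup.mk)) ∧ ∀ B : Set (Cfsg.IrrCharacter G), Cfsg.IsPBlock M B → ∃ χ : Cfsg.IrrCharacter (G ⧸ ⁅D, D⁆), ∃ θ ∈ B, (θ : G → ℂ) = (χ : G ⧸ ⁅D, D⁆ → ℂ) ∘ QuotientGroup.mk := by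
  open Cfsg.Agent.Blk Cfsg.Agent.Blk.Mod Cfsg.Agent.GT in
  classical
  have := hM.isMaximal
  have hp := hM.prime
  have := Fintype.ofFinite G
  set φ := QuotientGroup.mk' ⁅D, D⁆ with hφ
  have hs : Function.Surjective φ := QuotientGroup.mk'_surjective _
  have hk : φ.ker = ⁅D, D⁆ := QuotientGroup.ker_mk' _
  have hker : IsPGroup p φ.ker := hD.to_le (hk.le.trans (Subgroup.commutator_le_left D D))
  refine ⟨fun χ ψ => ⟨sameBlock_infl hs, fun h => ?_⟩, fun B hB => ?_⟩
  swap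
  · obtain ⟨ψ, hψ⟩ := hB.exists_infl_mem hM hs hker
    exact ⟨ψ, _, hψ, rfl⟩
  replace h : SameBlock M (infl φ hs χ : G → ℂ) (infl φ hs ψ) := h
  have hb := isPBlock_blockOf (M := M) χ
  set w := eps M (blockOf M (χ : G ⧸ ⁅D, D⁆ → ℂ)) with hw
  have hwc : w ∈ Ctr (Res M) _ := eps_mem_ctr _
  obtain ⟨z, hz, e⟩ : ∃ z ∈ Ctr (Res M) G, mp φ z = w := by
    have hn : (Subgroup.centralizer (φ.ker : Set G)).Normal := inferInstance
    refine ⟨ofFun fun g => if ¬ p ∣ orderOf g ∧ g ∈ Subgroup.centralizer (φ.ker : Set G) then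
      w.coeff (φ g) else 0, ofFun_mem_ctr.2 fun g x => ?_, Mod.ext_coeff fun y => ?_⟩
    · simp only [orderOf_conj_eq, map_mul φ, map_inv, mem_ctr_iff.1 hwc]
      exact if_congr (and_congr Iff.rfl ⟨fun h => by simpa [mul_assoc] using hn.conj_mem _ h x⁻¹,
        fun h => hn.conj_mem _ h x⟩) rfl rfl
    by_cases hy : w.coeff y = 0
    · rw [hy, coeff_mp_eq_sum]
      refine Finset.sum_eq_zero fun g hg => ?_
      rw [coeff_ofFun, (Finset.mem_filter.1 hg).2, hy, ite_self]
    obtain ⟨x, rfl, hx⟩ := exists_regular_lift hp hs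
      (Om.not_dvd_orderOf_of_blockCoeff hM hb (coeff_eps_ne_zero_iff.1 hy).2)
    have h1 := hb.mem_centralizer_of_coeff_eps hM (P := D.map φ) (hD.map φ) hy
    have h2 : Subgroup.zpowers x ≤ Subgroup.centralizer (D : Set G) := by
      obtain ⟨k, hk'⟩ := IsPGroup.iff_card.1 hD
      have := hD.isNilpotent
      refine CopAct.le_centralizer_of_commutator_le_frattini' ?_ (le_trans ?_ (commutator_self_le_map_frattini D))
      · rw [hk', Nat.card_zpowers]
        exact ((hp.coprime_iff_not_dvd.2 hx).symm).pow_right k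
      · rw [← hk, Subgroup.commutator_le]
        intro a ha b hb
        rw [MonoidHom.mem_ker, map_commutatorElement, commutatorElement_eq_one_iff_mul_comm]
        exact (Subgroup.zpowers_le.2 h1 : Subgroup.zpowers (φ x) ≤ _)
          (by rw [← MonoidHom.map_zpowers]; exact ⟨b, hb, rfl⟩) _ ⟨a, ha, rfl⟩
    have h3 : x ∈ Subgroup.centralizer (φ.ker : Set G) :=
      Subgroup.centralizer_le (hk.le.trans (Subgroup.commutator_le_left D D)) (h2 (Subgroup.mem_zpowers x))
    rw [coeff_mp_of_injOn φ (injOn_regular hp hker)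
      (fun g hg => by by_contra hc; exact hg (by rw [coeff_ofFun]; exact if_neg hc)) ⟨hx, h3⟩,
      coeff_ofFun, if_pos ⟨hx, h3⟩]
  refine hb.mem_of_lam_eps_ne_zero (χ := ψ) ?_
  rw [← hw, ← e, ← lam_infl hs _ hz, ← sameBlock_iff_lam.1 h z hz, lam_infl hs _ hz, e,
    hb.lam_eps_of_mem (mem_blockOf_self χ)]
  exact one_ne_zero

end Cfsg.Agent.S4964
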