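import Cfsg.Statements.S4965
import Cfsg.Agent.Deg.Basic
-- import your own Cfsg.Agent.* helpers here

set_option autoImplicit false
open Cfsg

namespace Cfsg.Agent.S4965

open Cfsg.Agent.Ch Cfsg.Agent.Deg
open scoped ComplexConjugate

/-- Let X be a finite group with an abelian normal subgroup V (any two elements of V commute), and let φ be the action of X ⧸ V on V induced by conjugation (well defined because V is abelian; the hypothesis hφ says that the class of x acts as conjugation by x). Then X has at most as many conjugacy classes as the semidirect product of V by X ⧸ V formed with this action: the split extension has the largest class number among extensions with the given action. -/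
theorem result {X : Type*} [Group X] [Finite X] (V : Subgroup X) [V.Normal] (hab : ∀ a ∈ V, ∀ b ∈ V, a * b = b * a) (φ : X ⧸ V →* MulAut ↥V) (hφ : ∀ (x : X) (v : ↥V), ((φ (QuotientGroup.mk x) v : ↥V) : X) = x * v * x⁻¹) : Nat.card (ConjClasses X) ≤ Nat.card (ConjClasses (SemidirectProduct ↥V (X ⧸ V) φ)) := by
  classical
  have hlift : ∀ q : (X ⧸ V) × (X ⧸ V), ∃ y : X × X, (∃ x : X × X, Commute x.1 x.2 ∧
      ((x.1 : X ⧸ V), (x.2 : X ⧸ V)) = q) → Commute y.1 y.2 ∧ ((y.1 : X ⧸ V), (y.2 : X ⧸ V)) = q := by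
    intro q
    by_cases h : ∃ x : X × X, Commute x.1 x.2 ∧ ((x.1 : X ⧸ V), (x.2 : X ⧸ V)) = q
    · exact h.imp fun x hx _ => hx
    · exact ⟨1, fun h' => absurd h' h⟩
  choose l hl using hlift
  have hmem : ∀ {x y : X}, (y : X ⧸ V) = x → x * y⁻¹ ∈ V := fun {x y} h => by
    rw [← QuotientGroup.eq_one_iff, QuotientGroup.mk_mul, QuotientGroup.mk_inv, h, mul_inv_cancel]
  have hl' := fun x : {p : X × X // Commute p.1 p.2} =>
    hl ((x.1.1 : X ⧸ V), (x.1.2 : X ⧸ V)) ⟨x.1, x.2, rfl⟩
  let F : {p : X × X // Commute p.1 p.2} →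
      {p : (SemidirectProduct ↥V (X ⧸ V) φ) × (SemidirectProduct ↥V (X ⧸ V) φ) //
        Commute p.1 p.2} := fun x =>
    ⟨(⟨⟨x.1.1 * (l (x.1.1, x.1.2)).1⁻¹, hmem (congrArg Prod.fst (hl' x).2)⟩, x.1.1⟩,
      ⟨⟨x.1.2 * (l (x.1.1, x.1.2)).2⁻¹, hmem (congrArg Prod.snd (hl' x).2)⟩, x.1.2⟩), by
      obtain ⟨h1, h2⟩ := hl' x
      refine SemidirectProduct.ext (Subtype.ext ?_) ?_
      · simp only [SemidirectProduct.mul_left, Subgroup.coe_mul, hφ]
        have h3 : ∀ a b a' b' : X, Commute a b → Commute a' b' → a * a'⁻¹ ∈ V → b * b'⁻¹ ∈ V →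
            a * a'⁻¹ * (a * (b * b'⁻¹) * a⁻¹) = a * b * (a'⁻¹ * b'⁻¹) := by
          intro a b a' b' _ h' ha hb
          rw [hab _ ha _ (‹V.Normal›.conj_mem _ hb a), h'.inv_inv.eq]
          group
        have ha := hmem (congrArg Prod.fst h2)
        have hb := hmem (congrArg Prod.snd h2)
        rw [h3 _ _ _ _ x.2 h1 ha hb, h3 _ _ _ _ x.2.symm h1.symm hb ha, x.2.eq, h1.inv_inv.eq]
      · simp only [SemidirectProduct.mul_right, ← QuotientGroup.mk_mul, x.2.eq]⟩
  have hF : Function.Injective F := fun x y h => by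
    have h1 := congrArg (fun z => z.1.1.right) h
    have h2 := congrArg (fun z => z.1.2.right) h
    have h3 := congrArg (fun z => (z.1.1.left : X)) h
    have h4 := congrArg (fun z => (z.1.2.left : X)) h
    simp only [F] at h1 h2 h3 h4
    rw [h1, h2] at h3 h4
    exact Subtype.ext (Prod.ext (mul_right_cancel h3) (mul_right_cancel h4))
  have : Finite (SemidirectProduct ↥V (X ⧸ V) φ) :=
    Finite.of_equiv _ SemidirectProduct.equivProd.symm
  have h := Nat.card_le_card_of_injective F hF
  rw [card_comm_eq_card_conjClasses_mul_card, card_comm_eq_card_conjClasses_mul_card,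
    SemidirectProduct.card, mul_comm (Nat.card V), ← Subgroup.card_eq_card_quotient_mul_card_subgroup] at h
  exact Nat.le_of_mul_le_mul_right h Nat.card_pos

end Cfsg.Agent.S4965
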