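import Mathlib
import Cfsg.Statements.S4967
import Cfsg.Agent.Cl.FormRep
-- import your own Cfsg.Agent.* helpers here

set_option autoImplicit false
open Cfsg

namespace Cfsg.Agent.S4967

/-- Let F be a finite field with r elements and of characteristic p, H a finite abelian group of order prime to p, and V a faithful irreducible representation of H over F of dimension n (faithful: distinct elements act differently; irreducible: the only H-invariant subspaces are 0 and V). Call V self-dual when it carries a nondegenerate H-invariant bilinear form. If n = 1 and V is self-dual then H has order at most 2. If n ≥ 2 then V is self-dual if and only if n is even and the order of H divides r^(n/2) + 1. -/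
theorem result {F : Type*} [Field F] [Fintype F] (p : ℕ) [Fact p.Prime] [CharP F p] {H : Type*} [CommGroup H] [Finite H] (hcop : ¬ p ∣ Nat.card H) {V : Type*} [AddCommGroup V] [Module F V] [FiniteDimensional F V] (ρ : Representation F H V) (hfaith : Function.Injective ρ) (hirr : ∀ U : Submodule F V, (∀ h : H, ∀ u ∈ U, ρ h u ∈ U) → U = ⊥ ∨ U = ⊤) : (Module.finrank F V = 1 → (∃ B : LinearMap.BilinForm F V, B.Nondegenerate ∧ ∀ h : H, ∀ x y : V, B (ρ h x) (ρ h y) = B x y) → Nat.card H ≤ 2) ∧ (2 ≤ Module.finrank F V → ((∃ B : LinearMap.BilinForm F V, B.Nondegenerate ∧ ∀ h : H, ∀ x y : V, B (ρ h x) (ρ h y) = B x y) ↔ (Even (Module.finrank F V) ∧ Nat.card H ∣ Fintype.card F ^ (Module.finrank F V / 2) + 1))) := by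
--PROOF--
  refine ⟨fun h1 ⟨B, hB, hinv⟩ => ?_, fun h2 => ?_⟩
  · haveI : Nontrivial V := Module.nontrivial_of_finrank_eq_succ h1
    obtain ⟨v, hv⟩ := exists_ne (0 : V)
    have hs := (finrank_eq_one_iff_of_nonzero' v hv).1 h1
    have hvv : B v v ≠ 0 := fun h0 => hv (hB.1 v fun y => by
      obtain ⟨c, rfl⟩ := hs y
      rw [map_smul, h0, smul_zero])
    have hr : Set.range ρ ⊆ {1, -1} := by
      rintro _ ⟨h, rfl⟩
      obtain ⟨c, hc⟩ := hs (ρ h v)
      have h3 := hinv h v v
      rw [← hc] at h3
      simp only [map_smul, LinearMap.smul_apply, smul_eq_mul] at h3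
      have h4 : (c - 1) * (c + 1) = 0 := mul_right_cancel₀ hvv (by linear_combination h3)
      have h5 : ρ h = c • (1 : Module.End F V) := LinearMap.ext fun y => by
        obtain ⟨d, rfl⟩ := hs y
        rw [map_smul, ← hc, LinearMap.smul_apply, Module.End.one_apply, smul_comm]
      rcases mul_eq_zero.1 h4 with h6 | h6
      · left; rw [h5, sub_eq_zero.1 h6, one_smul]
      · right; rw [h5, eq_neg_of_add_eq_zero_left h6, neg_smul, one_smul]; rfl
    calc Nat.card H = (Set.range ρ).ncard := (Set.ncard_range_of_injective hfaith).symm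
      _ ≤ ({1, -1} : Set (Module.End F V)).ncard := Set.ncard_le_ncard hr
      _ ≤ 2 := (Set.ncard_insert_le _ _).trans (by simp)
  haveI : Nontrivial V := Module.nontrivial_of_finrank_pos (R := F) (by omega)
  haveI : Finite V := Module.finite_of_finite F
  obtain ⟨K, _, _, π, e, hπ, he⟩ := Cl.rep_exists_field ρ hirr
  haveI : Finite K := Finite.of_equiv _ e.symm.toEquiv
  rw [← e.finrank_eq] at h2 ⊢
  set η : H →* K := π.toRingHom.toMonoidHom.comp (MonoidAlgebra.of F H) with hη
  have hηa : ∀ h, η h = π (MonoidAlgebra.of F H h) := fun h => rfl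
  have he' : ∀ h x, ρ h (e x) = e (η h * x) := fun h x => by
    rw [← Representation.asAlgebraHom_of, he, hηa]
  have hηi : Function.Injective η := fun a b hab => hfaith (LinearMap.ext fun y => by
    obtain ⟨x, rfl⟩ := e.surjective y
    rw [he', he', hab])
  have hpow : ∀ (j : ℕ) (x : K), (FiniteField.frobeniusAlgHom F K ^ j) x =
      x ^ (Fintype.card F ^ j) := fun j x => by
    rw [AlgHom.coe_pow, FiniteField.coe_frobeniusAlgHom, pow_iterate]
  constructor
  · rintro ⟨B, hB, hinv⟩
    set τ : MonoidAlgebra F H →ₐ[F] K := MonoidAlgebra.lift F K H (η.comp invMonoidHom)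
    have hτ : ∀ h, τ (MonoidAlgebra.of F H h) = η h⁻¹ := fun h => MonoidAlgebra.lift_of _ h
    have hadj : ∀ a x y, B (e (π a * x)) (e y) = B (e x) (e (τ a * y)) := by
      intro a x y
      induction a using MonoidAlgebra.induction_on with
      | of h => rw [hτ, ← hηa, ← he', ← he', Cl.rep_form_inv hinv, inv_inv]
      | add a b ha hb => simp only [map_add, add_mul, LinearMap.add_apply, ha, hb]
      | smul c a ha =>
        simp only [map_smul, smul_mul_assoc, LinearMap.smul_apply, ha]
    have hker : ∀ a, a ∈ RingHom.ker π → τ a = 0 := fun a ha => by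
      refine e.map_eq_zero_iff.1 (hB.2 _ fun y => ?_)
      obtain ⟨x, rfl⟩ := e.surjective y
      rw [← mul_one (τ a), ← hadj, show π a = 0 from ha, zero_mul, map_zero, map_zero,
        LinearMap.zero_apply]
    set σ : K →ₐ[F] K := (Ideal.Quotient.liftₐ _ τ hker).comp
      (Ideal.quotientKerAlgEquivOfSurjective hπ).symm.toAlgHom
    have hσ : ∀ a, σ (π a) = τ a := fun a => by
      have : (Ideal.quotientKerAlgEquivOfSurjective hπ).symm (π a) = Ideal.Quotient.mk _ a :=
        (AlgEquiv.symm_apply_eq _).2 rfl
      change Ideal.Quotient.liftₐ _ τ hker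
        ((Ideal.quotientKerAlgEquivOfSurjective hπ).symm (π a)) = _
      rw [this]; rfl
    have hση : ∀ h, σ (η h) = η h⁻¹ := fun h => by rw [hηa, hσ, hτ]
    have hext : ∀ f g : K →ₐ[F] K, (∀ h, f (η h) = g (η h)) → f = g := fun f g hfg => by
      refine AlgHom.ext fun x => ?_
      obtain ⟨a, rfl⟩ := hπ x
      induction a using MonoidAlgebra.induction_on with
      | of h => exact hfg h
      | add a b ha hb => simp only [map_add, ha, hb]
      | smul c a ha => simp only [map_smul, ha]
    obtain ⟨j, hj⟩ := (FiniteField.bijective_frobeniusAlgHom_pow F K).2 σ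
    have hj' : FiniteField.frobeniusAlgHom F K ^ j.1 = σ := hj
    have hσ2 : FiniteField.frobeniusAlgHom F K ^ (j.1 * 2) = 1 := by
      rw [pow_mul, hj']
      exact hext _ _ fun h => by
        rw [pow_two, AlgHom.mul_apply, hση, hση, inv_inv, AlgHom.one_apply]
    have hdvd := orderOf_dvd_of_pow_eq_one hσ2
    rw [FiniteField.orderOf_frobeniusAlgHom] at hdvd
    have hj0 : j.1 ≠ 0 := by
      intro h0
      rw [h0, pow_zero] at hj'
      have h3 : ∀ h, η h ∈ (⊥ : Subalgebra F K) := fun h => by
        have h4 : η h * η h = 1 := by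
          have h6 := hση h
          rw [← hj', AlgHom.one_apply] at h6
          rw [← map_one η, ← inv_mul_cancel h, map_mul, ← h6]
        rcases mul_self_eq_one_iff.1 h4 with h5 | h5 <;> rw [h5]
        · exact one_mem _
        · exact neg_mem (one_mem _)
      have h4 : (⊥ : Subalgebra F K) = ⊤ := by
        rw [eq_top_iff]
        intro x _
        obtain ⟨a, rfl⟩ := hπ x
        induction a using MonoidAlgebra.induction_on with
        | of h => exact h3 h
        | add a b ha hb => rw [map_add]; exact add_mem (ha trivial) (hb trivial)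
        | smul c a ha => rw [map_smul]; exact Subalgebra.smul_mem _ (ha trivial) c
      rw [Subalgebra.bot_eq_top_iff_finrank_eq_one] at h4
      omega
    have hn : Module.finrank F K = j.1 * 2 := by
      obtain ⟨c, hc⟩ := hdvd
      have := j.2
      rcases c with _ | _ | c
      · omega
      · omega
      · nlinarith
    refine ⟨⟨j.1, by omega⟩, ?_⟩
    rw [hn, Nat.mul_div_cancel _ two_pos]
    haveI : IsCyclic H := isCyclic_of_injective_ringHom η hηi
    rw [← IsCyclic.exponent_eq_card, Monoid.exponent_dvd_iff_forall_pow_eq_one]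
    intro h
    refine hηi ?_
    rw [map_pow, pow_succ, ← hpow, hj', hση, ← map_mul, inv_mul_cancel]
  · rintro ⟨⟨m, hm⟩, hd⟩
    rw [hm, ← two_mul, Nat.mul_div_cancel_left _ two_pos] at hd
    set σ := FiniteField.frobeniusAlgHom F K ^ m
    have hσ : Function.Surjective σ := Finite.injective_iff_surjective.1 σ.injective
    refine ⟨(Algebra.traceForm F K).compl₁₂ e.symm.toLinearMap
      (σ.toLinearMap.comp e.symm.toLinearMap), LinearMap.BilinForm.Nondegenerate.ofSeparatingLeft
      fun x hx => ?_, fun h x y => ?_⟩
    · refine e.symm.map_eq_zero_iff.1 ((traceForm_nondegenerate F K).1 _ fun y => ?_)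
      obtain ⟨y, rfl⟩ := hσ y
      simpa using hx (e y)
    · obtain ⟨x, rfl⟩ := e.surjective x
      obtain ⟨y, rfl⟩ := e.surjective y
      have h1 : η h * σ (η h) = 1 := by
        rw [hpow, ← pow_succ', ← map_pow, orderOf_dvd_iff_pow_eq_one.1
          ((orderOf_dvd_natCard h).trans hd), map_one]
      rw [he', he']
      simp only [LinearMap.compl₁₂_apply, LinearMap.comp_apply, LinearEquiv.coe_coe,
        LinearEquiv.symm_apply_apply, AlgHom.toLinearMap_apply, Algebra.traceForm_apply, map_mul]
      rw [mul_mul_mul_comm, h1, one_mul]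

end Cfsg.Agent.S4967
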