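import Mathlib
import Cfsg.Statements.S5005
import Cfsg.Agent.Blk.MathieuOne

set_option autoImplicit false
open Cfsg

namespace Cfsg.Agent.S5005

open Cfsg.Agent.Blk.NZ

/-- All irreducible complex characters of the Mathieu group `M₂₂` lie in a single 2-block: any two of them lie in the same block relative to every maximal ideal of the algebraic integers containing 2. -/
theorem result (M : Ideal Cfsg.AlgInt) (hM : Cfsg.IsPModular 2 M)
    (χ ψ : Cfsg.IrrCharacter ↥Cfsg.Spor.M22) : Cfsg.SameBlock M (χ : ↥Cfsg.Spor.M22 → ℂ) (ψ : ↥Cfsg.Spor.M22 → ℂ) := by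
  classical
  have := Fintype.ofFinite Spor.M22
  have hc := Spor.Golay.card_M22
  have hf : (Nat.card Spor.M22).factorization 2 = 7 :=
    hc ▸ Spor.MB.factorization_eq_of Nat.prime_two (by norm_num) (by norm_num)
  refine sameBlock_of_local hM (sameBlock_cent Spor.Golay.M22_eq_Fix hM) (fun χ h => ?_) χ ψ
  have h0 := fun g => Ch.apply_eq_zero_of_defect_zero Nat.prime_two χ.2 h (x := g)
  obtain ⟨k, hk⟩ := hf ▸ h
  have h1 := χ.2.charDegree_dvd_card
  have h2 := sum_le_card χ.2 {3, 5, 7, 11} (by decide)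
  have c5 := contr χ.2.isCharacter h0 (p := 5) (N := 88704) (k := 0) (by norm_num) (by decide)
    ((Inv.Nse.count_M22 5).trans (by decide +kernel)) (fun _ _ => one_dvd _) (d := 128 * k)
    (by omega)
  have c7 := contr χ.2.isCharacter h0 (p := 7) (N := 126720) (k := 0) (by norm_num) (by decide)
    ((Inv.Nse.count_M22 7).trans (by decide +kernel)) (fun _ _ => one_dvd _) (d := 128 * k)
    (by omega)
  have c11 := contr χ.2.isCharacter h0 (p := 11) (N := 80640) (k := 0) (by norm_num) (by decide)
    ((Inv.Nse.count_M22 11).trans (by decide +kernel)) (fun _ _ => one_dvd _) (d := 128 * k)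
    (by omega)
  have h3 := sum_le_card χ.2 ∅ (by decide)
  have h4 := χ.2.charDegree_pos
  have h6 : 0 ≤ ∑ x with orderOf x = 3, ‖χ.1 x‖ ^ 2 := Finset.sum_nonneg fun _ _ => sq_nonneg _
  have h7 : k = 3 → 0 < ∑ x with orderOf x = 3, ‖χ.1 x‖ ^ 2 := fun e => h6.lt_of_ne' fun h7 => by
    obtain ⟨P, hP⟩ := Sylow.exists_subgroup_card_pow_prime (G := Spor.M22) 3 (n := 2)
      (by rw [hc]; norm_num)
    obtain ⟨n, hn⟩ := (χ.2.isCharacter.restrict P).exists_nat_classInner IsCharacter.one
    rw [classInner, Finset.sum_eq_single 1 (fun x _ hx => ?_) (by simp), hP, OneMemClass.coe_one,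
      ← χ.2.coe_charDegree, hk, e, inv_mul_eq_iff_eq_mul₀ (by norm_num), map_one, mul_one] at hn
    · norm_cast at hn
      omega
    obtain ⟨i, hi, e⟩ := (Nat.dvd_prime_pow Nat.prime_three).mp (hP ▸ orderOf_dvd_natCard x)
    rw [← Subgroup.orderOf_coe] at e
    interval_cases i
    · exact absurd (Subtype.ext (orderOf_eq_one_iff.mp e)) hx
    · have := (Finset.sum_eq_zero_iff_of_nonneg fun _ _ => sq_nonneg _).mp h7 x (by simpa using e)
      simpa using this
    · have : Nat.card {g : Spor.M22 // orderOf g = 9} = 0 :=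
        (Inv.Nse.count_M22 9).trans (by decide +kernel)
      exact absurd this (@Nat.card_pos _ ⟨⟨x, e⟩⟩ _).ne'
  rw [hk, hc] at h1 h2 h3
  rw [Finset.sum_insert (by decide), Finset.sum_insert (by decide), Finset.sum_pair (by decide)] at h2
  have h5 : k < 6 := by
    by_contra h5
    have : (6 : ℝ) ≤ k := by exact_mod_cast not_lt.mp h5
    simp only [Finset.sum_empty] at h3
    push_cast at h3
    nlinarith
  interval_cases k <;> first | omega | (norm_num at h2 c5 c7 c11 h7; linarith)

end Cfsg.Agent.S5005
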