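import Mathlib
import Cfsg.Statements.S5006
import Cfsg.Agent.Blk.MathieuOne

set_option autoImplicit false
open Cfsg

namespace Cfsg.Agent.S5006

open Cfsg.Agent.Blk.NZ

/-- All irreducible complex characters of the Mathieu group `M₂₄` lie in a single 2-block: any two of them lie in the same block relative to every maximal ideal of the algebraic integers containing 2. -/
theorem result (M : Ideal Cfsg.AlgInt) (hM : Cfsg.IsPModular 2 M)
    (χ ψ : Cfsg.IrrCharacter ↥Cfsg.M24) : Cfsg.SameBlock M (χ : ↥Cfsg.M24 → ℂ) (ψ : ↥Cfsg.M24 → ℂ) := by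
  classical
  have := Fintype.ofFinite M24
  have hc := Spor.Golay.card_M24
  have hf : (Nat.card M24).factorization 2 = 10 :=
    hc ▸ Spor.MB.factorization_eq_of Nat.prime_two (by norm_num) (by norm_num)
  refine sameBlock_of_local hM (sameBlock_cent Spor.Golay.Fix_empty.symm hM) (fun χ h => ?_) χ ψ
  have h0 := fun g => Ch.apply_eq_zero_of_defect_zero Nat.prime_two χ.2 h (x := g)
  obtain ⟨k, hk⟩ := hf ▸ h
  have h1 := χ.2.charDegree_dvd_card
  have h2 := sum_le_card χ.2 {5, 7, 11, 23} (by decide)
  have c5 := contr χ.2.isCharacter h0 (p := 5) (N := 4080384) (by norm_num) (by decide)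
    ((Inv.Nse.count_M24 5).trans (by decide +kernel)) (fun _ => four_dvd) (d := 256 * k) (by omega)
  have c7 := contr χ.2.isCharacter h0 (p := 7) (N := 11658240) (by norm_num) (by decide)
    ((Inv.Nse.count_M24 7).trans (by decide +kernel)) (fun _ => two_dvd) (d := 512 * k) (by omega)
  have c11 := contr χ.2.isCharacter h0 (p := 11) (N := 22256640) (k := 0) (by norm_num) (by decide)
    ((Inv.Nse.count_M24 11).trans (by decide +kernel)) (fun _ _ => one_dvd _) (d := 1024 * k)
    (by omega)
  have c23 := contr χ.2.isCharacter h0 (p := 23) (N := 21288960) (k := 0) (by norm_num) (by decide)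
    ((Inv.Nse.count_M24 23).trans (by decide +kernel)) (fun _ _ => one_dvd _) (d := 1024 * k)
    (by omega)
  have h3 := sum_le_card χ.2 ∅ (by decide)
  have h4 := χ.2.charDegree_pos
  rw [hk, hc] at h1 h2 h3
  rw [Finset.sum_insert (by decide), Finset.sum_insert (by decide), Finset.sum_pair (by decide)] at h2
  have h5 : k < 16 := by
    by_contra h5
    have : (16 : ℝ) ≤ k := by exact_mod_cast not_lt.mp h5
    simp only [Finset.sum_empty] at h3
    push_cast at h3
    nlinarith
  interval_cases k <;> first | omega | (norm_num at h2 c5 c7 c11 c23; linarith)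

end Cfsg.Agent.S5006
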