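import Mathlib
import Cfsg.Statements.S5010
import Cfsg.Agent.Deg.PalA

set_option autoImplicit false
open Cfsg

namespace Cfsg.Agent.S5010

/-- Let `G` be a finite solvable group. If every irreducible complex character degree of `G` is squarefree (1 included), then the derived length of `G` is at most 4. -/
theorem result {G : Type*} [Group G] [Finite G] [Group.IsSolvable G]
    (h : ∀ χ : Cfsg.IrrCharacter G, Squarefree (Cfsg.charDegree (χ : G → ℂ))) : derivedSeries G 4 = ⊥ :=
  Deg.Pal.sqf_derived fun χ hχ => h ⟨χ, hχ⟩

end Cfsg.Agent.S5010
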