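import Mathlib
import Cfsg.Statements.S5014
import Cfsg.Agent.Chev.TimRankOne

set_option autoImplicit false
open Cfsg

namespace Cfsg.Agent.S5014

open Cfsg.Agent.Chev.Tim


/-- Let X = ⟨A, B⟩ be a rank one group with unipotent subgroups A and B and let Ω be the set of conjugates of A under X. Then Ω has at least three members, X acts doubly transitively on Ω by conjugation (any two ordered pairs of distinct members are carried to one another by a single element of X), and A acts regularly on Ω with A removed: for C, D in Ω different from A there is exactly one element of A conjugating C to D. -/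
theorem result {G : Type*} [Group G] {A B : Subgroup G} (h : Cfsg.IsRankOnePair A B) :
    (∃ C₁ ∈ Cfsg.unipotentSubgroups A B, ∃ C₂ ∈ Cfsg.unipotentSubgroups A B, ∃ C₃ ∈ Cfsg.unipotentSubgroups A B,
      C₁ ≠ C₂ ∧ C₁ ≠ C₃ ∧ C₂ ≠ C₃) ∧
    (∀ C₁ ∈ Cfsg.unipotentSubgroups A B, ∀ C₂ ∈ Cfsg.unipotentSubgroups A B, ∀ D₁ ∈ Cfsg.unipotentSubgroups A B,
      ∀ D₂ ∈ Cfsg.unipotentSubgroups A B, C₁ ≠ C₂ → D₁ ≠ D₂ →
        ∃ x ∈ A ⊔ B, Cfsg.conjBy C₁ x = D₁ ∧ Cfsg.conjBy C₂ x = D₂) ∧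
    (∀ C ∈ Cfsg.unipotentSubgroups A B, ∀ D ∈ Cfsg.unipotentSubgroups A B, C ≠ A → D ≠ A →
      ∃! a : G, a ∈ A ∧ Cfsg.conjBy C a = D) := by
  refine ⟨?_, ?_, ?_⟩
  · obtain ⟨a, ha, ha1⟩ := exists_ne_one_of_ne_bot h.left_ne_bot
    exact ⟨A, IsRankOnePair.left_mem_unip A B, B, h.right_mem_unip, conjBy B a,
      h.conj_right_mem_unip (Subgroup.mem_sup_left ha), h.ne, (h.conjBy_right_ne_left ha).symm,
      (h.right_conj_pair ha ha1).ne⟩
  · intro C₁ h₁ C₂ h₂ D₁ h₃ D₂ h₄ hC hD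
    obtain ⟨x, hx, rfl, rfl⟩ := h.exists_conj_pair h₁ h₂ hC
    obtain ⟨y, hy, rfl, rfl⟩ := h.exists_conj_pair h₃ h₄ hD
    refine ⟨y * x⁻¹, mul_mem hy (inv_mem hx), ?_, ?_⟩ <;>
      rw [conjBy_conjBy, inv_mul_cancel_right]
  · intro C hC D hD hCA hDA
    obtain ⟨a, ha, rfl⟩ := (h.mem_unip_iff.1 hC).resolve_left hCA
    obtain ⟨a', ha', rfl⟩ := (h.mem_unip_iff.1 hD).resolve_left hDA
    refine ⟨a' * a⁻¹, ⟨mul_mem ha' (inv_mem ha), by rw [conjBy_conjBy, inv_mul_cancel_right]⟩, ?_⟩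
    rintro y ⟨hy, e⟩
    rw [conjBy_conjBy] at e
    rw [← h.eq_of_conjBy_right_eq (mul_mem hy ha) ha' e, mul_inv_cancel_right]

end Cfsg.Agent.S5014
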