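import Mathlib
import Cfsg.Statements.S5015
import Cfsg.Agent.Chev.TimRankOne

set_option autoImplicit false
open Cfsg

namespace Cfsg.Agent.S5015

open Cfsg.Agent.Chev.Tim


/-- Let a group Y act doubly transitively on a set Ω with at least three points, and suppose that the stabilizer of a point α contains a nilpotent subgroup A, normalized by that stabilizer, which acts regularly on the points other than α. Then for any y in Y moving α, the subgroups A and y A y⁻¹ are the unipotent subgroups of a rank one group, and the normal closure of A in Y (the subgroup generated by all conjugates of A) is generated by A and y A y⁻¹ alone. -/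
theorem result {Y Ω : Type*} [Group Y] [MulAction Y Ω]
    (h2 : MulAction.IsMultiplyPretransitive Y Ω 2) (hΩ : 3 ≤ ENat.card Ω) (α : Ω) (A : Subgroup Y)
    (hA : A ≤ MulAction.stabilizer Y α) (hAn : ∀ y ∈ MulAction.stabilizer Y α, Cfsg.conjBy A y = A)
    (hnil : Group.IsNilpotent A) (hreg : ∀ β γ : Ω, β ≠ α → γ ≠ α → ∃! a : Y, a ∈ A ∧ a • β = γ)
    (y : Y) (hy : y ∉ MulAction.stabilizer Y α) :
    Cfsg.IsRankOnePair A (Cfsg.conjBy A y) ∧ Subgroup.normalClosure (A : Set Y) = A ⊔ Cfsg.conjBy A y := by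
  have hyα : y • α ≠ α := hy
  -- conjugates of `A` are determined by the point
  have hconj : ∀ g g' : Y, g • α = g' • α → conjBy A g = conjBy A g' := by
    intro g g' e
    rw [conjBy_eq_conjBy_iff]
    apply hAn
    rw [MulAction.mem_stabilizer_iff, mul_smul, e, inv_smul_smul]
  have hfix : ∀ a ∈ A, ∀ β : Ω, β ≠ α → a • β = β → a = 1 := by
    intro a ha β hβ e
    exact (hreg β β hβ hβ).unique ⟨ha, e⟩ ⟨one_mem _, one_smul _ _⟩
  -- regularity of the conjugate
  have hregB : ∀ β γ : Ω, β ≠ y • α → γ ≠ y • α → ∃ b ∈ conjBy A y, b • β = γ := by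
    intro β γ hβ hγ
    obtain ⟨a, ⟨ha, e⟩, -⟩ := hreg (y⁻¹ • β) (y⁻¹ • γ) (fun e => hβ (by rw [← e, smul_inv_smul]))
      (fun e => hγ (by rw [← e, smul_inv_smul]))
    refine ⟨y * a * y⁻¹, conj_mem_conjBy ha y, ?_⟩
    rw [mul_smul, mul_smul, e, smul_inv_smul]
  have hBfix : ∀ b ∈ conjBy A y, b • y • α = y • α := by
    intro b hb
    obtain ⟨a, ha, rfl⟩ := mem_conjBy'.1 hb
    rw [mul_smul, mul_smul, inv_smul_smul, MulAction.mem_stabilizer_iff.1 (hA ha)]
  obtain ⟨γ, hγ1, hγ2⟩ : ∃ γ : Ω, γ ≠ α ∧ γ ≠ y • α := by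
    by_contra hc
    push Not at hc
    have hsub : (Set.univ : Set Ω) ⊆ {α, y • α} := by
      intro x _
      by_cases hx : x = α
      · exact Or.inl hx
      · exact Or.inr (hc x hx)
    have h1 := Set.encard_le_encard hsub
    rw [Set.encard_univ] at h1
    have h3 : ({α, y • α} : Set Ω).encard ≤ 2 := by
      refine (Set.encard_insert_le _ _).trans ?_
      rw [Set.encard_singleton]; rfl
    have := hΩ.trans (h1.trans h3)
    norm_num at this
  have hpair : IsRankOnePair A (conjBy A y) := by
    refine IsRankOnePair.of_match ?_ hnil (isNilpotent_conjBy hnil y) ?_ ?_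
    · intro e
      obtain ⟨a, ⟨ha, e'⟩, -⟩ := hreg (y • α) γ hyα hγ1
      rw [e] at ha
      exact hγ2 (e'.symm.trans (hBfix a ha))
    · intro a ha ha1
      have h1 : a • y • α ≠ y • α := fun e => ha1 (hfix a ha _ hyα e)
      obtain ⟨b, hb, e⟩ := hregB α (a • y • α) hyα.symm h1
      refine ⟨b, hb, ?_, ?_⟩
      · rintro rfl
        rw [one_smul] at e
        apply hyα
        have := MulAction.mem_stabilizer_iff.1 (hA (inv_mem ha))
        exact (inv_smul_eq_iff.2 e).symm.trans this
      · rw [conjBy_conjBy]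
        exact hconj _ _ (by rw [e, mul_smul])
    · intro b hb hb1
      have h1 : b • α ≠ α := by
        intro e
        obtain ⟨a, ha, rfl⟩ := mem_conjBy'.1 hb
        have h3 : y⁻¹ • α ≠ α := fun e => hyα (by conv_lhs => rw [← e, smul_inv_smul])
        have := hfix a ha _ h3 (by rw [mul_smul, mul_smul] at e; exact (inv_smul_eq_iff.2 e.symm).symm)
        simp [this] at hb1
      obtain ⟨a, ⟨ha, e⟩, -⟩ := hreg (y • α) (b • α) hyα h1
      refine ⟨a, ha, ?_, ?_⟩
      · rintro rfl
        rw [one_smul] at e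
        apply hyα
        have := hBfix _ (inv_mem hb)
        rw [← this, e, inv_smul_smul]
      · rw [conjBy_conjBy]
        exact hconj _ _ (by rw [← e, mul_smul])
  refine ⟨hpair, le_antisymm ?_ ?_⟩
  · rw [Subgroup.normalClosure, Subgroup.closure_le]
    intro x hx
    rw [Group.mem_conjugatesOfSet_iff] at hx
    obtain ⟨a, ha, hc⟩ := hx
    obtain ⟨g, rfl⟩ := isConj_iff.1 hc
    have hmem : g * a * g⁻¹ ∈ conjBy A g := conj_mem_conjBy ha g
    by_cases hg : g • α = α
    · rw [hAn g hg] at hmem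
      exact Subgroup.mem_sup_left hmem
    · obtain ⟨a', ⟨ha', e⟩, -⟩ := hreg (y • α) (g • α) hyα hg
      rw [hconj g (a' * y) (by rw [← e, mul_smul]), ← conjBy_conjBy] at hmem
      exact conjBy_le_of_mem le_sup_right (Subgroup.mem_sup_left ha') hmem
  · refine sup_le Subgroup.le_normalClosure ?_
    intro x hx
    obtain ⟨a, ha, rfl⟩ := mem_conjBy'.1 hx
    exact Subgroup.normalClosure_normal.conj_mem _ (Subgroup.le_normalClosure ha) y

end Cfsg.Agent.S5015
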