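import Mathlib
import Cfsg.Statements.S5017
import Cfsg.Agent.Chev.TimRankOne
import Cfsg.Agent.GT.Quasisimple

set_option autoImplicit false
open Cfsg

namespace Cfsg.Agent.S5017

open Cfsg.Agent.Chev.Tim


/-- Let X be a rank one group with unipotent subgroups A and B and N a normal subgroup of X. Then either X = N A or N lies in the centre of X. Consequently a perfect rank one group is quasisimple. -/
theorem result {X : Type*} [Group X] {A B : Subgroup X} (h : Cfsg.IsRankOneGroup X A B) :
    (∀ N : Subgroup X, N.Normal → N ⊔ A = ⊤ ∨ N ≤ Subgroup.center X) ∧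
    (Group.IsPerfect X → Cfsg.IsQuasisimple X) := by
  have key : ∀ N : Subgroup X, N.Normal → N ⊔ A = ⊤ ∨ N ≤ Subgroup.center X := by
    intro N hN
    rcases h.2.normal_dichotomy (N := N) (by rw [h.1]; exact le_top)
      (fun x _ => conjBy_eq_self_iff.2 (by rw [Subgroup.normalizer_eq_top]; trivial)) with e | e
    · left; rw [e, h.1]
    · right
      intro n hn
      rw [Subgroup.mem_center_iff]
      intro g
      exact (e n hn g (by rw [h.1]; trivial)).symm
  refine ⟨key, fun hp => ?_⟩
  have : Nontrivial X := by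
    obtain ⟨a, -, ha1⟩ := exists_ne_one_of_ne_bot h.2.left_ne_bot
    exact ⟨a, 1, ha1⟩
  refine IsQuasisimple.of_normal_le_center fun N hN => ?_
  refine (key N hN).imp_left fun e => ?_
  have := h.2.nilpotent_left
  have hs : Group.IsSolvable (X ⧸ N) := by
    refine Group.isSolvable_of_surjective (f := (QuotientGroup.mk' N).comp A.subtype) ?_
    intro q
    obtain ⟨x, rfl⟩ := QuotientGroup.mk_surjective q
    have hx : x ∈ N ⊔ A := e ▸ Subgroup.mem_top x
    obtain ⟨n, hn, a, ha, rfl⟩ := (mem_sup_of_normalizes (fun a _ =>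
      conjBy_eq_self_iff.2 (by rw [Subgroup.normalizer_eq_top]; trivial))).1 hx
    refine ⟨⟨a, ha⟩, ?_⟩
    simp [(QuotientGroup.eq_one_iff n).2 hn]
  exact top_le_iff.1 (GT.perfect_le_of_isSolvable_quotient (L := ⊤) (Group.IsPerfect.commutator_eq_top) hs)

end Cfsg.Agent.S5017
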