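import Mathlib
import Cfsg.Statements.S5019
import Cfsg.Agent.Chev.TimSpecial

set_option autoImplicit false
open Cfsg

namespace Cfsg.Agent.S5019

open Cfsg.Agent.Chev.Tim

theorem ring_aux {R : Type*} [Ring R] {α β α' : R} (h1 : α * α' = 0) (h2 : β * β = 0)
    (h3 : β * (1 + α) * (1 - β) * α' = 0) :
    ((1 - β) * α * (1 + β) + (1 - α) * β * (1 + α)) * α' = 0 := by
  have e1 : ((1 - β) * α * (1 + β) + (1 - α) * β * (1 + α)) * α' =
      β * (1 + α) * (1 - β) * α' + (1 - β - α * β) * (α * α') + (β * β) * α' := by noncomm_ring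
  rw [e1, h1, h2, h3]; simp

/-- Let X be a rank one group with abelian unipotent subgroups A and B, and suppose X acts on an abelian group N (written additively) in such a way that A acts quadratically, meaning a' • (a • n − n) = a • n − n for all a, a' in A and n in N, while X as a whole does not: y • (x • n − n) ≠ x • n − n for some x, y in X and n in N. Then X is a special rank one group. -/
theorem result {X : Type*} [Group X] {A B : Subgroup X} (h : Cfsg.IsRankOneGroup X A B)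
    (hab : Cfsg.HasAbelianUnipotents A B) {N : Type*} [AddCommGroup N] [DistribMulAction X N]
    (hq : ∀ a ∈ A, ∀ a' ∈ A, ∀ n : N, a' • (a • n - n) = a • n - n)
    (hX : ∃ x y : X, ∃ n : N, y • (x • n - n) ≠ x • n - n) : Cfsg.IsSpecialRankOnePair A B := by
  set ρ : X →* AddMonoid.End N := DistribMulAction.toAddMonoidEnd X N with hρ
  have hρa : ∀ x n, ρ x n = x • n := fun _ _ => rfl
  have hqA : ∀ a ∈ A, ∀ a' ∈ A, (ρ a' - 1) * (ρ a - 1) = 0 := by
    intro a ha a' ha'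
    ext n
    have := hq a ha a' ha' n
    change a' • (a • n - n) - (a • n - n) = 0
    rw [this, sub_self]
  have hconj : ∀ x g : X, ρ (g * x * g⁻¹) - 1 = ρ g * (ρ x - 1) * ρ g⁻¹ := by
    intro x g
    rw [mul_sub, sub_mul, mul_one, ← map_mul, ← map_mul, ← map_mul, mul_inv_cancel, map_one]
  have hqC : ∀ g : X, ∀ a ∈ conjBy A g, ∀ a' ∈ conjBy A g, (ρ a' - 1) * (ρ a - 1) = 0 := by
    intro g a ha a' ha'
    obtain ⟨x, hx, rfl⟩ := mem_conjBy'.1 ha
    obtain ⟨x', hx', rfl⟩ := mem_conjBy'.1 ha'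
    rw [hconj, hconj]
    calc ρ g * (ρ x' - 1) * ρ g⁻¹ * (ρ g * (ρ x - 1) * ρ g⁻¹)
        = ρ g * ((ρ x' - 1) * (ρ g⁻¹ * ρ g) * (ρ x - 1)) * ρ g⁻¹ := by noncomm_ring
      _ = 0 := by rw [← map_mul, inv_mul_cancel, map_one, mul_one, hqA x hx x' hx']; simp
  have hqB : ∀ a ∈ B, ∀ a' ∈ B, (ρ a' - 1) * (ρ a - 1) = 0 := by
    obtain ⟨g, -, e, -⟩ := h.2.exists_swap
    rw [← e]; exact hqC g
  have hinv : ∀ x : X, (ρ x - 1) * (ρ x - 1) = 0 → ρ x⁻¹ = 1 - (ρ x - 1) := by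
    intro x hx
    have h1 : ρ x * (1 - (ρ x - 1)) = 1 - (ρ x - 1) * (ρ x - 1) := by noncomm_ring
    rw [hx, sub_zero] at h1
    calc ρ x⁻¹ = ρ x⁻¹ * (ρ x * (1 - (ρ x - 1))) := by rw [h1, mul_one]
      _ = _ := by rw [← mul_assoc, ← map_mul, inv_mul_cancel, map_one, one_mul]
  -- the centraliser of `[N, X]`
  let K : Subgroup X :=
    { carrier := {g | ∀ x : X, (ρ g - 1) * (ρ x - 1) = 0}
      one_mem' := by intro x; simp
      mul_mem' := by
        intro g g' hg hg' x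
        have : (ρ (g * g') - 1) * (ρ x - 1) = ρ g * ((ρ g' - 1) * (ρ x - 1)) + (ρ g - 1) * (ρ x - 1) := by
          rw [map_mul]; noncomm_ring
        rw [this, hg x, hg' x]; simp
      inv_mem' := by
        intro g hg x
        have : (ρ g⁻¹ - 1) * (ρ x - 1) = - (ρ g⁻¹ * ((ρ g - 1) * (ρ x - 1))) := by
          rw [← mul_assoc, mul_sub (ρ g⁻¹), ← map_mul, inv_mul_cancel, map_one]; noncomm_ring
        rw [this, hg x]; simp }
  have hKn : ∀ y : X, conjBy K y = K := by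
    have : ∀ y : X, ∀ g ∈ K, y * g * y⁻¹ ∈ K := by
      intro y g hg x
      rw [hconj]
      have : ρ y * (ρ g - 1) * ρ y⁻¹ * (ρ x - 1) =
          ρ y * ((ρ g - 1) * (ρ (y⁻¹ * x) - 1) - (ρ g - 1) * (ρ y⁻¹ - 1)) := by
        rw [map_mul]; noncomm_ring
      rw [this, hg, hg]; simp
    intro y
    have hn : K.Normal := ⟨fun g hg y => this y g hg⟩
    exact conjBy_eq_self_iff.2 (by rw [Subgroup.normalizer_eq_top]; trivial)
  have hmemK : ∀ g : X, (∀ a ∈ A, (ρ g - 1) * (ρ a - 1) = 0) → (∀ b ∈ B, (ρ g - 1) * (ρ b - 1) = 0) → g ∈ K := by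
    intro g h1 h2 x
    refine sup_induction (A := A) (B := B) (P := fun x => (ρ g - 1) * (ρ x - 1) = 0) (by simp) ?_ ?_ x
      (by rw [h.1]; trivial)
    · intro a ha y _ hy
      have : (ρ g - 1) * (ρ (a * y) - 1) = (ρ g - 1) * (ρ a - 1) * ρ y + (ρ g - 1) * (ρ y - 1) := by
        rw [map_mul]; noncomm_ring
      rw [this, h1 a ha, hy]; simp
    · intro a ha y _ hy
      have : (ρ g - 1) * (ρ (a * y) - 1) = (ρ g - 1) * (ρ a - 1) * ρ y + (ρ g - 1) * (ρ y - 1) := by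
        rw [map_mul]; noncomm_ring
      rw [this, h2 a ha, hy]; simp
  have hKc : Comm K (A ⊔ B) := by
    by_contra hK
    have h1 := (h.2.normal_dichotomy (N := K) (by rw [h.1]; exact le_top) fun x _ => hKn x).resolve_right hK
    have h2 := (h.2.symm.normal_dichotomy (N := K) (by rw [sup_comm, h.1]; exact le_top)
      fun x _ => hKn x).resolve_right (by rwa [sup_comm])
    have key : ∀ {C : Subgroup X}, K ⊔ C = ⊤ → (∀ a ∈ C, ∀ a' ∈ C, (ρ a' - 1) * (ρ a - 1) = 0) →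
        ∀ g : X, ∀ a ∈ C, (ρ g - 1) * (ρ a - 1) = 0 := by
      intro C hC hqC g a ha
      obtain ⟨k, hk, c, hc, rfl⟩ := (mem_sup_of_normalizes fun c _ => hKn c).1 (hC ▸ Subgroup.mem_top g)
      have : (ρ (k * c) - 1) * (ρ a - 1) = ρ k * ((ρ c - 1) * (ρ a - 1)) + (ρ k - 1) * (ρ a - 1) := by
        rw [map_mul]; noncomm_ring
      rw [this, hqC a ha c hc, hk a]; simp
    obtain ⟨x, y, n, hn⟩ := hX
    apply hn
    have := hmemK y (key (h1.trans h.1) hqA y) (key (h2.trans (by rw [sup_comm, h.1])) hqB y) x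
    have h3 := DFunLike.congr_fun this n
    change y • (x • n - n) - (x • n - n) = 0 at h3
    exact sub_eq_zero.1 h3
  refine ⟨h.2, fun a ha ha1 b hb hb1 e => ?_⟩
  have hc1 : b⁻¹ * a * b ∈ conjBy A b⁻¹ := by simpa using conj_mem_conjBy ha b⁻¹
  have hc2 : ∀ b' ∈ B, a⁻¹ * b' * a ∈ conjBy A b⁻¹ := by
    intro b' hb'; rw [e]; simpa using conj_mem_conjBy hb' a⁻¹
  have hc1' : ∀ a' ∈ A, b⁻¹ * a' * b ∈ conjBy A b⁻¹ := by
    intro a' ha'; simpa using conj_mem_conjBy ha' b⁻¹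
  have hai := hinv a (hqA a ha a ha)
  have hbi := hinv b (hqB b hb b hb)
  have g1 : ∀ a' : X, ρ (b⁻¹ * a' * b) - 1 = ρ b⁻¹ * (ρ a' - 1) * ρ b := by
    intro a'; simpa using hconj a' b⁻¹
  have g2 : ∀ b' : X, ρ (a⁻¹ * b' * a) - 1 = ρ a⁻¹ * (ρ b' - 1) * ρ a := by
    intro b'; simpa using hconj b' a⁻¹
  have cancel : ∀ (x y : X) (t : AddMonoid.End N), ρ x * t * ρ y = 0 → t = 0 := by
    intro x y t ht
    calc t = ρ x⁻¹ * (ρ x * t * ρ y) * ρ y⁻¹ := by
          rw [← mul_assoc, ← mul_assoc, ← map_mul, inv_mul_cancel, map_one, one_mul, mul_assoc, ← map_mul,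
            mul_inv_cancel, map_one, mul_one]
      _ = 0 := by rw [ht]; simp
  have hδ : ρ ((b⁻¹ * a * b) * (a⁻¹ * b * a)) - 1 =
      (1 - (ρ b - 1)) * (ρ a - 1) * (1 + (ρ b - 1)) + (1 - (ρ a - 1)) * (ρ b - 1) * (1 + (ρ a - 1)) := by
    have h0 := hqC _ _ (hc2 b hb) _ hc1
    have : ρ ((b⁻¹ * a * b) * (a⁻¹ * b * a)) - 1 = (ρ (b⁻¹ * a * b) - 1) * (ρ (a⁻¹ * b * a) - 1) +
        (ρ (b⁻¹ * a * b) - 1) + (ρ (a⁻¹ * b * a) - 1) := by
      rw [map_mul ρ (b⁻¹ * a * b)]; noncomm_ring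
    rw [this, h0, g1, g2, hai, hbi]; simp
  have hcK : (b⁻¹ * a * b) * (a⁻¹ * b * a) ∈ K := by
    refine hmemK _ (fun a' ha' => ?_) (fun b' hb' => ?_)
    · rw [hδ]
      refine ring_aux (hqA a' ha' a ha) (hqB b hb b hb) (cancel a⁻¹ b _ ?_)
      have h0 := hqC _ _ (hc1' a' ha') _ (hc2 b hb)
      rw [g1, g2] at h0
      rw [← h0, ← hbi]; simp only [add_sub_cancel, mul_assoc]
    · rw [hδ, add_comm]
      refine ring_aux (hqB b' hb' b hb) (hqA a ha a ha) (cancel b⁻¹ a _ ?_)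
      have h0 := hqC _ _ (hc2 b' hb') _ hc1
      rw [g1, g2] at h0
      rw [← h0, ← hai]; simp only [add_sub_cancel, mul_assoc]
  have hpair := h.2.left_conj_pair (inv_mem hb) (by simpa using hb1)
  have h1 := hpair.eq_one_of_commute_right (mul_mem hc1 (hc2 b hb))
    fun a' ha' => hKc _ hcK a' (Subgroup.mem_sup_left ha')
  calc b⁻¹ * a * b = (b⁻¹ * a * b) * (a⁻¹ * b * a) * (a⁻¹ * b⁻¹ * a) := by group
    _ = _ := by rw [h1, one_mul]

end Cfsg.Agent.S5019
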