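import Mathlib
import Cfsg.Statements.S5022
import Cfsg.Agent.Chev.TimSL2

set_option autoImplicit false
open Cfsg

namespace Cfsg.Agent.S5022

open Cfsg.Agent.Chev.Tim

theorem pw_add {X : Type*} [Group X] {p : ℕ} [Fact p.Prime] {a : X} (ha : a ^ p = 1) (s t : ZMod p) :
    a ^ (s + t).val = a ^ s.val * a ^ t.val := by
  rw [← pow_add, ZMod.val_add, ← pow_eq_pow_mod _ ha]

theorem pw_mul {X : Type*} [Group X] {p : ℕ} [Fact p.Prime] {a : X} (ha : a ^ p = 1) (s t : ZMod p) :
    a ^ (s * t).val = (a ^ s.val) ^ t.val := by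
  rw [← pow_mul, ZMod.val_mul, ← pow_eq_pow_mod _ ha]

theorem range_cases {X F : Type*} [Group X] [Field F] (φ : Matrix.SpecialLinearGroup (Fin 2) F →* X)
    (hk : φ.ker ≤ Subgroup.center (Matrix.SpecialLinearGroup (Fin 2) F)) :
    Nonempty (φ.range ≃* Matrix.SpecialLinearGroup (Fin 2) F) ∨
      Nonempty (φ.range ≃* Matrix.ProjectiveSpecialLinearGroup (Fin 2) F) := by
  by_cases h0 : φ.ker = ⊥
  · left
    exact ⟨(MonoidHom.ofInjective ((MonoidHom.ker_eq_bot_iff φ).1 h0)).symm⟩
  · right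
    have hc : ∀ g ∈ Subgroup.center (Matrix.SpecialLinearGroup (Fin 2) F), g = 1 ∨ g = -1 := by
      intro g hg
      obtain ⟨r, hr, e⟩ := Matrix.SpecialLinearGroup.mem_center_iff.1 hg
      rw [Fintype.card_fin] at hr
      rcases sq_eq_one_iff.1 hr with rfl | rfl
      · left; ext i j; rw [← e]; simp
      · right; ext i j; rw [← e]; fin_cases i <;> fin_cases j <;> simp
    obtain ⟨g, hg, hg1⟩ := exists_ne_one_of_ne_bot h0
    have hg' := (hc g (hk hg)).resolve_left hg1
    have : φ.ker = Subgroup.center _ := by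
      refine le_antisymm hk fun z hz => ?_
      rcases hc z hz with rfl | rfl
      · exact one_mem _
      · exact hg' ▸ hg
    exact ⟨(QuotientGroup.quotientKerEquivRange φ).symm.trans (QuotientGroup.quotientMulEquivOfEq this)⟩

/-- Let X be a special rank one group with abelian unipotent subgroups A and B, where A is an elementary abelian p-group for the prime p. Then for every non-identity a in A and the non-identity b in B with b⁻¹ A b = a⁻¹ B a, the subgroup generated by a and b is isomorphic to SL₂(p) or to PSL₂(p). -/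
theorem result {X : Type*} [Group X] {A B : Subgroup X} (h : Cfsg.IsRankOneGroup X A B)
    (hs : Cfsg.IsSpecialRankOnePair A B) (hab : Cfsg.HasAbelianUnipotents A B)
    {p : ℕ} [Fact p.Prime] (hA : Cfsg.IsElementaryAbelian p A)
    {a b : X} (ha : a ∈ A) (ha1 : a ≠ 1) (hb : b ∈ B) (hb1 : b ≠ 1) (hab' : Cfsg.conjBy A b⁻¹ = Cfsg.conjBy B a⁻¹) :
    Nonempty (↥(Subgroup.closure ({a, b} : Set X)) ≃* Matrix.SpecialLinearGroup (Fin 2) (ZMod p)) ∨
    Nonempty (↥(Subgroup.closure ({a, b} : Set X)) ≃* Matrix.ProjectiveSpecialLinearGroup (Fin 2) (ZMod p)) := by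
  have e : conjBy A b = conjBy B a := hs.match_of_inv ha ha1 hb hb1 hab'
  have hBp : ∀ y ∈ B, y ^ p = 1 := by
    obtain ⟨g, -, eg, -⟩ := h.2.exists_swap
    intro y hy
    rw [← eg] at hy
    obtain ⟨x, hx, rfl⟩ := mem_conjBy'.1 hy
    rw [conj_pow, hA.2 x hx]; simp
  have hap := hA.2 a ha
  have hbp := hBp b hb
  have hne : ∀ t : ZMod p, t ≠ 0 → a ^ t.val ≠ 1 := by
    intro t ht e0
    apply ha1
    have := pw_mul hap t t⁻¹
    rw [mul_inv_cancel₀ ht, ZMod.val_one, pow_one, e0, one_pow] at this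
    exact this
  have hm : ∀ t : ZMod p, t ≠ 0 → b ^ t⁻¹.val ≠ 1 ∧ conjBy A (b ^ t⁻¹.val) = conjBy B (a ^ t.val) := by
    intro t ht
    obtain ⟨b', hb', hb1', e'⟩ := h.2.exists_match (pow_mem ha t.val) (hne t ht)
    have h1 := hs.match_pow ha (hne t ht) hb e hb' e'
    have := pw_mul (hBp b' hb') t t⁻¹
    rw [mul_inv_cancel₀ ht, ZMod.val_one, pow_one, h1] at this
    rw [← this]; exact ⟨hb1', e'⟩
  have hyneg : ∀ t : ZMod p, b ^ (-t).val = (b ^ t.val)⁻¹ := by
    intro t
    rw [eq_inv_iff_mul_eq_one, ← pw_add hbp, neg_add_cancel, ZMod.val_zero, pow_zero]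
  have hrel : SL2Rel (fun t : ZMod p => a ^ t.val) (fun t : ZMod p => b ^ t.val) := by
    refine ⟨pw_add hap, pw_add hbp, fun t ht u => ?_, fun t ht u => ?_⟩
    · have h1 := hs.mu_conj_left (pow_mem ha t.val) (hne t ht) (pow_mem hb _) (hm t ht).1 (hm t ht).2
      have h2 : u = t * (u / t) := by field_simp
      have h3 : -(u / t ^ 2) = -t⁻¹ * (u / t) := by field_simp
      simp only [stW]
      rw [h3, pw_mul hbp, hyneg]
      conv_rhs => rw [← h1, conj_pow, ← pw_mul hap, ← h2]
    · have h1 := hs.mu_conj_right (pow_mem ha t.val) (hne t ht) (pow_mem hb _) (hm t ht).1 (hm t ht).2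
      have h2 : u = -t⁻¹ * (-(t * u)) := by field_simp
      have h3 : -(t ^ 2 * u) = t * (-(t * u)) := by ring
      simp only [stW]
      rw [h3, pw_mul hap, hyneg]
      conv_rhs => rw [← h1, conj_pow, ← hyneg, ← pw_mul hbp, ← h2, hyneg]
  obtain ⟨φ, hx, hy⟩ := hrel.exists_hom fun t u ht hu => hrel.h_mul_of_finite ht hu
  have hxa : φ (GT.slUp 1) = a := by rw [hx, ZMod.val_one, pow_one]
  have hyb : φ (GT.slLo 1) = b := by rw [hy, ZMod.val_one, pow_one]
  have hr : φ.range = Subgroup.closure ({a, b} : Set X) := by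
    apply le_antisymm
    · have : (Subgroup.closure ({a, b} : Set X)).comap φ = ⊤ :=
        GT.eq_top_of_slUp_slLo_mem _
          (fun t => by
            rw [Subgroup.mem_comap, hx]; exact pow_mem (Subgroup.subset_closure (by simp)) _)
          (fun t => by
            rw [Subgroup.mem_comap, hy]; exact pow_mem (Subgroup.subset_closure (by simp)) _)
      rintro _ ⟨g, rfl⟩
      exact (this ▸ Subgroup.mem_top g : g ∈ (Subgroup.closure ({a, b} : Set X)).comap φ)
    · rw [Subgroup.closure_le]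
      rintro _ (rfl | rfl)
      · exact ⟨_, hxa⟩
      · exact ⟨_, hyb⟩
  rw [← hr]
  exact range_cases φ (sl2_ker_le_center φ (s := 1) (t := 1)
    (by rw [hxa, hyb]; exact h.2.not_commute ha ha1 hb hb1))

end Cfsg.Agent.S5022
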