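import Mathlib
import Cfsg.Statements.S5020
import Cfsg.Agent.Chev.TimSL2
import Cfsg.Agent.GT.Quasisimple
import Cfsg.Agent.S5017
import Cfsg.Agent.S5022

set_option autoImplicit false
open Cfsg

namespace Cfsg.Agent.S5020

open Cfsg.Agent.Chev.Tim

theorem small_case {X : Type*} [Group X] {A B : Subgroup X} (h : Cfsg.IsRankOneGroup X A B)
    (hs : Cfsg.IsSpecialRankOnePair A B) (hab : Cfsg.HasAbelianUnipotents A B) {p : ℕ} [Fact p.Prime]
    (hA : Nat.card A = p) :
    Nonempty (X ≃* Matrix.SpecialLinearGroup (Fin 2) (ZMod p)) ∨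
      Nonempty (X ≃* Matrix.ProjectiveSpecialLinearGroup (Fin 2) (ZMod p)) := by
  have key : ∀ {C : Subgroup X}, Nat.card C = p → ∀ c ∈ C, c ≠ 1 → C = Subgroup.zpowers c := by
    intro C hC c hc hc1
    have := zpowers_eq_top_of_prime_card hC (g := ⟨c, hc⟩) (fun e => hc1 (congrArg Subtype.val e))
    have h2 := congrArg (Subgroup.map C.subtype) this
    rw [MonoidHom.map_zpowers, ← MonoidHom.range_eq_map, Subgroup.range_subtype] at h2
    exact h2.symm
  have hB : Nat.card B = p := by
    obtain ⟨g, -, eg, -⟩ := h.2.exists_swap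
    rw [← eg, ← hA]
    exact Nat.card_congr (conjByEquiv A g).symm.toEquiv
  obtain ⟨a, ha, ha1⟩ := exists_ne_one_of_ne_bot h.2.left_ne_bot
  obtain ⟨b, hb, hb1, e⟩ := h.2.cond_left a ha ha1
  have hel : IsElementaryAbelian p A := by
    refine ⟨hab.1, fun x hx => ?_⟩
    have := pow_card_eq_one' (G := A) (x := ⟨x, hx⟩)
    rw [hA] at this
    exact congrArg Subtype.val this
  have htop : Subgroup.closure ({a, b} : Set X) = ⊤ := by
    rw [← top_le_iff, ← h.1, key hA a ha ha1, key hB b hb hb1]
    exact sup_le (by rw [Subgroup.zpowers_le]; exact Subgroup.subset_closure (by simp))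
      (by rw [Subgroup.zpowers_le]; exact Subgroup.subset_closure (by simp))
  have := S5022.result h hs hab hel ha ha1 hb hb1 e
  rw [htop] at this
  exact this.imp (fun ⟨f⟩ => ⟨Subgroup.topEquiv.symm.trans f⟩) fun ⟨f⟩ => ⟨Subgroup.topEquiv.symm.trans f⟩

/-- Let X be a special rank one group with abelian unipotent subgroups A and B, and H = N(A) ∩ N(B) its diagonal subgroup. Then either A has at most three elements and X is isomorphic to SL₂(2), SL₂(3) or PSL₂(3); or X = X' A with the commutator subgroup X' quasisimple and the commutator subgroup ⁅A, H⁆ having more than three elements. -/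
theorem result {X : Type*} [Group X] {A B : Subgroup X} (h : Cfsg.IsRankOneGroup X A B)
    (hs : Cfsg.IsSpecialRankOnePair A B) (hab : Cfsg.HasAbelianUnipotents A B) :
    (ENat.card A ≤ 3 ∧ (Nonempty (X ≃* Matrix.SpecialLinearGroup (Fin 2) (ZMod 2)) ∨
        Nonempty (X ≃* Matrix.SpecialLinearGroup (Fin 2) (ZMod 3)) ∨
        Nonempty (X ≃* Matrix.ProjectiveSpecialLinearGroup (Fin 2) (ZMod 3)))) ∨
    (commutator X ⊔ A = ⊤ ∧ Cfsg.IsQuasisimple (commutator X) ∧
      3 < ENat.card ↥(⁅A, Cfsg.rankOneDiagonal A B⁆ : Subgroup X)) := by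
  by_cases h3 : 3 < ENat.card A
  · right
    have hc := comm_self_iff.2 hab.1
    have hp := hs.perfect hc h3
    rw [h.1] at hp
    have hp' : commutator X = ⊤ := hp
    refine ⟨by rw [hp', top_sup_eq], ?_, h3.trans_le ?_⟩
    · rw [hp', GT.isQuasisimple_top_iff]
      exact (S5017.result h).2 ⟨hp'⟩
    · exact ENat.card_le_card_of_injective
        (Subgroup.inclusion_injective (hs.le_commutator_diagonal hc h3))
  · left
    push Not at h3
    refine ⟨h3, ?_⟩
    have hfin : Finite A := by
      rw [← ENat.card_lt_top]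
      exact h3.trans_lt (by decide)
    have h4 : Nat.card A ≤ 3 := by
      rw [ENat.card_eq_coe_natCard] at h3
      exact_mod_cast h3
    have h5 : 1 < Nat.card A := (Subgroup.one_lt_card_iff_ne_bot A).2 h.2.left_ne_bot
    have : Fact (Nat.Prime 3) := ⟨Nat.prime_three⟩
    rcases (by omega : Nat.card A = 2 ∨ Nat.card A = 3) with e | e
    · left
      rcases small_case h hs hab e with f | ⟨⟨f⟩⟩
      · exact f
      · have hc : Subgroup.center (Matrix.SpecialLinearGroup (Fin 2) (ZMod 2)) = ⊥ := by
          rw [eq_bot_iff]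
          intro g hg
          obtain ⟨r, hr, e⟩ := Matrix.SpecialLinearGroup.mem_center_iff.1 hg
          have : r = 1 := by
            rw [Fintype.card_fin] at hr
            exact (by decide : ∀ r : ZMod 2, r ^ 2 = 1 → r = 1) r hr
          rw [Subgroup.mem_bot]
          ext i j; rw [← e, this]; simp
        exact ⟨f.trans ((QuotientGroup.quotientMulEquivOfEq hc).trans QuotientGroup.quotientBot)⟩
    · right
      exact small_case h hs hab e

end Cfsg.Agent.S5020
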