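import Mathlib
import Cfsg.Statements.S5021
import Cfsg.Agent.Chev.TimSpecial

set_option autoImplicit false
open Cfsg

namespace Cfsg.Agent.S5021

open Cfsg.Agent.Chev.Tim


/-- In a special rank one group with abelian unipotent subgroups A and B, either A is an elementary abelian p-group for some prime p, or A is torsion-free and divisible (every element of A has an n-th root in A for every positive n). -/
theorem result {X : Type*} [Group X] {A B : Subgroup X} (h : Cfsg.IsRankOneGroup X A B)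
    (hs : Cfsg.IsSpecialRankOnePair A B) (hab : Cfsg.HasAbelianUnipotents A B) :
    (∃ p : ℕ, p.Prime ∧ Cfsg.IsElementaryAbelian p A) ∨
    ((∀ a ∈ A, a ≠ 1 → ¬ IsOfFinOrder a) ∧ ∀ a ∈ A, ∀ n : ℕ, 0 < n → ∃ c ∈ A, c ^ n = a) := by
  by_cases ht : ∀ a ∈ A, a ≠ 1 → ¬ IsOfFinOrder a
  · right
    refine ⟨ht, fun a ha n hn => ?_⟩
    by_cases ha1 : a = 1
    · exact ⟨1, one_mem _, by rw [ha1, one_pow]⟩
    · exact hs.exists_root ha fun e => ht a ha ha1 (isOfFinOrder_iff_pow_eq_one.2 ⟨n, hn, e⟩)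
  · left
    push Not at ht
    obtain ⟨a, ha, ha1, hf⟩ := ht
    have hne : orderOf a ≠ 1 := fun e => ha1 (orderOf_eq_one_iff.1 e)
    obtain ⟨p, hp, k, hk⟩ := Nat.exists_prime_and_dvd hne
    have hk0 : 0 < k := Nat.pos_of_ne_zero fun e => hf.orderOf_pos.ne' (by rw [hk, e, mul_zero])
    have he1 : a ^ k ≠ 1 := by
      refine pow_ne_one_of_lt_orderOf hk0.ne' ?_
      rw [hk]
      exact (Nat.lt_mul_iff_one_lt_left hk0).2 hp.one_lt
    have hep : (a ^ k) ^ p = 1 := by rw [← pow_mul, mul_comm, ← hk, pow_orderOf_eq_one]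
    refine ⟨p, hp, hab.1, fun x hx => ?_⟩
    by_contra hx1
    have hc : Commute x (a ^ k) := comm_self_iff.2 hab.1 x hx _ (pow_mem ha k)
    have := hs.eq_of_pow_eq hx (mul_mem hx (pow_mem ha k)) hx1 (by rw [hc.mul_pow, hep, mul_one])
    exact he1 (by simpa using this)

end Cfsg.Agent.S5021
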