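import Mathlib
import Cfsg.Statements.S5026
import Cfsg.Agent.Chev.TimRoot

set_option autoImplicit false
open Cfsg

namespace Cfsg.Agent.S5026

open Cfsg.Agent.Chev.Tim

theorem mem_iff {G : Type*} [Group G] {S : Set (Subgroup G)} {x : G} {C : Subgroup G} :
    C ∈ centralizingMembers S (Subgroup.zpowers x) ↔ C ∈ S ∧ ∀ c ∈ C, x * c = c * x := by
  refine and_congr_right fun _ => ⟨fun h c hc => h hc x (Subgroup.mem_zpowers x), fun h c hc => ?_⟩
  rintro _ ⟨n, rfl⟩
  exact Commute.zpow_left (h c hc) n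

theorem key {G : Type*} [Group G] {S : Set (Subgroup G)} (hS : IsRootSubgroupSet S) (hdeg : IsDegenerateRootSet S)
    {a b : G} (ha : a ∈ rootElements S) (hb : b ∈ rootElements S) (hab : a * b = b * a) (hab1 : a * b ≠ 1)
    {C : Subgroup G} (hC : C ∈ S) (h : ∀ c ∈ C, a * b * c = c * (a * b)) : ∀ c ∈ C, a * c = c * a := by
  obtain ⟨ha1, A, hA, ha⟩ := ha
  obtain ⟨hb1, B, hB, hb⟩ := hb
  rcases hS.cases hA hC with h1 | h1 | h1
  · exact h1 a ha
  swap
  · exact absurd h1 (hdeg A hA C hC)
  exfalso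
  have e : conjBy C b = conjBy C a⁻¹ := by
    rw [conjBy_eq_conjBy_iff, inv_inv]; exact conjBy_of_commute h
  obtain ⟨h2, h3⟩ := hS.rankOne_of_conj_eq hC hB h1 (inv_mem ha) (by simpa using ha1) hb e
  by_cases hAB : A = B
  · subst hAB
    exact hab1 (h1.eq_one_of_commute_left (mul_mem ha hb) h)
  · exact (h1.unip_pair (IsRankOnePair.left_mem_unip A C) h3 hAB).not_commute ha ha1 hb hb1 hab

/-- Let S be a degenerate set of abstract root subgroups of G (a set of abstract transvection groups) and let a, b be commuting non-identity elements of members of S with a b ≠ 1. Then the members of S centralizing a b are exactly those centralizing both a and b. -/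
theorem result {G : Type*} [Group G] {S : Set (Subgroup G)} (hS : Cfsg.IsRootSubgroupSet S) (hdeg : Cfsg.IsDegenerateRootSet S)
    {a b : G} (ha : a ∈ Cfsg.rootElements S) (hb : b ∈ Cfsg.rootElements S) (hab : a * b = b * a) (hab1 : a * b ≠ 1) :
    Cfsg.centralizingMembers S (Subgroup.zpowers (a * b)) =
      Cfsg.centralizingMembers S (Subgroup.zpowers a) ∩ Cfsg.centralizingMembers S (Subgroup.zpowers b) := by
  ext C
  simp only [Set.mem_inter_iff, mem_iff]
  constructor
  · rintro ⟨hC, h⟩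
    exact ⟨⟨hC, key hS hdeg ha hb hab hab1 hC h⟩, hC,
      key hS hdeg hb ha hab.symm (hab ▸ hab1) hC (hab ▸ h)⟩
  · rintro ⟨⟨hC, h1⟩, -, h2⟩
    exact ⟨hC, fun c hc => Commute.mul_left (h1 c hc) (h2 c hc)⟩

end Cfsg.Agent.S5026
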