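import Mathlib
import Cfsg.Statements.S5027
import Cfsg.Agent.Chev.TimRoot

set_option autoImplicit false
open Cfsg

namespace Cfsg.Agent.S5027

open Cfsg.Agent.Chev.Tim


/-- Let S be a set of abstract root subgroups of G such that every member of S has a rank one partner in S (the graph of rank one pairs on S has no isolated vertex). Then the second centre of G equals its centre. -/
theorem result {G : Type*} [Group G] {S : Set (Subgroup G)} (hS : Cfsg.IsRootSubgroupSet S)
    (hF : ∀ A ∈ S, ¬ Cfsg.IsIsolatedIn (Cfsg.FAdj S) S A) : Subgroup.upperCentralSeries G 2 = Subgroup.center G := by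
  apply le_antisymm
  · intro z hz
    rw [Subgroup.mem_upperCentralSeries_succ_iff, Subgroup.upperCentralSeries_one] at hz
    refine hS.mem_center_of_forall fun A hA a ha => ?_
    by_cases ha1 : a = 1
    · simp [ha1]
    obtain ⟨B, hB, h⟩ := hasPartner_of_not_isolated hA (hF A hA)
    have hw := Subgroup.mem_center_iff.1 (hz a)
    have := hS.translate hB (hS.conj_mem A hA z) h (z := z * a * z⁻¹ * a⁻¹) ha ha1 (hw a).symm
      (fun b _ => (hw b).symm) (by rw [inv_mul_cancel_right]; exact conj_mem_conjBy ha z)
    calc z * a = (z * a * z⁻¹ * a⁻¹) * (a * z) := by group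
      _ = a * z := by rw [this, one_mul]
  · rw [← Subgroup.upperCentralSeries_one]
    exact Subgroup.upperCentralSeries_mono G (by norm_num)

end Cfsg.Agent.S5027
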