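import Mathlib
import Cfsg.Statements.S5029
import Cfsg.Agent.Chev.TimClass

set_option autoImplicit false
open Cfsg

namespace Cfsg.Agent.S5029

open Cfsg.Agent.Chev.Tim


/-- Let S be a set of abstract root subgroups of G, A ∈ S having a rank one partner in S, and B ∈ S with C = ⁅A, B⁆ ∈ S. Then the members of S contained in AC are the conjugates of A by elements of B together with C, they partition AC, the members of S inside AC partition AC so that A is a line partner of C, and for every non-identity a ∈ A the map b ↦ a⁻¹ b⁻¹ a b is an isomorphism from B onto C. -/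
theorem result {G : Type*} [Group G] {S : Set (Subgroup G)} (hS : Cfsg.IsRootSubgroupSet S)
    {A B : Subgroup G} (hA : ¬ Cfsg.IsIsolatedIn (Cfsg.FAdj S) S A) (hAS : A ∈ S) (hB : B ∈ S) (hC : ⁅A, B⁆ ∈ S) :
    Cfsg.membersIn S (A ⊔ ⁅A, B⁆) = (fun b : G => Cfsg.conjBy A b) '' (B : Set G) ∪ {⁅A, B⁆} ∧
    Cfsg.IsSubgroupPartition (A ⊔ ⁅A, B⁆) (Cfsg.membersIn S (A ⊔ ⁅A, B⁆)) ∧
    A ∈ Cfsg.linePartners S ⁅A, B⁆ ∧
    ∀ a ∈ A, a ≠ 1 → ∃ φ : ↥B ≃* ↥⁅A, B⁆, ∀ b : ↥B, (φ b : G) = a⁻¹ * (b : G)⁻¹ * a * b := by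
  have hp := hasPartner_of_not_isolated hAS hA
  have h := hS.cc_of_mem hAS hB hC
  refine ⟨?_, hS.cc_partition hAS hp h, IsRootSubgroupSet.line_symm hAS (hS.cc_line hAS hp h), fun a ha ha1 => ?_⟩
  · ext E
    constructor
    · intro hE
      rcases hS.cc_members hAS hp h hE.1 hE.2 with e | ⟨b, hb, e⟩
      · exact Or.inr e
      · exact Or.inl ⟨b, hb, e.symm⟩
    · rintro (⟨b, hb, rfl⟩ | e)
      · exact ⟨hS.conj_mem A hAS b, h.conjBy_left_le hb⟩
      · rw [Set.mem_singleton_iff.1 e]; exact ⟨hC, le_sup_right⟩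
  · have ha' := inv_mem ha
    have ha1' : a⁻¹ ≠ 1 := by simpa using ha1
    let f : B →* ↥⁅A, B⁆ := MonoidHom.mk' (fun b => ⟨a⁻¹ * (b : G)⁻¹ * a⁻¹⁻¹ * (b : G)⁻¹⁻¹,
      comm_mem ha' (inv_mem b.2)⟩) (by
        intro b b'
        apply Subtype.ext
        have := h.comm_mul_right ha' (inv_mem b.2) (inv_mem b'.2)
        have e : ((b * b' : B) : G)⁻¹ = (b : G)⁻¹ * (b' : G)⁻¹ := by
          rw [Subgroup.coe_mul, hS.comm_self hB _ b.2 _ b'.2, mul_inv_rev]
        simp only [Subgroup.coe_mul] at e ⊢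
        rw [e]; exact this)
    have hf : Function.Bijective f := by
      constructor
      · intro b b' e
        have := hS.cc_inj hAS hp h ha' ha1' (inv_mem b.2) (inv_mem b'.2) (congrArg Subtype.val e)
        exact Subtype.ext (inv_injective this)
      · intro c
        obtain ⟨b, hb, e⟩ := h.exists_right ha' ha1' c.2
        exact ⟨⟨b⁻¹, inv_mem hb⟩, Subtype.ext (by simpa [f] using e)⟩
    exact ⟨MulEquiv.ofBijective f hf, fun b => by simp [f]⟩

end Cfsg.Agent.S5029
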