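import Mathlib
import Cfsg.Statements.S5030
import Cfsg.Agent.Chev.TimClass
import Cfsg.Agent.GT.Conj

set_option autoImplicit false
open Cfsg

namespace Cfsg.Agent.S5030

open Cfsg.Agent.Chev.Tim

theorem conjBy_eq_of_commutator_le {G : Type*} [Group G] {N R : Subgroup G} (h : ⁅N, R⁆ ≤ N) :
    ∀ x ∈ R, conjBy N x = N := by
  have key : ∀ x ∈ R, conjBy N x ≤ N := by
    intro x hx y hy
    obtain ⟨n, hn, rfl⟩ := mem_conjBy'.1 hy
    have : x * n * x⁻¹ = n * (n⁻¹ * x * n⁻¹⁻¹ * x⁻¹) := by group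
    rw [this]
    exact mul_mem hn (h (comm_mem (inv_mem hn) hx))
  intro x hx
  refine le_antisymm (key x hx) ?_
  have := conjBy_mono (key x⁻¹ (inv_mem hx)) x
  rwa [conjBy_conjBy_inv] at this

theorem le_sup_conj {G : Type*} [Group G] {S : Set (Subgroup G)} {A B : Subgroup G}
    (h : RootCommutatorCase S A B) {b : G} (hb : b ∈ B) (hb1 : b ≠ 1) : ⁅A, B⁆ ≤ A ⊔ conjBy A b := by
  intro c hc
  obtain ⟨a, ha, rfl⟩ := h.exists_left hb hb1 hc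
  have : a * b * a⁻¹ * b⁻¹ = a * (b * a⁻¹ * b⁻¹) := by group
  rw [this]
  exact mul_mem (Subgroup.mem_sup_left ha) (Subgroup.mem_sup_right (conj_mem_conjBy (inv_mem ha) b))

/-- the pair `(A, C^b)` -/
theorem pair_cases {G : Type*} [Group G] {S : Set (Subgroup G)} (hS : IsRootSubgroupSet S)
    {A B C : Subgroup G} (hA : A ∈ S) (hC : C ∈ S) (h1 : RootCommutatorCase S A B)
    (h2 : RootCommutatorCase S C B) (hAC : Comm A C) {b : G} (hb : b ∈ B) (hb1 : b ≠ 1) :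
    (Comm A ⁅C, B⁆ → Comm (A ⊔ conjBy C b) (A ⊔ conjBy C b)) ∧
    (¬ Comm A ⁅C, B⁆ → ¬ Comm (A ⊔ conjBy C b) (A ⊔ conjBy C b)) ∧
      Comm ⁅A ⊔ conjBy C b, A ⊔ conjBy C b⁆ (A ⊔ conjBy C b) := by
  have hC' := hS.conj_mem C hC b
  have k : Comm A (conjBy C b) → Comm (A ⊔ conjBy C b) (A ⊔ conjBy C b) := fun h =>
    ((hS.comm_self hA).sup_right h).sup_left (h.symm.sup_right (hS.comm_self hC'))
  refine ⟨fun h => k ((hAC.sup_right h).mono le_rfl (h2.conjBy_left_le hb)), fun h h' => h ?_, ?_⟩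
  · exact (hAC.sup_right (h'.mono le_sup_left le_sup_right)).mono le_rfl (le_sup_conj h2 hb hb1)
  rcases hS.cases hA hC' with h | h | h
  · rw [comm_iff.2 (k h)]
    intro x hx y _
    rw [Subgroup.mem_bot.1 hx, one_mul, mul_one]
  · exfalso
    obtain ⟨c, hc, hc1⟩ := hS.exists_ne_one h1.mem
    obtain ⟨a, ha, rfl⟩ := h1.exists_left hb hb1 hc
    have ha1 : a ≠ 1 := by rintro rfl; simp at hc1
    have hA' : Comm (conjBy A b) A :=
      ((hS.comm_self hA).sup_left h1.commL).mono (h1.conjBy_left_le hb) le_rfl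
    have hz := conj_mem_conjBy (inv_mem ha) b
    have := hS.translate hC' h1.mem h ha ha1 (hA' _ hz a ha) ((hAC.conj b) _ hz)
      (by rw [hA' _ hz a ha]; simpa only [mul_assoc] using hc)
    simp [ha1] at this
  · exact h.comm_sup.mono (h.commutator_sup_le (hS.comm_self hA) (hS.comm_self hC')) le_rfl

/-- Let S be a set of abstract root subgroups of G and A, B, C ∈ S with ⁅A, B⁆ ∈ S and ⁅B, C⁆ ∈ S, where A and C are different and commute. For a non-identity b ∈ B put X = ⟨A, b⁻¹ C b⟩ and Y = ⟨b⁻¹ A b, C⟩ and R = ⟨A, B, C⟩. Then X and Y are either both abelian or both nilpotent of class exactly two; X and Y commute elementwise; XY is normal in R with R = (XY) B; and R is nilpotent. -/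
theorem result {G : Type*} [Group G] {S : Set (Subgroup G)} (hS : Cfsg.IsRootSubgroupSet S)
    {A B C : Subgroup G} (hA : A ∈ S) (hB : B ∈ S) (hC : C ∈ S) (hAB : ⁅A, B⁆ ∈ S) (hBC : ⁅B, C⁆ ∈ S)
    (hAC : C ∈ Cfsg.commutingPartners S A)
    {b : G} (hb : b ∈ B) (hb1 : b ≠ 1) :
    ((IsMulCommutative ↥(A ⊔ Cfsg.conjBy C b⁻¹) ∧ IsMulCommutative ↥(Cfsg.conjBy A b⁻¹ ⊔ C)) ∨
      ((¬ IsMulCommutative ↥(A ⊔ Cfsg.conjBy C b⁻¹) ∧
          ⁅⁅A ⊔ Cfsg.conjBy C b⁻¹, A ⊔ Cfsg.conjBy C b⁻¹⁆, A ⊔ Cfsg.conjBy C b⁻¹⁆ = ⊥) ∧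
        (¬ IsMulCommutative ↥(Cfsg.conjBy A b⁻¹ ⊔ C) ∧
          ⁅⁅Cfsg.conjBy A b⁻¹ ⊔ C, Cfsg.conjBy A b⁻¹ ⊔ C⁆, Cfsg.conjBy A b⁻¹ ⊔ C⁆ = ⊥))) ∧
    ⁅A ⊔ Cfsg.conjBy C b⁻¹, Cfsg.conjBy A b⁻¹ ⊔ C⁆ = ⊥ ∧
    (∀ r ∈ A ⊔ B ⊔ C, Cfsg.conjBy ((A ⊔ Cfsg.conjBy C b⁻¹) ⊔ (Cfsg.conjBy A b⁻¹ ⊔ C)) r =
      (A ⊔ Cfsg.conjBy C b⁻¹) ⊔ (Cfsg.conjBy A b⁻¹ ⊔ C)) ∧
    ((A ⊔ Cfsg.conjBy C b⁻¹) ⊔ (Cfsg.conjBy A b⁻¹ ⊔ C)) ⊔ B = A ⊔ B ⊔ C ∧
    Group.IsNilpotent ↥(A ⊔ B ⊔ C) := by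
  have h1 := hS.cc_of_mem hA hB hAB
  have h2 := (hS.cc_of_mem hB hC hBC).symm
  have hc : Comm A C := comm_iff.1 hAC.2.2
  have hb' := inv_mem hb
  have hb1' : b⁻¹ ≠ 1 := by simpa using hb1
  obtain ⟨x1, x2, x3⟩ := pair_cases hS hA hC h1 h2 hc hb' hb1'
  obtain ⟨y1, y2, y3⟩ := pair_cases hS hA hC h1 h2 hc hb hb1
  have eY : conjBy (A ⊔ conjBy C b) b⁻¹ = conjBy A b⁻¹ ⊔ C := by rw [conjBy_sup, conjBy_inv_conjBy]
  set X := A ⊔ conjBy C b⁻¹ with hX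
  set Y := conjBy A b⁻¹ ⊔ C with hY
  have y3' : Comm ⁅Y, Y⁆ Y := by rw [← eY, ← conjBy_commutator]; exact y3.conj _
  have hXY : Comm X Y := by
    refine Comm.sup_left (Comm.sup_right ?_ hc) (Comm.sup_right (hc.symm.conj _) ?_)
    · exact ((hS.comm_self hA).sup_right h1.commL.symm).mono le_rfl (h1.conjBy_left_le hb')
    · exact ((hS.comm_self hC).sup_left h2.commL).mono (h2.conjBy_left_le hb') le_rfl
  set M := X ⊔ Y with hM
  have hAM : A ≤ M := le_sup_left.trans le_sup_left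
  have hCM : C ≤ M := le_sup_right.trans le_sup_right
  have hDM : ⁅A, B⁆ ≤ M := (le_sup_conj h1 hb' hb1').trans (sup_le hAM (le_sup_left.trans le_sup_right))
  have hEM : ⁅C, B⁆ ≤ M := (le_sup_conj h2 hb' hb1').trans (sup_le hCM (le_sup_right.trans le_sup_left))
  have eM : M = (A ⊔ ⁅A, B⁆) ⊔ (C ⊔ ⁅C, B⁆) := by
    refine le_antisymm (sup_le (sup_le ?_ ?_) (sup_le ?_ ?_)) (sup_le (sup_le hAM hDM) (sup_le hCM hEM))
    · exact le_sup_left.trans le_sup_left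
    · exact (h2.conjBy_left_le hb').trans le_sup_right
    · exact (h1.conjBy_left_le hb').trans le_sup_left
    · exact le_sup_left.trans le_sup_right
  set R := A ⊔ B ⊔ C with hR
  have hAR : A ≤ R := le_sup_left.trans le_sup_left
  have hBR : B ≤ R := le_sup_right.trans le_sup_left
  have hCR : C ≤ R := le_sup_right
  have hMR : M ≤ R := by
    rw [eM]
    exact sup_le (sup_le hAR ((Subgroup.commutator_le_sup _ _).trans (sup_le hAR hBR)))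
      (sup_le hCR ((Subgroup.commutator_le_sup _ _).trans (sup_le hCR hBR)))
  have eR : M ⊔ B = R := le_antisymm (sup_le hMR hBR)
    (sup_le (sup_le (hAM.trans le_sup_left) le_sup_right) (hCM.trans le_sup_left))
  have hMn : ∀ r ∈ R, conjBy M r = M := by
    rw [← eR]
    refine conjBy_eq_of_mem_sup (fun x hx => conjBy_of_mem hx) fun x hx => ?_
    rw [eM, conjBy_sup, h1.conjBy_line hx, h2.conjBy_line hx]
  refine ⟨?_, comm_iff.2 hXY, hMn, eR, ?_⟩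
  · by_cases h : Comm A ⁅C, B⁆
    · exact Or.inl ⟨comm_self_iff.1 (x1 h), comm_self_iff.1 (eY ▸ (y1 h).conj _)⟩
    · refine Or.inr ⟨⟨fun h' => x2 h (comm_self_iff.2 h'), comm_iff.2 x3⟩, fun h' => y2 h ?_, comm_iff.2 y3'⟩
      rw [← comm_conj_iff (g := b⁻¹), eY]
      exact comm_self_iff.2 h'
  have cM : Comm (⁅X, X⁆ ⊔ ⁅Y, Y⁆) M :=
    (x3.sup_right (hXY.commutator_left hXY)).sup_left ((hXY.symm.commutator_left hXY.symm).sup_right y3')
  have hM' : Comm ⁅M, M⁆ M := by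
    refine cM.mono ?_ le_rfl
    have hn : ∀ x ∈ X ⊔ Y, conjBy (⁅X, X⁆ ⊔ ⁅Y, Y⁆) x = ⁅X, X⁆ ⊔ ⁅Y, Y⁆ := fun x hx => cM.conjBy_eq' hx
    refine commutator_sup_le hn (commutator_sup_le' hn le_sup_left ?_) (commutator_sup_le' hn ?_ le_sup_right)
    · rw [comm_iff.2 hXY]; exact bot_le
    · rw [comm_iff.2 hXY.symm]; exact bot_le
  have hM'n : ∀ r ∈ R, conjBy ⁅M, M⁆ r = ⁅M, M⁆ := fun r hr => by rw [conjBy_commutator, hMn r hr]
  set M₂ := (⁅A, B⁆ ⊔ ⁅C, B⁆) ⊔ ⁅M, M⁆ with hM₂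
  have hM₂M : M₂ ≤ M := sup_le (sup_le hDM hEM) (Subgroup.commutator_le_self _)
  have bot : ∀ {P Q N : Subgroup G}, Comm P Q → ⁅P, Q⁆ ≤ N := fun h => by rw [comm_iff.2 h]; exact bot_le
  have s2 : ⁅M₂, R⁆ ≤ ⁅M, M⁆ := by
    rw [← eR]
    refine commutator_sup_le' (fun x hx => hM'n x (eR ▸ hx)) (Subgroup.commutator_mono hM₂M le_rfl) ?_
    refine commutator_sup_le (fun x hx => hM'n x (hMR (hM₂M hx))) (bot (h1.commR.sup_left h2.commR)) ?_
    refine commutator_le_of fun x hx y hy => ?_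
    have : x * y * x⁻¹ * y⁻¹ = x * (y * x⁻¹ * y⁻¹) := by group
    rw [this]
    exact mul_mem hx (hM'n y (hBR hy) ▸ conj_mem_conjBy (inv_mem hx) y)
  have hM₂n := conjBy_eq_of_commutator_le (s2.trans (le_sup_right : ⁅M, M⁆ ≤ M₂))
  have s1 : ⁅R, R⁆ ≤ M₂ := by
    have n1 : ∀ x ∈ A ⊔ B, conjBy M₂ x = M₂ := fun x hx => hM₂n x (Subgroup.mem_sup_left hx)
    have hD : ⁅A, B⁆ ≤ M₂ := le_sup_left.trans le_sup_left
    have hE : ⁅C, B⁆ ≤ M₂ := le_sup_right.trans le_sup_left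
    refine commutator_sup_le hM₂n (commutator_sup_le n1 ?_ ?_) ?_
    · exact commutator_sup_le' hM₂n (commutator_sup_le' n1 (bot (hS.comm_self hA)) hD) (bot hc)
    · exact commutator_sup_le' hM₂n (commutator_sup_le' n1 (Subgroup.commutator_comm A B ▸ hD)
        (bot (hS.comm_self hB))) (Subgroup.commutator_comm C B ▸ hE)
    · exact commutator_sup_le' hM₂n (commutator_sup_le' n1 (bot hc.symm) hE) (bot (hS.comm_self hC))
  have nrm : ∀ {P Q : Subgroup G}, (∀ r ∈ R, conjBy P r = P) → (∀ r ∈ R, conjBy Q r = Q) →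
      R ≤ Subgroup.normalizer ((⁅P, Q⁆ : Subgroup G) : Set G) := fun hP hQ r hr =>
    conjBy_eq_self_iff.1 (by rw [conjBy_commutator, hP r hr, hQ r hr])
  have mr : ⁅M, R⁆ ≤ M₂ := (Subgroup.commutator_mono hMR le_rfl).trans s1
  have s3 : ⁅⁅M, M⁆, R⁆ ≤ ⁅M₂, M⁆ := by
    have n := nrm hM₂n hMn
    refine GT.three_subgroups_of_le_normalizer (hMR.trans n) (hMR.trans n) n
      (Subgroup.commutator_mono mr le_rfl) (Subgroup.commutator_mono ?_ le_rfl)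
    rw [Subgroup.commutator_comm]; exact mr
  have s4 : ⁅⁅M₂, M⁆, R⁆ ≤ ⁅M₂, M₂⁆ := by
    have n := nrm hM₂n hM₂n
    refine GT.three_subgroups_of_le_normalizer ((hM₂M.trans hMR).trans n) (hMR.trans n) n
      (Subgroup.commutator_mono mr le_rfl) (bot (hM'.mono ?_ le_rfl))
    rw [Subgroup.commutator_comm]; exact s2
  have s5 : ⁅⁅M₂, M₂⁆, R⁆ = ⊥ := by
    refine Subgroup.commutator_commutator_eq_bot_of_rotate (comm_iff.2 (hM'.mono s2 hM₂M))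
      (comm_iff.2 (hM'.mono ?_ hM₂M))
    rw [Subgroup.commutator_comm]; exact s2
  rw [Subgroup.isNilpotent_iff_lowerCentralSeries]
  refine ⟨5, le_bot_iff.1 ?_⟩
  rw [← s5]
  simp only [Subgroup.lowerCentralSeries_succ, Subgroup.lowerCentralSeries_zero]
  exact Subgroup.commutator_mono ((Subgroup.commutator_mono ((Subgroup.commutator_mono
    ((Subgroup.commutator_mono s1 le_rfl).trans s2) le_rfl).trans s3) le_rfl).trans s4) le_rfl

end Cfsg.Agent.S5030
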