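import Mathlib
import Cfsg.Statements.S5033
import Cfsg.Agent.Chev.TimClass
import Cfsg.Agent.GT.Quasisimple

set_option autoImplicit false
open Cfsg

namespace Cfsg.Agent.S5033

open Cfsg.Agent.Chev.Tim


/-- Quasisimplicity criterion for groups generated by abstract root subgroups. Let S be a set of abstract root subgroups of G with more than one member such that: the graph of rank one pairs on S is connected; no two different members of S have the same set of commuting members of S; if S is degenerate then every member of S has more than three elements; and every rank one pair in S is special. Then for every A ∈ S one has G = G' A with A ∩ G' ≠ 1, and the commutator subgroup G' is quasisimple. Moreover G is perfect if S is non-degenerate, or if some rank one pair A, B in S generates a perfect group. -/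
theorem result {G : Type*} [Group G] {S : Set (Subgroup G)} (hS : Cfsg.IsRootSubgroupSet S) (h2 : ∃ A ∈ S, ∃ B ∈ S, A ≠ B)
    (h1 : Cfsg.IsConnectedFamily (Cfsg.FAdj S) S)
    (h2' : ∀ A ∈ S, ∀ C ∈ S, A ≠ C → Cfsg.centralizingMembers S A ≠ Cfsg.centralizingMembers S C)
    (h3 : Cfsg.IsDegenerateRootSet S → ∀ A ∈ S, 3 < ENat.card A)
    (h4 : ∀ A ∈ S, ∀ B ∈ Cfsg.rankOnePartners S A, Cfsg.IsSpecialRankOnePair A B) :
    (∀ A ∈ S, commutator G ⊔ A = ⊤ ∧ A ⊓ commutator G ≠ ⊥) ∧ Cfsg.IsQuasisimple ↥(commutator G) ∧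
    (Cfsg.IsNondegenerateRootSet S → commutator G = ⊤) ∧
    ((∃ A ∈ S, ∃ B ∈ Cfsg.rankOnePartners S A, Group.IsPerfect ↥(A ⊔ B)) → commutator G = ⊤) := by
  have hall := IsRootSubgroupSet.allPartner_of_connected h1 h2
  have hcl : IsRootSubgroupClass S := by
    obtain ⟨A, hA, -⟩ := h2
    exact ⟨hS, ⟨A, hA⟩, fun A hA B hB => exists_conj_of_fpath (h1 A hA B hB)⟩
  have hperf : IsDegenerateRootSet S → ∀ A ∈ S, ∀ B ∈ S, IsRankOnePair A B → ⁅A ⊔ B, A ⊔ B⁆ = A ⊔ B :=
    fun hd A hA B hB h => (h4 A hA B ⟨hB, h⟩).perfect (hS.comm_self hA) (h3 hd A hA)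
  have hnd : ¬ IsDegenerateRootSet S → IsNondegenerateRootSet S := by
    intro hd
    simp only [IsDegenerateRootSet, not_forall, not_not] at hd
    obtain ⟨A, hA, B, hB, h⟩ := hd
    obtain ⟨D, hD, hAD⟩ := hall A hA
    exact ⟨⟨_, h.mem, A, hA, hS.cc_ne_left h, comm_iff.2 h.commL⟩, ⟨A, hA, D, hD, hAD⟩, A, hA, B, hB, h⟩
  have normal_le : ∀ N : Subgroup G, N.Normal → ∀ A ∈ S, A ≤ N → N = ⊤ := by
    intro N hN A hA hle
    refine hS.eq_top_of_forall_le fun B hB => ?_
    obtain ⟨g, rfl⟩ := hcl.2.2 A hA B hB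
    exact conjBy_le_of_eq hle (conjBy_eq_self_iff.2 (by rw [Subgroup.normalizer_eq_top]; trivial))
  have hG : commutator G = ⊤ := by
    by_cases hd : IsDegenerateRootSet S
    · obtain ⟨A, hA, -⟩ := h2
      obtain ⟨B, hB, h⟩ := hall A hA
      refine normal_le _ inferInstance A hA (le_sup_left.trans (?_ : A ⊔ B ≤ _))
      rw [← hperf hd A hA B hB h]
      exact Subgroup.commutator_mono le_top le_top
    · obtain ⟨A, -, B, -, h⟩ := (hnd hd).2.2
      exact normal_le _ inferInstance _ h.mem (Subgroup.commutator_mono le_top le_top)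
  refine ⟨fun A hA => ⟨by rw [hG, top_sup_eq], by rw [hG, inf_top_eq]; exact hS.ne_bot A hA⟩, ?_,
    fun _ => hG, fun _ => hG⟩
  rw [hG, GT.isQuasisimple_top_iff]
  have hnt : Nontrivial G := by
    obtain ⟨A, hA, -⟩ := h2
    obtain ⟨a, -, ha1⟩ := hS.exists_ne_one hA
    exact ⟨a, 1, ha1⟩
  have : Group.IsPerfect G := ⟨hG⟩
  refine IsQuasisimple.of_normal_le_center fun N hN => (eq_or_ne N ⊤).imp_right fun hNt => ?_
  set f := QuotientGroup.mk' N with hf
  have hker : ∀ x, f x = 1 ↔ x ∈ N := fun x => QuotientGroup.eq_one_iff x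
  -- some edge survives
  have hs : ∃ A ∈ S, ∀ a ∈ A, f a = 1 → a = 1 := by
    by_contra hc
    push Not at hc
    obtain ⟨A, hA, -⟩ := h2
    have key : ∀ B, Relation.ReflTransGen (FAdj S) A B → B.map f = A.map f := by
      intro B h
      induction h with
      | refl => rfl
      | tail _ h ih =>
        rcases map_dichotomy f h.2.2 with e | e
        · rw [← e, ih]
        · obtain ⟨a, ha, e1, e2⟩ := hc _ h.1
          exact absurd (e.2.1 a ha e1) e2
    have h5 : (A.map f).comap f = ⊤ := hS.eq_top_of_forall_le fun B hB =>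
      Subgroup.map_le_iff_le_comap.1 (key B (h1 A hA B hB)).le
    apply hNt
    rw [eq_top_iff, ← hG]
    refine commutator_le_of fun x _ y _ => (hker _).1 ?_
    have h6 : ∀ x, f x ∈ A.map f := fun x => Subgroup.mem_comap.1 (h5 ▸ Subgroup.mem_top x)
    have := (hS.comm_self hA).map f _ (h6 x) _ (h6 y)
    simp only [map_mul, map_inv]
    rw [this]; group
  have hinj : ∀ A ∈ S, ∀ a ∈ A, f a = 1 → a = 1 := by
    obtain ⟨A₀, hA₀, h₀⟩ := hs
    intro A hA a ha e
    obtain ⟨g, rfl⟩ := hcl.2.2 A₀ hA₀ A hA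
    obtain ⟨a', ha', rfl⟩ := mem_conjBy'.1 ha
    rw [h₀ a' ha' (by simpa using e)]
    simp
  have hbot : ∀ A ∈ S, ∀ B ∈ S, Comm (A.map f) (B.map f) → ∀ c ∈ ⁅A, B⁆, f c = 1 := by
    intro A _ B _ h c hc
    have : ⁅A, B⁆.map f = ⊥ := by rw [Subgroup.map_commutator, comm_iff.2 h]
    exact (Subgroup.eq_bot_iff_forall _).1 this _ ⟨c, hc, rfl⟩
  have hcc : ∀ A ∈ S, ∀ B ∈ S, RootCommutatorCase S A B → ¬ Comm (A.map f) (B.map f) := by
    intro A hA B hB h hc
    obtain ⟨c, hc', hc1⟩ := hS.exists_ne_one h.mem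
    exact hc1 (hinj _ h.mem c hc' (hbot A hA B hB hc c hc'))
  have hcomm : ∀ A ∈ S, ∀ B ∈ S, Comm (A.map f) (B.map f) → Comm A B := by
    intro A hA B hB hc
    rcases hS.cases hA hB with h | h | h
    · exact h
    swap
    · exact absurd hc (hcc A hA B hB h)
    exfalso
    have e := (map_dichotomy f h).resolve_right fun e => e.1.not_comm hc
    by_cases hd : IsDegenerateRootSet S
    · obtain ⟨a, ha, ha1⟩ := hS.exists_ne_one hA
      have h5 : (A ⊔ B).map f = ⊥ := by
        rw [← hperf hd A hA B hB h, Subgroup.map_commutator, Subgroup.map_sup, ← e, sup_idem,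
          comm_iff.2 ((hS.comm_self hA).map f)]
      exact ha1 (hinj A hA a ha ((Subgroup.eq_bot_iff_forall _).1 h5 _ ⟨a, Subgroup.mem_sup_left ha, rfl⟩))
    · obtain ⟨C, hC, h5, -, -⟩ := hcl.exists_nat (hnd hd) hA hB h
      exact hcc C hC.1.1 B hB h5 (e ▸ (IsRootSubgroupSet.line_comm hC).symm.map f)
  intro n hn
  refine hS.mem_center_of_forall fun A hA a ha => ?_
  have e : (conjBy A n).map f = A.map f := by rw [conjBy_map, (hker n).2 hn, conjBy_one]
  have hAn := hS.conj_mem A hA n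
  have e' : conjBy A n = A := by
    by_contra hne
    refine h2' _ hAn A hA hne ?_
    ext E
    refine and_congr_right fun hE => ?_
    rw [← comm_iff_le_centralizer, ← comm_iff_le_centralizer]
    exact ⟨fun h => hcomm E hE A hA (e ▸ h.map f), fun h => hcomm E hE _ hAn (e ▸ h.map f)⟩
  have := hinj A hA (n * a * n⁻¹ * a⁻¹) (mul_mem (e' ▸ conj_mem_conjBy ha n) (inv_mem ha))
    (by simp [(hker n).2 hn])
  calc n * a = (n * a * n⁻¹ * a⁻¹) * (a * n) := by group
    _ = a * n := by rw [this, one_mul]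

end Cfsg.Agent.S5033
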