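import Mathlib
import Cfsg.Statements.S5035
import Cfsg.Agent.Chev.TimClass

set_option autoImplicit false
open Cfsg

namespace Cfsg.Agent.S5035

open Cfsg.Agent.Chev.Tim


/-- Let S be a set of abstract root subgroups of G whose graph of rank one pairs is connected, and f a homomorphism from G onto a group H. Then either the images of the members of S form a set of abstract root subgroups of H whose graph of rank one pairs is again connected, or H equals the image of a member of S. -/
theorem result {G H : Type*} [Group G] [Group H] {S : Set (Subgroup G)} (hS : Cfsg.IsRootSubgroupSet S)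
    (hc : Cfsg.IsConnectedFamily (Cfsg.FAdj S) S) (f : G →* H) (hf : Function.Surjective f) :
    (Cfsg.IsRootSubgroupSet ((fun A : Subgroup G => A.map f) '' S) ∧
      Cfsg.IsConnectedFamily (Cfsg.FAdj ((fun A : Subgroup G => A.map f) '' S)) ((fun A : Subgroup G => A.map f) '' S)) ∨
    ∃ A ∈ S, A.map f = ⊤ := by
  by_cases hs : ∃ A ∈ S, ∃ B ∈ S, IsRankOnePair A B ∧ A.map f ≠ B.map f
  · left
    obtain ⟨A₀, hA₀, B₀, -, h₀, hne⟩ := hs
    have hinj : ∀ A ∈ S, ∀ a ∈ A, f a = 1 → a = 1 := by
      intro A hA a ha h1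
      obtain ⟨g, rfl⟩ := exists_conj_of_fpath (hc A₀ hA₀ A hA)
      obtain ⟨a', ha', rfl⟩ := mem_conjBy'.1 ha
      rw [((map_dichotomy f h₀).resolve_left hne).2.1 a' ha' (by simpa using h1)]
      simp
    refine ⟨⟨?_, ?_, ?_, ?_, ?_⟩, ?_⟩
    · rintro _ ⟨A, hA, rfl⟩
      exact comm_self_iff.1 ((hS.comm_self hA).map f)
    · rintro _ ⟨A, hA, rfl⟩ e
      obtain ⟨a, ha, ha1⟩ := hS.exists_ne_one hA
      exact ha1 (hinj A hA a ha ((Subgroup.eq_bot_iff_forall _).1 e _ ⟨a, ha, rfl⟩))
    · rw [eq_top_iff, ← Subgroup.map_top_of_surjective f hf, ← hS.generates, Subgroup.map_iSup]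
      refine iSup_le fun A => ?_
      rw [Subgroup.map_iSup]
      exact iSup_le fun hA => le_iSup₂_of_le (A.map f) ⟨A, hA, rfl⟩ le_rfl
    · rintro _ ⟨A, hA, rfl⟩ g
      obtain ⟨g, rfl⟩ := hf g
      exact ⟨_, hS.conj_mem A hA g, conjBy_map f A g⟩
    · rintro _ ⟨A, hA, rfl⟩ _ ⟨B, hB, rfl⟩
      rcases hS.cases hA hB with h | h | h
      · exact Or.inl (comm_iff.2 (h.map f))
      · rcases map_dichotomy f h with e | e
        · left
          rw [comm_iff]
          show Comm (A.map f) (B.map f)
          rw [e]; exact (hS.comm_self hB).map f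
        · exact Or.inr (Or.inl e.1)
      · right; right
        have e := Subgroup.map_commutator A B f
        refine RootCommutatorCase.of_exists ⟨_, h.mem, e⟩ (e ▸ h.commL.map f) (e ▸ h.commR.map f) ?_ ?_
        · rintro _ ⟨a, ha, rfl⟩ ha1 c hc
          obtain ⟨c', hc', rfl⟩ : c ∈ ⁅A, B⁆.map f := e ▸ hc
          obtain ⟨b, hb, rfl⟩ := h.exists_right ha (by rintro rfl; exact ha1 (map_one f)) hc'
          exact ⟨f b, ⟨b, hb, rfl⟩, by simp⟩
        · rintro _ ⟨b, hb, rfl⟩ hb1 c hc
          obtain ⟨c', hc', rfl⟩ : c ∈ ⁅A, B⁆.map f := e ▸ hc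
          obtain ⟨a, ha, rfl⟩ := h.exists_left hb (by rintro rfl; exact hb1 (map_one f)) hc'
          exact ⟨f a, ⟨a, ha, rfl⟩, by simp⟩
    · rintro _ ⟨A, hA, rfl⟩ _ ⟨B, hB, rfl⟩
      have h := hc A hA B hB
      clear hB
      induction h with
      | refl => exact .refl
      | tail _ h ih =>
        rcases map_dichotomy f h.2.2 with e | e
        · simp only [← e]; exact ih
        · exact ih.tail ⟨⟨_, h.1, rfl⟩, ⟨_, h.2.1, rfl⟩, e.1⟩
  · push Not at hs
    by_cases hne : S.Nonempty
    · right
      obtain ⟨A, hA⟩ := hne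
      refine ⟨A, hA, ?_⟩
      have key : ∀ B, Relation.ReflTransGen (FAdj S) A B → B.map f = A.map f := by
        intro B h
        induction h with
        | refl => rfl
        | tail _ h ih => rw [← hs _ h.1 _ h.2.1 h.2.2, ih]
      rw [eq_top_iff, ← Subgroup.map_top_of_surjective f hf, ← hS.generates, Subgroup.map_iSup]
      refine iSup_le fun B => ?_
      rw [Subgroup.map_iSup]
      exact iSup_le fun hB => (key B (hc A hA B hB)).le
    · left
      rw [Set.not_nonempty_iff_eq_empty] at hne
      subst hne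
      have h1 := hS.generates
      simp only [Set.mem_empty_iff_false, not_false_eq_true, iSup_neg, iSup_bot] at h1
      refine ⟨⟨by simp, by simp, ?_, by simp, by simp⟩, by simp [IsConnectedFamily]⟩
      rw [eq_top_iff, ← Subgroup.map_top_of_surjective f hf, ← h1, Subgroup.map_bot]
      exact bot_le

end Cfsg.Agent.S5035
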