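import Mathlib
import Cfsg.Statements.S5036
import Cfsg.Agent.Chev.TimClass

set_option autoImplicit false
open Cfsg

namespace Cfsg.Agent.S5036

open Cfsg.Agent.Chev.Tim


/-- Let S be a set of abstract root subgroups of G, A, B ∈ S with C = ⁅A, B⁆ ∈ S, and D ∈ S with ⁅D, C⁆ = A. Put X = ⟨B, D⟩ and N = AC. Then B, D form a rank one pair; the conjugates of A under X are the conjugates of C under X, namely the conjugates of A by elements of B together with C, equally the conjugates of C by elements of D together with A, and they partition N; and the centralizer of N in X is central in X. -/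
theorem result {G : Type*} [Group G] {S : Set (Subgroup G)} (hS : Cfsg.IsRootSubgroupSet S)
    {A B D : Subgroup G} (hA : A ∈ S) (hB : B ∈ S) (hC : ⁅A, B⁆ ∈ S) (hD : D ∈ S) (hDC : ⁅D, ⁅A, B⁆⁆ = A) :
    Cfsg.IsRankOnePair B D ∧
    {E | ∃ x ∈ B ⊔ D, E = Cfsg.conjBy A x} = {E | ∃ x ∈ B ⊔ D, E = Cfsg.conjBy ⁅A, B⁆ x} ∧
    {E | ∃ x ∈ B ⊔ D, E = Cfsg.conjBy A x} = (fun b : G => Cfsg.conjBy A b) '' (B : Set G) ∪ {⁅A, B⁆} ∧
    {E | ∃ x ∈ B ⊔ D, E = Cfsg.conjBy A x} = (fun d : G => Cfsg.conjBy ⁅A, B⁆ d) '' (D : Set G) ∪ {A} ∧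
    Cfsg.IsSubgroupPartition (A ⊔ ⁅A, B⁆) {E | ∃ x ∈ B ⊔ D, E = Cfsg.conjBy A x} ∧
    ∀ x ∈ (B ⊔ D) ⊓ Subgroup.centralizer ((A ⊔ ⁅A, B⁆ : Subgroup G) : Set G), ∀ y ∈ B ⊔ D, x * y = y * x := by
  have h1 := hS.cc_of_mem hA hB hC
  have h2 := hS.cc_of_mem hD hC (hDC.symm ▸ hA)
  have h := hS.nat_rankOne hA hB hD h1 h2 hDC
  have hDC' : ⁅⁅A, B⁆, D⁆ = A := by rw [Subgroup.commutator_comm, hDC]
  set N := A ⊔ ⁅A, B⁆ with hNd
  have hN : ∀ x ∈ B ⊔ D, conjBy N x = N := by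
    refine conjBy_eq_of_mem_sup (fun b hb => h1.conjBy_line hb) fun d hd => ?_
    have := h2.symm.conjBy_line hd
    rwa [hDC', sup_comm] at this
  have eC : N ⊓ Subgroup.centralizer (B : Set G) = ⁅A, B⁆ := hS.nat_centralizer hB ⟨D, hD, h⟩ h1
  have eA : N ⊓ Subgroup.centralizer (D : Set G) = A := by
    have := hS.nat_centralizer hD ⟨B, hB, h.symm⟩ h2.symm
    rwa [hDC', sup_comm] at this
  have hconj : ∀ (U : Subgroup G), ∀ x ∈ B ⊔ D, conjBy (N ⊓ Subgroup.centralizer (U : Set G)) x =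
      N ⊓ Subgroup.centralizer (conjBy U x : Set G) := by
    intro U x hx
    rw [conjBy_inf, hN x hx, conjBy_centralizer]
  obtain ⟨w, hw, wB, wD⟩ := h.exists_swap
  have wA : conjBy A w = ⁅A, B⁆ := by rw [← eC, ← wD, ← hconj D w hw, eA]
  have wC : conjBy ⁅A, B⁆ w = A := by
    conv_rhs => rw [← eA, ← wB, ← hconj B w hw, eC]
  have e1 : {E | ∃ x ∈ B ⊔ D, E = conjBy A x} = {E | ∃ x ∈ B ⊔ D, E = conjBy ⁅A, B⁆ x} := by
    ext E
    constructor
    · rintro ⟨x, hx, rfl⟩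
      exact ⟨x * w, mul_mem hx hw, by rw [← conjBy_conjBy, wC]⟩
    · rintro ⟨x, hx, rfl⟩
      exact ⟨x * w, mul_mem hx hw, by rw [← conjBy_conjBy, wA]⟩
  have e2 : {E | ∃ x ∈ B ⊔ D, E = conjBy A x} = (fun b : G => conjBy A b) '' (B : Set G) ∪ {⁅A, B⁆} := by
    ext E
    constructor
    · rintro ⟨x, hx, rfl⟩
      rcases h.mem_unip_iff.1 (h.conj_right_mem_unip hx) with e | ⟨b, hb, e⟩
      · right
        rw [Set.mem_singleton_iff, ← eC, ← e, ← hconj D x hx, eA]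
      · left
        refine ⟨b, hb, ?_⟩
        show conjBy A b = conjBy A x
        rw [← eA, hconj D x hx, hconj D b (Subgroup.mem_sup_left hb), e]
    · rintro (⟨b, hb, rfl⟩ | e)
      · exact ⟨b, Subgroup.mem_sup_left hb, rfl⟩
      · exact ⟨w, hw, by rw [Set.mem_singleton_iff.1 e, wA]⟩
  refine ⟨h, e1, e2, ?_, ⟨?_, ?_, ?_⟩, ?_⟩
  · rw [e1]
    ext E
    constructor
    · rintro ⟨x, hx, rfl⟩
      rcases h.mem_unip_iff'.1 (IsRankOnePair.conj_left_mem_unip hx) with e | ⟨d, hd, e⟩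
      · right
        rw [Set.mem_singleton_iff, ← eC, hconj B x hx, e, eA]
      · left
        refine ⟨d, hd, ?_⟩
        show conjBy ⁅A, B⁆ d = conjBy ⁅A, B⁆ x
        rw [← eC, hconj B x hx, hconj B d (Subgroup.mem_sup_right hd), e]
    · rintro (⟨d, hd, rfl⟩ | e)
      · exact ⟨d, Subgroup.mem_sup_right hd, rfl⟩
      · exact ⟨w, hw, by rw [Set.mem_singleton_iff.1 e, wC]⟩
  · rintro _ ⟨x, hx, rfl⟩
    exact conjBy_le_of_eq le_sup_left (hN x hx)
  · intro x hx hx1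
    obtain ⟨a, ha, c, hc, rfl⟩ := h1.commL.symm.mem_sup.1 hx
    by_cases ha1 : a = 1
    · exact ⟨_, ⟨w, hw, wA.symm⟩, by simpa [ha1] using hc⟩
    · obtain ⟨b, hb, e'⟩ := IsRootSubgroupSet.cc_mul_mem_conj h1 ha ha1 hc
      exact ⟨_, ⟨b, Subgroup.mem_sup_left hb, rfl⟩, e' ▸ conj_mem_conjBy ha b⟩
  · rintro _ ⟨x, hx, rfl⟩ _ ⟨y, hy, rfl⟩ hne
    rw [← eA, hconj D x hx, hconj D y hy] at hne ⊢
    have hne' : conjBy D x ≠ conjBy D y := fun e => hne (by rw [e])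
    rw [Subgroup.eq_bot_iff_forall]
    intro n hn
    have hc : ∀ z ∈ conjBy D x ⊔ conjBy D y, n * z = z * n :=
      commute_of_mem_sup (fun z hz => (hn.1.2 z hz).symm) (fun z hz => (hn.2.2 z hz).symm)
    rw [h.unip_sup (h.conj_right_mem_unip hx) (h.conj_right_mem_unip hy) hne'] at hc
    have hnA : n ∈ A := eA ▸ ⟨hn.1.1, fun z hz => (hc z (Subgroup.mem_sup_right hz)).symm⟩
    exact hS.cc_eq_one_left h1 hnA fun b hb => hc b (Subgroup.mem_sup_left hb)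
  · have hK : ∀ x ∈ B ⊔ D, conjBy ((B ⊔ D) ⊓ Subgroup.centralizer (N : Set G)) x =
        (B ⊔ D) ⊓ Subgroup.centralizer (N : Set G) := by
      intro x hx
      rw [conjBy_inf, conjBy_of_mem hx, conjBy_centralizer, hN x hx]
    rcases h.normal_dichotomy inf_le_left hK with e | e
    · exfalso
      refine hS.cc_not_comm h2 fun d hd c hc => ?_
      have hd' : d ∈ (B ⊔ D) ⊓ Subgroup.centralizer (N : Set G) ⊔ B := by
        rw [e]; exact Subgroup.mem_sup_right hd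
      obtain ⟨k, hk, b, hb, rfl⟩ := (mem_sup_of_normalizes fun b hb => hK b (Subgroup.mem_sup_left hb)).1 hd'
      have k1 : Commute k c := (hk.2 c (Subgroup.mem_sup_right hc)).symm
      exact k1.mul_left (h1.commR c hc b hb).symm
    · exact e

end Cfsg.Agent.S5036
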