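import Mathlib
import Cfsg.Statements.S5037
import Cfsg.Agent.Chev.TimClass

set_option autoImplicit false
open Cfsg

namespace Cfsg.Agent.S5037

open Cfsg.Agent.Chev.Tim


/-- Let S be a class of abstract root subgroups of G that is either degenerate or non-degenerate (so either the commutator case never occurs, or all three cases occur), and A ≠ C members of S. If every member of S commuting with A commutes with C, then A and C have the same commuting members of S; and if every rank one partner of A is a rank one partner of C, then A and C commute and have the same rank one partners. -/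
theorem result {G : Type*} [Group G] {S : Set (Subgroup G)} (hS : Cfsg.IsRootSubgroupClass S)
    (hdn : Cfsg.IsDegenerateRootSet S ∨ Cfsg.IsNondegenerateRootSet S)
    {A C : Subgroup G} (hA : A ∈ S) (hC : C ∈ S) (hAC : A ≠ C) :
    (Cfsg.centralizingMembers S A ⊆ Cfsg.centralizingMembers S C →
      Cfsg.centralizingMembers S A = Cfsg.centralizingMembers S C) ∧
    (Cfsg.rankOnePartners S A ⊆ Cfsg.rankOnePartners S C →
      ⁅A, C⁆ = ⊥ ∧ Cfsg.rankOnePartners S A = Cfsg.rankOnePartners S C) := by
  by_cases hp : ∃ P ∈ S, HasPartner S P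
  swap
  · push Not at hp
    have hd : IsDegenerateRootSet S := by
      rcases hdn with h | h
      · exact h
      · obtain ⟨P, hP, Q, hQ, h⟩ := h.2.1
        exact absurd ⟨Q, hQ, h⟩ (hp P hP)
    have hc : ∀ P ∈ S, ∀ Q ∈ S, Comm P Q := by
      intro P hP Q hQ
      rcases hS.1.cases hP hQ with h | h | h
      · exact h
      · exact absurd ⟨Q, hQ, h⟩ (hp P hP)
      · exact absurd h (hd P hP Q hQ)
    refine ⟨fun h => Set.Subset.antisymm h fun E hE => ⟨hE.1, comm_iff_le_centralizer.1 (hc E hE.1 A hA)⟩,
      fun h => ⟨comm_iff.2 (hc A hA C hC), Set.Subset.antisymm h fun E hE => absurd ⟨E, hE.1, hE.2⟩ (hp C hC)⟩⟩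
  obtain ⟨P, hP, hp⟩ := hp
  have hall := hS.1.allPartner_of_class hS.2 hP hp
  constructor
  · intro h
    have h' : ∀ E ∈ S, Comm E A → Comm E C := fun E hE hc =>
      comm_iff_le_centralizer.2 (h ⟨hE, comm_iff_le_centralizer.1 hc⟩).2
    have hc : Comm A C := h' A hA (hS.1.comm_self hA)
    obtain ⟨D, hD, hCD⟩ := hall C hC
    have hAD : IsRankOnePair A D := by
      rcases hS.1.cases hA hD with h1 | h1 | h1
      · exact absurd (h' D hD h1.symm).symm hCD.not_comm
      · exact h1
      · exact absurd (h' _ h1.mem h1.commL)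
          (hS.1.line_not_comm hD (hS.1.cc_line' hD (hall D hD) h1) hC hCD.symm)
    refine Set.Subset.antisymm h (IsRootSubgroupSet.tri_symm
      (r := fun P Q => centralizingMembers S P ⊆ centralizingMembers S Q) ?_ hc hAD hCD h)
    intro P Q g hPQ E hE
    have h1 : Comm (conjBy E g⁻¹) P := by
      have := (comm_iff_le_centralizer.2 hE.2).conj g⁻¹
      rwa [conjBy_inv_conjBy] at this
    have h2 := (comm_iff_le_centralizer.2
      (hPQ ⟨hS.1.conj_mem E hE.1 _, comm_iff_le_centralizer.1 h1⟩).2).conj g
    rw [conjBy_conjBy_inv] at h2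
    exact ⟨hE.1, comm_iff_le_centralizer.1 h2⟩
  · intro h
    obtain ⟨D, hD, hAD⟩ := hall A hA
    have hCD := (h ⟨hD, hAD⟩).2
    have hc : Comm A C := by
      rcases hS.1.cases hC hA with h1 | h1 | h1
      · exact h1.symm
      · exact absurd rfl (h ⟨hC, h1.symm⟩).2.ne
      · exfalso
        obtain ⟨F, hF, h2, e⟩ := hS.1.exists_opp hall h1.mem
          (IsRootSubgroupSet.line_symm hC (hS.1.cc_line hC (hall C hC) h1))
        have h3 := hS.1.nat_rankOne hC hA hF h1 h2.symm (by rw [Subgroup.commutator_comm, e])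
        exact (h ⟨hF, h3⟩).2.not_comm (e ▸ h2.commR)
    refine ⟨comm_iff.2 hc, Set.Subset.antisymm h (IsRootSubgroupSet.tri_symm
      (r := fun P Q => rankOnePartners S P ⊆ rankOnePartners S Q) ?_ hc hAD hCD h)⟩
    intro P Q g hPQ E hE
    have h1 : IsRankOnePair P (conjBy E g⁻¹) := by
      have := hE.2.conj g⁻¹
      rwa [conjBy_inv_conjBy] at this
    have h2 := (hPQ ⟨hS.1.conj_mem E hE.1 _, h1⟩).2.conj g
    rw [conjBy_conjBy_inv] at h2
    exact ⟨hE.1, h2⟩

end Cfsg.Agent.S5037
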