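import Mathlib
import Cfsg.Statements.S5039
import Cfsg.Agent.Chev.TimClass

set_option autoImplicit false
universe u
open Cfsg

namespace Cfsg.Agent.S5039

open Cfsg.Agent.Chev.Tim

section
variable {G : Type*} [Group G] {S : Set (Subgroup G)} {A B C D : Subgroup G}

theorem calc1 (hD : Comm D D) {m a d : G} (hm : ∀ x ∈ A, m * x = x * m) (hmD : Comm (conjBy D m) D)
    (ha : a ∈ A) (hd : d ∈ D) (e : conjBy A d = conjBy D a) :
    ∀ y ∈ D, Commute ((d * m * d⁻¹ * m⁻¹)⁻¹ * a⁻¹ * (d * m * d⁻¹ * m⁻¹) * a * m) y := by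
  intro y hy
  have k1 : Commute (d * m * d⁻¹ * m⁻¹) y := by
    have : d * m * d⁻¹ * m⁻¹ = d * (m * d⁻¹ * m⁻¹) := by group
    rw [this]
    exact Commute.mul_left (hD d hd y hy) (hmD _ (conj_mem_conjBy (inv_mem hd) m) y hy)
  have k2 : Commute (a⁻¹ * (d * m * d⁻¹) * a) y := by
    obtain ⟨x, hx, ex⟩ := mem_conjBy'.1 (e ▸ conj_mem_conjBy hy a : a * y * a⁻¹ ∈ conjBy A d)
    show _ = _
    calc a⁻¹ * (d * m * d⁻¹) * a * y = a⁻¹ * (d * m * d⁻¹) * (a * y * a⁻¹) * a := by group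
      _ = a⁻¹ * d * (m * x) * d⁻¹ * a := by rw [← ex]; group
      _ = a⁻¹ * (d * x * d⁻¹) * (d * m * d⁻¹) * a := by rw [hm x hx]; group
      _ = _ := by rw [ex]; group
  have : (d * m * d⁻¹ * m⁻¹)⁻¹ * a⁻¹ * (d * m * d⁻¹ * m⁻¹) * a * m =
      (d * m * d⁻¹ * m⁻¹)⁻¹ * (a⁻¹ * (d * m * d⁻¹) * a) := by
    calc _ = (d * m * d⁻¹ * m⁻¹)⁻¹ * a⁻¹ * (d * m * d⁻¹ * m⁻¹) * (a * m) := by group
      _ = _ := by rw [← hm a ha]; group
  rw [this]
  exact k1.inv_left.mul_left k2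

theorem calc2 {m a d : G} (hm : ∀ x ∈ A, m * x = x * m) (hmD : Comm (conjBy D m) D)
    (ha : a ∈ A) (hd : d ∈ D) (e : conjBy A d = conjBy D a) :
    conjBy A (d * m * d⁻¹ * m⁻¹)⁻¹ = conjBy D (d⁻¹ * a * m) := by
  have h1 := hmD _ (conj_mem_conjBy hd m) _ (inv_mem hd)
  have h2 : (d * m * d⁻¹ * m⁻¹)⁻¹ = d⁻¹ * m * d * m⁻¹ := by
    calc (d * m * d⁻¹ * m⁻¹)⁻¹ = m * d * m⁻¹ * d⁻¹ := by group
      _ = _ := by rw [h1]; group
  rw [h2, conjBy_mul_of_eq (conjBy_inv_of_eq (conjBy_of_commute hm)), ← conjBy_conjBy, e, conjBy_conjBy,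
    mul_assoc d⁻¹, hm a ha, mul_assoc]

theorem calc3 {m a d : G} (hm : ∀ x ∈ A, m * x = x * m) (hmD : Comm (conjBy D m) D)
    (ha : a ∈ A) (hd : d ∈ D) (e : conjBy A d = conjBy D a) :
    Comm (conjBy A (d * m * d⁻¹ * m⁻¹)⁻¹) A := by
  have := hmD.conj (d⁻¹ * a)
  rw [conjBy_conjBy, ← calc2 hm hmD ha hd e, ← conjBy_conjBy D, ← e, conjBy_inv_conjBy] at this
  exact this

theorem special_of_elem (h : IsRankOnePair A D) (hD : Comm D D) {m : G} (hm : ∀ x ∈ A, m * x = x * m)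
    (hmD : Comm (conjBy D m) D) (hne : conjBy D m ≠ D) : IsSpecialRankOnePair A D := by
  refine IsSpecialRankOnePair.of_match_inv h fun a ha ha1 d hd hd1 e => ?_
  have c1 := calc1 hD hm hmD ha hd e
  have c3 := calc3 hm hmD ha hd e
  set f := d * m * d⁻¹ * m⁻¹ with hf
  have h1 : f⁻¹ = d⁻¹ * m * d * m⁻¹ := by
    have h1 := hmD _ (conj_mem_conjBy hd m) _ (inv_mem hd)
    calc f⁻¹ = m * d * m⁻¹ * d⁻¹ := by rw [hf]; group
      _ = _ := by rw [h1]; group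
  have h2 : f⁻¹ * a⁻¹ * f * a = a * (f⁻¹ * a⁻¹ * f) := by
    simpa using c3 _ (conj_mem_conjBy (inv_mem ha) f⁻¹) a ha
  have h3 : ∀ y ∈ D, Commute (a * (d⁻¹ * m * d) * a⁻¹) y := by
    intro y hy
    have e1 : a * (d⁻¹ * m * d) * a⁻¹ = (f⁻¹ * a⁻¹ * f * a * m) * (d * (m⁻¹ * d⁻¹ * m⁻¹⁻¹)) := by
      calc a * (d⁻¹ * m * d) * a⁻¹ = a * f⁻¹ * (m * a⁻¹) := by rw [h1]; group
        _ = a * (f⁻¹ * a⁻¹ * f) * f⁻¹ * m := by rw [hm _ (inv_mem ha)]; group
        _ = _ := by rw [← h2, hf]; group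
    rw [e1]
    refine (c1 y hy).mul_left (Commute.mul_left (hD d hd y hy) ?_)
    have := hmD.conj m⁻¹
    rw [conjBy_inv_conjBy] at this
    exact (this y hy _ (conj_mem_conjBy (inv_mem hd) m⁻¹)).symm
  by_contra hne'
  have hu1 := IsRankOnePair.conj_left_mem_unip (A := A) (Subgroup.mem_sup_right (inv_mem hd))
  have hu2 := h.conj_right_mem_unip (Subgroup.mem_sup_left (inv_mem ha))
  have k6 : ∀ y ∈ conjBy A d⁻¹ ⊔ conjBy D a⁻¹, (d⁻¹ * m * d) * y = y * (d⁻¹ * m * d) := by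
    refine commute_of_mem_sup (fun y hy => ?_) fun y hy => ?_
    · obtain ⟨x, hx, rfl⟩ := mem_conjBy'.1 hy
      calc d⁻¹ * m * d * (d⁻¹ * x * d⁻¹⁻¹) = d⁻¹ * (m * x) * d := by group
        _ = _ := by rw [hm x hx]; group
    · obtain ⟨x, hx, rfl⟩ := mem_conjBy'.1 hy
      calc d⁻¹ * m * d * (a⁻¹ * x * a⁻¹⁻¹) = a⁻¹ * (a * (d⁻¹ * m * d) * a⁻¹ * x) * a := by group
        _ = _ := by rw [(h3 x hx).eq]; group
  rw [h.unip_sup hu1 hu2 hne'] at k6
  apply hne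
  refine conjBy_of_commute fun y hy => ?_
  have := k6 (d⁻¹ * y * d) (Subgroup.mem_sup_right (mul_mem (mul_mem (inv_mem hd) hy) hd))
  calc m * y = d * (d⁻¹ * m * d * (d⁻¹ * y * d)) * d⁻¹ := by group
    _ = _ := by rw [this]; group

theorem tri_elem (hS : IsRootSubgroupSet S) (hC : C ∈ S) (hD : D ∈ S) (hAC : Comm A C) (hne : C ≠ A)
    (h1 : IsRankOnePair A D) (h2 : IsRankOnePair C D) {a : G} (ha : a ∈ A) (ha1 : a ≠ 1) :
    ∃ c ∈ C, Comm (conjBy D (a⁻¹ * c)) D ∧ conjBy D (a⁻¹ * c) ≠ D := by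
  obtain ⟨d, hd, hd1, e1⟩ := h1.exists_match ha ha1
  obtain ⟨c, hc, -, e2⟩ := h2.exists_match' hd hd1
  refine ⟨c, hc, ?_, fun e => ?_⟩
  · have := (IsRootSubgroupSet.tri_comm hAC e1 e2).conj a⁻¹
    rw [conjBy_inv_conjBy, conjBy_conjBy] at this
    exact this.symm
  · have := (hS.rankOne_of_conj_eq hD hC h1 ha ha1 hc (conjBy_eq_conjBy_iff.2 e)).2
    exact (h1.unip_pair this (IsRankOnePair.left_mem_unip A D) hne).not_comm hAC.symm

theorem tri_special (hS : IsRootSubgroupSet S) (hA : A ∈ S) (hC : C ∈ S) (hD : D ∈ S) (hAC : Comm A C)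
    (hne : C ≠ A) (h1 : IsRankOnePair A D) (h2 : IsRankOnePair C D) : IsSpecialRankOnePair A D := by
  obtain ⟨a, ha, ha1⟩ := hS.exists_ne_one hA
  obtain ⟨c, hc, h3, h4⟩ := tri_elem hS hC hD hAC hne h1 h2 ha ha1
  exact special_of_elem h1 (hS.comm_self hD) (fun x hx =>
    Commute.mul_left (hS.comm_self hA _ (inv_mem ha) x hx) (hAC x hx c hc).symm) h3 h4

theorem small {A : Subgroup G} (h : ¬ 3 < ENat.card A) {x y : G} (hx : x ∈ A) (hx1 : x ≠ 1) (hy : y ∈ A)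
    (hy1 : y ≠ 1) : y = x ∨ y = x⁻¹ := by
  classical
  by_contra hc
  push Not at hc
  apply h
  have h3 : x * y ≠ 1 := fun e => hc.2 (eq_inv_of_mul_eq_one_right e)
  have h4 : x * y ≠ x := by simpa using hy1
  have h5 : x * y ≠ y := by simpa using hx1
  let s : Finset A := {1, ⟨x, hx⟩, ⟨y, hy⟩, ⟨x * y, mul_mem hx hy⟩}
  have hs : s.card = 4 := by
    simp only [s]
    rw [Finset.card_insert_of_notMem, Finset.card_insert_of_notMem, Finset.card_pair]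
    · simpa using h5.symm
    · simp [hc.1.symm, h4.symm]
    · simp [Subtype.ext_iff, hx1.symm, hy1.symm, h3.symm]
  have : ((s.card : ℕ) : ℕ∞) ≤ ENat.card A := by
    rw [← Set.encard_coe_eq_coe_finsetCard, ← Set.encard_univ]
    exact Set.encard_le_encard (Set.subset_univ _)
  rw [hs] at this
  exact lt_of_lt_of_le (by norm_num) this

end

/-- Let S be a class of abstract root subgroups of G containing two different commuting members. Suppose that, in case S is degenerate and every element of every member of S has order at most 3, the following holds: for every A ∈ S and every rank one partner B of A there are subgroups A₀ ≤ A and B₀ ≤ B generating an image of SL₂(k) with central kernel, k a field with at least four elements, A₀ and B₀ being the images of the unitriangular subgroups. Then every rank one pair A, B in S is special. -/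
theorem result {G : Type u} [Group G] {S : Set (Subgroup G)} (hS : Cfsg.IsRootSubgroupClass S)
    (hcomm : ∃ A ∈ S, ∃ C ∈ S, A ≠ C ∧ ⁅A, C⁆ = ⊥)
    (hH : Cfsg.IsDegenerateRootSet S → (∀ A ∈ S, ∀ a ∈ A, 0 < orderOf a ∧ orderOf a ≤ 3) →
      ∀ A ∈ S, ∀ B ∈ Cfsg.rankOnePartners S A, ∃ A₀ B₀ : Subgroup G, A₀ ≤ A ∧ B₀ ≤ B ∧
        ∃ (k : Type u) (_ : Field k), 3 < ENat.card k ∧ Cfsg.IsPSL2PairOver k A₀ B₀)
    {A B : Subgroup G} (hA : A ∈ S) (hB : B ∈ Cfsg.rankOnePartners S A) : Cfsg.IsSpecialRankOnePair A B := by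
  have hall := hS.1.allPartner_of_class hS.2 hA ⟨B, hB.1, hB.2⟩
  by_cases hd : IsDegenerateRootSet S
  swap
  · simp only [IsDegenerateRootSet, not_forall, not_not] at hd
    obtain ⟨P, hP, Q, hQ, h⟩ := hd
    exact hS.special ⟨hcomm, ⟨A, hA, B, hB.1, hB.2⟩, P, hP, Q, hQ, h⟩ hA hB.1 hB.2
  have cases : ∀ P ∈ S, ∀ Q ∈ S, Comm P Q ∨ IsRankOnePair P Q := by
    intro P hP Q hQ
    rcases hS.1.cases hP hQ with h | h | h
    exacts [Or.inl h, Or.inr h, absurd h (hd P hP Q hQ)]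
  by_cases ht : ∃ C ∈ S, C ≠ A ∧ Comm A C ∧ IsRankOnePair C B
  · obtain ⟨C, hC, h1, h2, h3⟩ := ht
    exact tri_special hS.1 hA hC hB.1 h2 h1 hB.2 h3
  have hΔ : ∀ C ∈ S, C ≠ A → Comm A C → Comm C B := fun C hC h1 h2 =>
    (cases C hC B hB.1).resolve_right fun h3 => ht ⟨C, hC, h1, h2, h3⟩
  by_cases h3 : 3 < ENat.card A
  swap
  · have h3' : ¬ 3 < ENat.card B := by
      obtain ⟨g, rfl⟩ := hS.2.2 A hA B hB.1
      rwa [← ENat.card_congr (conjByEquiv A g).toEquiv]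
    refine IsSpecialRankOnePair.of_match_inv hB.2 fun a ha ha1 b hb hb1 e => ?_
    obtain ⟨b', hb', hb'1, e'⟩ := hB.2.exists_match (inv_mem ha) (by simpa using ha1)
    rcases small h3' hb hb1 hb' hb'1 with h | h
    · obtain ⟨a', ha', ha'1, e''⟩ := hB.2.exists_match' (inv_mem hb) (by simpa using hb1)
      have h4 : a = a⁻¹ := hB.2.eq_of_conjBy_right_eq ha (inv_mem ha) (by rw [← e, ← e', h])
      rcases small h3 ha ha1 ha' ha'1 with h5 | h5
      · rw [e'', h5, ← h4]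
      · rw [e'', h5]
    · rw [← h, e']
  exfalso
  -- there is a triangle over `A`
  have htri : ∃ C ∈ S, ∃ D ∈ S, C ≠ A ∧ Comm A C ∧ IsRankOnePair A D ∧ IsRankOnePair C D := by
    by_contra hc
    push Not at hc
    have hc' : ∀ P ∈ S, ∀ C ∈ S, ∀ D ∈ S, C ≠ P → Comm P C → IsRankOnePair P D → Comm C D := by
      intro P hP C hC D hD h1 h2 h4
      obtain ⟨g, rfl⟩ := hS.2.2 P hP A hA
      exact (cases C hC D hD).resolve_right fun h5 => hc _ (hS.1.conj_mem C hC g) _ (hS.1.conj_mem D hD g)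
        (fun e => h1 (conjBy_inj.1 e)) (h2.conj g) (h4.conj g) (h5.conj g)
    obtain ⟨P, hP, C, hC, hne, hPC⟩ := hcomm
    have key : ∀ Q, Relation.ReflTransGen (FAdj S) P Q → C ≠ Q ∧ Comm Q C := by
      intro Q h
      induction h with
      | refl => exact ⟨hne.symm, comm_iff.1 hPC⟩
      | tail _ h ih =>
        refine ⟨fun e => h.2.2.not_comm (e ▸ ih.2), (hc' _ h.1 C hC _ h.2.1 ih.1 ih.2 h.2.2).symm⟩
    exact (key C (hS.1.fconnected hS.2 hall P hP C hC)).1 rfl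
  obtain ⟨C, hC, D, hD, hne, hAC, h1, h2⟩ := htri
  have hsp := tri_special hS.1 hA hC hD hAC hne h1 h2
  set K : Subgroup G := ⨆ E ∈ {E | E ∈ S ∧ E ≠ A ∧ Comm A E}, E with hK
  have hKB : Comm K B := by
    rw [comm_iff_le_centralizer]
    exact iSup₂_le fun E hE => comm_iff_le_centralizer.1 (hΔ E hE.1 hE.2.1 hE.2.2)
  have hKle : ∀ E ∈ S, E ≠ A → Comm A E → E ≤ K := fun E hE h4 h5 => le_iSup₂_of_le E ⟨hE, h4, h5⟩ le_rfl
  have hKn : ∀ g, conjBy A g = A → ∀ k ∈ K, g * k * g⁻¹ ∈ K := by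
    intro g hg k hk
    have : K ≤ conjBy K g⁻¹ := by
      refine iSup₂_le fun E hE => ?_
      rw [← conjBy_le_conjBy_iff (g := g), conjBy_conjBy_inv]
      refine hKle _ (hS.1.conj_mem E hE.1 g) (fun e => hE.2.1 (conjBy_inj.1 (e.trans hg.symm))) ?_
      have := hE.2.2.conj g
      rwa [hg] at this
    simpa using mem_conjBy.1 (this hk)
  have dec : ∀ x ∈ A, ∃ k ∈ K, ∃ z, (∀ y ∈ A ⊔ D, z * y = y * z) ∧ x = k * z := by
    intro x hx
    have : ∃ a₀ ∈ A, a₀ ≠ 1 ∧ x * a₀ ≠ 1 := by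
      by_contra hc
      push Not at hc
      obtain ⟨a, ha, ha1⟩ := hS.1.exists_ne_one hA
      have hsub : (Set.univ : Set A) ⊆ {1, ⟨x⁻¹, inv_mem hx⟩} := by
        intro y _
        by_cases hy : (y : G) = 1
        · exact Or.inl (Subtype.ext hy)
        · exact Or.inr (Subtype.ext (eq_inv_of_mul_eq_one_right (hc y y.2 hy)))
      have := (Set.encard_le_encard hsub).trans (Set.encard_insert_le _ _)
      rw [Set.encard_univ, Set.encard_singleton] at this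
      exact absurd (h3.trans_le this) (by norm_num)
    obtain ⟨a₀, ha₀, ha₀1, hxa⟩ := this
    obtain ⟨c, hc, h4, h5⟩ := tri_elem hS.1 hC hD hAC hne h1 h2 ha₀ ha₀1
    have ha := mul_mem hx ha₀
    obtain ⟨d, hd', hd1, e⟩ := h1.exists_match ha hxa
    have hm : ∀ y ∈ A, a₀⁻¹ * c * y = y * (a₀⁻¹ * c) := fun y hy =>
      Commute.mul_left (hS.1.comm_self hA _ (inv_mem ha₀) y hy) (hAC y hy c hc).symm
    have c1 := calc1 (hS.1.comm_self hD) hm h4 ha hd' e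
    have c2 := calc2 hm h4 ha hd' e
    have c3 := calc3 hm h4 ha hd' e
    set f := d * (a₀⁻¹ * c) * d⁻¹ * (a₀⁻¹ * c)⁻¹ with hf
    have hfK : conjBy A f⁻¹ ≤ K := by
      refine hKle _ (hS.1.conj_mem A hA _) (fun e' => h5 ?_) c3.symm
      rw [c2, ← conjBy_conjBy, conjBy_eq_iff, mul_inv_rev, inv_inv, ← conjBy_conjBy A, e,
        conjBy_inv_conjBy] at e'
      exact e'
    have hu := conj_mem_conjBy (inv_mem ha) f⁻¹
    rw [inv_inv] at hu
    set z := f⁻¹ * (x * a₀)⁻¹ * f * (x * a₀) * (a₀⁻¹ * c) with hz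
    have hzA : ∀ y ∈ A, z * y = y * z := fun y hy =>
      Commute.mul_left (Commute.mul_left (c3 _ hu y hy) (hS.1.comm_self hA _ ha y hy)) (hm y hy)
    refine ⟨(f⁻¹ * (x * a₀)⁻¹ * f)⁻¹ * (z * c⁻¹ * z⁻¹), mul_mem (inv_mem (hfK hu))
      (hKn z (conjBy_of_commute hzA) _ (inv_mem (hKle C hC hne hAC hc))), z,
      commute_of_mem_sup hzA c1, ?_⟩
    rw [hz]; group
  have : ⁅A, rankOneDiagonal A D⁆ ≤ K := by
    refine commutator_le_of fun x hx h hh => ?_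
    obtain ⟨k, hk, z, hz, rfl⟩ := dec x hx
    obtain ⟨hh1, hh2, -⟩ := IsSpecialRankOnePair.mem_diagonal_iff.1 hh
    have : k * z * h * (k * z)⁻¹ * h⁻¹ = k * (h * k⁻¹ * h⁻¹) := by
      calc k * z * h * (k * z)⁻¹ * h⁻¹ = k * (z * h) * z⁻¹ * k⁻¹ * h⁻¹ := by group
        _ = _ := by rw [hz h hh1]; group
    rw [this]
    exact mul_mem hk (hKn h hh2 _ (inv_mem hk))
  exact hB.2.not_comm (hKB.mono ((hsp.le_commutator_diagonal (hS.1.comm_self hA) h3).trans this) le_rfl)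

end Cfsg.Agent.S5039
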