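import Mathlib
import Cfsg.Statements.S5040
import Cfsg.Agent.Chev.TimClass

set_option autoImplicit false
open Cfsg

namespace Cfsg.Agent.S5040

open Cfsg.Agent.Chev.Tim


/-- Let S be a non-degenerate class of abstract root subgroups of G and Δ a weak TI-subset of S. Then the members of Δ commute with one another elementwise. -/
theorem result {G : Type*} [Group G] {S : Set (Subgroup G)} (hS : Cfsg.IsRootSubgroupClass S) (hnd : Cfsg.IsNondegenerateRootSet S)
    {Δ : Set (Subgroup G)} (hΔ : Cfsg.IsWeakTISubset S Δ) : Cfsg.IsAbelianFamily Δ := by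
  obtain ⟨hsub, -, hne, hTI⟩ := hΔ
  have hall := hS.allPartner hnd
  have fix : ∀ P ∈ Δ, ∀ E ∈ S, ∀ e ∈ E, conjBy P e = P → (fun A => conjBy A e) '' Δ = Δ := by
    intro P hP E hE e he h
    by_cases he1 : e = 1
    · simp [he1, conjBy_one]
    rcases hTI e ⟨he1, E, hE, he⟩ with h1 | h1
    · exact h1
    · exact absurd hP (Set.disjoint_left.1 h1 ⟨P, hP, h⟩)
  have main : ∀ A ∈ Δ, ∀ B ∈ Δ, ¬ IsRankOnePair A B := by
    intro A hA B hB h
    let U : Subgroup G :=
      { carrier := {g | (fun A => conjBy A g) '' Δ = Δ}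
        one_mem' := by simp [conjBy_one]
        mul_mem' := by
          intro x y hx hy
          have : (fun A : Subgroup G => conjBy A (x * y)) = (fun A => conjBy A x) ∘ (fun A => conjBy A y) := by
            funext A; simp [conjBy_conjBy]
          simp only [Set.mem_ofPred_eq] at hx hy ⊢
          rw [this, Set.image_comp, hy, hx]
        inv_mem' := by
          intro x hx
          simp only [Set.mem_ofPred_eq] at hx ⊢
          conv_lhs => rw [← hx, ← Set.image_comp]
          have : ((fun A : Subgroup G => conjBy A x⁻¹) ∘ fun A => conjBy A x) = id := by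
            funext A; simp [conjBy_inv_conjBy]
          rw [this, Set.image_id] }
    have hU : U = ⊤ := hS.generated hnd (hsub hA) (hsub hB) h
      (fun C hC c hc => fix A hA C hC.1.1 c hc ((IsRootSubgroupSet.line_comm hC).conjBy_eq' hc))
      (fun b hb => fix B hB B (hsub hB) b hb (conjBy_of_mem hb))
    refine hne (Set.Subset.antisymm hsub fun E hE => ?_)
    obtain ⟨g, rfl⟩ := hS.2.2 A (hsub hA) E hE
    have : g ∈ U := hU ▸ Subgroup.mem_top g
    exact (this : (fun A => conjBy A g) '' Δ = Δ) ▸ ⟨A, hA, rfl⟩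
  intro A hA B hB
  rcases hS.1.cases (hsub hA) (hsub hB) with h | h | h
  · exact h
  · exact absurd h (main A hA B hB)
  exfalso
  obtain ⟨F, hF, h2, e⟩ := hS.1.exists_opp hall h.mem
    (IsRootSubgroupSet.line_symm (hsub hA) (hS.1.cc_line (hsub hA) (hall A (hsub hA)) h))
  have h3 := hS.1.nat_rankOne (hsub hA) (hsub hB) hF h h2.symm (by rw [Subgroup.commutator_comm, e])
  obtain ⟨f, hf, hf1⟩ := hS.1.exists_ne_one hF
  have hAF : Comm A F := e ▸ h2.commR
  have := fix A hA F hF f hf (hAF.conjBy_eq' hf)
  exact main B hB (conjBy B f) (this ▸ ⟨B, hB, rfl⟩) (h3.left_conj_pair hf hf1)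

end Cfsg.Agent.S5040
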