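import Mathlib
import Cfsg.Statements.S5043
import Cfsg.Agent.Cl.LinearTransv
import Cfsg.Agent.Chev.TimSL2

set_option autoImplicit false
open Matrix
open Cfsg

namespace Cfsg.Agent.S5043

section Aux

open Cfsg.Agent.Cl Cfsg.Agent.Chev
open scoped commutatorElement

variable {F : Type*} [Field F] {ι : Type*} [Fintype ι] [DecidableEq ι] {a b φ ψ : ι → F}

/-- The root groups of transvections. -/
def roots (ι : Type*) [Fintype ι] [DecidableEq ι] (F : Type*) [Field F] :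
    Set (Subgroup (SpecialLinearGroup ι F)) :=
  {A | ∃ a φ : ι → F, a ≠ 0 ∧ φ ≠ 0 ∧ φ ⬝ᵥ a = 0 ∧ A = tvGroup a φ}

theorem dot_smul (h : φ ⬝ᵥ a = 0) (c : F) : φ ⬝ᵥ c • a = 0 := by
  rw [dotProduct_smul, h, smul_zero]

theorem comm2 (ha : φ ⬝ᵥ a = 0) (h1 : φ ⬝ᵥ b = 0) (h2 : ψ ⬝ᵥ a = 0) :
    Tim.Comm (tvGroup a φ) (tvGroup b ψ) := by
  rintro _ ⟨c, rfl⟩ _ ⟨d, rfl⟩
  exact (tv_commute (dot_smul ha c) (dot_smul h1 d) (dot_smul h2 c)).eq

theorem comm (ha : φ ⬝ᵥ a = 0) : IsMulCommutative (tvGroup a φ) :=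
  Tim.comm_self_iff.1 (comm2 ha ha ha)

theorem ne_bot (h : φ ⬝ᵥ a = 0) (ha : a ≠ 0) (hφ : φ ≠ 0) : tvGroup a φ ≠ ⊥ := fun e => by
  have := tv_mem a φ
  rw [e, Subgroup.mem_bot, tv_eq_one_iff h] at this
  tauto

theorem cond (ha : φ ⬝ᵥ a = 0) (hb : ψ ⬝ᵥ b = 0) (h1 : φ ⬝ᵥ b ≠ 0) (h2 : ψ ⬝ᵥ a ≠ 0) :
    RankOneCondition (tvGroup a φ) (tvGroup b ψ) := by
  rintro _ ⟨c, rfl⟩ hc1
  have hc : c ≠ 0 := by rintro rfl; simp at hc1
  have hb0 : b ≠ 0 := by rintro rfl; simp at h1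
  have hψ : ψ ≠ 0 := by rintro rfl; simp at h2
  refine ⟨tv ((1 / (c * (φ ⬝ᵥ b) * (ψ ⬝ᵥ a))) • b) ψ, tv_smul_mem _ _ _, by
    simp [tv_eq_one_iff (dot_smul hb _), hb0, hψ, hc, h1, h2], ?_⟩
  rw [conjBy, conjBy, tv_inv, tv_inv, ← neg_smul, ← neg_smul, tvGroup_map_conj_tv (dot_smul hb _),
    tvGroup_map_conj_tv (dot_smul ha _), ← tvGroup_smul_left (c := -c * (φ ⬝ᵥ b)) (by simp [hc, h1]),
    ← tvGroup_smul_right (c := c * (ψ ⬝ᵥ a)) (by simp [hc, h2])]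
  congr 1
  · ext i; simp; field_simp; ring
  · ext i; simp; field_simp; ring

theorem pair (ha : φ ⬝ᵥ a = 0) (hb : ψ ⬝ᵥ b = 0) (h1 : φ ⬝ᵥ b ≠ 0) (h2 : ψ ⬝ᵥ a ≠ 0) :
    IsRankOnePair (tvGroup a φ) (tvGroup b ψ) where
  ne := fun e => by
    have := Tim.comm_self_iff.2 (comm ha) _ (tv_mem a φ) _ (e ▸ tv_mem b ψ)
    exact h1 ((tv_commute_iff ha hb (by rintro rfl; simp at h2) (by rintro rfl; simp at h1)
      (by rintro rfl; simp at h1) (by rintro rfl; simp at h2)).1 this).1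
  nilpotent_left := by have := comm ha; open scoped IsMulCommutative in infer_instance
  nilpotent_right := by have := comm hb; open scoped IsMulCommutative in infer_instance
  cond_left := cond ha hb h1 h2
  cond_right := cond hb ha h2 h1

theorem not_pair (ha : φ ⬝ᵥ a = 0) (hb : ψ ⬝ᵥ b = 0) (ha0 : a ≠ 0) (hφ : φ ≠ 0) (hb0 : b ≠ 0)
    (hψ : ψ ≠ 0) (h2 : ψ ⬝ᵥ a = 0) : ¬ IsRankOnePair (tvGroup a φ) (tvGroup b ψ) := by
  intro h
  by_cases h1 : φ ⬝ᵥ b = 0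
  · exact h.not_comm (comm2 ha h1 h2)
  obtain ⟨_, ⟨d, rfl⟩, -, e⟩ := h.exists_match (tv_mem a φ) (by simp [tv_eq_one_iff ha, ha0, hφ])
  rw [conjBy, conjBy, tvGroup_map_conj_tv (dot_smul hb _), tvGroup_map_conj_tv ha, h2] at e
  simp only [zero_smul, add_zero, sub_zero] at e
  have hb' : ψ ⬝ᵥ (b + (φ ⬝ᵥ b) • a) = 0 := by simp [hb, h2]
  have hm := tv_mem (b + (φ ⬝ᵥ b) • a) ψ
  rw [← e] at hm
  obtain ⟨c, hc⟩ := hm
  have h3 := congrArg (fun g : SpecialLinearGroup ι F => φ ᵥ* (g : Matrix ι ι F)) hc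
  rw [vecMul_tv hb', vecMul_tv (dot_smul (by simp [ha, h2]) c)] at h3
  simp [ha, h1, hψ] at h3

theorem closure_image_eq {G : Type*} [Group G] {B C : Subgroup G} {f : G → G}
    (h1 : ∀ y ∈ B, f y ∈ C) (h2 : ∀ z ∈ C, ∃ y ∈ B, f y = z) :
    Subgroup.closure (f '' (B : Set G)) = C := by
  rw [← Subgroup.closure_eq C]
  congr 1
  ext z
  exact ⟨fun ⟨y, hy, e⟩ => e ▸ h1 y hy, h2 z⟩

theorem commutator_eq (ha : φ ⬝ᵥ a = 0) (hb : ψ ⬝ᵥ b = 0) (h1 : φ ⬝ᵥ b ≠ 0) (h2 : ψ ⬝ᵥ a = 0) :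
    ⁅tvGroup a φ, tvGroup b ψ⁆ = tvGroup a ψ := by
  refine le_antisymm (Subgroup.commutator_le.2 ?_) ?_
  · rintro _ ⟨c, rfl⟩ _ ⟨d, rfl⟩
    rw [tv_commutator_left (dot_smul ha c) (dot_smul hb d) (dot_smul h2 c), smul_smul]
    exact tv_smul_mem _ _ _
  · rintro _ ⟨e, rfl⟩
    have := Subgroup.commutator_mem_commutator (tv_smul_mem (e / (φ ⬝ᵥ b)) a φ) (tv_mem b ψ)
    rwa [tv_commutator_left (dot_smul ha _) hb (dot_smul h2 _), smul_smul,
      mul_div_cancel₀ _ h1] at this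

theorem case_left (ha : φ ⬝ᵥ a = 0) (hb : ψ ⬝ᵥ b = 0) (ha0 : a ≠ 0) (hψ : ψ ≠ 0)
    (h1 : φ ⬝ᵥ b ≠ 0) (h2 : ψ ⬝ᵥ a = 0) :
    RootCommutatorCase (roots ι F) (tvGroup a φ) (tvGroup b ψ) := by
  rw [RootCommutatorCase, commutator_eq ha hb h1 h2]
  refine ⟨⟨a, ψ, ha0, hψ, h2, rfl⟩, (comm2 h2 h2 ha).sup_right (comm2 h2 hb h2), ?_, ?_⟩
  · rintro _ ⟨c, rfl⟩ hc1
    have hc : c ≠ 0 := by rintro rfl; simp at hc1
    refine closure_image_eq ?_ ?_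
    · rintro _ ⟨d, rfl⟩
      rw [← commutatorElement_def,
        tv_commutator_left (dot_smul ha c) (dot_smul hb d) (dot_smul h2 c), smul_smul]
      exact tv_smul_mem _ _ _
    · rintro _ ⟨e, rfl⟩
      refine ⟨_, tv_smul_mem (e / (c * (φ ⬝ᵥ b))) b ψ, ?_⟩
      rw [← commutatorElement_def,
        tv_commutator_left (dot_smul ha c) (dot_smul hb _) (dot_smul h2 c), smul_smul]
      congr 2
      simp; field_simp
  · rintro _ ⟨d, rfl⟩ hd1
    have hd : d ≠ 0 := by rintro rfl; simp at hd1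
    refine closure_image_eq ?_ ?_
    · rintro _ ⟨c, rfl⟩
      rw [← commutatorElement_def,
        tv_commutator_left (dot_smul ha c) (dot_smul hb d) (dot_smul h2 c), smul_smul]
      exact tv_smul_mem _ _ _
    · rintro _ ⟨e, rfl⟩
      refine ⟨_, tv_smul_mem (e / (d * (φ ⬝ᵥ b))) a φ, ?_⟩
      rw [← commutatorElement_def,
        tv_commutator_left (dot_smul ha _) (dot_smul hb _) (dot_smul h2 _), smul_smul]
      congr 2
      simp; field_simp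

theorem closure_image_inv {G : Type*} [Group G] (s : Set G) (f g : G → G)
    (h : ∀ y, g y = (f y)⁻¹) : Subgroup.closure (g '' s) = Subgroup.closure (f '' s) := by
  rw [← Subgroup.closure_inv (f '' s), ← Set.image_inv_eq_inv, Set.image_image]
  simp only [h]

theorem case_symm {G : Type*} [Group G] {S : Set (Subgroup G)} {A B : Subgroup G}
    (h : RootCommutatorCase S A B) : RootCommutatorCase S B A := by
  obtain ⟨h1, h2, h3, h4⟩ := h
  rw [RootCommutatorCase, Subgroup.commutator_comm B A, sup_comm B A]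
  refine ⟨h1, h2, fun x hx hx1 => ?_, fun x hx hx1 => ?_⟩
  · rw [← h4 x hx hx1]
    exact closure_image_inv _ _ _ fun y => by group
  · rw [← h3 x hx hx1]
    exact closure_image_inv _ _ _ fun y => by group

theorem psl2 (ha : φ ⬝ᵥ a = 0) (hb : ψ ⬝ᵥ b = 0) (h1 : φ ⬝ᵥ b ≠ 0) (h2 : ψ ⬝ᵥ a ≠ 0) :
    IsPSL2PairOver F (tvGroup a φ) (tvGroup b ψ) := by
  rw [← tvGroup_smul_left (inv_ne_zero h1) b, ← tvGroup_smul_right (inv_ne_zero h2) _ ψ]
  have hb' : ((ψ ⬝ᵥ a)⁻¹ • ψ) ⬝ᵥ ((φ ⬝ᵥ b)⁻¹ • b) = 0 := by simp [hb]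
  have h1' : φ ⬝ᵥ ((φ ⬝ᵥ b)⁻¹ • b) = 1 := by simp [h1]
  have h2' : ((ψ ⬝ᵥ a)⁻¹ • ψ) ⬝ᵥ a = 1 := by simp [h2]
  have hu : ∀ t : F, GT.slUp t = SpecialLinearGroup.transvection (by decide : (0 : Fin 2) ≠ 1) t :=
    fun t => sl_ext (by
      ext i j; fin_cases i <;> fin_cases j <;> simp [SpecialLinearGroup.transvection_coe])
  have hl : ∀ t : F, GT.slLo t = SpecialLinearGroup.transvection (by decide : (1 : Fin 2) ≠ 0) t :=
    fun t => sl_ext (by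
      ext i j; fin_cases i <;> fin_cases j <;> simp [SpecialLinearGroup.transvection_coe])
  have e1 : (upperUnipotentSL2 F).map (tvSL2 ha hb' h1' h2') = tvGroup a φ := by
    ext g
    simp only [Subgroup.mem_map, Tim.mem_upperUnipotentSL2, mem_tvGroup, hu, exists_exists_eq_and,
      eq_comm (a := g), ← tvSL2_upper ha hb' h1' h2']
    exact ⟨fun ⟨_, ⟨t, e⟩, e'⟩ => ⟨t, e ▸ e'⟩, fun ⟨t, e⟩ => ⟨_, ⟨t, rfl⟩, e⟩⟩
  have e2 : (lowerUnipotentSL2 F).map (tvSL2 ha hb' h1' h2') =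
      tvGroup ((φ ⬝ᵥ b)⁻¹ • b) ((ψ ⬝ᵥ a)⁻¹ • ψ) := by
    ext g
    simp only [Subgroup.mem_map, Tim.mem_lowerUnipotentSL2, mem_tvGroup, hl, exists_exists_eq_and,
      eq_comm (a := g), ← tvSL2_lower ha hb' h1' h2']
    exact ⟨fun ⟨_, ⟨t, e⟩, e'⟩ => ⟨t, e ▸ e'⟩, fun ⟨t, e⟩ => ⟨_, ⟨t, rfl⟩, e⟩⟩
  refine ⟨tvSL2 ha hb' h1' h2', ?_, ?_, e1, e2⟩
  · rw [← e1, ← e2, ← Subgroup.map_sup, Tim.upper_sup_lower, MonoidHom.range_eq_map]
  · rw [(MonoidHom.ker_eq_bot_iff _).2 (tvSL2_injective _ _ _ _)]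
    exact bot_le

theorem rootSet : IsRootSubgroupSet (roots ι F) where
  commutative := by rintro _ ⟨a, φ, -, -, h, rfl⟩; exact comm h
  ne_bot := by rintro _ ⟨a, φ, ha, hφ, h, rfl⟩; exact ne_bot h ha hφ
  generates := sl_eq_top_of_transvection_mem _ fun i j hij c => by
    rw [transvection_eq_tv]
    exact Subgroup.mem_iSup_of_mem (tvGroup (Pi.single i 1) (Pi.single j 1))
      (Subgroup.mem_iSup_of_mem ⟨_, _, by simp, by simp, by simp [hij.symm], rfl⟩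
        (tv_smul_mem _ _ _))
  conj_mem := by
    rintro _ ⟨a, φ, ha, hφ, h, rfl⟩ g
    exact ⟨_, _, sl_mulVec_ne_zero g ha, sl_vecMul_ne_zero g⁻¹ hφ, by rw [sl_dot_conj, h],
      tvGroup_map_conj g a φ⟩
  pair := by
    rintro _ ⟨a, φ, ha, hφ, h, rfl⟩ _ ⟨b, ψ, hb, hψ, h', rfl⟩
    by_cases h1 : φ ⬝ᵥ b = 0 <;> by_cases h2 : ψ ⬝ᵥ a = 0
    · exact Or.inl (Tim.comm_iff.2 (comm2 h h1 h2))
    · exact Or.inr (Or.inr (case_symm (case_left h' h hb hφ h2 h1)))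
    · exact Or.inr (Or.inr (case_left h h' ha hψ h1 h2))
    · exact Or.inr (Or.inl (pair h h' h1 h2))

theorem exists_both {V : Type*} [AddCommGroup V] {P : V → Prop} (hP : ∀ u w, P u → P w → P (u + w))
    (f g : V →+ F) {u w : V} (hu : P u) (hw : P w) (h1 : f u ≠ 0) (h2 : g w ≠ 0) :
    ∃ v, P v ∧ f v ≠ 0 ∧ g v ≠ 0 := by
  by_cases h3 : g u = 0
  · by_cases h4 : f w = 0
    · exact ⟨u + w, hP u w hu hw, by simpa [h4] using h1, by simpa [h3] using h2⟩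
    · exact ⟨w, hw, h4, h2⟩
  · exact ⟨u, hu, h1, h3⟩

theorem exists_form {c : ι → F} (h : φ ⬝ᵥ a = 0) (ha : a ≠ 0) (hc : φ ⬝ᵥ c ≠ 0) :
    ∃ χ : ι → F, χ ⬝ᵥ c = 0 ∧ χ ⬝ᵥ a ≠ 0 := by
  obtain ⟨i, hi⟩ := Function.ne_iff.1 ha
  exact ⟨Pi.single i 1 - (c i / (φ ⬝ᵥ c)) • φ, by simp [hc], by simpa [h] using hi⟩

theorem connected : IsConnectedFamily (FAdj (roots ι F)) (roots ι F) := by
  rintro _ ⟨a, φ, ha, hφ, h, rfl⟩ _ ⟨b, ψ, hb, hψ, h', rfl⟩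
  obtain ⟨i, hi⟩ := Function.ne_iff.1 hφ
  obtain ⟨j, hj⟩ := Function.ne_iff.1 hψ
  obtain ⟨c, -, h1, h2⟩ := exists_both (P := fun _ => True) (fun _ _ _ _ => trivial)
    (AddMonoidHom.mk' (φ ⬝ᵥ ·) (dotProduct_add φ)) (AddMonoidHom.mk' (ψ ⬝ᵥ ·) (dotProduct_add ψ))
    (u := Pi.single i 1) (w := Pi.single j 1) trivial trivial (by simpa using hi) (by simpa using hj)
  obtain ⟨χ1, e1, e1'⟩ := exists_form h ha h1
  obtain ⟨χ2, e2, e2'⟩ := exists_form h' hb h2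
  obtain ⟨χ, e, h3, h4⟩ := exists_both (P := fun χ : ι → F => χ ⬝ᵥ c = 0)
    (fun u w hu hw => by rw [add_dotProduct, hu, hw, add_zero])
    (AddMonoidHom.mk' (· ⬝ᵥ a) fun u w => add_dotProduct u w a)
    (AddMonoidHom.mk' (· ⬝ᵥ b) fun u w => add_dotProduct u w b) e1 e2 e1' e2'
  have hC : tvGroup c χ ∈ roots ι F :=
    ⟨c, χ, by rintro rfl; simp at h1, by rintro rfl; simp at h3, e, rfl⟩
  exact (Relation.ReflTransGen.single ⟨⟨a, φ, ha, hφ, h, rfl⟩, hC, pair h e h1 h3⟩).tail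
    ⟨hC, ⟨b, ψ, hb, hψ, h', rfl⟩, pair e h' h4 h2⟩

theorem exists_conj (h3 : 3 ≤ Fintype.card ι) {i j : ι} (hij : i ≠ j) (A : Subgroup _) :
    A ∈ roots ι F ↔ ∃ g : SpecialLinearGroup ι F,
      A = conjBy (tvGroup (Pi.single i 1) (Pi.single j 1)) g := by
  constructor
  · rintro ⟨a, φ, ha, hφ, h, rfl⟩
    obtain ⟨g, h1, h2⟩ := exists_sl_flag h3 h ha hφ hij
    exact ⟨g, by rw [conjBy, tvGroup_map_conj, h1, h2]⟩
  · rintro ⟨g, rfl⟩
    exact rootSet.conj_mem _ ⟨_, _, by simp, by simp, by simp [hij.symm], rfl⟩ g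

end Aux

/-- Let k be a field and n a natural number. In SL_{n+3}(k) (so in every dimension at least 3) the conjugates of the root subgroup of elementary transvections 1 + c E₁₂ (c ∈ k) — that is, the groups of transvections attached to an incident point–hyperplane pair — form a non-degenerate class of abstract k-root subgroups of SL_{n+3}(k) whose graph of rank one pairs is connected. -/
theorem result (k : Type*) [Field k] (n : ℕ) :
    Cfsg.IsRootSubgroupClass {A : Subgroup (Matrix.SpecialLinearGroup (Fin (n + 3)) k) |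
        ∃ g : Matrix.SpecialLinearGroup (Fin (n + 3)) k,
          A = Cfsg.conjBy (Subgroup.closure {t : Matrix.SpecialLinearGroup (Fin (n + 3)) k |
            ∃ c : k, (t : Matrix (Fin (n + 3)) (Fin (n + 3)) k) = Matrix.transvection 0 1 c}) g} ∧
    Cfsg.IsNondegenerateRootSet {A : Subgroup (Matrix.SpecialLinearGroup (Fin (n + 3)) k) |
        ∃ g : Matrix.SpecialLinearGroup (Fin (n + 3)) k,
          A = Cfsg.conjBy (Subgroup.closure {t : Matrix.SpecialLinearGroup (Fin (n + 3)) k |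
            ∃ c : k, (t : Matrix (Fin (n + 3)) (Fin (n + 3)) k) = Matrix.transvection 0 1 c}) g} ∧
    Cfsg.IsKRootSubgroupSet k {A : Subgroup (Matrix.SpecialLinearGroup (Fin (n + 3)) k) |
        ∃ g : Matrix.SpecialLinearGroup (Fin (n + 3)) k,
          A = Cfsg.conjBy (Subgroup.closure {t : Matrix.SpecialLinearGroup (Fin (n + 3)) k |
            ∃ c : k, (t : Matrix (Fin (n + 3)) (Fin (n + 3)) k) = Matrix.transvection 0 1 c}) g} ∧
    Cfsg.IsConnectedFamily (Cfsg.FAdj {A : Subgroup (Matrix.SpecialLinearGroup (Fin (n + 3)) k) |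
        ∃ g : Matrix.SpecialLinearGroup (Fin (n + 3)) k,
          A = Cfsg.conjBy (Subgroup.closure {t : Matrix.SpecialLinearGroup (Fin (n + 3)) k |
            ∃ c : k, (t : Matrix (Fin (n + 3)) (Fin (n + 3)) k) = Matrix.transvection 0 1 c}) g})
      {A : Subgroup (Matrix.SpecialLinearGroup (Fin (n + 3)) k) |
        ∃ g : Matrix.SpecialLinearGroup (Fin (n + 3)) k,
          A = Cfsg.conjBy (Subgroup.closure {t : Matrix.SpecialLinearGroup (Fin (n + 3)) k |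
            ∃ c : k, (t : Matrix (Fin (n + 3)) (Fin (n + 3)) k) = Matrix.transvection 0 1 c}) g} := by
  have h01 : (0 : Fin (n + 3)) ≠ 1 := by simp
  have h3 : 3 ≤ Fintype.card (Fin (n + 3)) := by simp
  have e0 : Subgroup.closure {t : Matrix.SpecialLinearGroup (Fin (n + 3)) k |
      ∃ c : k, (t : Matrix (Fin (n + 3)) (Fin (n + 3)) k) = Matrix.transvection 0 1 c} =
      Cl.tvGroup (Pi.single 0 1) (Pi.single 1 1) := by
    rw [← Subgroup.closure_eq (Cl.tvGroup _ _)]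
    congr 1
    ext t
    refine exists_congr fun c => ?_
    rw [← Cl.transvection_eq_tv h01]
    exact ⟨fun e => Cl.sl_ext e, fun e => e ▸ rfl⟩
  have e : {A : Subgroup (Matrix.SpecialLinearGroup (Fin (n + 3)) k) |
        ∃ g : Matrix.SpecialLinearGroup (Fin (n + 3)) k,
          A = Cfsg.conjBy (Subgroup.closure {t : Matrix.SpecialLinearGroup (Fin (n + 3)) k |
            ∃ c : k, (t : Matrix (Fin (n + 3)) (Fin (n + 3)) k) = Matrix.transvection 0 1 c}) g} =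
      roots (Fin (n + 3)) k := by
    ext A
    rw [e0, exists_conj h3 h01]
    rfl
  rw [e]
  have hm : ∀ i j : Fin (n + 3), i ≠ j →
      Cl.tvGroup (Pi.single i (1 : k)) (Pi.single j 1) ∈ roots (Fin (n + 3)) k :=
    fun i j hij => ⟨_, _, by simp, by simp, by simp [hij.symm], rfl⟩
  have h2v : ((2 : Fin (n + 3)) : ℕ) = 2 := by simp [Nat.mod_eq_of_lt]
  have h02 : (0 : Fin (n + 3)) ≠ 2 := Fin.ne_of_val_ne (by rw [h2v]; simp)
  have h12 : (1 : Fin (n + 3)) ≠ 2 := Fin.ne_of_val_ne (by rw [h2v]; simp)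
  refine ⟨⟨rootSet, ⟨_, hm 0 1 h01⟩, fun A hA B hB => ?_⟩, ⟨?_, ?_, ?_⟩, ⟨rootSet, ?_⟩, connected⟩
  · obtain ⟨g, rfl⟩ := (exists_conj h3 h01 A).1 hA
    obtain ⟨g', rfl⟩ := (exists_conj h3 h01 B).1 hB
    exact ⟨g' * g⁻¹, by rw [Chev.Tim.conjBy_conjBy, inv_mul_cancel_right]⟩
  · refine ⟨_, hm 0 1 h01, _, hm 0 2 h02, fun h => ?_,
      Chev.Tim.comm_iff.2 (comm2 (by simp) (by simp) (by simp [h02.symm]))⟩
    obtain ⟨c, hc⟩ : Cl.tv (Pi.single 0 (1 : k)) (Pi.single 1 1) ∈ _ := h ▸ Cl.tv_mem _ _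
    have := congrArg (fun g : Matrix.SpecialLinearGroup (Fin (n + 3)) k =>
      (g : Matrix (Fin (n + 3)) (Fin (n + 3)) k) *ᵥ Pi.single 1 1) hc
    rw [Cl.tv_mulVec (by simp), Cl.tv_mulVec (by simp [h02.symm])] at this
    simp [h12.symm] at this
  · exact ⟨_, hm 0 1 h01, _, hm 1 0 h01.symm, pair (by simp) (by simp) (by simp) (by simp)⟩
  · exact ⟨_, hm 0 1 h01, _, hm 1 2 h12, case_left (by simp) (by simp [h12.symm]) (by simp) (by simp)
      (by simp) (by simp [h02.symm])⟩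
  · rintro _ ⟨a, φ, ha, hφ, h, rfl⟩ _ ⟨b, ψ, hb, hψ, h', rfl⟩ hp
    exact psl2 h h' (fun h1 => not_pair h' h hb hψ ha hφ h1 hp.symm)
      (fun h2 => not_pair h h' ha hφ hb hψ h2 hp)

end Cfsg.Agent.S5043
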