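import Mathlib
import Cfsg.Statements.S5045
import Cfsg.Agent.Chev.RIStruct

set_option autoImplicit false
open Cfsg

namespace Cfsg.Agent.S5045

open Cfsg.Agent.Chev.Tim


/-- Let G be a finite group generated by a set D of root involutions, and W the set of members of D whose product with every other member of D has even order or is trivial (the isolated vertices of the odd-order-product graph on D). Then W is conjugation-invariant and generates a normal 2-subgroup of G meeting D in exactly W; the commutator of two members of D lying in different connected components of that graph, each with more than one member, lies in the subgroup generated by W; and for a in such a component, every member of D commuting with a, different from a and with product with a in D, lies in that component or in W. -/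
theorem result {G : Type*} [Group G] [Finite G] {D : Set G} (hD : Cfsg.IsRootInvolutionSet D) :
    (∀ w ∈ {w | Cfsg.IsIsolatedElem (Cfsg.OddAdj D) D w}, ∀ g : G, g * w * g⁻¹ ∈ {w | Cfsg.IsIsolatedElem (Cfsg.OddAdj D) D w}) ∧
    (Subgroup.closure {w | Cfsg.IsIsolatedElem (Cfsg.OddAdj D) D w}).Normal ∧
    IsPGroup 2 ↥(Subgroup.closure {w | Cfsg.IsIsolatedElem (Cfsg.OddAdj D) D w}) ∧
    (Subgroup.closure {w | Cfsg.IsIsolatedElem (Cfsg.OddAdj D) D w} : Set G) ∩ D = {w | Cfsg.IsIsolatedElem (Cfsg.OddAdj D) D w} ∧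
    (∀ a ∈ D, ∀ b ∈ D, (∃ a' ∈ Cfsg.elemComponentOf (Cfsg.OddAdj D) D a, a' ≠ a) →
      (∃ b' ∈ Cfsg.elemComponentOf (Cfsg.OddAdj D) D b, b' ≠ b) →
      Cfsg.elemComponentOf (Cfsg.OddAdj D) D a ≠ Cfsg.elemComponentOf (Cfsg.OddAdj D) D b →
        a * b * a⁻¹ * b⁻¹ ∈ Subgroup.closure {w | Cfsg.IsIsolatedElem (Cfsg.OddAdj D) D w}) ∧
    (∀ a ∈ D, (∃ a' ∈ Cfsg.elemComponentOf (Cfsg.OddAdj D) D a, a' ≠ a) →
      Cfsg.productPartners D a ⊆ Cfsg.elemComponentOf (Cfsg.OddAdj D) D a ∪ {w | Cfsg.IsIsolatedElem (Cfsg.OddAdj D) D w}) := by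
  have h := RI.of hD
  rw [iso_eq]
  have h1 : ∀ w ∈ Iso D, ∀ g : G, g * w * g⁻¹ ∈ Iso D := fun w hw g =>
    h.iso_conj hw (by rw [hD.generates]; trivial)
  have h2 := closure_normal_of h1
  have h6 : ∀ a ∈ D, (∃ a' ∈ elemComponentOf (OddAdj D) D a, a' ≠ a) →
      productPartners D a ⊆ elemComponentOf (OddAdj D) D a ∪ Iso D := by
    rintro a ha ⟨a', ha', hne⟩ b hb
    obtain ⟨x, hx⟩ := exists_adj_of_path ha'.2 hne
    have hl := (ln_iff' ha).2 hb
    rcases hl.path_or_iso h hx.2.1 hx.2.2 with h3 | h3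
    · exact Or.inl ⟨hl.r, h3⟩
    · exact Or.inr h3
  refine ⟨h1, h2, h.isPGroup_iso, ?_, ?_, h6⟩
  · ext d
    refine ⟨fun hd => ⟨hd.2, fun x hx => ?_⟩, fun hd => ⟨Subgroup.subset_closure hd, hd.1⟩⟩
    refine h.not_od_of_two h.isPGroup_iso hd.2 hd.1 ?_
    have := h2.conj_mem d hd.1 x
    rwa [h.inv hx] at this
  · intro a ha b hb ha' hb' hne
    have hnp : ¬ Relation.ReflTransGen (OddAdj D) a b := by
      intro hp
      apply hne
      ext y
      exact and_congr_right fun _ => ⟨fun h3 => (path_symm oddAdj_symm hp).trans h3,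
        fun h3 => hp.trans h3⟩
    rw [h.inv ha, h.inv hb]
    rcases h.tri ha hb with h3 | h3 | h3
    · have := sq_mul_of_cm (h.sq a ha) (h.sq b hb) h3
      rw [mul_assoc (a * b), this]
      exact Subgroup.one_mem _
    · exact absurd (.single ⟨ha, hb, h3⟩) hnp
    · rw [mul_assoc (a * b)]
      apply Subgroup.subset_closure
      rcases h6 a ha ha' ((ln_iff' ha).1 (h3.ln h ha hb)) with h4 | h4
      · rcases h6 b hb hb' ((ln_iff' hb).1 (h3.ln' h ha hb)) with h5 | h5
        · exact absurd (h4.2.trans (path_symm oddAdj_symm h5.2)) hnp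
        · exact h5
      · exact h4

end Cfsg.Agent.S5045
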