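import Mathlib
import Cfsg.Statements.S5046
import Cfsg.Agent.Chev.RILine

set_option autoImplicit false
open Cfsg

namespace Cfsg.Agent.S5046

open Cfsg.Agent.Chev.Tim


/-- Let G be a finite group generated by a set D of root involutions whose odd-order-product graph is connected, and d ∈ D. Then the members e of D with the same commuting members as d are exactly those for which the union of the commuting members of d and the members whose product with d has order 4 equals the corresponding union for e. -/
theorem result {G : Type*} [Group G] [Finite G] {D : Set G} (hD : Cfsg.IsRootInvolutionSet D)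
    (hc : Cfsg.IsConnectedSet (Cfsg.OddAdj D) D) {d : G} (hd : d ∈ D) :
    Cfsg.sameCommutingClass D d =
      {e | e ∈ D ∧ Cfsg.commutingMembers D d ∪ Cfsg.fourPartners D d = Cfsg.commutingMembers D e ∪ Cfsg.fourPartners D e} := by
  have h := RI.of hD
  have hcl := h.isCl_of_conn hc
  have key : ∀ e ∈ D, ∀ x, x ∈ commutingMembers D e ∪ fourPartners D e ↔ x ∈ D ∧ ¬ Od e x := by
    intro e he x
    constructor
    · rintro (h1 | h1)
      · exact ⟨h1.1, fun ho => ho.not_cm (h.sq e he) (h.sq x h1.1) (Eq.symm h1.2)⟩
      · exact ⟨h1.1, Fo.not_od h1.2⟩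
    · rintro ⟨hx, hn⟩
      rcases h.tri he hx with h1 | h1 | h1
      · exact Or.inl ⟨hx, h1.symm.eq⟩
      · exact absurd h1 hn
      · exact Or.inr ⟨hx, h1⟩
  ext e
  rw [mem_sameCommutingClass, Set.mem_ofPred_eq]
  refine and_congr_right fun he => ⟨fun h1 => ?_, fun h1 => ?_⟩
  · have h2 := h1.sameA h hd he
    ext x
    rw [key d hd, key e he]
    exact and_congr_right fun hx => not_congr (h2 x hx)
  · refine SameA.sameC h hcl hd he fun x hx => ?_
    have := Set.ext_iff.1 h1 x
    rw [key d hd, key e he] at this
    simp only [hx, true_and] at this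
    exact not_iff_not.1 this

end Cfsg.Agent.S5046
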