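import Mathlib
import Cfsg.Statements.S5049
import Cfsg.Agent.Chev.RIStruct

set_option autoImplicit false
open Cfsg

namespace Cfsg.Agent.S5049

open Cfsg.Agent.Chev.Tim


/-- Let G be a finite group generated by a set D of odd transpositions (root involutions with no product of order 4), Q = O₂(G), and for a ∈ D let Q_a be the commutator subgroup of Q with a. Then every member of D commuting with a centralizes Q_a; and for b ∈ D with ab of odd order greater than 1, the centralizer of ab in Q is the intersection of the centralizers of a and b in Q. -/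
theorem result {G : Type*} [Group G] [Finite G] {D : Set G} (hD : Cfsg.IsOddTranspositionSet D) {a : G} (ha : a ∈ D) :
    (∀ e ∈ Cfsg.commutingMembers D a, ∀ q ∈ ⁅Cfsg.pCore 2 G, Subgroup.zpowers a⁆, e * q = q * e) ∧
    (∀ b ∈ Cfsg.oddPartners D a,
      Cfsg.pCore 2 G ⊓ Subgroup.centralizer {a * b} = Cfsg.pCore 2 G ⊓ Subgroup.centralizer {a} ⊓ Subgroup.centralizer {b}) := by
  have h := RI.of hD.1
  have hQ := GT.isPGroup_pCore (G := G) 2
  have hN : (pCore 2 G).Normal := inferInstance
  have key : ∀ a ∈ D, ∀ e ∈ D, Commute e a → ∀ q ∈ pCore 2 G, Commute e (q * a * q⁻¹) := by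
    intro a ha e he hea q hq
    have hx := hD.1.conj_mem a ha q
    rcases h.tri he hx with h1 | h1 | h1
    · exact h1
    · exfalso
      apply h1.not_pow (h.sq e he) (k := 1)
      apply eq_one_of_mem_two hQ _ (h1.2.of_dvd_nat (orderOf_pow_dvd _))
      rw [← QuotientGroup.eq_one_iff]
      have h2 : ((q : G) : G ⧸ pCore 2 G) = 1 := (QuotientGroup.eq_one_iff q).2 hq
      have h3 := sq_mul_of_cm (h.sq e he) (h.sq a ha) hea
      simp only [pow_one, pow_two, QuotientGroup.mk_mul, QuotientGroup.mk_inv, h2, one_mul,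
        inv_one, mul_one]
      simp only [← QuotientGroup.mk_mul, h3, QuotientGroup.mk_one]
    · exact absurd h1 (hD.2 e he _ hx)
  constructor
  · intro e he q hq
    have hea : Commute e a := he.2
    have : ⁅pCore 2 G, Subgroup.zpowers a⁆ ≤ Subgroup.centralizer {e} := by
      rw [Subgroup.commutator_le]
      rintro q hq _ ⟨i, rfl⟩
      rw [Subgroup.mem_centralizer_singleton_iff, commutatorElement_def]
      have h1 := (key a ha e he.1 hea q hq).zpow_right i
      rw [conj_zpow] at h1
      exact (h1.mul_right (hea.zpow_right i).inv_right).symm.eq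
    exact (Subgroup.mem_centralizer_singleton_iff.1 (this hq)).symm
  · intro b hb
    rw [mem_oddPartners] at hb
    obtain ⟨hb, ho⟩ := hb
    ext q
    simp only [Subgroup.mem_inf, Subgroup.mem_centralizer_singleton_iff]
    constructor
    · rintro ⟨hq, hc⟩
      have c1 := key a ha a ha (Commute.refl a) q hq
      have c2 := key b hb b hb (Commute.refl b) q hq
      have e1 : q * a * q⁻¹ * (q * b * q⁻¹) = a * b := by
        have : q * (a * b) * q⁻¹ = a * b := conj_eq_of_cm hc
        rw [← this]; group
      have sb' := h.sq _ (hD.1.conj_mem b hb q)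
      have e2 : a * (q * a * q⁻¹) = b * (q * b * q⁻¹) := by
        have : q * a * q⁻¹ = a * b * (q * b * q⁻¹) := by
          rw [← e1, mul_assoc (q * a * q⁻¹), sb', mul_one]
        rw [this, mul_assoc, sq_l (h.sq a ha)]
      have e3 := h.lemZ ha hb ho (w := a * (q * a * q⁻¹)) ((Commute.refl a).mul_left c1.symm)
        (by rw [e2]; exact (Commute.refl b).mul_left c2.symm)
        (by rw [c1.eq, mul_assoc, h.sq a ha, mul_one]; exact hD.1.conj_mem a ha q)
      have e4 := eq_of_mul_eq_one (h.sq a ha) e3
      rw [e2] at e3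
      have e5 := eq_of_mul_eq_one (h.sq b hb) e3
      exact ⟨⟨hq, (cm_of_conj e4.symm).eq⟩, (cm_of_conj e5.symm).eq⟩
    · rintro ⟨⟨hq, h1⟩, h2⟩
      exact ⟨hq, (Commute.mul_right h1 h2).eq⟩

end Cfsg.Agent.S5049
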