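import Mathlib
import Cfsg.Statements.S5050
import Cfsg.Agent.Chev.RIFar

set_option autoImplicit false
open Cfsg

namespace Cfsg.Agent.S5050

open Cfsg.Agent.Chev.Tim


/-- Let G be a finite group generated by a class D of odd transpositions whose commuting graph is connected, with some product of two different commuting members again in D. Then for every d ∈ D and every x ∈ D with dx of odd order greater than 1, some member of D commutes with both d and x. -/
theorem result {G : Type*} [Group G] [Finite G] {D : Set G} (hD : Cfsg.IsOddTranspositionSet D) (hcl : Cfsg.IsRootInvolutionClass D)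
    (hc : Cfsg.IsConnectedSet (Cfsg.CommAdj D) D) (hDD : (D ∩ Cfsg.commutingProducts D).Nonempty)
    {d x : G} (hd : d ∈ D) (hx : x ∈ Cfsg.oddPartners D d) : ∃ e ∈ D, e * d = d * e ∧ e * x = x * e := by
  have hR := RI.of hD.1
  obtain ⟨hxD, ho⟩ := mem_oddPartners.1 hx
  by_contra hn
  have hf : Far D d x := fun t ht h1 h2 => hn ⟨t, ht, h1.symm.eq, h2.symm.eq⟩
  have key : ∀ y, Relation.ReflTransGen (CommAdj D) d y → y ∈ EC D d := fun y h => by
    induction h with
    | refl => exact EC.self hd
    | tail _ h2 ih =>
      rw [← EC.eq ih]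
      exact Deg.ff hD.2 hR (isCl_of_class hcl) (exists_ln hDD hR) hd hxD ho hf h2.1 h2.2.1 h2.2.2.2
  exact ho.not_cm (hR.sq d hd) (hR.sq x hxD) (EC.cm (EC.self hd) (key x (hc d hd x hxD)))

end Cfsg.Agent.S5050
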