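import Cfsg.Statements.S5055
import Mathlib
import Cfsg.Agent.Chev.RIRoot3

set_option autoImplicit false
open Cfsg

namespace Cfsg.Agent.S5055

open Cfsg.Agent.Chev.Tim

/-- The Root Structure Theorem for root involutions. Let G be a finite group with O₂(G) = 1 and trivial centre, generated by a non-degenerate class D of root involutions such that for every d ∈ D the members of D with the same commuting members as d, together with 1, form a subgroup E(d). For d ∈ D let M_d be the subgroup generated by d and the members e ≠ d of D commuting with d with ed ∈ D, let W_d be the set of members of D commuting with d that have no partner with product of odd order among the members commuting with d, and let N_d be the subgroup generated by W_d. Then N_d = M_d; the members of D in N_d are d and the e just described; the commutator subgroup of N_d is E(d); and the members of D central in N_d are exactly those with the same commuting members as d. -/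
theorem result {G : Type*} [Group G] [Finite G] {D : Set G} (hD : Cfsg.IsNondegenerateRootInvolutionSet D)
    (hcl : Cfsg.IsRootInvolutionClass D) (hO : Cfsg.pCore 2 G = ⊥) (hZ : Subgroup.center G = ⊥)
    (hE : ∀ d ∈ D, (Cfsg.sameCommutingSubgroup D d : Set G) = Cfsg.sameCommutingClass D d ∪ {1}) {d : G} (hd : d ∈ D) :
    Subgroup.closure {w | Cfsg.IsIsolatedElem (Cfsg.OddAdj (Cfsg.commutingMembers D d)) (Cfsg.commutingMembers D d) w} =
      Subgroup.closure (Cfsg.productPartners D d ∪ {d}) ∧
    D ∩ (Subgroup.closure (Cfsg.productPartners D d ∪ {d}) : Set G) = Cfsg.productPartners D d ∪ {d} ∧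
    ⁅Subgroup.closure (Cfsg.productPartners D d ∪ {d}), Subgroup.closure (Cfsg.productPartners D d ∪ {d})⁆ =
      Cfsg.sameCommutingSubgroup D d ∧
    Cfsg.sameCommutingClass D d = {e | e ∈ D ∧ e ∈ Subgroup.closure (Cfsg.productPartners D d ∪ {d}) ∧
      ∀ y ∈ Subgroup.closure (Cfsg.productPartners D d ∪ {d}), e * y = y * e} := by
  have h := RI.of hD.1
  have hc := isCl_of_class hcl
  have hS := sub_of_closure h hE
  have e1 : productPartners D d ∪ {d} = WC D d := by
    ext u
    rw [hS.mem_WC_iff h hc hd, ln_iff' hd, or_comm]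
    rfl
  have e2 : {w | IsIsolatedElem (OddAdj (commutingMembers D d)) (commutingMembers D d) w} =
      WC D d := by
    rw [iso_eq]
    ext u
    exact ⟨fun hu => ⟨hu.1.1, Eq.symm hu.1.2, fun v hv h1 => hu.2 v ⟨hv, h1.symm.eq⟩⟩,
      fun hu => ⟨⟨hu.1, hu.2.1.symm.eq⟩, fun v hv => hu.2.2 v hv.1 (Eq.symm hv.2)⟩⟩
  rw [e1, e2]
  refine ⟨rfl, ?_, ?_, ?_⟩
  · ext u
    exact ⟨fun hu => h.mem_WC hu.1 hu.2, fun hu => ⟨hu.1, Subgroup.subset_closure hu⟩⟩
  · rw [hS.commutator_WC h hc hD.2.2.2 hd, sameCommutingSubgroup, ec_eq, hS.closure_ec h]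
  · rw [ec_eq]
    ext e
    constructor
    · intro he
      refine ⟨he.1, Subgroup.subset_closure ?_, fun y hy =>
        (cm_closure (fun t ht => EC.cm' he ht.1 ht.2.1) hy).eq⟩
      rw [hS.mem_WC_iff h hc hd]
      by_cases h1 : d = e
      · exact Or.inl h1.symm
      · exact Or.inr (hS.ln hd he h1)
    · rintro ⟨he, h1, h2⟩
      by_contra hn
      rcases (hS.mem_WC_iff h hc hd).1 (h.mem_WC he h1) with rfl | l
      · exact hn (EC.self hd)
      obtain ⟨g, l2, e3⟩ := h.exists_conj_third hc l.symm (fun h3 => hn ⟨he, h3.symm⟩)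
      have c1 : Commute e g := h2 g (Subgroup.subset_closure ((hS.mem_WC_iff h hc hd).2 (Or.inr l2)))
      rw [conj2_eq_of_cm (h.sq g l2.r) c1.symm] at e3
      exact h.ne d hd (by simpa using e3)

end Cfsg.Agent.S5055
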