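import Mathlib
import Cfsg.Statements.S5057
import Cfsg.Agent.Chev.RIBase

set_option autoImplicit false
open Cfsg

namespace Cfsg.Agent.S5057

open Cfsg.Agent.Chev.Tim

open Equiv Equiv.Perm

def t0 : Perm (Fin 6) := swap 0 1 * swap 2 3

theorem ct (g : Perm (Fin 6)) (h2 : orderOf g = 2) (hs : sign g = 1) : g.cycleType = {2, 2} := by
  obtain ⟨n, hn⟩ := cycleType_prime_order (σ := g) (by rw [h2]; norm_num)
  rw [h2] at hn
  have h1 := sum_cycleType_le g
  have h3 := sign_of_cycleType g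
  rw [hn] at h1 h3
  simp only [Multiset.sum_replicate, smul_eq_mul, Fintype.card_fin, Multiset.card_replicate] at h1 h3
  have : n ≤ 2 := by omega
  rw [hs] at h3
  interval_cases n
  · exact absurd h3 (by decide)
  · rw [hn]; rfl
  · exact absurd h3 (by decide)

theorem t0_sq : t0 * t0 = 1 := by decide
theorem t0_ne : t0 ≠ 1 := by decide
theorem t0_sign : sign t0 = 1 := by
  simp [t0]
theorem t0_cm : swap 4 5 * t0 * (swap 4 5)⁻¹ = t0 := by decide

theorem conj_t0 (g : Perm (Fin 6)) (h2 : orderOf g = 2) (hs : sign g = 1) :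
    ∃ c : Perm (Fin 6), sign c = 1 ∧ c * t0 * c⁻¹ = g := by
  have : IsConj t0 g := by
    rw [isConj_iff_cycleType_eq, ct g h2 hs, ct t0 (order2_of t0_sq t0_ne) t0_sign]
  obtain ⟨c, hc⟩ := isConj_iff.1 this
  rcases Int.units_eq_one_or (sign c) with h | h
  · exact ⟨c, h, hc⟩
  · refine ⟨c * swap 4 5, by simp [h], ?_⟩
    rw [← hc]
    conv_rhs => rw [← t0_cm]
    group

def f0 (i j k l : Fin 6) (x : Fin 6) : Fin 6 := swapCore 0 1 (swapCore 2 3 (swapCore i j (swapCore k l x)))

theorem chk : ∀ i j k l : Fin 6, i ≠ j → i ≠ k → i ≠ l → j ≠ k → j ≠ l → k ≠ l →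
    (∀ x, (f0 i j k l)^[3] x = x) ∨ (∀ x, (f0 i j k l)^[4] x = x) ∨
      (∀ x, (f0 i j k l)^[5] x = x) := by
  decide +kernel

theorem pw (c : Perm (Fin 6)) : (t0 * (c * t0 * c⁻¹)) ^ 3 = 1 ∨ (t0 * (c * t0 * c⁻¹)) ^ 4 = 1 ∨
    (t0 * (c * t0 * c⁻¹)) ^ 5 = 1 := by
  have e : c * t0 * c⁻¹ = swap (c 0) (c 1) * swap (c 2) (c 3) := by
    rw [swap_apply_apply, swap_apply_apply, t0]; group
  have e2 : ((t0 * (c * t0 * c⁻¹) : Perm (Fin 6)) : Fin 6 → Fin 6) = f0 (c 0) (c 1) (c 2) (c 3) := by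
    rw [e]; rfl
  have key : ∀ n, (∀ x, (f0 (c 0) (c 1) (c 2) (c 3))^[n] x = x) → (t0 * (c * t0 * c⁻¹)) ^ n = 1 := by
    intro n h
    ext x
    rw [← iterate_eq_pow, e2, h x]; rfl
  rcases chk (c 0) (c 1) (c 2) (c 3) (by simp) (by simp) (by simp) (by simp) (by simp) (by simp)
    with h | h | h
  · exact Or.inl (key _ h)
  · exact Or.inr (Or.inl (key _ h))
  · exact Or.inr (Or.inr (key _ h))

theorem conjA (a : alternatingGroup (Fin 6)) (ha : orderOf a = 2) :
    ∃ c : alternatingGroup (Fin 6), (c : Perm (Fin 6)) * t0 * (c : Perm (Fin 6))⁻¹ = a := by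
  obtain ⟨c, hc, h⟩ := conj_t0 a (by rw [Subgroup.orderOf_coe, ha]) a.2
  exact ⟨⟨c, hc⟩, h⟩

theorem pwA (a b : alternatingGroup (Fin 6)) (ha : orderOf a = 2) (hb : orderOf b = 2) :
    (a * b) ^ 3 = 1 ∨ (a * b) ^ 4 = 1 ∨ (a * b) ^ 5 = 1 := by
  obtain ⟨c, hc⟩ := conjA a ha
  obtain ⟨d, hd⟩ := conjA b hb
  have key : ∀ n, (t0 * ((c⁻¹ * d : Perm (Fin 6)) * t0 * (c⁻¹ * d : Perm (Fin 6))⁻¹)) ^ n = 1 →
      (a * b) ^ n = 1 := by
    intro n h
    apply Subtype.ext
    have e : ((a * b : alternatingGroup (Fin 6)) : Perm (Fin 6)) =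
        c * (t0 * ((c⁻¹ * d : Perm (Fin 6)) * t0 * (c⁻¹ * d : Perm (Fin 6))⁻¹)) * (c : Perm (Fin 6))⁻¹ := by
      rw [Subgroup.coe_mul, ← hc, ← hd, Subgroup.coe_inv]; group
    rw [Subgroup.coe_pow, e, conj_pow, h]; simp
  rcases pw (c⁻¹ * d) with h | h | h
  · exact Or.inl (key _ h)
  · exact Or.inr (Or.inl (key _ h))
  · exact Or.inr (Or.inr (key _ h))

/-- The involutions of the alternating group of degree 6 form a class of root involutions (a single conjugacy class of involutions generating the group, any two of which commute, have product of odd order, or have product of order 4 whose square is again an involution of the class), and the product of any two of them has order at most 5. -/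
theorem result :
    Cfsg.IsRootInvolutionClass {g : ↥(alternatingGroup (Fin 6)) | orderOf g = 2} ∧
    ∀ d ∈ {g : ↥(alternatingGroup (Fin 6)) | orderOf g = 2}, ∀ e ∈ {g : ↥(alternatingGroup (Fin 6)) | orderOf g = 2},
      orderOf (d * e) ≤ 5 := by
  have hconj : ∀ a b : alternatingGroup (Fin 6), orderOf a = 2 → orderOf b = 2 →
      ∃ g, b = g * a * g⁻¹ := by
    intro a b ha hb
    obtain ⟨c, hc⟩ := conjA a ha
    obtain ⟨d, hd⟩ := conjA b hb
    refine ⟨d * c⁻¹, Subtype.ext ?_⟩
    simp only [Subgroup.coe_mul, Subgroup.coe_inv, ← hc, ← hd]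
    group
  have ht : orderOf (⟨t0, t0_sign⟩ : alternatingGroup (Fin 6)) = 2 :=
    order2_of (Subtype.ext t0_sq) (fun h => t0_ne (congrArg Subtype.val h))
  have hcm : ∀ d ∈ {g : ↥(alternatingGroup (Fin 6)) | orderOf g = 2}, ∀ g,
      g * d * g⁻¹ ∈ {g : ↥(alternatingGroup (Fin 6)) | orderOf g = 2} := by
    intro d hd g
    show orderOf _ = 2
    rw [orderOf_conj']; exact hd
  refine ⟨⟨⟨fun d hd => hd, ?_, hcm, ?_⟩, ⟨_, ht⟩, fun a ha b hb => hconj a b ha hb⟩, ?_⟩
  · have : IsSimpleGroup (alternatingGroup (Fin 6)) := alternatingGroup.isSimpleGroup (by simp)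
    have hn : (Subgroup.closure {g : ↥(alternatingGroup (Fin 6)) | orderOf g = 2}).Normal := by
      constructor
      intro x hx g
      induction hx using Subgroup.closure_induction with
      | one => simp
      | mem x hx => exact Subgroup.subset_closure (hcm x hx g)
      | inv x _ hx =>
        have := Subgroup.inv_mem _ hx
        simpa [mul_assoc] using this
      | mul x y _ _ hx hy =>
        have := Subgroup.mul_mem _ hx hy
        simpa [mul_assoc] using this
    rcases hn.eq_bot_or_eq_top with h | h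
    · have h1 : (⟨t0, t0_sign⟩ : alternatingGroup (Fin 6)) ∈
          Subgroup.closure {g : ↥(alternatingGroup (Fin 6)) | orderOf g = 2} :=
        Subgroup.subset_closure ht
      rw [h] at h1
      exact absurd (congrArg Subtype.val h1) t0_ne
    · exact h
  · intro a ha b hb
    have sa := sq_of_order2 ha
    have sb := sq_of_order2 hb
    rcases pwA a b ha hb with h | h | h
    · exact Or.inr (Or.inl (Odd.of_dvd_nat (by decide) (orderOf_dvd_of_pow_eq_one h)))
    · by_cases h2 : a * b * (a * b) = 1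
      · left
        calc a * b = (a * b)⁻¹ := (inv_of_sq h2).symm
          _ = b * a := by rw [mul_inv_rev, inv_of_sq sa, inv_of_sq sb]
      · refine Or.inr (Or.inr ⟨fo_of h h2, order2_of ?_ (by rwa [pow_two])⟩)
        rw [← pow_add]; exact h
    · exact Or.inr (Or.inl (Odd.of_dvd_nat (by decide) (orderOf_dvd_of_pow_eq_one h)))
  · intro a ha b hb
    rcases pwA a b ha hb with h | h | h <;>
    · have := Nat.le_of_dvd (by norm_num) (orderOf_dvd_of_pow_eq_one h)
      omega

end Cfsg.Agent.S5057
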