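import Mathlib
import Cfsg.Statements.S5058
import Cfsg.Agent.Cl.LinearTransv

set_option autoImplicit false
open Matrix
open Cfsg

namespace Cfsg.Agent.S5058

section Aux

open Cfsg.Agent.Cl
open scoped commutatorElement

theorem odd_orderOf_mul {G : Type*} [Group G] [Finite G] {a b : G} (ha : a * a = 1) (hb : b * b = 1)
    (h : ∀ z : G, z * a = a * z → z * b = b * z → z = 1) : Odd (orderOf (a * b)) := by
  rcases Nat.even_or_odd (orderOf (a * b)) with ⟨m, hm⟩ | ho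
  swap; · exact ho
  exfalso
  have hpos := orderOf_pos (a * b)
  have hz : (a * b) ^ m * (a * b) ^ m = 1 := by rw [← pow_add, ← hm, pow_orderOf_eq_one]
  have ha' : a⁻¹ = a := inv_eq_of_mul_eq_one_right ha
  have hb' : b⁻¹ = b := inv_eq_of_mul_eq_one_right hb
  have key : ∀ x : G, x * (a * b) * x⁻¹ = (a * b)⁻¹ → (a * b) ^ m * x = x * (a * b) ^ m := by
    intro x hx
    have := conj_pow (a := x) (b := a * b) (i := m)
    rw [hx, inv_pow, inv_eq_of_mul_eq_one_right hz] at this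
    exact (eq_mul_inv_iff_mul_eq.1 this)
  have h1 := h _ (key a (by rw [_root_.mul_inv_rev, ha', hb', ← mul_assoc, ha, one_mul]))
    (key b (by rw [_root_.mul_inv_rev, ha', hb', mul_assoc, mul_assoc, hb, mul_one]))
  have := orderOf_le_of_pow_eq_one (by omega) h1
  omega

variable {F : Type*} [Field F] {ι : Type*} [Fintype ι] [DecidableEq ι] {a b φ ψ : ι → F}

/-- All transvections. -/
def D (ι : Type*) [Fintype ι] [DecidableEq ι] (F : Type*) [Field F] :
    Set (SpecialLinearGroup ι F) :=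
  {t | ∃ a φ : ι → F, a ≠ 0 ∧ φ ≠ 0 ∧ φ ⬝ᵥ a = 0 ∧ t = tv a φ}

/-- The upper transvection of `SL₂`. -/
abbrev up (c : F) : SpecialLinearGroup (Fin 2) F :=
  SpecialLinearGroup.transvection (by decide : (0 : Fin 2) ≠ 1) c

/-- The lower transvection of `SL₂`. -/
abbrev lo (c : F) : SpecialLinearGroup (Fin 2) F :=
  SpecialLinearGroup.transvection (by decide : (1 : Fin 2) ≠ 0) c

theorem coe_up (c : F) : (up c : Matrix (Fin 2) (Fin 2) F) = !![1, c; 0, 1] := by
  ext i j; fin_cases i <;> fin_cases j <;> simp [SpecialLinearGroup.transvection_coe]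

theorem coe_lo (c : F) : (lo c : Matrix (Fin 2) (Fin 2) F) = !![1, 0; c, 1] := by
  ext i j; fin_cases i <;> fin_cases j <;> simp [SpecialLinearGroup.transvection_coe]

theorem sq_tv [CharP F 2] (h : φ ⬝ᵥ a = 0) : tv a φ * tv a φ = 1 := by
  rw [← pow_two, tv_pow h, CharP.cast_eq_zero, zero_smul, tv_zero_left]

theorem odd_up_lo [Finite F] [CharP F 2] {d : F} (hd : d ≠ 0) : Odd (orderOf (up 1 * lo d)) := by
  refine odd_orderOf_mul ?_ ?_ fun z h1 h2 => ?_
  · rw [up, transvection_eq_tv]; exact sq_tv (by simp)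
  · rw [lo, transvection_eq_tv]; exact sq_tv (by simp)
  have e1 := congrArg (fun g : SpecialLinearGroup (Fin 2) F => (g : Matrix (Fin 2) (Fin 2) F)) h1
  have e2 := congrArg (fun g : SpecialLinearGroup (Fin 2) F => (g : Matrix (Fin 2) (Fin 2) F)) h2
  simp only [Matrix.SpecialLinearGroup.coe_mul, coe_up, coe_lo] at e1 e2
  have e3 := z.det_coe
  rw [det_fin_two] at e3
  have a1 := congrFun (congrFun e1 0) 0
  have a2 := congrFun (congrFun e1 0) 1
  have a3 := congrFun (congrFun e2 0) 0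
  simp [Matrix.mul_apply, Fin.sum_univ_two, hd] at a1 a2 a3
  have a4 : z 1 1 = z 0 0 := by linear_combination -a2
  rw [a1, a3, a4] at e3
  have a5 : z 0 0 = 1 := by
    have h2 : (2 : F) = 0 := CharP.cast_eq_zero F 2
    have : (z 0 0 - 1) ^ 2 = 0 := by linear_combination e3 + (1 - z 0 0) * h2
    exact sub_eq_zero.1 (pow_eq_zero_iff two_ne_zero |>.1 this)
  ext i j
  fin_cases i <;> fin_cases j <;> simp [a1, a3, a4, a5]

theorem cube_up_lo [CharP F 2] : (up (1 : F) * lo 1) ^ 3 = 1 := by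
  have h2 : (2 : F) = 0 := CharP.cast_eq_zero F 2
  apply sl_ext
  rw [Matrix.SpecialLinearGroup.coe_pow, Matrix.SpecialLinearGroup.coe_mul, coe_up, coe_lo]
  ext i j
  fin_cases i <;> fin_cases j <;> simp [pow_succ, Matrix.mul_apply, Fin.sum_univ_two] <;>
    first | linear_combination 6 * h2 | linear_combination 4 * h2 | linear_combination 2 * h2

theorem four [CharP F 2] (ha : φ ⬝ᵥ a = 0) (hb : ψ ⬝ᵥ b = 0) (ha0 : a ≠ 0) (hψ : ψ ≠ 0)
    (h1 : φ ⬝ᵥ b ≠ 0) (h2 : ψ ⬝ᵥ a = 0) :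
    (tv a φ * tv b ψ) ^ 2 = tv ((φ ⬝ᵥ b) • a) ψ := by
  rw [← tv_commutator_left ha hb h2, commutatorElement_def,
    inv_eq_of_mul_eq_one_right (sq_tv ha), inv_eq_of_mul_eq_one_right (sq_tv hb), pow_two,
    ← mul_assoc]

theorem orderOf_four {G : Type*} [Group G] {g : G} (h : orderOf (g ^ 2) = 2) : orderOf g = 4 := by
  have h1 : g ^ 2 ^ 2 = 1 := by
    have := pow_orderOf_eq_one (g ^ 2)
    rwa [h, ← pow_mul] at this
  have h2 : ¬ g ^ 2 ^ 1 = 1 := fun e => by
    rw [pow_one] at e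
    rw [e, orderOf_one] at h
    omega
  exact orderOf_eq_prime_pow h2 h1

theorem tri [CharP F 2] {s t : SpecialLinearGroup ι F} (hs : s ∈ D ι F) (ht : t ∈ D ι F) :
    s * t = t * s ∨ (∃ d : F, d ≠ 0 ∧ orderOf (s * t) = orderOf (up 1 * lo d)) ∨
      (orderOf (s * t) = 4 ∧ (s * t) ^ 2 ∈ D ι F) := by
  obtain ⟨a, φ, ha, hφ, h, rfl⟩ := hs
  obtain ⟨b, ψ, hb, hψ, h', rfl⟩ := ht
  have key : ∀ g : SpecialLinearGroup ι F, g ^ 2 ∈ D ι F → orderOf g = 4 ∧ g ^ 2 ∈ D ι F := by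
    rintro g ⟨a, φ, ha, hφ, h, e⟩
    exact ⟨orderOf_four (by rw [e, orderOf_tv 2 h ha hφ]), a, φ, ha, hφ, h, e⟩
  by_cases h1 : φ ⬝ᵥ b = 0 <;> by_cases h2 : ψ ⬝ᵥ a = 0
  · exact Or.inl (tv_commute h h1 h2).eq
  · refine Or.inr (Or.inr (key _ ⟨-(ψ ⬝ᵥ a) • b, φ, by simp [h2, hb], hφ, by simp [h1], ?_⟩))
    rw [← tv_commutator_right h h' h1, commutatorElement_def,
      inv_eq_of_mul_eq_one_right (sq_tv h), inv_eq_of_mul_eq_one_right (sq_tv h'), pow_two,
      ← mul_assoc]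
  · exact Or.inr (Or.inr (key _ ⟨(φ ⬝ᵥ b) • a, ψ, by simp [h1, ha], hψ, by simp [h2],
      four h h' ha hψ h1 h2⟩))
  · have hb' : ((ψ ⬝ᵥ a)⁻¹ • ψ) ⬝ᵥ ((φ ⬝ᵥ b)⁻¹ • b) = 0 := by simp [h']
    have h1' : φ ⬝ᵥ ((φ ⬝ᵥ b)⁻¹ • b) = 1 := by simp [h1]
    have h2' : ((ψ ⬝ᵥ a)⁻¹ • ψ) ⬝ᵥ a = 1 := by simp [h2]
    refine Or.inr (Or.inl ⟨(ψ ⬝ᵥ a) * (φ ⬝ᵥ b), mul_ne_zero h2 h1, ?_⟩)
    rw [← orderOf_injective _ (tvSL2_injective h hb' h1' h2'), map_mul, tvSL2_upper, tvSL2_lower,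
      one_smul, mul_smul, smul_inv_smul₀ h1, tv_smul, smul_inv_smul₀ h2]

theorem rootSet [Finite F] [CharP F 2] : IsRootInvolutionSet (D ι F) where
  orderOf_eq := by rintro _ ⟨a, φ, ha, hφ, h, rfl⟩; exact orderOf_tv 2 h ha hφ
  generates := sl_eq_top_of_transvection_mem _ fun i j hij c => by
    rw [transvection_eq_tv]
    rcases eq_or_ne c 0 with rfl | hc
    · simp
    · exact Subgroup.subset_closure ⟨_, _, by simp [hc], by simp, by simp [hij.symm], rfl⟩
  conj_mem := by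
    rintro _ ⟨a, φ, ha, hφ, h, rfl⟩ g
    exact ⟨_, _, sl_mulVec_ne_zero g ha, sl_vecMul_ne_zero g⁻¹ hφ, by rw [sl_dot_conj, h],
      tv_conj g a φ⟩
  pair := fun s hs t ht => by
    rcases tri hs ht with h | ⟨d, hd, h⟩ | h
    · exact Or.inl h
    · exact Or.inr (Or.inl (h ▸ odd_up_lo hd))
    · exact Or.inr (Or.inr h)

end Aux

/-- Let F be a finite field of characteristic 2 and n a natural number. Then the transvections of SL_{n+3}(F) (so in every dimension at least 3) (the conjugates of the elementary matrices 1 + c E₁₂, c ≠ 0) form a class of root involutions of SL_{n+3}(F); when F has two elements they form a class of {3,4}⁺-transpositions (every product of odd order has order 1 or 3). -/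
theorem result (F : Type*) [Field F] [Fintype F] [CharP F 2] (n : ℕ) :
    Cfsg.IsRootInvolutionClass {t : Matrix.SpecialLinearGroup (Fin (n + 3)) F | ∃ c : F, c ≠ 0 ∧
        ∃ g : Matrix.SpecialLinearGroup (Fin (n + 3)) F, ((g⁻¹ * t * g : Matrix.SpecialLinearGroup (Fin (n + 3)) F) :
          Matrix (Fin (n + 3)) (Fin (n + 3)) F) = Matrix.transvection 0 1 c} ∧
    (Fintype.card F = 2 → Cfsg.IsThreeFourPlusTranspositionSet {t : Matrix.SpecialLinearGroup (Fin (n + 3)) F | ∃ c : F, c ≠ 0 ∧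
        ∃ g : Matrix.SpecialLinearGroup (Fin (n + 3)) F, ((g⁻¹ * t * g : Matrix.SpecialLinearGroup (Fin (n + 3)) F) :
          Matrix (Fin (n + 3)) (Fin (n + 3)) F) = Matrix.transvection 0 1 c}) := by
  have h01 : (0 : Fin (n + 3)) ≠ 1 := by simp
  have h3 : 3 ≤ Fintype.card (Fin (n + 3)) := by simp
  have hc : ∀ t ∈ D (Fin (n + 3)) F, ∃ g : Matrix.SpecialLinearGroup (Fin (n + 3)) F,
      t = g * SpecialLinearGroup.transvection h01 1 * g⁻¹ := by
    rintro _ ⟨a, φ, ha, hφ, h, rfl⟩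
    obtain ⟨g, hg⟩ := Cl.exists_conj_transvection_eq_tv h3 h ha hφ h01
    exact ⟨g, by rw [hg, one_smul]⟩
  have hm : ∀ c : F, c ≠ 0 → SpecialLinearGroup.transvection h01 c ∈ D (Fin (n + 3)) F :=
    fun c hc => ⟨_, _, by simp [hc], by simp, by simp, Cl.transvection_eq_tv h01 c⟩
  have e : {t : Matrix.SpecialLinearGroup (Fin (n + 3)) F | ∃ c : F, c ≠ 0 ∧
        ∃ g : Matrix.SpecialLinearGroup (Fin (n + 3)) F, ((g⁻¹ * t * g : Matrix.SpecialLinearGroup (Fin (n + 3)) F) :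
          Matrix (Fin (n + 3)) (Fin (n + 3)) F) = Matrix.transvection 0 1 c} = D (Fin (n + 3)) F := by
    ext t
    constructor
    · rintro ⟨c, hc, g, hg⟩
      have : g⁻¹ * t * g = SpecialLinearGroup.transvection h01 c := Cl.sl_ext hg
      have h := rootSet.conj_mem _ (hm c hc) g
      rwa [← this, mul_assoc, mul_assoc, _root_.mul_inv_cancel, mul_one, mul_inv_cancel_left] at h
    · intro ht
      obtain ⟨g, rfl⟩ := hc t ht
      refine ⟨1, one_ne_zero, g, ?_⟩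
      rw [mul_assoc, mul_assoc, inv_mul_cancel, mul_one, inv_mul_cancel_left]
      rfl
  rw [e]
  refine ⟨⟨rootSet, ⟨_, hm 1 one_ne_zero⟩, fun s hs t ht => ?_⟩, fun hF => ⟨rootSet, ?_⟩⟩
  · obtain ⟨g, rfl⟩ := hc s hs
    obtain ⟨g', rfl⟩ := hc t ht
    exact ⟨g' * g⁻¹, by group⟩
  · intro s hs t ht ho
    rcases tri hs ht with h | ⟨d, hd, h⟩ | h
    · left
      have hs2 : s * s = 1 := by rw [← pow_two, ← rootSet.orderOf_eq s hs, pow_orderOf_eq_one]
      have ht2 : t * t = 1 := by rw [← pow_two, ← rootSet.orderOf_eq t ht, pow_orderOf_eq_one]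
      have : (s * t) ^ 2 = 1 := by
        rw [pow_two, mul_assoc, ← mul_assoc t, ← h, mul_assoc, ht2, mul_one, hs2]
      rcases (Nat.dvd_prime Nat.prime_two).1 (orderOf_dvd_of_pow_eq_one this) with h | h
      · exact h
      · rw [h] at ho; exact absurd ho (by decide)
    · have hd1 : d = 1 := by
        have := FiniteField.pow_card_sub_one_eq_one d hd
        rwa [hF, pow_one] at this
      rw [h, hd1]
      exact (Nat.dvd_prime Nat.prime_three).1 (orderOf_dvd_of_pow_eq_one cube_up_lo)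
    · rw [h.1] at ho; exact absurd ho (by decide)

end Cfsg.Agent.S5058
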