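import Mathlib
import Cfsg.Statements.S5059
import Cfsg.Agent.Chev.TimPair

set_option autoImplicit false
universe u
open Cfsg

namespace Cfsg.Agent.S5059

open Cfsg.Agent.Chev.Tim


/-- Let k be a field of characteristic not 2 with k not of order 3, M a finite-dimensional k-vector space and G ≤ GL(M) such that (G, M) is a quadratic pair (M irreducible for G, and G generated by its quadratically acting elements σ whose scalar family 1 + c(σ − 1), c ∈ k, lies in G). Write 𝒬_d for the quadratic elements of G of minimal commutator rank, E(σ) for the subgroup generated by the members of 𝒬_d with the same fixed space and commutator space as σ, and Σ for the set of these subgroups. Then for σ ∈ 𝒬_d the subgroup E(σ) consists exactly of those members together with the identity, it is abelian, and if k has prime characteristic p every element of E(σ) has order dividing p. -/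
theorem result {k : Type u} [Field k] (hk2 : ringChar k ≠ 2) (hk3 : Nat.card k ≠ 3)
    {M : Type u} [AddCommGroup M] [Module k M] [FiniteDimensional k M]
    {G : Subgroup (LinearMap.GeneralLinearGroup k M)} (hG : Cfsg.IsQuadraticPair G)
    {σ : LinearMap.GeneralLinearGroup k M} (hσ : σ ∈ Cfsg.minimalQuadraticElements G) :
    (Cfsg.sameActionSubgroup G σ : Set (LinearMap.GeneralLinearGroup k M)) = Cfsg.sameActionClass G σ ∪ {1} ∧
    IsMulCommutative ↥(Cfsg.sameActionSubgroup G σ) ∧
    (∀ p : ℕ, p.Prime → ringChar k = p → ∀ x ∈ Cfsg.sameActionSubgroup G σ, x ^ p = 1) := by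
  have hs := mem_minimal.1 hσ
  refine ⟨?_, ?_, ?_⟩
  · ext τ
    rw [sameActionSubgroup_eq hs, Set.mem_union, mem_sameActionClass hs, SetLike.mem_coe, Set.mem_singleton_iff]
    by_cases h1 : τ = 1
    · simp [h1, one_mem]
    · simp [h1]
  · rw [sameActionSubgroup_eq hs]
    exact comm_self_iff.1 (EE_comm hs.1.1)
  · intro p _ hp x hx
    rw [sameActionSubgroup_eq hs] at hx
    obtain ⟨y, hy, -, e⟩ := (mem_EE hs.1.1).1 hx
    have key : ∀ n : ℕ, (1 + y) ^ n = 1 + (n : k) • y := by
      intro n
      induction n with
      | zero => simp
      | succ n ih =>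
        rw [pow_succ, ih, Nat.cast_succ, add_smul, one_smul, add_mul, mul_add, mul_add, smul_mul_assoc,
          smul_mul_assoc, hy.1]
        simp only [one_mul, mul_one, smul_zero, add_zero]
        abel
    apply Units.ext
    rw [Units.val_pow_eq_pow_val, e, key, ← hp, ringChar.Nat.cast_ringChar]
    simp

end Cfsg.Agent.S5059
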