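import Mathlib
import Cfsg.Statements.S5060
import Cfsg.Agent.Chev.TimGen

set_option autoImplicit false
open Cfsg

namespace Cfsg.Agent.S5060

open Cfsg.Agent.Chev.Tim


/-- Let k ⊆ K be fields with the characteristic of k not 2 and k not of order 3, and let α ∈ K be a non-zero element algebraic over k. Then the subgroup of SL₂(K) generated by the upper unitriangular matrices with entry c and the lower unitriangular matrices with entry cα, c ranging over k, is exactly the group of matrices of SL₂(K) with all entries in k(α). -/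
theorem result {k K : Type*} [Field k] [Field K] [Algebra k K] (hk2 : ringChar k ≠ 2) (hk3 : Nat.card k ≠ 3)
    (α : K) (hα : IsAlgebraic k α) (hα0 : α ≠ 0) :
    (Subgroup.closure ({g : Matrix.SpecialLinearGroup (Fin 2) K | ∃ c : k, (g : Matrix (Fin 2) (Fin 2) K) = !![1, algebraMap k K c; 0, 1]} ∪
        {g : Matrix.SpecialLinearGroup (Fin 2) K | ∃ c : k, (g : Matrix (Fin 2) (Fin 2) K) = !![1, 0; algebraMap k K c * α, 1]}) :
      Set (Matrix.SpecialLinearGroup (Fin 2) K)) =
    {g : Matrix.SpecialLinearGroup (Fin 2) K | ∀ i j : Fin 2, (g : Matrix (Fin 2) (Fin 2) K) i j ∈ IntermediateField.adjoin k ({α} : Set K)} := by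
  set F := IntermediateField.adjoin k ({α} : Set K) with hF
  let ι : F →+* K := (F.val : F →ₐ[k] K)
  let f := Matrix.SpecialLinearGroup.map (n := Fin 2) ι
  set L := Subgroup.closure ({g : Matrix.SpecialLinearGroup (Fin 2) K | ∃ c : k,
    (g : Matrix (Fin 2) (Fin 2) K) = !![1, algebraMap k K c; 0, 1]} ∪
    {g : Matrix.SpecialLinearGroup (Fin 2) K | ∃ c : k,
      (g : Matrix (Fin 2) (Fin 2) K) = !![1, 0; algebraMap k K c * α, 1]}) with hL
  let ζ : F := IntermediateField.AdjoinSimple.gen k α
  have htop : L.comap f = ⊤ := by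
    refine sl2_gen (k := k) (two_ne_zero_of_ringChar hk2) (three_lt_card hk2 hk3) (ζ := ζ)
      (fun e => hα0 (congrArg Subtype.val e)) ?_ ?_ (fun c => ?_) (fun c => ?_)
    · exact (isIntegral_algHom_iff F.val Subtype.val_injective).1 hα.isIntegral
    · intro x
      have hx : (x : K) ∈ Algebra.adjoin k ({α} : Set K) := by
        rw [← IntermediateField.adjoin_simple_toSubalgebra_of_isAlgebraic hα]; exact x.2
      rw [Algebra.adjoin_singleton_eq_range_aeval] at hx
      obtain ⟨p, hp⟩ := hx
      refine ⟨p, Subtype.ext ?_⟩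
      rw [← hp]
      exact (Polynomial.aeval_algHom_apply F.val ζ p).symm
    · rw [Subgroup.mem_comap, GT.map_slUp]
      exact Subgroup.subset_closure (Or.inl ⟨c, rfl⟩)
    · rw [Subgroup.mem_comap, GT.map_slLo]
      exact Subgroup.subset_closure (Or.inr ⟨c, rfl⟩)
  have hrange : ∀ g : Matrix.SpecialLinearGroup (Fin 2) K, g ∈ f.range ↔
      ∀ i j : Fin 2, (g : Matrix (Fin 2) (Fin 2) K) i j ∈ F := by
    intro g
    constructor
    · rintro ⟨g, rfl⟩ i j
      exact (g i j).2
    · intro h
      refine ⟨⟨Matrix.of fun i j => ⟨g i j, h i j⟩, ?_⟩, ?_⟩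
      · apply Subtype.ext
        have := g.det_coe
        rw [Matrix.det_fin_two] at this ⊢
        exact this
      · ext i j; rfl
  ext g
  simp only [SetLike.mem_coe, Set.mem_ofPred_eq]
  rw [← hrange]
  constructor
  · intro hg
    refine (Subgroup.closure_le _).2 ?_ hg
    rintro g (⟨c, e⟩ | ⟨c, e⟩)
    · exact ⟨GT.slUp (algebraMap k F c), by rw [GT.map_slUp]; exact Subtype.ext e.symm⟩
    · exact ⟨GT.slLo (algebraMap k F c * ζ), by rw [GT.map_slLo]; exact Subtype.ext e.symm⟩
  · rintro ⟨g, rfl⟩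
    exact Subgroup.mem_comap.1 (htop ▸ Subgroup.mem_top g)

end Cfsg.Agent.S5060
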