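import Mathlib
import Cfsg.Statements.S5063
import Cfsg.Agent.Chev.TimDec

set_option autoImplicit false
universe u
open Cfsg

namespace Cfsg.Agent.S5063

open Cfsg.Agent.Chev.Tim

open Module in
theorem key {k : Type u} [Field k] {M : Type u} [AddCommGroup M] [Module k M] {G : Subgroup (End k M)ˣ}
    (hG : IsIrreducibleFor G) {𝒢 : Set (Subgroup (End k M)ˣ)} (h1 : G ≤ ⨆ F ∈ 𝒢, F)
    (h2 : ∀ F ∈ 𝒢, ∀ F' ∈ 𝒢, F ≠ F' → Comm F F') {F F' : Subgroup (End k M)ˣ} (hF : F ∈ 𝒢) (hF' : F' ∈ 𝒢)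
    (hne : F ≠ F') {x y : End k M} (hx : InU F x) (hy : InU F' y) (h0 : x ≠ 0) (h : y * x = 0) : y = 0 := by
  have cm : ∀ {F F' : Subgroup (End k M)ˣ}, Comm F F' → ∀ {x : End k M}, InU F x → ∀ g ∈ F',
      (g : End k M) * x = x * g := by
    rintro F F' hc x ⟨a, ha, e⟩ g hg
    have := congrArg Units.val (hc a ha g hg)
    rw [Units.val_mul, Units.val_mul, e, add_mul, mul_add, one_mul, mul_one, add_right_inj] at this
    exact this.symm
  let W : Submodule k M := ⨆ g ∈ F, LinearMap.range ((g : End k M) * x)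
  have le : ∀ g ∈ F, LinearMap.range ((g : End k M) * x) ≤ W := fun g hg => le_iSup₂_of_le g hg le_rfl
  let St : Subgroup (End k M)ˣ :=
    { carrier := {g | W ≤ W.comap (g : End k M) ∧ W ≤ W.comap ((g⁻¹ : (End k M)ˣ) : End k M)}
      one_mem' := ⟨fun w hw => hw, fun w hw => hw⟩
      mul_mem' := fun ha hb => ⟨fun w hw => ha.1 (hb.1 hw), fun w hw => by
        rw [mul_inv_rev]; exact hb.2 (ha.2 hw)⟩
      inv_mem' := fun ha => ⟨ha.2, by rw [inv_inv]; exact ha.1⟩ }
  have inv : ∀ P ∈ 𝒢, ∀ g ∈ P, W ≤ W.comap (g : End k M) := by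
    intro P hP g hg
    refine iSup₂_le fun a ha => ?_
    rintro _ ⟨v, rfl⟩
    by_cases e : P = F
    · exact le _ (mul_mem (e ▸ hg) ha) ⟨v, rfl⟩
    · refine le a ha ⟨(g : End k M) v, ?_⟩
      have c := h2 F hF P hP (Ne.symm e)
      have := congrArg Units.val (c a ha g hg)
      rw [Units.val_mul, Units.val_mul] at this
      rw [← Module.End.mul_apply, ← Module.End.mul_apply, mul_assoc, ← cm c hx g hg, ← mul_assoc, this, mul_assoc]
  have hSt : G ≤ St := h1.trans (iSup₂_le fun P hP g hg => ⟨inv P hP g hg, inv P hP _ (inv_mem hg)⟩)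
  rcases hG.2 W (fun g hg w hw => (hSt hg).1 hw) with e | e
  · refine absurd ?_ h0
    have := le 1 (one_mem _)
    rwa [e, le_bot_iff, LinearMap.range_eq_bot, Units.val_one, one_mul] at this
  · rw [← LinearMap.ker_eq_top, eq_top_iff, ← e]
    refine iSup₂_le fun a ha => LinearMap.range_le_ker_iff.2 ?_
    change y * (a * x) = 0
    rw [← mul_assoc, ← cm (h2 F' hF' F hF hne.symm) hy a ha, mul_assoc, h, mul_zero]

/-- Let k be a field of characteristic not 2 with k not of order 3, M a finite-dimensional k-vector space and G ≤ GL(M) such that (G, M) is a quadratic pair (M irreducible for G, and G generated by its quadratically acting elements σ whose scalar family 1 + c(σ − 1), c ∈ k, lies in G). Write 𝒬_d for the quadratic elements of G of minimal commutator rank, E(σ) for the subgroup generated by the members of 𝒬_d with the same fixed space and commutator space as σ, and Σ for the set of these subgroups. Then G is a central product of finitely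 many quasisimple normal subgroups G₁, …, G_s (pairwise commuting and together generating G), each generated by the quadratic elements of G it contains, and every quadratic element of G lies in one of them. -/
theorem result {k : Type u} [Field k] (hk2 : ringChar k ≠ 2) (hk3 : Nat.card k ≠ 3)
    {M : Type u} [AddCommGroup M] [Module k M] [FiniteDimensional k M]
    {G : Subgroup (LinearMap.GeneralLinearGroup k M)} (hG : Cfsg.IsQuadraticPair G) :
    ∃ (s : ℕ) (Gi : Fin s → Subgroup (LinearMap.GeneralLinearGroup k M)),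
      (∀ i, Gi i ≤ G ∧ ∀ g ∈ G, Cfsg.conjBy (Gi i) g = Gi i) ∧ (∀ i j, i ≠ j → ⁅Gi i, Gi j⁆ = ⊥) ∧ (⨆ i, Gi i) = G ∧
      (∀ i, Cfsg.IsQuasisimple ↥(Gi i) ∧ Subgroup.closure (Cfsg.quadraticElements G ∩ (Gi i : Set (LinearMap.GeneralLinearGroup k M))) = Gi i) ∧
      Cfsg.quadraticElements G ⊆ ⋃ i, (Gi i : Set (LinearMap.GeneralLinearGroup k M)) := by
  have h2 := two_ne_zero_of_ringChar hk2
  have h3 := three_lt_card hk2 hk3
  obtain ⟨𝒢, f1, f2, f3, f4⟩ := exists_factors h2 h3 (Module.finrank k M + 1) G (noUnip_of_irreducible hG.1)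
    fun x _ _ => by omega
  have le : ∀ F ∈ 𝒢, F ≤ ⨆ F ∈ 𝒢, F := fun F hF => le_iSup₂_of_le F hF le_rfl
  have h1 : G ≤ ⨆ F ∈ 𝒢, F := by
    refine hG.2.ge.trans ((Subgroup.closure_le _).2 fun g hg => ?_)
    have hr := (mem_quadraticElements.1 hg).1
    obtain ⟨g', hg', e⟩ := (inU_of_closure (G := ⨆ F ∈ 𝒢, F) hr.1 (hx := f4 _ hr)
      (by rintro x ⟨px, F, hF, hx⟩; exact ⟨px, (QQ.inU hx).mono (le F hF)⟩)).2
    rwa [show g = g' from Units.ext (by rw [e]; simp)]
  obtain ⟨n, Gi, inj, hr⟩ := f1.fin_param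
  have hm : ∀ i, Gi i ∈ 𝒢 := fun i => hr ▸ Set.mem_range_self i
  refine ⟨n, Gi, fun i => ⟨(f2 _ (hm i)).1, fun g hg => conjBy_eq_self_iff.2 ?_⟩,
    fun i j hij => comm_iff.2 (f3 _ (hm i) _ (hm j) (inj.ne hij)), ?_, fun i => ⟨(f2 _ (hm i)).2.1, ?_⟩,
    fun g hg => ?_⟩
  · refine (h1.trans (iSup₂_le fun F hF a ha => ?_)) hg
    rw [← conjBy_eq_self_iff]
    by_cases e : F = Gi i
    · exact conjBy_of_mem (e ▸ ha)
    · exact (f3 F hF _ (hm i) e).conjBy_eq ha
  · refine le_antisymm (iSup_le fun i => (f2 _ (hm i)).1) (h1.trans (iSup₂_le fun F hF => ?_))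
    obtain ⟨i, rfl⟩ : F ∈ Set.range Gi := hr ▸ hF
    exact le_iSup Gi i
  · refine le_antisymm ((Subgroup.closure_le _).2 Set.inter_subset_right)
      ((f2 _ (hm i)).2.2.trans (Subgroup.closure_mono fun g hg => ⟨?_, hg.1⟩))
    rw [mem_quadraticElements] at hg ⊢
    exact ⟨QQ.mono hg.1 (f2 _ (hm i)).1, hg.2⟩
  · obtain ⟨hr', h0⟩ := mem_quadraticElements.1 hg
    by_cases hex : ∃ x, x ≠ 0 ∧ Pre x ((g : Module.End k M) - 1) ∧ ∃ F ∈ 𝒢, x ∈ QQ k F
    · obtain ⟨x, hx0, px, F, hF, hx⟩ := hex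
      have := (qq_of_closure (G := F) hr'.1 (hx := f4 _ hr') (by
        rintro y ⟨py, F', hF', hy⟩
        refine ⟨py, ?_⟩
        by_cases e : F = F'
        · exact e ▸ hy
        · rw [key hG.1 h1 f3 hF hF' e (QQ.inU hx) (QQ.inU hy) hx0 (py.mul_pre px hr'.1)]
          exact QQ.zero)).2
      obtain ⟨i, rfl⟩ : F ∈ Set.range Gi := hr ▸ hF
      exact Set.mem_iUnion.2 ⟨i, QQ.mem_of_eq this (by simp)⟩
    · refine absurd (AddSubmonoid.mem_bot.1 ((AddSubmonoid.closure_le.2 ?_) (f4 _ hr'))) h0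
      intro x hx
      by_contra hx0
      exact hex ⟨x, hx0, hx⟩

end Cfsg.Agent.S5063
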