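import Mathlib
import Cfsg.Statements.S5064
import Cfsg.Agent.Chev.TimPair

set_option autoImplicit false
universe u
open Cfsg

namespace Cfsg.Agent.S5064

open Cfsg.Agent.Chev.Tim

open Polynomial Cfsg.Agent.GT Module in
theorem key {k : Type u} [Field k] {M : Type u} [AddCommGroup M] [Module k M] [FiniteDimensional k M]
    (h2 : (2 : k) ≠ 0) (h3 : 3 < ENat.card k) {H : Subgroup (End k M)ˣ} {s t : End k M} (hs : s ∈ LL H)
    (ht : t ∈ LL H) (h0 : s * t * s ≠ 0)
    (hH : H ≤ Subgroup.closure ({g : (End k M)ˣ | ∃ c : k, (g : End k M) = 1 + c • s} ∪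
      {g : (End k M)ˣ | ∃ c : k, (g : End k M) = 1 + c • t})) :
    ∃ (K : Type u) (_ : Field K) (_ : Algebra k K) (lam : K), IsAlgebraic k lam ∧
      IntermediateField.adjoin k ({lam} : Set K) = ⊤ ∧ Nonempty (H ≃* Matrix.SpecialLinearGroup (Fin 2) K) := by
  have h : QP s t (s * t + t * s) := ⟨hs.1.1, ht.1.1, rfl⟩
  set z := s * t + t * s with hz
  obtain ⟨f, hf, hXf, hfs, -⟩ := dichotomy h2 h3 hs ht.1 h h0
  obtain ⟨f', -, ⟨u', v', e'⟩, hft', -⟩ := dichotomy h2 h3 ht hs.1 h.symm fun e => h0 (LL.u_symm h2 ht.1 hs e)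
  have hfz : aeval z f * z = 0 := by
    conv_lhs => enter [2]; rw [hz]
    rw [mul_add, ← mul_assoc, hfs, ← mul_assoc, (h.aeval_t _).eq, mul_assoc, hfs]; simp
  have hft : aeval z f * t = 0 := by
    have e1 : f = u' * (f * X) + f * v' * f' := by linear_combination (-f) * e'
    rw [e1, map_add, add_mul, map_mul, map_mul _ f X, aeval_X, hfz, map_mul, mul_assoc _ (aeval z f'), hft']; simp
  have dvd : ∀ {s : End k M}, s ≠ 0 → aeval z f * s = 0 → ∀ p : k[X], aeval z p * s = 0 ↔ f ∣ p := by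
    intro s hs0 hfs p
    refine ⟨fun hp => ?_, by rintro ⟨p', rfl⟩; rw [mul_comm f, map_mul, mul_assoc, hfs, mul_zero]⟩
    by_contra hc
    obtain ⟨a, b, e⟩ := hf.coprime_iff_not_dvd.2 hc
    have := congrArg (fun r => aeval z r * s) e
    simp only [map_add, map_mul, add_mul, mul_assoc, hfs, hp, mul_zero, add_zero, map_one, one_mul] at this
    exact hs0 this.symm
  have ds := dvd hs.2.1 hfs
  have dt := dvd ht.2.1 hft
  have := Fact.mk hf
  let K := AdjoinRoot f
  let ζ : K := AdjoinRoot.root f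
  have hK : ∀ p : k[X], aeval ζ p = 0 ↔ f ∣ p := fun p => by rw [AdjoinRoot.aeval_eq, AdjoinRoot.mk_eq_zero]
  have hfX : ¬ f ∣ X := hf.coprime_iff_not_dvd.1 hXf.symm
  have hζ : ζ ≠ 0 := fun e => hfX ((hK X).1 (by simpa using e))
  have hfc : ∀ c : k[X], f ∣ X * c → f ∣ c := fun c hc => (hf.prime.dvd_or_dvd hc).resolve_left hfX
  set Γ := QP.repSub (k := k) s t z h H ζ with hΓ
  have m1 : ∀ (c : k) (g : (End k M)ˣ), (g : End k M) = 1 + c • s → (g, slUp (algebraMap k K c)) ∈ Γ :=
    fun c g e => by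
      simpa using h.mem_repSub_s ζ (QQ.mem_of_eq (QQ.smul hs.1 c) e) (p := C c)
        (by rw [e, aeval_C, Algebra.smul_def])
  have m2 : ∀ (c : k) (g : (End k M)ˣ), (g : End k M) = 1 + c • t → (g, slLo (algebraMap k K c * ζ)) ∈ Γ :=
    fun c g e => by
      simpa using h.mem_repSub_t ζ (QQ.mem_of_eq (QQ.smul ht.1 c) e) (p := C c)
        (by rw [e, aeval_C, Algebra.smul_def])
  have hΓtop : Γ.map (MonoidHom.snd _ _) = ⊤ := by
    refine sl2_gen h2 h3 hζ (AdjoinRoot.isIntegral_root hf.ne_zero)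
      (fun x => by obtain ⟨p, hp⟩ := AdjoinRoot.mk_surjective x; exact ⟨p, (AdjoinRoot.aeval_eq p).trans hp⟩)
      (fun c => ⟨_, m1 c (uu _ (QQ.smul hs.1 c).1) rfl, rfl⟩) fun c => ⟨_, m2 c (uu _ (QQ.smul ht.1 c).1) rfl, rfl⟩
  have hΓH : Γ.map (MonoidHom.fst _ _) = H := by
    refine le_antisymm (by rintro _ ⟨x, hx, rfl⟩; exact hx.1) (hH.trans ((Subgroup.closure_le _).2 ?_))
    rintro g (⟨c, e⟩ | ⟨c, e⟩)
    · exact ⟨_, m1 c g e, rfl⟩
    · exact ⟨_, m2 c g e, rfl⟩
  have ts : ∀ p : k[X], f ∣ p → aeval z p * (t * s) = 0 := fun p hp => by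
    rw [← mul_assoc, (dt p).2 hp, zero_mul]
  have zz : ∀ p : k[X], f ∣ p → aeval z (X * p) = 0 := by
    rintro _ ⟨p, rfl⟩
    rw [show X * (f * p) = p * (f * X) by ring, map_mul, map_mul, aeval_X, hfz, mul_zero]
  have iff : ∀ x ∈ Γ, x.1 = 1 ↔ x.2 = 1 := by
    rintro ⟨g, m⟩ ⟨-, a, b, c, q, eg, -, ⟨a', ha'⟩, n1, n2, n3, n4⟩
    simp only at eg n1 n2 n3 n4 ⊢
    constructor
    · rintro rfl
      rw [Units.val_one] at eg
      have c1 : f ∣ c := by
        have e1 := congrArg (fun y => s * y * s) eg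
        simp only [mul_one, h.ss, h.s_mul_el, h.el_mul_s, QP.el_s'] at e1
        exact hfc c ((ds _).1 e1.symm)
      have c2 : f ∣ a - 1 := by
        have e1 := congrArg (fun y => y * s) eg
        simp only [one_mul, h.el_mul_s] at e1
        simp only [el, map_zero, zero_mul, ts c c1, zero_add, add_zero] at e1
        rw [← ds, map_sub, sub_mul, ← e1]; simp
      have c3 : f ∣ a + X * q - 1 := by
        have e1 := congrArg (fun y => s * y) eg
        simp only [mul_one, h.s_mul_el] at e1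
        rw [el, zz c c1, ts _ c1.neg_right] at e1
        rw [← ds, map_sub, sub_mul]
        simp only [map_zero, zero_mul, zero_add, add_zero] at e1
        rw [← e1]; simp
      have c4 : f ∣ b := by
        have e1 := congrArg (fun y => t * y * t) eg
        have e2 : t * el s t z a b c q * t =
            el s t z (0 : k[X]) 0 1 0 * el s t z a b c q * el s t z (0 : k[X]) 0 1 0 := by simp [el]
        simp only [mul_one, h.tt] at e1
        rw [e2, h.el_mul, h.el_mul] at e1
        refine hfc b ((dt _).1 ?_)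
        simpa [el] using e1.symm
      ext i j
      fin_cases i <;> fin_cases j
      · simpa [n1, sub_eq_zero] using (hK _).2 c2
      · simpa [n2] using (hK _).2 c4
      · simpa [n3] using (hK _).2 (c1.mul_left X)
      · simpa [n4, sub_eq_zero] using (hK _).2 c3
    · rintro rfl
      have c1 : f ∣ c := hfc c ((hK _).1 (by simpa using n3.symm))
      have c2 : f ∣ a - 1 := (hK _).1 (by rw [map_sub, ← n1]; simp)
      have c3 : f ∣ a + X * q - 1 := (hK _).1 (by rw [map_sub, ← n4]; simp)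
      have c4 : f ∣ b := (hK _).1 (by simpa using n2.symm)
      have c5 : f ∣ q := hfc q (by simpa using c3.sub c2)
      apply Units.ext
      rw [eg, el, (ds b).2 c4, (dt c).2 c1, ts q c5, show a = 1 + X * a' by rw [← ha']; ring, map_add,
        zz a' (hfc a' (ha' ▸ c2))]
      simp
  have i1 : Function.Injective ((MonoidHom.fst _ _).comp Γ.subtype) := by
    rw [injective_iff_map_eq_one]
    intro x hx
    exact Subtype.ext (Prod.ext hx ((iff x x.2).1 hx))
  have i2 : Function.Injective ((MonoidHom.snd _ _).comp Γ.subtype) := by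
    rw [injective_iff_map_eq_one]
    intro x hx
    exact Subtype.ext (Prod.ext ((iff x x.2).2 hx) hx)
  refine ⟨K, inferInstance, inferInstance, ζ, (AdjoinRoot.isIntegral_root hf.ne_zero).isAlgebraic,
    IntermediateField.adjoin_root_eq_top f, ⟨((MulEquiv.subgroupCongr ?_).trans (MonoidHom.ofInjective i1).symm).trans
      (MulEquiv.ofBijective _ ⟨i2, ?_⟩)⟩⟩
  · rw [MonoidHom.range_comp, Subgroup.range_subtype, hΓH]
  · rw [← MonoidHom.range_eq_top, MonoidHom.range_comp, Subgroup.range_subtype, hΓtop]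

/-- Let k be a field of characteristic not 2 with k not of order 3, M a finite-dimensional k-vector space and G ≤ GL(M) such that (G, M) is a quadratic pair (M irreducible for G, and G generated by its quadratically acting elements σ whose scalar family 1 + c(σ − 1), c ∈ k, lies in G). Write 𝒬_d for the quadratic elements of G of minimal commutator rank, E(σ) for the subgroup generated by the members of 𝒬_d with the same fixed space and commutator space as σ, and Σ for the set of these subgroups. If σ, τ ∈ 𝒬_d and the subgroup H generated by their two scalar families does not act unipotently on M, then H is isomorphic to SL₂ over a simple algebraic extension k(λ) of k. -/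
theorem result {k : Type u} [Field k] (hk2 : ringChar k ≠ 2) (hk3 : Nat.card k ≠ 3)
    {M : Type u} [AddCommGroup M] [Module k M] [FiniteDimensional k M]
    {G : Subgroup (LinearMap.GeneralLinearGroup k M)} (hG : Cfsg.IsQuadraticPair G)
    {σ τ : LinearMap.GeneralLinearGroup k M} (hσ : σ ∈ Cfsg.minimalQuadraticElements G) (hτ : τ ∈ Cfsg.minimalQuadraticElements G)
    (hH : ¬ Cfsg.IsUnipotentOn (Subgroup.closure (Cfsg.scalarFamily σ ∪ Cfsg.scalarFamily τ))) :
    ∃ (K : Type u) (_ : Field K) (_ : Algebra k K) (lam : K), IsAlgebraic k lam ∧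
      IntermediateField.adjoin k ({lam} : Set K) = ⊤ ∧
      Nonempty (↥(Subgroup.closure (Cfsg.scalarFamily σ ∪ Cfsg.scalarFamily τ)) ≃* Matrix.SpecialLinearGroup (Fin 2) K) := by
  have h2 := two_ne_zero_of_ringChar hk2
  have h3 := three_lt_card hk2 hk3
  have hs := mem_minimal.1 hσ
  have ht := mem_minimal.1 hτ
  set H := Subgroup.closure (Cfsg.scalarFamily σ ∪ Cfsg.scalarFamily τ) with hH'
  have hHG : H ≤ G := (Subgroup.closure_le _).2 (Set.union_subset hσ.1.2.2 hτ.1.2.2)
  have hs' : (σ : Module.End k M) - 1 ∈ QQ k H := ⟨hs.1.1, fun c =>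
    ⟨uu _ (QQ.smul hs.1 c).1, Subgroup.subset_closure (Or.inl ⟨c, rfl⟩), rfl⟩⟩
  have ht' : (τ : Module.End k M) - 1 ∈ QQ k H := ⟨ht.1.1, fun c =>
    ⟨uu _ (QQ.smul ht.1 c).1, Subgroup.subset_closure (Or.inr ⟨c, rfl⟩), rfl⟩⟩
  refine key h2 h3 ⟨hs', hs.2.1, fun x hx => hs.2.2 x (QQ.mono hx hHG)⟩
    ⟨ht', ht.2.1, fun x hx => ht.2.2 x (QQ.mono hx hHG)⟩ (fun h0 => hH (unip_iff.2 ?_)) le_rfl
  refine (LL.unip h2 h3 hs ht h0).mono ((Subgroup.closure_le _).2 ?_)
  rintro g (⟨c, e⟩ | ⟨c, e⟩)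
  · exact Subgroup.mem_sup_left (mem_EE_of (QQ.smul hs.1 c) ((Pre.refl _).smul c) e)
  · exact Subgroup.mem_sup_right (mem_EE_of (QQ.smul ht.1 c) ((Pre.refl _).smul c) e)

end Cfsg.Agent.S5064
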