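import Mathlib
import Cfsg.Statements.S5065
import Cfsg.Agent.Chev.TimPair

set_option autoImplicit false
universe u
open Cfsg

namespace Cfsg.Agent.S5065

open Cfsg.Agent.Chev.Tim

open Module in
theorem key {k : Type u} [Field k] {M : Type u} [AddCommGroup M] [Module k M]
    (h2 : (2 : k) ≠ 0) {G : Subgroup (End k M)ˣ} {s t : End k M} (hs : s ∈ QQ k G) (ht : t ∈ QQ k G) (hs0 : s ≠ 0)
    (o : Opp s t) {X : Subgroup (End k M)ˣ} (hX : X = EE k G s ⊔ EE k G t) :
    (∃! i : (End k M)ˣ, i ∈ X ∧ i ≠ 1 ∧ i * i = 1 ∧ (∀ x ∈ X, i * x = x * i) ∧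
        (∀ m ∈ Cfsg.commutatorSubmodule X, (i : M →ₗ[k] M) m = -m) ∧
        (∀ m ∈ Cfsg.fixedSubmodule X, (i : M →ₗ[k] M) m = m)) ∧
      IsCompl (Cfsg.fixedSubmodule X) (Cfsg.commutatorSubmodule X) := by
  set e := s * t + t * s with he
  have es : e * s = s := by rw [he, add_mul, o.1, mul_assoc, hs.1]; simp
  have se : s * e = s := by rw [he, mul_add, ← mul_assoc, ← mul_assoc, o.1, hs.1]; simp
  have et : e * t = t := by rw [he, add_mul, o.2, mul_assoc, ht.1]; simp
  have te : t * e = t := by rw [he, mul_add, ← mul_assoc, ← mul_assoc, o.2, ht.1]; simp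
  have ee : e * e = e := by
    conv_lhs => enter [2]; rw [he]
    rw [mul_add, ← mul_assoc, ← mul_assoc, es, et]
  let J : Submodule k (End k M) :=
    { carrier := {x | e * x = x ∧ x * e = x}
      zero_mem' := by simp
      add_mem' := fun hx hy => ⟨by rw [mul_add, hx.1, hy.1], by rw [add_mul, hx.2, hy.2]⟩
      smul_mem' := fun c x hx => ⟨by rw [mul_smul_comm, hx.1], by rw [smul_mul_assoc, hx.2]⟩ }
  have hJ : J * J ≤ J := Submodule.mul_le.2 fun x hx y hy =>
    ⟨by rw [← mul_assoc, hx.1], by rw [mul_assoc, hy.2]⟩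
  have hXJ : ∀ g ∈ X, e * ((g : End k M) - 1) = g - 1 ∧ ((g : End k M) - 1) * e = g - 1 := by
    have key : ∀ r, r * r = 0 → e * r = r → r * e = r → EE k G r ≤ unitsOf J hJ := by
      intro r hr h1 h2
      rw [le_unitsOf, aug_le]
      intro g hg
      obtain ⟨x, -, px, ex⟩ := (mem_EE hr).1 hg
      rw [ex, add_sub_cancel_left]
      exact ⟨px.eq_mul h1, px.mul_eq h2⟩
    exact aug_le.1 ((le_unitsOf hJ).1 (hX ▸ sup_le (key s hs.1 es se) (key t ht.1 et te)))
  have ms : uu s hs.1 ∈ X := hX ▸ Subgroup.mem_sup_left (uu_mem_EE hs (Pre.refl s))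
  have mt : uu t ht.1 ∈ X := hX ▸ Subgroup.mem_sup_right (uu_mem_EE ht (Pre.refl t))
  have hc : Cfsg.commutatorSubmodule X = LinearMap.range e := by
    refine le_antisymm (iSup₂_le fun g hg => ?_) ?_
    · rw [← (hXJ g hg).1]; exact range_mul_le _ _
    · refine (LinearMap.range_add_le _ _).trans (sup_le ((range_mul_le _ _).trans ?_) ((range_mul_le _ _).trans ?_))
      · exact le_iSup₂_of_le _ ms (by rw [val_uu, add_sub_cancel_left])
      · exact le_iSup₂_of_le _ mt (by rw [val_uu, add_sub_cancel_left])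
  have hf : Cfsg.fixedSubmodule X = LinearMap.ker e := by
    refine le_antisymm (fun m hm => ?_) (le_iInf₂ fun g hg => ?_)
    · simp only [Cfsg.fixedSubmodule, Submodule.mem_iInf] at hm
      have h1 := hm _ ms
      have h2 := hm _ mt
      rw [val_uu, add_sub_cancel_left, LinearMap.mem_ker] at h1 h2
      simp [he, h1, h2]
    · rw [← (hXJ g hg).2]; exact ker_le_mul _ _
  have hn : ((uu s hs.1 * (uu t ht.1)⁻¹ * uu s hs.1 : (End k M)ˣ) : End k M) = 1 - e + s - t := by
    rw [Units.val_mul, Units.val_mul, val_uu, val_inv_uu, he]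
    have := o.1
    noncomm_ring [hs.1, this]
  set n := uu s hs.1 * (uu t ht.1)⁻¹ * uu s hs.1
  have hi : ((n * n : (End k M)ˣ) : End k M) = 1 - e - e := by
    rw [Units.val_mul, hn]
    have : (s - t) * (s - t) = -e := by rw [he]; noncomm_ring [hs.1, ht.1]
    calc _ = (1 - e) * (1 - e) + (1 - e) * (s - t) + (s - t) * (1 - e) + (s - t) * (s - t) := by noncomm_ring
      _ = _ := by rw [this]; noncomm_ring [ee, es, se, et, te]
  have hnX : n ∈ X := mul_mem (mul_mem ms (inv_mem mt)) ms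
  rw [hc, hf]
  refine ⟨⟨n * n, ⟨mul_mem hnX hnX, fun h1 => hs0 ?_, Units.ext ?_, fun x hx => Units.ext ?_, ?_, ?_⟩, ?_⟩,
    (LinearMap.IsIdempotentElem.isCompl ee).symm⟩
  · rw [h1, Units.val_one, sub_sub, eq_comm, sub_eq_self, ← two_smul k] at hi
    rw [← se, (smul_eq_zero.1 hi).resolve_left h2, mul_zero]
  · rw [Units.val_mul, hi]; noncomm_ring [ee]
  · obtain ⟨h1, h2⟩ := hXJ x hx
    have : e * x = x * e := by
      rw [mul_sub, ← h2, sub_mul, mul_one, one_mul, sub_left_inj] at h1; exact h1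
    rw [Units.val_mul, Units.val_mul _ (n * n), hi]; noncomm_ring [this]
  · rintro _ ⟨v, rfl⟩
    have : e (e v) = e v := LinearMap.congr_fun ee v
    simp [hi, this]
  · intro m hm
    rw [LinearMap.mem_ker] at hm
    simp [hi, hm]
  · rintro i ⟨-, -, -, -, h1, h2⟩
    refine Units.ext (LinearMap.ext fun v => ?_)
    have a1 := h1 (e v) ⟨v, rfl⟩
    have a2 := h2 (v - e v) (by rw [LinearMap.mem_ker, map_sub, sub_eq_zero]; exact (LinearMap.congr_fun ee v).symm)
    rw [map_sub, a1, sub_eq_iff_eq_add] at a2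
    rw [hi, a2]; simp [sub_eq_add_neg]

/-- Let k be a field of characteristic not 2 with k not of order 3, M a finite-dimensional k-vector space and G ≤ GL(M) such that (G, M) is a quadratic pair (M irreducible for G, and G generated by its quadratically acting elements σ whose scalar family 1 + c(σ − 1), c ∈ k, lies in G). Write 𝒬_d for the quadratic elements of G of minimal commutator rank, E(σ) for the subgroup generated by the members of 𝒬_d with the same fixed space and commutator space as σ, and Σ for the set of these subgroups. For σ, τ ∈ 𝒬_d put A = E(σ), B = E(τ) and X = ⟨A, B⟩. Then either X acts unipotently on M, or A and B are the unipotent subgroups of a special rank one group X; in the latter case X contains exactly one central involution acting as −1 on the commutator space [M, X] and trivially on the fixed space C_M(X), and M is the direct sum of C_M(X) and [M, X]. -/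
theorem result {k : Type u} [Field k] (hk2 : ringChar k ≠ 2) (hk3 : Nat.card k ≠ 3)
    {M : Type u} [AddCommGroup M] [Module k M] [FiniteDimensional k M]
    {G : Subgroup (LinearMap.GeneralLinearGroup k M)} (hG : Cfsg.IsQuadraticPair G)
    {σ τ : LinearMap.GeneralLinearGroup k M} (hσ : σ ∈ Cfsg.minimalQuadraticElements G) (hτ : τ ∈ Cfsg.minimalQuadraticElements G) :
    Cfsg.IsUnipotentOn (Cfsg.sameActionSubgroup G σ ⊔ Cfsg.sameActionSubgroup G τ) ∨
    (Cfsg.IsSpecialRankOnePair (Cfsg.sameActionSubgroup G σ) (Cfsg.sameActionSubgroup G τ) ∧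
      (∃! i : LinearMap.GeneralLinearGroup k M, i ∈ Cfsg.sameActionSubgroup G σ ⊔ Cfsg.sameActionSubgroup G τ ∧ i ≠ 1 ∧ i * i = 1 ∧
        (∀ x ∈ Cfsg.sameActionSubgroup G σ ⊔ Cfsg.sameActionSubgroup G τ, i * x = x * i) ∧
        (∀ m ∈ Cfsg.commutatorSubmodule (Cfsg.sameActionSubgroup G σ ⊔ Cfsg.sameActionSubgroup G τ), (i : M →ₗ[k] M) m = -m) ∧
        (∀ m ∈ Cfsg.fixedSubmodule (Cfsg.sameActionSubgroup G σ ⊔ Cfsg.sameActionSubgroup G τ), (i : M →ₗ[k] M) m = m)) ∧
      IsCompl (Cfsg.fixedSubmodule (Cfsg.sameActionSubgroup G σ ⊔ Cfsg.sameActionSubgroup G τ))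
        (Cfsg.commutatorSubmodule (Cfsg.sameActionSubgroup G σ ⊔ Cfsg.sameActionSubgroup G τ))) := by
  have h2 := two_ne_zero_of_ringChar hk2
  have h3 := three_lt_card hk2 hk3
  have hs := mem_minimal.1 hσ
  have ht := mem_minimal.1 hτ
  rw [sameActionSubgroup_eq hs, sameActionSubgroup_eq ht]
  by_cases h0 : ((σ : Module.End k M) - 1) * ((τ : Module.End k M) - 1) * ((σ : Module.End k M) - 1) = 0
  · exact Or.inl (unip_iff.2 (LL.unip h2 h3 hs ht h0))
  · obtain ⟨t', ht', p, o⟩ := LL.exists_opp h2 h3 hs ht.1 h0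
    exact Or.inr ⟨LL.special h2 h3 hs ht h0, key h2 hs.1 ht'.1 hs.2.1 o (by rw [LL.EE_eq ht ht'.1 ht'.2.1 p])⟩

end Cfsg.Agent.S5065
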