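import Mathlib
import Cfsg.Statements.S5066
import Cfsg.Agent.Chev.TimComm

set_option autoImplicit false
universe u
open Cfsg

namespace Cfsg.Agent.S5066

open Cfsg.Agent.Chev.Tim


/-- Let k be a field of characteristic not 2 with k not of order 3, M a finite-dimensional k-vector space and G ≤ GL(M) such that (G, M) is a quadratic pair (M irreducible for G, and G generated by its quadratically acting elements σ whose scalar family 1 + c(σ − 1), c ∈ k, lies in G). Write 𝒬_d for the quadratic elements of G of minimal commutator rank, E(σ) for the subgroup generated by the members of 𝒬_d with the same fixed space and commutator space as σ, and Σ for the set of these subgroups. Let E, F ∈ Σ generate a subgroup that is nilpotent of class exactly two. Then D = ⁅E, F⁆ belongs to Σ, equals the subgroup generated by the commutators of e with F, and also of E with f, for every non-identity e ∈ E, f ∈ F, and ⟨E, F⟩ lies in U(D), the set of elements g of G normalizing D with (g − 1)M inside the fixed space of D, (g − 1) mapping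 that fixed space into the commutator space of D, and g acting trivially on the commutator space of D. -/
theorem result {k : Type u} [Field k] (hk2 : ringChar k ≠ 2) (hk3 : Nat.card k ≠ 3)
    {M : Type u} [AddCommGroup M] [Module k M] [FiniteDimensional k M]
    {G : Subgroup (LinearMap.GeneralLinearGroup k M)} (hG : Cfsg.IsQuadraticPair G)
    {E F : Subgroup (LinearMap.GeneralLinearGroup k M)} (hE : E ∈ Cfsg.quadraticRootSubgroups G) (hF : F ∈ Cfsg.quadraticRootSubgroups G)
    (h2 : ⁅E ⊔ F, E ⊔ F⁆ ≠ ⊥ ∧ ⁅⁅E ⊔ F, E ⊔ F⁆, E ⊔ F⁆ = ⊥) :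
    ⁅E, F⁆ ∈ Cfsg.quadraticRootSubgroups G ∧
    (∀ e ∈ E, e ≠ 1 → Subgroup.closure ((fun f : LinearMap.GeneralLinearGroup k M => e * f * e⁻¹ * f⁻¹) '' (F : Set (LinearMap.GeneralLinearGroup k M))) = ⁅E, F⁆) ∧
    (∀ f ∈ F, f ≠ 1 → Subgroup.closure ((fun e : LinearMap.GeneralLinearGroup k M => e * f * e⁻¹ * f⁻¹) '' (E : Set (LinearMap.GeneralLinearGroup k M))) = ⁅E, F⁆) ∧
    ((E ⊔ F : Subgroup (LinearMap.GeneralLinearGroup k M)) : Set (LinearMap.GeneralLinearGroup k M)) ⊆ Cfsg.quadraticUnipotentCore G ⁅E, F⁆ := by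
  have h2' := two_ne_zero_of_ringChar hk2
  have h3 := three_lt_card hk2 hk3
  have hN := noUnip_of_irreducible hG.1
  obtain ⟨s, hs, rfl⟩ := mem_qrs.1 hE
  obtain ⟨t, ht, rfl⟩ := mem_qrs.1 hF
  rcases LL.cases h2' hs ht with h | h | h
  · have hc := LL.comm_EE h2' h3 hs ht h
    exact absurd (comm_iff.2 (((EE_comm hs.1.1).sup_left hc.symm).sup_right (hc.sup_left (EE_comm ht.1.1)))) h2.1
  · exact absurd ((comm_iff.1 h2.2).mono (Subgroup.commutator_mono le_sup_left le_sup_right) le_sup_right)
      (not_comm_commutator (LL.special h2' h3 hs ht h).1 (EE_comm ht.1.1))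
  · have hc := h.cc h2' h3 hN
    exact ⟨hc.1, hc.2.2.1, hc.2.2.2, h.subset_core h2' h3 hN⟩

end Cfsg.Agent.S5066
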