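import Mathlib
import Cfsg.Statements.S5067
import Cfsg.Agent.Chev.TimRoot

set_option autoImplicit false
open Cfsg

namespace Cfsg.Agent.S5067

open Cfsg.Agent.Chev.Tim

theorem key {P : Type*} [Group P] [Group.IsNilpotent P] (hna : ¬ IsMulCommutative P) {E : Subgroup P}
    (hE : IsMulCommutative ↥E) :
    Group.nilpotencyClass ↥(Subgroup.normalClosure (E : Set P)) < Group.nilpotencyClass P := by
  set N := Subgroup.normalClosure (E : Set P) with hN
  have hc : 2 ≤ Group.nilpotencyClass P := by
    by_contra h
    have h1 : (⊤ : Subgroup P).lowerCentralSeries 1 = ⊥ :=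
      Subgroup.lowerCentralSeries_eq_bot_iff_nilpotencyClass_le.2 (by omega)
    have h2 : Comm (⊤ : Subgroup P) ⊤ := comm_iff.1 h1
    exact hna ⟨⟨fun a b => h2 a trivial b trivial⟩⟩
  have hle : N ≤ E ⊔ (⊤ : Subgroup P).lowerCentralSeries 1 := by
    refine (Subgroup.closure_le _).2 fun x hx => ?_
    obtain ⟨e, he, hx⟩ := Group.mem_conjugatesOfSet_iff.1 hx
    obtain ⟨g, rfl⟩ := isConj_iff.1 hx
    have : g * e * g⁻¹ = e * (e⁻¹ * g * e⁻¹⁻¹ * g⁻¹) := by group
    rw [SetLike.mem_coe, this]
    exact mul_mem (Subgroup.mem_sup_left he) (Subgroup.mem_sup_right (comm_mem trivial trivial))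
  have h1 : ∀ i, N.lowerCentralSeries (i + 1) ≤ (⊤ : Subgroup P).lowerCentralSeries (i + 2) := by
    intro i
    induction i with
    | zero =>
      have hn : ∀ x : P, conjBy ((⊤ : Subgroup P).lowerCentralSeries 2) x =
          (⊤ : Subgroup P).lowerCentralSeries 2 := fun x =>
        conjBy_eq_self_iff.2 (Subgroup.self_le_normalizer_lowerCentralSeries ⊤ 2 trivial)
      refine (Subgroup.commutator_mono hle hle).trans (commutator_sup_le (fun x _ => hn x)
        (commutator_sup_le' (fun x _ => hn x) ?_ ?_) (Subgroup.commutator_mono le_rfl le_top))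
      · rw [comm_iff.2 (comm_self_iff.2 hE)]; exact bot_le
      · rw [Subgroup.commutator_comm]; exact Subgroup.commutator_mono le_rfl le_top
    | succ i ih => exact Subgroup.commutator_mono ih le_top
  obtain ⟨c, hc'⟩ := Nat.exists_eq_add_of_le' hc
  have h2 : N.lowerCentralSeries (c + 1) = ⊥ := by
    have := h1 c
    rwa [← hc', Subgroup.lowerCentralSeries_nilpotencyClass, le_bot_iff] at this
  rw [← Subgroup.top_subtype_lowerCentralSeries, Subgroup.map_eq_bot_iff_of_injective _ N.subtype_injective,
    Subgroup.lowerCentralSeries_eq_bot_iff_nilpotencyClass_le] at h2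
  omega

/-- Let P be a non-abelian nilpotent p-group (every element of p-power order; P possibly infinite) generated by two abelian subgroups E and F. Then the normal closure of E in P, and likewise that of F, has nilpotency class strictly smaller than that of P. -/
theorem result {P : Type*} [Group P] {p : ℕ} [Fact p.Prime] (hP : IsPGroup p P) [Group.IsNilpotent P]
    (hna : ¬ IsMulCommutative P) {E F : Subgroup P} (hE : IsMulCommutative ↥E) (hF : IsMulCommutative ↥F) (hgen : E ⊔ F = ⊤) :
    Group.nilpotencyClass ↥(Subgroup.normalClosure (E : Set P)) < Group.nilpotencyClass P ∧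
    Group.nilpotencyClass ↥(Subgroup.normalClosure (F : Set P)) < Group.nilpotencyClass P := by
  exact ⟨key hna hE, key hna hF⟩

end Cfsg.Agent.S5067
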