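import Mathlib
import Cfsg.Statements.S5069
import Cfsg.Agent.Chev.TimSig

set_option autoImplicit false
universe u
open Cfsg

namespace Cfsg.Agent.S5069

open Cfsg.Agent.Chev.Tim


/-- Let k be a field of characteristic not 2 with k not of order 3, M a finite-dimensional k-vector space and G ≤ GL(M) such that (G, M) is a quadratic pair (M irreducible for G, and G generated by its quadratically acting elements σ whose scalar family 1 + c(σ − 1), c ∈ k, lies in G). Write 𝒬_d for the quadratic elements of G of minimal commutator rank, E(σ) for the subgroup generated by the members of 𝒬_d with the same fixed space and commutator space as σ, and Σ for the set of these subgroups. Then Σ is a disjoint union of finitely many parts Σ₁, …, Σ_r such that the subgroups G_i generated by the Σ_i commute pairwise, each G_i is quasisimple, and inside G_i the members of Σ_i form a class of abstract root subgroups in which every rank one pair A, B contains subgroups A₀ ≤ A, B₀ ≤ B generating an image of SL₂(k₁)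 with central kernel on unitriangular subgroups for some field k₁ with at least four elements. -/
theorem result {k : Type u} [Field k] (hk2 : ringChar k ≠ 2) (hk3 : Nat.card k ≠ 3)
    {M : Type u} [AddCommGroup M] [Module k M] [FiniteDimensional k M]
    {G : Subgroup (LinearMap.GeneralLinearGroup k M)} (hG : Cfsg.IsQuadraticPair G) :
    ∃ (r : ℕ) (part : Fin r → Set (Subgroup (LinearMap.GeneralLinearGroup k M))),
      (⋃ i, part i) = Cfsg.quadraticRootSubgroups G ∧ (∀ i j, i ≠ j → Disjoint (part i) (part j)) ∧ (∀ i, (part i).Nonempty) ∧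
      (∀ i j, i ≠ j → ⁅(⨆ A ∈ part i, A), (⨆ A ∈ part j, A)⁆ = ⊥) ∧
      (∀ i, Cfsg.IsQuasisimple ↥(⨆ A ∈ part i, A) ∧
        Cfsg.IsRootSubgroupClass ((fun A : Subgroup (LinearMap.GeneralLinearGroup k M) => A.subgroupOf (⨆ B ∈ part i, B)) '' (part i)) ∧
        ∀ A ∈ part i, ∀ B ∈ Cfsg.rankOnePartners (part i) A, ∃ A₀ B₀ : Subgroup (LinearMap.GeneralLinearGroup k M), A₀ ≤ A ∧ B₀ ≤ B ∧
          ∃ (k₁ : Type u) (_ : Field k₁), 3 < ENat.card k₁ ∧ Cfsg.IsPSL2PairOver k₁ A₀ B₀) := by
  have h2 := two_ne_zero_of_ringChar hk2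
  have h3 := three_lt_card hk2 hk3
  have hN := noUnip_of_irreducible hG.1
  obtain ⟨r, part, inj, hr⟩ := (cp_finite h2 h3 hN).fin_param
  have hp : ∀ i, ∃ A ∈ quadraticRootSubgroups G, Cp G A = part i := fun i =>
    (hr ▸ Set.mem_range_self i : part i ∈ Cp G '' quadraticRootSubgroups G)
  choose A hA e using hp
  refine ⟨r, part, ?_, fun i j hij => ?_, fun i => ⟨A i, e i ▸ ⟨hA i, .refl⟩⟩, fun i j hij => ?_, fun i => ?_⟩
  · ext B
    rw [Set.mem_iUnion]
    constructor
    · rintro ⟨i, hi⟩
      exact (e i ▸ hi : B ∈ Cp G (A i)).1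
    · intro hB
      obtain ⟨i, hi⟩ : Cp G B ∈ Set.range part := hr ▸ ⟨B, hB, rfl⟩
      exact ⟨i, hi ▸ ⟨hB, .refl⟩⟩
  · rw [Set.disjoint_left, ← e i, ← e j]
    intro B hi hj
    exact hij (inj (by rw [← e i, ← e j, cp_eq hi.2, cp_eq hj.2]))
  · rw [← e i, ← e j]
    exact comm_iff.2 (cp_comm h2 h3 hN fun h => hij (inj (by rw [← e i, ← e j, h])))
  · rw [← e i]
    refine ⟨cp_quasisimple h2 h3 hN (hA i), cp_class h2 h3 hN (hA i), fun B hB C hC => ?_⟩
    obtain ⟨A₀, B₀, a, b, h⟩ := qrs_psl2 h2 h3 hN hB.1 hC.1.1 hC.2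
    exact ⟨A₀, B₀, a, b, k, inferInstance, h3, h⟩

end Cfsg.Agent.S5069
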