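import Mathlib
import Cfsg.Statements.S5070
import Cfsg.Agent.Cl.SpMat
-- import your own Cfsg.Agent.* helpers here

set_option autoImplicit false
open Matrix
open Cfsg

namespace Cfsg.Agent.S5070

section Aux

open Cfsg.Agent.Cl

variable {F : Type*} [Field F] {m : ℕ}

theorem closure_eq (p : Fin m ⊕ Fin m → F) :
    Subgroup.closure {g : ↥(Matrix.symplecticGroup (Fin m) F) | ∃ c : F, ∀ v : Fin m ⊕ Fin m → F,
      (g : Matrix (Fin m ⊕ Fin m) (Fin m ⊕ Fin m) F) *ᵥ v =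
        v + (c * (v ⬝ᵥ (Matrix.J (Fin m) F *ᵥ p))) • p} = spTMGroup p := by
  rw [← Subgroup.closure_eq (spTMGroup p)]
  congr 1
  ext g
  simp only [Set.mem_setOf_eq, SetLike.mem_coe, mem_spTMGroup]
  refine exists_congr fun c => ⟨fun h => sp_ext fun v => ?_, ?_⟩
  · rw [h, spTM_mulVec, spB_apply, sympForm]
  · rintro rfl v
    rw [spTM_mulVec, spB_apply, sympForm]

theorem comm (p : Fin m ⊕ Fin m → F) : IsMulCommutative (spTMGroup p) := ⟨⟨fun a b => by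
  obtain ⟨c, hc⟩ := mem_spTMGroup.1 a.2
  obtain ⟨d, hd⟩ := mem_spTMGroup.1 b.2
  apply Subtype.ext
  rw [Subgroup.coe_mul, Subgroup.coe_mul, ← hc, ← hd]
  exact (spTM_commute (spB_isAlt p) c d).eq⟩⟩

theorem ne_bot {p : Fin m ⊕ Fin m → F} (hp : p ≠ 0) : spTMGroup p ≠ ⊥ := fun h => by
  have : spTM p 1 ∈ spTMGroup p := mem_spTMGroup.2 ⟨1, rfl⟩
  rw [h, Subgroup.mem_bot, spTM_eq_one_iff] at this
  simp [hp] at this

theorem commutator_eq_bot {u v : Fin m ⊕ Fin m → F} (h : spB m F u v = 0) :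
    ⁅spTMGroup u, spTMGroup v⁆ = ⊥ := by
  rw [eq_bot_iff, Subgroup.commutator_le]
  intro a ha b hb
  obtain ⟨c, rfl⟩ := mem_spTMGroup.1 ha
  obtain ⟨d, rfl⟩ := mem_spTMGroup.1 hb
  exact commutatorElement_eq_one_iff_commute.2 (spTM_commute h c d)

theorem cond {u v : Fin m ⊕ Fin m → F} (h : spB m F u v ≠ 0) :
    RankOneCondition (spTMGroup u) (spTMGroup v) := by
  intro a ha ha1
  obtain ⟨c, rfl⟩ := mem_spTMGroup.1 ha
  have hc : c ≠ 0 := by rintro rfl; simp at ha1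
  have hv : v ≠ 0 := by rintro rfl; simp at h
  refine ⟨spTM v (-1 / (c * spB m F u v ^ 2)), mem_spTMGroup.2 ⟨_, rfl⟩, by
    simp [spTM_eq_one_iff, hv, hc, h], ?_⟩
  rw [conjBy, conjBy, spTMGroup_map_conj, spTMGroup_map_conj, spTM_inv, spTM_inv, spTM_mulVec,
    spTM_mulVec, ← spTMGroup_smul (mul_ne_zero hc h), ← spB_isAlt.neg_eq u v]
  congr 1
  rw [smul_add, smul_smul, show c * spB m F u v * (-(-1 / (c * spB m F u v ^ 2)) * spB m F u v) = 1
    by field_simp]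
  module

theorem swap {u v : Fin m ⊕ Fin m → F} (h : spB m F u v ≠ 0) : spB m F v u ≠ 0 := by
  rw [← spB_isAlt.neg_eq]; exact neg_ne_zero.2 h

theorem pair {u v : Fin m ⊕ Fin m → F} (h : spB m F u v ≠ 0) :
    IsRankOnePair (spTMGroup u) (spTMGroup v) where
  ne := fun he => by
    have h1 : spTM u 1 ∈ spTMGroup v := he ▸ mem_spTMGroup.2 ⟨1, rfl⟩
    obtain ⟨c, hc⟩ := mem_spTMGroup.1 h1
    have := spTM_commute (spB_isAlt v) c 1
    rw [hc, spTM_commute_iff one_ne_zero one_ne_zero] at this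
    exact h this
  nilpotent_left := by have := comm u; open scoped IsMulCommutative in infer_instance
  nilpotent_right := by have := comm v; open scoped IsMulCommutative in infer_instance
  cond_left := cond h
  cond_right := cond (swap h)

theorem ne_of_pair {u v : Fin m ⊕ Fin m → F} (hu : u ≠ 0)
    (h : IsRankOnePair (spTMGroup u) (spTMGroup v)) : spB m F u v ≠ 0 := fun h0 => by
  obtain ⟨b, hb, -, he⟩ := h.cond_left (spTM u 1) (mem_spTMGroup.2 ⟨1, rfl⟩)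
    (by simp [spTM_eq_one_iff, hu])
  obtain ⟨d, rfl⟩ := mem_spTMGroup.1 hb
  have h1 : spB m F v u = 0 := by rw [← spB_isAlt.neg_eq, h0, neg_zero]
  rw [conjBy, conjBy, spTMGroup_map_conj, spTMGroup_map_conj, spTM_inv, spTM_inv, spTM_mulVec,
    spTM_mulVec, h0, h1] at he
  exact h.ne (by simpa using he)

theorem normalize {u v : Fin m ⊕ Fin m → F} (h : spB m F u v ≠ 0) :
    ∃ v', spB m F u v' = 1 ∧ spTMGroup v' = spTMGroup v :=
  ⟨(spB m F u v)⁻¹ • v, by simp [h], spTMGroup_smul (inv_ne_zero h) v⟩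

theorem range_eq {u v : Fin m ⊕ Fin m → F} (h : spB m F u v = 1) :
    ((spStdEquiv m F).symm.toMonoidHom.comp (spSL2 spB_isAlt h)).range =
      spTMGroup u ⊔ spTMGroup v := by
  rw [MonoidHom.range_comp, spSL2_range, Subgroup.map_sup]; rfl

theorem psl2 {u v : Fin m ⊕ Fin m → F} (h : spB m F u v ≠ 0) :
    IsPSL2PairOver F (spTMGroup u) (spTMGroup v) := by
  obtain ⟨v, h, hv⟩ := normalize h
  rw [← hv]
  refine ⟨(spStdEquiv m F).symm.toMonoidHom.comp (spSL2 spB_isAlt h), range_eq h, ?_, ?_, ?_⟩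
  · rw [(MonoidHom.ker_eq_bot_iff _).2
      ((spStdEquiv m F).symm.injective.comp (spSL2_injective spB_isAlt h))]
    exact bot_le
  · rw [upperUnipotentSL2, MonoidHom.map_closure, ← Subgroup.closure_eq (spTMGroup u)]
    congr 1
    ext g
    constructor
    · rintro ⟨M, ⟨h1, h2, h3⟩, rfl⟩
      exact mem_spTMGroup.2 ⟨_, congrArg (spStdEquiv m F).symm (spSL2_upper spB_isAlt h M h1 h2 h3).symm⟩
    · intro hg
      obtain ⟨c, rfl⟩ := mem_spTMGroup.1 hg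
      exact ⟨⟨!![1, -c; 0, 1], by simp [Matrix.det_fin_two]⟩, ⟨rfl, rfl, rfl⟩,
        congrArg (spStdEquiv m F).symm
          ((spSL2_upper spB_isAlt h _ rfl rfl rfl).trans (congrArg _ (neg_neg c)))⟩
  · rw [lowerUnipotentSL2, MonoidHom.map_closure, ← Subgroup.closure_eq (spTMGroup v)]
    congr 1
    ext g
    constructor
    · rintro ⟨M, ⟨h1, h2, h3⟩, rfl⟩
      exact mem_spTMGroup.2 ⟨_, congrArg (spStdEquiv m F).symm (spSL2_lower spB_isAlt h M h1 h2 h3).symm⟩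
    · intro hg
      obtain ⟨c, rfl⟩ := mem_spTMGroup.1 hg
      exact ⟨⟨!![1, 0; c, 1], by simp [Matrix.det_fin_two]⟩, ⟨rfl, rfl, rfl⟩,
        congrArg (spStdEquiv m F).symm (spSL2_lower spB_isAlt h _ rfl rfl rfl)⟩

theorem not_comm_case {u v : Fin m ⊕ Fin m → F} {w : Fin m ⊕ Fin m → F} (hw : w ≠ 0)
    (h1 : ⁅spTMGroup u, spTMGroup v⁆ = spTMGroup w)
    (h2 : ∀ c ∈ ⁅spTMGroup u, spTMGroup v⁆, ∀ x ∈ spTMGroup u ⊔ spTMGroup v, c * x = x * c) :
    False := by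
  by_cases h : spB m F u v = 0
  · exact ne_bot hw (h1.symm.trans (commutator_eq_bot h))
  obtain ⟨v, h, hv⟩ := normalize h
  rw [← hv] at h1 h2
  have hT : spTM w 1 ∈ ⁅spTMGroup u, spTMGroup v⁆ := h1 ▸ mem_spTMGroup.2 ⟨1, rfl⟩
  have hu' : spB m F w u = 0 := (spTM_commute_iff one_ne_zero one_ne_zero).1
    (h2 _ hT _ (Subgroup.mem_sup_left (mem_spTMGroup.2 ⟨1, rfl⟩)))
  have hv' : spB m F w v = 0 := (spTM_commute_iff one_ne_zero one_ne_zero).1
    (h2 _ hT _ (Subgroup.mem_sup_right (mem_spTMGroup.2 ⟨1, rfl⟩)))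
  have hle : ⁅spTMGroup u, spTMGroup v⁆ ≤ spTMGroup u ⊔ spTMGroup v :=
    Subgroup.commutator_le.2 fun a ha b hb => by
      have ha' := Subgroup.mem_sup_left (T := spTMGroup v) ha
      have hb' := Subgroup.mem_sup_right (S := spTMGroup u) hb
      exact mul_mem (mul_mem (mul_mem ha' hb') (inv_mem ha')) (inv_mem hb')
  obtain ⟨M, hM⟩ : spTM w 1 ∈ _ := range_eq h ▸ hle hT
  have hM' : spSL2 spB_isAlt h M = spT spB_isAlt w 1 := (spStdEquiv m F).symm.injective hM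
  apply hw
  apply spB_nondegenerate.2
  intro y
  set x := y - spB m F y v • u - spB m F u y • v with hx
  have hvu : spB m F v u = -1 := by rw [← spB_isAlt.neg_eq, h]
  have e1 := spSL2_apply_of_perp spB_isAlt h M (x := x)
    (by simp [hx, h, spB_isAlt.self_eq_zero]) (by simp [hx, h, spB_isAlt.self_eq_zero])
  rw [hM', spT_apply, add_eq_left, smul_eq_zero, one_mul] at e1
  have e2 := e1.resolve_right hw
  have a1 : spB m F u w = 0 := by rw [← spB_isAlt.neg_eq, hu', neg_zero]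
  have a2 : spB m F v w = 0 := by rw [← spB_isAlt.neg_eq, hv', neg_zero]
  simpa [hx, a1, a2] using e2

theorem rootSet : IsRootSubgroupSet {A : Subgroup ↥(Matrix.symplecticGroup (Fin m) F) |
    ∃ p : Fin m ⊕ Fin m → F, p ≠ 0 ∧ A = spTMGroup p} where
  commutative := by rintro _ ⟨p, -, rfl⟩; exact comm p
  ne_bot := by rintro _ ⟨p, hp, rfl⟩; exact ne_bot hp
  generates := by
    rw [eq_top_iff, ← sp_closure_spTM, Subgroup.closure_le]
    rintro _ ⟨v, c, rfl⟩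
    by_cases hv : v = 0
    · simp [hv]
    · exact Subgroup.mem_iSup_of_mem (spTMGroup v)
        (Subgroup.mem_iSup_of_mem ⟨v, hv, rfl⟩ (mem_spTMGroup.2 ⟨c, rfl⟩))
  conj_mem := by
    rintro _ ⟨p, hp, rfl⟩ g
    refine ⟨_, fun h => hp (sp_mulVec_injective g ?_), spTMGroup_map_conj g p⟩
    simpa only [Matrix.mulVec_zero] using h
  pair := by
    rintro _ ⟨u, -, rfl⟩ _ ⟨v, -, rfl⟩
    by_cases h : spB m F u v = 0
    · exact Or.inl (commutator_eq_bot h)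
    · exact Or.inr (Or.inl (pair h))

end Aux

/-- Let F be a field, m a natural number and V = F^{2(m+1)} with the standard non-degenerate alternating form f(u, v) = uᵀ J v. For a non-zero vector p let T(p) be the group of symplectic transvections v ↦ v + c f(v, p) p, c ∈ F. Then the subgroups T(p), p ≠ 0, generate the symplectic group Sp_{2(m+1)}(F) and form a degenerate class of abstract F-root subgroups of it (any two of them either commute elementwise or are the unipotent subgroups of a rank one group that is an image of SL₂(F) with central kernel, never the commutator case), and their graph of rank one pairs is connected. -/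
theorem result (F : Type*) [Field F] (m : ℕ) :
    Cfsg.IsRootSubgroupClass {A : Subgroup ↥(Matrix.symplecticGroup (Fin (m + 1)) F) | ∃ p : Fin (m + 1) ⊕ Fin (m + 1) → F, p ≠ 0 ∧
        A = Subgroup.closure {g : ↥(Matrix.symplecticGroup (Fin (m + 1)) F) | ∃ c : F, ∀ v : Fin (m + 1) ⊕ Fin (m + 1) → F,
          (g : Matrix (Fin (m + 1) ⊕ Fin (m + 1)) (Fin (m + 1) ⊕ Fin (m + 1)) F) *ᵥ v =
            v + (c * (v ⬝ᵥ (Matrix.J (Fin (m + 1)) F *ᵥ p))) • p}} ∧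
    Cfsg.IsDegenerateRootSet {A : Subgroup ↥(Matrix.symplecticGroup (Fin (m + 1)) F) | ∃ p : Fin (m + 1) ⊕ Fin (m + 1) → F, p ≠ 0 ∧
        A = Subgroup.closure {g : ↥(Matrix.symplecticGroup (Fin (m + 1)) F) | ∃ c : F, ∀ v : Fin (m + 1) ⊕ Fin (m + 1) → F,
          (g : Matrix (Fin (m + 1) ⊕ Fin (m + 1)) (Fin (m + 1) ⊕ Fin (m + 1)) F) *ᵥ v =
            v + (c * (v ⬝ᵥ (Matrix.J (Fin (m + 1)) F *ᵥ p))) • p}} ∧
    Cfsg.IsKRootSubgroupSet F {A : Subgroup ↥(Matrix.symplecticGroup (Fin (m + 1)) F) | ∃ p : Fin (m + 1) ⊕ Fin (m + 1) → F, p ≠ 0 ∧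
        A = Subgroup.closure {g : ↥(Matrix.symplecticGroup (Fin (m + 1)) F) | ∃ c : F, ∀ v : Fin (m + 1) ⊕ Fin (m + 1) → F,
          (g : Matrix (Fin (m + 1) ⊕ Fin (m + 1)) (Fin (m + 1) ⊕ Fin (m + 1)) F) *ᵥ v =
            v + (c * (v ⬝ᵥ (Matrix.J (Fin (m + 1)) F *ᵥ p))) • p}} ∧
    Cfsg.IsConnectedFamily (Cfsg.FAdj {A : Subgroup ↥(Matrix.symplecticGroup (Fin (m + 1)) F) | ∃ p : Fin (m + 1) ⊕ Fin (m + 1) → F, p ≠ 0 ∧
        A = Subgroup.closure {g : ↥(Matrix.symplecticGroup (Fin (m + 1)) F) | ∃ c : F, ∀ v : Fin (m + 1) ⊕ Fin (m + 1) → F,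
          (g : Matrix (Fin (m + 1) ⊕ Fin (m + 1)) (Fin (m + 1) ⊕ Fin (m + 1)) F) *ᵥ v =
            v + (c * (v ⬝ᵥ (Matrix.J (Fin (m + 1)) F *ᵥ p))) • p}})
      {A : Subgroup ↥(Matrix.symplecticGroup (Fin (m + 1)) F) | ∃ p : Fin (m + 1) ⊕ Fin (m + 1) → F, p ≠ 0 ∧
        A = Subgroup.closure {g : ↥(Matrix.symplecticGroup (Fin (m + 1)) F) | ∃ c : F, ∀ v : Fin (m + 1) ⊕ Fin (m + 1) → F,
          (g : Matrix (Fin (m + 1) ⊕ Fin (m + 1)) (Fin (m + 1) ⊕ Fin (m + 1)) F) *ᵥ v =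
            v + (c * (v ⬝ᵥ (Matrix.J (Fin (m + 1)) F *ᵥ p))) • p}} := by
  simp only [closure_eq]
  refine ⟨⟨rootSet, ⟨_, Pi.single (Sum.inl 0) 1, by simp, rfl⟩, ?_⟩, ?_, ⟨rootSet, ?_⟩, ?_⟩
  · rintro _ ⟨u, hu, rfl⟩ _ ⟨v, hv, rfl⟩
    obtain ⟨k, hk, rfl⟩ := Cl.sp_transitive Cl.spB_nondegenerate Cl.spB_isAlt hu hv
    obtain ⟨A, hA⟩ := Cl.sp_exists_of_isometry k hk
    exact ⟨A, by rw [conjBy, Cl.spTMGroup_map_conj, hA]⟩
  · rintro _ ⟨u, -, rfl⟩ _ ⟨v, -, rfl⟩ ⟨⟨w, hw, h1⟩, h2, -⟩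
    exact not_comm_case hw h1 h2
  · rintro _ ⟨u, hu, rfl⟩ _ ⟨v, -, rfl⟩ h
    exact psl2 (ne_of_pair hu h)
  · rintro _ ⟨u, hu, rfl⟩ _ ⟨v, hv, rfl⟩
    obtain ⟨x, h1, h2⟩ := Cl.sp_exists_ne_zero_two Cl.spB_nondegenerate hu hv
    have hx : x ≠ 0 := by rintro rfl; simp at h1
    exact (Relation.ReflTransGen.single ⟨⟨u, hu, rfl⟩, ⟨x, hx, rfl⟩, pair (swap h1)⟩).tail
      ⟨⟨x, hx, rfl⟩, ⟨v, hv, rfl⟩, pair h2⟩

end Cfsg.Agent.S5070
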