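import Mathlib
import Cfsg.Statements.S5071
import Cfsg.Agent.Cl.URoot

set_option autoImplicit false
open Matrix
open Cfsg

namespace Cfsg.Agent.S5071

open Cfsg.Agent.Cl

theorem iSup_subgroupOf {G : Type*} [Group G] (S : Set (Subgroup G)) :
    (⨆ A ∈ (fun A : Subgroup G => A.subgroupOf (⨆ B ∈ S, B)) '' S, A) = ⊤ := by
  apply Subgroup.map_injective (⨆ B ∈ S, B).subtype_injective
  rw [← MonoidHom.range_eq_map, Subgroup.range_subtype, iSup_image]
  simp only [Subgroup.map_iSup, Subgroup.subgroupOf_map_subtype]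
  exact biSup_congr fun A hA => inf_eq_left.2 (le_biSup (fun B => B) hA)

theorem closure_eq {F : Type*} [Field F] {σ : F →+* F} {q n : ℕ} (hq : UField σ q) {p : Fin n → F}
    (hp0 : p ≠ 0) (hp : uStd σ (Fin n) p p = 0) :
    Subgroup.closure {g : ↥(Cfsg.SU n F q) |
      (∀ v : Fin n → F, ∃ c : F, ((g : Matrix.SpecialLinearGroup (Fin n) F) :
        Matrix (Fin n) (Fin n) F) *ᵥ v = v + c • p) ∧
      ∀ v : Fin n → F, Cfsg.hermForm n F q v p = 0 →
        ((g : Matrix.SpecialLinearGroup (Fin n) F) : Matrix (Fin n) (Fin n) F) *ᵥ v = v} =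
      (uTvGroup _ hp).comap ((USG _).subtype.comp (hq.suEquiv n).toMonoidHom) := by
  rw [← Subgroup.closure_eq (Subgroup.comap _ _)]
  congr 1
  ext g
  constructor
  · rintro ⟨h1, -⟩
    exact ((hq.isHerm_uStd (Fin n)).mem_uTvGroup_iff hp0 hp).2 ⟨(hq.suEquiv n g).2.1, h1⟩
  · intro h
    refine ⟨(((hq.isHerm_uStd (Fin n)).mem_uTvGroup_iff hp0 hp).1 h).2, fun v hv => ?_⟩
    obtain ⟨c, -, hc⟩ := h
    rw [hq.hermForm_eq] at hv
    exact (LinearEquiv.congr_fun hc v).trans (uRefl_apply_of_perp c hv)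

theorem main {F : Type*} [Field F] {σ : F →+* F} {q n : ℕ} (hq : UField σ q)
    (S : Set (Subgroup (SU (n + 2) F q)))
    (hS : S = uRootSet (uStd σ (Fin (n + 2)))
      ((USG _).subtype.comp (hq.suEquiv (n + 2)).toMonoidHom))
    (T : Set (Subgroup ↥(⨆ B ∈ S, B))) (hT : T = (fun A => A.subgroupOf (⨆ B ∈ S, B)) '' S) :
    IsRootSubgroupClass T ∧ IsDegenerateRootSet T ∧
      (∃ (L : Type) (_ : Field L) (_ : Fintype L), Fintype.card L = q ∧ IsKRootSubgroupSet L T) ∧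
      IsConnectedFamily (FAdj T) T := by
  have hB := hq.isHerm_uStd (Fin (n + 2))
  have := hq.finite
  have hgen : (⨆ A ∈ T, A) = ⊤ := hT ▸ iSup_subgroupOf S
  have hm : ∀ z (hz : uStd σ (Fin (n + 2)) z z = 0), z ≠ 0 → (uTvGroup _ hz).comap
      ((USG _).subtype.comp (hq.suEquiv (n + 2)).toMonoidHom) ∈ S := fun z hz hz0 => by
    rw [hS]
    exact ⟨z, hz, hz0, rfl⟩
  let ρ := ((USG _).subtype.comp (hq.suEquiv (n + 2)).toMonoidHom).comp (⨆ B ∈ S, B).subtype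
  have h : UTvRep (uStd σ (Fin (n + 2))) ρ :=
    ⟨hB, (Subtype.val_injective.comp (hq.suEquiv (n + 2)).injective).comp Subtype.val_injective,
      fun g => (hq.suEquiv (n + 2) g).2.1, fun z c hz hc => by
        by_cases hz0 : z = 0
        · exact ⟨1, by rw [map_one, hz0, uRefl_zero_left]⟩
        obtain ⟨g, hg⟩ := (hq.suEquiv (n + 2)).surjective ⟨_, hB.uRefl_mem_USG hz hc⟩
        have hg' := congrArg Subtype.val hg
        exact ⟨⟨g, le_biSup (fun B => B) (hm z hz hz0) ⟨c, hc, hg'⟩⟩, hg'⟩⟩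
  have hT' : T = uRootSet (uStd σ (Fin (n + 2))) ρ := by
    rw [hT]
    ext A
    constructor
    · rintro ⟨A, hA, rfl⟩
      obtain ⟨p, hp, hp0, rfl⟩ := hS ▸ hA
      exact ⟨p, hp, hp0, rfl⟩
    · rintro ⟨p, hp, hp0, rfl⟩
      exact ⟨_, hm p hp hp0, rfl⟩
  rw [hT'] at hgen ⊢
  obtain ⟨e, f, hef⟩ := hB.exists_uHypPair' (by simp)
  obtain ⟨p, k, hp, -, hk, rfl⟩ := hq.exists_prime_pow
  have := Fact.mk hp
  have hc := GaloisField.card p k (by omega)
  obtain ⟨ι, hι⟩ := hq.exists_embedding hc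
  refine ⟨⟨h.rootSet hgen, ⟨_, e, hef.left, hef.left_ne_zero, rfl⟩,
    fun A hA C hC => h.exists_conjBy hA hC⟩, h.degenerate,
    ⟨GaloisField p k, inferInstance, Fintype.ofFinite _, ?_, h.kRootSet ι hι hgen⟩, h.connected⟩
  exact (@Nat.card_eq_fintype_card _ (Fintype.ofFinite _)).symm.trans hc


/-- Let F be a finite field with q² elements, n a natural number, and h the Hermitian form Σ uᵢ vᵢ^q on F^{n+2}. For a non-zero isotropic vector p let T(p) be the group of unitary transvections with centre ⟨p⟩: the elements of SU_{n+2}(q) moving every vector by a multiple of p and fixing every vector perpendicular to p. Let Σ be the set of these T(p) and G₀ the subgroup they generate. Then, viewed inside G₀, the members of Σ form a degenerate class of abstract k-root subgroups of G₀ for some field k with q elements (any two commute or are the unipotent subgroups of a rank one group that is an image of SL₂(k) with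 central kernel, never the commutator case), and their graph of rank one pairs is connected. -/
theorem result (F : Type*) [Field F] [Fintype F] (q n : ℕ) (hF : Fintype.card F = q ^ 2) :
    Cfsg.IsRootSubgroupClass ((fun A : Subgroup ↥(Cfsg.SU (n + 2) F q) => A.subgroupOf (⨆ B ∈ {A : Subgroup ↥(Cfsg.SU (n + 2) F q) | ∃ p : Fin (n + 2) → F, p ≠ 0 ∧ Cfsg.hermForm (n + 2) F q p p = 0 ∧
          A = Subgroup.closure {g : ↥(Cfsg.SU (n + 2) F q) |
            (∀ v : Fin (n + 2) → F, ∃ c : F, ((g : Matrix.SpecialLinearGroup (Fin (n + 2)) F) : Matrix (Fin (n + 2)) (Fin (n + 2)) F) *ᵥ v = v + c • p) ∧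
            ∀ v : Fin (n + 2) → F, Cfsg.hermForm (n + 2) F q v p = 0 →
              ((g : Matrix.SpecialLinearGroup (Fin (n + 2)) F) : Matrix (Fin (n + 2)) (Fin (n + 2)) F) *ᵥ v = v}}, B)) ''
      {A : Subgroup ↥(Cfsg.SU (n + 2) F q) | ∃ p : Fin (n + 2) → F, p ≠ 0 ∧ Cfsg.hermForm (n + 2) F q p p = 0 ∧
          A = Subgroup.closure {g : ↥(Cfsg.SU (n + 2) F q) |
            (∀ v : Fin (n + 2) → F, ∃ c : F, ((g : Matrix.SpecialLinearGroup (Fin (n + 2)) F) : Matrix (Fin (n + 2)) (Fin (n + 2)) F) *ᵥ v = v + c • p) ∧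
            ∀ v : Fin (n + 2) → F, Cfsg.hermForm (n + 2) F q v p = 0 →
              ((g : Matrix.SpecialLinearGroup (Fin (n + 2)) F) : Matrix (Fin (n + 2)) (Fin (n + 2)) F) *ᵥ v = v}}) ∧
    Cfsg.IsDegenerateRootSet ((fun A : Subgroup ↥(Cfsg.SU (n + 2) F q) => A.subgroupOf (⨆ B ∈ {A : Subgroup ↥(Cfsg.SU (n + 2) F q) | ∃ p : Fin (n + 2) → F, p ≠ 0 ∧ Cfsg.hermForm (n + 2) F q p p = 0 ∧
          A = Subgroup.closure {g : ↥(Cfsg.SU (n + 2) F q) |
            (∀ v : Fin (n + 2) → F, ∃ c : F, ((g : Matrix.SpecialLinearGroup (Fin (n + 2)) F) : Matrix (Fin (n + 2)) (Fin (n + 2)) F) *ᵥ v = v + c • p) ∧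
            ∀ v : Fin (n + 2) → F, Cfsg.hermForm (n + 2) F q v p = 0 →
              ((g : Matrix.SpecialLinearGroup (Fin (n + 2)) F) : Matrix (Fin (n + 2)) (Fin (n + 2)) F) *ᵥ v = v}}, B)) ''
      {A : Subgroup ↥(Cfsg.SU (n + 2) F q) | ∃ p : Fin (n + 2) → F, p ≠ 0 ∧ Cfsg.hermForm (n + 2) F q p p = 0 ∧
          A = Subgroup.closure {g : ↥(Cfsg.SU (n + 2) F q) |
            (∀ v : Fin (n + 2) → F, ∃ c : F, ((g : Matrix.SpecialLinearGroup (Fin (n + 2)) F) : Matrix (Fin (n + 2)) (Fin (n + 2)) F) *ᵥ v = v + c • p) ∧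
            ∀ v : Fin (n + 2) → F, Cfsg.hermForm (n + 2) F q v p = 0 →
              ((g : Matrix.SpecialLinearGroup (Fin (n + 2)) F) : Matrix (Fin (n + 2)) (Fin (n + 2)) F) *ᵥ v = v}}) ∧
    (∃ (L : Type) (_ : Field L) (_ : Fintype L), Fintype.card L = q ∧ Cfsg.IsKRootSubgroupSet L ((fun A : Subgroup ↥(Cfsg.SU (n + 2) F q) => A.subgroupOf (⨆ B ∈ {A : Subgroup ↥(Cfsg.SU (n + 2) F q) | ∃ p : Fin (n + 2) → F, p ≠ 0 ∧ Cfsg.hermForm (n + 2) F q p p = 0 ∧
          A = Subgroup.closure {g : ↥(Cfsg.SU (n + 2) F q) |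
            (∀ v : Fin (n + 2) → F, ∃ c : F, ((g : Matrix.SpecialLinearGroup (Fin (n + 2)) F) : Matrix (Fin (n + 2)) (Fin (n + 2)) F) *ᵥ v = v + c • p) ∧
            ∀ v : Fin (n + 2) → F, Cfsg.hermForm (n + 2) F q v p = 0 →
              ((g : Matrix.SpecialLinearGroup (Fin (n + 2)) F) : Matrix (Fin (n + 2)) (Fin (n + 2)) F) *ᵥ v = v}}, B)) ''
      {A : Subgroup ↥(Cfsg.SU (n + 2) F q) | ∃ p : Fin (n + 2) → F, p ≠ 0 ∧ Cfsg.hermForm (n + 2) F q p p = 0 ∧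
          A = Subgroup.closure {g : ↥(Cfsg.SU (n + 2) F q) |
            (∀ v : Fin (n + 2) → F, ∃ c : F, ((g : Matrix.SpecialLinearGroup (Fin (n + 2)) F) : Matrix (Fin (n + 2)) (Fin (n + 2)) F) *ᵥ v = v + c • p) ∧
            ∀ v : Fin (n + 2) → F, Cfsg.hermForm (n + 2) F q v p = 0 →
              ((g : Matrix.SpecialLinearGroup (Fin (n + 2)) F) : Matrix (Fin (n + 2)) (Fin (n + 2)) F) *ᵥ v = v}})) ∧
    Cfsg.IsConnectedFamily (Cfsg.FAdj ((fun A : Subgroup ↥(Cfsg.SU (n + 2) F q) => A.subgroupOf (⨆ B ∈ {A : Subgroup ↥(Cfsg.SU (n + 2) F q) | ∃ p : Fin (n + 2) → F, p ≠ 0 ∧ Cfsg.hermForm (n + 2) F q p p = 0 ∧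
          A = Subgroup.closure {g : ↥(Cfsg.SU (n + 2) F q) |
            (∀ v : Fin (n + 2) → F, ∃ c : F, ((g : Matrix.SpecialLinearGroup (Fin (n + 2)) F) : Matrix (Fin (n + 2)) (Fin (n + 2)) F) *ᵥ v = v + c • p) ∧
            ∀ v : Fin (n + 2) → F, Cfsg.hermForm (n + 2) F q v p = 0 →
              ((g : Matrix.SpecialLinearGroup (Fin (n + 2)) F) : Matrix (Fin (n + 2)) (Fin (n + 2)) F) *ᵥ v = v}}, B)) ''
      {A : Subgroup ↥(Cfsg.SU (n + 2) F q) | ∃ p : Fin (n + 2) → F, p ≠ 0 ∧ Cfsg.hermForm (n + 2) F q p p = 0 ∧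
          A = Subgroup.closure {g : ↥(Cfsg.SU (n + 2) F q) |
            (∀ v : Fin (n + 2) → F, ∃ c : F, ((g : Matrix.SpecialLinearGroup (Fin (n + 2)) F) : Matrix (Fin (n + 2)) (Fin (n + 2)) F) *ᵥ v = v + c • p) ∧
            ∀ v : Fin (n + 2) → F, Cfsg.hermForm (n + 2) F q v p = 0 →
              ((g : Matrix.SpecialLinearGroup (Fin (n + 2)) F) : Matrix (Fin (n + 2)) (Fin (n + 2)) F) *ᵥ v = v}})) ((fun A : Subgroup ↥(Cfsg.SU (n + 2) F q) => A.subgroupOf (⨆ B ∈ {A : Subgroup ↥(Cfsg.SU (n + 2) F q) | ∃ p : Fin (n + 2) → F, p ≠ 0 ∧ Cfsg.hermForm (n + 2) F q p p = 0 ∧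
          A = Subgroup.closure {g : ↥(Cfsg.SU (n + 2) F q) |
            (∀ v : Fin (n + 2) → F, ∃ c : F, ((g : Matrix.SpecialLinearGroup (Fin (n + 2)) F) : Matrix (Fin (n + 2)) (Fin (n + 2)) F) *ᵥ v = v + c • p) ∧
            ∀ v : Fin (n + 2) → F, Cfsg.hermForm (n + 2) F q v p = 0 →
              ((g : Matrix.SpecialLinearGroup (Fin (n + 2)) F) : Matrix (Fin (n + 2)) (Fin (n + 2)) F) *ᵥ v = v}}, B)) ''
      {A : Subgroup ↥(Cfsg.SU (n + 2) F q) | ∃ p : Fin (n + 2) → F, p ≠ 0 ∧ Cfsg.hermForm (n + 2) F q p p = 0 ∧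
          A = Subgroup.closure {g : ↥(Cfsg.SU (n + 2) F q) |
            (∀ v : Fin (n + 2) → F, ∃ c : F, ((g : Matrix.SpecialLinearGroup (Fin (n + 2)) F) : Matrix (Fin (n + 2)) (Fin (n + 2)) F) *ᵥ v = v + c • p) ∧
            ∀ v : Fin (n + 2) → F, Cfsg.hermForm (n + 2) F q v p = 0 →
              ((g : Matrix.SpecialLinearGroup (Fin (n + 2)) F) : Matrix (Fin (n + 2)) (Fin (n + 2)) F) *ᵥ v = v}}) := by
  obtain ⟨σ, hq⟩ := exists_uField hF
  refine main hq _ ?_ _ rfl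
  ext A
  constructor
  · rintro ⟨p, hp0, hp, rfl⟩
    rw [hq.hermForm_eq] at hp
    exact ⟨p, hp, hp0, closure_eq hq hp0 hp⟩
  · rintro ⟨p, hp, hp0, rfl⟩
    exact ⟨p, hp0, (hq.hermForm_eq p p).trans hp, (closure_eq hq hp0 hp).symm⟩

end Cfsg.Agent.S5071
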