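import Mathlib
import Cfsg.Statements.S5072
import Cfsg.Agent.Cl.OrthRoot
import Cfsg.Agent.S5071

set_option autoImplicit false
open Matrix
open Cfsg

namespace Cfsg.Agent.S5072

open Cfsg.Agent.Cl QuadraticMap

theorem main {F : Type*} [Field F] {m : ℕ}
    (S : Set (Subgroup (isometryGroup F (quadFormPlus (m + 3) F))))
    (hS : S = sRootSet (omatEquiv (quad_plus (m + 3) F)).toMonoidHom) :
    IsKRootSubgroupSet F ((fun A => A.subgroupOf (⨆ B ∈ S, B)) '' S) ∧
      IsConnectedFamily (FAdj S) S := by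
  have hQ := quad_plus_nondeg (m := m + 3) (F := F)
  have R : SRep (omatEquiv (quad_plus (m + 3) F)).toMonoidHom :=
    ⟨(omatEquiv _).injective, fun _ g _ => (omatEquiv _).surjective g⟩
  constructor
  · have hgen := S5071.iSup_subgroupOf S
    have R' : SRep ((omatEquiv (quad_plus (m + 3) F)).toMonoidHom.comp (⨆ B ∈ S, B).subtype) :=
      ⟨R.inj.comp Subtype.val_injective, fun h g hg => by
        obtain ⟨g, rfl⟩ := (omatEquiv _).surjective g
        exact ⟨⟨g, le_biSup (fun B => B) (hS.ge ⟨_, _, h, rfl⟩) hg⟩, rfl⟩⟩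
    have e : (fun A => A.subgroupOf (⨆ B ∈ S, B)) '' S = sRootSet
        ((omatEquiv (quad_plus (m + 3) F)).toMonoidHom.comp (⨆ B ∈ S, B).subtype) := by
      ext A
      constructor
      · rintro ⟨A, hA, rfl⟩
        obtain ⟨p, r, h, rfl⟩ := hS ▸ hA
        exact ⟨p, r, h, rfl⟩
      · rintro ⟨p, r, h, rfl⟩
        exact ⟨_, hS.ge ⟨p, r, h, rfl⟩, rfl⟩
    rw [e] at hgen ⊢
    exact R'.kRootSet hQ hgen
  · let f : (Fin (m + 3) → F) →ₗ[F] Fin (m + 3) ⊕ Fin (m + 3) → F :=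
      LinearMap.pi (Sum.elim (fun i => LinearMap.proj i) fun _ => 0)
    rw [hS]
    refine R.connected hQ (U := LinearMap.range f) ?_ ?_
    · rintro _ ⟨v, rfl⟩
      simp [f, quad_plus_apply]
    · rw [LinearMap.finrank_range_of_inj fun u v h => funext fun i => congrFun h (.inl i)]
      simp

/-- Let F be a field, m a natural number and V = F^{2(m+3)} with the hyperbolic quadratic form q(x, y) = Σ xᵢ yᵢ (non-degenerate, Witt index m + 3 ≥ 3). For a singular line ℓ (a 2-dimensional subspace on which q vanishes) let T(ℓ) be the group of isometries of q fixing every vector of ℓ^⊥ (the Siegel transvection group of ℓ), let Σ be the set of these groups and G₀ the subgroup they generate. Then, viewed inside G₀, the members of Σ form a set of abstract F-root subgroups of G₀ (any two commute, or are the unipotent subgroups of a rank one group that is an image of SL₂(F) with central kernel, or satisfy the commutator case), and their graph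 of rank one pairs is connected. -/
theorem result (F : Type*) [Field F] (m : ℕ) :
    Cfsg.IsKRootSubgroupSet F ((fun A : Subgroup ↥(Cfsg.isometryGroup F (Cfsg.quadFormPlus (m + 3) F)) => A.subgroupOf (⨆ B ∈ {A : Subgroup ↥(Cfsg.isometryGroup F (Cfsg.quadFormPlus (m + 3) F)) | ∃ p r : Fin (m + 3) ⊕ Fin (m + 3) → F, LinearIndependent F ![p, r] ∧
          Cfsg.quadFormPlus (m + 3) F p = 0 ∧ Cfsg.quadFormPlus (m + 3) F r = 0 ∧
          Cfsg.quadFormPlus (m + 3) F (p + r) = 0 ∧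
          A = Subgroup.closure {σ : ↥(Cfsg.isometryGroup F (Cfsg.quadFormPlus (m + 3) F)) | ∀ v : Fin (m + 3) ⊕ Fin (m + 3) → F,
            Cfsg.quadFormPlus (m + 3) F (v + p) - Cfsg.quadFormPlus (m + 3) F v - Cfsg.quadFormPlus (m + 3) F p = 0 →
            Cfsg.quadFormPlus (m + 3) F (v + r) - Cfsg.quadFormPlus (m + 3) F v - Cfsg.quadFormPlus (m + 3) F r = 0 →
              ((σ : Matrix.GeneralLinearGroup (Fin (m + 3) ⊕ Fin (m + 3)) F) : Matrix (Fin (m + 3) ⊕ Fin (m + 3)) (Fin (m + 3) ⊕ Fin (m + 3)) F) *ᵥ v = v}}, B)) ''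
      {A : Subgroup ↥(Cfsg.isometryGroup F (Cfsg.quadFormPlus (m + 3) F)) | ∃ p r : Fin (m + 3) ⊕ Fin (m + 3) → F, LinearIndependent F ![p, r] ∧
          Cfsg.quadFormPlus (m + 3) F p = 0 ∧ Cfsg.quadFormPlus (m + 3) F r = 0 ∧
          Cfsg.quadFormPlus (m + 3) F (p + r) = 0 ∧
          A = Subgroup.closure {σ : ↥(Cfsg.isometryGroup F (Cfsg.quadFormPlus (m + 3) F)) | ∀ v : Fin (m + 3) ⊕ Fin (m + 3) → F,
            Cfsg.quadFormPlus (m + 3) F (v + p) - Cfsg.quadFormPlus (m + 3) F v - Cfsg.quadFormPlus (m + 3) F p = 0 →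
            Cfsg.quadFormPlus (m + 3) F (v + r) - Cfsg.quadFormPlus (m + 3) F v - Cfsg.quadFormPlus (m + 3) F r = 0 →
              ((σ : Matrix.GeneralLinearGroup (Fin (m + 3) ⊕ Fin (m + 3)) F) : Matrix (Fin (m + 3) ⊕ Fin (m + 3)) (Fin (m + 3) ⊕ Fin (m + 3)) F) *ᵥ v = v}}) ∧
    Cfsg.IsConnectedFamily (Cfsg.FAdj {A : Subgroup ↥(Cfsg.isometryGroup F (Cfsg.quadFormPlus (m + 3) F)) | ∃ p r : Fin (m + 3) ⊕ Fin (m + 3) → F, LinearIndependent F ![p, r] ∧
          Cfsg.quadFormPlus (m + 3) F p = 0 ∧ Cfsg.quadFormPlus (m + 3) F r = 0 ∧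
          Cfsg.quadFormPlus (m + 3) F (p + r) = 0 ∧
          A = Subgroup.closure {σ : ↥(Cfsg.isometryGroup F (Cfsg.quadFormPlus (m + 3) F)) | ∀ v : Fin (m + 3) ⊕ Fin (m + 3) → F,
            Cfsg.quadFormPlus (m + 3) F (v + p) - Cfsg.quadFormPlus (m + 3) F v - Cfsg.quadFormPlus (m + 3) F p = 0 →
            Cfsg.quadFormPlus (m + 3) F (v + r) - Cfsg.quadFormPlus (m + 3) F v - Cfsg.quadFormPlus (m + 3) F r = 0 →
              ((σ : Matrix.GeneralLinearGroup (Fin (m + 3) ⊕ Fin (m + 3)) F) : Matrix (Fin (m + 3) ⊕ Fin (m + 3)) (Fin (m + 3) ⊕ Fin (m + 3)) F) *ᵥ v = v}})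
      {A : Subgroup ↥(Cfsg.isometryGroup F (Cfsg.quadFormPlus (m + 3) F)) | ∃ p r : Fin (m + 3) ⊕ Fin (m + 3) → F, LinearIndependent F ![p, r] ∧
          Cfsg.quadFormPlus (m + 3) F p = 0 ∧ Cfsg.quadFormPlus (m + 3) F r = 0 ∧
          Cfsg.quadFormPlus (m + 3) F (p + r) = 0 ∧
          A = Subgroup.closure {σ : ↥(Cfsg.isometryGroup F (Cfsg.quadFormPlus (m + 3) F)) | ∀ v : Fin (m + 3) ⊕ Fin (m + 3) → F,
            Cfsg.quadFormPlus (m + 3) F (v + p) - Cfsg.quadFormPlus (m + 3) F v - Cfsg.quadFormPlus (m + 3) F p = 0 →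
            Cfsg.quadFormPlus (m + 3) F (v + r) - Cfsg.quadFormPlus (m + 3) F v - Cfsg.quadFormPlus (m + 3) F r = 0 →
              ((σ : Matrix.GeneralLinearGroup (Fin (m + 3) ⊕ Fin (m + 3)) F) : Matrix (Fin (m + 3) ⊕ Fin (m + 3)) (Fin (m + 3) ⊕ Fin (m + 3)) F) *ᵥ v = v}} := by
  have hQ := quad_plus_nondeg (m := m + 3) (F := F)
  have key : ∀ {p r} (h : SLine (quad_plus (m + 3) F) p r),
      h.grp.comap (omatEquiv (quad_plus (m + 3) F)).toMonoidHom = Subgroup.closure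
        {σ | ∀ v, polar (quad_plus (m + 3) F) v p = 0 → polar (quad_plus (m + 3) F) v r = 0 →
          (omatEquiv (quad_plus (m + 3) F) σ).1 v = v} := fun h => by
    rw [← Subgroup.closure_eq (Subgroup.comap _ _)]
    exact congrArg _ (Set.ext fun σ => h.mem_grp_iff hQ)
  refine main _ (Set.ext fun A => ⟨?_, ?_⟩)
  · rintro ⟨p, r, h1, h2, h3, h4, rfl⟩
    have h : SLine (quad_plus (m + 3) F) p r := ⟨h2, h3, by
      change quadFormPlus _ F _ - quadFormPlus _ F _ - quadFormPlus _ F _ = 0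
      rw [h2, h3, h4]; simp, LinearIndependent.pair_iff.1 h1⟩
    exact ⟨p, r, h, (key h).symm⟩
  · rintro ⟨p, r, h, rfl⟩
    refine ⟨p, r, LinearIndependent.pair_iff.2 h.li, h.qp, h.qr, ?_, key h⟩
    change quad_plus _ F _ = 0
    simp [oexp, h.qp, h.qr, h.pr]

end Cfsg.Agent.S5072
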