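import Mathlib
import Cfsg.Statements.S5073
import Cfsg.Agent.Chev.TimComm

set_option autoImplicit false
universe u
open Cfsg

namespace Cfsg.Agent.S5073

open Cfsg.Agent.Chev.Tim


/-- Let k be a field of characteristic not 2 with k not of order 3, M a finite-dimensional k-vector space and G ≤ GL(M) such that (G, M) is a quadratic pair (M irreducible for G, and G generated by its quadratically acting elements σ whose scalar family 1 + c(σ − 1), c ∈ k, lies in G). Write 𝒬_d for the quadratic elements of G of minimal commutator rank, E(σ) for the subgroup generated by the members of 𝒬_d with the same fixed space and commutator space as σ, and Σ for the set of these subgroups. Let E, F ∈ Σ. If some non-identity element of E commutes with some non-identity element of F, or some non-identity element of E normalizes F, then E and F commute elementwise. -/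
theorem result {k : Type u} [Field k] (hk2 : ringChar k ≠ 2) (hk3 : Nat.card k ≠ 3)
    {M : Type u} [AddCommGroup M] [Module k M] [FiniteDimensional k M]
    {G : Subgroup (LinearMap.GeneralLinearGroup k M)} (hG : Cfsg.IsQuadraticPair G)
    {E F : Subgroup (LinearMap.GeneralLinearGroup k M)} (hE : E ∈ Cfsg.quadraticRootSubgroups G) (hF : F ∈ Cfsg.quadraticRootSubgroups G)
    (h : (∃ e ∈ E, e ≠ 1 ∧ ∃ f ∈ F, f ≠ 1 ∧ e * f = f * e) ∨ E ⊓ Subgroup.normalizer (F : Set (LinearMap.GeneralLinearGroup k M)) ≠ ⊥) :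
    ⁅E, F⁆ = ⊥ := by
  have h2 := two_ne_zero_of_ringChar hk2
  have h3 := three_lt_card hk2 hk3
  obtain ⟨s, hs, rfl⟩ := mem_qrs.1 hE
  obtain ⟨t, ht, rfl⟩ := mem_qrs.1 hF
  rw [comm_iff]
  rcases h with ⟨e, he, he1, f, hf, hf1, h⟩ | h
  · obtain ⟨x, hx, px, -, ex⟩ := LL.mem_EE hs he he1
    obtain ⟨y, hy, py, -, ey⟩ := LL.mem_EE ht hf hf1
    rw [← LL.EE_eq hs hx.1 hx.2.1 px, ← LL.EE_eq ht hy.1 hy.2.1 py]
    refine LL.comm_EE h2 h3 hx hy ?_
    have := congrArg Units.val h
    rw [Units.val_mul, Units.val_mul, ex, ey, ← sub_eq_zero] at this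
    rw [← sub_eq_zero, ← this]; noncomm_ring
  · obtain ⟨e, ⟨he, hn⟩, he1⟩ := exists_ne_one_of_ne_bot h
    have hn' := conjBy_eq_self_iff.2 hn
    obtain ⟨x, hx, px, -, ex⟩ := LL.mem_EE hs he he1
    rw [← LL.EE_eq hs hx.1 hx.2.1 px] at he ⊢
    rcases LL.cases h2 hx ht with h | h | h
    · exact LL.comm_EE h2 h3 hx ht h
    · exact absurd ((LL.special h2 h3 hx ht h).1.eq_one_of_left he hn') he1
    · rw [EE_conj (EE_le he)] at hn'
      have p := pre_of_EE_le (QQ.conj ht.1 (EE_le he)) ht.1.1 hn'.le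
      rw [val_conj_of_eq ex hx.1.1, h.2.2.1, sub_zero] at p
      have p1 := p.sub (Pre.refl t)
      rw [add_sub_cancel_left] at p1
      have p2 := LL.pre_symm ht h.mem.1 h.mem.2.1 p1
      have tx := h.mem_TT h2 h3 hx.1 (Pre.refl x)
      exact absurd (by rw [p2.zero_mul tx.1, p2.mul_zero tx.2.1, sub_self]) h.2.2.2.2

end Cfsg.Agent.S5073
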