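import Mathlib
import Cfsg.Statements.S5074
import Cfsg.Agent.Chev.TimDec

set_option autoImplicit false
universe u
open Cfsg

namespace Cfsg.Agent.S5074

open Cfsg.Agent.Chev.Tim


/-- Let k be a field of characteristic not 2 with k not of order 3, M a finite-dimensional k-vector space and G ≤ GL(M) such that (G, M) is a quadratic pair (M irreducible for G, and G generated by its quadratically acting elements σ whose scalar family 1 + c(σ − 1), c ∈ k, lies in G). Write 𝒬_d for the quadratic elements of G of minimal commutator rank, E(σ) for the subgroup generated by the members of 𝒬_d with the same fixed space and commutator space as σ, and Σ for the set of these subgroups. Then G is the product of the subgroup G₀ generated by Σ with the centralizer of G₀ in G. -/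
theorem result {k : Type u} [Field k] (hk2 : ringChar k ≠ 2) (hk3 : Nat.card k ≠ 3)
    {M : Type u} [AddCommGroup M] [Module k M] [FiniteDimensional k M]
    {G : Subgroup (LinearMap.GeneralLinearGroup k M)} (hG : Cfsg.IsQuadraticPair G) :
    (⨆ A ∈ Cfsg.quadraticRootSubgroups G, A) ⊔
      (G ⊓ Subgroup.centralizer ((⨆ A ∈ Cfsg.quadraticRootSubgroups G, A : Subgroup (LinearMap.GeneralLinearGroup k M)) : Set (LinearMap.GeneralLinearGroup k M))) = G := by
  have h2 := two_ne_zero_of_ringChar hk2
  have h3 := three_lt_card hk2 hk3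
  have hN := noUnip_of_irreducible hG.1
  refine le_antisymm (sup_le (iSup₂_le fun _ => qrs_le) inf_le_left) (hG.2.ge.trans ((Subgroup.closure_le _).2 ?_))
  intro g hg
  have hr := (mem_quadraticElements.1 hg).1
  obtain ⟨g', hg', e⟩ := (inU_of_closure (G := (⨆ A ∈ Cfsg.quadraticRootSubgroups G, A) ⊔
      (G ⊓ Subgroup.centralizer ((⨆ A ∈ Cfsg.quadraticRootSubgroups G, A :
        Subgroup (LinearMap.GeneralLinearGroup k M)) : Set (LinearMap.GeneralLinearGroup k M)))) hr.1 (by
    rintro x ⟨px, hx | hx⟩
    · exact ⟨px, _, Subgroup.mem_sup_left (le_iSup₂_of_le (f := fun A (_ : A ∈ quadraticRootSubgroups G) => A) _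
        (mem_qrs.2 ⟨x, hx, rfl⟩) le_rfl (uu_mem_EE hx.1 (Pre.refl x))), rfl⟩
    · exact ⟨px, _, Subgroup.mem_sup_right ⟨QQ.uu_mem hx.1, RR.comm_qrs h2 h3 hN hx rfl⟩, rfl⟩)
    (QQ.mem_closure h2 h3 hr)).2
  rwa [show g = g' from Units.ext (by rw [e]; simp)]

end Cfsg.Agent.S5074
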