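import Mathlib
import Cfsg.Statements.S5083
import Cfsg.Agent.Fus.Alperin

set_option autoImplicit false
open Cfsg

namespace Cfsg.Agent.S5083

open Cfsg.FusionSystem Cfsg.Agent.Fus

/-- If F is a saturated fusion system over a finite p-group S in which Aut_F(P) is a p-group for every P ≤ S, then F is the inner fusion system of S (all its maps are conjugations by elements of S). -/
theorem result {Ω : Type*} [Group Ω] {S : Subgroup Ω} [Finite S] (p : ℕ) [Fact p.Prime] (hS : IsPGroup p S) (F : Cfsg.FusionSystem S) (hF : F.IsSaturated p) (h : ∀ P : Subgroup Ω, P ≤ S → IsPGroup p (F.autGroup P)) : F = Cfsg.innerFusionSystem S := by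
  refine le_antisymm' (le_iff_mor.2 fun P f hf => hF.mor_of_alperin hS (fun R g hR hg => ?_) hf)
    F.inner_le
  have h1 := (hF.fullyAutomized hS (fullyNormalized_of_top_or_essential hR)).le_of_isPGroup hS
    (h R hg.le_left) le_rfl (F.autInducedBy_le_autGroup hg.le_left) hg.aut_mem
  obtain ⟨s, hs, e⟩ := mem_autInducedBy.1 h1
  exact mor_inner_iff.2 ⟨hg.le_left, s, hs, fun x hx => e ⟨x, hx⟩⟩

end Cfsg.Agent.S5083
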