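import Mathlib
import Cfsg.Statements.S5085
import Cfsg.Agent.Fus.Defs

set_option autoImplicit false
open Cfsg

namespace Cfsg.Agent.S5085

open Cfsg.FusionSystem Cfsg.Agent.Fus

/-- In any fusion system, a characteristic subgroup of a subgroup that is normal in the system is itself normal in the system. -/
theorem result {Ω : Type*} [Group Ω] {S : Subgroup Ω} (F : Cfsg.FusionSystem S) (Q U : Subgroup Ω) (hQ : F.IsNormal Q) (hUQ : U ≤ Q) (hU : (U.subgroupOf Q).Characteristic) : F.IsNormal U := by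
  refine isNormal_iff.2 ⟨hUQ.trans hQ.le, fun P f hf => ?_⟩
  obtain ⟨g, hg, e1, e2⟩ := hQ.extend hf
  refine ⟨g, hg.mono (sup_le_sup_left hUQ _), e1, ?_⟩
  have hi : F.Iso Q Q g := (hg.mono le_sup_right).iso_of_img_eq e2
  have h1 := Subgroup.characteristic_iff_map_eq.1 hU hi.aut
  ext y
  rw [(hg.mono le_sup_right).mem_img hUQ]
  constructor
  · rintro ⟨x, hx, rfl⟩
    have : hi.aut ⟨x, hUQ hx⟩ ∈ U.subgroupOf Q := h1 ▸ ⟨⟨x, hUQ hx⟩, hx, rfl⟩
    exact this
  · intro hy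
    have : (⟨y, hUQ hy⟩ : Q) ∈ (U.subgroupOf Q).map hi.aut.toMonoidHom := by rw [h1]; exact hy
    obtain ⟨x, hx, e⟩ := this
    exact ⟨x, hx, congrArg Subtype.val e⟩

end Cfsg.Agent.S5085
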