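import Mathlib
import Cfsg.Statements.S5087
import Cfsg.Agent.Fus.Normal

set_option autoImplicit false
open Cfsg

namespace Cfsg.Agent.S5087

open Cfsg.FusionSystem Cfsg.Agent.Fus

/-- In a saturated fusion system over a finite p-group S, a subgroup Q is normal in the system if and only if every subgroup P that equals S or is essential contains Q and every element of Aut_F(P) maps Q onto itself. -/
theorem result {Ω : Type*} [Group Ω] {S : Subgroup Ω} [Finite S] (p : ℕ) [Fact p.Prime] (hS : IsPGroup p S) (F : Cfsg.FusionSystem S) (hF : F.IsSaturated p) (Q : Subgroup Ω) : F.IsNormal Q ↔ ∀ P : Subgroup Ω, (P = S ∨ F.IsEssential p P) → (Q ≤ P ∧ ∀ α ∈ F.autGroup P, (Q.subgroupOf P).map α.toMonoidHom = Q.subgroupOf P) := by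
  constructor
  · intro h P hP
    have hPS := (centric_of_top_or_essential hP).le
    have hQP := h.le_of_centric_radical hS (centric_of_top_or_essential hP)
      (hF.radical_of_top_or_essential hS hP)
    refine ⟨hQP, fun α hα => ?_⟩
    ext x
    constructor
    · rintro ⟨y, hy, rfl⟩
      have := h.stronglyClosed.mem (mor_totA hPS hα) y.2 hy
      rwa [totA_coe] at this
    · intro hx
      refine ⟨α⁻¹ x, ?_, by simp⟩
      have := h.stronglyClosed.mem (mor_totA hPS (Subgroup.inv_mem _ hα)) x.2 hx
      rwa [totA_coe] at this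
  · intro h
    refine hF.isNormal_of_alperin hS fun R hR => ⟨(h R hR).1, fun g hg x hx => ?_⟩
    have hxR := (h R hR).1 hx
    have : hg.aut ⟨x, hxR⟩ ∈ Q.subgroupOf R := by
      rw [← (h R hR).2 _ hg.aut_mem]
      exact ⟨⟨x, hxR⟩, hx, rfl⟩
    exact this

end Cfsg.Agent.S5087
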