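import Mathlib
import Cfsg.Statements.S5088
import Cfsg.Agent.Fus.Normal

set_option autoImplicit false
open Cfsg

namespace Cfsg.Agent.S5088

open Cfsg.FusionSystem Cfsg.Agent.Fus

/-- In a saturated fusion system over a finite p-group, a subgroup Q is normal in the system if and only if there is a chain of subgroups 1 = Q₀ ≤ Q₁ ≤ ⋯ ≤ Qₙ = Q such that each Qᵢ with i ≥ 1 is strongly closed in the system and [Q, Qᵢ] ≤ Qᵢ₋₁. -/
theorem result {Ω : Type*} [Group Ω] {S : Subgroup Ω} [Finite S] (p : ℕ) [Fact p.Prime] (hS : IsPGroup p S) (F : Cfsg.FusionSystem S) (hF : F.IsSaturated p) (Q : Subgroup Ω) : F.IsNormal Q ↔ ∃ (n : ℕ) (Qs : Fin (n + 1) → Subgroup Ω), Qs 0 = ⊥ ∧ Qs (Fin.last n) = Q ∧ Monotone Qs ∧ ∀ i : Fin n, F.StronglyClosed (Qs i.succ) ∧ ⁅Q, Qs i.succ⁆ ≤ Qs (Fin.castSucc i) := by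
  constructor
  · intro h
    have := finite_of_le h.le
    have := (hS.to_le h.le).isNilpotent
    refine ⟨Group.nilpotencyClass Q, fun i => (Subgroup.upperCentralSeries Q i).map Q.subtype,
      by simp, ?_, fun i j hij => Subgroup.map_mono (Subgroup.upperCentralSeries_mono _ hij),
      fun i => ⟨?_, ?_⟩⟩
    · simp only [Fin.val_last]
      rw [Subgroup.upperCentralSeries_nilpotencyClass, ← MonoidHom.range_eq_map,
        Subgroup.range_subtype]
    · refine (h.of_invariant (Subgroup.map_subtype_le _) fun g hg x hx => ?_).stronglyClosed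
      exact (invA_map_of_characteristic (F.autGroup Q) _).iso_mem hg hx
    · rw [Subgroup.commutator_comm, Subgroup.commutator_le]
      intro x hx s hs
      exact (mem_map_upperCentralSeries_succ.1 hx).2 s hs
  · rintro ⟨n, Qs, h0, hl, hmono, h⟩
    let C : ℕ → Subgroup Ω := fun i => Qs ⟨n - i, by omega⟩
    have hC : ∀ i (hi : i < n), C i = Qs (Fin.succ ⟨n - (i + 1), by omega⟩) := fun i hi => by
      show Qs _ = Qs _
      congr 1
      exact Fin.ext (by simp; omega)
    refine hF.isNormal_of_chain hS C n hl ?_ (fun i _ => hmono (by simp [Fin.le_def]; omega))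
      (fun i hi => ?_) fun i hi s hs x hx => ?_
    · rw [← h0]
      show Qs _ = Qs _
      congr 1
      exact Fin.ext (by simp)
    · rcases hi.lt_or_eq with hi | rfl
      · rw [hC i hi]; exact (h _).1
      · have : C i = ⊥ := by
          rw [← h0]
          show Qs _ = Qs _
          congr 1
          exact Fin.ext (by simp)
        rw [this]; exact F.stronglyClosed_bot
    · rw [hC i hi] at hx
      have := (h _).2 (Subgroup.commutator_mem_commutator hs (Subgroup.inv_mem _ hx))
      have := Subgroup.inv_mem _ this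
      rw [commutatorElement_inv] at this
      rw [comm_mem_iff_conj]
      exact this

end Cfsg.Agent.S5088
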