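import Mathlib
import Cfsg.Statements.S5093
import Cfsg.Agent.Fus.HypGroup

set_option autoImplicit false
open Cfsg

namespace Cfsg.Agent.S5093

open Cfsg.FusionSystem Cfsg.Agent.Fus

/-- Hyperfocal subgroup Theorem: for a finite group G with Sylow p-subgroup S, the hyperfocal subgroup of the fusion system of G on S equals S ∩ O^p(G), where O^p(G) is the subgroup generated by the elements of order prime to p. -/
theorem result {G : Type*} [Group G] [Finite G] (p : ℕ) [Fact p.Prime] (S : Sylow p G) : (Cfsg.groupFusionSystem (S : Subgroup G)).hyperfocalSubgroup p = (S : Subgroup G) ⊓ Cfsg.pResidual p G := by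
  exact hyperfocal_group S.isPGroup' S.not_dvd_index

end Cfsg.Agent.S5093
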