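import Mathlib
import Cfsg.Statements.S5094
import Cfsg.Agent.Blk.ZStar
import Cfsg.Agent.GT.TransferSylow

set_option autoImplicit false
open Cfsg

namespace Cfsg.Agent.S5094

open Cfsg.Agent.Inv Cfsg.Agent.GT

universe u

theorem eq_one_of_mem_oddCore {G : Type*} [Group G] [Finite G] {T : Subgroup G}
    (hT : IsPGroup 2 T) {x : G} (hx : x ∈ T) (hO : x ∈ oddCore G) : x = 1 := by
  obtain ⟨k, hk⟩ := exists_orderOf_eq_pow_of_mem hT hx
  have h1 := Subgroup.orderOf_dvd_natCard _ hO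
  rcases k with _ | k
  · exact orderOf_eq_one_iff.mp (by simpa using hk)
  · exact absurd ((hk ▸ dvd_pow_self 2 (Nat.succ_ne_zero k)).trans h1)
      (not_dvd_card_pPrimeCore Nat.prime_two)

theorem aux (n : ℕ) : ∀ (G : Type u) [Group G] [Finite G], Nat.card G = n →
    ∀ (S : Sylow 2 G) (x : G), x ∈ S →
      (∀ (k : ℕ) (g : G), g * x ^ k * g⁻¹ ∈ S → g * x ^ k * g⁻¹ = x ^ k) →
      ∀ g : G, x * g * x⁻¹ * g⁻¹ ∈ oddCore G := by
  induction n using Nat.strong_induction_on with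
  | _ n ih =>
  intro G _ _ hn S x hxS hx
  have ihq : ∀ (N : Subgroup G) [N.Normal], N ≠ ⊥ → ∀ g : G,
      (QuotientGroup.mk (x * g * x⁻¹ * g⁻¹) : G ⧸ N) ∈ oddCore (G ⧸ N) := by
    intro N _ hN g
    refine ih _ (hn ▸ card_quotient_lt hN) (G ⧸ N) rfl
      (S.mapSurjective (QuotientGroup.mk'_surjective N)) (QuotientGroup.mk x) ⟨x, hxS, rfl⟩ ?_
      (QuotientGroup.mk g)
    intro k g hg
    obtain ⟨g, rfl⟩ := QuotientGroup.mk_surjective g
    have hxk : x ^ k ∈ (S : Subgroup G) := Subgroup.pow_mem _ hxS k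
    obtain ⟨j, hj⟩ := exists_orderOf_eq_pow_of_mem S.isPGroup' hxk
    have hj' : orderOf (g * x ^ k * g⁻¹) = 2 ^ j := by
      rw [← hj]; exact (MulAut.conj g).orderOf_eq _
    obtain ⟨h, hh, hh2⟩ := exists_conj_mem_sylow_of_le
      (H := ((S : Subgroup G).map (QuotientGroup.mk' N)).comap (QuotientGroup.mk' N))
      (isPGroup_zpowers_of_orderOf hj') (Subgroup.zpowers_le.mpr hg) S
      (Subgroup.le_comap_map _ _)
    have h1 := hx k (h * g) (by
      have := hh2 _ (Subgroup.mem_zpowers _)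
      convert this using 1
      group)
    obtain ⟨s, hs, hsh⟩ := hh
    have h2 := hx k s⁻¹ (by
      exact Subgroup.mul_mem _ (Subgroup.mul_mem _ (Subgroup.inv_mem _ hs) hxk)
        (Subgroup.inv_mem _ (Subgroup.inv_mem _ hs)))
    have h3 : g * x ^ k * g⁻¹ = h⁻¹ * x ^ k * h⁻¹⁻¹ := by
      conv_rhs => rw [← h1]
      group
    have h4 := congrArg (QuotientGroup.mk' N) h3
    have h5 := congrArg (QuotientGroup.mk' N) h2
    simp only [map_mul, map_inv, map_pow] at h4 h5
    rw [← hsh, h5] at h4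
    exact h4
  by_cases hO : oddCore G = ⊥
  swap
  · intro g
    have := ihq (oddCore G) hO g
    rw [show oddCore (G ⧸ oddCore G) = ⊥ from pPrimeCore_quotient_pPrimeCore, Subgroup.mem_bot,
      QuotientGroup.eq_one_iff] at this
    exact this
  intro g
  obtain ⟨j, hj⟩ := exists_orderOf_eq_pow_of_mem S.isPGroup' hxS
  rcases j with _ | j
  · have : x = 1 := orderOf_eq_one_iff.mp (by simpa using hj)
    simp [this]
  have hz2 : orderOf (x ^ 2 ^ j) = 2 := by
    rw [orderOf_pow' _ (by positivity), hj, Nat.gcd_eq_right (pow_dvd_pow 2 (Nat.le_succ j)),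
      pow_succ, Nat.mul_div_cancel_left _ (by positivity)]
  have hzS : x ^ 2 ^ j ∈ (S : Subgroup G) := Subgroup.pow_mem _ hxS _
  have hz := IsIsolatedInvolution.of_sylow S hz2 hzS (hx _)
  set z := x ^ 2 ^ j with hzdef
  have hZ : Subgroup.zpowers z ≤ Subgroup.center G := Subgroup.zpowers_le.mpr (hz.mem_center hO)
  have : (Subgroup.zpowers z).Normal := ⟨fun y hy g => by
    rwa [Subgroup.mem_center_iff.mp (hZ hy) g, mul_inv_cancel_right]⟩
  have h1 := ihq (Subgroup.zpowers z) (by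
    rw [Ne, Subgroup.zpowers_eq_bot]; exact hz.ne_one) g
  set y := x * g * x⁻¹ * g⁻¹ with hy
  have hodd : Odd (orderOf (QuotientGroup.mk y : G ⧸ Subgroup.zpowers z)) :=
    Odd.of_dvd_nat odd_card_oddCore (Subgroup.orderOf_dvd_natCard _ h1)
  have h2 : y ^ 2 = 1 := by
    apply Blk.ZStar.eq_one_of_mem_oddCore_quotient hO _ hZ
    · apply Odd.of_dvd_nat hodd
      apply orderOf_dvd_of_pow_eq_one
      have h3 : y ^ orderOf (QuotientGroup.mk y : G ⧸ Subgroup.zpowers z) ∈
          Subgroup.zpowers z := by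
        rw [← QuotientGroup.eq_one_iff, QuotientGroup.mk_pow, pow_orderOf_eq_one]
      have h4 := Subgroup.orderOf_dvd_natCard _ h3
      rw [Nat.card_zpowers, hz2] at h4
      rw [← pow_mul, mul_comm, pow_mul]
      exact orderOf_dvd_iff_pow_eq_one.mp h4
    · rw [QuotientGroup.mk_pow]
      exact Subgroup.pow_mem _ h1 2
  have h3 : (QuotientGroup.mk y : G ⧸ Subgroup.zpowers z) = 1 := by
    apply iso_eq_one_of_odd_of_mul_self hodd
    rw [← QuotientGroup.mk_mul, ← pow_two, h2, QuotientGroup.mk_one]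
  rw [QuotientGroup.eq_one_iff] at h3
  have h4 : g * x ^ 1 * g⁻¹ = y⁻¹ * x := by rw [hy]; group
  have h5 := hx 1 g (by
    rw [h4]
    exact Subgroup.mul_mem _ (Subgroup.inv_mem _ ((Subgroup.zpowers_le.mpr hzS) h3)) hxS)
  rw [h4, pow_one] at h5
  have h6 : y = 1 := by simpa using h5
  rw [h6]
  exact Subgroup.one_mem _

theorem mem_zstar_iff {G : Type*} [Group G] {x : G} :
    x ∈ (Subgroup.center (G ⧸ oddCore G)).comap (QuotientGroup.mk' (oddCore G)) ↔
      ∀ g : G, x * g * x⁻¹ * g⁻¹ ∈ oddCore G := by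
  rw [Subgroup.mem_comap, Subgroup.mem_center_iff]
  constructor
  · intro h g
    rw [← QuotientGroup.eq_one_iff]
    have := h (QuotientGroup.mk g)
    simp only [QuotientGroup.mk'_apply] at this
    simp only [QuotientGroup.mk_mul, QuotientGroup.mk_inv, ← this]
    group
  · intro h g
    obtain ⟨g, rfl⟩ := QuotientGroup.mk_surjective g
    have := (QuotientGroup.eq_one_iff _).mpr (h g)
    simp only [QuotientGroup.mk_mul, QuotientGroup.mk_inv] at this
    exact (commutatorElement_eq_one_iff_commute.mp this).eq.symm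

/-- Glauberman's Z*-Theorem in fusion language: for a finite group G with Sylow 2-subgroup S, the centre of the fusion system of G on S is the set of elements of S whose image in G/O(G) is central, O(G) being the largest normal subgroup of odd order. -/
theorem result {G : Type*} [Group G] [Finite G] (S : Sylow 2 G) : (Cfsg.groupFusionSystem (S : Subgroup G)).center = (S : Subgroup G) ⊓ (Subgroup.center (G ⧸ Cfsg.oddCore G)).comap (QuotientGroup.mk' (Cfsg.oddCore G)) := by
  apply le_antisymm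
  · refine sSup_le fun Q hQ => ?_
    obtain ⟨hQS, hext⟩ := hQ
    intro x hx
    refine ⟨hQS hx, mem_zstar_iff.mpr (aux _ G rfl S x (hQS hx) ?_)⟩
    intro k g hg
    have hxk : x ^ k ∈ Q := Q.pow_mem hx k
    obtain ⟨ψ, -, h1, h2⟩ := hext (Subgroup.zpowers (x ^ k)) (conjHom _ g)
      ⟨Subgroup.zpowers_le.mpr (hQS hxk), by
        rintro ⟨y, hy⟩
        obtain ⟨m, rfl⟩ := Subgroup.mem_zpowers_iff.mp hy
        change g * (x ^ k) ^ m * g⁻¹ ∈ (S : Subgroup G)
        rw [← conj_zpow]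
        exact Subgroup.zpow_mem _ hg m, g, fun _ => rfl⟩
    exact (h1 ⟨x ^ k, Subgroup.mem_zpowers _⟩).symm.trans (h2 ⟨x ^ k, hxk⟩)
  · refine le_sSup ?_
    set Q := (S : Subgroup G) ⊓ (Subgroup.center (G ⧸ Cfsg.oddCore G)).comap
      (QuotientGroup.mk' (Cfsg.oddCore G)) with hQ
    have hQS : Q ≤ S := inf_le_left
    have hQZ : ∀ q ∈ Q, ∀ g : G, q * g * q⁻¹ * g⁻¹ ∈ oddCore G := fun q hq =>
      mem_zstar_iff.mp hq.2
    have hfix : ∀ q ∈ Q, ∀ g : G, g * q * g⁻¹ ∈ (S : Subgroup G) → g * q * g⁻¹ = q := by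
      intro q hq g hg
      have := eq_one_of_mem_oddCore S.isPGroup' (x := q * (g * q * g⁻¹)⁻¹)
        (Subgroup.mul_mem _ (hQS hq) (Subgroup.inv_mem _ hg)) (by
          convert hQZ q hq g using 1
          group)
      exact (mul_inv_eq_one.mp this).symm
    have hcomm : ∀ q ∈ Q, ∀ s ∈ (S : Subgroup G), s * q = q * s := by
      intro q hq s hs
      have := hfix q hq s (Subgroup.mul_mem _ (Subgroup.mul_mem _ hs (hQS hq))
        (Subgroup.inv_mem _ hs))
      exact mul_inv_eq_iff_eq_mul.mp this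
    refine ⟨hQS, ?_⟩
    rintro P φ ⟨hPS, hφS, g, hg⟩
    let K := (Q.map (QuotientGroup.mk' (oddCore G))).comap (QuotientGroup.mk' (oddCore G))
    let H := K ⊓ Subgroup.centralizer (P : Set G)
    have hQH : Q ≤ H := le_inf (Subgroup.le_comap_map _ _) (fun q hq s hs => hcomm q hq s (hPS hs))
    have hQ2 : IsPGroup 2 Q := S.isPGroup'.to_le hQS
    obtain ⟨T, hQT, hTH, hT, hTi⟩ := Tr.exists_sylowIn_ge hQ2 hQH
    have hTQ : T ≤ Q := by
      intro t ht
      obtain ⟨q, hq, hqt⟩ := (hTH ht).1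
      have h1 : q⁻¹ * t ∈ oddCore G := QuotientGroup.eq.mp hqt
      have h2 := eq_one_of_mem_oddCore hT (T.mul_mem (T.inv_mem (hQT hq)) ht) h1
      rw [← inv_mul_eq_one.mp h2]
      exact hq
    obtain ⟨h, hh, hhT⟩ := Tr.exists_conj_le_sylowIn hT hTi (Tr.isPGroup_map_conj hQ2 g⁻¹)
      (H := H) (by
        rw [Tr.map_conj_le_iff]
        intro q hq
        refine ⟨⟨q, hq, ?_⟩, fun s hs => ?_⟩
        · apply QuotientGroup.eq.mpr
          have := hQZ q⁻¹ (Q.inv_mem hq) g⁻¹
          convert this using 1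
          group
        · have h1 := hcomm q hq _ (hφS ⟨s, hs⟩)
          rw [hg] at h1
          calc s * (g⁻¹ * q * g⁻¹⁻¹) = g⁻¹ * (g * s * g⁻¹ * q) * g := by group
            _ = _ := by rw [h1]; group)
    have hc : ∀ q ∈ Q, g * h⁻¹ * q * (g * h⁻¹)⁻¹ = q := by
      intro q hq
      have h1 := hfix q hq (h * g⁻¹) (by
        have := hQS (hTQ (hhT _ (Tr.conj_mem_map_conj.mpr hq)))
        convert this using 1
        group)
      conv_lhs => rw [← h1]
      group
    have hp : ∀ x : P, g * h⁻¹ * x * (g * h⁻¹)⁻¹ = φ x := by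
      intro x
      have h1 : (x : G) * h = h * x := hh.2 x x.2
      rw [hg]
      calc g * h⁻¹ * x * (g * h⁻¹)⁻¹ = g * h⁻¹ * (x * h) * g⁻¹ := by group
        _ = _ := by rw [h1]; group
    refine ⟨conjHom _ (g * h⁻¹), ⟨sup_le hPS hQS, ?_, g * h⁻¹, fun _ => rfl⟩, hp,
      fun x => hc x x.2⟩
    have hle : P ⊔ Q ≤ (S : Subgroup G).comap (MulAut.conj (g * h⁻¹)).toMonoidHom := by
      apply sup_le
      · intro x hx
        change g * h⁻¹ * x * (g * h⁻¹)⁻¹ ∈ (S : Subgroup G)
        rw [hp ⟨x, hx⟩]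
        exact hφS _
      · intro x hx
        change g * h⁻¹ * x * (g * h⁻¹)⁻¹ ∈ (S : Subgroup G)
        rw [hc x hx]
        exact hQS hx
    exact fun x => hle x.2

end Cfsg.Agent.S5094
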