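import Mathlib
import Cfsg.Statements.S5106
import Cfsg.Agent.Fus.Normal

set_option autoImplicit false
open Cfsg

namespace Cfsg.Agent.S5106

open Cfsg.FusionSystem Cfsg.Agent.Fus

/-- In a saturated fusion system over a finite p-group S, a subgroup R ≤ S is normal in the system if and only if every map of the system whose source is a subgroup of R is the restriction of an element of Aut_F(R). -/
theorem result {Ω : Type*} [Group Ω] {S : Subgroup Ω} [Finite S] (p : ℕ) [Fact p.Prime] (hS : IsPGroup p S) (F : Cfsg.FusionSystem S) (hF : F.IsSaturated p) (R : Subgroup Ω) (hRS : R ≤ S) : F.IsNormal R ↔ ∀ (P : Subgroup Ω) (hPR : P ≤ R) (φ : P →* Ω), φ ∈ F.Hom P → ∃ α ∈ F.autGroup R, ∀ x : P, ((α (Subgroup.inclusion hPR x) : R) : Ω) = φ x := by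
  constructor
  · intro h P hPR φ hφ
    obtain ⟨g, hg, e⟩ := h.extend_of_le (mor_tot hφ) hPR
    refine ⟨hg.aut, hg.aut_mem, fun x => ?_⟩
    rw [hg.coe_aut, ← tot_coe φ x]
    exact e x x.2
  · intro h
    refine hF.isNormal_of_extend hS hRS fun P f hPR hf => ?_
    obtain ⟨α, hα, e⟩ := h P hPR _ hf.hom_mem
    refine ⟨totA α, iso_totA hRS hα, fun x hx => ?_⟩
    rw [totA_apply α (hPR hx)]
    exact e ⟨x, hx⟩

end Cfsg.Agent.S5106
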