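import Mathlib
import Cfsg.Statements.S5107
import Cfsg.Agent.Fus.Group

set_option autoImplicit false
open Cfsg

namespace Cfsg.Agent.S5107

open Cfsg.FusionSystem Cfsg.Agent.Fus

/-- If a Sylow p-subgroup S of a finite group G has nilpotency class at most two and its centre is strongly closed in S with respect to G, then every map of the fusion system of G on S is conjugation by an element of N_G(S), and S is the largest subgroup normal in that fusion system. -/
theorem result {G : Type*} [Group G] [Finite G] (p : ℕ) [Fact p.Prime] (S : Sylow p G) (hcl : ⁅(S : Subgroup G), (S : Subgroup G)⁆ ≤ (S : Subgroup G) ⊓ Subgroup.centralizer ((S : Subgroup G) : Set G)) (hZ : Cfsg.IsStronglyClosed ((S : Subgroup G) ⊓ Subgroup.centralizer ((S : Subgroup G) : Set G)) (S : Subgroup G)) : (∀ (P : Subgroup G) (φ : P →* G), φ ∈ (Cfsg.groupFusionSystem (S : Subgroup G)).Hom P → ∃ g ∈ Subgroup.normalizer ((S : Subgroup G) : Set G), ∀ x : P, φ x = g * (x : G) * g⁻¹) ∧ (Cfsg.groupFusionSystem (S : Subgroup G)).core = S := by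
  have hF := isSaturated_sylow S
  have hn : (groupFusionSystem (S : Subgroup G)).IsNormal S := by
    refine hF.isNormal_of_chain S.isPGroup' (fun i => Nat.casesOn i S fun j => Nat.casesOn j
      ((S : Subgroup G) ⊓ Subgroup.centralizer ((S : Subgroup G) : Set G)) fun _ => ⊥) 2 rfl rfl
      ?_ ?_ ?_
    · rintro (_ | _ | i) hi
      · exact inf_le_left
      · exact bot_le
      · omega
    · rintro (_ | _ | i) hi
      · exact stronglyClosed_top _
      · exact stronglyClosed_group_iff.2 hZ
      · exact stronglyClosed_bot _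
    · rintro (_ | _ | i) hi s hs x hx
      · rw [comm_mem_iff_conj]
        exact hcl (Subgroup.commutator_mem_commutator (Subgroup.inv_mem _ hx) hs)
      · show _ ∈ (⊥ : Subgroup G)
        rw [Subgroup.mem_centralizer_iff.1 hx.2 s hs]
        simp
      · omega
  refine ⟨fun P φ hφ => ?_, le_antisymm (core_le _) hn.le_core⟩
  obtain ⟨k, hk, e⟩ := hn.extend_of_le (mor_tot hφ) (mor_tot hφ).le
  obtain ⟨-, h2, g, eg⟩ := mor_group_iff.1 hk.mor
  refine ⟨g, Cfsg.Agent.GT.Tr.mem_normalizer_of_conj_mem fun x hx => eg x hx ▸ h2 x hx, fun x => ?_⟩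
  rw [← eg x ((mor_tot hφ).le x.2), e x x.2, tot_coe]

end Cfsg.Agent.S5107
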