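import Mathlib
import Cfsg.Statements.S5112
import Cfsg.Agent.Fus.Saturated
import Cfsg.Agent.Inv.QuatAut
import Cfsg.Agent.Inv.TwoAut
import Cfsg.Agent.S3116

set_option autoImplicit false
open Cfsg

namespace Cfsg.Agent.S5112

open Cfsg.FusionSystem Cfsg.Agent.Fus

/-- If S is a dihedral or generalized quaternion 2-group of order at least 16, then in every saturated fusion system over S (at the prime 2) the automorphism group Aut_F(S) consists of the inner automorphisms of S. -/
theorem result {Ω : Type*} [Group Ω] {S : Subgroup Ω} [Finite S] (n : ℕ) (hn : 4 ≤ n) (hshape : Nonempty (S ≃* DihedralGroup (2 ^ (n - 1))) ∨ Nonempty (S ≃* QuaternionGroup (2 ^ (n - 2)))) (F : Cfsg.FusionSystem S) (hF : F.IsSaturated 2) : F.autGroup S = Cfsg.Inn S := by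
  have hS : IsPGroup 2 S := by
    rcases hshape with ⟨⟨e⟩⟩ | ⟨⟨e⟩⟩
    · refine IsPGroup.of_card (n := n - 1 + 1) ?_
      rw [Nat.card_congr e.toEquiv, DihedralGroup.nat_card, pow_succ, mul_comm]
    · refine IsPGroup.of_card (n := n - 2 + 2) ?_
      have : NeZero (2 ^ (n - 2)) := ⟨by positivity⟩
      rw [Nat.card_congr e.toEquiv, Nat.card_eq_fintype_card, QuaternionGroup.card, pow_add]
      ring
  have hA : IsPGroup 2 (MulAut S) := by
    rcases hshape with h | ⟨⟨e⟩⟩
    · refine Cfsg.Agent.S3116.result hS (Or.inl ⟨_, ?_, h⟩)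
      calc 4 = 2 ^ 2 := rfl
        _ ≤ _ := Nat.pow_le_pow_right (by norm_num) (by omega)
    · exact Cfsg.Agent.Inv.Fz.isPGroup_mulAut_of_equiv e.symm
        (Cfsg.Agent.Inv.QA.isPGroup_mulAut_quaternion (by omega))
  refine le_antisymm ?_ (F.inn_le_autGroup le_rfl)
  rw [inn_eq_autInducedBy]
  exact (hF.fullyAutomized_top hS).le_of_isPGroup hS (hA.to_subgroup _) le_rfl
    (F.autInducedBy_le_autGroup le_rfl)

end Cfsg.Agent.S5112
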