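import Mathlib
import Cfsg.Statements.S5115
import Cfsg.Agent.Fus.InvGroup

set_option autoImplicit false
open Cfsg

namespace Cfsg.Agent.S5115

open Cfsg.FusionSystem Cfsg.Agent.Fus

theorem aux {G : Type*} [Group G] [Finite G] {p : ℕ} [Fact p.Prime] (S : Sylow p G)
    (hF : (Cfsg.groupFusionSystem (S : Subgroup G)).IsConstrained p) {H : Subgroup G}
    (hH : H.IsSubnormal) : ¬ p ∣ ((S : Subgroup G) ⊓ H).relIndex H ∧
      (fusionSystemOfSubgroup H (S ⊓ H) inf_le_right).IsConstrained p := by
  induction hH with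
  | top =>
    refine ⟨by simpa using S.not_dvd_index, ?_⟩
    rw [groupFusionSystem_eq_ofSubgroup] at hF
    have e : (S : Subgroup G) ⊓ ⊤ = S := inf_top_eq _
    convert hF
  | step H K hle _ hN ih =>
    have hn : K ≤ Subgroup.normalizer (H : Set G) :=
      (Subgroup.normal_subgroupOf_iff_le_normalizer hle).1 hN
    have hT : IsPGroup p ((S : Subgroup G) ⊓ K : Subgroup G) := S.isPGroup'.to_le inf_le_left
    have e : (S : Subgroup G) ⊓ K ⊓ H = (S : Subgroup G) ⊓ H := by rw [inf_assoc, inf_eq_right.2 hle]
    refine ⟨e ▸ Cfsg.Agent.GT.Tr.not_dvd_relIndex_inf_of_normal ih.1 hT hle hn, ?_⟩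
    have := (isNormalIn_ofSubgroup inf_le_right hT ih.1 hle hn).weak.isConstrained hT ih.2
    have key : ∀ (A B : Subgroup G) (hA : A ≤ H) (hB : B ≤ H), A = B →
        (fusionSystemOfSubgroup H A hA).IsConstrained p →
        (fusionSystemOfSubgroup H B hB).IsConstrained p := by
      rintro A B hA hB rfl h; exact h
    exact key _ _ _ _ e this

/-- If the 2-fusion system of a finite group G on a Sylow 2-subgroup S is constrained, then for every subnormal subgroup H of G the 2-fusion system of H on S ∩ H is constrained. -/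
theorem result {G : Type*} [Group G] [Finite G] (S : Sylow 2 G) (hF : (Cfsg.groupFusionSystem (S : Subgroup G)).IsConstrained 2) (H : Subgroup G) (hH : H.IsSubnormal) : (Cfsg.groupFusionSystem ((S : Subgroup G).subgroupOf H)).IsConstrained 2 := by
  obtain ⟨η, h⟩ := isIsoVia_subgroupOf (H := H) (T := (S : Subgroup G) ⊓ H) inf_le_right
  have := h.symm.isConstrained (S.isPGroup'.to_le inf_le_left) (aux S hF hH).2
  rwa [Subgroup.inf_subgroupOf_right] at this

end Cfsg.Agent.S5115
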