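import Mathlib
import Cfsg.Statements.S5119
import Cfsg.Agent.Fus.InvSub

set_option autoImplicit false
set_option linter.unusedVariables false
open Cfsg

namespace Cfsg.Agent.S5119

open Cfsg.FusionSystem Cfsg.Agent.Fus Subgroup

/-- Let F be a saturated fusion system over a finite p-group S and E a subsystem of F over a subgroup T that is strongly closed in F. Then E is invariant in F (invariance under Aut_F(T) plus the Frattini condition) if and only if the strong invariance condition holds: for P ≤ Q ≤ T, every map φ of E from P into Q and every map ψ of F with source Q, the transported map ψ φ ψ⁻¹ on ψ(P) is a map of E. -/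
theorem result {Ω : Type*} [Group Ω] {S : Subgroup Ω} [Finite S] (p : ℕ) [Fact p.Prime] (hS : IsPGroup p S) (F : Cfsg.FusionSystem S) (hF : F.IsSaturated p) {T : Subgroup Ω} (E : Cfsg.FusionSystem T) (hE : E.IsSubsystemOf F) (hT : F.StronglyClosed T) : E.IsInvariantIn F ↔ ∀ (P Q : Subgroup Ω) (hPQ : P ≤ Q) (_ : Q ≤ T) (φ : P →* Ω) (_ : φ ∈ E.Hom P) (hφQ : ∀ x : P, φ x ∈ Q) (ψ : Q →* Ω) (_ : ψ ∈ F.Hom Q), ∃ χ ∈ E.Hom ((P.subgroupOf Q).map ψ), ∀ (x : P) (hx : ψ (Subgroup.inclusion hPQ x) ∈ (P.subgroupOf Q).map ψ), χ ⟨ψ (Subgroup.inclusion hPQ x), hx⟩ = ψ ⟨φ x, hφQ x⟩ := by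
  constructor
  · intro h P Q hPQ hQ φ hφ hφQ ψ hψ
    obtain ⟨g, hg, e⟩ := h.conj_mor (mor_tot hφ) (mor_tot hψ) hQ hPQ
      fun x hx => by rw [tot_apply _ hx]; exact hφQ _
    rw [img_eq_map_subgroupOf ψ (fun x => (tot_coe ψ x).symm) hPQ] at hg
    refine ⟨hg.mulOn.hom, hg.hom_mem, fun x hx => ?_⟩
    have := e x x.2
    rw [tot_apply ψ (hPQ x.2), tot_coe, tot_apply ψ (hφQ x)] at this
    exact this
  · intro h
    have key : ∀ P Q f k, P ≤ Q → Q ≤ T → E.Mor P f → (∀ x ∈ P, f x ∈ Q) → F.Mor Q k →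
        ∃ g, E.Mor (img k P) g ∧ ∀ x ∈ P, g (k x) = k (f x) := by
      intro P Q f k hPQ hQ hf hfQ hk
      obtain ⟨χ, hχ, e⟩ := h P Q hPQ hQ hf.mulOn.hom hf.hom_mem (fun x => hfQ x x.2)
        hk.mulOn.hom hk.hom_mem
      have hi : img k P = (P.subgroupOf Q).map hk.mulOn.hom :=
        img_eq_map_subgroupOf _ (fun x => rfl) hPQ
      refine ⟨tot χ, by rw [hi]; exact mor_tot hχ, fun x hx => ?_⟩
      have hm : k x ∈ (P.subgroupOf Q).map hk.mulOn.hom := hi ▸ mem_img_of_mem hx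
      rw [tot_apply _ hm]
      exact e ⟨x, hx⟩ hm
    refine isInvariantIn_iff.2 ⟨hE, hT, fun P f a hf ha =>
      key P T f a hf.le le_rfl hf (fun x hx => hf.mem hx) ha.mor, fun P f hP hf => ?_⟩
    have := finite_of_le hT.le
    suffices H : ∀ P f, F.Mor P f → ∃ a f₀, F.Iso T T a ∧ E.Mor (P ⊓ T) f₀ ∧
        ∀ x ∈ P ⊓ T, f x = a (f₀ x) by
      obtain ⟨a, f₀, ha, hf₀, e⟩ := H P f hf
      rw [inf_eq_left.2 hP] at hf₀ e
      exact ⟨a, f₀, ha, hf₀, e⟩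
    have hcomp : ∀ {P Q f g}, F.Mor P f → F.Mor Q g →
        (∃ a f₀, F.Iso T T a ∧ E.Mor (P ⊓ T) f₀ ∧ ∀ x ∈ P ⊓ T, f x = a (f₀ x)) →
        (∃ a f₀, F.Iso T T a ∧ E.Mor (Q ⊓ T) f₀ ∧ ∀ x ∈ Q ⊓ T, g x = a (f₀ x)) →
        (∀ x ∈ P, f x ∈ Q) →
        ∃ a f₀, F.Iso T T a ∧ E.Mor (P ⊓ T) f₀ ∧ ∀ x ∈ P ⊓ T, g (f x) = a (f₀ x) := by
      rintro P Q f g hf hg ⟨a, f₀, ha, hf₀, e⟩ ⟨b, g₀, hb, hg₀, e'⟩ hm
      obtain ⟨a', ha', h1, h2⟩ := ha.inv
      obtain ⟨k, hk, e''⟩ := key (Q ⊓ T) T g₀ a' inf_le_right le_rfl hg₀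
        (fun x hx => hg₀.mem hx) ha'.mor
      have hfx : ∀ x ∈ P ⊓ T, f x ∈ Q ⊓ T := fun x hx => ⟨hm x hx.1, hT.mem hf hx.1 hx.2⟩
      have hf0 : ∀ x ∈ P ⊓ T, f₀ x = a' (f x) := fun x hx => by
        rw [e x hx, h1 _ (hf₀.mem hx)]
      refine ⟨fun x => b (a x), fun x => k (f₀ x), hb.comp ha, hk.comp hf₀ fun x hx => ?_,
        fun x hx => ?_⟩
      · rw [hf0 x hx]; exact mem_img_of_mem (hfx x hx)
      · beta_reduce
        rw [hf0 x hx, e'' _ (hfx x hx), h2 _ (hg₀.mem (hfx x hx)), e' _ (hfx x hx)]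
    refine hF.mor_induction_card hS ?_ ?_ hcomp ?_
    · rintro P f g - ⟨a, f₀, ha, hf₀, e⟩ hfg
      exact ⟨a, f₀, ha, hf₀, fun x hx => by rw [← hfg x hx.1, e x hx]⟩
    · rintro P Q f - ⟨a, f₀, ha, hf₀, e⟩ hQ
      exact ⟨a, f₀, ha, hf₀.mono (inf_le_inf_right _ hQ), fun x hx => e x ⟨hQ hx.1, hx.2⟩⟩
    · intro Q hQ ih f hf
      have := finite_of_le hQ.le
      by_cases hTQ : T ≤ Q
      · exact ⟨f, fun x => x, hT.iso_self (hf.mor.mono hTQ), E.mor_id inf_le_right,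
          fun _ _ => rfl⟩
      have hfin : Finite (Q ⊓ T : Subgroup Ω) := finite_of_le (S := T) inf_le_right
      have hmaps : ∀ α ∈ F.autGroup Q, ∀ x ∈ Q ⊓ T, totA α x ∈ Q ⊓ T := fun α hα x hx =>
        (hT.invA' hQ.le).mem hα hx
      let N : Subgroup (MulAut Q) :=
        { carrier := {α | α ∈ F.autGroup Q ∧ E.Mor (Q ⊓ T) (totA α)}
          one_mem' := ⟨one_mem _, (E.mor_id inf_le_right).congr fun x hx =>
            (totA_one hx.1).symm⟩
          mul_mem' := fun {α β} ha hb => ⟨mul_mem ha.1 hb.1,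
            (ha.2.comp hb.2 (hmaps β hb.1)).congr fun x hx => (totA_mul _ _ hx.1).symm⟩
          inv_mem' := fun {α} ha => ⟨inv_mem ha.1,
            ((ha.2.iso_self (hmaps α ha.1)).of_leftInv fun x hx => totA_inv_totA α hx.1).mor⟩ }
      have hn : F.autGroup Q ≤ normalizer (N : Set (MulAut Q)) := by
        intro l hl
        refine mem_normalizer_fintype fun α hα => ⟨mul_mem (mul_mem hl hα.1) (inv_mem hl), ?_⟩
        obtain ⟨g, hg, e⟩ := key (Q ⊓ T) (Q ⊓ T) (totA α) (totA l) le_rfl inf_le_right hα.2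
          (hmaps α hα.1) ((mor_totA hQ.le hl).mono inf_le_left)
        have hi := (((mor_totA hQ.le hl).mono inf_le_left).iso_self (hmaps l hl))
        rw [hi.img_eq] at hg
        refine hg.congr fun y hy => ?_
        obtain ⟨x, hx, rfl⟩ := hi.surj y hy
        rw [e x hx, totA_mul _ _ hy.1, totA_inv_totA _ hx.1, totA_mul _ _ hx.1]
      obtain ⟨β, hβ, γ, hγ, e, g, hg, e'⟩ := hF.frattini_extend hS hQ (N := N)
        (fun _ h => h.1) hn hf.aut_mem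
      obtain ⟨t, ht, htQ⟩ := exists_normalizerIn_not_mem hS hQ.le hT.le
        (hQ.le.trans hT.le_normalizer) hTQ
      have hlt : Q < Q ⊔ preAut S Q N := by
        refine lt_of_le_of_ne le_sup_left fun h => htQ ?_
        rw [h]
        refine mem_sup_right (mem_preAut.2 ⟨⟨hT.le ht.1, ht.2⟩,
          F.cAut_mem_autGroup hQ.le ⟨hT.le ht.1, ht.2⟩, ?_⟩)
        exact (E.mor_conj inf_le_right ht.1).congr fun x hx => (totA_cAut ht.2 hx.1).symm
      obtain ⟨a, f₀, ha, hf₀, e''⟩ := ih _ g hg (card_lt_of_lt_le hlt hg.le)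
      obtain ⟨a', f₁, h1, h2, h3⟩ := hcomp (mor_totA hQ.le hγ) (mor_totA hQ.le hβ.1)
        ⟨a, f₀, ha, hf₀.mono (inf_le_inf_right _ le_sup_left),
          fun x hx => by rw [← e' x hx.1, e'' x ⟨mem_sup_left hx.1, hx.2⟩]⟩
        ⟨fun x => x, totA β, F.iso_id hT.le, hβ.2, fun _ _ => rfl⟩ fun x hx => totA_mem γ hx
      refine ⟨a', f₁, h1, h2, fun x hx => ?_⟩
      rw [← h3 x hx, ← totA_mul _ _ hx.1, ← e, hf.totA_aut hx.1]

end Cfsg.Agent.S5119
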