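import Mathlib
import Cfsg.Statements.S5120
import Cfsg.Agent.Fus.PIndex

set_option autoImplicit false
open Cfsg

namespace Cfsg.Agent.S5120

open Cfsg.FusionSystem Cfsg.Agent.Fus

/-- Let F be a saturated fusion system over a finite p-group S and T a subgroup of S containing the hyperfocal subgroup of F and normal in S. Then every saturated subsystem of F over T of p-power index is a normal subsystem of F. -/
theorem result {Ω : Type*} [Group Ω] {S : Subgroup Ω} [Finite S] (p : ℕ) [Fact p.Prime] (hS : IsPGroup p S) (F : Cfsg.FusionSystem S) (hF : F.IsSaturated p) (T : Subgroup Ω) (hTS : T ≤ S) (hTn : (T.subgroupOf S).Normal) (hT : F.hyperfocalSubgroup p ≤ T) (E : Cfsg.FusionSystem T) (hEs : E.IsSaturated p) (hEi : E.HasPPowerIndexIn F p) : E.IsNormalIn F p := by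
  exact hEi.isNormalIn hEs hF hS (Subgroup.le_normalizer_of_normal_subgroupOf hTS)

end Cfsg.Agent.S5120
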