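import Mathlib
import Cfsg.Statements.S5139
import Cfsg.Agent.Fus.PIndex
import Cfsg.Agent.Fus.InvGroup

set_option autoImplicit false
open Cfsg

namespace Cfsg.Agent.S5139

open Cfsg.FusionSystem Cfsg.Agent.Fus

/-- Let G be a finite group with Sylow p-subgroup S and O^p(G) the subgroup generated by the elements of order prime to p. Then the p-residual subsystem of the fusion system of G on S — the saturated subsystem of p-power index over the hyperfocal subgroup — is the fusion system of O^p(G) on S ∩ O^p(G): its maps are exactly the conjugation maps by elements of O^p(G) between subgroups of S ∩ O^p(G). -/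
theorem result {G : Type*} [Group G] [Finite G] (p : ℕ) [Fact p.Prime] (S : Sylow p G) (E : Cfsg.FusionSystem ((Cfsg.groupFusionSystem (S : Subgroup G)).hyperfocalSubgroup p)) (hE : (Cfsg.groupFusionSystem (S : Subgroup G)).IsPResidual p E) : ∃ h : (S : Subgroup G) ⊓ Cfsg.pResidual p G ≤ Cfsg.pResidual p G, ∀ P : Subgroup G, E.Hom P = (Cfsg.fusionSystemOfSubgroup (Cfsg.pResidual p G) ((S : Subgroup G) ⊓ Cfsg.pResidual p G) h).Hom P := by
  have hS := S.isPGroup'
  have hh := hyperfocal_group (p := p) hS S.not_dvd_index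
  refine ⟨inf_le_right, ?_⟩
  obtain ⟨h1, h2⟩ := hE
  revert E
  rw [hh]
  intro E h1 h2 P
  have := Cfsg.Agent.GT.pResidual_characteristic (G := G) (p := p)
  have hn := isNormalIn_group (N := pResidual p G) hS S.not_dvd_index
  rw [h2.eq_pSub h1 hS inf_le_left, HasPPowerIndexIn.eq_pSub (F := groupFusionSystem S) ?_ hn.sat
    hS inf_le_left]
  refine hasPPowerIndexIn_iff.2 ⟨hn.inv.sub, hh.le, fun P hP α hα hc => ?_⟩
  rw [autGroup_group (hP.trans inf_le_left)] at hα
  obtain ⟨g, hg, hgc, rfl⟩ := exists_coprime_of_mem_autInducedBy hα hc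
  rw [autGroup_ofSubgroup hP]
  exact cAut_mem_autInducedBy ⟨Cfsg.Agent.GT.mem_pResidual hgc, hg.2⟩

end Cfsg.Agent.S5139
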