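import Mathlib
import Cfsg.Statements.S5147
import Cfsg.Agent.Fus.AutSys

set_option autoImplicit false
set_option linter.unusedVariables false
open Cfsg

namespace Cfsg.Agent.S5147

open Cfsg.FusionSystem Cfsg.Agent.Fus Subgroup
theorem aux {G : Type*} [Group G] [Finite G] {p : ℕ} [Fact p.Prime] (S : Sylow p G)
    (hF : (Cfsg.groupFusionSystem (S : Subgroup G)).IsConstrained p) (H : Subgroup G)
    (hH : H.IsSubnormal) : ¬ p ∣ ((S : Subgroup G) ⊓ H).relIndex H ∧
      (fusionSystemOfSubgroup H ((S : Subgroup G) ⊓ H) inf_le_right).IsConstrained p := by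
  induction hH with
  | top =>
    refine ⟨by rw [inf_top_eq]; exact sylow_not_dvd_relIndex_top S, ?_⟩
    exact (isNormalIn_group (N := ⊤) S.isPGroup' S.not_dvd_index).weak.isConstrained
      S.isPGroup' hF
  | step H K hle _ hN ih =>
    have hT : IsPGroup p ((S : Subgroup G) ⊓ K : Subgroup G) := S.isPGroup'.to_le inf_le_left
    have hn := (normal_subgroupOf_iff_le_normalizer hle).1 hN
    have h1 := GT.Tr.not_dvd_relIndex_inf_of_normal ih.1 hT hle hn
    have h2 := (isNormalIn_ofSubgroup inf_le_right hT ih.1 hle hn).weak.isConstrained hT ih.2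
    have e : (S : Subgroup G) ⊓ K ⊓ H = (S : Subgroup G) ⊓ H := by rw [inf_assoc, inf_eq_right.2 hle]
    have key : ∀ T : Subgroup G, ∀ h : T ≤ H, T = (S : Subgroup G) ⊓ H →
        (fusionSystemOfSubgroup H T h).IsConstrained p →
        (fusionSystemOfSubgroup H ((S : Subgroup G) ⊓ H) inf_le_right).IsConstrained p := by
      rintro _ _ rfl h
      exact h
    exact ⟨e ▸ h1, key _ _ e h2⟩

theorem result' {G : Type*} [Group G] [Finite G] {p : ℕ} [Fact p.Prime] (S : Sylow p G)
    (hF : (Cfsg.groupFusionSystem (S : Subgroup G)).IsConstrained p) (H : Subgroup G)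
    (hH : H.IsSubnormal) : ¬ p ∣ ((S : Subgroup G).subgroupOf H).index ∧
      (Cfsg.groupFusionSystem ((S : Subgroup G).subgroupOf H)).IsConstrained p := by
  obtain ⟨h1, h2⟩ := aux S hF H hH
  obtain ⟨η, hη⟩ := isIsoVia_subgroupOf (inf_le_right : (S : Subgroup G) ⊓ H ≤ H)
  have := hη.symm.isConstrained (S.isPGroup'.to_le inf_le_left) h2
  rw [inf_relIndex_right] at h1
  rw [inf_subgroupOf_right] at this
  exact ⟨h1, this⟩


/-- Let G be a finite group with Sylow 2-subgroup S whose 2-fusion system on S is constrained, and L a component of G (a subnormal quasisimple subgroup). Then the 2-fusion system of L/Z(L) on the image of S ∩ L is constrained. -/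
theorem result {G : Type*} [Group G] [Finite G] (S : Sylow 2 G) (hF : (Cfsg.groupFusionSystem (S : Subgroup G)).IsConstrained 2) (L : Subgroup G) (hL : Cfsg.IsComponent L) : (Cfsg.groupFusionSystem (((S : Subgroup G).subgroupOf L).map (QuotientGroup.mk' (Subgroup.center L)))).IsConstrained 2 := by
  obtain ⟨h1, h2⟩ := result' S hF L hL.1
  have hT : IsPGroup 2 ((S : Subgroup G).subgroupOf L) := S.isPGroup'.comap_subtype
  have hq := isQuot_group (QuotientGroup.mk' (Subgroup.center L)) (QuotientGroup.mk'_surjective _)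
    hT h1
  refine hq.isConstrained_of_central hT h2 fun x hx => ?_
  obtain ⟨hx1, hx2⟩ := hq.mulOn.mem_pre_bot.1 hx
  exact mem_centralizerIn.2 ⟨hx1, fun y _ =>
    mem_center_iff.1 ((QuotientGroup.eq_one_iff x).1 hx2) y⟩

end Cfsg.Agent.S5147
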