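import Mathlib
import Cfsg.Statements.S5163
import Cfsg.Agent.Fus.LieSL
-- import your own Cfsg.Agent.* helpers here

set_option autoImplicit false
open Cfsg

namespace Cfsg.Agent.S5163

/-- For a finite field K of characteristic p and n ≥ 3, the p-fusion system of the projective special linear group PSL_n(K) on a Sylow p-subgroup is simple. -/
theorem result {K : Type*} [Field K] [Fintype K] (p : ℕ) [Fact p.Prime] [CharP K p] (n : ℕ) (hn : 3 ≤ n) (S : Sylow p (Matrix.ProjectiveSpecialLinearGroup (Fin n) K)) : (Cfsg.groupFusionSystem (S : Subgroup (Matrix.ProjectiveSpecialLinearGroup (Fin n) K))).IsSimple p := by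
  have h := Agent.Fus.LF.sl_good (F := K) (p := p) hn
  have : Nonempty (Fin n) := ⟨⟨0, by omega⟩⟩
  refine (h.map (QuotientGroup.mk'_surjective (Subgroup.center _))
    (Agent.Fus.SC.ker_inf_eq_bot h.isP ?_)).isSimple_of S
  rw [QuotientGroup.ker_mk', Agent.Cl.card_center_sl]
  intro hd
  have := Agent.Cl.not_char_dvd_pow_sub_one (F := K) p one_ne_zero
  rw [pow_one] at this
  exact this (hd.trans (Nat.gcd_dvd_right _ _))

end Cfsg.Agent.S5163
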