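import Mathlib
import Cfsg.Statements.S5168
import Cfsg.Agent.Spor.PC.M22
-- import your own Cfsg.Agent.* helpers here

set_option autoImplicit false
open Cfsg

namespace Cfsg.Agent.S5168

/-- The 2-fusion system of the Mathieu group M₂₂ (as the explicit permutation group carved out of the automorphism group of the binary Golay code) on a Sylow 2-subgroup is simple: saturated, over a nontrivial 2-group, with no normal subsystem other than the trivial one and itself. -/
theorem result (S : Sylow 2 Cfsg.Spor.M22) : (Cfsg.groupFusionSystem (S : Subgroup Cfsg.Spor.M22)).IsSimple 2 := by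
  obtain ⟨g, -, h⟩ := Spor.PC.m22_cert
  exact h.isSimple (m := 3465) (by rw [Spor.Golay.card_M22]; norm_num) (by norm_num)
    (MulEquiv.refl _) S

end Cfsg.Agent.S5168
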