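import Mathlib
import Cfsg.Statements.S5171
import Cfsg.Agent.Fus.LieSkew4
-- import your own Cfsg.Agent.* helpers here

set_option autoImplicit false
open Cfsg

namespace Cfsg.Agent.S5171

/-- For a finite field K of characteristic p and m ≥ 2, excluding the case m = 2 with K of two elements, the p-fusion system of the projective symplectic group PSp_{2m}(K) on a Sylow p-subgroup is simple. -/
theorem result {K : Type*} [Field K] [Fintype K] (p : ℕ) [Fact p.Prime] [CharP K p] (m : ℕ) (hm : 2 ≤ m) (hex : m = 2 → 3 ≤ Fintype.card K) (S : Sylow p (Cfsg.PSp m K)) : (Cfsg.groupFusionSystem (S : Subgroup (Cfsg.PSp m K))).IsSimple p := by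
  classical
  refine Agent.Fus.LF.psp_isSimple hm (fun h => ?_) S
  obtain ⟨a, -, ha⟩ := Finset.exists_mem_notMem_of_card_lt_card
    (s := ({0, 1} : Finset K)) (t := Finset.univ)
    (lt_of_le_of_lt Finset.card_le_two (hex h))
  exact ⟨a, by simpa [not_or] using ha⟩

end Cfsg.Agent.S5171
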