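import Mathlib
import Cfsg.Statements.S5345
import Cfsg.Agent.Spor.TTMisc

set_option autoImplicit false
open Cfsg

namespace Cfsg.Agent.S5345

open Cfsg.Agent.Spor.TT Cfsg.Agent.GT

/-- Let D be a conjugation-invariant generating set of 3-transpositions of a finite group G and T a Sylow 2-subgroup of G. Then the members of D lying in T generate an abelian subgroup, and their number is the width of D (the largest number of pairwise commuting members of D). -/
theorem result {G : Type*} [Group G] [Finite G] {D : Set G} (hD : Cfsg.IsThreeTranspositionGroup D) (T : Sylow 2 G) : IsMulCommutative (Subgroup.closure {d : G | d ∈ D ∧ d ∈ T}) ∧ {d : G | d ∈ D ∧ d ∈ T}.ncard = Cfsg.commutingWidth D := by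
  have hc : ∀ a ∈ {d : G | d ∈ D ∧ d ∈ T}, ∀ b ∈ {d : G | d ∈ D ∧ d ∈ T}, Commute a b :=
    fun a ha b hb => commute_of_mem_two hD.set T.isPGroup' ha.1 hb.1 ha.2 hb.2
  refine ⟨⟨⟨fun x y => Subtype.ext ?_⟩⟩, (commutingWidth_eq (fun _ h => h.1) hc fun E h1 h2 =>
    ncard_le_ncard_sylow hD.set hD.cj_mem h1 h2 T).symm⟩
  exact (commute_of_mem_closure
      (fun s hs => (commute_of_mem_closure (fun t ht => hc s hs t ht) x.2).symm) y.2).eq

end Cfsg.Agent.S5345
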