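import Mathlib
import Cfsg.Statements.S5346
import Cfsg.Agent.Spor.TTMisc

set_option autoImplicit false
open Cfsg

namespace Cfsg.Agent.S5346

open Cfsg.Agent.Spor.TT Cfsg.Agent.GT

/-- Let D be a conjugation-invariant generating set of 3-transpositions of a finite group G and d a member of D. Then D has width 1 (no two different members of D commute) if and only if G is the product of the subgroup generated by d with the largest normal 3-subgroup of G. -/
theorem result {G : Type*} [Group G] [Finite G] {D : Set G} (hD : Cfsg.IsThreeTranspositionGroup D) {d : G} (hd : d ∈ D) : Cfsg.commutingWidth D = 1 ↔ Subgroup.zpowers d ⊔ Cfsg.pCore 3 G = ⊤ := by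
  rw [commutingWidth_eq_one_iff hd]
  constructor
  · intro hw
    rw [eq_top_iff, ← hD.gen, ← rad_sup_zpowers hD.set hd, sup_comm]
    exact sup_le_sup_left (hw.rad_le_pCore hD.set hD.cj_mem) _
  · intro h
    exact W1_of_sup hD.set hd (isPGroup_pCore 3) fun a _ => h ▸ Subgroup.mem_top a

end Cfsg.Agent.S5346
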