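import Mathlib
import Cfsg.Statements.S5348
import Cfsg.Agent.Spor.TTMisc

set_option autoImplicit false
open Cfsg

namespace Cfsg.Agent.S5348

open Cfsg.Agent.Spor.TT Cfsg.Agent.GT

/-- Let D be a conjugation-invariant generating set of 3-transpositions of a finite group G and d a member of D. Let V be the set of members of D commuting with exactly the same members of D as d, and W the set of members w of D such that the members of D other than w commuting with w are precisely the members of D other than d commuting with d. Then V = {d} or W = {d}. -/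
theorem result {G : Type*} [Group G] [Finite G] {D : Set G} (hD : Cfsg.IsThreeTranspositionGroup D) {d : G} (hd : d ∈ D) : {v : G | v ∈ D ∧ ∀ e ∈ D, Commute v e ↔ Commute d e} = {d} ∨ {w : G | w ∈ D ∧ {y : G | y ∈ D ∧ y ≠ d ∧ Commute d y} = {y : G | y ∈ D ∧ y ≠ w ∧ Commute w y}} = {d} := by
  by_contra hcon
  rw [not_or] at hcon
  obtain ⟨h1, h2⟩ := hcon
  obtain ⟨v, hv, hvd⟩ : ∃ v, (v ∈ D ∧ ∀ e ∈ D, Commute v e ↔ Commute d e) ∧ v ≠ d := by
    by_contra hc
    push Not at hc
    exact h1 (Set.eq_singleton_iff_unique_mem.mpr ⟨⟨hd, fun _ _ => Iff.rfl⟩, hc⟩)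
  obtain ⟨w, hw, hwd⟩ : ∃ w, (w ∈ D ∧ Dx D d = Dx D w) ∧ w ≠ d := by
    by_contra hc
    push Not at hc
    exact h2 (Set.eq_singleton_iff_unique_mem.mpr ⟨⟨hd, rfl⟩, hc⟩)
  have h3 : v ∈ Dx D d := ⟨hv.1, hvd, ((hv.2 d hd).mpr (Commute.refl d)).symm⟩
  rw [hw.2] at h3
  have h4 : w ∈ Dx D d := ⟨hw.1, hwd, (hv.2 w hw.1).mp h3.2.2.symm⟩
  rw [hw.2] at h4
  exact h4.2.1 rfl

end Cfsg.Agent.S5348
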