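import Mathlib
import Cfsg.Statements.S5352
import Cfsg.Agent.Spor.TTFit

set_option autoImplicit false
open Cfsg

namespace Cfsg.Agent.S5352

open Cfsg.Agent.Spor.TT Cfsg.Agent.GT

/-- Let D be a conjugacy class of 3-transpositions generating the finite group G, with at least two members, and suppose the largest normal 2-subgroup and the largest normal 3-subgroup of G are both central. Then G has a quasisimple normal subgroup L such that the generalized Fitting subgroup of G is the product of L and the centre; and either L = G or the image of D in G/L has width 1, in the sense that two members of D whose commutator lies in L have the same image modulo L. -/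
theorem result {G : Type*} [Group G] [Finite G] {D : Set G} (hD : Cfsg.IsThreeTranspositionClass D) (hD2 : ∃ a ∈ D, ∃ b ∈ D, a ≠ b) (h2 : Cfsg.pCore 2 G ≤ Subgroup.center G) (h3 : Cfsg.pCore 3 G ≤ Subgroup.center G) : ∃ L : Subgroup G, L.Normal ∧ Cfsg.IsQuasisimple L ∧ Cfsg.generalizedFittingSubgroup G = L ⊔ Subgroup.center G ∧ (L = ⊤ ∨ ∀ a ∈ D, ∀ b ∈ D, a * b * a⁻¹ * b⁻¹ ∈ L → a⁻¹ * b ∈ L) := by
  have hL := isQuasisimple_layer hD hD2 h2 h3
  refine ⟨layer G, inferInstance, hL, genFitting_eq_layer_sup_center hD.group h2 h3,
    Or.inr fun a ha b hb hm => ?_⟩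
  rw [hD.set.inv_eq ha]
  by_cases hc : Commute a b
  · exact mul_mem_of_commute hD hL ha hb hc
  · rw [hD.set.inv_eq ha, hD.set.inv_eq hb] at hm
    have := (layer G).mul_mem hm hm
    have h4 := hD.set.cube ha hb hc
    convert this using 1
    calc a * b = (a * b) ^ 3 * (a * b) := by rw [h4, one_mul]
      _ = _ := by simp only [pow_succ, pow_zero, one_mul, mul_assoc]

end Cfsg.Agent.S5352
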