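import Mathlib
import Cfsg.Statements.S5354
import Cfsg.Agent.Spor.TTPrim

set_option autoImplicit false
open Cfsg

namespace Cfsg.Agent.S5354

open Cfsg.Agent.Spor.TT Cfsg.Agent.GT

/-- Let D be a conjugation-invariant generating set of 3-transpositions of the finite group G on which G acts primitively by conjugation, and suppose two different members of D commute (width at least 2). Then G has a quasisimple normal subgroup L of index at most 2 with the generalized Fitting subgroup of G equal to L times the centre, the commuting graph of D is connected, and for d in D the subgroup generated by the members of D commuting with d is a maximal D-subgroup: it is proper, and every subgroup generated by members of D that contains it is either it or G. -/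
theorem result {G : Type*} [Group G] [Finite G] {D : Set G} (hD : Cfsg.IsThreeTranspositionGroup D) (hprim : Cfsg.IsPrimitiveUnderConj D) (hw : ∃ a ∈ D, ∃ b ∈ D, a ≠ b ∧ Commute a b) : (∃ L : Subgroup G, L.Normal ∧ Cfsg.IsQuasisimple L ∧ L.index ≤ 2 ∧ Cfsg.generalizedFittingSubgroup G = L ⊔ Subgroup.center G) ∧ (Cfsg.commutingGraph D).Connected ∧ ∀ d ∈ D, Subgroup.closure {y : G | y ∈ D ∧ Commute d y} ≠ ⊤ ∧ ∀ H : Subgroup G, Cfsg.IsDSubgroup D H → Subgroup.closure {y : G | y ∈ D ∧ Commute d y} ≤ H → H = Subgroup.closure {y : G | y ∈ D ∧ Commute d y} ∨ H = ⊤ := by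
  have h := fis_of_primitive hD hprim hw
  obtain ⟨d₀, hd₀⟩ := h.cls.nonempty
  refine ⟨⟨layer G, inferInstance, h.isQuasisimple_layer, (index_le_two hD hd₀ fun a ha =>
    h.mul_mem_of_quasisimple h.isQuasisimple_layer hd₀ ha).1,
    genFitting_eq_layer_sup_center hD h.two_le_center h.three_le_center⟩, h.connected,
    fun d hd => ⟨fun h1 => h.not_mem_center hd (mem_center_of_commute h1 fun _ hx => hx.2),
      fun H hH hle => ?_⟩⟩
  by_cases hc : ∃ c ∈ Ax D d, c ∈ H
  · obtain ⟨c, hc, hcH⟩ := hc
    exact Or.inr (h.eq_top_of_perp hd (fun x hx => hle (Subgroup.subset_closure hx)) hc hcH)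
  · refine Or.inl (le_antisymm ?_ hle)
    rw [← hH]
    refine Subgroup.closure_mono fun x hx => ⟨hx.1, ?_⟩
    by_contra hn
    exact hc ⟨x, ⟨hx.1, hn⟩, hx.2⟩

end Cfsg.Agent.S5354
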