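import Mathlib
import Cfsg.Statements.S5355
import Cfsg.Agent.Spor.TTMisc

set_option autoImplicit false
open Cfsg

namespace Cfsg.Agent.S5355

open Cfsg.Agent.Spor.TT Cfsg.Agent.GT

/-- Let D be a conjugacy class of 3-transpositions generating the finite group G, with at least two members, and d a member of D. Suppose that every member of D commuting with d commutes with exactly the same members of D as d does, and that exactly one member of D other than d commutes with d. Then G is isomorphic to the symmetric group of degree 4. -/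
theorem result {G : Type*} [Group G] [Finite G] {D : Set G} (hD : Cfsg.IsThreeTranspositionClass D) (hD2 : ∃ a ∈ D, ∃ b ∈ D, a ≠ b) {d : G} (hd : d ∈ D) (hV : {y : G | y ∈ D ∧ Commute d y} = {v : G | v ∈ D ∧ ∀ e ∈ D, Commute v e ↔ Commute d e}) (hm : {y : G | y ∈ D ∧ Commute d y}.ncard = 2) : Nonempty (G ≃* Equiv.Perm (Fin 4)) := by
  have hone : ∀ a ∈ D, ∀ x ∈ Dx D a, ∀ y ∈ Dx D a, x = y := by
    intro a ha x hx y hy
    by_contra hne
    have h3 : ({a, x, y} : Set G).ncard ≤ (Perp D a).ncard := by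
      refine Set.ncard_le_ncard ?_ (Set.toFinite _)
      rintro z (rfl | rfl | rfl)
      exacts [⟨ha, Commute.refl _⟩, ⟨hx.1, hx.2.2⟩, ⟨hy.1, hy.2.2⟩]
    rw [hD.ncard_Perp ha hd, hm, Set.ncard_eq_three.mpr ⟨a, x, y, hx.2.1.symm, hy.2.1.symm, hne, rfl⟩]
      at h3
    omega
  obtain ⟨d', hd'⟩ : ∃ d', d' ∈ Dx D d := by
    obtain ⟨x, y, hxy, h⟩ := Set.ncard_eq_two.mp hm
    have hx : x ∈ Perp D d := h.ge (Or.inl rfl)
    have hy : y ∈ Perp D d := h.ge (Or.inr rfl)
    by_cases hxd : x = d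
    · exact ⟨y, hy.1, fun h => hxy (hxd.trans h.symm), hy.2⟩
    · exact ⟨x, hx.1, hxd, hx.2⟩
  obtain ⟨c, hc, hdc⟩ := hD.exists_not_commute hD2 hd
  have hcd' : ¬ Commute c d' := fun h => hdc (((hV.le ⟨hd'.1, hd'.2.2⟩).2 c hc).mp h.symm)
  obtain ⟨φ, hinj, -, -, -, hφ⟩ := hD.isTT.exists_S4 hd hc hd'.1 hd'.2.1.symm hd'.2.2 hdc hcd'
  refine equiv_perm_of_gen hD.gen φ hinj hφ fun e he => ?_
  by_contra hcon
  push Not at hcon
  obtain ⟨x, hx, y, hy, hne, -⟩ := hD.isTT.v4_trick φ hinj hφ (p := 0) (q := 1) (r := 2) (s := 3)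
    (by decide) (by decide) (by decide) (by decide) (by decide) (by decide) he (by
      intro i j hij hcm
      obtain ⟨k, l, h1, h2, h3, h4, h5⟩ : ∃ k l : Fin 4, k ≠ l ∧ i ≠ k ∧ i ≠ l ∧ j ≠ k ∧ j ≠ l := by
        clear hcm; revert i j; decide
      exact hcon k l (hone _ (hφ i j hij) _ ⟨hφ k l h1, fun h => swap_ne_swap hij h2 h3 (hinj h.symm),
        (Sym.commute_swap_swap h2 h3 h4 h5).map φ⟩ e ⟨he, (hcon i j).symm, hcm⟩))
  exact hne (hone e he x hx y hy)

end Cfsg.Agent.S5355
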