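import Mathlib
import Cfsg.Statements.S5356
import Cfsg.Agent.Spor.TTSyl3

set_option autoImplicit false
open Cfsg

namespace Cfsg.Agent.S5356

open Cfsg.Agent.Spor.TT Cfsg.Agent.GT

/-- Let D be a conjugacy class of 3-transpositions generating the finite group G, with at least two members, and d a member of D such that every member of D commuting with d commutes with exactly the same members of D as d. Then there is a Sylow 3-subgroup P of G normalized by d such that G is generated by d, P and the largest normal 2-subgroup of G. -/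
theorem result {G : Type*} [Group G] [Finite G] {D : Set G} (hD : Cfsg.IsThreeTranspositionClass D) (hD2 : ∃ a ∈ D, ∃ b ∈ D, a ≠ b) {d : G} (hd : d ∈ D) (hV : {y : G | y ∈ D ∧ Commute d y} = {v : G | v ∈ D ∧ ∀ e ∈ D, Commute v e ↔ Commute d e}) : ∃ P : Sylow 3 G, d ∈ Subgroup.normalizer (P : Set G) ∧ Subgroup.zpowers d ⊔ (P : Subgroup G) ⊔ Cfsg.pCore 2 G = ⊤ := by
  have hW : ∀ a ∈ D, ∀ b ∈ D, Commute a b → a * b ∈ pCore 2 G := by
    intro a ha b hb hab
    obtain ⟨g, rfl⟩ := hD.exists_cj hd ha
    have h1 : Vr D (cj g⁻¹ b) d := (hV.le ⟨hD.cj_mem g⁻¹ b hb, commute_cj_left.mp hab⟩).2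
    have := cj_mem_of_normal g ((Vr_iff_mul_mem hD.group (hD.cj_mem g⁻¹ b hb) hd).mp h1)
    rwa [cj_mul, cj_cj_inv] at this
  obtain ⟨P, hP⟩ := exists_sylow_three_normalized G D hD hW d hd
  exact ⟨P, hP, sup_sylow_three_eq_top hD hW hd P⟩

end Cfsg.Agent.S5356
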