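import Mathlib
import Cfsg.Statements.S5358
import Cfsg.Agent.Cl.QuadRefl3

set_option autoImplicit false
open scoped MatrixGroups
open Cfsg

namespace Cfsg.Agent.S5358

open Cfsg.Agent.Cl QuadraticMap


/-- Let Q be a non-degenerate quadratic form on the n-dimensional coordinate space over the field with three elements and u, v vectors of the same non-zero norm Q(u) = Q(v) spanning different lines (v ≠ u and v ≠ −u). Then the reflection matrices of u and v commute if and only if u and v are orthogonal for the polar form of Q. -/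
theorem result (n : ℕ) (Q : QuadraticForm (ZMod 3) (Fin n → ZMod 3)) (hQ : (QuadraticMap.polarBilin Q).Nondegenerate) (u v : Fin n → ZMod 3) (hu : Q u ≠ 0) (huv : Q u = Q v) (h1 : v ≠ u) (h2 : v ≠ -u) : Commute (Cfsg.reflectionMatrix (⇑Q) u) (Cfsg.reflectionMatrix (⇑Q) v) ↔ QuadraticMap.polar (⇑Q) u v = 0 := by
  have key : Commute (reflectionMatrix (⇑Q) u) (reflectionMatrix (⇑Q) v) ↔
      Commute (orefl Q u) (orefl Q v) := by
    constructor
    · intro h
      refine OG.ext fun x => ?_
      rw [OG.mul_app, OG.mul_app, ← reflectionMatrix_mulVec, ← reflectionMatrix_mulVec,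
        ← reflectionMatrix_mulVec, ← reflectionMatrix_mulVec, Matrix.mulVec_mulVec,
        Matrix.mulVec_mulVec, h.eq]
    · intro h
      refine Matrix.ext_iff_mulVec.2 fun x => ?_
      rw [← Matrix.mulVec_mulVec, ← Matrix.mulVec_mulVec, reflectionMatrix_mulVec,
        reflectionMatrix_mulVec, reflectionMatrix_mulVec, reflectionMatrix_mulVec,
        ← OG.mul_app, ← OG.mul_app, h.eq]
  rw [key]
  refine ⟨fun h => ?_, fun h => orefl_comm_of_polar h⟩
  by_contra hp
  have h3 := quad_orefl_cube_three hu huv hp
  have h4 : (orefl Q u * orefl Q v) ^ 2 = 1 := by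
    rw [h.mul_pow, pow_two, pow_two, orefl_mul_self, orefl_mul_self, one_mul]
  rw [pow_succ, h4, one_mul, mul_eq_one_iff_eq_inv, orefl_inv] at h3
  have h5 := congrArg (fun g : OG Q => g.1 v) h3
  simp only [orefl_app_self (huv ▸ hu : Q v ≠ 0), orefl_app] at h5
  rw [polar_comm Q v u] at h5
  have h6 : (3 : ZMod 3) = 0 := rfl
  rcases quad_zmod3_cases _ (mul_ne_zero (inv_ne_zero hu) hp) with e | e <;> rw [e] at h5
  · refine h2 (funext fun i => ?_)
    have := congrFun h5 i
    simp only [Pi.sub_apply, Pi.smul_apply, Pi.neg_apply, smul_eq_mul] at this ⊢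
    linear_combination -this + h6 * v i
  · refine h1 (funext fun i => ?_)
    have := congrFun h5 i
    simp only [Pi.sub_apply, Pi.smul_apply, Pi.neg_apply, smul_eq_mul] at this ⊢
    linear_combination -this + h6 * v i

end Cfsg.Agent.S5358
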