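import Mathlib
import Cfsg.Statements.S5361
import Cfsg.Agent.Spor.TTPrim
import Cfsg.Agent.S5353

set_option autoImplicit false
open Cfsg

namespace Cfsg.Agent.S5361

open Cfsg.Agent.Spor.TT Cfsg.Agent.GT

theorem commutator_eq_layer {G : Type*} [Group G] [Finite G] {D : Set G} (h : Fis D) :
    commutator G = layer G := by
  refine le_antisymm ?_ ?_
  · obtain ⟨d, hd⟩ := h.cls.nonempty
    have hi := index_le_two h.group hd fun a ha =>
      h.mul_mem_of_quasisimple h.isQuasisimple_layer hd ha
    by_cases h1 : (layer G).index = 1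
    · rw [Subgroup.index_eq_one.1 h1]; exact le_top
    have h2 : (layer G).index = 2 := by omega
    rw [commutator_def, Subgroup.commutator_le]
    intro a _ b _
    simp only [commutatorElement_def, Subgroup.mul_mem_iff_of_index_two h2, inv_mem_iff]
    tauto
  · rw [← h.isQuasisimple_layer.commutator_eq]
    exact Subgroup.commutator_mono le_top le_top


/-- Let D be a conjugacy class of 3-transpositions generating the finite group G, and suppose the centre of G is trivial and some two different members of D commute. Then the following are equivalent: (1) the commutator subgroup of G is simple (possibly of prime order); (2) G acts primitively on D by conjugation; (3) the largest normal 2-subgroup and the largest normal 3-subgroup of G are trivial and the commuting graph of D is connected. -/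
theorem result {G : Type*} [Group G] [Finite G] {D : Set G} (hD : Cfsg.IsThreeTranspositionClass D) (hZ : Subgroup.center G = ⊥) (hw : ∃ a ∈ D, ∃ b ∈ D, a ≠ b ∧ Commute a b) : (IsSimpleGroup (commutator G) ↔ Cfsg.IsPrimitiveUnderConj D) ∧ (Cfsg.IsPrimitiveUnderConj D ↔ (Cfsg.pCore 2 G = ⊥ ∧ Cfsg.pCore 3 G = ⊥ ∧ (Cfsg.commutingGraph D).Connected)) := by
  have hD2 : ∃ a ∈ D, ∃ b ∈ D, a ≠ b := by
    obtain ⟨a, ha, b, hb, hne, -⟩ := hw
    exact ⟨a, ha, b, hb, hne⟩
  refine ⟨⟨fun hs => (fis_of_simple_commutator hD hs ?_).primitive, fun hp => ?_⟩,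
    ⟨fun hp => ?_, fun ⟨h2, h3, hc⟩ => ?_⟩⟩
  · by_contra hcon
    push Not at hcon
    obtain ⟨a, ha, b, hb, hne, hc⟩ := hw
    have hm := mul_mem_commutator hD ha hb
    have h1 : (⟨a * b, hm⟩ : commutator G) ≠ 1 := fun h =>
      hne ((hD.set.mul_eq_one_iff ha).1 (congrArg Subtype.val h))
    have hsq : (a * b) * (a * b) = 1 := by
      rw [← pow_two]; exact (hD.set.commute_iff_sq ha hb).1 hc
    have hN : (Subgroup.zpowers (⟨a * b, hm⟩ : commutator G)).Normal :=
      ⟨fun n hn g => by rwa [hcon g n, mul_inv_cancel_right]⟩
    have htop := (hN.eq_bot_or_eq_top).resolve_left (by simpa using h1)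
    have hall : ∀ x : commutator G, x = 1 ∨ (x : G) = a * b := by
      intro x
      have hx : x ∈ Subgroup.zpowers (⟨a * b, hm⟩ : commutator G) := htop ▸ Subgroup.mem_top x
      obtain ⟨k, rfl⟩ := hx
      have hsq' : (⟨a * b, hm⟩ : commutator G) ^ (2 : ℤ) = 1 :=
        by rw [zpow_two]; exact Subtype.ext hsq
      rcases Int.even_or_odd' k with ⟨j, rfl | rfl⟩
      · left; simp only [zpow_mul, hsq', one_zpow]
      · right; simp only [zpow_add, zpow_mul, hsq', one_zpow, one_mul, zpow_one]
    have hcen : a * b ∈ Subgroup.center G := by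
      rw [Subgroup.mem_center_iff]
      intro g
      rcases hall ⟨g * (a * b) * g⁻¹, (inferInstance : (commutator G).Normal).conj_mem _ hm g⟩ with h | h
      · have h' : g * (a * b) * g⁻¹ = 1 := congrArg Subtype.val h
        exact absurd (Subtype.ext (by simpa using h')) h1
      · exact mul_inv_eq_iff_eq_mul.1 h
    rw [hZ] at hcen
    exact h1 (Subtype.ext hcen)
  · have h := fis_of_primitive hD.group hp hw
    rw [commutator_eq_layer h]
    refine h.isQuasisimple_layer.isSimpleGroup ?_
    have hle : (Subgroup.center (layer G)).map (layer G).subtype ≤ ⊥ := by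
      rw [← hZ]
      refine le_trans ?_ (fitting_le_center h.group h.two_le_center h.three_le_center)
      have : IsMulCommutative ((Subgroup.center (layer G)).map (layer G).subtype) :=
        Subgroup.map_isMulCommutative _ _
      exact le_fitting_of_isMulCommutative _
    rwa [le_bot_iff, Subgroup.map_eq_bot_iff_of_injective _ Subtype.val_injective] at hle
  · have h := fis_of_primitive hD.group hp hw
    exact ⟨le_bot_iff.1 (hZ ▸ h.two_le_center), le_bot_iff.1 (hZ ▸ h.three_le_center), h.connected⟩
  · have k2 : pCore 2 G ≤ Subgroup.center G := h2 ▸ bot_le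
    have k3 : pCore 3 G ≤ Subgroup.center G := h3 ▸ bot_le
    have := S5353.result hD hD2 k2 k3 (layer G) (isQuasisimple_layer hD hD2 k2 k3)
      (genFitting_eq_layer_sup_center hD.group k2 k3)
    exact this.1 (this.2 hc)

end Cfsg.Agent.S5361
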