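import Mathlib
import Cfsg.Statements.S5360
import Cfsg.Agent.Cl.QuadRefl3
import Cfsg.Agent.S5361

set_option autoImplicit false
open scoped MatrixGroups
open Cfsg

namespace Cfsg.Agent.S5360

open Cfsg.Agent.Cl Cfsg.Agent.Spor.TT


/-- Let Q be a non-degenerate quadratic form on the n-dimensional coordinate space over the field with three elements, n ≥ 5, c a non-zero scalar, and R the subgroup of the isometry group generated by the reflections of norm c. Then the commutator subgroup of R is quasisimple of index at most 2, the generalized Fitting subgroup of R is the product of the centre and the commutator subgroup, and R acts primitively by conjugation on its reflections of norm c. -/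
theorem result (n : ℕ) (hn : 5 ≤ n) (Q : QuadraticForm (ZMod 3) (Fin n → ZMod 3)) (hQ : (QuadraticMap.polarBilin Q).Nondegenerate) (c : ZMod 3) (hc : c ≠ 0) : Cfsg.IsQuasisimple (commutator ↥(Cfsg.reflectionSubgroup (⇑Q) c)) ∧ (commutator ↥(Cfsg.reflectionSubgroup (⇑Q) c)).index ≤ 2 ∧ Cfsg.generalizedFittingSubgroup ↥(Cfsg.reflectionSubgroup (⇑Q) c) = Subgroup.center ↥(Cfsg.reflectionSubgroup (⇑Q) c) ⊔ commutator ↥(Cfsg.reflectionSubgroup (⇑Q) c) ∧ Cfsg.IsPrimitiveUnderConj {g : ↥(Cfsg.reflectionSubgroup (⇑Q) c) | (g : ↥(Cfsg.isometryGroup (ZMod 3) (⇑Q))) ∈ Cfsg.reflectionsOfNorm (⇑Q) c} := by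
  have hn' : 5 ≤ Fintype.card (Fin n) := by simpa using hn
  have hD := quad_isThreeTranspositionClass_refl hQ hn' hc
  have e : commutator (reflectionSubgroup (⇑Q) c) ≃* Omega (ZMod 3) ⇑Q :=
    (Subgroup.equivMapOfInjective _ _ (reflectionSubgroup (⇑Q) c).subtype_injective).trans
      (MulEquiv.subgroupCongr (quad_map_commutator_reflectionSubgroup hQ hn' hc))
  have hq : IsQuasisimple (commutator (reflectionSubgroup (⇑Q) c)) :=
    IsQuasisimple.of_mulEquiv ⟨isPerfect_omega hQ hn', isSimpleGroup_pomega hQ hn'⟩ e.symm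
  have hf := fis_of_quasisimple hD hq fun a ha b hb => mul_mem_commutator hD ha hb
  obtain ⟨d, hd⟩ := hD.nonempty
  refine ⟨hq, (index_le_two hD.group hd fun a ha => mul_mem_commutator hD hd ha).1, ?_,
    hf.primitive⟩
  rw [genFitting_eq_layer_sup_center hD.group hf.two_le_center hf.three_le_center,
    S5361.commutator_eq_layer hf, sup_comm]

end Cfsg.Agent.S5360
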