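import Mathlib
import Cfsg.Statements.S5363
import Cfsg.Agent.Spor.TTMisc

set_option autoImplicit false
open Cfsg

namespace Cfsg.Agent.S5363

open Cfsg.Agent.Spor.TT Cfsg.Agent.GT

theorem mul_pow_comm {G : Type*} [Group G] {a b : G} (ha : a * a = 1) (hb : b * b = 1) (j : ℕ) :
    a * (a * b) ^ j = ((a * b) ^ j)⁻¹ * a := by
  have h : SemiconjBy a (a * b) (a * b)⁻¹ := by
    rw [SemiconjBy, mul_inv_rev, inv_eq_of_mul_eq_one_right ha, inv_eq_of_mul_eq_one_right hb,
      ← mul_assoc, ha, mul_assoc, ha, one_mul, mul_one]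
  rw [← inv_pow]
  exact h.pow_right j

/-- Let D be a conjugation-invariant set of involutions of a finite group G. Then every product of two members of D has odd order or order 2 if and only if, for every a in D and every b in D different from a and commuting with a, the members of D commuting with a b are exactly those commuting with both a and b. -/
theorem result {G : Type*} [Group G] [Finite G] {D : Set G} (hinv : ∀ d ∈ D, orderOf d = 2) (hconj : ∀ g : G, ∀ d ∈ D, g * d * g⁻¹ ∈ D) : (∀ a ∈ D, ∀ b ∈ D, Odd (orderOf (a * b)) ∨ orderOf (a * b) = 2) ↔ ∀ a ∈ D, ∀ b ∈ D, b ≠ a → Commute a b → {y : G | y ∈ D ∧ Commute (a * b) y} = {y : G | y ∈ D ∧ Commute a y} ∩ {y : G | y ∈ D ∧ Commute b y} := by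
  have hsq : ∀ d ∈ D, d * d = 1 := fun d hd => by rw [← pow_two, ← hinv d hd, pow_orderOf_eq_one]
  have hcomm : ∀ a ∈ D, ∀ b ∈ D, (a * b) ^ 2 = 1 → Commute a b := by
    intro a ha b hb h
    have h1 : (a * b)⁻¹ = a * b := inv_eq_of_mul_eq_one_right (by rw [← pow_two, h])
    rw [mul_inv_rev, inv_eq_of_mul_eq_one_right (hsq a ha), inv_eq_of_mul_eq_one_right (hsq b hb)]
      at h1
    exact h1.symm
  constructor
  · intro h
    have key : ∀ a ∈ D, ∀ b ∈ D, b ≠ a → Commute a b → ∀ y ∈ D, Commute (a * b) y →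
        Commute a y := by
      intro a ha b hb hne hab y hy hz
      have hz2 : (a * b) ^ 2 = 1 := by rw [hab.mul_pow, pow_two, pow_two, hsq a ha, hsq b hb, mul_one]
      have hc : Commute (a * b) (a * y) := ((Commute.refl a).mul_left hab.symm).mul_right hz
      have e1 : b * y = (a * b) * (a * y) := by
        rw [hab.eq, mul_assoc, ← mul_assoc a, hsq a ha, one_mul]
      rcases h a ha y hy with h1 | h1
      · rcases h b hb y hy with h2 | h2
        · exfalso
          have h3 : (a * b) ^ (orderOf (a * y) * orderOf (b * y)) = 1 := by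
            have h4 : (b * y) ^ (orderOf (a * y) * orderOf (b * y)) = 1 := by
              rw [mul_comm, pow_mul, pow_orderOf_eq_one, one_pow]
            nth_rw 1 [e1] at h4
            rwa [hc.mul_pow, pow_mul (a * y), pow_orderOf_eq_one, one_pow, mul_one] at h4
          obtain ⟨k, hk⟩ := h1.mul h2
          rw [hk, pow_succ, pow_mul, hz2, one_pow, one_mul] at h3
          exact hne (by rw [← inv_eq_of_mul_eq_one_right h3, inv_eq_of_mul_eq_one_right (hsq a ha)])
        · apply hcomm a ha y hy
          have h4 : (b * y) ^ 2 = 1 := by rw [← h2, pow_orderOf_eq_one]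
          rwa [e1, hc.mul_pow, hz2, one_mul] at h4
      · exact hcomm a ha y hy (by rw [← h1, pow_orderOf_eq_one])
    intro a ha b hb hne hab
    ext y
    refine ⟨fun hy => ⟨⟨hy.1, key a ha b hb hne hab y hy.1 hy.2⟩,
      ⟨hy.1, key b hb a ha hne.symm hab.symm y hy.1 (hab.eq ▸ hy.2)⟩⟩,
      fun hy => ⟨hy.1.1, hy.1.2.mul_left hy.2.2⟩⟩
  · intro h a ha b hb
    rcases Nat.even_or_odd (orderOf (a * b)) with ⟨k, hk⟩ | hodd
    · right
      have hpos := orderOf_pos (a * b)
      have hz1 : (a * b) ^ k ≠ 1 := pow_ne_one_of_lt_orderOf (by omega) (by omega)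
      have hz2 : (a * b) ^ k * (a * b) ^ k = 1 := by rw [← pow_add, ← hk, pow_orderOf_eq_one]
      have hza : Commute a ((a * b) ^ k) := by
        rw [Commute, SemiconjBy, mul_pow_comm (hsq a ha) (hsq b hb), inv_eq_of_mul_eq_one_right hz2]
      have hzb : Commute ((a * b) ^ k) b := by
        have : Commute ((a * b) ^ k) (a * (a * b)) :=
          hza.symm.mul_right ((Commute.refl (a * b)).pow_left k)
        rwa [← mul_assoc, hsq a ha, one_mul] at this
      have hD' : a * (a * b) ^ k ∈ D := by
        rcases Nat.even_or_odd' k with ⟨j, rfl | rfl⟩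
        · have := hconj ((a * b) ^ j)⁻¹ a ha
          rwa [inv_inv, ← mul_pow_comm (hsq a ha) (hsq b hb), mul_assoc, ← pow_add, ← two_mul] at this
        · have := hconj ((a * b) ^ j)⁻¹ b hb
          rw [inv_inv] at this
          convert this using 1
          rw [show 2 * j + 1 = j + 1 + j by ring, pow_add, pow_succ, ← mul_assoc, ← mul_assoc,
            mul_pow_comm (hsq a ha) (hsq b hb), mul_assoc _ a (a * b), ← mul_assoc a a, hsq a ha, one_mul]
      have h1 := h a ha _ hD' (fun h2 => hz1 (by simpa using h2)) ((Commute.refl a).mul_right hza)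
      have h2 : b ∈ {y : G | y ∈ D ∧ Commute (a * (a * (a * b) ^ k)) y} :=
        ⟨hb, by rwa [← mul_assoc, hsq a ha, one_mul]⟩
      rw [h1] at h2
      have h3 : (a * b) ^ 2 = 1 := by
        rw [h2.1.2.mul_pow, pow_two, pow_two, hsq a ha, hsq b hb, mul_one]
      have := Nat.le_of_dvd (by norm_num) (orderOf_dvd_of_pow_eq_one h3)
      omega
    · exact Or.inl hodd

end Cfsg.Agent.S5363
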