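import Mathlib
import Cfsg.Statements.S5364
import Cfsg.Agent.Spor.TTMisc

set_option autoImplicit false
open Cfsg

namespace Cfsg.Agent.S5364

open Cfsg.Agent.Spor.TT Cfsg.Agent.GT

/-- Let D be a conjugation-invariant set of involutions of a finite group G and t an involution in the centre of G such that d t does not lie in D for any d in D. If the images of the members of D in G modulo the subgroup generated by t satisfy the 3-transposition order conditions (each has order 2 and any two have product of order at most 3), then so do the members of D. -/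
theorem result {G : Type*} [Group G] [Finite G] {D : Set G} (hinv : ∀ d ∈ D, orderOf d = 2) (hconj : ∀ g : G, ∀ d ∈ D, g * d * g⁻¹ ∈ D) (t : G) (ht : orderOf t = 2) (htZ : t ∈ Subgroup.center G) (hDt : ∀ d ∈ D, d * t ∉ D) [(Subgroup.zpowers t).Normal] (himg : Cfsg.IsThreeTranspositionSet ((QuotientGroup.mk : G → G ⧸ Subgroup.zpowers t) '' D)) : Cfsg.IsThreeTranspositionSet D := by
  have hsq : ∀ d ∈ D, d * d = 1 := fun d hd => by rw [← pow_two, ← hinv d hd, pow_orderOf_eq_one]
  have hz : ∀ x : G, (x : G ⧸ Subgroup.zpowers t) = 1 → x = 1 ∨ x = t := by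
    intro x hx
    rw [QuotientGroup.eq_one_iff] at hx
    obtain ⟨k, rfl⟩ := hx
    have h2 : t ^ 2 = 1 := by rw [← ht, pow_orderOf_eq_one]
    dsimp only
    rcases Int.even_or_odd' k with ⟨j, rfl | rfl⟩
    · left; rw [zpow_mul, zpow_ofNat, h2, one_zpow]
    · right; rw [zpow_add, zpow_mul, zpow_ofNat, h2, one_zpow, one_mul, zpow_one]
  refine ⟨hinv, fun a ha b hb => ?_⟩
  have hc : ∀ x : G, x * t = t * x := Subgroup.mem_center_iff.mp htZ
  rcases himg.2 _ ⟨a, ha, rfl⟩ _ ⟨b, hb, rfl⟩ with h | h
  · rcases hz ((a * b) ^ 2) (by simpa using h) with h1 | h1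
    · exact Or.inl h1
    · exfalso
      apply hDt b hb
      have := hconj a b hb
      rw [hc, ← h1, inv_eq_of_mul_eq_one_right (hsq a ha)] at *
      convert this using 1
      simp only [pow_succ, pow_zero, one_mul, mul_assoc, hsq b hb, mul_one]
  · rcases hz ((a * b) ^ 3) (by simpa using h) with h1 | h1
    · exact Or.inr h1
    · exfalso
      apply hDt b hb
      have := hconj (a * b) a ha
      rw [hc, ← h1]
      rw [mul_inv_rev, inv_eq_of_mul_eq_one_right (hsq a ha), inv_eq_of_mul_eq_one_right (hsq b hb)]
        at this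
      convert this using 1
      simp only [pow_succ, pow_zero, one_mul, mul_assoc, hsq b hb, mul_one]

end Cfsg.Agent.S5364
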