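import Mathlib
import Cfsg.Statements.S5365
import Cfsg.Agent.Spor.TTLine

set_option autoImplicit false
open Cfsg

namespace Cfsg.Agent.S5365

open Cfsg.Agent.Spor.TT Cfsg.Agent.GT

/-- Let D be a non-empty conjugation-invariant set of involutions of a finite group G satisfying the 3-transposition order conditions, and suppose that for every d in D the members of D other than d commuting with d generate a subgroup isomorphic to the symmetric group of degree 3, and the largest normal 3-subgroup of the centralizer of d has order 3. Then the subgroup generated by D is isomorphic to the symmetric group of degree 5 or to the direct product of two symmetric groups of degree 3. -/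
theorem result {G : Type*} [Group G] [Finite G] {D : Set G} (hD : Cfsg.IsThreeTranspositionSet D) (hconj : ∀ g : G, ∀ d ∈ D, g * d * g⁻¹ ∈ D) (hne : D.Nonempty) (hloc : ∀ d ∈ D, Nonempty (↥(Subgroup.closure {y : G | y ∈ D ∧ y ≠ d ∧ Commute d y}) ≃* Equiv.Perm (Fin 3)) ∧ Nat.card (Cfsg.pCore 3 ↥(Subgroup.centralizer ({d} : Set G))) = 3) : Nonempty (↥(Subgroup.closure D) ≃* Equiv.Perm (Fin 5)) ∨ Nonempty (↥(Subgroup.closure D) ≃* Equiv.Perm (Fin 3) × Equiv.Perm (Fin 3)) := by
  have h : IsTT D := ⟨hD, fun a _ b hb => hconj a b hb⟩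
  have hl : ∀ d ∈ D, IsLine (Dx D d) := fun d hd =>
    (hloc d hd).1.elim fun φ => isLine_of_equiv (h.dx d).set φ
  by_cases hW : ∃ d ∈ D, ∃ x ∈ Dx D d, ∃ y ∈ Dx D d, ¬ Wr D x y
  · obtain ⟨d, hd, x, hx, y, hy, hn⟩ := hW
    exact Or.inl (closure_equiv_S5 h hl hd hx hy hn)
  push Not at hW
  right
  obtain ⟨d, hd⟩ := hne
  obtain ⟨x, hx, -⟩ := (hl d hd).two
  by_cases hall : ∀ e ∈ D, e ∈ Dx D x ∨ e ∈ Dx D d
  · have h1 : Subgroup.closure D = Subgroup.closure (Dx D x) ⊔ Subgroup.closure (Dx D d) := by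
      rw [← Subgroup.closure_union]
      congr 1
      exact Set.Subset.antisymm hall (Set.union_subset (fun _ h => h.1) fun _ h => h.1)
    obtain ⟨φ⟩ := (hloc x hx.1).1
    obtain ⟨ψ⟩ := (hloc d hd).1
    obtain ⟨e⟩ := sup_equiv_prod (A := Subgroup.closure (Dx D x)) (B := Subgroup.closure (Dx D d))
      (fun a ha b hb => commute_of_mem_closure (fun s hs => (commute_of_mem_closure
        (fun t ht => ((hW d hd x hx s hs).le ht).2.2) ha).symm) hb) (center_eq_bot_of_equiv_S3 φ)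
    exact ⟨(MulEquiv.subgroupCongr h1).trans (e.trans (φ.prodCongr ψ))⟩
  exfalso
  push Not at hall
  obtain ⟨e, he, hex, hed⟩ := hall
  have hdx : d ∈ Dx D x := ⟨hd, hx.2.1.symm, hx.2.2.symm⟩
  obtain ⟨φ, hinj, -, -, -, hφ⟩ := h.exists_S4 hd he hx.1 hx.2.1.symm hx.2.2
    (fun h1 => hed ⟨he, fun h2 => hex (h2 ▸ hdx), h1⟩)
    (fun h1 => hex ⟨he, fun h2 => hed (h2 ▸ hx), h1.symm⟩)
  let Q := Cong.ker D (Wr D)
  have hQ : IsPGroup 3 Q := h.isPGroup_ker_Wr
  have : Q.Normal := Subgroup.normalizer_eq_top_iff.mp (eq_top_iff.mpr fun g _ =>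
    Cong.mem_normalizer_ker (hconj g) (hconj g⁻¹)
      (fun _ _ h1 => h1.cj (hconj g) (hconj g⁻¹))
      (fun _ _ h1 => h1.cj (hconj g⁻¹) (by rw [inv_inv]; exact hconj g)))
  have key : ∀ t ∈ D, ∀ t' ∈ Dx D t, ∀ q ∈ Q, cj (t * t') q = q⁻¹ := by
    intro t ht t' ht' q hq
    obtain ⟨t'', ht'', hne⟩ := (hl t ht).exists_ne t'
    have hw : t' * t'' ∈ Q := Cong.mul_mem_ker ht'.1 ht''.1 (hW t ht t' ht' t'' ht'')
    have hC : ∀ c ∈ Q, Commute t c → c ∈ Subgroup.zpowers (t' * t'') := by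
      intro c hc htc
      have h1 : ∀ c ∈ Q, Commute t c → c ∈ pCoreOf 3 (Subgroup.centralizer ({t} : Set G)) :=
        fun c hc htc => pCore_inf_le _ ⟨le_pCore hQ hc, by rintro _ rfl; exact htc⟩
      have h2 : Subgroup.zpowers (t' * t'') = pCoreOf 3 (Subgroup.centralizer ({t} : Set G)) := by
        refine Subgroup.eq_of_le_of_card_ge (Subgroup.zpowers_le.mpr
          (h1 _ hw (ht'.2.2.mul_right ht''.2.2))) ?_
        rw [card_pCoreOf, (hloc t ht).2, Nat.card_zpowers, hD.orderOf_mul_of_not_commute ht'.1 ht''.1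
          fun h3 => hne ((hl t ht).w1 _ ht' _ ht'' h3).symm]
      exact h2 ▸ h1 c hc htc
    have hinv : ∀ c ∈ Subgroup.zpowers (t' * t''), cj (t * t') c = c⁻¹ := by
      rintro _ ⟨k, rfl⟩
      have : cj (t * t') (t' * t'') = (t' * t'')⁻¹ := by
        rw [ht'.2.2.eq, ← cj_cj, cj_of_commute (ht'.2.2.mul_right ht''.2.2), hD.cj_eq ht'.1,
          hD.mul_self_mul ht'.1, mul_inv_rev, hD.inv_eq ht'.1, hD.inv_eq ht''.1]
      simp only [cj_eq_conj] at this ⊢
      rw [map_zpow, this, inv_zpow]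
    have hs : cj q t ∈ D := hconj q t ht
    have hst : Wr D (cj q t) t := h.cong_Wr.cj_of_mem_ker h hq ht
    by_cases hqt : cj q t = t
    · exact hinv q (hC q hq (cj_eq_self_iff.mp hqt).symm)
    have hn : ¬ Commute t (cj q t) := fun h1 => hqt (hst.eq_of_commute ht h1.symm)
    have hu : t * cj q t ∈ Q := Cong.mul_mem_ker ht hs hst.symm
    have hc := hC _ (Q.mul_mem (Q.inv_mem hu) hq) (cj_eq_self_iff.mp (by
      rw [← cj_cj, eq_comm, ← cj_eq_iff, hD.cj_mul_left ht hs hn])).symm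
    have h1 : Commute (cj q t) t' := (hst.ge ht').2.2
    have h2 : Commute (t * cj q t) (t' * t'') :=
      (ht'.2.2.mul_right ht''.2.2).mul_left (h1.mul_right (hst.ge ht'').2.2)
    have h3 : Commute (t * cj q t) ((t * cj q t)⁻¹ * q) := by
      obtain ⟨k, hk⟩ := hc
      rw [← hk]; exact h2.zpow_right k
    have h4 : cj (t * t') (t * cj q t) = (t * cj q t)⁻¹ := by
      rw [← cj_cj, cj_of_commute (ht'.2.2.mul_left h1).symm, hD.cj_eq ht, hD.mul_self_mul ht,
        mul_inv_rev, hD.inv_eq ht, hD.inv_eq hs]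
    calc cj (t * t') q = cj (t * t') (t * cj q t * ((t * cj q t)⁻¹ * q)) := by
          rw [mul_inv_cancel_left]
      _ = q⁻¹ := by rw [cj_mul, h4, hinv _ hc, ← mul_inv_rev, ← h3.eq, mul_inv_cancel_left]
  have key2 : ∀ i j k l : Fin 4, i ≠ j → i ≠ k → i ≠ l → j ≠ k → j ≠ l → k ≠ l → ∀ q ∈ Q,
      cj (φ (Equiv.swap i j * Equiv.swap k l)) q = q⁻¹ := by
    intro i j k l h1 h2 h3 h4 h5 h6
    rw [map_mul]
    exact key _ (hφ i j h1) _ ⟨hφ k l h6, fun h7 => swap_ne_swap h1 h2 h3 (hinj h7.symm),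
      (Sym.commute_swap_swap h2 h3 h4 h5).map φ⟩
  obtain ⟨y, hy, hxy⟩ := (hl d hd).exists_ne x
  have hq : y * x ∈ Q := Cong.mul_mem_ker hy.1 hx.1 (hW d hd y hy x hx)
  have h1 := key2 0 3 1 2 (by decide) (by decide) (by decide) (by decide) (by decide) (by decide) _ hq
  rw [← swap_v4 (by decide) (by decide) (by decide) (by decide) (by decide) (by decide), map_mul,
    map_inv, ← cj_cj, key2 0 2 1 3 (by decide) (by decide) (by decide) (by decide) (by decide)
      (by decide) _ hq, ← key2 0 1 2 3 (by decide) (by decide) (by decide) (by decide) (by decide)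
      (by decide) _ hq, cj_inv_cj, key2 0 1 2 3 (by decide) (by decide) (by decide) (by decide)
      (by decide) (by decide) _ hq, mul_inv_rev, hD.inv_eq hx.1, hD.inv_eq hy.1] at h1
  exact hxy ((hl d hd).w1 y hy x hx h1)

end Cfsg.Agent.S5365
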