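import Mathlib
import Cfsg.Statements.S5366
import Cfsg.Agent.Spor.TTFischer

set_option autoImplicit false
open Cfsg

namespace Cfsg.Agent.S5366

open Cfsg.Agent.Spor.TT Cfsg.Agent.GT

/-- Let L be a nondegenerate Fischer space on the point type X (every point on a line). Then for every point x the map t(x) — sending a point collinear with x to the third point of their common line and fixing every other point — is a permutation of X of order 2 and an automorphism of the line system; and the set of all t(x) satisfies the 3-transposition order conditions in the permutation group of X (any two have product of order at most 3). -/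
theorem result {X : Type*} (L : Set (Set X)) (hL : Cfsg.IsFischerSpace L) (hnd : Cfsg.LineSystem.IsNondegenerate L) : (∀ x : X, ∃ σ : Equiv.Perm X, ⇑σ = Cfsg.LineSystem.lineMap L x ∧ orderOf σ = 2 ∧ Cfsg.LineSystem.IsIso L L σ) ∧ Cfsg.IsThreeTranspositionSet {σ : Equiv.Perm X | ∃ x : X, ⇑σ = Cfsg.LineSystem.lineMap L x} := by
  have ht := tri_of_fischer hL
  let σ : X → Equiv.Perm X := fun x => (ht.involutive x).toPerm
  have hσ : ∀ x, σ x * σ x = 1 := fun x => Equiv.ext (ht.involutive x)
  have hord : ∀ x, orderOf (σ x) = 2 := fun x => by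
    refine orderOf_eq_prime (by rw [pow_two, hσ]) fun h1 => ?_
    obtain ⟨l, hl, hx⟩ := hnd x
    obtain ⟨y, z, h2, h3, h4, rfl⟩ := ht.exists_two hl hx
    exact h4 ((congrArg (fun τ : Equiv.Perm X => τ y) h1).symm.trans
      (ht.lineMap_eq h2 h3.symm h4.symm hl))
  have hcj : ∀ x y, σ x * σ y * σ x = σ (LineSystem.lineMap L x y) := fun x y => Equiv.ext fun w => by
    have := ht.map_lineMap (isIso_lineMap hL x) y (LineSystem.lineMap L x w)
    rw [Function.Involutive.coe_toPerm, ht.involutive x w] at this
    exact this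
  have key : ∀ τ : Equiv.Perm X, ∀ x, ⇑τ = LineSystem.lineMap L x → τ = σ x :=
    fun τ x h => Equiv.ext (congrFun h)
  refine ⟨fun x => ⟨σ x, rfl, hord x, isIso_lineMap hL x⟩, ?_, ?_⟩
  · rintro τ ⟨x, hx⟩
    rw [key τ x hx, hord]
  · rintro τ ⟨x, hx⟩ τ' ⟨y, hy⟩
    rw [key τ x hx, key τ' y hy]
    rcases ht.cases x y with ⟨-, h1⟩ | ⟨h1, h2, h3, h4⟩
    · left
      rw [pow_two, ← mul_assoc, hcj, h1, hσ]
    · right
      have h5 := ht.lineMap_eq h1.symm h3 h2 (by rwa [Set.insert_comm])
      have : (σ x * σ y) ^ 3 = (σ x * σ y * σ x) * (σ y * σ x * σ y) := by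
        simp only [pow_succ, pow_zero, one_mul, mul_assoc]
      rw [this, hcj, hcj, h5, hσ]

end Cfsg.Agent.S5366
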