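import Mathlib
import Cfsg.Statements.S5367
import Cfsg.Agent.Spor.TTFischer

set_option autoImplicit false
open Cfsg

namespace Cfsg.Agent.S5367

open Cfsg.Agent.Spor.TT Cfsg.Agent.GT

open Cfsg.LineSystem

set_option synthInstance.maxSize 4096

variable {G : Type*} [Group G] {D : Set G}

theorem dual_case (h : IsTT D) {a b c : D} (hab : ¬ Commute (a : G) b) (hac : ¬ Commute (a : G) c)
    (hbc : Commute (b : G) c) (hne : b ≠ c) {S : Set D} (ha : a ∈ S) (hb : b ∈ S) (hc : c ∈ S)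
    (hS : ∀ x ∈ S, x = a ∨ x = b ∨ x = c ∨ (x : G) = cj (a : G) b ∨ (x : G) = cj (a : G) c) :
    Isomorphic (restrict (threeTranspositionLines D) (span (threeTranspositionLines D) S))
      dualAffinePlaneTwo := by
  obtain ⟨φ, hinj, e0, e1, e2, hφ⟩ := h.exists_S4 b.2 a.2 c.2 (fun h1 => hne (Subtype.ext h1)) hbc
    (fun h1 => hab h1.symm) hac
  obtain ⟨sw, h1, h2, h3, h4, h5⟩ : ∃ sw : DualAffinePoint → Equiv.Perm (Fin 4),
      (∀ s, ∃ i j, i ≠ j ∧ sw s = Equiv.swap i j) ∧ (∀ s t, sw s = sw t → s = t) ∧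
      (∀ s t u : DualAffinePoint, (s ≠ t ∧ u ≠ s ∧ u ≠ t ∧ ∃ i, i ∉ s.1 ∧ i ∉ t.1 ∧ i ∉ u.1) →
        sw s * sw t ≠ sw t * sw s ∧ sw u = sw s * sw t * (sw s)⁻¹) ∧
      (∀ s t : DualAffinePoint, sw s * sw t ≠ sw t * sw s → (s ≠ t ∧ dualThird s t ≠ s ∧
        dualThird s t ≠ t ∧ ∃ i, i ∉ s.1 ∧ i ∉ t.1 ∧ i ∉ (dualThird s t).1)) ∧
      ∃ p q r, sw p = Equiv.swap 0 1 ∧ sw q = Equiv.swap 1 2 ∧ sw r = Equiv.swap 2 3 ∧
        ∀ s, sw s = sw p ∨ sw s = sw q ∨ sw s = sw r ∨ sw s = sw q * sw p * (sw q)⁻¹ ∨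
          sw s = sw q * sw r * (sw q)⁻¹ ∨
          sw s = sw p * (sw q * sw r * (sw q)⁻¹) * (sw p)⁻¹ :=
    ⟨fun s => if s.1 = {0, 1} then Equiv.swap 0 1 else if s.1 = {0, 2} then Equiv.swap 0 2 else
      if s.1 = {0, 3} then Equiv.swap 0 3 else if s.1 = {1, 2} then Equiv.swap 1 2 else
      if s.1 = {1, 3} then Equiv.swap 1 3 else Equiv.swap 2 3, by decide +kernel, by decide +kernel,
      by decide +kernel, by decide +kernel, ⟨{0, 1}, rfl⟩, ⟨{1, 2}, rfl⟩, ⟨{2, 3}, rfl⟩,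
      by decide +kernel⟩
  let ψ : DualAffinePoint → D := fun s => ⟨φ (sw s), by
    obtain ⟨i, j, k1, k2⟩ := h1 s
    exact k2 ▸ hφ i j k1⟩
  obtain ⟨k1, k2⟩ := (tri_lines h).isomorphic_range model_dual (ψ := ψ)
    (fun s t k => h2 s t (hinj (congrArg Subtype.val k)))
    (fun s t u k => mem_lines h (fun k1 => (h3 s t u k).1 (hinj (by rw [map_mul, map_mul]; exact k1)))
      (by change φ (sw u) = _; rw [(h3 s t u k).2, ← cj_def, map_cj]))
    (fun s t k => h4 s t fun k1 => collinear_lines h k (Commute.map k1 φ))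
  obtain ⟨p, q, r, f0, f1, f2, f3⟩ := h5
  have g0 : ψ p = b := Subtype.ext (by change φ (sw p) = _; rw [f0, e0])
  have g1 : ψ q = a := Subtype.ext (by change φ (sw q) = _; rw [f1, e1])
  have g2 : ψ r = c := Subtype.ext (by change φ (sw r) = _; rw [f2, e2])
  have : span (threeTranspositionLines D) S = Set.range ψ := by
    refine Set.Subset.antisymm (span_subset (fun x hx => ?_) k1) ?_
    · rcases hS x hx with rfl | rfl | rfl | k | k
      exacts [⟨q, g1⟩, ⟨p, g0⟩, ⟨r, g2⟩, cj_mem_of_isSubspace h k1 ⟨q, g1⟩ ⟨p, g0⟩ k,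
        cj_mem_of_isSubspace h k1 ⟨q, g1⟩ ⟨r, g2⟩ k]
    · rintro _ ⟨s, rfl⟩
      have m := isSubspace_span (threeTranspositionLines D) S
      have ma := subset_span (threeTranspositionLines D) S ha
      have mb := subset_span (threeTranspositionLines D) S hb
      have mc := subset_span (threeTranspositionLines D) S hc
      rw [← f0] at e0; rw [← f1] at e1; rw [← f2] at e2
      rcases f3 s with k | k | k | k | k | k
      · rwa [h2 _ _ k, g0]
      · rwa [h2 _ _ k, g1]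
      · rwa [h2 _ _ k, g2]
      · exact cj_mem_of_isSubspace h m ma mb
          (by change φ (sw s) = _; rw [k, ← cj_def, map_cj, e0, e1])
      · exact cj_mem_of_isSubspace h m ma mc
          (by change φ (sw s) = _; rw [k, ← cj_def, map_cj, e1, e2])
      · exact cj_mem_of_isSubspace h m mb (cj_mem_of_isSubspace h m ma mc
          (z := ⟨_, h.cj_mem _ a.2 _ c.2⟩) rfl)
          (by change φ (sw s) = _; rw [k, ← cj_def, ← cj_def, map_cj, map_cj, e0, e1, e2])
  rw [this]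
  exact k2

theorem affine_case (h : IsTT D) {a b c : D} (hab : ¬ Commute (a : G) b)
    (hac : ¬ Commute (a : G) c) (hbc : ¬ Commute (b : G) c) (h4 : ¬ Commute (cj (a : G) b) c)
    {S : Set D} (ha : a ∈ S) (hb : b ∈ S) (hc : c ∈ S)
    (hS : ∀ x ∈ S, x = a ∨ x = b ∨ x = c ∨ (x : G) = cj (a : G) b ∨ (x : G) = cj (a : G) c) :
    Isomorphic (restrict (threeTranspositionLines D) (span (threeTranspositionLines D) S))
      affinePlaneThree := by
  have hA := aff_of_not_commute h a.2 b.2 c.2 hab hac hbc h4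
  have n1 : (a : G) ≠ b := fun h1 => hab (h1 ▸ Commute.refl _)
  have n2 : (a : G) ≠ c := fun h1 => hac (h1 ▸ Commute.refl _)
  have n3 : (b : G) ≠ c := fun h1 => hbc (h1 ▸ Commute.refl _)
  have n4 : cj (a : G) b ≠ c := fun h1 => h4 (h1 ▸ Commute.refl _)
  let ψ : (Fin 2 → ZMod 3) → D := fun v => ⟨pt a b c (v 0) (v 1), h.pt_mem a.2 b.2 c.2 _ _⟩
  have hcj : ∀ s t, (ψ (-s - t) : G) = cj (ψ s : G) (ψ t) := fun s t => (hA.cj_pt_pt _ _ _ _).symm
  have hext : ∀ s t : Fin 2 → ZMod 3, s 0 = t 0 ∧ s 1 = t 1 → s = t := by decide +kernel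
  obtain ⟨k1, k2⟩ := (tri_lines h).isomorphic_range model_affine (ψ := ψ)
    (fun s t k => hext s t (hA.pt_inj n1 n2 n3 n4 (congrArg Subtype.val k)))
    (fun s t u k => mem_lines h (hA.not_commute_pt n1 n2 n3 n4 fun k1 => k.1 (hext s t k1))
      (by rw [← hcj, show u = -s - t by linear_combination k.2]))
    (fun s t k => ⟨fun k1 => k.1 (k1 ▸ rfl), by ring⟩)
  have g0 : ψ ![0, 0] = a := Subtype.ext (Aff.pt_zero _ _ _)
  have g1 : ψ ![1, 0] = b := Subtype.ext hA.pt_b
  have g2 : ψ ![0, 1] = c := Subtype.ext hA.pt_c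
  have : span (threeTranspositionLines D) S = Set.range ψ := by
    refine Set.Subset.antisymm (span_subset (fun x hx => ?_) k1) ?_
    · rcases hS x hx with rfl | rfl | rfl | k | k
      exacts [⟨_, g0⟩, ⟨_, g1⟩, ⟨_, g2⟩, cj_mem_of_isSubspace h k1 ⟨_, g0⟩ ⟨_, g1⟩ k,
        cj_mem_of_isSubspace h k1 ⟨_, g0⟩ ⟨_, g2⟩ k]
    · rintro _ ⟨s, rfl⟩
      have m : ∀ s t, ψ s ∈ span (threeTranspositionLines D) S →
          ψ t ∈ span (threeTranspositionLines D) S → ψ (-s - t) ∈ span (threeTranspositionLines D) S :=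
        fun s t h1 h2 => cj_mem_of_isSubspace h (isSubspace_span _ S) h1 h2 (hcj s t)
      have ma := subset_span (threeTranspositionLines D) S (g0 ▸ ha)
      have mb := subset_span (threeTranspositionLines D) S (g1 ▸ hb)
      have mc := subset_span (threeTranspositionLines D) S (g2 ▸ hc)
      have key : ∀ s : Fin 2 → ZMod 3, ∃ t u : Fin 2 → ZMod 3,
          (t = ![0, 0] ∨ t = ![1, 0] ∨ t = -![0, 0] - ![1, 0]) ∧
          (u = ![0, 0] ∨ u = ![0, 1] ∨ u = -![0, 0] - ![0, 1]) ∧ s = -t - u := by decide +kernel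
      obtain ⟨t, u, k3, k4, rfl⟩ := key s
      refine m _ _ ?_ ?_
      · rcases k3 with rfl | rfl | rfl
        exacts [ma, mb, m _ _ ma mb]
      · rcases k4 with rfl | rfl | rfl
        exacts [ma, mc, m _ _ ma mc]
  rw [this]
  exact k2

/-- Let D be a conjugation-invariant generating set of 3-transpositions of a finite group G. Then the line system on D whose lines are the triples {x, y, y x y⁻¹} for non-commuting members x, y of D is a Fischer space: two points lie on at most one line, lines have three points, and two different meeting lines generate a subspace isomorphic to the dual affine plane of order two or to the affine plane of order three. -/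
theorem result {G : Type*} [Group G] [Finite G] {D : Set G} (hD : Cfsg.IsThreeTranspositionGroup D) : Cfsg.IsFischerSpace (Cfsg.threeTranspositionLines D) := by
  have h := hD.isTT
  have ht := tri_lines h
  refine ⟨ht.pl, ht.three, ?_⟩
  rintro l hl m hm hne ⟨a, hal, ham⟩
  obtain ⟨b, _, h1, -, -, h2⟩ := ht.exists_two hl hal
  obtain ⟨c, _, h3, -, -, h4⟩ := ht.exists_two hm ham
  have hb : b ∈ l := h2 ▸ Or.inr (Or.inl rfl)
  have hc : c ∈ m := h4 ▸ Or.inr (Or.inl rfl)
  have hcl : c ∉ l := fun h5 => hne (ht.pl l hl m hm a c h3 hal h5 ham hc)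
  obtain ⟨hab, e1⟩ := line_eq h hl hal hb h1
  obtain ⟨hac, e2⟩ := line_eq h hm ham hc h3
  by_cases k1 : Commute (b : G) c
  · refine Or.inl (dual_case h hab hac k1 (fun h5 => hcl (h5 ▸ hb)) (Or.inl hal) (Or.inl hb)
      (Or.inr hc) ?_)
    rw [e1, e2]
    rintro x ((rfl | rfl | rfl) | (rfl | rfl | rfl)) <;> simp
  by_cases k2 : Commute (cj (a : G) b) c
  · have hb' : (⟨_, h.cj_mem _ a.2 _ b.2⟩ : D) ∈ l := e1 ▸ Or.inr (Or.inr rfl)
    refine Or.inl (dual_case h (b := ⟨_, h.cj_mem _ a.2 _ b.2⟩)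
      (IsThreeTranspositionSet.not_commute_cj_left hab) hac k2 (fun h5 => hcl (h5 ▸ hb'))
      (Or.inl hal) (Or.inl hb') (Or.inr hc) ?_)
    have e3 := h.set.cj_cj_self a.2 b
    rw [e1, e2]
    rintro x ((rfl | rfl | rfl) | (rfl | rfl | rfl)) <;> simp [e3]
  · refine Or.inr (affine_case h hab hac k1 k2 (Or.inl hal) (Or.inl hb) (Or.inr hc) ?_)
    rw [e1, e2]
    rintro x ((rfl | rfl | rfl) | (rfl | rfl | rfl)) <;> simp

end Cfsg.Agent.S5367
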