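import Mathlib
import Cfsg.Statements.S5387
import Cfsg.Agent.S2088
import Cfsg.Agent.Ch.UniversalCover

set_option autoImplicit false
set_option linter.style.haveILetI false
set_option linter.unusedVariables false
open Cfsg

namespace Cfsg.Agent.S5387

open Cfsg.Agent.Ch Function
open scoped commutatorElement

theorem ker_eq_sq {B : Type*} [Group B] (θ : Multiplicative (ZMod 3 × ZMod 4 × ZMod 4) →* B)
    (hs : Surjective θ) (hc : Nat.card B = 4) (he : ∀ x : B, x * x = 1) :
    θ.ker = (powMonoidHom 2).range := by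
  have h1 : Nat.card (powMonoidHom 2 : Multiplicative (ZMod 3 × ZMod 4 × ZMod 4) →* _).range = 12 := by
    have h2 := (powMonoidHom 2 : Multiplicative (ZMod 3 × ZMod 4 × ZMod 4) →* _).ker.card_mul_index
    have h3 : Nat.card (powMonoidHom 2 : Multiplicative (ZMod 3 × ZMod 4 × ZMod 4) →* _).ker = 4 := by
      have : Nat.card (powMonoidHom 2 : Multiplicative (ZMod 3 × ZMod 4 × ZMod 4) →* _).ker =
          Nat.card {x : ZMod 3 × ZMod 4 × ZMod 4 // x + x = 0} := by
        refine Nat.card_congr (Equiv.subtypeEquiv Multiplicative.toAdd fun x => ?_)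
        rw [MonoidHom.mem_ker, powMonoidHom_apply, pow_two]
        rfl
      rw [this, Nat.card_eq_fintype_card]
      decide +kernel
    rw [Subgroup.index_ker, h3] at h2
    simp only [Nat.card_eq_fintype_card, Fintype.card_multiplicative, Fintype.card_prod,
      ZMod.card] at h2 ⊢
    omega
  have h4 : Nat.card θ.ker = 12 := by
    have h2 := θ.ker.card_mul_index
    rw [Subgroup.index_ker, MonoidHom.range_eq_top.2 hs, Subgroup.card_top, hc] at h2
    have h5 : Nat.card (Multiplicative (ZMod 3 × ZMod 4 × ZMod 4)) = 48 := by simp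
    omega
  symm
  refine Subgroup.eq_of_le_of_card_ge ?_ (by rw [h1, h4])
  rintro _ ⟨x, rfl⟩
  rw [MonoidHom.mem_ker, powMonoidHom_apply, pow_two, map_mul, he]

theorem exists_eta {L Q Γ : Type*} [Group L] [Group Q] [Group Γ] [Group.IsPerfect L]
    (hA : HasSchurMultiplier Q (Multiplicative (ZMod 3 × ZMod 4 × ZMod 4))) {σ : Γ →* Q}
    (hσ : IsStemExtension σ) (f : σ.ker ≃* Multiplicative (ZMod 3 × ZMod 4 × ZMod 4))
    (hc : Nat.card (Subgroup.center L) = 4) (he : ∀ x ∈ Subgroup.center L, x * x = 1)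
    (e : L ⧸ Subgroup.center L ≃* Q) :
    ∃ η : Γ →* L, Surjective η ∧
      η.ker = ((powMonoidHom 2).range.comap f.toMonoidHom).map σ.ker.subtype := by
  let ξ : L →* Q := e.toMonoidHom.comp (QuotientGroup.mk' _)
  have hs : Surjective ξ := e.surjective.comp (QuotientGroup.mk'_surjective _)
  have hk : ξ.ker = Subgroup.center L := by
    rw [ker_mulEquiv_comp, QuotientGroup.ker_mk']
  have : Group.IsPerfect Q := Group.IsPerfect.ofSurjective hs
  obtain ⟨η, hη⟩ := exists_lift_of_cover hA hσ (Nat.card_congr f.toEquiv) hs hk.le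
  have hη' : ∀ x, ξ (η x) = σ x := fun x => DFunLike.congr_fun hη x
  have h1 : η.range ⊔ Subgroup.center L = ⊤ := by
    rw [eq_top_iff]
    intro x _
    obtain ⟨g, hg⟩ := hσ.1 (ξ x)
    have : (η g)⁻¹ * x ∈ Subgroup.center L := by
      rw [← hk, MonoidHom.mem_ker, map_mul, map_inv, hη', hg, inv_mul_cancel]
    simpa using Subgroup.mul_mem_sup (MonoidHom.mem_range.2 ⟨g, rfl⟩ : η g ∈ η.range) this
  have h2 : Surjective η := by
    rw [← MonoidHom.range_eq_top, eq_top_iff, ← Group.IsPerfect.commutator_eq_top, commutator_def,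
      Subgroup.commutator_le]
    intro x _ y _
    obtain ⟨a, ha, z, hz, rfl⟩ := Subgroup.mem_sup_of_normal_right.1 (h1 ▸ Subgroup.mem_top x)
    obtain ⟨b, hb, w, hw, rfl⟩ := Subgroup.mem_sup_of_normal_right.1 (h1 ▸ Subgroup.mem_top y)
    have h3 : ⁅a * z, b * w⁆ = ⁅a, b⁆ := by
      have hz' := Subgroup.mem_center_iff.1 hz
      have hw' := Subgroup.mem_center_iff.1 hw
      simp only [commutatorElement_def, mul_inv_rev]
      calc a * z * (b * w) * (z⁻¹ * a⁻¹) * (w⁻¹ * b⁻¹)
          = a * ((b * w) * z) * (z⁻¹ * a⁻¹) * (w⁻¹ * b⁻¹) := by rw [hz' (b * w)]; group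
        _ = a * b * (w * a⁻¹) * (w⁻¹ * b⁻¹) := by group
        _ = _ := by rw [← hw' a⁻¹]; group
    rw [h3]
    exact mul_mem (mul_mem (mul_mem ha hb) (inv_mem ha)) (inv_mem hb)
  have h4 : ∀ x : σ.ker, η x ∈ Subgroup.center L := fun x => by
    rw [← hk, MonoidHom.mem_ker, hη']; exact x.2
  let θ : Multiplicative (ZMod 3 × ZMod 4 × ZMod 4) →* Subgroup.center L :=
    ((η.comp σ.ker.subtype).codRestrict _ h4).comp f.symm.toMonoidHom
  have hθ : ∀ x : σ.ker, (θ (f x) : L) = η x := fun x => by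
    show η (f.symm (f x) : σ.ker) = η x
    rw [f.symm_apply_apply]
  have h5 : Surjective θ := by
    intro z
    obtain ⟨g, hg⟩ := h2 z
    have h6 : g ∈ σ.ker := by
      rw [MonoidHom.mem_ker, ← hη', hg, ← MonoidHom.mem_ker, hk]; exact z.2
    exact ⟨f ⟨g, h6⟩, Subtype.ext ((hθ _).trans hg)⟩
  refine ⟨η, h2, ?_⟩
  rw [← ker_eq_sq θ h5 hc fun x => Subtype.ext (he x x.2)]
  ext g
  constructor
  · intro hg
    have h6 : g ∈ σ.ker := by rw [MonoidHom.mem_ker, ← hη', MonoidHom.mem_ker.1 hg, map_one]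
    exact ⟨⟨g, h6⟩, Subtype.ext ((hθ _).trans hg), rfl⟩
  · rintro ⟨x, hx, rfl⟩
    exact (hθ x).symm.trans (congrArg Subtype.val hx)

/-- Up to isomorphism there is at most one quasisimple group whose centre is elementary abelian of order 4 and whose central quotient is isomorphic to the projective special linear group of dimension 3 over the field with four elements: any two such groups are isomorphic. -/
theorem result {L₁ L₂ : Type*} [Group L₁] [Finite L₁] [Group L₂] [Finite L₂] (F : Type) [Field F] [Fintype F] (hF : Fintype.card F = 4) (h₁ : Cfsg.IsQuasisimple L₁) (h₂ : Cfsg.IsQuasisimple L₂) (hc₁ : Nat.card (Subgroup.center L₁) = 4) (hc₂ : Nat.card (Subgroup.center L₂) = 4) (he₁ : ∀ x ∈ Subgroup.center L₁, x * x = 1) (he₂ : ∀ x ∈ Subgroup.center L₂, x * x = 1) (e₁ : L₁ ⧸ Subgroup.center L₁ ≃* Matrix.ProjectiveSpecialLinearGroup (Fin 3) F) (e₂ : L₂ ⧸ Subgroup.center L₂ ≃* Matrix.ProjectiveSpecialLinearGroup (Fin 3) F) : Nonempty (L₁ ≃* L₂) := by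
  have hA := Cfsg.Agent.S2088.result hF
  obtain ⟨Γ, _, _, σ, hσ, ⟨f⟩⟩ := hA.1
  haveI := h₁.1
  haveI := h₂.1
  obtain ⟨η₁, s₁, k₁⟩ := exists_eta hA hσ f hc₁ he₁ e₁
  obtain ⟨η₂, s₂, k₂⟩ := exists_eta hA hσ f hc₂ he₂ e₂
  exact ⟨(QuotientGroup.quotientKerEquivOfSurjective η₁ s₁).symm.trans
    ((QuotientGroup.quotientMulEquivOfEq (k₁.trans k₂.symm)).trans
      (QuotientGroup.quotientKerEquivOfSurjective η₂ s₂))⟩

end Cfsg.Agent.S5387
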