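import Mathlib
import Cfsg.Statements.S5392
import Cfsg.Agent.Spor.LeechSimple

set_option autoImplicit false
open Cfsg

namespace Cfsg.Agent.S5392

section
open Cfsg.Agent.Spor.Leech

theorem faithful (g : Co0) (hg : ∀ v : Λ, ∃ w : Λ, g • v - v = 2 • w) : g ∈ Subgroup.center Co0 := by
  let K : Subgroup Co0 :=
    { carrier := {g | ∀ v : Λ, ∃ w : Λ, g • v - v = 2 • w}
      one_mem' := fun v => ⟨0, by simp⟩
      mul_mem' := fun {a b} ha hb v => by
        obtain ⟨w, hw⟩ := ha (b • v)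
        obtain ⟨w', hw'⟩ := hb v
        exact ⟨w + w', by rw [mul_smul, smul_add, ← hw, ← hw']; abel⟩
      inv_mem' := fun {a} ha v => by
        obtain ⟨w, hw⟩ := ha (a⁻¹ • v)
        exact ⟨-w, by rw [smul_neg, ← hw, smul_inv_smul]; abel⟩ }
  have : K.Normal := ⟨fun a ha g v => by
    obtain ⟨w, hw⟩ := ha (g⁻¹ • v)
    exact ⟨g • w, by rw [← co0_smul_nsmul, ← hw, smul_sub, smul_inv_smul, mul_smul, mul_smul]⟩⟩
  refine (normal_Co0 K).resolve_right (fun h => ?_) hg
  have h1 := nm_v44 none_ne_zero 1 1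
  have h2 := nm_v44 none_ne_zero 1 (-1)
  obtain ⟨k, hk⟩ := trans32 h1 h2
  obtain ⟨w, hw⟩ := (h ▸ Subgroup.mem_top k : k ∈ K) (v44 none (some 0) 1 1)
  have h3 := ip_v44_pm none_ne_zero
  rw [hk] at hw
  rcases short_congr' (by omega) (by omega) hw with e | e | e
  · rw [e, ip_self] at h3; omega
  · rw [e, ip_neg_right, ip_self] at h3; omega
  · omega

theorem irred (M : AddSubgroup Vec) (h2 : ∀ v ∈ leechLattice, (2 : ℤ) • v ∈ M) (hle : M ≤ leechLattice)
    (hinv : ∀ g : Co0, ∀ v : Λ, (v : Vec) ∈ M → ((g • v : Λ) : Vec) ∈ M) :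
    (∀ x ∈ M, ∃ w ∈ leechLattice, x = (2 : ℤ) • w) ∨ M = leechLattice := by
  rw [or_iff_not_imp_left]
  intro h
  push Not at h
  obtain ⟨x, hx, hx2⟩ := h
  let A : AddSubgroup Λ := M.addSubgroupOf leechLattice
  have hA : ∀ v : Λ, v ∈ A ↔ (v : Vec) ∈ M := fun v => Iff.rfl
  have hA2 : ∀ v : Λ, 2 • v ∈ A := fun v => by
    have := h2 v v.2
    rwa [two_zsmul, ← two_nsmul] at this
  obtain ⟨y, z, hy, e⟩ := exists_short ⟨x, hle hx⟩
  have hyA : y ∈ A := by
    have : y = ⟨x, hle hx⟩ - 2 • z := by rw [← e]; abel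
    rw [this]; exact sub_mem hx (hA2 z)
  have h32 : (∃ y ∈ A, nm y = 32) → M = leechLattice := by
    rintro ⟨y, hy, hn⟩
    have := eq_top_of_min (A := A) fun v hv => by
      obtain ⟨g, rfl⟩ := trans32 hn hv
      exact hinv g y hy
    exact le_antisymm hle fun v hv => (this ▸ AddSubgroup.mem_top _ : (⟨v, hv⟩ : Λ) ∈ A)
  rcases nm_cases_of_le hy with rfl | hn | hn | hn
  · refine absurd ?_ (hx2 z z.2)
    rw [sub_zero] at e
    rw [two_zsmul, ← two_nsmul]; exact congrArg Subtype.val e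
  · exact h32 ⟨y, hyA, hn⟩
  · have key : ∀ v, nm v = 48 → v ∈ A := fun v hv => by
      obtain ⟨g, rfl⟩ := trans48 hn hv
      exact hinv g y hyA
    refine h32 ⟨_, sub_mem (key _ (nm_odd1 none 5 rfl)) (key _ (nm_odd1 (some 0) 5 rfl)), ?_⟩
    rw [nm_sub, nm_odd1, nm_odd1, ip_odd1]
    simp only [odd1_apply, sum_ite_eq_pt]; simp
  · have key : ∀ v, nm v = 64 → v ∈ A := fun v hv => by
      obtain ⟨g, rfl⟩ := exists_smul_eq_of_64 hn hv
      exact hinv g y hyA
    have a : nm (v44 none (some 0) 1 1 + v44 (some 1) (some 2) 1 1) = 64 := by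
      rw [nm_add, nm_v44 (by decide), nm_v44 (by decide), ip_v44_v44_of_ne] <;> decide
    have b : nm (v44 none (some 0) 1 1 + v44 (some 1) (some 3) 1 1) = 64 := by
      rw [nm_add, nm_v44 (by decide), nm_v44 (by decide), ip_v44_v44_of_ne] <;> decide
    refine h32 ⟨_, sub_mem (key _ a) (key _ b), ?_⟩
    rw [add_sub_add_left_eq_sub, nm_sub, nm_v44 (by decide), nm_v44 (by decide), ip_v44, v44_apply,
      v44_apply]
    decide

end

/-- The Leech lattice modulo twice itself is a faithful irreducible module for the first Conway group: an automorphism of the rank-24 lattice built from the length-24 code that moves every lattice vector only by twice a lattice vector lies in the centre of the automorphism group (the centre consists of ±1, which act trivially there, so the kernel is exactly the centre), and an additive subgroup lying between twice the lattice and the lattice that is invariant under all lattice automorphisms is one of the two. -/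
theorem result : (∀ g : ↥Cfsg.Co0, (∀ v : ↥Cfsg.leechLattice, ∃ w : ↥Cfsg.leechLattice, ((g • v : ↥Cfsg.leechLattice) : Cfsg.GolayPt → ℤ) - (v : Cfsg.GolayPt → ℤ) = 2 • (w : Cfsg.GolayPt → ℤ)) → g ∈ Subgroup.center ↥Cfsg.Co0) ∧ ∀ M : AddSubgroup (Cfsg.GolayPt → ℤ), (∀ v ∈ Cfsg.leechLattice, (2 : ℤ) • v ∈ M) → M ≤ Cfsg.leechLattice → (∀ g : ↥Cfsg.Co0, ∀ v : ↥Cfsg.leechLattice, (v : Cfsg.GolayPt → ℤ) ∈ M → ((g • v : ↥Cfsg.leechLattice) : Cfsg.GolayPt → ℤ) ∈ M) → (∀ x ∈ M, ∃ w ∈ Cfsg.leechLattice, x = (2 : ℤ) • w) ∨ M = Cfsg.leechLattice := by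
  open Cfsg.Agent.Spor.Leech in
  exact ⟨fun g hg => faithful g fun v => (hg v).imp fun w hw => Subtype.ext hw, irred⟩

end Cfsg.Agent.S5392
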