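import Mathlib
import Cfsg.Agent.Spor.MB.Classes
import Cfsg.Statements.S5394
-- import your own Cfsg.Agent.* helpers here

set_option autoImplicit false
open Cfsg

namespace Cfsg.Agent.S5394

open Cfsg.Agent.Spor Cfsg.Agent.Spor.MB MulAction

theorem oct : fixSet zA ∈ octads := by
  rw [fixSet_zA]; exact unmask_mem_octads (by decide +kernel) (by decide +kernel)

theorem free_iff {g : PG} : (∀ p, g p ≠ p) ↔ (fixSet g).card = 0 := by
  rw [Finset.card_eq_zero, fixSet_eq_empty_iff]

/-- The automorphism group of the length-24 code built from the squares modulo 23 has exactly two conjugacy classes of involutions: an involution either fixes exactly the eight points of an octad or has no fixed points, both kinds occur, and any two involutions of the same kind are conjugate in the group. -/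
theorem result : (∀ g ∈ Cfsg.M24, orderOf g = 2 → (Finset.univ.filter fun p => g p = p) ∈ Cfsg.octads ∨ ∀ p, g p ≠ p) ∧ (∃ g ∈ Cfsg.M24, orderOf g = 2 ∧ (Finset.univ.filter fun p => g p = p) ∈ Cfsg.octads) ∧ (∃ g ∈ Cfsg.M24, orderOf g = 2 ∧ ∀ p, g p ≠ p) ∧ ∀ g ∈ Cfsg.M24, ∀ h ∈ Cfsg.M24, orderOf g = 2 → orderOf h = 2 → ((∀ p, g p ≠ p) ↔ (∀ p, h p ≠ p)) → ∃ k ∈ Cfsg.M24, k * g * k⁻¹ = h := by
  refine ⟨fun g hg h => ?_, ⟨zA, zA_mem, orderOf_zA, oct⟩,
    ⟨zB, zB_mem, orderOf_zB, free_iff.2 card_fixSet_zB⟩, fun g hg h hh h1 h2 e => ?_⟩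
  · rcases involution_classes hg h with ⟨k, hk, rfl⟩ | ⟨k, hk, rfl⟩
    · left
      change fixSet _ ∈ _
      rw [fixSet_conj]
      exact (smul_mem_octads_iff hk).2 oct
    · right
      rw [free_iff, card_fixSet_conj, card_fixSet_zB]
  · rw [free_iff, free_iff] at e
    by_cases h0 : (fixSet g).card = 0
    · obtain ⟨a, ha, rfl⟩ := conj_zB_of_card hg h1 (by omega)
      obtain ⟨b, hb, rfl⟩ := conj_zB_of_card hh h2 (by rw [e.1 h0]; omega)
      exact ⟨b * a⁻¹, M24.mul_mem hb (M24.inv_mem ha), by group⟩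
    · obtain ⟨a, ha, rfl⟩ := conj_zA_of_card hg h1 h0
      obtain ⟨b, hb, rfl⟩ := conj_zA_of_card hh h2 (fun h => h0 (e.2 h))
      exact ⟨b * a⁻¹, M24.mul_mem hb (M24.inv_mem ha), by group⟩

end Cfsg.Agent.S5394
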