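import Mathlib
import Cfsg.Statements.S5396
import Cfsg.Agent.Cl.QuadExtraRep
import Cfsg.Agent.Cl.QuadClassify
import Cfsg.Agent.GT.PGroupGauss
import Cfsg.Agent.GT.PGroupRank
-- import your own Cfsg.Agent.* helpers here

set_option autoImplicit false
open Cfsg

namespace Cfsg.Agent.S5396

theorem sSup_eq {E : Type} [Group E] [Finite E] {r : ℕ} (h1 : PRankLE 2 r E)
    (h2 : PRankAtLeast 2 r E) :
    sSup {k : ℕ | ∃ A : Subgroup E, Cfsg.IsElementaryAbelian 2 A ∧ Nat.card A = 2 ^ k} = r := by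
  have e : {k : ℕ | ∃ A : Subgroup E, Cfsg.IsElementaryAbelian 2 A ∧ Nat.card A = 2 ^ k} =
      {k : ℕ | PRankAtLeast 2 k E} := by
    ext k
    exact GT.PG.pRankAtLeast_iff_exists_card_eq.symm
  rw [e]
  exact GT.PG.pRank_eq_iff.2 ⟨h1, h2⟩


/-- For every n ≥ 1 there exist finite extraspecial 2-groups of order 2^(2n+1) whose 2-rank (the largest rank of an elementary abelian subgroup) is n, and ones whose 2-rank is n + 1 (so for each such order there are two non-isomorphic extraspecial 2-groups, told apart by their 2-rank). -/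
theorem result (n : ℕ) (hn : 1 ≤ n) : ∀ r ∈ ({n, n + 1} : Set ℕ), ∃ (E : Type) (_ : Group E) (_ : Finite E), Cfsg.IsExtraspecial 2 E ∧ Nat.card E = 2 ^ (2 * n + 1) ∧ sSup {k : ℕ | ∃ A : Subgroup E, Cfsg.IsElementaryAbelian 2 A ∧ Nat.card A = 2 ^ k} = r := by
  intro r hr
  rcases hr with rfl | hr
  · obtain ⟨m, rfl⟩ := Nat.exists_eq_add_of_le' hn
    obtain ⟨β, ⟨M⟩⟩ := Cl.quad_exists_group (Cl.quad_minus m (ZMod 2) 1 1)
    have hE := M.isExtraspecial (Cl.quad_minus_nondeg (by decide))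
    have hc : Nat.card (Cl.QuadCoc β) = 2 ^ (2 * (m + 1) + 1) := by
      rw [M.card_eq]
      simp
      ring
    refine ⟨Cl.QuadCoc β, inferInstance, inferInstance, hE, hc, ?_⟩
    rcases GT.PG.extraspecial_two_rank hE hc with h | h
    · exfalso
      obtain ⟨W, hW, hd⟩ := (M.exists_elementary_iff (m + 1)).1
        (GT.PG.pRankAtLeast_iff_exists_card_eq.1 h.2.2)
      have := Cl.quad_minus_singular_le (by decide) hW
      omega
    · exact sSup_eq h.2.1 h.2.2
  · rw [Set.mem_singleton_iff.1 hr]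
    obtain ⟨β, ⟨M⟩⟩ := Cl.quad_exists_group (Cl.quad_plus n (ZMod 2))
    haveI : Nonempty (Fin n) := ⟨⟨0, hn⟩⟩
    have hE := M.isExtraspecial Cl.quad_plus_nondeg
    have hc : Nat.card (Cl.QuadCoc β) = 2 ^ (2 * n + 1) := by
      rw [M.card_eq]
      simp
      ring
    refine ⟨Cl.QuadCoc β, inferInstance, inferInstance, hE, hc, ?_⟩
    rcases GT.PG.extraspecial_two_rank hE hc with h | h
    · exact sSup_eq h.2.1 h.2.2
    · exfalso
      obtain ⟨W, hW, hd⟩ := Cl.quad_plus_exists_singular (F := ZMod 2) n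
      exact GT.PG.not_pRankLE_iff.2 ((M.exists_elementary_iff n).2 ⟨W, hW, hd⟩) h.2.1

end Cfsg.Agent.S5396
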