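import Mathlib
import Cfsg.Statements.S5401
import Cfsg.Agent.Spor.FiInv

set_option autoImplicit false
open Cfsg

namespace Cfsg.Agent.S5401

open Cfsg.Agent.Spor.TT Cfsg.Agent.GT

/-- Existence of the Fischer 3-transposition groups: there exist finite groups generated by a conjugacy class of 3-transpositions on which they act primitively that are of type M(22), of type M(23), and of type M(24) respectively. -/
theorem result : (∃ (X : Type) (_ : Group X) (_ : Finite X) (E : Set X), Cfsg.IsThreeTranspositionClass E ∧ Cfsg.IsPrimitiveUnderConj E ∧ Cfsg.IsOfTypeM22 X E) ∧ (∃ (X : Type) (_ : Group X) (_ : Finite X) (E : Set X), Cfsg.IsThreeTranspositionClass E ∧ Cfsg.IsPrimitiveUnderConj E ∧ Cfsg.IsOfTypeM23 X E) ∧ (∃ (X : Type) (_ : Group X) (_ : Finite X) (E : Set X), Cfsg.IsThreeTranspositionClass E ∧ Cfsg.IsPrimitiveUnderConj E ∧ Cfsg.IsOfTypeM24 X E) := by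
  exact ⟨⟨_, _, inferInstance, E22, fis_E22.cls, fis_E22.primitive,
      g22_E22.tm.isOfType fis_E22.group g22_E22.cen⟩,
    ⟨_, _, inferInstance, E23, fis_E23.cls, fis_E23.primitive,
      g23_E23.tm.isOfType fis_E23.group g23_E23.cen⟩,
    ⟨_, _, inferInstance, E24, fis_E24.cls, fis_E24.primitive,
      g24_E24.tm.isOfType fis_E24.group g24_E24.cen⟩⟩

end Cfsg.Agent.S5401
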