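import Mathlib
import Cfsg.Statements.S5403
import Cfsg.Agent.Spor.CZ.Z5c
import Cfsg.Agent.Spor.MX.J2Gen
import Cfsg.Agent.S0824

set_option autoImplicit false
open Cfsg

namespace Cfsg.Agent.S5403

open Spor Spor.CZ Spor.MX Spor.LC Spor.Leech

theorem nonempty_equiv :
    Nonempty (alternatingGroup (Fin 5) ≃* Omega (ZMod 2) (quadFormMinus 1 (ZMod 2) 1 1)) := by
  obtain ⟨e⟩ := S0824.result (F := ZMod 2) (ZMod.card 2)
  refine ⟨((e.subgroupMap _).trans (MulEquiv.subgroupCongr ?_)).symm⟩
  rw [← alternatingGroup.commutator_perm_eq (by simp)]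
  exact (map_commutator_eq _ e.toMonoidHom).trans (by rw [MonoidHom.range_eq_top.2 e.surjective]; rfl)

/-- A simple section of the automorphism group of the Leech lattice satisfying the Hall–Janko-type hypothesis (the group so obtained is the Hall–Janko group; that identification is not part of this statement): there is a subgroup A of order 5 of that automorphism group such that the centralizer of A modulo the subgroup generated by A and the centre of the automorphism group is a non-abelian simple group satisfying the large extraspecial hypothesis of minus type in dimension 4 — an involution whose centralizer has extraspecial generalized Fitting subgroup of order 32 with quotient the commutator subgroup of the isometry group of the elliptic quadratic form in dimension 4 over the field with two elements (the alternating group of degree 5), the involution not weakly closed in that extraspecial group. -/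
theorem result : ∃ A : Subgroup ↥Cfsg.Co0, Nat.card A = 5 ∧ ∃ (hn : ((A ⊔ Subgroup.center ↥Cfsg.Co0).subgroupOf (Subgroup.centralizer (A : Set ↥Cfsg.Co0))).Normal), ∃ (S : Type) (_ : Group S) (_ : Finite S), Nonempty (S ≃* ↥(Subgroup.centralizer (A : Set ↥Cfsg.Co0)) ⧸ (A ⊔ Subgroup.center ↥Cfsg.Co0).subgroupOf (Subgroup.centralizer (A : Set ↥Cfsg.Co0))) ∧ IsSimpleGroup S ∧ ¬ IsMulCommutative S ∧ ∃ z : S, orderOf z = 2 ∧ ∃ (Q : Subgroup (Subgroup.centralizer ({z} : Set S))) (_ : Q.Normal), Cfsg.generalizedFittingSubgroup (Subgroup.centralizer ({z} : Set S)) = Q ∧ Cfsg.IsExtraspecial 2 Q ∧ Nat.card Q = 2 ^ 5 ∧ Nonempty ((Subgroup.centralizer ({z} : Set S)) ⧸ Q ≃* Cfsg.Omega (ZMod 2) (Cfsg.quadFormMinus 1 (ZMod 2) 1 1)) ∧ ∃ g : S, (∃ hq : g * z * g⁻¹ ∈ Subgroup.centralizer ({z} : Set S), (⟨g * z * g⁻¹, hq⟩ : Subgroup.centralizer ({z} : Set S)) ∈ Q) ∧ g * z * g⁻¹ ≠ z := by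
  obtain ⟨e⟩ := nonempty_equiv
  have := e.symm.isSimpleGroup
  have hc : Nat.card (Omega (ZMod 2) (quadFormMinus 1 (ZMod 2) 1 1)) = 60 := by
    rw [← Nat.card_congr e.toEquiv, nat_card_alternatingGroup]
    simp [Nat.factorial]
  exact sect_main orderOf_ze (by decide) (PresT.of_gen j2m_gen (j2_bnd (wp_rels _)) (by decide +kernel)) j5_ok j5_cen
    j5_z j5_n j5_rel (by decide +kernel) (by rw [MJ2.card_J2]; exact card_C5)
    ((presT_alt (n := 3) (by decide +kernel) (by decide +kernel)).congr e)
    (not_isPGroup_two hc (by norm_num) (by norm_num)) k5_ok k5_cen (by norm_num) k5_t k5_z k5_n k5_es k5_wc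
    (by rw [hc]; exact card_C5T)

end Cfsg.Agent.S5403
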