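import Mathlib
import Cfsg.Statements.S5405
import Cfsg.Agent.Cl.OrthStd
import Cfsg.Agent.Cl.OrthDickson
import Cfsg.Agent.Cl.QuadRefl3
import Cfsg.Agent.Cl.EichClass

set_option autoImplicit false
open scoped MatrixGroups
open Cfsg

namespace Cfsg.Agent.S5405

open Cfsg.Agent.Cl QuadraticMap Module
open scoped commutatorElement

section Gen

variable {V : Type*} [AddCommGroup V] [Module (ZMod 2) V] {Q : QuadraticForm (ZMod 2) V}

theorem self_add (x : V) : x + x = 0 := by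
  rw [← two_smul (ZMod 2), show (2 : ZMod 2) = 0 from rfl, zero_smul]

theorem t_app {a : V} (ha : Q a = 1) (x : V) : (orefl Q a).1 x = x + polar Q x a • a := by
  rw [orefl_app, ha, inv_one, one_mul, sub_eq_add_neg, neg_eq_of_add_eq_zero_left (self_add _)]

theorem polar_self' (a : V) : polar Q a a = 0 := by
  rw [o_polar_self, show (2 : ZMod 2) = 0 from rfl, zero_mul]

/-- The product of the reflections in `a` and `b` lies in `K`. -/
def RR (K : Subgroup (OG Q)) (a b : V) : Prop := orefl Q a * orefl Q b ∈ K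

variable {K : Subgroup (OG Q)} {a b c d : V}

theorem RR.symm (h : RR K a b) : RR K b a := by
  simpa [RR] using inv_mem h

theorem RR.trans (h : RR K a b) (h' : RR K b c) : RR K a c := by
  have := mul_mem h h'
  rwa [mul_assoc, ← mul_assoc (orefl Q b), orefl_mul_self, one_mul] at this

theorem RR.conj (h : RR K a b) {k : OG Q} (hk : k ∈ K) : RR K (k.1 a) (k.1 b) := by
  have := mul_mem (mul_mem hk h) (inv_mem hk)
  rw [RR, ← conj_orefl, ← conj_orefl]
  convert this using 1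
  group

theorem RR.add (h : RR K a b) (ha : Q a = 1) (hab : polar Q b a = 1) : RR K a (b + a) := by
  have h1 : (orefl Q a).1 b = b + a := by rw [t_app ha, hab, one_smul]
  rw [RR, ← h1, ← conj_orefl, ← mul_assoc, ← mul_assoc, orefl_mul_self, one_mul, orefl_inv]
  exact h.symm

theorem RR.merge (h : RR K a b) (h' : RR K c d) (hb : Q b = 1) (hc : Q c = 1) (hd : Q d = 1)
    (hcd : polar Q c d = 1) (hac : polar Q a c = 0) (had : polar Q a d = 0) (hbc : polar Q b c = 0)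
    (hbd : polar Q b d = 1) : RR K b d := by
  have h1 := h.conj h'
  rw [OG.mul_app, OG.mul_app, t_app hd, t_app hd, had, zero_smul, add_zero, t_app hc, t_app hc, hac,
    zero_smul, add_zero, hbd, one_smul, polar_add_left, hbc, polar_comm Q d c, hcd, zero_add,
    one_smul] at h1
  have h2 := (h.symm.trans h1).add hb (by
    rw [polar_add_left, polar_add_left, polar_self', polar_comm Q d, polar_comm Q c, hbd, hbc]; rfl)
  have h3 : b + d + c + b = c + d := by
    linear_combination (norm := module) self_add b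
  rw [h3] at h2
  exact h2.trans (h'.symm.add hd hcd).symm

theorem RR.all {I : Type*} (α : I → V) (ht : V → ℕ) (hα : ∀ i, Q (α i) = 1) (h : ∀ i, RR K a (α i))
    (hs : ∀ v, Q v = 1 → (∃ i, v = α i) ∨ ∃ i, polar Q v (α i) = 1 ∧ ht (v + α i) < ht v) (v : V)
    (hv : Q v = 1) : RR K a v := by
  induction hn : ht v using Nat.strong_induction_on generalizing v with
  | _ n ih =>
    rcases hs v hv with ⟨i, rfl⟩ | ⟨i, h1, h2⟩
    · exact h i
    · have h3 := ih _ (hn ▸ h2) (v + α i) (by rw [o_qadd, hv, hα, h1]; rfl) rfl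
      have h4 := ((h i).symm.trans h3).add (hα i) (by rw [polar_add_left, h1, polar_self', add_zero])
      rw [add_assoc, self_add, add_zero] at h4
      exact (h i).trans h4

theorem mem_comm (ha : Q a = 1) (hb : Q b = 1) (hab : polar Q a b = 1) :
    orefl Q a * orefl Q b ∈ commutator (OG Q) ∧ (orefl Q a * orefl Q b) ^ 3 = 1 := by
  have h3 : (orefl Q a * orefl Q b) ^ 3 = 1 := quad_orefl_cube (by
    rw [t_app ha, t_app hb, polar_comm Q b, hab, one_smul, one_smul, add_comm])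
  refine ⟨?_, h3⟩
  have h1 : orefl Q a * orefl Q b = ⁅orefl Q b, orefl Q a⁆ := by
    rw [pow_three] at h3
    rw [eq_inv_of_mul_eq_one_left h3]
    simp [commutatorElement_def, mul_assoc]
  rw [h1]
  exact Subgroup.commutator_mem_commutator (Subgroup.mem_top _) (Subgroup.mem_top _)

variable [FiniteDimensional (ZMod 2) V]

theorem vanish (hQ : (polarBilin Q).Nondegenerate) (hexc : ¬ OExc Q) {J : Type*} (a b : J → V)
    (ha : ∀ j, Q (a j) = 1) (hb : ∀ j, Q (b j) = 1) (hab : ∀ j, polar Q (a j) (b j) = 1)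
    (hd : ∀ r s : J → ZMod 2, ∃ v, ∀ j, polar Q v (a j) = r j ∧ polar Q v (b j) = s j)
    (a0 : V) (ha0 : Q a0 = 1)
    (hg : ∀ K : Subgroup (OG Q), (∀ j, RR K (a j) (b j)) → ∀ v, Q v = 1 → RR K a0 v)
    (f : commutator (OG Q) → V) (hf : ∀ g h, f (g * h) = f g + g.1.1 (f h)) :
    ∃ v, ∀ g, f g = g.1.1 v - v := by
  have f1 : f 1 = 0 := by simpa using hf 1 1
  have h1 : ∀ j, ∃ r s : ZMod 2, f ⟨_, (mem_comm (ha j) (hb j) (hab j)).1⟩ =
      (r + s) • a j + s • b j := fun j => by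
    set x : commutator (OG Q) := ⟨_, (mem_comm (ha j) (hb j) (hab j)).1⟩ with hx
    have h3 : x * (x * x) = 1 := by
      rw [← pow_three]; exact Subtype.ext (mem_comm (ha j) (hb j) (hab j)).2
    have h4 := hf x (x * x)
    rw [h3, f1, hf x x, map_add] at h4
    have h5 : ∀ y, x.1.1 y = y + (polar Q y (a j) + polar Q y (b j)) • a j + polar Q y (b j) • b j :=
      fun y => by
        rw [hx, OG.mul_app, t_app (hb j), t_app (ha j), polar_add_left, o_polar_smul_left,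
          polar_comm Q (b j), hab j, mul_one]
        abel
    generalize f x = y at h4
    rw [h5, h5] at h4
    simp only [polar_add_left, o_polar_smul_left, polar_self', polar_comm Q (b j), hab j] at h4
    generalize polar Q y (a j) = r at h4
    generalize polar Q y (b j) = s at h4
    refine ⟨r + s, r, ?_⟩
    linear_combination (norm := module) -h4 - self_add y - (3 : ℕ) • self_add ((r + s) • a j)
      - self_add ((r + s + s) • b j)
  choose r s hrs using h1
  obtain ⟨v, hv⟩ := hd r s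
  let K0 : Subgroup (commutator (OG Q)) :=
    { carrier := {g | f g = g.1.1 v - v}
      one_mem' := by simpa using f1
      mul_mem' := fun {x y} hx hy => by
        rw [Set.mem_ofPred_eq] at hx hy ⊢
        rw [hf, hx, hy, map_sub]
        simp
      inv_mem' := fun {x} hx => by
        rw [Set.mem_ofPred_eq] at hx ⊢
        have := hf x⁻¹ x
        rw [inv_mul_cancel, f1, hx, map_sub] at this
        rw [show (x⁻¹).1.1 (x.1.1 v) = v from OG.inv_app_app x.1 v] at this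
        linear_combination (norm := module) -this }
  have h2 := hg (K0.map (commutator (OG Q)).subtype) fun j =>
    ⟨⟨_, (mem_comm (ha j) (hb j) (hab j)).1⟩, by
      change f _ = (orefl Q (a j) * orefl Q (b j)).1 v - v
      rw [hrs, OG.mul_app, t_app (hb j), t_app (ha j), polar_add_left, o_polar_smul_left,
        polar_comm Q (b j), hab j, mul_one, (hv j).1, (hv j).2]
      abel, rfl⟩
  have h3 : ∀ g : OG Q, g ∈ K0.map (commutator (OG Q)).subtype ∨
      orefl Q a0 * g ∈ K0.map (commutator (OG Q)).subtype := by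
    refine o_induction_orefl hQ hexc (Or.inl (one_mem _)) fun w hw g hg => ?_
    have hw1 : Q w = 1 := by revert hw; generalize Q w = c; revert c; decide
    rcases hg with hg | hg
    · right
      rw [← mul_assoc]
      exact mul_mem (h2 w hw1) hg
    · left
      have := mul_mem (h2 w hw1).symm hg
      rwa [mul_assoc, ← mul_assoc (orefl Q a0), orefl_mul_self, one_mul] at this
  refine ⟨v, fun g => ?_⟩
  rcases h3 g with ⟨x, hx, e⟩ | ⟨x, -, e⟩
  · obtain rfl : x = g := Subtype.ext e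
    exact hx
  · have h4 := Abelianization.commutator_subset_ker (dickson hQ) x.2
    have h5 := Abelianization.commutator_subset_ker (dickson hQ) g.2
    rw [MonoidHom.mem_ker] at h4 h5
    rw [show (x : OG Q) = _ from e, map_mul, h5, dickson_orefl hQ (ha0 ▸ one_ne_zero)] at h4
    exact absurd h4 (by decide)

end Gen

theorem transfer {ι : Type} [Fintype ι] [DecidableEq ι] {Q : QuadraticForm (ZMod 2) (ι → ZMod 2)}
    (H : ∀ f : commutator (OG Q) → ι → ZMod 2, (∀ g h, f (g * h) = f g + g.1.1 (f h)) →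
      ∃ v, ∀ g, f g = g.1.1 v - v) (f : ↥(Cfsg.Omega (ZMod 2) ⇑Q) → (ι → ZMod 2))
    (hf : ∀ g h : ↥(Cfsg.Omega (ZMod 2) ⇑Q), f (g * h) = f g + Matrix.mulVec
      (((g : ↥(Cfsg.isometryGroup (ZMod 2) ⇑Q)) : GL ι (ZMod 2)) : Matrix ι ι (ZMod 2)) (f h)) :
    ∃ v : ι → ZMod 2, ∀ g : ↥(Cfsg.Omega (ZMod 2) ⇑Q), f g = Matrix.mulVec
      (((g : ↥(Cfsg.isometryGroup (ZMod 2) ⇑Q)) : GL ι (ZMod 2)) : Matrix ι ι (ZMod 2)) v - v := by
  obtain ⟨v, hv⟩ := H (fun g => f ⟨(omatEquiv Q).symm g.1, (omatEquiv_mem_commutator_iff _).1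
    (by rw [MulEquiv.apply_symm_apply]; exact g.2)⟩) fun g h => by
      rw [← omatEquiv_symm_mulVec, ← hf]
      congr 1
      exact Subtype.ext (map_mul _ _ _)
  refine ⟨v, fun g => ?_⟩
  have := hv ⟨omatEquiv Q g.1, (omatEquiv_mem_commutator_iff _).2 g.2⟩
  simp only [MulEquiv.symm_apply_apply] at this
  exact this

/-- The vector with binary code `n`. -/
def vec {ι : Type} (ix : ι → ℕ) (n : ℕ) : ι → ZMod 2 := fun i => if n.testBit (ix i) then 1 else 0

/-- A height function given by a table. -/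
def htab {ι : Type} [Fintype ι] (ix : ι → ℕ) (l : List ℕ) (v : ι → ZMod 2) : ℕ :=
  l.getD (∑ i, 2 ^ ix i * (v i).val) 0

theorem dual {V : Type*} [AddCommGroup V] [Module (ZMod 2) V] {Q : QuadraticForm (ZMod 2) V}
    {J : Type*} [Fintype J] [DecidableEq J] (a b x y : J → V)
    (h : ∀ i j, polar Q (x i) (a j) = (if i = j then 1 else 0) ∧ polar Q (x i) (b j) = 0 ∧
      polar Q (y i) (a j) = 0 ∧ polar Q (y i) (b j) = (if i = j then 1 else 0)) (r s : J → ZMod 2) :
    ∃ v, ∀ j, polar Q v (a j) = r j ∧ polar Q v (b j) = s j := by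
  refine ⟨∑ i, (r i • x i + s i • y i), fun j => ⟨?_, ?_⟩⟩ <;>
  · rw [← polarBilin_apply_apply, map_sum, LinearMap.sum_apply]
    simp [h]

theorem aniso : ∀ z₁ z₂ : ZMod 2, z₁ ^ 2 + 1 * z₁ * z₂ + 1 * z₂ ^ 2 = 0 → z₁ = 0 ∧ z₂ = 0 := by decide

/-- Coordinates. -/
def ixm (m : ℕ) : (Fin m ⊕ Fin m) ⊕ Fin 2 → ℕ :=
  Sum.elim (Sum.elim (·.val) (m + ·.val)) (2 * m + ·.val)

/-- Coordinates. -/
def ixp (m : ℕ) : Fin m ⊕ Fin m → ℕ := Sum.elim (·.val) (m + ·.val)

theorem case_m1 (f : commutator (OG (quad_minus 1 (ZMod 2) 1 1)) → (Fin 1 ⊕ Fin 1) ⊕ Fin 2 → ZMod 2)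
    (hf : ∀ g h, f (g * h) = f g + g.1.1 (f h)) : ∃ v, ∀ g, f g = g.1.1 v - v := by
  refine vanish (o_minus_nondeg aniso) (EB.not_oExc_minus aniso)
    (fun j : Fin 2 => vec (ixm 1) (![8, 10] j)) (fun j => vec (ixm 1) (![4, 3] j)) ?_ ?_ ?_
    (dual _ _ (fun j => vec (ixm 1) (![7, 3] j)) (fun j => vec (ixm 1) (![8, 2] j)) ?_)
    (vec (ixm 1) 8) ?_ (fun K hK => ?_) f hf
  · simp only [quad_minus_apply]; decide +kernel
  · simp only [quad_minus_apply]; decide +kernel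
  · simp only [o_polar_minus]; decide +kernel
  · simp only [o_polar_minus]; decide +kernel
  · simp only [quad_minus_apply]; decide +kernel
  have p0 : RR K (vec (ixm 1) 8) (vec (ixm 1) 4) := hK 0
  have p1 : RR K (vec (ixm 1) 10) (vec (ixm 1) 3) := hK 1
  have r0 : RR K (vec (ixm 1) 8) (vec (ixm 1) 8) := p0.trans p0.symm
  have r1 := p0
  have r2 := r1.trans (p0.merge p1.symm
    (by simp only [quad_minus_apply]; decide +kernel)    (by simp only [quad_minus_apply]; decide +kernel)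
    (by simp only [quad_minus_apply]; decide +kernel)    (by simp only [o_polar_minus]; decide +kernel)
    (by simp only [o_polar_minus]; decide +kernel)    (by simp only [o_polar_minus]; decide +kernel)
    (by simp only [o_polar_minus]; decide +kernel)    (by simp only [o_polar_minus]; decide +kernel))
  have r3 := r2.trans p1.symm.symm
  refine RR.all (fun j : Fin 4 => vec (ixm 1) (![8, 4, 10, 3] j)) (htab (ixm 1)
    [0, 0, 0, 0, 0, 3, 2, 0, 0, 1, 0, 0, 1, 2, 1, 0]) ?_ (fun i => ?_) ?_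
  · simp only [quad_minus_apply]; decide +kernel
  · fin_cases i
    exacts [r0, r1, r2, r3]
  · simp only [o_polar_minus, quad_minus_apply]; decide +kernel

theorem case_m2 (f : commutator (OG (quad_minus 2 (ZMod 2) 1 1)) → (Fin 2 ⊕ Fin 2) ⊕ Fin 2 → ZMod 2)
    (hf : ∀ g h, f (g * h) = f g + g.1.1 (f h)) : ∃ v, ∀ g, f g = g.1.1 v - v := by
  refine vanish (o_minus_nondeg aniso) (EB.not_oExc_minus aniso)
    (fun j : Fin 3 => vec (ixm 2) (![32, 10, 5] j)) (fun j => vec (ixm 2) (![16, 40, 14] j)) ?_ ?_ ?_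
    (dual _ _ (fun j => vec (ixm 2) (![26, 13, 4] j)) (fun j => vec (ixm 2) (![32, 10, 5] j)) ?_)
    (vec (ixm 2) 32) ?_ (fun K hK => ?_) f hf
  · simp only [quad_minus_apply]; decide +kernel
  · simp only [quad_minus_apply]; decide +kernel
  · simp only [o_polar_minus]; decide +kernel
  · simp only [o_polar_minus]; decide +kernel
  · simp only [quad_minus_apply]; decide +kernel
  have p0 : RR K (vec (ixm 2) 32) (vec (ixm 2) 16) := hK 0
  have p1 : RR K (vec (ixm 2) 10) (vec (ixm 2) 40) := hK 1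
  have p2 : RR K (vec (ixm 2) 5) (vec (ixm 2) 14) := hK 2
  have r0 : RR K (vec (ixm 2) 32) (vec (ixm 2) 32) := p0.trans p0.symm
  have r1 := p0
  have r3 := r1.trans (p0.merge p1
    (by simp only [quad_minus_apply]; decide +kernel)    (by simp only [quad_minus_apply]; decide +kernel)
    (by simp only [quad_minus_apply]; decide +kernel)    (by simp only [o_polar_minus]; decide +kernel)
    (by simp only [o_polar_minus]; decide +kernel)    (by simp only [o_polar_minus]; decide +kernel)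
    (by simp only [o_polar_minus]; decide +kernel)    (by simp only [o_polar_minus]; decide +kernel))
  have r2 := r3.trans p1.symm
  have r5 := r3.trans (p1.merge p2
    (by simp only [quad_minus_apply]; decide +kernel)    (by simp only [quad_minus_apply]; decide +kernel)
    (by simp only [quad_minus_apply]; decide +kernel)    (by simp only [o_polar_minus]; decide +kernel)
    (by simp only [o_polar_minus]; decide +kernel)    (by simp only [o_polar_minus]; decide +kernel)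
    (by simp only [o_polar_minus]; decide +kernel)    (by simp only [o_polar_minus]; decide +kernel))
  have r4 := r5.trans p2.symm
  refine RR.all (fun j : Fin 6 => vec (ixm 2) (![32, 16, 10, 40, 5, 14] j)) (htab (ixm 2)
    [0, 0, 0, 0, 0, 0, 0, 9, 0, 0, 0, 1, 0, 10, 0, 0, 0, 5, 3, 4, 4, 0, 3, 0, 2, 5, 0, 0, 4, 0, 0, 6, 0, 7, 1, 2, 6, 0, 1, 0, 0, 3, 0, 0, 2, 0, 0, 8, 1, 6, 2, 3, 5, 0, 2, 0, 1, 4, 0, 0, 3, 0, 0, 7]) ?_ (fun i => ?_) ?_
  · simp only [quad_minus_apply]; decide +kernel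
  · fin_cases i
    exacts [r0, r1, r2, r3, r4, r5]
  · simp only [o_polar_minus, quad_minus_apply]; decide +kernel

set_option maxRecDepth 8000 in
theorem case_p4 (f : commutator (OG (quad_plus 4 (ZMod 2))) → Fin 4 ⊕ Fin 4 → ZMod 2)
    (hf : ∀ g h, f (g * h) = f g + g.1.1 (f h)) : ∃ v, ∀ g, f g = g.1.1 v - v := by
  refine vanish quad_plus_nondeg (not_oExc_of_finrank (by rw [o_finrank_plus]; decide))
    (fun j : Fin 4 => vec (ixp 4) (![136, 68, 84, 34] j)) (fun j => vec (ixp 4) (![196, 98, 17, 116] j)) ?_ ?_ ?_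
    (dual _ _ (fun j => vec (ixp 4) (![128, 217, 51, 100] j)) (fun j => vec (ixp 4) (![136, 68, 16, 34] j)) ?_)
    (vec (ixp 4) 136) ?_ (fun K hK => ?_) f hf
  · simp only [quad_plus_apply]; decide +kernel
  · simp only [quad_plus_apply]; decide +kernel
  · simp only [o_polar_plus]; decide +kernel
  · simp only [o_polar_plus]; decide +kernel
  · simp only [quad_plus_apply]; decide +kernel
  have p0 : RR K (vec (ixp 4) 136) (vec (ixp 4) 196) := hK 0
  have p1 : RR K (vec (ixp 4) 68) (vec (ixp 4) 98) := hK 1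
  have p2 : RR K (vec (ixp 4) 84) (vec (ixp 4) 17) := hK 2
  have p3 : RR K (vec (ixp 4) 34) (vec (ixp 4) 116) := hK 3
  have r0 : RR K (vec (ixp 4) 136) (vec (ixp 4) 136) := p0.trans p0.symm
  have r1 := p0
  have r3 := r1.trans (p0.merge p1
    (by simp only [quad_plus_apply]; decide +kernel)    (by simp only [quad_plus_apply]; decide +kernel)
    (by simp only [quad_plus_apply]; decide +kernel)    (by simp only [o_polar_plus]; decide +kernel)
    (by simp only [o_polar_plus]; decide +kernel)    (by simp only [o_polar_plus]; decide +kernel)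
    (by simp only [o_polar_plus]; decide +kernel)    (by simp only [o_polar_plus]; decide +kernel))
  have r2 := r3.trans p1.symm
  have r4 := r3.trans (p1.merge p2.symm
    (by simp only [quad_plus_apply]; decide +kernel)    (by simp only [quad_plus_apply]; decide +kernel)
    (by simp only [quad_plus_apply]; decide +kernel)    (by simp only [o_polar_plus]; decide +kernel)
    (by simp only [o_polar_plus]; decide +kernel)    (by simp only [o_polar_plus]; decide +kernel)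
    (by simp only [o_polar_plus]; decide +kernel)    (by simp only [o_polar_plus]; decide +kernel))
  have r5 := r4.trans p2.symm.symm
  have r7 := r5.trans (p2.merge p3
    (by simp only [quad_plus_apply]; decide +kernel)    (by simp only [quad_plus_apply]; decide +kernel)
    (by simp only [quad_plus_apply]; decide +kernel)    (by simp only [o_polar_plus]; decide +kernel)
    (by simp only [o_polar_plus]; decide +kernel)    (by simp only [o_polar_plus]; decide +kernel)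
    (by simp only [o_polar_plus]; decide +kernel)    (by simp only [o_polar_plus]; decide +kernel))
  have r6 := r7.trans p3.symm
  refine RR.all (fun j : Fin 8 => vec (ixp 4) (![136, 196, 68, 98, 84, 17, 34, 116] j)) (htab (ixp 4)
    [0, 0, 0, 0, 0, 0, 0, 0, 0, 0, 0, 0, 0, 0, 0, 0, 0, 0, 0, 3, 0, 23, 0, 4, 0, 7, 0, 8, 0, 20, 0, 5, 0, 0, 0, 25, 0, 0, 1, 2, 0, 0, 11, 18, 0, 0, 2, 5, 0, 2, 26, 0, 0, 5, 1, 0, 0, 7, 17, 0, 0, 6, 4, 0, 0, 0, 0, 0, 0, 1, 27, 2, 0, 0, 0, 0, 1, 6, 16, 9, 0, 22, 0, 3, 0, 0, 1, 0, 0, 21, 0, 6, 5, 0, 10, 0, 0, 0, 0, 3, 28, 1, 0, 0, 0, 0, 3, 4, 15, 8, 0, 0, 0, 4, 2, 0, 0, 0, 0, 24, 0, 7, 3, 0, 9, 0, 0, 19, 0, 0, 0, 0, 0, 0, 0, 0, 0, 7, 15, 10, 13, 16, 12, 11, 0, 6, 0, 7, 0, 21, 0, 4, 6, 0, 11, 0, 15, 0, 12, 0, 0, 0, 10, 19, 0, 0, 1, 4, 14, 9, 0, 0, 13, 12, 0, 0, 0, 6, 18, 0, 0, 5, 3, 0, 10, 0, 0, 18, 13, 0, 0, 9, 0, 0, 0, 0, 0, 5, 17, 8, 14, 15, 13, 10, 0, 0, 0, 0, 0, 22, 0, 5, 4, 0, 9, 0, 14, 0, 11, 0, 0, 8,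 0, 9, 0, 0, 2, 3, 16, 7, 0, 0, 14, 11, 0, 0, 0, 0, 12, 17, 0, 6, 2, 0, 8, 0, 0, 20, 12, 0, 0, 10, 0, 8, 16, 0]) ?_ (fun i => ?_) ?_
  · simp only [quad_plus_apply]; decide +kernel
  · fin_cases i
    exacts [r0, r1, r2, r3, r4, r5, r6, r7]
  · simp only [o_polar_plus, quad_plus_apply]; decide +kernel

/-- Vanishing of first cohomology on the natural module for three small orthogonal groups over the field with two elements: for the commutator subgroup of the isometry group of the elliptic quadratic form in dimension 4, of the elliptic form in dimension 6, and of the hyperbolic form in dimension 8, every crossed homomorphism into the natural module (a map f with f(gh) = f(g) + g·f(h)) is principal (of the form g ↦ g·v − v). -/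
theorem result : (∀ f : ↥(Cfsg.Omega (ZMod 2) (Cfsg.quadFormMinus 1 (ZMod 2) 1 1)) → ((Fin 1 ⊕ Fin 1) ⊕ Fin 2 → ZMod 2), (∀ g h : ↥(Cfsg.Omega (ZMod 2) (Cfsg.quadFormMinus 1 (ZMod 2) 1 1)), f (g * h) = f g + Matrix.mulVec (((g : ↥(Cfsg.isometryGroup (ZMod 2) (Cfsg.quadFormMinus 1 (ZMod 2) 1 1))) : GL ((Fin 1 ⊕ Fin 1) ⊕ Fin 2) (ZMod 2)) : Matrix ((Fin 1 ⊕ Fin 1) ⊕ Fin 2) ((Fin 1 ⊕ Fin 1) ⊕ Fin 2) (ZMod 2)) (f h)) → ∃ v : (Fin 1 ⊕ Fin 1) ⊕ Fin 2 → ZMod 2, ∀ g : ↥(Cfsg.Omega (ZMod 2) (Cfsg.quadFormMinus 1 (ZMod 2) 1 1)), f g = Matrix.mulVec (((g : ↥(Cfsg.isometryGroup (ZMod 2) (Cfsg.quadFormMinus 1 (ZMod 2) 1 1))) : GL ((Fin 1 ⊕ Fin 1) ⊕ Fin 2) (ZMod 2)) : Matrix ((Fin 1 ⊕ Fin 1) ⊕ Fin 2) ((Fin 1 ⊕ Fin 1) ⊕ Fin 2) (ZMod 2)) v - v) ∧ (∀ f : ↥(Cfsg.Omega (ZMod 2) (Cfsg.quadFormMinus 2 (ZMod 2) 1 1)) → ((Fin 2 ⊕ Fin 2) ⊕ Fin 2 → ZMod 2), (∀ g h : ↥(Cfsg.Omega (ZMod 2) (Cfsg.quadFormMinus 2 (ZMod 2) 1 1)), f (g * h) = f g + Matrix.mulVec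 (((g : ↥(Cfsg.isometryGroup (ZMod 2) (Cfsg.quadFormMinus 2 (ZMod 2) 1 1))) : GL ((Fin 2 ⊕ Fin 2) ⊕ Fin 2) (ZMod 2)) : Matrix ((Fin 2 ⊕ Fin 2) ⊕ Fin 2) ((Fin 2 ⊕ Fin 2) ⊕ Fin 2) (ZMod 2)) (f h)) → ∃ v : (Fin 2 ⊕ Fin 2) ⊕ Fin 2 → ZMod 2, ∀ g : ↥(Cfsg.Omega (ZMod 2) (Cfsg.quadFormMinus 2 (ZMod 2) 1 1)), f g = Matrix.mulVec (((g : ↥(Cfsg.isometryGroup (ZMod 2) (Cfsg.quadFormMinus 2 (ZMod 2) 1 1))) : GL ((Fin 2 ⊕ Fin 2) ⊕ Fin 2) (ZMod 2)) : Matrix ((Fin 2 ⊕ Fin 2) ⊕ Fin 2) ((Fin 2 ⊕ Fin 2) ⊕ Fin 2) (ZMod 2)) v - v) ∧ (∀ f : ↥(Cfsg.Omega (ZMod 2) (Cfsg.quadFormPlus 4 (ZMod 2))) → (Fin 4 ⊕ Fin 4 → ZMod 2), (∀ g h : ↥(Cfsg.Omega (ZMod 2) (Cfsg.quadFormPlus 4 (ZMod 2))), f (g * h) = f g + Matrix.mulVec (((g : ↥(Cfsg.isometryGroup (ZMod 2) (Cfsg.quadFormPlus 4 (ZMod 2)))) : GL (Fin 4 ⊕ Fin 4) (ZMod 2)) : Matrix (Fin 4 ⊕ Fin 4) (Fin 4 ⊕ Fin 4) (ZMod 2)) (f h)) → ∃ v : Fin 4 ⊕ Fin 4 → ZMod 2, ∀ g : ↥(Cfsg.Omega (ZMod 2) (Cfsg.quadFormPlus 4 (ZMod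 2))), f g = Matrix.mulVec (((g : ↥(Cfsg.isometryGroup (ZMod 2) (Cfsg.quadFormPlus 4 (ZMod 2)))) : GL (Fin 4 ⊕ Fin 4) (ZMod 2)) : Matrix (Fin 4 ⊕ Fin 4) (Fin 4 ⊕ Fin 4) (ZMod 2)) v - v) := by
  exact ⟨transfer case_m1, transfer case_m2, transfer case_p4⟩

end Cfsg.Agent.S5405
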