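import Mathlib
import Cfsg.Statements.S5408
import Cfsg.Agent.Spor.MTPair

set_option autoImplicit false
open Cfsg

namespace Cfsg.Agent.S5408

open Cfsg.Agent.Spor Cfsg.Agent.Spor.MT Cfsg.Agent.Spor.Leech Subgroup

/-- Let G be a finite group of Monster type at the involution z with Q the extraspecial normal subgroup of order 2^25 of C = C_G(z) (so C/Q is identified with the first Conway group with Q modulo its centre the Leech lattice modulo 2, and z is not weakly closed in Q). Then Q is of plus type: it contains an elementary abelian subgroup of order 2^13. -/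
theorem result {G : Type*} [Group G] [Finite G] (z : G) (Q : Subgroup (Subgroup.centralizer ({z} : Set G))) [Q.Normal] (hM : Cfsg.IsOfMonsterType z Q) : ∃ E : Subgroup Q, Cfsg.IsElementaryAbelian 2 E ∧ Nat.card E = 2 ^ 13 := by
  obtain ⟨hS, e, ψ, hψ⟩ := hM
  obtain ⟨r, h, -⟩ := exists_mdata hS hψ
  obtain ⟨g, hs, hne⟩ := setting_nwc hS
  have hp := h.pair hs hne
  let ι : Q →* G := (centralizer ({z} : Set G)).subtype.comp Q.subtype
  have hι : Function.Injective ι := Subtype.val_injective.comp Subtype.val_injective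
  have hm : ∀ x : Q, ι x ∈ Q.map (centralizer ({z} : Set G)).subtype := fun x => ⟨x, x.2, rfl⟩
  refine ⟨((Q.map (centralizer ({z} : Set G)).subtype).map (MulAut.conj g).toMonoidHom).comap ι,
    ⟨⟨⟨fun a b => Subtype.ext (hι ?_)⟩⟩, fun a ha => hι ?_⟩, ?_⟩
  · rw [coe_mul, coe_mul, map_mul, map_mul]
    exact hp.E_comm ⟨hm _, a.2⟩ ⟨hm _, b.2⟩
  · rw [pow_two, map_mul, map_one]
    exact hp.E_sq ⟨hm _, ha⟩
  · rw [← card_map_of_injective hι, map_comap_eq, ← h.card_E hp]
    have : ι.range = Q.map (centralizer ({z} : Set G)).subtype := by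
      ext x
      constructor
      · rintro ⟨y, rfl⟩; exact hm y
      · rintro ⟨y, hy, rfl⟩; exact ⟨⟨y, hy⟩, rfl⟩
    rw [this]

end Cfsg.Agent.S5408
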