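import Mathlib
import Cfsg.Statements.S5414
import Cfsg.Agent.Spor.MTCA
import Cfsg.Agent.Spor.MTCB

set_option autoImplicit false
open Cfsg

namespace Cfsg.Agent.S5414

open Cfsg.Agent.Spor Cfsg.Agent.Spor.MT Cfsg.Agent.Spor.Leech Subgroup

/-- Let G be a finite group of Monster type at the involution z with Q the extraspecial normal subgroup of order 2^25 of C = C_G(z) (so C/Q is identified with the first Conway group with Q modulo its centre the Leech lattice modulo 2, and z is not weakly closed in Q). Let s be a conjugate of z in Q other than z and let Y be a subgroup of order 3 of the joint centralizer L of z and s that is not 3-central in L (Y lies in the centre of no Sylow 3-subgroup of L). Then the centralizer of Y modulo Y is a group of Thompson type (an involution whose centralizer D has generalized Fitting subgroup R extraspecial of order 2^9 with D/R the alternating group of degree 9, the involution not weakly closed in R). -/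
theorem result {G : Type*} [Group G] [Finite G] (z : G) (Q : Subgroup (Subgroup.centralizer ({z} : Set G))) [Q.Normal] (hM : Cfsg.IsOfMonsterType z Q) (s : G) (hsQ : ∃ hsc : s ∈ Subgroup.centralizer ({z} : Set G), (⟨s, hsc⟩ : Subgroup.centralizer ({z} : Set G)) ∈ Q) (hs : IsConj z s) (hs1 : s ≠ z) (Y : Subgroup G) (hY : Y ≤ Subgroup.centralizer ({z, s} : Set G)) (hY3 : Nat.card Y = 3) (hnc : ∀ P : Sylow 3 ↥(Subgroup.centralizer ({z, s} : Set G)), ¬ Y.subgroupOf (Subgroup.centralizer ({z, s} : Set G)) ≤ (Subgroup.center ↥(P : Subgroup ↥(Subgroup.centralizer ({z, s} : Set G)))).map (P : Subgroup ↥(Subgroup.centralizer ({z, s} : Set G))).subtype) [hn : (Y.subgroupOf (Subgroup.centralizer (Y : Set G))).Normal] : Cfsg.IsOfThompsonType (↥(Subgroup.centralizer (Y : Set G)) ⧸ Y.subgroupOf (Subgroup.centralizer (Y : Set G))) := by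
  obtain ⟨Q', R, π, r, h, hp⟩ := exists_pair hM hsQ hs hs1
  obtain ⟨σ, hσ, π', r', h', hs', b, hb, hbs, hbo, hβ⟩ := h.exists_std hp hY (by norm_num) (by norm_num)
    hY3 (P := fun σ => σ = sA ∨ σ = sB) fun τ hτ => by
      rcases MB.three_classes τ.2 (by rw [orderOf_coe, hτ]) with ⟨k, hk, e⟩ | ⟨k, hk, e⟩
      · refine ⟨_, Or.inl rfl, orderOf_sA, ⟨k, hk⟩⁻¹, 1, Subtype.ext ?_⟩
        change MB.tA ^ (1 : ℤ) = k⁻¹ * τ * k⁻¹⁻¹
        rw [← e]; group
      · refine ⟨_, Or.inr rfl, orderOf_sB, ⟨k, hk⟩⁻¹, 1, Subtype.ext ?_⟩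
        change MB.tB ^ (1 : ℤ) = k⁻¹ * τ * k⁻¹⁻¹
        rw [← e]; group
  rcases hσ with rfl | rfl
  · obtain ⟨P, hP⟩ := (h'.three_central_iff hp hs' hbs hbo (by rw [cA_ord]; decide) hβ).2
      (by rw [cdataA.1]; norm_num)
    exact absurd (hb ▸ hP) (hnc P)
  obtain ⟨φ, hφ⟩ := cdataB.2
  obtain ⟨z', Q'', hn', ρ, a1, a2, a3, -⟩ := h'.odd_setting hp hbs (by rw [hbo]; decide) hβ hφ hb _
    (QuotientGroup.mk'_surjective _) ker_mk_subgroupOf
  exact ⟨z', Q'', hn', a1, nonempty_quot_equiv a2 a3⟩

end Cfsg.Agent.S5414
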