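import Mathlib
import Cfsg.Statements.S5420
import Cfsg.Agent.Spor.ESLarge

set_option autoImplicit false
open Cfsg

namespace Cfsg.Agent.S5420

open Cfsg.Agent.Spor Subgroup

/-- Let Q be an extraspecial 2-subgroup of the finite group G whose centralizer in G is its centre Z and which is normal in the centralizer of Z. If Z lies in the largest normal 2-subgroup of G, then Q is a large extraspecial 2-subgroup of G: it normalizes no non-trivial subgroup of G of odd order. -/
theorem result {G : Type*} [Group G] [Finite G] (Q : Subgroup G) (hL1 : Cfsg.IsExtraspecial 2 ↥Q) (hL2 : Subgroup.centralizer (Q : Set G) = ((Subgroup.center ↥Q).map Q.subtype)) (hL3 : Subgroup.centralizer (((Subgroup.center ↥Q).map Q.subtype) : Set G) ≤ Subgroup.normalizer (Q : Set G)) (hZ : ((Subgroup.center ↥Q).map Q.subtype) ≤ Cfsg.pCore 2 G) : Cfsg.IsLargeExtraspecial Q := by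
  obtain ⟨z, h⟩ := exists_ES2 hL1
  have hl := h.lg' hL2 hL3
  refine h.isLarge hl fun K hK hn => hl.eq_bot_of_comm hK hn fun k hk => ?_
  have hz : z ∈ pCore 2 G := hZ (h.mem_center_map.2 (Or.inr rfl))
  have h1 : k * z * k⁻¹ * z⁻¹ ∈ pCore 2 G :=
    Subgroup.mul_mem _ ((inferInstance : (pCore 2 G).Normal).conj_mem z hz k) (Subgroup.inv_mem _ hz)
  have h2 : k * z * k⁻¹ * z⁻¹ ∈ K := by
    have := K.mul_mem hk (hn z h.z_mem _ (K.inv_mem hk))
    convert this using 1; group
  have h3 := eq_one_of_odd_of_isPGroup hK (GT.isPGroup_pCore 2) h2 h1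
  calc z * k = (k * z * k⁻¹ * z⁻¹) * z * k := by rw [h3, one_mul]
    _ = _ := by group

end Cfsg.Agent.S5420
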