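import Mathlib
import Cfsg.Statements.S5421
import Cfsg.Agent.Spor.ESLarge

set_option autoImplicit false
open Cfsg

namespace Cfsg.Agent.S5421

open Cfsg.Agent.Spor Subgroup

/-- Let Q be an extraspecial 2-subgroup of the finite group G whose centralizer in G is its centre Z and which is normal in the centralizer of Z. If some involution b of Q outside Z has Z inside the largest normal 2-subgroup of the centralizer of b, then Q is a large extraspecial 2-subgroup of G. -/
theorem result {G : Type*} [Group G] [Finite G] (Q : Subgroup G) (hL1 : Cfsg.IsExtraspecial 2 ↥Q) (hL2 : Subgroup.centralizer (Q : Set G) = ((Subgroup.center ↥Q).map Q.subtype)) (hL3 : Subgroup.centralizer (((Subgroup.center ↥Q).map Q.subtype) : Set G) ≤ Subgroup.normalizer (Q : Set G)) (b : G) (hbQ : b ∈ Q) (hbZ : b ∉ ((Subgroup.center ↥Q).map Q.subtype)) (hb : orderOf b = 2) (hZ : ((Subgroup.center ↥Q).map Q.subtype) ≤ (Cfsg.pCore 2 ↥(Subgroup.centralizer ({b} : Set G))).map (Subgroup.centralizer ({b} : Set G)).subtype) : Cfsg.IsLargeExtraspecial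 Q := by
  obtain ⟨z, h⟩ := exists_ES2 hL1
  have hl := h.lg' hL2 hL3
  rw [h.mem_center_map] at hbZ
  push Not at hbZ
  exact h.isLarge hl fun K hK hn => hl.eq_bot_of_invol hbQ (orderOf_eq_two_iff'.1 hb).2 hbZ.1 hbZ.2
    (hZ (h.mem_center_map.2 (Or.inr rfl))) hK hn

end Cfsg.Agent.S5421
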