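import Mathlib
import Cfsg.Statements.S5422
import Cfsg.Agent.Spor.ESPair

set_option autoImplicit false
open Cfsg

namespace Cfsg.Agent.S5422

open Cfsg.Agent.Spor Subgroup

/-- Let Q be an extraspecial 2-subgroup of the finite group G whose centralizer in G is its centre Z and which is normal in the centralizer of Z; suppose Q has width at least 2 (order 2^(2w+1) with w ≥ 2) and g is an element of G not normalizing Z with g Z g⁻¹ inside Q. Then Z lies inside g Q g⁻¹; writing V for the subgroup generated by Z and g Z g⁻¹ (a four-group), the normalizer of V induces on V its full automorphism group, that is, the centralizer of V has index 6 in the normalizer of V; and Q is a large extraspecial 2-subgroup of G. -/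
theorem result {G : Type*} [Group G] [Finite G] (Q : Subgroup G) (hL1 : Cfsg.IsExtraspecial 2 ↥Q) (hL2 : Subgroup.centralizer (Q : Set G) = ((Subgroup.center ↥Q).map Q.subtype)) (hL3 : Subgroup.centralizer (((Subgroup.center ↥Q).map Q.subtype) : Set G) ≤ Subgroup.normalizer (Q : Set G)) (w : ℕ) (hw : 2 ≤ w) (hcard : Nat.card ↥Q = 2 ^ (2 * w + 1)) (g : G) (hg : g ∉ Subgroup.normalizer (((Subgroup.center ↥Q).map Q.subtype) : Set G)) (hZg : (((Subgroup.center ↥Q).map Q.subtype)).map (MulAut.conj g).toMonoidHom ≤ Q) : ((Subgroup.center ↥Q).map Q.subtype) ≤ (Q).map (MulAut.conj g).toMonoidHom ∧ (Subgroup.centralizer ((((Subgroup.center ↥Q).map Q.subtype) ⊔ (((Subgroup.center ↥Q).map Q.subtype)).map (MulAut.conj g).toMonoidHom : Subgroup G) : Set G)).relIndex (Subgroup.normalizer ((((Subgroup.center ↥Q).map Q.subtype) ⊔ (((Subgroup.center ↥Q).map Q.subtype)).map (MulAut.conj g).toMonoidHom : Subgroup G) : Set G)) = 6 ∧ Cfsg.IsLargeExtraspecial Q := by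
  obtain ⟨z, h⟩ := exists_ES2 hL1
  have hl := h.lg' hL2 hL3
  have h8 : 8 < Nat.card Q := by
    rw [hcard]
    calc 8 < 2 ^ 5 := by norm_num
      _ ≤ _ := Nat.pow_le_pow_right (by norm_num) (by omega)
  rw [h.center_map] at hg hZg ⊢
  have hmap : (zpowers z).map (MulAut.conj g).toMonoidHom = zpowers (g * z * g⁻¹) := by
    rw [MonoidHom.map_zpowers]; rfl
  rw [hmap] at hZg ⊢
  have hs : g * z * g⁻¹ ∈ Q := hZg (mem_zpowers _)
  have hne : g * z * g⁻¹ ≠ z := by
    intro e
    apply hg
    refine mem_normalizer_fintype fun x hx => ?_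
    rcases (mem_zpowers_iff_of_sq h.z_sq).1 hx with rfl | rfl
    · simp
    · rw [e]; exact mem_zpowers _
  have hp := ESPair.of_width h hl h8 hs hne
  have hV : zpowers z ⊔ zpowers (g * z * g⁻¹) = closure ({z, g * z * g⁻¹} : Set G) := by
    rw [zpowers_eq_closure, zpowers_eq_closure, ← Subgroup.closure_union]; rfl
  refine ⟨(zpowers_le).2 hp.z_mem, ?_, ?_⟩
  · rw [hV]
    obtain ⟨φ, -, hker, hsurj, -⟩ := hp.exists_phi
    have h1 : (centralizer ((closure ({z, g * z * g⁻¹} : Set G) : Subgroup G) : Set G)).subgroupOf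
        (normalizer ((closure ({z, g * z * g⁻¹} : Set G) : Subgroup G) : Set G)) = φ.ker := by
      ext x; rw [MonoidHom.mem_ker, hker, mem_subgroupOf]
    rw [relIndex, h1, index_ker, MonoidHom.range_eq_top.2 (fun σ => (hsurj σ).imp fun _ h => h.1)]
    simp [Fintype.card_perm, Nat.factorial]
  · exact h.isLarge hl fun K hK hn => hl.eq_bot_of_invol hs hp.esR.z_sq hp.esR.z_ne hne
      (hp.lgR.le_pCoreOf hp.z_mem) hK hn

end Cfsg.Agent.S5422
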