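import Mathlib
import Cfsg.Statements.S5423
import Cfsg.Agent.Cl.LinearParabCore
import Cfsg.Agent.Cl.LinearTransv
import Cfsg.Agent.GT.PGroupElemAb

set_option autoImplicit false
open Cfsg

namespace Cfsg.Agent.S5423

section Aux

open Matrix Cfsg.Agent.Cl

variable {G : Type*} [Group G] {κ : Type} [Fintype κ] [DecidableEq κ]

theorem exists_coord [Finite G] {m : ℕ} (hc : IsMulCommutative G) (he : ∀ x : G, x ^ 2 = 1)
    (hn : Nat.card G = 2 ^ m) {z : G} (hz : z ≠ 1) (i : Fin m) :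
    ∃ v : G ≃ (Fin m → ZMod 2), (∀ x y, v (x * y) = v x + v y) ∧ v z = Pi.single i 1 := by
  obtain ⟨e⟩ := GT.PG.nonempty_mulEquiv_pi_zmod hc he hn
  have ha : Multiplicative.toAdd (e z) ≠ 0 := by simpa using hz
  obtain ⟨g, hg⟩ := exists_gl_mulVec_single ha i
  refine ⟨(e.toEquiv.trans Multiplicative.toAdd).trans
    (Matrix.GeneralLinearGroup.toLin g⁻¹).toLinearEquiv.toEquiv, fun x y => by simp [mulVec_add], ?_⟩
  change ((g⁻¹ : GL _ _) : Matrix (Fin m) (Fin m) (ZMod 2)) *ᵥ Multiplicative.toAdd (e z) = _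
  rw [← hg, gl_inv_mulVec_mulVec]

theorem exists_matrix (f : (κ → ZMod 2) → κ → ZMod 2) (hf : ∀ x y, f (x + y) = f x + f y) :
    ∃ A : Matrix κ κ (ZMod 2), ∀ x, A *ᵥ x = f x :=
  ⟨LinearMap.toMatrix' ((AddMonoidHom.mk' f hf).toZModLinearMap 2), fun x => by
    rw [← toLin'_apply, Matrix.toLin'_toMatrix']; rfl⟩

theorem exists_emb (U M : Subgroup G) [U.Normal] (hU : IsMulCommutative U) (hUM : U ⊓ M = ⊥)
    (hUM' : U ⊔ M = ⊤) (hfaith : ∀ m ∈ M, (∀ u ∈ U, m * u * m⁻¹ = u) → m = 1)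
    (hfull : ∀ φ : U ≃* U, ∃ m ∈ M, ∀ u : U, ((φ u : U) : G) = m * u * m⁻¹)
    (v : U ≃ (κ → ZMod 2)) (hv : ∀ x y, v (x * y) = v x + v y) :
    ∃ f : G →* GL (κ ⊕ Unit) (ZMod 2), Function.Injective f ∧
      (∀ u : U, (f u : Matrix (κ ⊕ Unit) (κ ⊕ Unit) (ZMod 2)) =
        fromBlocks 1 (replicateCol Unit (v u)) 0 1) ∧
      ∀ p : GL (κ ⊕ Unit) (ZMod 2), (∀ k, (p : Matrix (κ ⊕ Unit) (κ ⊕ Unit) (ZMod 2))
        (Sum.inr ()) (Sum.inl k) = 0) → p ∈ f.range := by
  have hv1 : v 1 = 0 := by simpa using hv 1 1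
  have hvs : ∀ x y, v.symm (x + y) = v.symm x * v.symm y := fun x y => v.injective (by simp [hv])
  have hA : ∀ g : G, ∃ A : Matrix κ κ (ZMod 2), ∀ u : U, A *ᵥ v u = v (MulAut.conjNormal g u) :=
    fun g => by
      obtain ⟨A, hA⟩ := exists_matrix (fun x => v (MulAut.conjNormal g (v.symm x)))
        fun x y => by rw [hvs, map_mul, hv]
      exact ⟨A, fun u => by rw [hA, v.symm_apply_apply]⟩
  choose A hA using hA
  have hext : ∀ B C : Matrix κ κ (ZMod 2), (∀ u, B *ᵥ v u = C *ᵥ v u) → B = C := fun B C h =>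
    Matrix.ext_iff_mulVec.2 fun x => by simpa using h (v.symm x)
  have hτ : ∀ g : G, ∃ u : U, (u : G)⁻¹ * g ∈ M := fun g => by
    have : g ∈ ((U ⊔ M : Subgroup G) : Set G) := by rw [hUM']; trivial
    rw [Subgroup.normal_mul] at this
    obtain ⟨u, hu, m, hm, rfl⟩ := this
    exact ⟨⟨u, hu⟩, by simpa using hm⟩
  choose τ hτ using hτ
  have huniq : ∀ (g : G) (u : U), (u : G)⁻¹ * g ∈ M → τ g = u := fun g u h => by
    have h1 : ((τ g : G))⁻¹ * u ∈ U ⊓ M :=
      ⟨U.mul_mem (U.inv_mem (τ g).2) u.2, by simpa [mul_assoc] using mul_mem (hτ g) (inv_mem h)⟩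
    rw [hUM, Subgroup.mem_bot, inv_mul_eq_one] at h1
    exact Subtype.ext h1
  have hcU : ∀ u w : U, MulAut.conjNormal (u : G) w = w := fun u w => Subtype.ext (by
    rw [MulAut.conjNormal_apply, ← Subgroup.coe_mul, mul_comm' u w]; simp)
  have hAU : ∀ u : U, A u = 1 := fun u => hext _ _ fun w => by rw [hA, hcU, one_mulVec]
  have hAm : ∀ g h, A (g * h) = A g * A h := fun g h => hext _ _ fun u => by
    rw [← mulVec_mulVec, hA, hA, hA, map_mul, MulAut.mul_apply]
  have hτm : ∀ g h, τ (g * h) = τ g * MulAut.conjNormal g (τ h) := fun g h => huniq _ _ (by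
    have h1 := congrArg Subtype.val (mul_comm' (τ g) (MulAut.conjNormal g (τ h)))
    have h2 := mul_mem (hτ g) (hτ h)
    rw [h1]
    simpa [mul_assoc] using h2)
  let f₀ : G →* Matrix (κ ⊕ Unit) (κ ⊕ Unit) (ZMod 2) :=
    { toFun := fun g => fromBlocks (A g) (replicateCol Unit (v (τ g))) 0 1
      map_one' := by
        rw [huniq 1 1 (by simp), hv1, show A 1 = 1 from hAU 1, replicateCol_zero, fromBlocks_one]
      map_mul' := fun g h => by
        rw [fromBlocks_multiply, hAm, hτm, hv, ← hA, add_comm]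
        simp [replicateCol_add, replicateCol_mulVec] }
  have hf : ∀ g, (f₀.toHomUnits g : Matrix (κ ⊕ Unit) (κ ⊕ Unit) (ZMod 2)) =
      fromBlocks (A g) (replicateCol Unit (v (τ g))) 0 1 := fun g => rfl
  refine ⟨f₀.toHomUnits, (injective_iff_map_eq_one _).2 fun g hg => ?_, fun u => ?_, fun p hp => ?_⟩
  · have h := hf g
    rw [hg, Units.val_one, ← fromBlocks_one, fromBlocks_inj] at h
    have h1 : τ g = 1 := v.injective (by
      rw [hv1]; ext k; exact (congrFun (congrFun h.2.1 k) ()).symm)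
    refine hfaith g (by simpa [h1] using hτ g) fun u hu => ?_
    have := hA g ⟨u, hu⟩
    rw [← h.1, one_mulVec] at this
    exact (congrArg Subtype.val (v.injective this)).symm
  · rw [hf, hAU, huniq u u (by simp)]
  · have h21 : (p : Matrix (κ ⊕ Unit) (κ ⊕ Unit) (ZMod 2)).toBlocks₂₁ = 0 := by
      ext i k; exact hp k
    have h22 : (p : Matrix (κ ⊕ Unit) (κ ⊕ Unit) (ZMod 2)).toBlocks₂₂ = 1 := by
      ext i k
      exact eq_one_of_card_two (by simp) (gl_diag_ne_zero_of_row (g := p) (i := Sum.inr ()) (by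
        rintro (k | k) hk
        exacts [hp k, (hk rfl).elim]))
    have hp' := (fromBlocks_toBlocks (p : Matrix (κ ⊕ Unit) (κ ⊕ Unit) (ZMod 2))).symm
    rw [h21, h22] at hp'
    have hdet : (p : Matrix (κ ⊕ Unit) (κ ⊕ Unit) (ZMod 2)).toBlocks₁₁.det ≠ 0 := by
      have := p.det_ne_zero
      rwa [hp', det_fromBlocks_zero₂₁, det_one, mul_one] at this
    let e := (Matrix.GeneralLinearGroup.toLin
      (Matrix.GeneralLinearGroup.mkOfDetNeZero _ hdet)).toLinearEquiv
    obtain ⟨m, hm, hφ⟩ := hfull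
      { (v.trans e.toEquiv).trans v.symm with
        map_mul' := fun x y => by simp [hv, hvs] }
    let u := v.symm fun k => (p : Matrix (κ ⊕ Unit) (κ ⊕ Unit) (ZMod 2)) (Sum.inl k) (Sum.inr ())
    refine ⟨u * m, Units.ext ?_⟩
    rw [hf, hp', huniq _ u (by simpa using hm), hAm, hAU, one_mul]
    congr 1
    · refine hext _ _ fun w => ?_
      rw [hA, show MulAut.conjNormal m w = v.symm (e (v w)) from Subtype.ext (hφ w).symm,
        v.apply_symm_apply]
      rfl
    · ext k l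
      simp [u, toBlocks₁₂]

end Aux

/-- Let G be a finite group that is the split extension of an elementary abelian normal subgroup U of order 2^(n+1), n ≥ 1, by its full automorphism group: U has a complement M in G whose conjugation action on U is faithful and realizes every automorphism of U. Let Z be a subgroup of U of order 2 and Q the largest normal 2-subgroup of the centralizer C of Z. Then Q is extraspecial of order 2^(2n+1) with an elementary abelian subgroup of order 2^(n+1) (plus type), Q is a large extraspecial 2-subgroup of G, and C is the split extension of Q by the general linear group of degree n over the field with two elements. -/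
theorem result {G : Type*} [Group G] [Finite G] (n : ℕ) (hn : 1 ≤ n) (U M : Subgroup G) [U.Normal] (hU : Cfsg.IsElementaryAbelian 2 U) (hUcard : Nat.card ↥U = 2 ^ (n + 1)) (hUM : U ⊓ M = ⊥) (hUM' : U ⊔ M = ⊤) (hfaith : ∀ m ∈ M, (∀ u ∈ U, m * u * m⁻¹ = u) → m = 1) (hfull : ∀ φ : ↥U ≃* ↥U, ∃ m ∈ M, ∀ u : ↥U, ((φ u : ↥U) : G) = m * u * m⁻¹) (Z : Subgroup G) (hZU : Z ≤ U) (hZ : Nat.card ↥Z = 2) (Q : Subgroup G) (hQ : Q = (Cfsg.pCore 2 ↥(Subgroup.centralizer (Z : Set G))).map (Subgroup.centralizer (Z : Set G)).subtype) : Cfsg.IsExtraspecial 2 ↥Q ∧ Nat.card ↥Q = 2 ^ (2 * n + 1) ∧ (∃ E : Subgroup G, E ≤ Q ∧ Cfsg.IsElementaryAbelian 2 E ∧ Nat.card ↥E = 2 ^ (n + 1)) ∧ Cfsg.IsLargeExtraspecial Q ∧ ∃ K : Subgroup G, K ≤ Subgroup.centralizer (Z : Set G) ∧ Q ⊓ K = ⊥ ∧ Q ⊔ K = Subgroup.centralizer (Z : Set G) ∧ Nonempty (↥K ≃* Matrix.GeneralLinearGroup (Fin n) (ZMod 2)) := by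
  obtain ⟨z, hz, hz'⟩ := (Nat.card_eq_two_iff' (1 : Z)).1 hZ
  have hC : Subgroup.centralizer (Z : Set G) = Subgroup.centralizer {(z : G)} := by
    ext g
    rw [Subgroup.mem_centralizer_singleton_iff, Subgroup.mem_centralizer_iff]
    refine ⟨fun h => (h z z.2).symm, fun h x hx => ?_⟩
    by_cases h1 : (⟨x, hx⟩ : Z) = 1
    · rw [show x = 1 from congrArg Subtype.val h1, one_mul, mul_one]
    · rw [show x = z from congrArg Subtype.val (hz' _ h1), h]
  obtain ⟨v, hv, hvz⟩ := exists_coord hU.1 (fun x => Subtype.ext (hU.2 x x.2)) hUcard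
    (z := ⟨z, hZU z.2⟩) (fun h => hz (Subtype.ext (by simpa using h))) 0
  obtain ⟨f, hf, h1, h2⟩ := exists_emb U M hU.1 hUM hUM' hfaith hfull v hv
  have hF : Nat.card (ZMod 2) = 2 := by simp
  have hij : (Sum.inl 0 : Fin (n + 1) ⊕ Unit) ≠ Sum.inr () := by simp
  have hfz : f z = Cl.tGL hij 1 := Units.ext (by
    rw [h1 ⟨z, hZU z.2⟩, hvz, Cl.coe_tGL]
    ext (k | k) (l | l) <;> simp [Matrix.one_apply, Matrix.single_apply, Pi.single_apply, eq_comm])
  have h := Cl.tpack_tGL hF (n := n) (by simp) hn hij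
  rw [← hfz, ← Cl.map_centralizer_singleton_of_le_range f hf (fun p hp => h2 p fun k => by
    rw [hfz, Cl.centralizer_tGL hF] at hp
    exact Cl.mem_parab.1 hp _ _ (by simp [Cl.tlab_lt_iff hij])), ← hC] at h
  subst hQ
  exact h.of_injective f hf

end Cfsg.Agent.S5423
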