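import Mathlib
import Cfsg.Statements.S5427
import Cfsg.Agent.Spor.ESStruct

set_option autoImplicit false
open Cfsg

namespace Cfsg.Agent.S5427

open Cfsg.Agent.Spor Cfsg.Agent.Spor.LS Cfsg.Agent.GT Cfsg.Agent.Loc.Mss Subgroup

/-- Let z be an involution of the finite group G whose centralizer C has generalized Fitting subgroup Q, an extraspecial 2-group of width at least 2 (order 2^(2w+1), w ≥ 2). Let K be a subgroup of G such that the subgroup U generated by the K-conjugates of z is abelian and C is generated by the C-conjugates of U. Suppose that either some K-conjugate of z other than z lies in Q, or some element u of U ∩ Q outside the subgroup generated by z has z in the largest normal 2-subgroup of its centralizer. Then G is simple and Q is a large extraspecial 2-subgroup of G. -/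
theorem result {G : Type*} [Group G] [Finite G] (z : G) (hz : orderOf z = 2) (Q : Subgroup G) (hQC : Q ≤ Subgroup.centralizer ({z} : Set G)) (hF : (Cfsg.generalizedFittingSubgroup ↥(Subgroup.centralizer ({z} : Set G))).map (Subgroup.centralizer ({z} : Set G)).subtype = Q) (hQ : Cfsg.IsExtraspecial 2 ↥Q) (w : ℕ) (hw : 2 ≤ w) (hcard : Nat.card ↥Q = 2 ^ (2 * w + 1)) (K U : Subgroup G) (hU : U = Subgroup.closure {x : G | ∃ k ∈ K, x = k * z * k⁻¹}) (hUab : IsMulCommutative ↥U) (hgen : Subgroup.closure {x : G | ∃ c ∈ Subgroup.centralizer ({z} : Set G), ∃ u ∈ U, x = c * u * c⁻¹} = Subgroup.centralizer ({z} : Set G)) (h3 : (∃ k ∈ K, k * z * k⁻¹ ∈ Q ∧ k * z * k⁻¹ ≠ z) ∨ ∃ u ∈ U ⊓ Q, u ∉ Subgroup.zpowers z ∧ (∃ hz' : z ∈ Subgroup.centralizer ({u} : Set G), (⟨z, hz'⟩ : ↥(Subgroup.centralizer ({u} : Set G))) ∈ Cfsg.pCore 2 ↥(Subgroup.centralizer ({u} : Set G)))) : IsSimpleGroup G ∧ Cfsg.IsLargeExtraspecial Q := by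
  obtain ⟨hes, hl, hQe⟩ := es2_lg_of_fstar hz hF hQ
  have h8 : 8 < Nat.card Q := by
    rw [hcard]
    calc 8 < 2 ^ 5 := by norm_num
      _ ≤ _ := Nat.pow_le_pow_right (by norm_num) (by omega)
  have hL : IsLargeExtraspecial Q := by
    rcases h3 with ⟨k, -, h1, h2⟩ | ⟨u, hu, h1, hz', h2⟩
    · exact hes.isLarge_of_conj hl h8 h1 h2
    · rw [mem_zpowers_iff_of_sq hes.z_sq] at h1
      push Not at h1
      have huu : ∀ v ∈ U, v * v = 1 := by
        intro v hv
        have hc : ∀ a ∈ U, ∀ b ∈ U, a * b = b * a := fun a ha b hb =>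
          congrArg Subtype.val (hUab.is_comm.comm (⟨a, ha⟩ : U) ⟨b, hb⟩)
        subst hU
        induction hv using closure_induction with
        | mem x hx =>
          obtain ⟨k, -, rfl⟩ := hx
          rw [show k * z * k⁻¹ * (k * z * k⁻¹) = k * (z * z) * k⁻¹ by group, hes.z_sq]; group
        | one => simp
        | mul a b ha hb h1 h2 =>
          rw [mul_assoc, ← mul_assoc b, ← hc a ha b hb, mul_assoc, h2, mul_one, h1]
        | inv a _ h1 => rw [← mul_inv_rev, h1, inv_one]
      exact hes.isLarge hl fun K hK hn =>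
        hl.eq_bot_of_invol hu.2 (huu u hu.1) h1.1 h1.2 ⟨_, h2, rfl⟩ hK hn
  refine ⟨(big_of_large hL hes.center_map).isSimpleGroup hQe ?_, hL⟩
  rw [← hgen, closure_le]
  rintro _ ⟨c, -, u, hu, rfl⟩
  refine normalClosure_normal.conj_mem u ?_ c
  rw [hU] at hu
  refine (closure_le _).2 ?_ hu
  rintro _ ⟨k, -, rfl⟩
  exact normalClosure_normal.conj_mem z (subset_normalClosure (Set.mem_singleton z)) k

end Cfsg.Agent.S5427
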