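import Mathlib
import Cfsg.Statements.S5428
import Cfsg.Agent.Spor.ESQuot

set_option autoImplicit false
open Cfsg

namespace Cfsg.Agent.S5428

open Cfsg.Agent.Spor Subgroup

/-- Let z be an involution of the finite group G whose centralizer C has generalized Fitting subgroup Q extraspecial (as a 2-group), let A be a subgroup of C of odd order, and let R be the centralizer of A in Q; suppose R has order at least 32, the largest normal subgroup of odd order of the centralizer of the subgroup generated by A and R lies in A, the order of that centralizer is not divisible by 4, and g is an element of G with g z g⁻¹ in R but outside the centre Z of Q. Let M be the subgroup generated by A and the centralizer of A (A is normal in it). Then: the centralizer in M of the subgroup generated by R and A, joined with A, equals the subgroup generated by A and Z; the image of R in M/A is a large extraspecial 2-subgroup of M/A; and g z g⁻¹ is conjugate to z inside the subgroup generated by R and the centralizer of A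 in g Q g⁻¹. -/
theorem result {G : Type*} [Group G] [Finite G] (z : G) (hz : orderOf z = 2) (Q : Subgroup G) (hQC : Q ≤ Subgroup.centralizer ({z} : Set G)) (hF : (Cfsg.generalizedFittingSubgroup ↥(Subgroup.centralizer ({z} : Set G))).map (Subgroup.centralizer ({z} : Set G)).subtype = Q) (hQ : Cfsg.IsExtraspecial 2 ↥Q) (A : Subgroup G) (hA : A ≤ Subgroup.centralizer ({z} : Set G)) (hAodd : Odd (Nat.card ↥A)) (R : Subgroup G) (hR : R = Q ⊓ Subgroup.centralizer (A : Set G)) (hR32 : 32 ≤ Nat.card ↥R) (hO : (Cfsg.oddCore ↥(Subgroup.centralizer ((A ⊔ R : Subgroup G) : Set G))).map (Subgroup.centralizer ((A ⊔ R : Subgroup G) : Set G)).subtype ≤ A) (h4 : ¬ 4 ∣ Nat.card ↥(Subgroup.centralizer ((A ⊔ R : Subgroup G) : Set G))) (g : G) (hgR : g * z * g⁻¹ ∈ R) (hgZ : g * z * g⁻¹ ∉ ((Subgroup.center ↥Q).map Q.subtype)) (M : Subgroup G) (hM : M = Subgroup.centralizer (A : Set G) ⊔ A) [hn : (A.subgroupOf M).Normal] : (M ⊓ Subgroup.centralizer ((R ⊔ A : Subgroup G) : Set G)) ⊔ A = A ⊔ ((Subgroup.center ↥Q).map Q.subtype)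 ∧ Cfsg.IsLargeExtraspecial ((R.subgroupOf M).map (QuotientGroup.mk' (A.subgroupOf M))) ∧ ∃ x ∈ R ⊔ ((Q).map (MulAut.conj g).toMonoidHom ⊓ Subgroup.centralizer (A : Set G)), x * (g * z * g⁻¹) * x⁻¹ = z := by
  obtain ⟨h, hl, -⟩ := es2_lg_of_fstar hz hF hQ
  subst hR
  have h8 : 8 < Nat.card Q := by
    have := card_le_of_le (inf_le_left : Q ⊓ centralizer (A : Set G) ≤ Q)
    omega
  have hne : g * z * g⁻¹ ≠ z := fun e => hgZ (h.mem_center_map.2 (Or.inr e))
  have hp := ESPair.of_width h hl h8 hgR.1 hne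
  have hzA : ∀ a ∈ A, z * a = a * z := fun a ha => mem_centralizer_singleton.1 (hA ha)
  have hsA : ∀ a ∈ A, g * z * g⁻¹ * a = a * (g * z * g⁻¹) :=
    fun a ha => (mem_centralizer_iff.1 hgR.2 a ha).symm
  have hAN : A ≤ normalizer (Q : Set G) := fun a ha => hl.mem_normalizer (hzA a ha)
  have hR : ES2 (Q ⊓ centralizer (A : Set G)) z := (h.odd_es2_C hAN hAodd).resolve_left fun e => by
    rw [e, card_zpowers_of_sq h.z_ne h.z_sq] at hR32; omega
  obtain ⟨x, hx, e1, e2⟩ := hp.exists_swap_odd hAodd hzA hsA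
  have hM1 : centralizer (A : Set G) ≤ M := hM ▸ le_sup_left
  have hM2 : ∀ m ∈ M, ∃ c ∈ centralizer (A : Set G), ∃ a ∈ A, m = c * a := by
    intro m hm
    have : m ∈ ((centralizer (A : Set G) ⊔ A : Subgroup G) : Set G) := hM ▸ hm
    rw [coe_mul_of_left_le_normalizer_right _ _ (centralizer_le_normalizer (A : Set G))] at this
    obtain ⟨c, hc, a, ha, e⟩ := this
    exact ⟨c, hc, a, ha, e.symm⟩
  have hC : ∀ c ∈ centralizer ((A ⊔ Q ⊓ centralizer (A : Set G) : Subgroup G) : Set G),
      c ∈ A ∨ z * c ∈ A := by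
    intro c hc
    have hzD : z ∈ centralizer ((A ⊔ Q ⊓ centralizer (A : Set G) : Subgroup G) : Set G) := by
      refine le_centralizer_iff.1 (sup_le ?_ ?_ : _ ≤ centralizer ((zpowers z : Subgroup G) : Set G))
        (mem_zpowers z)
      · intro a ha
        rw [zpowers_eq_closure, centralizer_closure]; exact hA ha
      · intro a ha
        rw [zpowers_eq_closure, centralizer_closure]; exact hQC ha.1
    rcases mem_oddCore_or (z := (⟨z, hzD⟩ : centralizer ((A ⊔ Q ⊓ centralizer (A : Set G) :
        Subgroup G) : Set G))) (fun e => h.z_ne (congrArg Subtype.val e)) (Subtype.ext h.z_sq)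
        (fun y => Subtype.ext (mem_centralizer_iff.1 y.2 z (mem_sup_right hR.z_mem))) h4 ⟨c, hc⟩
      with e | e
    · exact Or.inl (hO ⟨_, e, rfl⟩)
    · exact Or.inr (hO ⟨_, e, rfl⟩)
  have hker : ∀ y : M, QuotientGroup.mk' (A.subgroupOf M) y = 1 ↔ (y : G) ∈ A := fun y => by
    rw [QuotientGroup.mk'_apply, QuotientGroup.eq_one_iff, mem_subgroupOf]
  have hxC : x ∈ centralizer (A : Set G) :=
    (sup_le inf_le_right inf_le_right : _ ≤ centralizer (A : Set G)) hx
  refine ⟨le_antisymm (sup_le (fun c hc => ?_) le_sup_left) (sup_le le_sup_right ?_), ?_, x, hx, e2⟩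
  · have hc2 := hc.2
    rw [sup_comm] at hc2
    have hzz : z ∈ A ⊔ (Subgroup.center Q).map Q.subtype :=
      mem_sup_right (h.mem_center_map.2 (Or.inr rfl))
    rcases hC c hc2 with e | e
    · exact mem_sup_left e
    · rw [← h.z_mul_z_mul c]; exact mul_mem hzz (mem_sup_left e)
  · rw [h.center_map, zpowers_le]
    refine mem_sup_left (mem_inf.2 ⟨hM1 hR.z_mem.2, ?_⟩)
    refine le_centralizer_iff.1 (sup_le ?_ ?_ : _ ≤ centralizer ((zpowers z : Subgroup G) : Set G))
      (mem_zpowers z)
    · intro a ha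
      rw [zpowers_eq_closure, centralizer_closure]; exact hQC ha.1
    · intro a ha
      rw [zpowers_eq_closure, centralizer_closure]; exact hA ha
  · have hRM : Q ⊓ centralizer (A : Set G) ≤ M := inf_le_right.trans hM1
    have h1 := hR.quot_odd hAodd hRM hker
    have h2 := hl.quot_odd hR hAodd hM1 hM2 (QuotientGroup.mk'_surjective _) hker fun c hc H =>
      hC c (le_centralizer_iff.1 (sup_le ?_ ?_ : _ ≤ centralizer ((zpowers c : Subgroup G) : Set G))
        (mem_zpowers c))
    · have e3 : QuotientGroup.mk' (A.subgroupOf M) ⟨x, hM1 hxC⟩ *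
          QuotientGroup.mk' (A.subgroupOf M) ⟨z, hRM hR.z_mem⟩ *
          (QuotientGroup.mk' (A.subgroupOf M) ⟨x, hM1 hxC⟩)⁻¹ =
          QuotientGroup.mk' (A.subgroupOf M) ⟨_, hRM hgR⟩ := by
        rw [← map_inv, ← map_mul, ← map_mul]; congr 1; exact Subtype.ext e1
      refine h1.isLarge_of_conj h2 ?_ (e3.symm ▸ mem_map_of_mem _ (show (⟨_, hRM hgR⟩ : M) ∈ (Q ⊓ centralizer (A : Set G)).subgroupOf M from hgR) : _ * _ * _ ∈ _) ?_
      · rw [card_quot_odd hAodd hR.isPGroup hRM hker]; omega
      · rw [e3]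
        intro e
        exact hne (congrArg Subtype.val (injOn_quot_odd hAodd hR.isPGroup hker
          (x₁ := ⟨_, hRM hgR⟩) (x₂ := ⟨z, hRM hR.z_mem⟩) hgR hR.z_mem e))
    · intro a ha
      rw [zpowers_eq_closure, centralizer_closure, mem_centralizer_singleton]
      exact (mem_centralizer_iff.1 hc a ha).symm
    · intro a ha
      rw [zpowers_eq_closure, centralizer_closure, mem_centralizer_singleton]
      exact H a ha

end Cfsg.Agent.S5428
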