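import Mathlib
import Cfsg.Statements.S5429
import Cfsg.Agent.Spor.ESQuot

set_option autoImplicit false
open Cfsg

namespace Cfsg.Agent.S5429

open Cfsg.Agent.Spor Subgroup

/-- Let z be an involution of the finite group G with centralizer C whose generalized Fitting subgroup Q is extraspecial of width at least 3 (order 2^(2w+1), w ≥ 3); let g be an element of G with g z g⁻¹ in Q but outside the centre Z of Q, and t an involution lying in both Q and g Q g⁻¹ that is not conjugate to z; write P for the centralizer of t in Q and suppose that the elements of C acting trivially by conjugation on P modulo the subgroup generated by t and z are exactly the elements of Q. Then the image of P in the centralizer of t modulo the subgroup generated by t is a large extraspecial 2-subgroup there, and g z g⁻¹ is conjugate to z inside the subgroup generated by P and the centralizer of t in g Q g⁻¹. -/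
theorem result {G : Type*} [Group G] [Finite G] (z : G) (hz : orderOf z = 2) (Q : Subgroup G) (hQC : Q ≤ Subgroup.centralizer ({z} : Set G)) (hF : (Cfsg.generalizedFittingSubgroup ↥(Subgroup.centralizer ({z} : Set G))).map (Subgroup.centralizer ({z} : Set G)).subtype = Q) (hQ : Cfsg.IsExtraspecial 2 ↥Q) (w : ℕ) (hw : 3 ≤ w) (hcard : Nat.card ↥Q = 2 ^ (2 * w + 1)) (g : G) (hgQ : g * z * g⁻¹ ∈ Q) (hgZ : g * z * g⁻¹ ∉ ((Subgroup.center ↥Q).map Q.subtype)) (t : G) (ht : orderOf t = 2) (htQ : t ∈ Q ⊓ (Q).map (MulAut.conj g).toMonoidHom) (htz : ¬ IsConj z t) (P : Subgroup G) (hP : P = Q ⊓ Subgroup.centralizer ({t} : Set G)) (hCP : ∀ c ∈ Subgroup.centralizer ({z} : Set G), (∀ x ∈ P, ∃ y ∈ Subgroup.closure ({t, z} : Set G), c * x * c⁻¹ = x * y) ↔ c ∈ Q) [hn : ((Subgroup.zpowers t).subgroupOf (Subgroup.centralizer ({t} : Set G))).Normal] : Cfsg.IsLargeExtraspecial ((P.subgroupOf (Subgroup.centralizer ({t} : Set G))).map (QuotientGroup.mk' ((Subgroup.zpowers t).subgroupOf (Subgroup.centralizer ({t}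 : Set G))))) ∧ ∃ x ∈ P ⊔ ((Q).map (MulAut.conj g).toMonoidHom ⊓ Subgroup.centralizer ({t} : Set G)), x * (g * z * g⁻¹) * x⁻¹ = z := by
  obtain ⟨h, hl, -⟩ := es2_lg_of_fstar hz hF hQ
  have h8 : 8 < Nat.card Q := by
    rw [hcard]
    calc 8 < 2 ^ 5 := by norm_num
      _ ≤ _ := Nat.pow_le_pow_right (by norm_num) (by omega)
  have hne : g * z * g⁻¹ ≠ z := fun e => hgZ (h.mem_center_map.2 (Or.inr e))
  have hp := ESPair.of_width h hl h8 hgQ hne
  obtain ⟨ht1, htt⟩ := orderOf_eq_two_iff'.1 ht
  obtain ⟨x, hx, e1, e2⟩ := hp.exists_swap_invol htQ htz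
  subst hP
  refine ⟨?_, x, hx, e2⟩
  have hzt : z ∈ centralizer ({t} : Set G) := mem_centralizer_singleton.2 (h.z_comm t htQ.1).symm
  have htz' : t ≠ z := fun e => htz (e ▸ IsConj.refl _)
  have hker := ker_mk_zpowers htt
  have h1 := h.quot_invol h8 htQ.1 htz' hker hzt
  have h2 := hl.quot_invol h h8 htQ.1 ht1 htz (QuotientGroup.mk'_surjective _) hker hzt
    (fun c hcz _ H => (hCP c (mem_centralizer_singleton.2 hcz)).1 fun x hx => by
      have hxt := mem_centralizer_singleton.1 hx.2
      have hxz := h.z_comm x hx.1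
      have m1 : t ∈ closure ({t, z} : Set G) := subset_closure (by simp)
      have m2 : z ∈ closure ({t, z} : Set G) := subset_closure (by simp)
      rcases H x hx.1 hxt with (e | e) | (e | e)
      · exact ⟨1, one_mem _, by rw [e, mul_one]⟩
      · exact ⟨z, m2, by rw [e, hxz]⟩
      · exact ⟨t, m1, by rw [e, hxt]⟩
      · exact ⟨t * z, mul_mem m1 m2, by rw [e, hxt, ← mul_assoc, hxz, mul_assoc, h.z_comm t htQ.1]⟩)
  have h3 := card_quot_invol h htQ.1 ht1 htt htz' hker
  have hxt : x ∈ centralizer ({t} : Set G) := (sup_le inf_le_right inf_le_right : _ ≤ centralizer ({t} : Set G)) hx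
  have hst : g * z * g⁻¹ ∈ centralizer ({t} : Set G) :=
    mem_centralizer_singleton.2 (hp.esR.z_comm t htQ.2).symm
  have e3 : QuotientGroup.mk' ((zpowers t).subgroupOf (centralizer ({t} : Set G))) ⟨x, hxt⟩ *
      QuotientGroup.mk' ((zpowers t).subgroupOf (centralizer ({t} : Set G))) ⟨z, hzt⟩ *
      (QuotientGroup.mk' ((zpowers t).subgroupOf (centralizer ({t} : Set G))) ⟨x, hxt⟩)⁻¹ =
      QuotientGroup.mk' ((zpowers t).subgroupOf (centralizer ({t} : Set G))) ⟨_, hst⟩ := by
    rw [← map_inv, ← map_mul, ← map_mul]; congr 1; exact Subtype.ext e1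
  rw [inf_subgroupOf_right]
  refine h1.isLarge_of_conj h2 ?_ (e3.symm ▸ mem_map_of_mem _ (show (⟨_, hst⟩ : centralizer ({t} : Set G)) ∈ Q.subgroupOf _ from hgQ) : _ * _ * _ ∈ _) ?_
  · have : 2 ^ 7 ≤ Nat.card Q := hcard ▸ Nat.pow_le_pow_right (by norm_num) (by omega)
    omega
  · rw [e3, Ne, eq_iff_of_ker hker]
    rintro (e | e)
    · exact hne e
    · refine htz ?_
      have e' : g * z * g⁻¹ = t * z := e
      have : t = z * (g * z * g⁻¹) := by rw [e', ← h.z_comm t htQ.1, h.z_mul_z_mul]
      exact this ▸ hp.isConj_mul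

end Cfsg.Agent.S5429
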