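import Mathlib
import Cfsg.Statements.S5430
import Cfsg.Agent.Spor.ESPair

set_option autoImplicit false
open Cfsg

namespace Cfsg.Agent.S5430

open Cfsg.Agent.Spor Subgroup

/-- Let Q be a large extraspecial 2-subgroup of the finite group G (extraspecial; centralizer equal to its centre; normal in the centralizer of its centre; normalizing no non-trivial subgroup of odd order) with centre generated by z, an involution, of width w ≥ 2 (order 2^(2w+1)); let g be an element outside the centralizer H of z with g z g⁻¹ in Q; write V for the subgroup generated by z and g z g⁻¹, X for the subgroup generated by Q and g Q g⁻¹, R for the subgroup generated by the centralizer of z in g Q g⁻¹ and the centralizer of g z g⁻¹ in Q, and E for the intersection of Q and g Q g⁻¹. Then R is the centralizer of V in X and is the largest normal 2-subgroup of X, and X/R is isomorphic to the symmetric group of degree 3; moreover the normalizer of V is the product of X and the centralizer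 of V in H, X is normal in it, and modulo R it is the direct product of X/R and of the centralizer of V in H modulo R. -/
theorem result {G : Type*} [Group G] [Finite G] (Q : Subgroup G) (hQ : Cfsg.IsLargeExtraspecial Q) (z : G) (hz : ((Subgroup.center ↥Q).map Q.subtype) = Subgroup.zpowers z) (hz2 : orderOf z = 2) (w : ℕ) (hw : 2 ≤ w) (hcard : Nat.card ↥Q = 2 ^ (2 * w + 1)) (g : G) (hgH : g ∉ Subgroup.centralizer ({z} : Set G)) (hgQ : g * z * g⁻¹ ∈ Q) (V X R E : Subgroup G) (hV : V = Subgroup.closure ({z, g * z * g⁻¹} : Set G)) (hX : X = Q ⊔ (Q).map (MulAut.conj g).toMonoidHom) (hR : R = ((Q).map (MulAut.conj g).toMonoidHom ⊓ Subgroup.centralizer ({z} : Set G)) ⊔ (Q ⊓ Subgroup.centralizer ({g * z * g⁻¹} : Set G))) (hE : E = Q ⊓ (Q).map (MulAut.conj g).toMonoidHom) : R = X ⊓ Subgroup.centralizer (V : Set G) ∧ R = (Cfsg.pCore 2 ↥X).map X.subtype ∧ (∃ h : (R.subgroupOf X).Normal, Nonempty (↥X ⧸ R.subgroupOf X ≃* Equiv.Perm (Fin 3))) ∧ Subgroup.normalizer (V : Set G)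 = X ⊔ (Subgroup.centralizer ({z} : Set G) ⊓ Subgroup.centralizer (V : Set G)) ∧ (∀ y ∈ Subgroup.normalizer (V : Set G), ∀ x ∈ X, y * x * y⁻¹ ∈ X) ∧ R ≤ Subgroup.centralizer ({z} : Set G) ⊓ Subgroup.centralizer (V : Set G) ∧ (∀ x ∈ X, ∀ c ∈ Subgroup.centralizer ({z} : Set G) ⊓ Subgroup.centralizer (V : Set G), x * c * x⁻¹ * c⁻¹ ∈ R) ∧ X ⊓ (Subgroup.centralizer ({z} : Set G) ⊓ Subgroup.centralizer (V : Set G)) = R := by
  have h := ES2.of_center_eq hQ.1 hz
  have hl := IsLargeExtraspecial_lg hQ h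
  have h8 : 8 < Nat.card Q := by
    rw [hcard]
    calc 8 < 2 ^ 5 := by norm_num
      _ ≤ _ := Nat.pow_le_pow_right (by norm_num) (by omega)
  have hne : g * z * g⁻¹ ≠ z := fun e => hgH (mem_centralizer_singleton.2
    (mul_inv_eq_iff_eq_mul.1 e).symm)
  have hp := ESPair.of_width h hl h8 hgQ hne
  generalize Q.map (MulAut.conj g).toMonoidHom = Q' at *
  generalize g * z * g⁻¹ = s at *
  obtain ⟨φ, hφ, hker, hsurj, hrad⟩ := hp.exists_phi
  subst hV hX
  rw [← hR] at hrad
  have hCV : centralizer ({z} : Set G) ⊓ centralizer ((closure ({z, s} : Set G) : Subgroup G) : Set G) =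
      centralizer ((closure ({z, s} : Set G) : Subgroup G) : Set G) :=
    inf_eq_right.2 fun c hc => mem_centralizer_singleton.2 (mem_centralizer_closure_pair.1 hc).1
  rw [hCV]
  have h1 : R = (Q ⊔ Q') ⊓ centralizer ((closure ({z, s} : Set G) : Subgroup G) : Set G) :=
    le_antisymm (hR ▸ le_inf hp.rad_le_X hp.rad_le) fun x hx => hrad x hx.1 hx.2
  let ψ : ↥(Q ⊔ Q') →* Equiv.Perm (Fin 3) := φ.comp (inclusion hp.X_le_norm)
  have hψ : Function.Surjective ψ := fun σ => by
    obtain ⟨x, e, hx⟩ := hsurj σ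
    exact ⟨⟨x, hx⟩, e⟩
  have hψk : R.subgroupOf (Q ⊔ Q') = ψ.ker := by
    ext x
    rw [MonoidHom.mem_ker, mem_subgroupOf, h1]
    exact ⟨fun hx => (hker _).2 hx.2, fun hx => ⟨x.2, (hker _).1 hx⟩⟩
  have hR2 : IsPGroup 2 R := by
    rw [hR]
    refine IsPGroup.to_sup_of_normal_left' (hp.esR.isPGroup.to_le inf_le_left)
      (hp.esQ.isPGroup.to_le inf_le_left) fun q hq => mem_normalizer_fintype fun r hr => ?_
    refine mem_inf.2 ⟨hp.lgR.norm q (mem_centralizer_singleton.1 hq.2) r hr.1, ?_⟩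
    have hqz : q ∈ centralizer ({z} : Set G) := mem_centralizer_singleton.2 (hp.esQ.z_comm q hq.1)
    exact mul_mem (mul_mem hqz hr.2) (inv_mem hqz)
  haveI hN : (R.subgroupOf (Q ⊔ Q')).Normal := hψk ▸ inferInstance
  refine ⟨h1, ?_, ⟨hN, ⟨(QuotientGroup.quotientMulEquivOfEq hψk).trans
    (QuotientGroup.quotientKerEquivOfSurjective ψ hψ)⟩⟩, ?_, ?_, hR ▸ hp.rad_le, ?_, h1.symm⟩
  · apply le_antisymm
    · exact GT.le_pCoreOf (hR ▸ hp.rad_le_X) (hR ▸ hp.X_le_norm_rad) hR2
    · rintro _ ⟨x, hx, rfl⟩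
      have : ψ x ∈ pCore 2 (Equiv.Perm (Fin 3)) := GT.map_pCore_le hψ (mem_map_of_mem ψ hx)
      rw [pCore_two_perm3, mem_bot] at this
      exact (hψk.ge this : x ∈ R.subgroupOf (Q ⊔ Q'))
  · apply le_antisymm
    · intro y hy
      obtain ⟨x, e, hx⟩ := hsurj (φ ⟨y, hy⟩)
      have : φ (x⁻¹ * ⟨y, hy⟩) = 1 := by rw [map_mul, map_inv, e, inv_mul_cancel]
      have h2 := mul_mem (mem_sup_left hx) (mem_sup_right ((hker _).1 this))
      simpa using h2
    · exact sup_le hp.X_le_norm (centralizer_le_normalizer _)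
  · intro y hy x hx
    obtain ⟨x', e, hx'⟩ := hsurj (φ ⟨y, hy⟩)
    have : φ (x'⁻¹ * ⟨y, hy⟩) = 1 := by rw [map_mul, map_inv, e, inv_mul_cancel]
    have hc := (hker _).1 this
    have h3 := hp.rad_le_X (hp.comm_X_C hx _ hc)
    have h4 := mul_mem (mul_mem hx' (mul_mem (inv_mem h3) hx)) (inv_mem hx')
    convert h4 using 1
    simp only [coe_mul, coe_inv]
    group
  · intro x hx c hc
    exact hR ▸ hp.comm_X_C hx c hc

end Cfsg.Agent.S5430
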