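import Mathlib
import Cfsg.Statements.S5434
import Cfsg.Agent.Spor.ESOdd

set_option autoImplicit false
open Cfsg

namespace Cfsg.Agent.S5434

open Cfsg.Agent.Spor Subgroup

/-- Let Q be a large extraspecial 2-subgroup of the finite group G (extraspecial; centralizer equal to its centre; normal in the centralizer of its centre; normalizing no non-trivial subgroup of odd order), and A a non-trivial subgroup of odd order of the normalizer of Q. Then Q is the central product of the centralizer of A in Q and the commutator subgroup [Q, A] (they generate Q and commute elementwise), [Q, A] is extraspecial, and the centralizer of A in Q is either the centre of Q or extraspecial. -/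
theorem result {G : Type*} [Group G] [Finite G] (Q : Subgroup G) (hQ : Cfsg.IsLargeExtraspecial Q) (A : Subgroup G) (hA : A ≤ Subgroup.normalizer (Q : Set G)) (hAodd : Odd (Nat.card ↥A)) (hA1 : A ≠ ⊥) : (Q ⊓ Subgroup.centralizer (A : Set G)) ⊔ ⁅Q, A⁆ = Q ∧ (∀ x ∈ Q ⊓ Subgroup.centralizer (A : Set G), ∀ y ∈ ⁅Q, A⁆, x * y = y * x) ∧ Cfsg.IsExtraspecial 2 ↥⁅Q, A⁆ ∧ (Q ⊓ Subgroup.centralizer (A : Set G) = ((Subgroup.center ↥Q).map Q.subtype) ∨ Cfsg.IsExtraspecial 2 ↥(Q ⊓ Subgroup.centralizer (A : Set G))) := by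
  obtain ⟨z, h⟩ := exists_ES2 hQ.1
  have hl := IsLargeExtraspecial_lg hQ h
  refine ⟨by rw [sup_comm, h.odd_sup hA hAodd], fun x hx y hy => h.aes.odd_comm hA hx hy,
    (h.odd_es2_B hA hAodd fun hc => hA1 ?_).isExtraspecial, ?_⟩
  · rw [eq_bot_iff]
    exact fun a ha => eq_one_of_odd_of_isPGroup hAodd h.isPGroup ha (hl.centralizer_le (hc ha))
  · rw [h.center_map]
    exact (h.odd_es2_C hA hAodd).imp id ES2.isExtraspecial

end Cfsg.Agent.S5434
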