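import Cfsg.Statements.S5435
import Cfsg.Agent.GT.TransferCocycle
import Cfsg.Agent.GT.TransferSylow
import Cfsg.Agent.GT.PGroupFrattini
import Cfsg.Agent.S0215
import Cfsg.Agent.S0206

set_option autoImplicit false
open Cfsg

namespace Cfsg.Agent.S5435

open Subgroup Cfsg.Agent.GT

structure Hyp {L : Type*} [Group L] (R : Sylow 2 L) (z : L) : Prop where
  ne : z ≠ 1
  zz : z * z = 1
  mem : ∀ r, r ∈ (R : Subgroup L) ↔ r * z = z * r
  sq : ∀ r ∈ (R : Subgroup L), r * r = 1 ∨ r * r = z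
  cm : ∀ r ∈ (R : Subgroup L), ∀ s ∈ (R : Subgroup L), r * s = s * r ∨ r * s * r⁻¹ = z * s
  ex : ∃ y ∈ (R : Subgroup L), y * y = z

variable {L : Type*} [Group L] [Finite L] {R : Sylow 2 L} {z : L}

/-- central elements of `R` -/
def Ctr (R : Sylow 2 L) (c : L) : Prop :=
  c ∈ (R : Subgroup L) ∧ ∀ r ∈ (R : Subgroup L), r * c = c * r

omit [Finite L] in
theorem Ctr.mul {c d : L} (hc : Ctr R c) (hd : Ctr R d) : Ctr R (c * d) :=
  ⟨mul_mem hc.1 hd.1, fun r hr => by rw [← mul_assoc, hc.2 r hr, mul_assoc, hd.2 r hr, mul_assoc]⟩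

omit [Finite L] in
theorem Ctr.inv {c : L} (hc : Ctr R c) : Ctr R c⁻¹ :=
  ⟨inv_mem hc.1, fun r hr => (Commute.inv_right (hc.2 r hr : Commute r c)).eq⟩

namespace Hyp

variable (h : Hyp R z)
include h

omit [Finite L] in
theorem ctr : Ctr R z := ⟨(h.mem z).2 rfl, fun r hr => (h.mem r).1 hr⟩

omit [Finite L] in
theorem norm {n : L} (hn : ∀ r ∈ (R : Subgroup L), n * r * n⁻¹ ∈ (R : Subgroup L)) :
    n ∈ (R : Subgroup L) := by
  obtain ⟨y, h1, h2⟩ := h.ex
  have h3 : n * y * n⁻¹ * (n * y * n⁻¹) = n * z * n⁻¹ := by rw [← h2]; group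
  rcases h.sq _ (hn y h1) with h4 | h4
  · rw [h3, mul_inv_eq_one, mul_eq_left] at h4
    exact absurd h4 h.ne
  · rw [h3, mul_inv_eq_iff_eq_mul] at h4
    exact (h.mem n).2 h4

omit h in
theorem exists_le {T H : Subgroup L} (hR : (R : Subgroup L) ≤ H) (hT : IsPGroup 2 T) (hTH : T ≤ H) :
    ∃ g ∈ H, ∀ t ∈ T, g * t * g⁻¹ ∈ (R : Subgroup L) :=
  Tr.exists_conj_le_sylowIn R.isPGroup'
    (fun h1 => R.not_dvd_index (h1.trans (relIndex_dvd_index_of_le hR))) hT hTH

omit [Finite L] h in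
theorem isP (g : L) {T : Subgroup L} (hT : T ≤ R) :
    IsPGroup 2 (T.comap (MulAut.conj g⁻¹).toMonoidHom) :=
  (R.isPGroup'.to_le hT).comap_of_injective _ (MulAut.conj g⁻¹).injective

theorem fus {c d : L} (hc : Ctr R c) (hd : Ctr R d) (hcd : IsConj c d) : c = d := by
  obtain ⟨g, rfl⟩ := isConj_iff.1 hcd
  obtain ⟨k, h1, h2⟩ := exists_le (R := R) (H := centralizer {g * c * g⁻¹})
    (fun r hr => mem_centralizer_singleton_iff.2 (hd.2 r hr)) (isP g le_rfl) fun r hr => by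
      have := hc.2 _ hr
      rw [mem_centralizer_singleton_iff]
      calc _ = g * (g⁻¹ * r * g⁻¹⁻¹ * c) * g⁻¹ := by group
        _ = _ := by erw [this]; simp [mul_assoc]
  have h3 : k * g ∈ (R : Subgroup L) := h.norm fun r hr => by
    have := h2 (g * r * g⁻¹) (by simpa [mul_assoc] using hr)
    simpa [mul_assoc] using this
  have h4 := hc.2 _ h3
  have h5 := mem_centralizer_singleton_iff.1 h1
  calc c = k * (g * c * g⁻¹) * k⁻¹ := by
        rw [← mul_assoc, ← mul_assoc, h4]; group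
    _ = _ := by rw [h5]; group

theorem exists_norm {e c : L} (he : e ∈ (R : Subgroup L)) (hc : Ctr R c) (hec : IsConj e c) :
    ∃ g ∈ normalizer (((R : Subgroup L) ⊓ centralizer {e} : Subgroup L) : Set L),
      g * e * g⁻¹ = c := by
  set E : Subgroup L := (R : Subgroup L) ⊓ centralizer {e}
  have hzE : z ∈ E := ⟨h.ctr.1, mem_centralizer_singleton_iff.2 (h.ctr.2 e he).symm⟩
  have heE : e ∈ E := ⟨he, mem_centralizer_singleton_iff.2 rfl⟩
  obtain ⟨g, rfl⟩ := isConj_iff.1 hec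
  obtain ⟨k, h1, h2⟩ := exists_le (R := R) (H := centralizer {g * e * g⁻¹})
    (fun r hr => mem_centralizer_singleton_iff.2 (hc.2 r hr))
    (isP g (inf_le_left : E ≤ _)) fun r hr => by
      have := mem_centralizer_singleton_iff.1 hr.2
      rw [mem_centralizer_singleton_iff]
      calc _ = g * (g⁻¹ * r * g⁻¹⁻¹ * e) * g⁻¹ := by group
        _ = _ := by erw [this]; simp [mul_assoc]
  refine ⟨k * g, ?_, by
    rw [show k * g * e * (k * g)⁻¹ = k * (g * e * g⁻¹) * k⁻¹ by group,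
      mem_centralizer_singleton_iff.1 h1, mul_inv_cancel_right]⟩
  have h3 : ∀ a ∈ E, k * g * a * (k * g)⁻¹ ∈ (R : Subgroup L) := fun a ha => by
    have := h2 (g * a * g⁻¹) (by rw [mem_comap]; simpa [-mem_inf, mul_assoc] using ha)
    simpa [mul_assoc] using this
  generalize k * g = n at h3
  have h4 : ∀ a ∈ E, n⁻¹ * z * n * a = a * (n⁻¹ * z * n) := fun a ha => by
    calc _ = n⁻¹ * (z * (n * a * n⁻¹)) * n := by group
      _ = _ := by rw [← h.ctr.2 _ (h3 a ha)]; group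
  have h5 : n⁻¹ * z * n ∈ E :=
    ⟨(h.mem _).2 (h4 z hzE), mem_centralizer_singleton_iff.2 (h4 e heE)⟩
  have hRE : (R : Subgroup L) ≤ normalizer (E : Set L) := fun r hr =>
    mem_normalizer_fintype fun a ha => by
      rcases h.cm r hr a ha.1 with h6 | h6
      · rwa [h6, mul_inv_cancel_right]
      · rw [h6]
        exact mul_mem hzE ha
  obtain ⟨k, h6, h7⟩ := exists_le hRE (isP n⁻¹ le_rfl) fun r hr =>
    mem_normalizer_fintype fun a ha => by
      have hr' : n * r * n⁻¹ ∈ (R : Subgroup L) := by simpa using hr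
      rcases h.cm _ hr' _ (h3 a ha) with h6 | h6
      · have : r * a * r⁻¹ = a :=
          calc _ = n⁻¹ * (n * r * n⁻¹ * (n * a * n⁻¹)) * n * r⁻¹ := by group
            _ = _ := by rw [h6]; group
        rwa [this]
      · have : r * a * r⁻¹ = n⁻¹ * z * n * a :=
          calc _ = n⁻¹ * (n * r * n⁻¹ * (n * a * n⁻¹) * (n * r * n⁻¹)⁻¹) * n := by group
            _ = _ := by rw [h6]; group
        rw [this]
        exact mul_mem h5 ha
  have h8 : k * n⁻¹ ∈ (R : Subgroup L) := h.norm fun r hr => by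
    have := h7 (n⁻¹ * r * n) (by simpa [mul_assoc] using hr)
    simpa [mul_assoc] using this
  simpa using mul_mem (inv_mem (hRE h8)) h6

omit [Finite L] in
theorem conj_mul {e : L} (he : e ∈ (R : Subgroup L)) (hc : ¬ Ctr R e) : IsConj e (z * e) := by
  by_contra h1
  exact hc ⟨he, fun r hr => (h.cm r hr e he).resolve_right fun h2 => h1 (isConj_iff.2 ⟨r, h2⟩)⟩

theorem exists_u {t c : L} (ht : t ∈ (R : Subgroup L)) (ht1 : ¬ Ctr R t) (hc : Ctr R c)
    (htc : IsConj t c) : ∃ u ∈ (R : Subgroup L), u * t = t * u ∧ ¬ Ctr R u ∧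
      ∀ e ∈ (R : Subgroup L), e * t = t * e → ¬ Ctr R e →
        IsConj e (u * e) ∨ IsConj e (u * (z * e)) := by
  obtain ⟨g, h1, rfl⟩ := h.exists_norm ht hc htc
  set E : Subgroup L := (R : Subgroup L) ⊓ centralizer {t}
  have hzE : z ∈ E := ⟨h.ctr.1, mem_centralizer_singleton_iff.2 (h.ctr.2 t ht).symm⟩
  have h2 : ∀ a ∈ E, g * a * g⁻¹ ∈ E := fun a ha => (mem_normalizer_iff.1 h1 a).1 ha
  have h3 : ∀ a ∈ E, g⁻¹ * a * g ∈ E := fun a ha => by
    simpa using (mem_normalizer_iff.1 (inv_mem h1) a).1 ha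
  have h4 : g ∉ (R : Subgroup L) := fun hg => ht1 (by
    have := hc.2 g⁻¹ (inv_mem hg)
    rwa [show g * t * g⁻¹ = t from
      calc _ = g * t * g⁻¹ * g⁻¹ * g := by group
        _ = _ := by rw [← this]; group] at hc)
  have key : ∀ e ∈ E, ¬ Ctr R (g⁻¹ * e * g) → IsConj e (g * z * g⁻¹ * e) := fun e he h5 => by
    obtain ⟨k, hk⟩ := isConj_iff.1 (h.conj_mul (h3 e he).1 h5)
    refine isConj_iff.2 ⟨g * k * g⁻¹, ?_⟩
    calc _ = g * (k * (g⁻¹ * e * g) * k⁻¹) * g⁻¹ := by group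
      _ = _ := by rw [hk]; group
  refine ⟨g * z * g⁻¹, (h2 z hzE).1, mem_centralizer_singleton_iff.1 (h2 z hzE).2,
    fun h5 => h4 ((h.mem g).2 ?_), fun e he h5 h6 => ?_⟩
  · exact mul_inv_eq_iff_eq_mul.1 (h.fus h.ctr h5 (isConj_iff.2 ⟨g, rfl⟩)).symm
  have heE : e ∈ E := ⟨he, mem_centralizer_singleton_iff.2 h5⟩
  by_cases h7 : Ctr R (g⁻¹ * e * g)
  · refine Or.inr ((h.conj_mul he h6).trans (key _ (mul_mem hzE heE) fun h8 => ?_))
    have h9 := h.fus h.ctr (h8.mul h7.inv) (isConj_iff.2 ⟨g⁻¹, by group⟩)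
    refine h4 ((h.mem g).2 ?_)
    calc _ = g * (g⁻¹ * (z * e) * g * (g⁻¹ * e * g)⁻¹) := by rw [← h9]
      _ = _ := by group
  · exact Or.inl (key e heE h7)

omit [Finite L] in
theorem two {r s e : L} (hr : r ∈ (R : Subgroup L)) (hs : s ∈ (R : Subgroup L))
    (he : e ∈ (R : Subgroup L)) (h1 : r * e ≠ e * r) (h2 : s * e ≠ e * s) :
    r * s * e = e * (r * s) := by
  have h3 := (h.cm r hr e he).resolve_left h1
  have h4 := (h.cm s hs e he).resolve_left h2
  rw [← mul_inv_eq_iff_eq_mul]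
  calc _ = r * (s * e * s⁻¹) * r⁻¹ := by group
    _ = r * z * r⁻¹ * (r * e * r⁻¹) := by rw [h4]; group
    _ = _ := by rw [h3, h.ctr.2 r hr, mul_inv_cancel_right, ← mul_assoc, h.zz, one_mul]

omit [Finite L] in
theorem exists_step {H : Subgroup L} (hH : H ≤ R) (hz : z ∈ H) {u : L} (hu : u ∈ (R : Subgroup L)) :
    ∃ K : Subgroup L, K ≤ R ∧ ∀ a, a ∈ K ↔ a ∈ H ∨ a * u ∈ H := by
  have h1 : ∀ r ∈ (R : Subgroup L), ∀ a ∈ H, r * a * r⁻¹ ∈ H := fun r hr a ha => by
    rcases h.cm r hr a (hH ha) with h6 | h6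
    · rwa [h6, mul_inv_cancel_right]
    · rw [h6]
      exact mul_mem hz ha
  have h2 : u * u ∈ H := by
    rcases h.sq u hu with h6 | h6 <;> rw [h6]
    exacts [one_mem H, hz]
  refine ⟨⟨⟨⟨{a | a ∈ H ∨ a * u ∈ H}, ?_⟩, Or.inl (one_mem H)⟩, ?_⟩, ?_, fun a => Iff.rfl⟩
  · rintro a b (ha | ha) (hb | hb)
    · exact Or.inl (mul_mem ha hb)
    · exact Or.inr (mul_assoc a b u ▸ mul_mem ha hb)
    · refine Or.inr ?_
      have := mul_mem ha (h1 _ (inv_mem hu) _ hb)
      simpa [mul_assoc] using this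
    · refine Or.inl ?_
      have := mul_mem (mul_mem ha (h1 _ (inv_mem hu) _ hb)) (inv_mem h2)
      simpa [mul_assoc] using this
  · rintro a (ha | ha)
    · exact Or.inl (inv_mem ha)
    · refine Or.inr ?_
      have := mul_mem (h1 _ hu _ (inv_mem ha)) h2
      simpa [mul_assoc] using this
  · rintro a (ha | ha)
    · exact hH ha
    · exact (mul_mem_cancel_right hu).1 (hH ha)

omit h in
theorem transfer [IsSimpleGroup L] (hL : ¬ IsMulCommutative L) {M : Subgroup L} {w : L}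
    (hw : w ∈ (R : Subgroup L)) (h1 : w ∉ M)
    (h2 : ∀ r ∈ (R : Subgroup L), r ∉ M → r * w ∈ M) {e : L} (he : e * e = 1) :
    ∃ m ∈ M, IsConj e m := by
  have h3 : M.relIndex R = 2 := by
    refine index_eq_two_iff.2 ⟨⟨w, hw⟩, fun b => ?_⟩
    by_cases hb : (b : L) ∈ M
    · exact Or.inr ⟨hb, fun h4 => h1 ((mul_mem_cancel_left hb).1 h4)⟩
    · exact Or.inl ⟨h2 b b.2 hb, hb⟩
  rcases Tr.thompson_transfer_index_two R.not_dvd_index h3 (u := e) (by rw [_root_.sq, he]) with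
    ⟨N, h4, h5, -⟩ | ⟨g, hg⟩
  · rcases h4.eq_bot_or_eq_top with rfl | rfl
    · rw [index_bot] at h5
      have := Fact.mk Nat.prime_two
      have := isCyclic_of_prime_card h5
      exact hL.elim IsCyclic.isMulCommutative
    · simp at h5
  · exact ⟨_, hg, isConj_iff.2 ⟨g, rfl⟩⟩

theorem main [IsSimpleGroup L] (hL : ¬ IsMulCommutative L) {g : L}
    (ht : g * z * g⁻¹ ∈ (R : Subgroup L)) (htz : g * z * g⁻¹ ≠ z) :
    Nonempty ((R : Subgroup L) ≃* DihedralGroup 4) := by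
  have hA : ∀ a ∈ (R : Subgroup L), a * (g * z * g⁻¹) = g * z * g⁻¹ * a → a * a = 1 := by
    intro a ha h1
    have h2 : g⁻¹ * a * g ∈ (R : Subgroup L) := (h.mem _).2
      (calc _ = g⁻¹ * (a * (g * z * g⁻¹)) * g := by group
        _ = _ := by rw [h1]; group)
    refine (h.sq a ha).resolve_right fun h3 => ?_
    rcases h.sq _ h2 with h4 | h4
    · exact h.ne (calc z = g * (g⁻¹ * a * g * (g⁻¹ * a * g)) * g⁻¹ := by rw [← h3]; group
        _ = 1 := by rw [h4]; group)
    · exact htz (calc _ = g * (g⁻¹ * a * g * (g⁻¹ * a * g)) * g⁻¹ := by rw [h4]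
        _ = z := by rw [← h3]; group)
  have ht1 : ¬ Ctr R (g * z * g⁻¹) := fun h1 => htz (h.fus h.ctr h1 (isConj_iff.2 ⟨g, rfl⟩)).symm
  generalize g * z * g⁻¹ = t at *
  have htt : t * t = 1 := hA t ht rfl
  have hzt : z * t = t * z := (h.ctr.2 t ht).symm
  obtain ⟨x, hx, hxt, hxx⟩ : ∃ x ∈ (R : Subgroup L), x * t ≠ t * x ∧ x * x = 1 := by
    obtain ⟨x, hx, h1⟩ : ∃ x ∈ (R : Subgroup L), x * t ≠ t * x := by
      by_contra h1
      push Not at h1
      exact ht1 ⟨ht, h1⟩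
    rcases h.sq x hx with h2 | h2
    · exact ⟨x, hx, h1, h2⟩
    · refine ⟨x * t, mul_mem hx ht, fun h3 => h1 ?_, ?_⟩
      · rw [← mul_assoc] at h3
        exact mul_right_cancel h3
      · calc _ = x * t * x⁻¹ * (x * x) * t := by group
          _ = z * (t * z) * t := by rw [(h.cm x hx t ht).resolve_left h1, h2, mul_assoc z]
          _ = 1 := by rw [← hzt, ← mul_assoc, h.zz, one_mul, htt]
  have hAc : ∀ a ∈ (R : Subgroup L), ∀ b ∈ (R : Subgroup L), a * t = t * a → b * t = t * b →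
      a * b = b * a := fun a ha b hb h1 h2 => by
    have h3 := hA _ (mul_mem ha hb) (by rw [mul_assoc, h2, ← mul_assoc, h1, mul_assoc])
    rw [← inv_eq_of_mul_eq_one_right h3, mul_inv_rev, inv_eq_of_mul_eq_one_right (hA a ha h1),
      inv_eq_of_mul_eq_one_right (hA b hb h2)]
  have hC : ∀ r ∈ (R : Subgroup L), r * t = t * r → r * x = x * r → Ctr R r :=
    fun r hr h1 h2 => ⟨hr, fun s hs => by
      by_cases h3 : s * t = t * s
      · exact hAc s hs r hr h3 h1
      · have h4 := hAc _ (mul_mem hs hx) r hr (h.two hs hx ht h3 hxt) h1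
        rw [mul_assoc, ← h2, ← mul_assoc, ← mul_assoc] at h4
        exact mul_right_cancel h4⟩
  have hy : t * x * (t * x) = z :=
    calc _ = t * (x * t * x⁻¹) * (x * x) := by group
      _ = _ := by
        rw [(h.cm x hx t ht).resolve_left hxt, hxx, hzt, ← mul_assoc, htt, one_mul, mul_one]
  have hyt : t * x * t ≠ t * (t * x) := fun h1 => hxt (by
    rw [mul_assoc] at h1
    exact mul_left_cancel h1)
  have hyx : t * x * x ≠ x * (t * x) := fun h1 => hxt (by
    rw [← mul_assoc] at h1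
    exact (mul_right_cancel h1).symm)
  have hinv : ∀ m ∈ (R : Subgroup L), m * m = 1 → m * t = t * m ∨ m * x = x * m := by
    intro m hm h1
    by_contra h2
    push Not at h2
    have h3 := hC _ (mul_mem hm (mul_mem ht hx)) (h.two hm (mul_mem ht hx) ht h2.1 hyt)
      (h.two hm (mul_mem ht hx) hx h2.2 hyx)
    have h4 := hA _ h3.1 (h3.2 t ht).symm
    have h5 := h3.2 _ (mul_mem ht hx)
    refine h.ne ?_
    calc z = m * m * (t * x * (t * x)) := by rw [h1, hy, one_mul]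
      _ = m * (m * (t * x) * (t * x)) := by group
      _ = 1 := by rw [← h5, ← h4]; group
  have hT : ∀ e : L, e * e = 1 → ∃ c, Ctr R c ∧ IsConj e c := by
    intro e he
    obtain ⟨m, h1, h2⟩ := transfer (R := R) hL (M := (R : Subgroup L) ⊓ centralizer {t * x}) ht
      (fun h1 => hyt (mem_centralizer_singleton_iff.1 h1.2).symm)
      (fun r hr h1 => ⟨mul_mem hr ht, mem_centralizer_singleton_iff.2 (h.two hr ht (mul_mem ht hx)
        (fun h2 => h1 ⟨hr, mem_centralizer_singleton_iff.2 h2⟩) hyt.symm)⟩) he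
    have h3 := mem_centralizer_singleton_iff.1 h1.2
    have h4 : m * m = 1 := by
      obtain ⟨k, rfl⟩ := isConj_iff.1 h2
      calc _ = k * (e * e) * k⁻¹ := by group
        _ = 1 := by rw [he]; group
    refine ⟨m, ?_, h2⟩
    rcases hinv m h1.1 h4 with h5 | h5
    · refine hC m h1.1 h5 ?_
      rw [← mul_assoc, h5, mul_assoc, mul_assoc] at h3
      exact mul_left_cancel h3
    · refine hC m h1.1 ?_ h5
      rw [mul_assoc t, ← h5, ← mul_assoc, ← mul_assoc] at h3
      exact mul_right_cancel h3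
  have hx1 : ¬ Ctr R x := fun h1 => hxt (h1.2 t ht).symm
  have hAt : ∀ a ∈ (R : Subgroup L), a * t = t * a → ¬ Ctr R a → Ctr R (a * t) :=
    fun a ha h1 h2 => hC _ (mul_mem ha ht) (by rw [← mul_assoc, ← h1])
      (h.two ha ht hx (fun h3 => h2 (hC a ha h1 h3)) hxt.symm)
  have hBx : ∀ a ∈ (R : Subgroup L), a * x = x * a → ¬ Ctr R a → Ctr R (a * x) :=
    fun a ha h1 h2 => hC _ (mul_mem ha hx) (h.two ha hx ht (fun h3 => h2 (hC a ha h3 h1)) hxt)
      (by rw [← mul_assoc, ← h1])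
  have hZ : ∀ w, Ctr R w → w ∈ zpowers z := by
    intro w hw
    by_contra hwz
    obtain ⟨c, h1, h2⟩ := hT t htt
    obtain ⟨u, hu, hut, hu1, hu2⟩ := h.exists_u ht ht1 h1 h2
    obtain ⟨d, h3, h4⟩ := hT x hxx
    obtain ⟨v, hv, hvx, hv1, hv2⟩ := h.exists_u hx hx1 h3 h4
    have hzZ : ∀ a ∈ zpowers z, Ctr R a := by
      rintro _ ⟨k, rfl⟩
      exact ⟨zpow_mem h.ctr.1 k, fun r hr => (Commute.zpow_right (h.ctr.2 r hr) k).eq⟩
    obtain ⟨K1, hK1, hK1'⟩ := h.exists_step (zpowers_le.2 h.ctr.1) (mem_zpowers z) hu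
    obtain ⟨K2, hK2, hK2'⟩ := h.exists_step hK1 ((hK1' z).2 (Or.inl (mem_zpowers z))) hv
    have hwK : w ∉ K2 := by
      rw [hK2', hK1', hK1']
      rintro ((h5 | h5) | h5 | h5)
      · exact hwz h5
      · exact hu1 (by simpa using hw.inv.mul (hzZ _ h5))
      · exact hv1 (by simpa using hw.inv.mul (hzZ _ h5))
      · have h6 : Ctr R (v * u) := by simpa [mul_assoc] using hw.inv.mul (hzZ _ h5)
        have h7 := h6.2 t ht
        rw [mul_assoc v, hut, ← mul_assoc, ← mul_assoc] at h7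
        exact hv1 (hC v hv (mul_right_cancel h7).symm hvx)
    obtain ⟨M, hM1, ⟨hM2, hM3⟩, hM4⟩ := exists_maximal_ge_of_wellFoundedGT
      (fun M : Subgroup L => M ≤ R ∧ w ∉ M) K2 ⟨hK2, hwK⟩
    have hzM : z ∈ M := hM1 ((hK2' z).2 (Or.inl ((hK1' z).2 (Or.inl (mem_zpowers z)))))
    have huM : u ∈ M := by
      refine hM1 ((hK2' u).2 (Or.inl ((hK1' u).2 (Or.inr ?_))))
      rw [hA u hu hut]
      exact one_mem _
    have hvM : v ∈ M := by
      refine hM1 ((hK2' v).2 (Or.inr ((hK1' _).2 (Or.inl ?_))))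
      rcases h.sq v hv with h5 | h5 <;> rw [h5]
      exacts [one_mem _, mem_zpowers z]
    obtain ⟨m, hm, hwm⟩ := transfer (R := R) hL hw.1 hM3 (fun r hr h5 => by
      obtain ⟨K, hK, hK'⟩ := h.exists_step hM2 hzM hr
      by_cases h6 : w ∈ K
      · rw [hw.2 r hr]
        exact ((hK' w).1 h6).resolve_left hM3
      · refine absurd (hM4 ⟨hK, h6⟩ (fun a ha => (hK' a).2 (Or.inl ha)) ((hK' r).2 (Or.inr ?_))) h5
        rcases h.sq r hr with h5 | h5 <;> rw [h5]
        exacts [one_mem _, hzM]) (hA w hw.1 (hw.2 t ht).symm)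
    have hmm : m * m = 1 := by
      obtain ⟨k, rfl⟩ := isConj_iff.1 hwm
      calc _ = k * (w * w) * k⁻¹ := by group
        _ = 1 := by rw [hA w hw.1 (hw.2 t ht).symm]; group
    have fin : ∀ c ∈ M, Ctr R c → ¬ IsConj m c := fun c h5 h6 h7 =>
      hM3 (h.fus hw h6 (hwm.trans h7) ▸ h5)
    have fin2 : ∀ s ∈ (R : Subgroup L), s * s = 1 → ∀ u ∈ M, Ctr R (u * s) → Ctr R (m * s) →
        ¬ (IsConj m (u * m) ∨ IsConj m (u * (z * m))) := by
      intro s hs h5 u h6 h7 h8 h9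
      have h10 : Ctr R (u * m) := by
        have := h7.mul h8
        rwa [mul_assoc, h8.2 s hs, mul_assoc m, h5, mul_one] at this
      rcases h9 with h9 | h9
      · exact fin _ (mul_mem h6 hm) h10 h9
      · refine fin _ (mul_mem h6 (mul_mem hzM hm)) ?_ h9
        rw [← mul_assoc, h.ctr.2 u (hM2 h6), mul_assoc]
        exact h.ctr.mul h10
    by_cases h5 : Ctr R m
    · exact fin m hm h5 (IsConj.refl m)
    rcases hinv m (hM2 hm) hmm with h6 | h6
    · exact fin2 t ht htt u huM (hAt u hu hut hu1) (hAt m (hM2 hm) h6 h5) (hu2 m (hM2 hm) h6 h5)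
    · exact fin2 x hx hxx v hvM (hBx v hv hvx hv1) (hBx m (hM2 hm) h6 h5) (hv2 m (hM2 hm) h6 h5)
  have := Fact.mk Nat.prime_two
  have o2 : ∀ a : L, a * a = 1 → ¬ Ctr R a → orderOf a = 2 := fun a h1 h2 =>
    orderOf_eq_prime (by rw [_root_.sq, h1]) fun h3 => h2 (h3 ▸ ⟨one_mem _, by simp⟩)
  have h1 := S0206.result t x (o2 t htt ht1) (o2 x hxx hx1) fun h1 => hxt (by rw [h1])
  have h2 : orderOf (t * x) = 2 ^ (1 + 1) := orderOf_eq_prime_pow
    (by rw [pow_one, _root_.sq, hy]; exact h.ne)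
    (by rw [show 2 ^ (1 + 1) = 2 * 2 from rfl, pow_mul, _root_.sq, _root_.sq, hy, h.zz])
  have h3 : closure {t, x} = (R : Subgroup L) := by
    refine le_antisymm ((closure_le _).2 (Set.pair_subset ht hx)) fun r hr => ?_
    have h4 : t ∈ closure {t, x} := subset_closure (by simp)
    have h5 : x ∈ closure {t, x} := subset_closure (by simp)
    have h6 : ∀ c, Ctr R c → c ∈ closure {t, x} := fun c hc =>
      zpowers_le.2 (hy ▸ mul_mem (mul_mem h4 h5) (mul_mem h4 h5)) (hZ c hc)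
    have h7 : ∀ a ∈ (R : Subgroup L), a * t = t * a → a ∈ closure {t, x} := fun a ha h7 => by
      by_cases h8 : Ctr R a
      · exact h6 a h8
      · exact (mul_mem_cancel_right h4).1 (h6 _ (hAt a ha h7 h8))
    by_cases h8 : r * t = t * r
    · exact h7 r hr h8
    · exact (mul_mem_cancel_right h5).1 (h7 _ (mul_mem hr hx) (h.two hr hx ht h8 hxt))
  rw [h3, h2] at h1
  exact h1

end Hyp

/-- Let L be a finite non-abelian simple group with an involution z whose centralizer R is a Sylow 2-subgroup of L whose Frattini subgroup is the subgroup generated by z. Then R is dihedral of order 8. -/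
theorem result {L : Type*} [Group L] [Finite L] [IsSimpleGroup L] (hL : ¬ IsMulCommutative L) (z : L) (hz : orderOf z = 2) (R : Sylow 2 L) (hR : (R : Subgroup L) = Subgroup.centralizer ({z} : Set L)) (hΦ : (frattini ↥(R : Subgroup L)).map (R : Subgroup L).subtype = Subgroup.zpowers z) : Nonempty (↥(R : Subgroup L) ≃* DihedralGroup 4) := by
  classical
  have := Fact.mk Nat.prime_two
  have hz1 : z ≠ 1 := fun h => by simp [h] at hz
  have hzz : z * z = 1 := by rw [← sq, ← hz, pow_orderOf_eq_one]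
  have hm : ∀ a : (R : Subgroup L), a ∈ frattini (R : Subgroup L) → (a : L) = 1 ∨ (a : L) = z := by
    intro a ha
    have h1 : (a : L) ∈ zpowers z := hΦ ▸ mem_map_of_mem _ ha
    rw [mem_zpowers_iff_mem_range_orderOf, hz] at h1
    simpa [Finset.range_add_one, eq_comm, or_comm] using h1
  have h : Hyp R z :=
    { ne := hz1
      zz := hzz
      mem := fun r => by rw [hR, mem_centralizer_singleton_iff]
      sq := fun r hr => by simpa [sq] using hm _ (PG.pow_mem_frattini R.isPGroup' ⟨r, hr⟩)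
      cm := fun r hr s hs => by
        refine (hm _ (PG.commutator_le_frattini R.isPGroup' (commutator_mem_commutator
          (mem_top ⟨r, hr⟩) (mem_top ⟨s, hs⟩)))).imp (fun h => ?_) fun h => ?_
        · exact commutatorElement_eq_one_iff_mul_comm.1 h
        · exact mul_inv_eq_iff_eq_mul.1 h
      ex := by
        by_contra h
        push Not at h
        have h1 : ∀ y : (R : Subgroup L), y ^ 2 = 1 := fun y => Subtype.ext (by
          simpa [sq] using (hm _ (PG.pow_mem_frattini R.isPGroup' y)).resolve_right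
            (by simpa [sq] using h y y.2))
        have h2 := (PG.frattini_eq_bot_iff R.isPGroup').2 ⟨⟨⟨fun a b => by
          have h3 : ∀ y : (R : Subgroup L), y⁻¹ = y := fun y =>
            inv_eq_of_mul_eq_one_right (by rw [← sq, h1])
          rw [← h3 (a * b), mul_inv_rev, h3, h3]⟩⟩, h1⟩
        rw [h2, Subgroup.map_bot, eq_comm, zpowers_eq_bot] at hΦ
        exact hz1 hΦ }
  by_contra hc
  obtain ⟨N, h1, h2, h3⟩ := S0215.result R z hz h.ctr.1 fun g hg => by
    by_contra h1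
    exact hc (h.main hL hg h1)
  rcases h1.eq_bot_or_eq_top with rfl | rfl
  · have h4 : z ∈ center L := mem_center_iff.2 fun g =>
      (commutatorElement_eq_one_iff_mul_comm.1 (mem_bot.1 (h3 g))).symm
    rcases (inferInstance : (center L).Normal).eq_bot_or_eq_top with h5 | h5
    · exact hz1 (mem_bot.1 (h5 ▸ h4))
    · exact hL ⟨⟨fun a b => mem_center_iff.1 (h5 ▸ mem_top b) a⟩⟩
  · rw [card_top] at h2
    exact h2.not_two_dvd_nat (hz ▸ orderOf_dvd_natCard z)

end Cfsg.Agent.S5435
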