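import Mathlib
import Cfsg.Statements.S5437
import Cfsg.Agent.Inv.SE

set_option autoImplicit false
open Cfsg

namespace Cfsg.Agent.S5437

/-- Let I be a set of involutions of the finite group G closed under conjugation, and H a subgroup of G. The following are equivalent: (1) for every member x of I lying in H, the conjugates of x lying in H form a single H-class and the centralizer of x lies in H; (2) for every g outside H, no member of I lies in both H and g H g⁻¹; (3) every member of I lying in H fixes exactly one coset in the action of G on the cosets of H. -/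
theorem result {G : Type*} [Group G] [Finite G] (I : Set G) (hI : ∀ x ∈ I, orderOf x = 2) (hIc : ∀ g : G, ∀ x ∈ I, g * x * g⁻¹ ∈ I) (H : Subgroup G) : ((∀ x ∈ I, x ∈ H → (∀ g : G, g * x * g⁻¹ ∈ H → ∃ h ∈ H, h * x * h⁻¹ = g * x * g⁻¹) ∧ Subgroup.centralizer ({x} : Set G) ≤ H) ↔ (∀ g : G, g ∉ H → ∀ x ∈ I, ¬ (x ∈ H ∧ x ∈ (H : Subgroup G).map (MulAut.conj g).toMonoidHom))) ∧ ((∀ g : G, g ∉ H → ∀ x ∈ I, ¬ (x ∈ H ∧ x ∈ (H : Subgroup G).map (MulAut.conj g).toMonoidHom)) ↔ ∀ x ∈ I, x ∈ H → ∃! c : G ⧸ H, x • c = c) := by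
  have key : (∀ g : G, g ∉ H → ∀ x ∈ I, ¬ (x ∈ H ∧ x ∈ (H : Subgroup G).map (MulAut.conj g).toMonoidHom)) ↔
      ∀ x ∈ I, x ∈ H → ∀ g : G, g⁻¹ * x * g ∈ H → g ∈ H := by
    simp only [Inv.mem_map_conj_iff]
    constructor
    · intro h x hx hxH g hg
      by_contra hgH
      exact h g hgH x hx ⟨hxH, hg⟩
    · rintro h g hg x hx ⟨h1, h2⟩
      exact hg (h x hx h1 g h2)
  rw [key]
  constructor
  · refine forall_congr' fun x => forall_congr' fun _ => forall_congr' fun hx => ?_
    rw [Inv.forall_conj_inv_iff, Inv.forall_conj_mem_iff hx, and_comm]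
  · refine forall_congr' fun x => forall_congr' fun _ => forall_congr' fun hx => ?_
    rw [Inv.existsUnique_fixed_coset_iff hx]

end Cfsg.Agent.S5437
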