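import Mathlib
import Cfsg.Statements.S5438
import Cfsg.Agent.Inv.SylowElt

set_option autoImplicit false
open Cfsg

namespace Cfsg.Agent.S5438

/-- Let z be a 2-central involution of the finite group G (an involution central in some Sylow 2-subgroup) and H a subgroup containing z such that the coset H is the only coset of H fixed by z (in the action of G on the cosets of H). Then H has odd index in G, and for every 2-element x of H the conjugates of x lying in H form a single H-class. -/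
theorem result {G : Type*} [Group G] [Finite G] (z : G) (hz : Cfsg.IsTwoCentralInvolution z) (H : Subgroup G) (hzH : z ∈ H) (hfix : ∀ g : G, g⁻¹ * z * g ∈ H → g ∈ H) : Odd H.index ∧ ∀ x ∈ H, (∃ k : ℕ, orderOf x = 2 ^ k) → ∀ g : G, g * x * g⁻¹ ∈ H → ∃ h ∈ H, h * x * h⁻¹ = g * x * g⁻¹ := by
  obtain ⟨hz2, P, hzP, hP⟩ := hz
  have hfix' : ∀ g : G, g * z * g⁻¹ ∈ H → g ∈ H := fun g hg => by
    simpa using hfix g⁻¹ (by simpa using hg)
  have hPH : (P : Subgroup G) ≤ H := fun x hx => hfix' x (by rw [hP x hx]; simpa using hzH)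
  refine ⟨Nat.not_even_iff_odd.1 fun h => Inv.not_dvd_index_of_sylow_le P hPH h.two_dvd, ?_⟩
  have h2 : ∀ R : Subgroup G, IsPGroup 2 R → z ∈ R → R ≤ H := by
    intro R hR hzR x hx
    obtain ⟨a, ha⟩ := Inv.exists_conj_mem_sylow_of_isPGroup hR P
    have haH := hfix' a (hPH (ha z hzR))
    simpa [mul_assoc] using mul_mem (mul_mem (inv_mem haH) (hPH (ha x hx))) haH
  have key : ∀ x ∈ P, ∀ g : G, g * x * g⁻¹ ∈ P → ∃ h ∈ H, h * x * h⁻¹ = g * x * g⁻¹ := by
    intro x hx g hg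
    set C := Subgroup.centralizer ({x} : Set G) with hC
    have hzC : z ∈ C := Subgroup.mem_centralizer_singleton_iff.2 (hP x hx).symm
    have hwC : g⁻¹ * z * g ∈ C := by
      rw [hC, Subgroup.mem_centralizer_singleton_iff]
      calc g⁻¹ * z * g * x = g⁻¹ * (z * (g * x * g⁻¹)) * g := by group
        _ = x * (g⁻¹ * z * g) := by rw [← hP _ hg]; group
    obtain ⟨R, hR⟩ := Inv.exists_sylow_two_mem (x := (⟨z, hzC⟩ : C)) (by rw [← Subgroup.orderOf_coe]; exact hz2)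
    obtain ⟨c, hc⟩ := Inv.exists_conj_mem_sylow_two (x := (⟨_, hwC⟩ : C))
      (by rw [← Subgroup.orderOf_coe]; exact (Inv.orderOf_conj_inv g z).trans hz2) R
    have h3 := h2 _ (R.isPGroup'.map C.subtype) ⟨_, hR, rfl⟩ ⟨_, hc, rfl⟩
    refine ⟨g * (c : G)⁻¹, hfix _ (by simpa [mul_assoc] using h3), ?_⟩
    have h4 := Subgroup.mem_centralizer_singleton_iff.1 c.2
    calc g * (c : G)⁻¹ * x * (g * (c : G)⁻¹)⁻¹ = g * (c : G)⁻¹ * (x * c) * g⁻¹ := by group
      _ = _ := by rw [← h4]; group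
  rintro x hx ⟨k, hk⟩ g hg
  obtain ⟨a, ha, e1⟩ := Inv.exists_conj_mem_sylow_of_le (Inv.isPGroup_zpowers_of_orderOf hk)
    (Subgroup.zpowers_le_of_mem hx) P hPH
  obtain ⟨b, hb, e2⟩ := Inv.exists_conj_mem_sylow_of_le
    (Inv.isPGroup_zpowers_of_orderOf ((Inv.orderOf_conj' g x).trans hk))
    (Subgroup.zpowers_le_of_mem hg) P hPH
  obtain ⟨h, hh, e⟩ := key _ (e1 x (Subgroup.mem_zpowers _)) (b * g * a⁻¹)
    (by simpa [mul_assoc] using e2 _ (Subgroup.mem_zpowers _))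
  refine ⟨b⁻¹ * h * a, mul_mem (mul_mem (inv_mem hb) hh) ha, ?_⟩
  calc b⁻¹ * h * a * x * (b⁻¹ * h * a)⁻¹ = b⁻¹ * (h * (a * x * a⁻¹) * h⁻¹) * b := by group
    _ = _ := by rw [e]; group

end Cfsg.Agent.S5438
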