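import Mathlib
import Cfsg.Statements.S5439
import Cfsg.Agent.Inv.SE

set_option autoImplicit false
open Cfsg

namespace Cfsg.Agent.S5439

theorem refl_conj {G : Type*} [Group G] {x y : G} (hx : x * x = 1) (hy : y * y = 1) (n : ℤ) :
    IsConj x ((x * y) ^ n * x) ∨ IsConj y ((x * y) ^ n * x) := by
  have key : ∀ t : G, t * (x * y) * t⁻¹ = (x * y)⁻¹ → ∀ k : ℤ, IsConj t ((x * y) ^ (2 * k) * t) := by
    intro t ht k
    refine isConj_iff.2 ⟨(x * y) ^ k, ?_⟩
    rw [← zpow_neg, mul_assoc, ← Inv.zpow_mul_of_inverts ht, ← mul_assoc, ← zpow_add, two_mul]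
  rcases Int.even_or_odd' n with ⟨k, rfl | rfl⟩
  · exact Or.inl (key x (Inv.left_inverts_mul hx hy) k)
  · right
    have h1 : (x * y) ^ (2 * k + 1) * x = (x * y) ^ (2 * (k + 1)) * y := by
      rw [show 2 * (k + 1) = (2 * k + 1) + 1 by ring, zpow_add _ (2 * k + 1) 1, zpow_one,
        mul_assoc _ (x * y) y, Inv.mul_mul_cancel_of_mul_self' hy]
    rw [h1]
    exact key y (Inv.right_inverts_mul hx hy) (k + 1)

/-- Let I and J be two different conjugacy classes of involutions of the finite group G and H a subgroup such that every member of I ∪ J fixes exactly one coset in the action on the cosets of H, and such that for every a in I ∩ H and every b in (I ∪ J) ∩ H different from a and commuting with it, the centralizer of a b lies in H. Then H = G. -/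
theorem result {G : Type*} [Group G] [Finite G] (I J : Set G) (a₀ b₀ : G) (ha₀ : orderOf a₀ = 2) (hb₀ : orderOf b₀ = 2) (hI : I = {x | IsConj a₀ x}) (hJ : J = {x | IsConj b₀ x}) (hIJ : I ≠ J) (H : Subgroup G) (hfix : ∀ x ∈ I ∪ J, ∃! c : G ⧸ H, x • c = c) (hcent : ∀ a ∈ I, a ∈ H → ∀ b ∈ I ∪ J, b ∈ H → a ≠ b → a * b = b * a → Subgroup.centralizer ({a * b} : Set G) ≤ H) : H = ⊤ := by
  by_contra hne
  have hin : ∀ x ∈ I ∪ J, ∃ g : G, g⁻¹ * x * g ∈ H := by
    intro x hx
    obtain ⟨c, hc, -⟩ := hfix x hx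
    induction c using QuotientGroup.induction_on with
    | H g => exact ⟨g, Inv.smul_mk_eq_iff.1 hc⟩
  have huniq : ∀ x ∈ I ∪ J, x ∈ H → ∀ g : G, g⁻¹ * x * g ∈ H → g ∈ H := fun x hx hxH =>
    (Inv.existsUnique_fixed_coset_iff hxH).1 (hfix x hx)
  obtain ⟨g, hg⟩ := hin a₀ (Or.inl (by rw [hI]; exact IsConj.refl _))
  obtain ⟨k, hk⟩ := hin b₀ (Or.inr (by rw [hJ]; exact IsConj.refl _))
  obtain ⟨m, hm⟩ : ∃ m, m ∉ H := by
    by_contra hh
    push Not at hh
    exact hne ((Subgroup.eq_top_iff' H).2 hh)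
  set a := g⁻¹ * a₀ * g with ha
  set b := m⁻¹ * (k⁻¹ * b₀ * k) * m with hb
  have haa : IsConj a₀ a := Inv.isConj_conj_inv g a₀
  have hbb : IsConj b₀ b := (Inv.isConj_conj_inv k b₀).trans (Inv.isConj_conj_inv m _)
  have haI : a ∈ I := by rw [hI]; exact haa
  have hbH : b ∉ H := fun h => hm (huniq _ (Or.inr (by rw [hJ]; exact Inv.isConj_conj_inv k b₀)) hk m h)
  have ha2 := Inv.mul_self_of_two ((Inv.orderOf_eq_of_isConj haa).symm.trans ha₀)
  have hb2 := Inv.mul_self_of_two ((Inv.orderOf_eq_of_isConj hbb).symm.trans hb₀)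
  have hnc : ¬ IsConj a b := by
    intro h
    apply hIJ
    have h' : IsConj a₀ b₀ := (haa.trans h).trans hbb.symm
    rw [hI, hJ]
    ext x
    exact ⟨fun hx => h'.symm.trans hx, fun hx => h'.trans hx⟩
  obtain ⟨z, hz, hz2, hza, hzb⟩ := Inv.exists_central_involution_of_not_isConj ha2 hb2 hnc
  have hzH : z ∈ H := huniq a (Or.inl haI) hg z (by rw [mul_assoc, ← hza.eq]; simpa using hg)
  obtain ⟨n, hn⟩ := Subgroup.mem_zpowers_iff.1 hz
  have hza' : z * a ∈ I ∪ J := by
    rcases refl_conj ha2 hb2 n with h | h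
    · left; rw [hI, ← hn]; exact haa.trans h
    · right; rw [hJ, ← hn]; exact hbb.trans h
  have h1 := hcent a haI hg (z * a) hza' (mul_mem hzH hg)
    (fun e => Inv.ne_one_of_two hz2 (by simpa using e.symm))
    ((hza.symm.mul_right (Commute.refl a)).eq)
  rw [hza.eq, Inv.mul_mul_cancel_of_mul_self ha2] at h1
  exact hbH (h1 (Subgroup.mem_centralizer_singleton_iff.2 hzb.symm.eq))

end Cfsg.Agent.S5439
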