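import Mathlib
import Cfsg.Statements.S5440
import Cfsg.Agent.Spor.LF.Full

set_option autoImplicit false
open Cfsg

namespace Cfsg.Agent.S5440

open Cfsg.Agent.Spor Cfsg.Agent.Spor.LF Cfsg.Agent.Spor.MT Subgroup

/-- Let G be a finite group of large Fischer type at the involution z: the generalized Fitting subgroup Q of H = C_G(z) is extraspecial of order 2^13, H has normal subgroups Q ≤ H₁ ≤ H₂ with H₁/Q of order 3, H₂/H₁ the projective special unitary group of dimension 4 over the field with nine elements and H₂ of index 2 in H, and some conjugate of z other than z lies in Q. Then H has exactly two orbits, under conjugation, on the involutions of Q other than z. -/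
theorem result {G : Type*} [Group G] [Finite G] (z : G) (Q : Subgroup (Subgroup.centralizer ({z} : Set G))) [Q.Normal] (hF : Cfsg.IsOfLargeFischerTypeAt z Q) : ∃ s t : Subgroup.centralizer ({z} : Set G), s ∈ Q ∧ t ∈ Q ∧ orderOf s = 2 ∧ orderOf t = 2 ∧ (s : G) ≠ z ∧ (t : G) ≠ z ∧ (¬ ∃ h : Subgroup.centralizer ({z} : Set G), h * s * h⁻¹ = t) ∧ ∀ x : Subgroup.centralizer ({z} : Set G), x ∈ Q → orderOf x = 2 → (x : G) ≠ z → (∃ h : Subgroup.centralizer ({z} : Set G), h * s * h⁻¹ = x) ∨ ∃ h : Subgroup.centralizer ({z} : Set G), h * t * h⁻¹ = x := by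
  obtain ⟨r, e, b, h, f⟩ := exists_frame hF
  have mk : ∀ m < 4096, (lab m = 1 ∨ lab m = 2) → ∃ s : centralizer ({z} : Set G), s ∈ Q ∧ orderOf s = 2 ∧
      (s : G) ≠ z ∧ Eqv z s (r (e m)) := fun m hm hl => by
    obtain ⟨s, hs, c⟩ := h.r_mem (e m)
    have c1 : Eqv z (s : G) (r (e m)) := Or.inl c
    obtain ⟨a1, a2⟩ := (h.ne_iff c1).1 fun d => by
      rw [(f.crd.eq_zero hm).1 d, (lab_zero (by norm_num)).2 rfl] at hl; omega
    refine ⟨s, hs, ?_, a2, c1⟩
    rw [← orderOf_coe]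
    refine orderOf_eq_two_iff'.2 ⟨a1, (h.sq_iff f hm c1).2 ?_⟩
    rcases hl with d | d <;> rw [qB, d] <;> rfl
  have l1 : lab 5 = 1 := by decide +kernel
  have l2 : lab 0x955 = 2 := by decide +kernel
  obtain ⟨s, s1, s2, s3, s4⟩ := mk 5 (by norm_num) (Or.inl l1)
  obtain ⟨t, t1, t2, t3, t4⟩ := mk 0x955 (by norm_num) (Or.inr l2)
  refine ⟨s, t, s1, t1, s2, t2, s3, t3, ?_, fun x x1 x2 x3 => ?_⟩
  · rintro ⟨x, rfl⟩
    have := f.lab_smul (by norm_num) (by norm_num) (h.eq_of_eqv (h.eqv_conj s4 x) t4)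
    omega
  · rw [← orderOf_coe] at x2
    obtain ⟨a1, a2⟩ := orderOf_eq_two_iff'.1 x2
    obtain ⟨m, hm, c, d⟩ := h.exists_lab f ⟨x, x1, rfl⟩ a1 x3 a2
    have n0 := (h.ne_iff c).2 ⟨a1, x3⟩
    refine d.imp (fun d => ?_) fun d => ?_
    · obtain ⟨k, -, hk⟩ := f.exists_smul (by norm_num) hm (l1.trans d.symm)
      obtain ⟨y, -, hy⟩ := h.exists_conj s4 c n0 hk
      exact ⟨y, Subtype.ext hy⟩
    · obtain ⟨k, -, hk⟩ := f.exists_smul (by norm_num) hm (l2.trans d.symm)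
      obtain ⟨y, -, hy⟩ := h.exists_conj t4 c n0 hk
      exact ⟨y, Subtype.ext hy⟩

end Cfsg.Agent.S5440
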