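import Mathlib
import Cfsg.Statements.S5442
import Cfsg.Agent.Spor.LF.Full

set_option autoImplicit false
open Cfsg

namespace Cfsg.Agent.S5442

open Cfsg.Agent.Spor Cfsg.Agent.Spor.LF Cfsg.Agent.Spor.MT Subgroup

/-- Let G be a finite group of large Fischer type at the involution z: the generalized Fitting subgroup Q of H = C_G(z) is extraspecial of order 2^13, H has normal subgroups Q ≤ H₁ ≤ H₂ with H₁/Q of order 3, H₂/H₁ the projective special unitary group of dimension 4 over the field with nine elements and H₂ of index 2 in H, and some conjugate of z other than z lies in Q. Let s = g z g⁻¹ be a conjugate of z lying in Q and different from z. Then the intersection of Q and g Q g⁻¹ (as subgroups of G) is elementary abelian of order 2^7; and in H/Q, writing X for the image of the centralizer of s in H and E for the image of the intersection of g Q g⁻¹ with H, E is a normal subgroup of X, elementary abelian of order 32, with X/E isomorphic to the alternating group of degree 6. -/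
theorem result {G : Type*} [Group G] [Finite G] (z : G) (Q : Subgroup (Subgroup.centralizer ({z} : Set G))) [Q.Normal] (hF : Cfsg.IsOfLargeFischerTypeAt z Q) (s : G) (hsQ : ∃ hsc : s ∈ Subgroup.centralizer ({z} : Set G), (⟨s, hsc⟩ : Subgroup.centralizer ({z} : Set G)) ∈ Q) (hs : IsConj z s) (hs1 : s ≠ z) (g : G) (hg : g * z * g⁻¹ = s) (X E : Subgroup ((Subgroup.centralizer ({z} : Set G)) ⧸ Q)) (hX : X = ((Subgroup.centralizer ({z} : Set G) ⊓ Subgroup.centralizer ({s} : Set G)).subgroupOf (Subgroup.centralizer ({z} : Set G))).map (QuotientGroup.mk' Q)) (hE : E = ((((Q.map (Subgroup.centralizer ({z} : Set G)).subtype)).map (MulAut.conj g).toMonoidHom ⊓ Subgroup.centralizer ({z} : Set G)).subgroupOf (Subgroup.centralizer ({z} : Set G))).map (QuotientGroup.mk' Q)) : Cfsg.IsElementaryAbelian 2 ((Q.map (Subgroup.centralizer ({z} : Set G)).subtype) ⊓ ((Q.map (Subgroup.centralizer ({z} : Set G)).subtype)).map (MulAut.conj g).toMonoidHom) ∧ Nat.card ↥((Q.map (Subgroup.centralizer ({z} : Set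 G)).subtype) ⊓ ((Q.map (Subgroup.centralizer ({z} : Set G)).subtype)).map (MulAut.conj g).toMonoidHom) = 2 ^ 7 ∧ E ≤ X ∧ (∀ x ∈ X, ∀ y ∈ E, x * y * x⁻¹ ∈ E) ∧ Cfsg.IsElementaryAbelian 2 E ∧ Nat.card E = 32 ∧ ∃ _ : (E.subgroupOf X).Normal, Nonempty (↥X ⧸ E.subgroupOf X ≃* alternatingGroup (Fin 6)) := by
  obtain ⟨r, e, b, h, f⟩ := exists_frame hF
  subst hg
  have hp := h.pair (mem_map_of_exists hsQ) hs1
  obtain ⟨e', b', f', hs'⟩ := h.exists_std f hp
  have n := h.nrm hp hs'
  rw [inf_subgroupOf_right] at hE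
  rw [inf_subgroupOf_left, h.stab_eq hs' (h.ne_zero hp hs')] at hX
  rw [← hE] at n
  subst hX
  obtain ⟨ψ, h1, -, -, h2, -⟩ := f'.exists_alt
  obtain ⟨c, β, h3, h4⟩ := n.beta f' h1 h2
  refine ⟨⟨⟨⟨fun x y => Subtype.ext (hp.E_comm x.2 y.2)⟩⟩, fun x hx => by rw [pow_two, hp.E_sq hx]⟩,
    h.card_inf f hp, n.le, n.norm, ⟨⟨⟨fun x y => Subtype.ext (n.comm x.2 y.2)⟩⟩,
      fun x hx => by rw [pow_two, n.sq x hx]⟩, c, n.normal, ⟨?_⟩⟩
  have := n.normal
  exact (QuotientGroup.quotientMulEquivOfEq (Subgroup.ext fun x => (h3 x).symm)).trans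
    (QuotientGroup.quotientKerEquivOfSurjective β fun σ => ⟨_, h4 σ⟩)

end Cfsg.Agent.S5442
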