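import Mathlib
import Cfsg.Statements.S5443
import Cfsg.Agent.Spor.LF.E6

set_option autoImplicit false
open Cfsg

namespace Cfsg.Agent.S5443

open Cfsg.Agent.Spor Cfsg.Agent.Spor.LF Cfsg.Agent.Spor.MT Subgroup

/-- Let G be a finite group of large Fischer type at the involution z: the generalized Fitting subgroup Q of H = C_G(z) is extraspecial of order 2^13, H has normal subgroups Q ≤ H₁ ≤ H₂ with H₁/Q of order 3, H₂/H₁ the projective special unitary group of dimension 4 over the field with nine elements and H₂ of index 2 in H, and some conjugate of z other than z lies in Q. Let t be an involution of Q not conjugate to z in G, and S the set of elements of H conjugating t to t or to t z (the stabilizer of the image of t in Q modulo its centre). Then the image of S in H/Q is isomorphic to the full isometry group of the elliptic quadratic form in dimension 6 over the field with two elements. -/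
theorem result {G : Type*} [Group G] [Finite G] (z : G) (Q : Subgroup (Subgroup.centralizer ({z} : Set G))) [Q.Normal] (hF : Cfsg.IsOfLargeFischerTypeAt z Q) (t : Subgroup.centralizer ({z} : Set G)) (htQ : t ∈ Q) (ht2 : orderOf t = 2) (ht : ¬ IsConj z (t : G)) (S : Subgroup (Subgroup.centralizer ({z} : Set G))) (hS : ∀ h : Subgroup.centralizer ({z} : Set G), h ∈ S ↔ (h * t * h⁻¹ = t ∨ ((h * t * h⁻¹ : Subgroup.centralizer ({z} : Set G)) : G) = t * z)) : Nonempty (↥(S.map (QuotientGroup.mk' Q)) ≃* Cfsg.isometryGroup (ZMod 2) (Cfsg.quadFormMinus 2 (ZMod 2) 1 1)) := by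
  obtain ⟨r, e, b, h, f⟩ := exists_frame9 hF
  rw [← orderOf_coe] at ht2
  obtain ⟨a1, a2⟩ := orderOf_eq_two_iff'.1 ht2
  have a3 : (t : G) ≠ z := fun c => ht (by rw [c])
  obtain ⟨m, hm, c, d⟩ := h.exists_lab (s := t) f.fr ⟨t, htQ, rfl⟩ a1 a3 a2
  obtain ⟨e, b, f, c1⟩ := f.exists_conj (m := 5) (by norm_num) hm rfl (by
    rw [d.resolve_right fun d => ht (h.conj_of_lab f.fr (setting_nwc hF.1) hm c d)]; decide +kernel)
  rw [← c1] at c
  have n0 := (h.ne_iff c).2 ⟨a1, a3⟩
  have : S.map (QuotientGroup.mk' Q) = MulAction.stabilizer _ (e 5) := by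
    ext y
    constructor
    · rintro ⟨x, hx, rfl⟩
      refine h.eq_of_eqv (h.eqv_conj c x) ?_
      rcases (hS x).1 hx with d | d
      · rw [show (x : G) * t * (x : G)⁻¹ = t from congrArg Subtype.val d]; exact c
      · rw [show (x : G) * t * (x : G)⁻¹ = t * z from d, ← EData.zc t]
        exact Eqv.trans h.zz (Or.inr rfl) c
    · intro hy
      obtain ⟨x, hx, d⟩ := h.exists_conj c c n0 hy
      exact ⟨x, (hS x).2 (Or.inl (Subtype.ext d)), hx⟩
  rw [this]
  exact f.stab_root

end Cfsg.Agent.S5443
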