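import Mathlib
import Cfsg.Agent.F24T.Main
import Cfsg.Agent.GT.PGroupElemAb
import Cfsg.Statements.S5444
-- import your own Cfsg.Agent.* helpers here

set_option autoImplicit false
open Cfsg
open scoped Pointwise

namespace Cfsg.Agent.S5444

/-- Let G be a finite group of large Fischer type at the involution z: the generalized Fitting subgroup Q of H = C_G(z) is extraspecial of order 2^13, H has normal subgroups Q ≤ H₁ ≤ H₂ with H₁/Q of order 3, H₂/H₁ the projective special unitary group of dimension 4 over the field with nine elements and H₂ of index 2 in H, and some conjugate of z other than z lies in Q. Let T be a Sylow 2-subgroup of H. Then T has exactly one elementary abelian subgroup A of largest order; A has order 2^11, it meets Q in a subgroup of order 2^7, and its image in H/Q has order 16. -/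
theorem result {G : Type*} [Group G] [Finite G] (z : G) (Q : Subgroup (Subgroup.centralizer ({z} : Set G))) [Q.Normal] (hF : Cfsg.IsOfLargeFischerTypeAt z Q) (T : Sylow 2 ↥(Subgroup.centralizer ({z} : Set G))) : ∃ A : Subgroup ↥(T : Subgroup (Subgroup.centralizer ({z} : Set G))), Cfsg.maxElementaryAbelianSubgroups 2 ↥(T : Subgroup (Subgroup.centralizer ({z} : Set G))) = {A} ∧ Nat.card A = 2 ^ 11 ∧ Nat.card ↥(A.map (T : Subgroup (Subgroup.centralizer ({z} : Set G))).subtype ⊓ Q) = 2 ^ 7 ∧ Nat.card ↥((A.map (T : Subgroup (Subgroup.centralizer ({z} : Set G))).subtype).map (QuotientGroup.mk' Q)) = 16 := by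
  obtain ⟨g, l, hQ, s⟩ := F24T.exists_stX hF
  have VH : J4T.VG z g l ≤ Subgroup.centralizer ({z} : Set G) := s.V_le_T.trans (s.T_le_A.trans inf_le_left)
  have pV : IsPGroup 2 ((J4T.VG z g l).subgroupOf (Subgroup.centralizer ({z} : Set G))) :=
    IsPGroup.of_card (n := 11) (by
      rw [Nat.card_congr (Subgroup.subgroupOfEquivOfLe VH).toEquiv, s.card_V])
  obtain ⟨S, hS⟩ := pV.exists_le_sylow
  obtain ⟨x, rfl⟩ := MulAction.exists_smul_eq (Subgroup.centralizer ({z} : Set G)) S T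
  let ψ : Subgroup.centralizer ({z} : Set G) →* G :=
    (Subgroup.centralizer ({z} : Set G)).subtype.comp (MulAut.conj x⁻¹).toMonoidHom
  have iψ : Function.Injective ψ := Subtype.val_injective.comp (MulAut.conj x⁻¹).injective
  let φ := ψ.comp (x • S : Sylow 2 _).1.subtype
  have iφ : Function.Injective φ := iψ.comp Subtype.val_injective
  have Vφ : J4T.VG z g l ≤ φ.range := fun v hv => by
    refine ⟨⟨x * ⟨v, VH hv⟩ * x⁻¹, ?_⟩, ?_⟩
    · exact Subgroup.smul_mem_pointwise_smul _ (MulAut.conj x) _ (hS hv)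
    · show (x⁻¹ * (x * ⟨v, VH hv⟩ * x⁻¹) * x⁻¹⁻¹ : Subgroup.centralizer ({z} : Set G)).1 = v
      rw [show x⁻¹ * (x * ⟨v, VH hv⟩ * x⁻¹) * x⁻¹⁻¹ = ⟨v, VH hv⟩ by group]
  have mA : ((J4T.VG z g l).comap φ).map φ = J4T.VG z g l := Subgroup.map_comap_eq_self Vφ
  have cA : Nat.card ((J4T.VG z g l).comap φ) = 2 ^ 11 := by
    rw [← Subgroup.card_map_of_injective iφ, mA, s.card_V]
  have key : ∀ B, Cfsg.IsElementaryAbelian 2 B → 2 ^ 11 ≤ Nat.card B → B = (J4T.VG z g l).comap φ := by
    intro B hB hc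
    rw [← s.eq_V_of_le ((x • S : Sylow 2 _).2.of_surjective _ φ.rangeRestrict_surjective) Vφ
      (Subgroup.map_le_range φ B) (hB.map φ) (by rwa [Subgroup.card_map_of_injective iφ]),
      Subgroup.comap_map_eq_self_of_injective iφ]
  have Qψ : Q.map ψ = J4T.QG g := by
    rw [hQ, ← Subgroup.map_map]
    congr 1
    refine le_antisymm ?_ fun q hq => ⟨x * q * x⁻¹, ‹Q.Normal›.conj_mem _ hq _, ?_⟩
    · rintro _ ⟨q, hq, rfl⟩
      exact ‹Q.Normal›.conj_mem _ hq _
    · show x⁻¹ * (x * q * x⁻¹) * x⁻¹⁻¹ = q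
      group
  have c7 : Nat.card ↥(((J4T.VG z g l).comap φ).map (x • S : Sylow 2 _).1.subtype ⊓ Q) = 2 ^ 7 := by
    rw [← Subgroup.card_map_of_injective iψ, Subgroup.map_inf _ _ _ iψ, Subgroup.map_map, mA, Qψ,
      ← Nat.card_eq_of_bijective (fun a : {a : Fin 2048 // a.1 / 64 % 16 = 0} =>
        (⟨J4T.vv z g l a.1, s.mem_VG.2 ⟨_, a.1.2, rfl⟩, (s.vv_mem_Q a.1.2).2 a.2⟩ : ↥(J4T.VG z g l ⊓ J4T.QG g)))
        ⟨fun a b e => Subtype.ext (Fin.ext (s.vv_inj a.1.2 b.1.2 (congrArg Subtype.val e))), fun y => by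
          obtain ⟨a, ha, e⟩ := s.mem_VG.1 y.2.1
          exact ⟨⟨⟨a, ha⟩, (s.vv_mem_Q ha).1 (e ▸ y.2.2)⟩, Subtype.ext e⟩⟩, Nat.card_eq_fintype_card]
    decide +kernel
  refine ⟨(J4T.VG z g l).comap φ, Set.eq_singleton_iff_unique_mem.2 ⟨⟨s.elem_V.comap iφ, fun B hB => ?_⟩,
    fun B hB => key B hB.1 (cA ▸ hB.2 _ (s.elem_V.comap iφ))⟩, cA, c7, ?_⟩
  · by_contra k
    rw [key B hB (by omega)] at k
    exact k le_rfl
  · set A := ((J4T.VG z g l).comap φ).map (x • S : Sylow 2 _).1.subtype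
    have c11 : Nat.card A = 2 ^ 11 := by rw [Subgroup.card_map_of_injective Subtype.val_injective, cA]
    have := Subgroup.relIndex_ker A (QuotientGroup.mk' Q)
    rw [QuotientGroup.ker_mk'] at this
    have e := (Q.subgroupOf A).card_mul_index
    rw [← Subgroup.inf_subgroupOf_left, Nat.card_congr (Subgroup.subgroupOfEquivOfLe inf_le_left).toEquiv, c7, c11,
      Subgroup.inf_subgroupOf_left] at e
    rw [← this, Subgroup.relIndex]
    omega

end Cfsg.Agent.S5444
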