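import Mathlib
import Cfsg.Statements.S5445
import Cfsg.Agent.Spor.LF.EightG

set_option autoImplicit false
open Cfsg

namespace Cfsg.Agent.S5445

open Cfsg.Agent.Spor Cfsg.Agent.Spor.LF Cfsg.Agent.Spor.MT Subgroup

/-- Let G be a finite group of large Fischer type at the involution z: the generalized Fitting subgroup Q of H = C_G(z) is extraspecial of order 2^13, H has normal subgroups Q ≤ H₁ ≤ H₂ with H₁/Q of order 3, H₂/H₁ the projective special unitary group of dimension 4 over the field with nine elements and H₂ of index 2 in H, and some conjugate of z other than z lies in Q. Then G has an elementary abelian subgroup V of order 8 containing z whose normalizer L has the following structure: the largest normal 2-subgroup R of L is special of order 2^15 with centre V, and L/R is isomorphic to the direct product of SL(3, 2) and the alternating group of degree 6. -/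
theorem result {G : Type*} [Group G] [Finite G] (z : G) (Q : Subgroup (Subgroup.centralizer ({z} : Set G))) [Q.Normal] (hF : Cfsg.IsOfLargeFischerTypeAt z Q) : ∃ V : Subgroup G, Cfsg.IsElementaryAbelian 2 V ∧ Nat.card V = 8 ∧ z ∈ V ∧ ∃ R : Subgroup G, R = (Cfsg.pCore 2 ↥(Subgroup.normalizer (V : Set G))).map (Subgroup.normalizer (V : Set G)).subtype ∧ Cfsg.IsSpecial 2 ↥R ∧ Nat.card R = 2 ^ 15 ∧ (Subgroup.center ↥R).map R.subtype = V ∧ ∃ _ : (R.subgroupOf (Subgroup.normalizer (V : Set G))).Normal, Nonempty (↥(Subgroup.normalizer (V : Set G)) ⧸ R.subgroupOf (Subgroup.normalizer (V : Set G)) ≃* Matrix.SpecialLinearGroup (Fin 3) (ZMod 2) × ↥(alternatingGroup (Fin 6))) := by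
  obtain ⟨r, e, b, h, f⟩ := exists_frame hF
  obtain ⟨g, h1, h2⟩ := setting_nwc hF.1
  obtain ⟨e', b', f', hs⟩ := h.exists_std f (h.pair h1 h2)
  have d : Std _ _ z _ _ r e' b' := ⟨h, f', h.pair h1 h2, hs⟩
  obtain ⟨a1, φ, a2, a3⟩ := d.exists_phi
  have a4 : d.T.subgroupOf (normalizer (d.W 2 : Set G)) = φ.ker := by
    rw [a3, ← a1]; exact comap_map_eq_self_of_injective (subtype_injective _) _
  have a5 : (d.T.subgroupOf (normalizer (d.W 2 : Set G))).Normal := a4 ▸ φ.normal_ker
  refine ⟨d.W 2, d.elem, d.card_W 2, d.z_mem 2, d.T, a1.symm, d.special fun x hx y hy => ?_, d.card_T,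
    by rw [d.center_T, map_subgroupOf_eq_of_le d.W_le_T], a5, ⟨(QuotientGroup.quotientMulEquivOfEq a4).trans
      (QuotientGroup.quotientKerEquivOfSurjective φ a2)⟩⟩
  exact a5.conj_mem ⟨y, centralizer_le_normalizer _ hy.1⟩ hy ⟨x, hx⟩

end Cfsg.Agent.S5445
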