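import Mathlib
import Cfsg.Agent.F24T.Fv
import Cfsg.Statements.S5447
-- import your own Cfsg.Agent.* helpers here

set_option autoImplicit false
open Cfsg

namespace Cfsg.Agent.S5447

/-- Let G be a finite group of large Fischer type at the involution z: the generalized Fitting subgroup Q of H = C_G(z) is extraspecial of order 2^13, H has normal subgroups Q ≤ H₁ ≤ H₂ with H₁/Q of order 3, H₂/H₁ the projective special unitary group of dimension 4 over the field with nine elements and H₂ of index 2 in H, and some conjugate of z other than z lies in Q. Let T be a Sylow 2-subgroup of G, A its Thompson subgroup and M = N_G(A) its normalizer. Then M controls fusion in A (elements of A conjugate in G are conjugate in M), and M has exactly two orbits on the non-identity elements of A: those conjugate to z in G and those not. -/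
theorem result {G : Type*} [Group G] [Finite G] (z : G) (Q : Subgroup (Subgroup.centralizer ({z} : Set G))) [Q.Normal] (hF : Cfsg.IsOfLargeFischerTypeAt z Q) (T : Sylow 2 G) (A M : Subgroup G) (hA : A = Cfsg.thompsonSubgroupOf 2 (T : Subgroup G)) (hM : M = Subgroup.normalizer (A : Set G)) : (∀ a ∈ A, ∀ g : G, g * a * g⁻¹ ∈ A → ∃ m ∈ M, m * a * m⁻¹ = g * a * g⁻¹) ∧ (∃ a ∈ A, a ≠ 1 ∧ IsConj z a) ∧ (∃ a ∈ A, a ≠ 1 ∧ ¬ IsConj z a) ∧ ∀ a ∈ A, ∀ b ∈ A, a ≠ 1 → b ≠ 1 → (IsConj z a ↔ IsConj z b) → ∃ m ∈ M, m * a * m⁻¹ = b := by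
  subst hA hM
  obtain ⟨σ, Z, h⟩ := F24T.exists_fv hF T
  have z1 : z ≠ 1 := fun e => by
    have := hF.1.1
    rw [e, orderOf_one] at this
    exact absurd this (by decide)
  obtain ⟨s2, -, h2⟩ := Finset.exists_subset_card_eq (s := (Finset.univ : Finset Cfsg.GolayPt)) (n := 2) (by decide)
  obtain ⟨s4, -, h4⟩ := Finset.exists_subset_card_eq (s := (Finset.univ : Finset Cfsg.GolayPt)) (n := 4) (by decide)
  refine ⟨fun a ha g hg => h.fus a ha _ hg (isConj_iff.2 ⟨g, rfl⟩), ⟨Z s4, h.mem _, fun e => z1 ?_, h.four _ h4⟩,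
    ⟨Z s2, h.mem _, (h.two _ h2).2, (h.two _ h2).1⟩, fun a ha b hb a1 b1 e => ?_⟩
  · have := h.four _ h4
    rwa [e, isConj_one_left] at this
  · obtain ⟨s, hs, rfl⟩ := h.small a ha a1
    obtain ⟨u, hu, rfl⟩ := h.small b hb b1
    have : s.card = u.card := by
      rcases hs with hs | hs <;> rcases hu with hu | hu
      · omega
      · exact absurd (e.2 (h.four _ hu)) (h.two _ hs).1
      · exact absurd (e.1 (h.four _ hs)) (h.two _ hu).1
      · omega
    obtain ⟨n, -, k⟩ := h.exists_n this hs
    exact ⟨n, n.2, k⟩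

end Cfsg.Agent.S5447
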