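import Mathlib
import Cfsg.Agent.F24T.Fv
import Cfsg.Agent.F24T.K22A
import Cfsg.Statements.S5448
-- import your own Cfsg.Agent.* helpers here

set_option autoImplicit false
open scoped Pointwise
open Cfsg
open scoped Pointwise

namespace Cfsg.Agent.S5448

/-- Let G be a finite group of large Fischer type at the involution z: the generalized Fitting subgroup Q of H = C_G(z) is extraspecial of order 2^13, H has normal subgroups Q ≤ H₁ ≤ H₂ with H₁/Q of order 3, H₂/H₁ the projective special unitary group of dimension 4 over the field with nine elements and H₂ of index 2 in H, and some conjugate of z other than z lies in Q. Let T be a Sylow 2-subgroup of G, A its Thompson subgroup, M = N_G(A) its normalizer, and t an involution of A not conjugate to z in G. Then the centralizer of t in M, modulo A, is isomorphic to the setwise stabilizer of a two-element subset of the 24 points in the Mathieu group of degree 24 (the automorphism group of the smaller Mathieu group on 22 points). -/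
theorem result {G : Type*} [Group G] [Finite G] (z : G) (Q : Subgroup (Subgroup.centralizer ({z} : Set G))) [Q.Normal] (hF : Cfsg.IsOfLargeFischerTypeAt z Q) (T : Sylow 2 G) (A M : Subgroup G) (hA : A = Cfsg.thompsonSubgroupOf 2 (T : Subgroup G)) (hM : M = Subgroup.normalizer (A : Set G)) (t : G) (htA : t ∈ A) (ht2 : orderOf t = 2) (ht : ¬ IsConj z t) : ∃ _ : (A.subgroupOf (M ⊓ Subgroup.centralizer ({t} : Set G))).Normal, Nonempty (↥(M ⊓ Subgroup.centralizer ({t} : Set G)) ⧸ A.subgroupOf (M ⊓ Subgroup.centralizer ({t} : Set G)) ≃* ↥(Cfsg.M24 ⊓ MulAction.stabilizer (Equiv.Perm Cfsg.GolayPt) ({none, some 0} : Set Cfsg.GolayPt))) := by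
  subst hM
  obtain ⟨σ, Z, h⟩ : ∃ σ Z, F24T.Fv z A σ Z := hA ▸ F24T.exists_fv hF T
  clear hA
  obtain ⟨s, hs, rfl⟩ := h.small t htA (fun e => by rw [e, orderOf_one] at ht2; exact absurd ht2 (by decide))
  have hs2 : s.card = 2 := hs.resolve_right fun e => ht (h.four s e)
  obtain ⟨k, hk, e⟩ := F24T.exists_smul_of_card (s := s) (u := {none, some 0}) (by rw [hs2]; rfl) (by omega)
  let N := Subgroup.normalizer (A : Set G) ⊓ Subgroup.centralizer ({Z s} : Set G)
  let ι : N →* Subgroup.normalizer (A : Set G) := Subgroup.inclusion inf_le_left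
  have fx : ∀ n : Subgroup.normalizer (A : Set G), (n : G) ∈ Subgroup.centralizer ({Z s} : Set G) ↔ σ n • s = s := by
    intro n
    have a := h.act n s (by rw [hs2]; decide)
    rw [Subgroup.mem_centralizer_singleton_iff]
    constructor
    · intro c
      refine h.inj _ _ (by rw [Finset.card_smul_finset, hs2]) hs2 ?_
      rw [← a, c, mul_inv_cancel_right]
    · intro c
      rw [c] at a
      exact mul_inv_eq_iff_eq_mul.1 a
  have st : ∀ p : Equiv.Perm Cfsg.GolayPt, p ∈ MulAction.stabilizer (Equiv.Perm Cfsg.GolayPt)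
      ({none, some 0} : Set Cfsg.GolayPt) ↔ (k⁻¹ * p * k) • s = s := by
    intro p
    rw [MulAction.mem_stabilizer_iff, mul_smul, mul_smul, inv_smul_eq_iff, e, ← Finset.coe_inj,
      Finset.coe_smul_finset, Finset.coe_pair]
  have mM : ∀ n, σ n ∈ Cfsg.M24 := fun n => h.range ▸ ⟨n, rfl⟩
  let f : N →* ↥(Cfsg.M24 ⊓ MulAction.stabilizer (Equiv.Perm Cfsg.GolayPt) ({none, some 0} : Set Cfsg.GolayPt)) :=
    MonoidHom.codRestrict ((MulAut.conj k).toMonoidHom.comp (σ.comp ι)) _ fun n =>
      Subgroup.mem_inf.2 ⟨mul_mem (mul_mem hk (mM _)) (inv_mem hk), (st _).2 (by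
        have := (fx (ι n)).1 n.2.2
        show (k⁻¹ * (k * σ (ι n) * k⁻¹) * k) • s = s
        rwa [show k⁻¹ * (k * σ (ι n) * k⁻¹) * k = σ (ι n) by group])⟩
  have sf : Function.Surjective f := by
    rintro ⟨p, hp, hp'⟩
    have : k⁻¹ * p * k ∈ σ.range := h.range ▸ mul_mem (mul_mem (inv_mem hk) hp) hk
    obtain ⟨n, hn⟩ := this
    refine ⟨⟨n, n.2, (fx n).2 (hn ▸ (st p).1 hp')⟩, Subtype.ext ?_⟩
    show k * σ n * k⁻¹ = p
    rw [hn]; group
  have ke : A.subgroupOf N = f.ker := Subgroup.ext fun n => by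
    rw [Subgroup.mem_subgroupOf, MonoidHom.mem_ker, Subtype.ext_iff]
    show _ ↔ k * σ (ι n) * k⁻¹ = 1
    rw [conj_eq_one_iff, h.ker]; rfl
  have : (A.subgroupOf N).Normal := ke ▸ inferInstance
  refine ⟨this, ⟨?_⟩⟩
  exact (QuotientGroup.quotientMulEquivOfEq ke).trans (QuotientGroup.quotientKerEquivOfSurjective f sf)

end Cfsg.Agent.S5448
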