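import Mathlib
import Cfsg.Agent.F24T.Main
import Cfsg.Agent.F24T.U6
import Cfsg.Agent.F24T.StU
import Cfsg.Statements.S5449
-- import your own Cfsg.Agent.* helpers here

set_option autoImplicit false
open Cfsg

namespace Cfsg.Agent.S5449

/-- Let G be a finite group of large Fischer type at the involution z: the generalized Fitting subgroup Q of H = C_G(z) is extraspecial of order 2^13, H has normal subgroups Q ≤ H₁ ≤ H₂ with H₁/Q of order 3, H₂/H₁ the projective special unitary group of dimension 4 over the field with nine elements and H₂ of index 2 in H, and some conjugate of z other than z lies in Q. Then Q contains a four-group E, not containing z and containing an involution not conjugate to z in G, whose centralizer in G is quasisimple with quotient by E isomorphic to the projective special unitary group of dimension 6 over the field with four elements. -/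
theorem result {G : Type*} [Group G] [Finite G] (z : G) (Q : Subgroup (Subgroup.centralizer ({z} : Set G))) [Q.Normal] (hF : Cfsg.IsOfLargeFischerTypeAt z Q) : ∃ E : Subgroup G, E ≤ (Q.map (Subgroup.centralizer ({z} : Set G)).subtype) ∧ Cfsg.IsElementaryAbelian 2 E ∧ Nat.card E = 4 ∧ z ∉ E ∧ (∃ t ∈ E, orderOf t = 2 ∧ ¬ IsConj z t) ∧ Cfsg.IsQuasisimple ↥(Subgroup.centralizer (E : Set G)) ∧ ∃ (_ : (E.subgroupOf (Subgroup.centralizer (E : Set G))).Normal) (K : Type) (_ : Field K) (_ : Fintype K), Fintype.card K = 4 ∧ Nonempty (↥(Subgroup.centralizer (E : Set G)) ⧸ E.subgroupOf (Subgroup.centralizer (E : Set G)) ≃* Cfsg.PSU 6 K 2) := by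
    obtain ⟨g, l, σ, e, s⟩ := F24T.exists_stS hF
    obtain ⟨π, act, h⟩ := s.o.x.four
    have k := s.stU
    refine ⟨Subgroup.closure {g 0, g 1}, e ▸ h.E_le, ⟨⟨⟨fun a b => Subtype.ext ?_⟩⟩, fun a ha => ?_⟩, h.card_E,
      h.z_not_mem, ⟨g 0, Subgroup.subset_closure (Or.inl rfl), Spor.orderOf_eq_two_iff'.2 ⟨h.t1, h.tt⟩,
        h.not_isConj⟩, ?_⟩
    · exact (F24T.centralizer_E (g 0) (g 1) ▸ h.E_le_cen b.2 :
        (b : G) ∈ Subgroup.centralizer (Subgroup.closure {g 0, g 1} : Set G)) a a.2
    · rcases h.mem_E.1 ha with rfl | rfl | rfl | rfl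
      · exact one_pow 2
      · rw [pow_two, h.tt]
      · rw [pow_two, h.uu]
      · rw [h.tu.mul_pow, pow_two, pow_two, h.tt, h.uu, one_mul]
    · rw [F24T.centralizer_E]
      obtain ⟨hN, e⟩ := k.quot
      exact ⟨k.qs, hN, Cl.GF4, inferInstance, inferInstance, Cl.card_GF4, e⟩

end Cfsg.Agent.S5449
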