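import Mathlib
import Cfsg.Statements.S5465
import Cfsg.Agent.Spor.Out.T24
import Cfsg.Agent.Spor.Out.Fi22M
import Cfsg.Agent.Inv.Classes
import Cfsg.Agent.Spor.TTBasic
import Cfsg.Agent.GT.FStar
import Cfsg.Agent.Fus.FactorSat

set_option autoImplicit false
open Cfsg

namespace Cfsg.Agent.S5465

open MulAction Agent.Spor Agent.Spor.OutC

theorem isPerfect {N Q : Type*} [Group N] [Group Q] [IsSimpleGroup Q] (hQ : Subgroup.center Q = ⊥) (θ : N →* Q)
    (hs : Function.Surjective θ) {j : N} (hk : ∀ a, θ a = 1 ↔ a = 1 ∨ a = j) (h2 : ∀ L : Subgroup N, L.index ≠ 2) :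
    Group.IsPerfect N := by
  have h1 : (commutator N).map θ = ⊤ := by
    rw [map_commutator_eq, MonoidHom.range_eq_top.2 hs, ← commutator_def]
    refine (IsSimpleGroup.eq_bot_or_eq_top_of_normal _ inferInstance).resolve_left fun h => ?_
    rw [commutator_def, Subgroup.commutator_eq_bot_iff_le_centralizer, Subgroup.coe_top, Subgroup.centralizer_univ,
      hQ] at h
    exact top_ne_bot (le_bot_iff.1 h)
  have h3 : ∀ b, b ∈ commutator N ∨ b * j⁻¹ ∈ commutator N := fun b => by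
    obtain ⟨c, hc, h4⟩ : θ b ∈ (commutator N).map θ := h1 ▸ trivial
    refine ((hk (c⁻¹ * b)).1 (by rw [map_mul, map_inv, h4, inv_mul_cancel])).imp (fun e => ?_) fun e => ?_
    · rwa [← inv_mul_eq_one.1 e]
    · rwa [← e, mul_inv_rev, inv_inv, mul_inv_cancel_left]
  by_cases hj : j⁻¹ ∈ commutator N
  · exact ⟨eq_top_iff.2 fun b _ => (h3 b).elim id (Subgroup.mul_mem_cancel_right _ hj).1⟩
  refine absurd (Subgroup.index_eq_two_iff.2 ⟨j⁻¹, fun b => ?_⟩) (h2 (commutator N))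
  by_cases hb : b ∈ commutator N
  · exact Or.inr ⟨hb, fun h => hj ((Subgroup.mul_mem_cancel_left _ hb).1 h)⟩
  · exact Or.inl ⟨(h3 b).resolve_left hb, hb⟩

theorem main {H Q : Type*} [Group H] [Group Q] [Finite H] [IsSimpleGroup Q] (hQ : Subgroup.center Q = ⊥)
    {N : Subgroup H} (hi : N.index = 2) (θ : N →* Q) (hs : Function.Surjective θ) {j : N} (hj : j ≠ 1)
    (hk : ∀ a, θ a = 1 ↔ a = 1 ∨ a = j) (h2 : ∀ L : Subgroup N, L.index ≠ 2)
    (hC : Subgroup.centralizer (N : Set H) ≤ N) (hO : Nat.card (Out Q) = 2) (Z : Subgroup H) [Z.Normal]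
    (hZ : ∀ a, a ∈ Z ↔ a = 1 ∨ a = j) :
    IsQuasisimple N ∧ generalizedFittingSubgroup H = N ∧ Nonempty (H ⧸ Z ≃* MulAut Q) := by
  have := Subgroup.normal_of_index_eq_two hi
  have := isPerfect hQ θ hs hk h2
  have := Finite.of_surjective θ hs
  obtain ⟨-, ⟨e⟩, -⟩ := nonsplit_of_hom θ hs hQ hj hk h2
  have hq : IsQuasisimple N := ⟨inferInstance, e.isSimpleGroup⟩
  have hc : IsComponent N := ⟨Subgroup.Normal.isSubnormal inferInstance, hq⟩
  have hz : ∀ a : N, θ a = 1 ↔ (a : H) ∈ Z := fun a => by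
    rw [hk, hZ, Subtype.ext_iff, Subtype.ext_iff, Subgroup.coe_one]
  refine ⟨hq, le_antisymm (GT.genFitting_le_of_centralizer_le hc.1
    ((Subgroup.le_centralizer_iff.1 hc.le_centralizer_fitting).trans hC) hC) hc.le_genFitting, ?_⟩
  obtain ⟨ρ, hρ⟩ := Fus.exists_autPush θ hs (MulAut.conjNormal (H := N)).range (by
    rintro _ ⟨h, rfl⟩ x hx
    rw [hz] at hx ⊢
    exact Subgroup.Normal.conj_mem inferInstance _ hx h)
  have hΦ : ∀ h n, (ρ.comp (MulAut.conjNormal (H := N)).rangeRestrict) h (θ n) = θ (MulAut.conjNormal h n) :=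
    fun h n => hρ _ n
  generalize ρ.comp (MulAut.conjNormal (H := N)).rangeRestrict = Φ at hΦ
  have hcen : ∀ a : N, θ a = 1 → a ∈ Subgroup.center N := fun a h => Subgroup.mem_center_iff.2 fun y => by
    rcases (hk a).1 h with rfl | rfl
    · simp
    · rcases (hk (y * a * y⁻¹)).1 (by simp [h]) with h3 | h3
      · exact absurd (by simpa using h3) hj
      · exact mul_inv_eq_iff_eq_mul.1 h3
  have hker : Φ.ker = Z := by
    refine le_antisymm (fun h hh => ?_) fun h hh => ?_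
    · have h3 : ∀ n, θ (MulAut.conjNormal h n) = θ n := fun n => by rw [← hΦ, show Φ h = 1 from hh]; rfl
      have h4 : h ∈ N := hC fun n hn => by
        have := GT.perfect_hom_eq_self (MulAut.conjNormal h : MulAut N).toMonoidHom
          (fun x => hcen _ (by rw [map_mul, map_inv]; exact mul_inv_eq_one.2 (h3 x))) ⟨n, hn⟩
        exact (mul_inv_eq_iff_eq_mul.1 (congrArg Subtype.val this)).symm
      refine (hz ⟨h, h4⟩).1 (Subgroup.mem_bot.1 (hQ ▸ Subgroup.mem_center_iff.2 fun b => ?_))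
      obtain ⟨n, rfl⟩ := hs b
      rw [← h3 n, ← map_mul, h3, ← map_mul]
      exact congrArg θ (Subtype.ext (inv_mul_cancel_right _ _))
    · have h4 : h ∈ N := by
        rcases (hZ h).1 hh with rfl | rfl
        exacts [one_mem _, j.2]
      refine MulEquiv.ext fun b => ?_
      obtain ⟨n, rfl⟩ := hs b
      rw [hΦ, show MulAut.conjNormal h n = ⟨h, h4⟩ * n * ⟨h, h4⟩⁻¹ from rfl, map_mul, map_mul, map_inv,
        (hz ⟨h, h4⟩).2 hh, one_mul, inv_one, mul_one]
      rfl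
  have c1 : Nat.card (MulAut Q) = Nat.card Q * 2 := by
    rw [← (Inn Q).card_mul_index, show (Inn Q).index = 2 from hO]
    congr 1
    refine (Nat.card_congr (MonoidHom.ofInjective ?_).toEquiv).symm
    rw [← MonoidHom.ker_eq_bot_iff, eq_bot_iff, ← hQ]
    exact fun a ha => Subgroup.mem_center_iff.2 fun b =>
      (mul_inv_eq_iff_eq_mul.1 (DFunLike.congr_fun (show MulAut.conj a = 1 from ha) b)).symm
  have c2 : Nat.card θ.ker = Nat.card Z := Nat.card_congr
    ⟨fun a => ⟨a, (hz a).1 a.2⟩, fun a => ⟨⟨a, by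
      rcases (hZ a).1 a.2 with e | e <;> rw [e]
      exacts [one_mem _, j.2]⟩, (hz _).2 a.2⟩, fun _ => rfl, fun _ => rfl⟩
  have c3 := θ.ker.card_mul_index
  have c4 := Φ.ker.card_mul_index
  rw [Subgroup.index_ker, MonoidHom.range_eq_top.2 hs, Subgroup.card_top, c2] at c3
  rw [Subgroup.index_ker, hker, ← N.card_mul_index, hi, ← c3, mul_assoc, ← c1] at c4
  have : Finite (MulAut Q) := Nat.finite_of_card_ne_zero (by rw [c1]; exact mul_ne_zero Nat.card_pos.ne' two_ne_zero)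
  exact ⟨(QuotientGroup.quotientMulEquivOfEq hker.symm).trans (QuotientGroup.quotientKerEquivOfSurjective Φ
    (MonoidHom.range_eq_top.1 (Subgroup.eq_top_of_card_eq _ (Nat.eq_of_mul_eq_mul_left Nat.card_pos c4))))⟩

theorem f23_move {d3 : Fin 31671 → Spor.Fi23} (h : Tr d3) (hz : d3 (finE 31671 0) = MFi23.z) {k : Fin 31671}
    (hk : k ≠ finE 31671 0) (h1 : MFi23.z • k = k) : ∃ m : Fin 31671, MFi23.z • m = m ∧ d3 k • m ≠ m := by
  by_contra! h2
  obtain ⟨θ, -, -, h3, h4⟩ := MFi23.exists_hom22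
  have hm : d3 k ∈ genLt MFi23.g 9 := f23_stab ((h.fix_iff _ _).2 (hz ▸ ((h.fix_iff _ _).1 h1).symm))
  have hB : ∀ b ∈ [0, 2, 3, 5, 17, 1], b < 3510 := by decide
  rcases (h3 ⟨_, hm⟩).1 (MFi22.base _ trivial fun b hb => (h4 _ b (hB b hb) b (hB b hb)).1 (h2 _
    ((h4 ⟨_, MFi23.z_mem⟩ b (hB b hb) b (hB b hb)).2 (by rw [(h3 _).2 (Or.inr rfl), one_smul])))) with e | e
  · obtain ⟨y, rfl⟩ := MFi23.transitive k
    replace e : d3 _ = 1 := congrArg Subtype.val e
    rw [h.smul, hz, conj_eq_one_iff] at e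
    exact ne_one_of_smul_ne MFi23.z_smul e
  · exact hk (h.inj ((congrArg Subtype.val e).trans hz.symm))

theorem reparam {G : Type*} [Group G] [MulAction G (Fin 306936)] {dd : Fin 306936 → G} {d3 : Fin 31671 → Spor.Fi23}
    {p : Fin 306936} {ψ : Spor.Fi23 →* G} {P : Fin 31671 → Fin 306936} (l : Loc24 dd d3 p ψ P) (h : Tr d3)
    (a : Spor.Fi23) : Loc24 dd d3 p (ψ.comp (MulAut.conj a).toMonoidHom) fun i => P (a • i) where
  inj := l.inj.comp (MulAut.conj a).injective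
  mem b := by rw [MonoidHom.range_comp, MonoidHom.range_eq_top.2 (MulAut.conj a).surjective,
    ← MonoidHom.range_eq_map, l.mem]
  injP := l.injP.comp (MulAction.injective a)
  ne _ := l.ne _
  smul b i := (l.smul _ _).trans (by simp [mul_smul])
  dd3 i := by rw [← l.dd3, h.smul]; rfl
  nbr γ := (l.nbr γ).trans (or_congr_right (MulAction.surjective a).exists)
  fix w h1 h2 γ h3 := (l.fix w h1 h2 γ h3).imp_right (MulAction.surjective a).exists.1

/-- Let G be a finite group with trivial centre generated by a conjugation-invariant set D of 3-transpositions on which it acts primitively, such that for some d in D the subgroup generated by the members of D other than d commuting with d has central largest normal 2- and 3-subgroups, and suppose G with D is of type M(24), and let L be the commutator subgroup of G. Let d₁, d₂ be distinct commuting members of D and j = d₁ d₂. Then K, the joint centralizer of d₁ and d₂ in L, is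 quasisimple, is the generalized Fitting subgroup of the centralizer of j in L, has index 2 in it and contains j, and the centralizer of j in L modulo the subgroup generated by j is isomorphic to the full automorphism group of the Fischer group Fi₂₂ (as presented). -/
theorem result {G : Type*} [Group G] [Finite G] {D : Set G} (hD : Cfsg.IsThreeTranspositionGroup D) (hprim : Cfsg.IsPrimitiveUnderConj D) (d₀ : G) (hd₀ : d₀ ∈ D) (h3 : Cfsg.pCore 3 ↥(Subgroup.closure {y : G | y ∈ D ∧ y ≠ d₀ ∧ Commute d₀ y}) ≤ Subgroup.center ↥(Subgroup.closure {y : G | y ∈ D ∧ y ≠ d₀ ∧ Commute d₀ y})) (h2 : Cfsg.pCore 2 ↥(Subgroup.closure {y : G | y ∈ D ∧ y ≠ d₀ ∧ Commute d₀ y}) ≤ Subgroup.center ↥(Subgroup.closure {y : G | y ∈ D ∧ y ≠ d₀ ∧ Commute d₀ y})) (h24 : Cfsg.IsOfTypeM24 G D) (L : Subgroup G) (hL : L = commutator G) (d₁ d₂ : G) (h₁ : d₁ ∈ D) (h₂ : d₂ ∈ D) (hne : d₁ ≠ d₂) (hc : Commute d₁ d₂) (K CL : Subgroup G) (hK : K = L ⊓ Subgroup.centralizer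 ({d₁, d₂} : Set G)) (hCL : CL = L ⊓ Subgroup.centralizer ({d₁ * d₂} : Set G)) [hn : ((Subgroup.zpowers (d₁ * d₂)).subgroupOf CL).Normal] : Cfsg.IsQuasisimple ↥K ∧ K = (Cfsg.generalizedFittingSubgroup ↥CL).map CL.subtype ∧ K ≤ CL ∧ (K.subgroupOf CL).index = 2 ∧ d₁ * d₂ ∈ K ∧ Nonempty (↥CL ⧸ (Subgroup.zpowers (d₁ * d₂)).subgroupOf CL ≃* MulAut Cfsg.Spor.Fi22) := by
  obtain ⟨_, dd, d3, h, rfl⟩ := exists_M24 hD hprim h24
  obtain ⟨p, rfl⟩ := h₁
  obtain ⟨q, rfl⟩ := h₂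
  have hpq : p ≠ q := fun e => hne (congrArg dd e)
  obtain ⟨ψ, P, l, rfl⟩ : ∃ ψ P, Loc24 dd d3 p ψ P ∧ P (finE 31671 0) = q := by
    obtain ⟨ψ, P, l⟩ := h.loc p
    obtain ⟨i, rfl⟩ := ((l.nbr q).1 ((h.tr.fix_iff _ _).2 hc)).resolve_left hpq.symm
    obtain ⟨a, rfl⟩ := MFi23.transitive i
    exact ⟨_, _, reparam l h.tr3 a, rfl⟩
  have hj : dd p * dd (P (finE 31671 0)) = ψ MFi23.z := by rw [← h.z3, l.dd3, hc.eq]
  have hj1 : ψ MFi23.z ≠ 1 := fun e => ne_one_of_smul_ne MFi23.z_smul (l.inj (e.trans (map_one ψ).symm))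
  have uniq : ∀ a b, dd a * dd b = ψ MFi23.z → Commute (dd a) (dd b) → a = p ∨ a = P (finE 31671 0) := fun a b e hab => by
    have a1 : ∀ a b γ, dd a * dd b = ψ MFi23.z → ψ MFi23.z • γ = γ → dd a • γ = γ := fun a b γ e h1 =>
      (h.tr.fix_iff _ _).2 (hD.1.commute_of_commute_mul ⟨a, rfl⟩ ⟨b, rfl⟩ ⟨γ, rfl⟩
        (fun e1 => hj1 (by rw [← e, e1, h.sq])) (e ▸ (h.tr.fix_iff _ _).1 h1)).1
    have a2 : ψ MFi23.z • a = a := (h.tr.fix_iff _ _).2 (e ▸ (Commute.refl _).mul_left hab.symm)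
    refine ((l.nbr a).1 (a1 _ _ _ hj a2)).imp_right ?_
    rintro ⟨k, rfl⟩
    by_contra a3
    obtain ⟨m, a4, a5⟩ := f23_move h.tr3 h.z3 (fun e => a3 (congrArg P e)) (l.injP ((l.smul _ _).symm.trans a2))
    have a6 : ψ MFi23.z • P m = P m := by rw [l.smul, a4]
    exact a5 (l.injP (by rw [← l.smul, l.dd3, mul_smul, a1 _ _ _ hj a6, a1 _ _ _ e a6]))
  have hcj : ∀ c : G, c * (dd p * dd (P (finE 31671 0))) * c⁻¹ = dd (c • p) * dd (c • P (finE 31671 0)) := fun c => by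
    rw [h.tr.smul, h.tr.smul, conj_mul]
  have hCp : ∀ c ∈ CL, (c • p = p ∨ c • p = P (finE 31671 0)) ∧
      (c • P (finE 31671 0) = p ∨ c • P (finE 31671 0) = P (finE 31671 0)) := fun c hc' => by
    have a1 : Commute (dd (c • p)) (dd (c • P (finE 31671 0))) := by
      rw [h.tr.smul, h.tr.smul]; exact hc.conj c
    have a2 := hcj c
    rw [hCL] at hc'
    rw [Subgroup.mem_centralizer_singleton_iff.1 hc'.2, mul_inv_cancel_right, hj] at a2
    exact ⟨uniq _ _ a2.symm a1, uniq _ _ (a1.eq ▸ a2.symm) a1.symm⟩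
  have hKm : ∀ a, a ∈ K ↔ a ∈ L ∧ a • p = p ∧ a • P (finE 31671 0) = P (finE 31671 0) := fun a => by
    simp only [hK, Subgroup.mem_inf, Subgroup.mem_centralizer_iff, Set.mem_insert_iff, Set.mem_singleton_iff,
      forall_eq_or_imp, forall_eq, h.tr.fix_iff, commute_iff_eq, eq_comm]
  have hKC : K ≤ CL := fun a ha => by
    obtain ⟨a1, a2, a3⟩ := (hKm a).1 ha
    rw [hCL]
    exact ⟨a1, Subgroup.mem_centralizer_singleton_iff.2 (((h.tr.fix_iff _ _).1 a2).mul_right ((h.tr.fix_iff _ _).1 a3))⟩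
  have hKC' : ∀ c ∈ CL, c ∈ K ↔ c • p = p := fun c hc' => by
    refine (hKm c).trans ⟨fun a => a.2.1, fun a => ⟨(hCL ▸ hc').1, a, (hCp c hc').2.resolve_left fun e => ?_⟩⟩
    exact hpq (MulAction.injective c (a.trans e.symm))
  have hKψ : (genLt MFi23.g 9).map ψ = K := by
    ext a
    rw [hKm, ← and_assoc, hL, ← l.mem]
    constructor
    · rintro ⟨b, hb, rfl⟩
      exact ⟨⟨b, rfl⟩, by rw [l.smul, (h.tr3.fix_iff _ _).2 (h.z3 ▸ f23_comm hb)]⟩
    · rintro ⟨⟨b, rfl⟩, hb⟩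
      exact ⟨b, f23_stab (l.injP ((l.smul _ _).symm.trans hb)), rfl⟩
  have hi : (K.subgroupOf CL).index = 2 := by
    obtain ⟨y, y1, y2⟩ := h.trans p (P (finE 31671 0))
    obtain ⟨ψ', P', l'⟩ := h.loc (P (finE 31671 0))
    obtain ⟨i, hi⟩ := ((l'.nbr p).1 ((h.tr.fix_iff _ _).2 hc.symm)).resolve_left hpq
    obtain ⟨i', hi'⟩ := ((l'.nbr (y • P (finE 31671 0))).1 ((h.tr.fix_iff _ _).2 (by
      conv_lhs => rw [← y2]
      rw [h.tr.smul, h.tr.smul]; exact hc.conj y))).resolve_left fun e => hpq (MulAction.injective y (y2.trans e.symm))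
    obtain ⟨a, rfl⟩ := MFi23.transitive i
    obtain ⟨b, rfl⟩ := MFi23.transitive i'
    obtain ⟨a1, a2⟩ := (l'.mem _).1 ⟨a * b⁻¹, rfl⟩
    have a3 : (ψ' (a * b⁻¹) * y) • p = P (finE 31671 0) := by rw [mul_smul, y2, a2]
    have a4 : (ψ' (a * b⁻¹) * y) • P (finE 31671 0) = p := by
      rw [mul_smul, ← hi', l'.smul, mul_smul, inv_smul_smul, hi]
    refine Subgroup.index_eq_two_iff.2 ⟨⟨ψ' (a * b⁻¹) * y, hCL ▸ ⟨hL ▸ mul_mem a1 y1,
      Subgroup.mem_centralizer_singleton_iff.2 (mul_inv_eq_iff_eq_mul.1 (by rw [hcj, a3, a4, hc.eq]))⟩⟩, fun c => ?_⟩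
    rw [Subgroup.mem_subgroupOf, Subgroup.mem_subgroupOf, hKC' _ (Subtype.prop _), hKC' _ c.2, Subgroup.coe_mul,
      mul_smul, a3]
    rcases (hCp c c.2).1 with e | e
    · exact Or.inr ⟨e, fun e' => hpq (MulAction.injective (c : G) (e.trans e'.symm))⟩
    · exact Or.inl ⟨(hCp c c.2).2.resolve_right fun e' => hpq (MulAction.injective (c : G) (e.trans e'.symm)),
        fun e' => hpq (e'.symm.trans e)⟩
  obtain ⟨θ, t1, -, t2, t3⟩ := MFi23.exists_hom22
  let e : K.subgroupOf CL ≃* genLt MFi23.g 9 := (Subgroup.subgroupOfEquivOfLe hKC).trans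
    (((genLt MFi23.g 9).equivMapOfInjective ψ l.inj).trans (MulEquiv.subgroupCongr hKψ)).symm
  have he : ∀ a, ((e.symm a : CL) : G) = ψ a := fun _ => rfl
  obtain ⟨m1, m2, m3⟩ := main MFi23.center22 hi (θ.comp e.toMonoidHom) (t1.comp e.surjective)
    (j := e.symm ⟨_, MFi23.z_mem⟩) (fun e1 => hj1 (by rw [← he ⟨_, MFi23.z_mem⟩, e1]; rfl))
    (fun a => (t2 (e a)).trans (or_congr e.map_eq_one_iff e.eq_symm_apply.symm))
    (fun M e1 => MFi23.index_ne_two (M.map e.toMonoidHom) (by rw [← e1]; exact M.index_map_of_bijective e.bijective))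
    (fun c hc' => by
      rw [Subgroup.mem_subgroupOf, hKC' _ c.2]
      refine (hCp c c.2).1.resolve_right fun e1 => ?_
      obtain ⟨k, k1, k2⟩ : ∃ k, k ≠ finE 31671 0 ∧ MFi23.z • k = k := ⟨finE 31671 (MFi23.P 0), by decide +kernel,
        (t3 ⟨_, MFi23.z_mem⟩ 0 (by decide) 0 (by decide)).2 (by rw [(t2 _).2 (Or.inr rfl), one_smul])⟩
      have a1 : d3 k ∈ genLt MFi23.g 9 := f23_stab ((h.tr3.fix_iff _ _).2 (h.z3 ▸ ((h.tr3.fix_iff _ _).1 k2).symm))
      have a2 : ψ (d3 k) * c = c * ψ (d3 k) := congrArg Subtype.val (hc' _ (e.symm ⟨_, a1⟩).2)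
      have a3 : Commute (dd (P k)) (dd p) := ((h.tr.fix_iff _ _).1 ((l.nbr _).2 (Or.inr ⟨k, rfl⟩))).symm
      have a4 : Commute (dd (P k)) (ψ MFi23.z) := ((h.tr.fix_iff _ _).1 (by rw [l.smul, k2])).symm
      rw [← eq_mul_inv_iff_mul_eq, l.dd3, ← conj_mul, ← h.tr.smul, ← h.tr.smul, e1] at a2
      have a5 : dd ((c : G) • P k) = dd (P k) * ψ MFi23.z := by
        rw [← hj, ← mul_assoc, a2, mul_assoc, h.sq, mul_one]
      rcases uniq (P k) ((c : G) • P k) (by rw [a5, ← mul_assoc, h.sq, one_mul])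
        (a5 ▸ (Commute.refl _).mul_right a4) with e2 | e2
      exacts [l.ne k e2, k1 (l.injP e2)])
    card_out_fi22 ((Subgroup.zpowers (dd p * dd (P (finE 31671 0)))).subgroupOf CL) fun a => by
      rw [Subgroup.mem_subgroupOf, hj, Subtype.ext_iff, Subtype.ext_iff, he]
      have a1 : orderOf (ψ MFi23.z) = 2 := by rw [orderOf_injective ψ l.inj, MFi23.orderOf_z]
      classical
      rw [mem_zpowers_iff_mem_range_orderOf, a1]
      simp [Finset.range_add_one, eq_comm, or_comm]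
  exact ⟨m1.of_mulEquiv (Subgroup.subgroupOfEquivOfLe hKC), by rw [m2, Subgroup.map_subgroupOf_eq_of_le hKC], hKC, hi,
    hKψ ▸ hj ▸ ⟨_, MFi23.z_mem, rfl⟩, m3⟩

end Cfsg.Agent.S5465
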