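import Mathlib
import Cfsg.Agent.F24T.Main
import Cfsg.Agent.F24T.K22
import Cfsg.Agent.F24T.AmDefs
import Cfsg.Agent.S5465
import Cfsg.Statements.S5450
-- import your own Cfsg.Agent.* helpers here

set_option autoImplicit false
open Cfsg

namespace Cfsg.Agent.S5450

open Cfsg.Agent.Spor Cfsg.Agent.Spor.TT Cfsg.Agent.F24T Cfsg.Agent.J4T Subgroup

theorem stK_cj {G : Type*} [Group G] {t : G} (h : StK t) (g : G) : StK (cj g t) := by
  have e : centralizer ({cj g t} : Set G) = (centralizer ({t} : Set G)).map (MulAut.conj g).toMonoidHom := by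
    ext x
    rw [mem_map_conj_iff, mem_cen, mem_cen, commute_cj_left, cj_def, inv_inv]
  obtain ⟨f, f1, f2⟩ := h.iso
  let ε : KK t ≃* KK (cj g t) :=
    ((KK t).equivMapOfInjective _ (MulAut.conj g).injective).trans (MulEquiv.subgroupCongr (KK_cj g t).symm)
  refine ⟨by rw [← cj_mul, h.tt, cj_one_right], fun k => h.t1 (cj_inj.1 (k.trans (cj_one_right g).symm)), ?_, ?_,
    mem_KK_cj.2 (by rw [cj_inv_cj]; exact h.mem), ⟨f.comp ε.symm.toMonoidHom, f1.comp ε.symm.surjective,
      fun x => ?_⟩, fun c hc hc' => ?_⟩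
  · rw [KK_cj, e, relIndex_map_map_of_injective _ _ (MulAut.conj g).injective, h.idx]
  · rw [KK_cj, ← map_commutator, h.perf]
  · obtain ⟨x, rfl⟩ := ε.surjective x
    rw [MonoidHom.comp_apply, MulEquiv.coe_toMonoidHom, ε.symm_apply_apply, f2, ← cj_inj (g := g),
      ← cj_inj (g := g) (y := t), cj_one_right]
    rfl
  · have := h.cK (cj g⁻¹ c) (fun k hk => by
      have := hc (cj g k) (mem_KK_cj.2 (by rwa [cj_inv_cj]))
      rwa [show cj g k * c * (cj g k)⁻¹ * c⁻¹ = cj g (k * cj g⁻¹ c * k⁻¹ * (cj g⁻¹ c)⁻¹) by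
        simp only [cj_def]; group, cj_inj, cj_eq_iff, cj_one_right] at this) (commute_cj_left.1 hc')
    rwa [cj_eq_iff, cj_eq_iff, inv_inv, cj_one_right] at this

/-- Let G be a finite group of large Fischer type at the involution z: the generalized Fitting subgroup Q of H = C_G(z) is extraspecial of order 2^13, H has normal subgroups Q ≤ H₁ ≤ H₂ with H₁/Q of order 3, H₂/H₁ the projective special unitary group of dimension 4 over the field with nine elements and H₂ of index 2 in H, and some conjugate of z other than z lies in Q. Let t be an involution of Q not conjugate to z in G, and K the generalized Fitting subgroup of the centralizer of t. Then K is quasisimple of index 2 in the centralizer of t, contains t, and the centralizer of t modulo the subgroup generated by t is isomorphic to the full automorphism group of the Fischer group Fi₂₂ (as presented). -/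
theorem result {G : Type*} [Group G] [Finite G] (z : G) (Q : Subgroup (Subgroup.centralizer ({z} : Set G))) [Q.Normal] (hF : Cfsg.IsOfLargeFischerTypeAt z Q) (t : G) (htQ : ∃ htc : t ∈ Subgroup.centralizer ({z} : Set G), (⟨t, htc⟩ : Subgroup.centralizer ({z} : Set G)) ∈ Q) (ht2 : orderOf t = 2) (ht : ¬ IsConj z t) (K : Subgroup ↥(Subgroup.centralizer ({t} : Set G))) (hK : K = Cfsg.generalizedFittingSubgroup ↥(Subgroup.centralizer ({t} : Set G))) [hn : ((Subgroup.zpowers t).subgroupOf (Subgroup.centralizer ({t} : Set G))).Normal] : Cfsg.IsQuasisimple ↥K ∧ K.index = 2 ∧ (∃ htc : t ∈ Subgroup.centralizer ({t} : Set G), (⟨t, htc⟩ : ↥(Subgroup.centralizer ({t} : Set G))) ∈ K) ∧ Nonempty (↥(Subgroup.centralizer ({t} : Set G)) ⧸ (Subgroup.zpowers t).subgroupOf (Subgroup.centralizer ({t} : Set G)) ≃* MulAut Cfsg.Spor.Fi22) := by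
  obtain ⟨g, l, σ, e, s⟩ := exists_stS hF
  have k : StK t := by
    obtain ⟨x, hx, rfl⟩ := s.o.x.q.mem_QG.1 (e ▸ ⟨_, htQ.2, rfl⟩ : t ∈ QG g)
    have h2 := orderOf_eq_two_iff'.1 ht2
    obtain ⟨y, -, e⟩ := s.o.x.conj_root hx (by
      by_contra k
      refine ht ((s.o.x.isConj_qv hx).2 ?_)
      by_cases h0 : x = 4096
      · exact Or.inl h0
      refine Or.inr ⟨fun k => h2.1 ?_, s.o.x.q.qv_inj (qmul_lt hx hx) (by norm_num) ?_, k⟩
      · rw [show x = 0 by omega, s.o.x.q.qv_zero]
      · rw [s.o.x.q.qv_mul hx hx, h2.2, s.o.x.q.qv_zero])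
    exact e ▸ stK_cj s.am.k y
  obtain ⟨f, f1, f2⟩ := k.iso
  have := MFi22.simple
  let ε := subgroupOfEquivOfLe (KK_le t)
  have hP : Group.IsPerfect (KK t) := isPerfect_iff.2 k.perf
  have hP' : Group.IsPerfect ((KK t).subgroupOf (centralizer {t})) :=
    Group.IsPerfect.ofSurjective (f := ε.symm.toMonoidHom) ε.symm.surjective
  obtain ⟨m1, m2, m3⟩ := S5465.main MFi23.center22 k.idx (f.comp ε.toMonoidHom) (f1.comp ε.surjective)
    (j := ε.symm ⟨t, k.mem⟩) (fun e => k.t1 (congrArg Subtype.val (ε.symm.map_eq_one_iff.1 e)))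
    (fun a => (f2 _).trans (or_congr ⟨fun e => Subtype.ext (Subtype.ext e), by rintro rfl; rfl⟩
      ⟨fun e => Subtype.ext (Subtype.ext e), by rintro rfl; rfl⟩))
    (fun L hL => by
      have := commutator_le_of_relIndex_two (K := L) (C := ⊤) (by rwa [relIndex_top_right])
      rw [← commutator_def, hP'.commutator_eq_top, top_le_iff] at this
      rw [this, index_top] at hL
      exact absurd hL (by decide))
    (fun c hc => by
      rcases k.cK c (fun a ha => Or.inl (mul_inv_eq_one.2 (mul_inv_eq_iff_eq_mul.2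
        (congrArg Subtype.val (hc ⟨a, KK_le t ha⟩ ha))))) (mem_centralizer_singleton.1 c.2) with e | e
      · exact mem_subgroupOf.2 (e ▸ one_mem _)
      · exact mem_subgroupOf.2 (by rw [e]; exact k.mem))
    OutC.card_out_fi22 ((zpowers t).subgroupOf (centralizer {t})) fun a =>
      (mem_zpowers_iff_of_sq k.tt).trans (or_congr ⟨fun e => Subtype.ext e, by rintro rfl; rfl⟩
        ⟨fun e => Subtype.ext e, by rintro rfl; rfl⟩)
  rw [hK, m2]
  exact ⟨m1, k.idx, ⟨KK_le t k.mem, k.mem⟩, m3⟩

end Cfsg.Agent.S5450
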