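import Mathlib
import Cfsg.Statements.S5451
import Cfsg.Agent.Spor.LF.Three

set_option autoImplicit false
open Cfsg

namespace Cfsg.Agent.S5451

open Cfsg.Agent.Spor Cfsg.Agent.Spor.LF Cfsg.Agent.Spor.MT Subgroup

open scoped commutatorElement

theorem central_ext {C P : Type*} [Group C] [Group P] [IsSimpleGroup P] (hP : ¬ (Nat.card P).Prime)
    {ψ : C →* P} (hψ : Function.Surjective ψ) {w : C} (hk : ψ.ker = zpowers w) (hw : w ∈ center C)
    (hc : w ∈ commutator C) : IsQuasisimple C ∧ IsCyclic (center C) ∧ Nat.card (center C) = orderOf w ∧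
      Nonempty (C ⧸ center C ≃* P) := by
  have nc : ¬ ∀ a b : P, a * b = b * a := fun c =>
    let _ : CommGroup P := { mul_comm := c }
    hP IsSimpleGroup.prime_card
  have h1 : center C = ψ.ker := le_antisymm (fun x hx => by
    rcases ((inferInstance : (center C).Normal).map ψ hψ).eq_bot_or_eq_top with c | c
    · exact mem_bot.1 (c ▸ mem_map_of_mem ψ hx)
    · refine absurd (fun a b => ?_) nc
      obtain ⟨a, rfl⟩ := hψ a
      obtain ⟨b, hb, rfl⟩ : b ∈ _ := c ▸ mem_top b
      rw [← map_mul, ← map_mul, mem_center_iff.1 hb a]) (hk ▸ zpowers_le.2 hw)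
  have h2 : (commutator C).map ψ = ⊤ := by
    refine ((inferInstance : (commutator C).Normal).map ψ hψ).eq_bot_or_eq_top.resolve_left fun c => nc fun a b => ?_
    obtain ⟨a, rfl⟩ := hψ a
    obtain ⟨b, rfl⟩ := hψ b
    rw [← commutatorElement_eq_one_iff_mul_comm, ← map_commutatorElement, ← mem_bot, ← c]
    exact mem_map_of_mem ψ (commutator_mem_commutator (mem_top a) (mem_top b))
  have ε : C ⧸ center C ≃* P :=
    (QuotientGroup.quotientMulEquivOfEq h1).trans (QuotientGroup.quotientKerEquivOfSurjective ψ hψ)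
  refine ⟨⟨⟨?_⟩, ε.isSimpleGroup⟩, by rw [h1, hk]; infer_instance, by rw [h1, hk, Nat.card_zpowers], ⟨ε⟩⟩
  rw [← comap_map_eq_self (f := ψ) (H := commutator C) (hk ▸ zpowers_le.2 hc), h2, comap_top]

theorem cent_three {G Γ V : Type*} [Group G] [Group Γ] [AddCommGroup V] [DistribMulAction Γ V] {e : ℕ → V}
    {b : ℕ → Γ} {Q : Subgroup G} {z : G} {π : centralizer ({z} : Set G) →* Γ} {r : V → G} (h : EData Q z π r)
    (f : Fr9 e b) {x a1 a2 a3 a4 : centralizer ({z} : Set G)} (hx : π x = b 4) (x3 : x ^ 3 = 1)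
    (m1 : a1 ∈ centralizer {x}) (m2 : a2 ∈ centralizer {x}) (m3 : a3 ∈ centralizer {x})
    (m4 : a4 ∈ centralizer {x}) (hz : ((⁅a1, a2⁆ * ⁅a3, a4⁆ : centralizer ({z} : Set G)) : G) = z) :
    IsQuasisimple (centralizer {x}) ∧ IsCyclic (center (centralizer {x})) ∧
      Nat.card (center (centralizer {x})) = 6 ∧ ∃ (K : Type) (_ : Field K) (_ : Fintype K), Fintype.card K = 9 ∧
        Nonempty (centralizer {x} ⧸ center (centralizer {x}) ≃* PSU 4 K 3) := by
  have : Fact (Nat.Prime 3) := ⟨Nat.prime_three⟩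
  have : Fact (Nat.Prime 2) := ⟨Nat.prime_two⟩
  obtain ⟨K, i1, i2, hK, θ, hs, hk⟩ := f.fr.psu
  have := simple_psu hK
  have mM : ∀ c : centralizer {x}, π c ∈ genLt b 8 := fun c => f.mem_iff.2 (by
    rw [← hx, ← map_mul, ← map_mul, mem_centralizer_singleton_iff.1 c.2])
  let φ : centralizer {x} →* genLt b 8 := (π.comp (Subgroup.subtype _)).codRestrict _ mM
  have hφ : Function.Surjective φ := fun m => by
    obtain ⟨y, hy⟩ := h.surj m
    obtain ⟨u, hu, c⟩ := h.conj_three f.fr (x := y * x * y⁻¹) (by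
      rw [map_mul, map_mul, map_inv, hy, hx, f.fr.comm m.2, mul_inv_cancel_right]) hx
      (by rw [conj_pow, x3, mul_one, mul_inv_cancel]) x3
    refine ⟨⟨u * y, mem_centralizer_singleton_iff.2 ?_⟩, Subtype.ext ?_⟩
    · rw [← mul_inv_eq_iff_eq_mul]; exact Eq.trans (by group) c
    · change π (u * y) = m
      rw [map_mul, hu, one_mul, hy]
  let z1 : centralizer ({z} : Set G) := ⟨z, mem_centralizer_singleton_iff.2 rfl⟩
  let z2 : centralizer {x} := ⟨z1, mem_centralizer_singleton_iff.2 (Subtype.ext (EData.zc x))⟩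
  let x2 : centralizer {x} := ⟨x, mem_centralizer_singleton_iff.2 rfl⟩
  have c1 : z2 ∈ center _ := mem_center_iff.2 fun c => Subtype.ext (Subtype.ext (EData.zc c.1).symm)
  have c2 : x2 ∈ center _ := mem_center_iff.2 fun c => Subtype.ext (mem_centralizer_singleton_iff.1 c.2)
  have o1 : orderOf z2 = 2 := orderOf_eq_prime (Subtype.ext (Subtype.ext (by simpa [pow_two] using h.zz)))
    fun c => h.es.z_ne (congrArg (fun t : centralizer {x} => (t.1 : G)) c)
  have o2 : orderOf x2 = 3 := orderOf_eq_prime (Subtype.ext x3) fun c => f.fr.ne_one (by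
    rw [← hx, show x = 1 from congrArg Subtype.val c, map_one])
  have cm : Commute z2 x2 := mem_center_iff.1 c2 z2
  have o3 : orderOf (z2 * x2) = 6 := by
    rw [cm.orderOf_mul_eq_mul_orderOf_of_coprime (by rw [o1, o2]; decide), o1, o2]
  have pz : φ z2 = 1 := Subtype.ext ((h.ker z1).2 h.es.z_mem)
  have kφ : ∀ c, φ c = 1 → c = 1 ∨ c = z2 := fun c hc =>
    (h.eq_of_comm_three f.fr hx ((h.ker c.1).1 (congrArg Subtype.val hc))
      (congrArg Subtype.val (mem_centralizer_singleton_iff.1 c.2))).imp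
        (fun d => Subtype.ext (Subtype.ext d)) fun d => Subtype.ext (Subtype.ext d)
  have e1 : z2 = (z2 * x2) ^ 3 := by
    rw [cm.mul_pow, ← o2, pow_orderOf_eq_one, o2, mul_one, pow_succ, ← o1, pow_orderOf_eq_one, one_mul]
  have e0 : z2 ∈ zpowers (z2 * x2) := ⟨(3 : ℕ), (zpow_natCast _ _).trans e1.symm⟩
  have e2 : x2 ∈ zpowers (z2 * x2) := (mul_mem_cancel_left e0).1 (mem_zpowers _)
  have d1 : z2 ∈ commutator _ := by
    rw [show z2 = ⁅(⟨_, m1⟩ : centralizer {x}), ⟨_, m2⟩⁆ * ⁅(⟨_, m3⟩ : centralizer {x}), ⟨_, m4⟩⁆ from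
      Subtype.ext (Subtype.ext hz.symm)]
    exact mul_mem (commutator_mem_commutator (mem_top _) (mem_top _))
      (commutator_mem_commutator (mem_top _) (mem_top _))
  have d2 : x2 ∈ commutator _ := by
    obtain ⟨u, hu⟩ := hφ ⟨_, evalW_mem_genLt b (w := [5, 5, 6, 6]) (by decide +kernel)⟩
    obtain ⟨v, hv⟩ := hφ ⟨_, evalW_mem_genLt b (w := [2, 0]) (by decide +kernel)⟩
    have d3 := commutator_mem_commutator (mem_top u) (mem_top v)
    rcases kφ (⁅u, v⁆⁻¹ * x2) (by
      rw [map_mul, map_inv, map_commutatorElement, hu, hv, inv_mul_eq_one, commutatorElement_def,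
        mul_assoc, ← mul_inv_rev, mul_inv_eq_iff_eq_mul]
      refine Subtype.ext ?_
      change _ = π x * _
      simpa [hx, mul_assoc] using f.fr.rel [5, 5, 6, 6, 2, 0] [4, 2, 0, 5, 5, 6, 6]) with c | c
    · rwa [← inv_mul_eq_one.1 c]
    · rw [inv_mul_eq_iff_eq_mul.1 c]; exact mul_mem d3 d1
  have k1 : (θ.comp φ).ker ≤ zpowers (z2 * x2) := fun c hc => by
    obtain ⟨k, hc⟩ := (hk (φ c)).1 hc
    rw [← mul_mem_cancel_left (zpow_mem e2 (-k))]
    rcases kφ (x2 ^ (-k) * c) (Subtype.ext (by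
      change π (x ^ (-k) * c) = 1
      rw [map_mul, map_zpow, hx, zpow_neg, inv_mul_eq_one]; exact hc)) with d | d <;> rw [d]
    exacts [one_mem _, e0]
  have k2 : z2 * x2 ∈ (θ.comp φ).ker := (hk (φ (z2 * x2))).2 (by
    rw [map_mul, pz, one_mul, ← hx]; exact mem_zpowers _)
  have k3 : ¬ (Nat.card (PSU 4 K 3)).Prime := by rw [card_psu hK]; norm_num
  obtain ⟨a, b', c, d⟩ := central_ext (ψ := θ.comp φ) k3 (fun y => (hs.comp hφ) y)
    (le_antisymm k1 (zpowers_le.2 k2)) (mul_mem c1 c2) (mul_mem d1 d2)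
  exact ⟨a, b', c.trans o3, K, i1, i2, hK, d⟩


/-- Let G be a finite group of large Fischer type at the involution z: the generalized Fitting subgroup Q of H = C_G(z) is extraspecial of order 2^13, H has normal subgroups Q ≤ H₁ ≤ H₂ with H₁/Q of order 3, H₂/H₁ the projective special unitary group of dimension 4 over the field with nine elements and H₂ of index 2 in H, and some conjugate of z other than z lies in Q. Let X be a subgroup of H of order 3 whose product with Q is normal in H (X maps onto the normal subgroup of order 3 of H/Q). Then the centralizer of X in H is quasisimple with cyclic centre of order 6 and central quotient isomorphic to the projective special unitary group of dimension 4 over the field with nine elements. -/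
theorem result {G : Type*} [Group G] [Finite G] (z : G) (Q : Subgroup (Subgroup.centralizer ({z} : Set G))) [Q.Normal] (hF : Cfsg.IsOfLargeFischerTypeAt z Q) (X : Subgroup (Subgroup.centralizer ({z} : Set G))) (hX : Nat.card X = 3) (hXQ : (X ⊔ Q).Normal) : Cfsg.IsQuasisimple ↥(Subgroup.centralizer ((X : Subgroup (Subgroup.centralizer ({z} : Set G))) : Set (Subgroup.centralizer ({z} : Set G)))) ∧ IsCyclic ↥(Subgroup.center ↥(Subgroup.centralizer ((X : Subgroup (Subgroup.centralizer ({z} : Set G))) : Set (Subgroup.centralizer ({z} : Set G))))) ∧ Nat.card ↥(Subgroup.center ↥(Subgroup.centralizer ((X : Subgroup (Subgroup.centralizer ({z} : Set G))) : Set (Subgroup.centralizer ({z} : Set G))))) = 6 ∧ ∃ (K : Type) (_ : Field K) (_ : Fintype K), Fintype.card K = 9 ∧ Nonempty (↥(Subgroup.centralizer ((X : Subgroup (Subgroup.centralizer ({z} : Set G))) : Set (Subgroup.centralizer ({z} : Set G)))) ⧸ Subgroup.center ↥(Subgroup.centralizer ((X : Subgroup (Subgroup.centralizer ({z} :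 Set G))) : Set (Subgroup.centralizer ({z} : Set G)))) ≃* Cfsg.PSU 4 K 3) := by
  obtain ⟨r, e, b, h, f⟩ := exists_frame9 hF
  have : Fact (Nat.Prime 3) := ⟨Nat.prime_three⟩
  set π := QuotientGroup.mk' Q with hπ
  have kq : ∀ y, π y = 1 ↔ y ∈ Q := fun y => QuotientGroup.eq_one_iff y
  have key : ∀ y : centralizer ({z} : Set G), y ^ 3 = 1 → y ∉ Q →
      (∀ x, π (x * y * x⁻¹) ∈ zpowers (π y)) → ∃ w, π w = b 4 ∧ w ^ 3 = 1 ∧
        centralizer {y} = centralizer {w} := fun y y3 hy hn => by
    rcases f.fr.eq_of_normal (x := π y) (by rw [← map_pow, y3, map_one]) (mt (kq y).1 hy) (fun x => by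
      obtain ⟨x, rfl⟩ := h.surj x
      simpa only [map_mul, map_inv] using hn x) with c | c
    · exact ⟨y, c, y3, rfl⟩
    · refine ⟨y ^ 2, by rw [pow_two, map_mul, c], by rw [← pow_mul, mul_comm, pow_mul, y3, one_pow], ?_⟩
      ext x
      rw [mem_centralizer_singleton_iff, mem_centralizer_singleton_iff]
      refine ⟨fun d => ((show Commute x y from d).pow_right 2).eq, fun d => ?_⟩
      have := ((show Commute x (y ^ 2) from d).pow_right 2).eq
      rwa [← pow_mul, show 2 * 2 = 3 + 1 from rfl, pow_succ, y3, one_mul] at this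
  have : Finite X := Nat.finite_of_card_ne_zero (by omega)
  obtain ⟨y, hy⟩ := exists_prime_orderOf_dvd_card' (G := X) 3 (by rw [hX])
  rw [← orderOf_coe] at hy
  obtain ⟨y, hyX⟩ := y
  obtain rfl : zpowers y = X := eq_of_le_of_card_ge (zpowers_le.2 hyX) (by rw [Nat.card_zpowers, hy, hX])
  obtain ⟨x, hx, x3, hC⟩ := key y (hy ▸ pow_orderOf_eq_one y) (fun c => by
      have d := Subgroup.orderOf_dvd_natCard _ (mem_map_of_mem (centralizer {z}).subtype c)
      rw [h.card, coe_subtype, orderOf_coe, hy] at d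
      exact absurd d (by norm_num)) fun x => by
    have := mem_map_of_mem π (hXQ.conj_mem y (mem_sup_left (mem_zpowers y)) x)
    rwa [Subgroup.map_sup, (map_eq_bot_iff Q).2 (QuotientGroup.ker_mk' Q).ge, sup_bot_eq,
      MonoidHom.map_zpowers] at this
  obtain ⟨p, p3, pQ, pn, a1, m1, a2, m2, a3, m3, a4, m4, hz⟩ := exists_three hF
  obtain ⟨p', hp, p3', hD⟩ := key p p3 pQ fun x => by
    rcases pn x with c | c <;> rw [← kq, map_mul, map_inv, mul_inv_eq_one] at c <;> rw [c]
    exacts [mem_zpowers _, map_mul π p p ▸ mul_mem (mem_zpowers _) (mem_zpowers _)]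
  obtain ⟨q, -, hq⟩ := h.conj_three f.fr hp hx p3' x3
  have cj : ∀ a ∈ centralizer {p}, q * a * q⁻¹ ∈ centralizer {x} := fun a ha => by
    rw [hD, mem_centralizer_singleton_iff] at ha
    rw [mem_centralizer_singleton_iff, ← hq, conj_mul, conj_mul, ha]
  rw [zpowers_eq_closure, centralizer_closure, hC]
  refine cent_three h f hx x3 (cj _ m1) (cj _ m2) (cj _ m3) (cj _ m4) ?_
  rw [← conjugate_commutatorElement, ← conjugate_commutatorElement, conj_mul, coe_mul, coe_mul, hz,
    ← EData.zc q, coe_inv, mul_inv_cancel_right]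

end Cfsg.Agent.S5451
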