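import Mathlib
import Cfsg.Statements.S5459
import Cfsg.Agent.Spor.TI

set_option autoImplicit false
open Cfsg

namespace Cfsg.Agent.S5459

open Cfsg.Agent.Spor Subgroup
open scoped commutatorElement

theorem conj_mem_conjugatesOf {G : Type*} [Group G] {d : G} (g : G) {x : G} (hx : x ∈ conjugatesOf d) :
    g * x * g⁻¹ ∈ conjugatesOf d := IsConj.trans hx (isConj_iff.2 ⟨g, rfl⟩)

theorem reach_conj {G : Type*} [Group G] {d : G} (g : G) {x y : conjugatesOf d}
    (h : (commutingGraph (conjugatesOf d)).Reachable x y) :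
    (commutingGraph (conjugatesOf d)).Reachable ⟨_, conj_mem_conjugatesOf g x.2⟩
      ⟨_, conj_mem_conjugatesOf g y.2⟩ := by
  let f : commutingGraph (conjugatesOf d) →g commutingGraph (conjugatesOf d) :=
    ⟨fun x => ⟨_, conj_mem_conjugatesOf g x.2⟩, fun {a b} hab => by
      simp only [commutingGraph, SimpleGraph.fromRel_adj] at hab ⊢
      refine ⟨fun e => hab.1 (Subtype.ext (by simpa using e)), Or.inl ?_⟩
      exact (hab.2.elim id Commute.symm).conj g⟩
  exact h.map f

/-- Let G be a finite group with a quasisimple normal subgroup L and an involution d such that G is generated by L and d, the centre of L has odd order, and d inverts every element of the centre of L. If the commuting graph on the conjugacy class of the image of d in G modulo the centre of L is connected, then the commuting graph on the conjugacy class of d is connected. -/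
theorem result {G : Type*} [Group G] [Finite G] (L : Subgroup G) [L.Normal] (hL : Cfsg.IsQuasisimple ↥L) (d : G) (hd : orderOf d = 2) (hgen : L ⊔ Subgroup.zpowers d = ⊤) (hodd : Odd (Nat.card ↥(Subgroup.center ↥L))) (hinv : ∀ c ∈ (Subgroup.center ↥L).map L.subtype, d * c * d⁻¹ = c⁻¹) [hn : ((Subgroup.center ↥L).map L.subtype).Normal] (hconn : (Cfsg.commutingGraph (conjugatesOf (QuotientGroup.mk d : G ⧸ (Subgroup.center ↥L).map L.subtype))).Connected) : (Cfsg.commutingGraph (conjugatesOf d)).Connected := by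
  have hdd := (orderOf_eq_two_iff'.1 hd).2
  have hLc : ∀ c ∈ (Subgroup.center ↥L).map L.subtype, ∀ x ∈ L, x * c = c * x := by
    rintro _ ⟨c, hc, rfl⟩ x hx
    exact congrArg Subtype.val (mem_center_iff.1 hc ⟨x, hx⟩)
  have hZL : (Subgroup.center ↥L).map L.subtype ≤ L := map_subtype_le _
  rw [← card_map_of_injective (K := Subgroup.center ↥L) L.subtype_injective] at hodd
  generalize (Subgroup.center ↥L).map L.subtype = Z at *
  have hsq : ∀ x ∈ conjugatesOf d, x * x = 1 := fun x hx => by
    obtain ⟨g, rfl⟩ := isConj_iff.1 hx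
    calc g * d * g⁻¹ * (g * d * g⁻¹) = g * (d * d) * g⁻¹ := by group
      _ = 1 := by rw [hdd]; group
  have hinv' : ∀ x ∈ conjugatesOf d, ∀ c ∈ Z, x * c * x⁻¹ = c⁻¹ := fun x hx c hc => by
    obtain ⟨g, rfl⟩ := isConj_iff.1 hx
    calc g * d * g⁻¹ * c * (g * d * g⁻¹)⁻¹ = g * (d * (g⁻¹ * c * g⁻¹⁻¹) * d⁻¹) * g⁻¹ := by group
      _ = _ := by rw [hinv _ (hn.conj_mem c hc _)]; group
  have hroot : ∀ c ∈ Z, ∃ w ∈ Z, w * w = c := by
    intro c hc
    obtain ⟨k, hk⟩ := hodd
    refine ⟨c ^ (k + 1), pow_mem hc _, ?_⟩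
    have : c ^ (2 * k + 1) = 1 := by
      rw [← hk]; exact congrArg Subtype.val (pow_card_eq_one' (x := (⟨c, hc⟩ : Z)))
    rw [← pow_add, show k + 1 + (k + 1) = 2 * k + 1 + 1 by ring, pow_succ, this, one_mul]
  have hfib : ∀ x ∈ conjugatesOf d, ∀ c ∈ Z, ∃ w ∈ Z, w * x * w⁻¹ = x * c := by
    intro x hx c hc
    obtain ⟨w, hw, e⟩ := hroot c hc
    refine ⟨w⁻¹, inv_mem hw, ?_⟩
    rw [inv_inv, ← hinv' x hx w hw, ← e]; group
  have hlift : ∀ y : conjugatesOf (QuotientGroup.mk d : G ⧸ Z), ∃ x : conjugatesOf d,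
      (QuotientGroup.mk (x : G) : G ⧸ Z) = y ∧
        (commutingGraph (conjugatesOf d)).Reachable ⟨d, mem_conjugatesOf_self⟩ x := by
    intro y
    have h := hconn.preconnected ⟨_, mem_conjugatesOf_self⟩ y
    rw [SimpleGraph.reachable_iff_reflTransGen] at h
    induction h with
    | refl => exact ⟨_, rfl, SimpleGraph.Reachable.refl _⟩
    | @tail a b _ hab ih =>
      obtain ⟨e, he, hr⟩ := ih
      simp only [commutingGraph, SimpleGraph.fromRel_adj] at hab
      obtain ⟨g, hg⟩ := isConj_iff.1 b.2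
      obtain ⟨g, rfl⟩ := QuotientGroup.mk_surjective g
      have hf := conj_mem_conjugatesOf g (mem_conjugatesOf_self (a := d))
      have hf' : (QuotientGroup.mk (g * d * g⁻¹) : G ⧸ Z) = b := hg
      generalize g * d * g⁻¹ = f at hf hf'
      have hc : (e * f) * (e * f) ∈ Z := by
        rw [← QuotientGroup.eq_one_iff]
        have h1 : Commute (QuotientGroup.mk (e : G) : G ⧸ Z) (QuotientGroup.mk f) := by
          rw [he, hf']; exact hab.2.elim id Commute.symm
        simp only [QuotientGroup.mk_mul]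
        rw [h1.symm.mul_mul_mul_comm, ← QuotientGroup.mk_mul, ← QuotientGroup.mk_mul, hsq e e.2, hsq f hf]
        simp
      obtain ⟨w, hw, ew⟩ := hroot _ (inv_mem hc)
      obtain ⟨v, -, ev⟩ := hfib f hf w hw
      have hfw : f * w ∈ conjugatesOf d := ev ▸ conj_mem_conjugatesOf v hf
      have hq : (QuotientGroup.mk (f * w) : G ⧸ Z) = b := by
        rw [QuotientGroup.mk_mul, (QuotientGroup.eq_one_iff w).2 hw, mul_one, hf']
      refine ⟨⟨f * w, hfw⟩, hq, hr.trans (SimpleGraph.Adj.reachable ?_)⟩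
      simp only [commutingGraph, SimpleGraph.fromRel_adj]
      refine ⟨fun e' => hab.1 (Subtype.ext (by rw [← he, ← hq, e'])), Or.inl ?_⟩
      have h2 : (e * f) * w * (e * f)⁻¹ = w := by
        calc (e * f) * w * (e * f)⁻¹ = e * (f * w * f⁻¹) * (e : G)⁻¹ := by group
          _ = w := by rw [hinv' f hf w hw, hinv' e e.2 _ (inv_mem hw), inv_inv]
      have h3 : (e * (f * w)) * (e * (f * w)) = 1 := by
        calc (e * (f * w)) * (e * (f * w)) = ((e * f) * w * (e * f)⁻¹) * ((e * f) * (e * f)) * w := by group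
          _ = 1 := by rw [h2, ← inv_inv ((e * f) * (e * f)), ← ew]; group
      show (e : G) * (f * w) = (f * w) * e
      rw [← inv_eq_self_of_sq h3, mul_inv_rev, inv_eq_self_of_sq (hsq e e.2), inv_eq_self_of_sq (hsq _ hfw)]
  let H : Subgroup G :=
    { carrier := {g | (commutingGraph (conjugatesOf d)).Reachable ⟨d, mem_conjugatesOf_self⟩
        ⟨_, conj_mem_conjugatesOf g mem_conjugatesOf_self⟩}
      one_mem' := by
        show SimpleGraph.Reachable _ _ _
        convert SimpleGraph.Reachable.refl _ using 2; simp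
      mul_mem' := by
        intro a b ha hb
        show SimpleGraph.Reachable _ _ _
        convert SimpleGraph.Reachable.trans ha (reach_conj a hb) using 2; group
      inv_mem' := by
        intro a ha
        show SimpleGraph.Reachable _ _ _
        convert (reach_conj a⁻¹ ha).symm using 2; group }
  have hHZ : ∀ g : G, ∃ w ∈ Z, w * g ∈ H := by
    intro g
    obtain ⟨x, hx, hr⟩ := hlift ⟨_, conj_mem_conjugatesOf (QuotientGroup.mk g) mem_conjugatesOf_self⟩
    have hx' : (QuotientGroup.mk (g * d * g⁻¹) : G ⧸ Z) = QuotientGroup.mk (x : G) := hx.symm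
    obtain ⟨w, hw, e⟩ := hfib _ (conj_mem_conjugatesOf g mem_conjugatesOf_self) _ (QuotientGroup.eq.1 hx')
    refine ⟨w, hw, ?_⟩
    show SimpleGraph.Reachable _ _ _
    convert hr using 2
    rw [mul_inv_cancel_left] at e
    rw [← e]; group
  have hLH : L ≤ H := by
    have hp : ⁅L, L⁆ = L := by
      haveI := hL.1
      exact Subgroup.isPerfect_iff.1 hL.1
    rw [← hp, commutator_le]
    intro a ha b hb
    obtain ⟨u, hu, hua⟩ := hHZ a
    obtain ⟨v, hv, hvb⟩ := hHZ b
    have := mul_mem (mul_mem (mul_mem hua hvb) (inv_mem hua)) (inv_mem hvb)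
    convert this using 1
    have h1 := hLc u hu
    have h2 := hLc v hv
    have h3 : a * b * a⁻¹ * b⁻¹ ∈ L := mul_mem (mul_mem (mul_mem ha hb) (inv_mem ha)) (inv_mem hb)
    rw [commutatorElement_def]
    symm
    calc u * a * (v * b) * (u * a)⁻¹ * (v * b)⁻¹ = u * (a * v) * b * a⁻¹ * (b * u)⁻¹ * v⁻¹ := by group
      _ = (u * v) * (a * b * a⁻¹ * b⁻¹) * (v * u)⁻¹ := by rw [h1 b hb, h2 a ha]; group
      _ = _ := by
        rw [h1 v (hZL hv), ← hLc _ (mul_mem hu hv) _ h3, mul_inv_cancel_right]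
  have hH : H = ⊤ := by
    rw [eq_top_iff, ← hgen]
    refine sup_le hLH (zpowers_le.2 ?_)
    show SimpleGraph.Reachable _ _ _
    convert SimpleGraph.Reachable.refl _ using 2; simp
  have key : ∀ x : conjugatesOf d,
      (commutingGraph (conjugatesOf d)).Reachable ⟨d, mem_conjugatesOf_self⟩ x := by
    rintro ⟨x, hx⟩
    obtain ⟨g, rfl⟩ := isConj_iff.1 hx
    exact (hH ▸ mem_top g : g ∈ H)
  haveI : Nonempty (conjugatesOf d) := ⟨⟨d, mem_conjugatesOf_self⟩⟩
  exact ⟨fun x y => (key x).symm.trans (key y)⟩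

end Cfsg.Agent.S5459
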