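import Mathlib
import Cfsg.Statements.S5460
import Cfsg.Agent.S1715
import Cfsg.Agent.F24T.Aut

set_option autoImplicit false
open Cfsg

namespace Cfsg.Agent.S5460

open Cfsg.Agent.F24T Cfsg.Agent.Spor.TT


/-- Let X be a finite group with a subgroup G₀ of index 2 that is of large Fischer type at an involution z central in some Sylow 2-subgroup of G₀ (the generalized Fitting subgroup Q of the centralizer C of z in G₀ is extraspecial of order 2^13, C has normal subgroups Q ≤ H₁ ≤ H₂ with H₁/Q of order 3, H₂/H₁ isomorphic to the projective special unitary group of dimension 4 over the field with nine elements and H₂ of index 2 in C, and some G₀-conjugate of z other than z lies in Q), and suppose the generalized Fitting subgroup of the centralizer of z in X is Q as well. Then there is an involution d of X outside G₀ commuting with z, and an involution t of the centralizer Y of d in G₀, such that: the centralizer of t in Y is quasisimple; its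 quotient by the subgroup generated by t is of type M(22) for some generating conjugacy class of 3-transpositions and has an involution whose own centralizer is quasisimple, with quotient by it the projective special unitary group of dimension 6 over the field with four elements, and which is not weakly closed in that centralizer; t is not weakly closed in its centralizer in Y; and the conjugacy class of t in Y is a class of 3-transpositions generating Y with respect to which Y is of type M(23). -/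
theorem result {X : Type*} [Group X] [Finite X] (G₀ : Subgroup X) (hidx : G₀.index = 2) (z : ↥G₀) (Q : Subgroup (Subgroup.centralizer ({z} : Set ↥G₀))) [Q.Normal] (hF : Cfsg.IsOfLargeFischerTypeAt z Q) (hcentral : ∃ P : Sylow 2 ↥G₀, z ∈ (P : Subgroup ↥G₀) ∧ ∀ x ∈ (P : Subgroup ↥G₀), Commute x z) (hFX : (Cfsg.generalizedFittingSubgroup ↥(Subgroup.centralizer ({(z : X)} : Set X))).map (Subgroup.subtype _) = ((Q.map (Subgroup.subtype _)).map G₀.subtype)) : ∃ d : X, orderOf d = 2 ∧ d ∉ G₀ ∧ Commute d (z : X) ∧ ∃ t : ↥(G₀ ⊓ Subgroup.centralizer ({d} : Set X)), orderOf t = 2 ∧ Cfsg.IsQuasisimple ↥(Subgroup.centralizer ({t} : Set ↥(G₀ ⊓ Subgroup.centralizer ({d} : Set X)))) ∧ (∃ (_ : ((Subgroup.zpowers t).subgroupOf (Subgroup.centralizer ({t} : Set ↥(G₀ ⊓ Subgroup.centralizer ({d} : Set X))))).Normal), (∃ E : Set (↥(Subgroup.centralizer ({t} : Set ↥(G₀ ⊓ Subgroup.centralizer ({d} : Set X)))) ⧸ (Subgroup.zpowers t).subgroupOf (Subgroup.centralizer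 ({t} : Set ↥(G₀ ⊓ Subgroup.centralizer ({d} : Set X))))), Cfsg.IsThreeTranspositionClass E ∧ Cfsg.IsOfTypeM22 _ E) ∧ ∃ d' : ↥(Subgroup.centralizer ({t} : Set ↥(G₀ ⊓ Subgroup.centralizer ({d} : Set X)))) ⧸ (Subgroup.zpowers t).subgroupOf (Subgroup.centralizer ({t} : Set ↥(G₀ ⊓ Subgroup.centralizer ({d} : Set X)))), orderOf d' = 2 ∧ Cfsg.IsQuasisimple ↥(Subgroup.centralizer ({d'} : Set _)) ∧ (∃ (K : Type) (_ : Field K) (_ : Fintype K), Fintype.card K = 4 ∧ ∃ _ : ((Subgroup.zpowers d').subgroupOf (Subgroup.centralizer ({d'} : Set _))).Normal, Nonempty (↥(Subgroup.centralizer ({d'} : Set _)) ⧸ (Subgroup.zpowers d').subgroupOf (Subgroup.centralizer ({d'} : Set _)) ≃* Cfsg.PSU 6 K 2)) ∧ ∃ g, g * d' * g⁻¹ ∈ Subgroup.centralizer ({d'} : Set _) ∧ g * d' * g⁻¹ ≠ d') ∧ (∃ g : ↥(G₀ ⊓ Subgroup.centralizer ({d} : Set X)), g * t * g⁻¹ ∈ Subgroup.centralizer ({t} : Set ↥(G₀ ⊓ Subgroup.centralizer ({d} : Set X))) ∧ g * t * g⁻¹ ≠ t) ∧ Cfsg.IsThreeTranspositionClass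 (conjugatesOf t) ∧ Cfsg.IsOfTypeM23 ↥(G₀ ⊓ Subgroup.centralizer ({d} : Set X)) (conjugatesOf t) := by
  obtain ⟨⟨hz, h1, h2, h3, h4⟩, N, M, _, _, h5, h6, h7, ⟨K, _, _, h8, ⟨e⟩⟩, h9⟩ := hF
  obtain ⟨ε⟩ := S1715.result z hz Q N M h1 h2 h3 h5 h6 h7 K h8 e h9 h4
  obtain ⟨D, h, rfl⟩ := Aut.exists_g24 hidx ε (Aut.center_le hFX)
  have zz : (z : X) * z = 1 := by
    rw [← Subgroup.coe_mul, ← pow_two, ← hz, pow_orderOf_eq_one, Subgroup.coe_one]
  obtain ⟨d, hd, hc⟩ := h.tm.exists_fixed (h.fis.cj_mem z) fun y _ => cj_cj_of_sq zz y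
  obtain ⟨D', h'⟩ := Aut.exists_g23 h hd
  obtain ⟨t, ht⟩ := h'.fis.cls.nonempty
  obtain ⟨hn, ⟨e1⟩⟩ := Aut.quot h'.toFG ht
  obtain ⟨E, f1, f2⟩ := Aut.exists_fis e1 fis_E22
  have k := g22_of_iso f1 e1 f2
  obtain ⟨d', hd'⟩ := f1.cls.nonempty
  obtain ⟨hn', ⟨e2⟩⟩ := Aut.quot k.toFG hd'
  obtain ⟨e3⟩ := nonempty_PSU_equiv Cl.GF4 Cl.card_GF4
  refine ⟨d, (Aut.nwc h.fis hd).1, h.not_mem_commutator hd, hc.symm, t, (Aut.nwc h'.fis ht).1, h'.qs t ht,
    ⟨hn, ⟨E, f1.cls, k.tm.isOfType f1.group k.cen⟩, d', (Aut.nwc f1 hd').1, k.qs d' hd',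
      ⟨Cl.GF4, _, _, Cl.card_GF4, hn', ⟨e2.trans e3.symm⟩⟩, (Aut.nwc f1 hd').2⟩, (Aut.nwc h'.fis ht).2, ?_⟩
  rw [← h'.fis.cls.eq_conjugatesOf ht]
  exact ⟨h'.fis.cls, h'.tm.isOfType h'.fis.group h'.cen⟩

end Cfsg.Agent.S5460
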