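import Mathlib
import Cfsg.Statements.S5462
import Cfsg.Agent.Spor.FiInv

set_option autoImplicit false
open Cfsg

namespace Cfsg.Agent.S5462

open Cfsg.Agent.Spor.TT Cfsg.Agent.GT

/-- Let G be a finite group with trivial centre generated by a conjugation-invariant set D of 3-transpositions on which it acts primitively, such that for some d in D the subgroup generated by the members of D other than d commuting with d has central largest normal 2- and 3-subgroups, and suppose G with D is of type M(22). Then every automorphism of G of order 2 fixes some member of D. -/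
theorem result {G : Type*} [Group G] [Finite G] {D : Set G} (hD : Cfsg.IsThreeTranspositionGroup D) (hprim : Cfsg.IsPrimitiveUnderConj D) (d₀ : G) (hd₀ : d₀ ∈ D) (h3 : Cfsg.pCore 3 ↥(Subgroup.closure {y : G | y ∈ D ∧ y ≠ d₀ ∧ Commute d₀ y}) ≤ Subgroup.center ↥(Subgroup.closure {y : G | y ∈ D ∧ y ≠ d₀ ∧ Commute d₀ y})) (h2 : Cfsg.pCore 2 ↥(Subgroup.closure {y : G | y ∈ D ∧ y ≠ d₀ ∧ Commute d₀ y}) ≤ Subgroup.center ↥(Subgroup.closure {y : G | y ∈ D ∧ y ≠ d₀ ∧ Commute d₀ y})) (h22 : Cfsg.IsOfTypeM22 G D) (φ : MulAut G) (hφ : orderOf φ = 2) : ∃ d ∈ D, φ d = d := by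
  have h := g22_of_type hD hprim h22
  have h1 : φ '' D = D := h.unique (h.fis.cls.image (f := φ.toMonoidHom) φ.surjective
    fun d hd e => hD.set.ne_one hd (φ.map_eq_one_iff.1 e))
  have h4 : Function.Injective (MulAut.conj : G →* MulAut G) :=
    (MonoidHom.ker_eq_bot_iff _).1 ((Subgroup.eq_bot_iff_forall _).2 fun x hx =>
      Subgroup.mem_bot.1 (h.cen ▸ Subgroup.mem_center_iff.2 fun y =>
        (cj_eq_self_iff.1 (MulEquiv.congr_fun hx y)).symm))
  have h5 : ∀ d : G, cj φ (MulAut.conj d) = MulAut.conj (φ d) := fun d => MulEquiv.ext fun y => by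
    simp [cj_def]
  have : Finite (MulAut G) := Finite.of_injective _ (DFunLike.coe_injective (F := G ≃* G))
  obtain ⟨_, ⟨d, hd, rfl⟩, h6⟩ := ((qiso_of_injective _ h4 hD.isTT.cj_mem).tm22 (hD.isTT.map _ h4)
    h.tm).exists_fixed (t := φ) (by
      rintro _ ⟨d, hd, rfl⟩
      exact ⟨φ d, h1 ▸ ⟨d, hd, rfl⟩, (h5 d).symm⟩)
    fun x _ => cj_cj_of_sq (by rw [← pow_two, ← hφ, pow_orderOf_eq_one]) x
  exact ⟨d, hd, h4 ((h5 d).symm.trans (cj_of_commute h6))⟩

end Cfsg.Agent.S5462
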