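import Mathlib
import Cfsg.Statements.S5466
import Cfsg.Agent.Spor.FiTwo

set_option autoImplicit false
open Cfsg

namespace Cfsg.Agent.S5466

open Cfsg.Agent.Spor.TT Cfsg.Agent.GT

open Subgroup

/-- Let G be a finite group with trivial centre generated by a conjugation-invariant set D of 3-transpositions on which it acts primitively, such that for some d in D the subgroup generated by the members of D other than d commuting with d has central largest normal 2- and 3-subgroups, and suppose G with D is of type M(24), and let L be the commutator subgroup of G. Let d₁, d₂, d₃ be distinct pairwise commuting members of D, j their product, E the subgroup generated by d₁ d₂ and d₁ d₃ (a four-group lying in L), CL the centralizer of j in L and K its generalized Fitting subgroup. Then K is quasisimple with centre E, K is the centralizer of E in L, K modulo E is isomorphic to the projective special unitary group of dimension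 6 over the field with four elements, CL/K is isomorphic to the symmetric group of degree 3, and CL modulo E is isomorphic to the full automorphism group of that unitary group. -/
theorem result {G : Type*} [Group G] [Finite G] {D : Set G} (hD : Cfsg.IsThreeTranspositionGroup D) (hprim : Cfsg.IsPrimitiveUnderConj D) (d₀ : G) (hd₀ : d₀ ∈ D) (h3 : Cfsg.pCore 3 ↥(Subgroup.closure {y : G | y ∈ D ∧ y ≠ d₀ ∧ Commute d₀ y}) ≤ Subgroup.center ↥(Subgroup.closure {y : G | y ∈ D ∧ y ≠ d₀ ∧ Commute d₀ y})) (h2 : Cfsg.pCore 2 ↥(Subgroup.closure {y : G | y ∈ D ∧ y ≠ d₀ ∧ Commute d₀ y}) ≤ Subgroup.center ↥(Subgroup.closure {y : G | y ∈ D ∧ y ≠ d₀ ∧ Commute d₀ y})) (h24 : Cfsg.IsOfTypeM24 G D) (L : Subgroup G) (hL : L = commutator G) (d₁ d₂ d₃ : G) (h₁ : d₁ ∈ D) (h₂ : d₂ ∈ D) (h₃ : d₃ ∈ D) (h12 : d₁ ≠ d₂) (h13 : d₁ ≠ d₃) (h23 : d₂ ≠ d₃) (c12 : Commute d₁ d₂) (c13 : Commute d₁ d₃) (c23 : Commute d₂ d₃) (E CL K : Subgroup G) (hE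 : E = Subgroup.closure ({d₁ * d₂, d₁ * d₃} : Set G)) (hCL : CL = L ⊓ Subgroup.centralizer ({d₁ * d₂ * d₃} : Set G)) (hK : K = (Cfsg.generalizedFittingSubgroup ↥CL).map CL.subtype) : Cfsg.IsQuasisimple ↥K ∧ (Subgroup.center ↥K).map K.subtype = E ∧ K = L ⊓ Subgroup.centralizer (E : Set G) ∧ (∃ (_ : (E.subgroupOf K).Normal) (F : Type) (_ : Field F) (_ : Fintype F), Fintype.card F = 4 ∧ Nonempty (↥K ⧸ E.subgroupOf K ≃* Cfsg.PSU 6 F 2)) ∧ ∃ _ : (K.subgroupOf CL).Normal, Nonempty (↥CL ⧸ K.subgroupOf CL ≃* Equiv.Perm (Fin 3)) ∧ E ≤ CL ∧ ∃ (_ : (E.subgroupOf CL).Normal) (F : Type) (_ : Field F) (_ : Fintype F), Fintype.card F = 4 ∧ Nonempty (↥CL ⧸ E.subgroupOf CL ≃* MulAut (Cfsg.PSU 6 F 2)) := by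
  have h := g24_of_type hD hprim h24
  have s := hD.set
  have m₂ : d₂ ∈ Dx D d₁ := ⟨h₂, h12.symm, c12⟩
  have m₃ : d₃ ∈ Dx D d₁ := ⟨h₃, h13.symm, c13⟩
  have m : d₃ ∈ Dx D d₂ := ⟨h₃, h23.symm, c23⟩
  obtain ⟨k1, k2, k3, k4⟩ := perm_three hD h.sep (h.tm.tr.mono (by decide)) (by decide) h₁ m₂ m₃ m
  obtain ⟨θ, l⟩ := h.locS_three h₁ m₂ m₃ m
  subst hL
  obtain ⟨B, hB⟩ : ∃ B, B = commutator G ⊓ centralizer {d₁, d₂, d₃} := ⟨_, rfl⟩
  have p := h.perfect_three h₁ m₂ m₃ m hB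
  have n₁ := h.not_mem_commutator h₁
  have v : ∀ x ∈ ({d₁, d₂, d₃} : Set G), x ∈ closure ({d₁, d₂, d₃} : Set G) :=
    fun _ k => subset_closure k
  have v₁ := v d₁ (by simp)
  have v₂ := v d₂ (by simp)
  have v₃ := v d₃ (by simp)
  have e₂ : d₁ * d₂ ∈ E := hE ▸ subset_closure (by simp)
  have e₃ : d₁ * d₃ ∈ E := hE ▸ subset_closure (by simp)
  have hEV : E = commutator G ⊓ closure {d₁, d₂, d₃} := by
    have a0 : E ≤ commutator G ⊓ closure {d₁, d₂, d₃} := hE ▸ (closure_le _).2 (by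
      rintro _ (rfl | rfl)
      exacts [⟨mul_mem_commutator h.fis.cls h₁ h₂, mul_mem v₁ v₂⟩,
        ⟨mul_mem_commutator h.fis.cls h₁ h₃, mul_mem v₁ v₃⟩])
    refine le_antisymm a0 fun x hx => ?_
    have a1 : ∀ t ∈ ({d₁, d₂, d₃} : Set G), t⁻¹ = t ∧ d₁ * t ∈ E := by
      rintro _ (rfl | rfl | rfl)
      exacts [⟨s.inv_eq h₁, (s.mul_self h₁).symm ▸ one_mem _⟩, ⟨s.inv_eq h₂, e₂⟩, ⟨s.inv_eq h₃, e₃⟩]
    have a2 : ∀ t ∈ ({d₁, d₂, d₃} : Set G), ∀ y, (y ∈ E ∨ d₁ * y ∈ E) →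
        t * y ∈ E ∨ d₁ * (t * y) ∈ E := fun t ht y hy => hy.elim
      (fun k => Or.inr (mul_assoc d₁ t y ▸ mul_mem (a1 t ht).2 k)) fun k => Or.inl (by
        have := mul_mem (inv_mem (a1 t ht).2) k
        rwa [mul_inv_rev, mul_assoc, inv_mul_cancel_left, (a1 t ht).1] at this)
    have a3 : ∀ y ∈ closure ({d₁, d₂, d₃} : Set G), y ∈ E ∨ d₁ * y ∈ E := fun y hy => by
      induction hy using closure_induction_left with
      | one => exact Or.inl (one_mem _)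
      | mul_left t ht y _ k => exact a2 t ht y k
      | inv_mul_cancel t ht y _ k => exact (a1 t ht).1.symm ▸ a2 t ht y k
    exact (a3 x hx.2).resolve_right fun k => n₁ (((commutator G).mul_mem_cancel_right hx.1).1 (a0 k).1)
  have lB : B ≤ centralizer {d₁, d₂, d₃} := hB ▸ inf_le_right
  have lj : centralizer {d₁, d₂, d₃} ≤ centralizer ({d₁ * d₂ * d₃} : Set G) := fun x hx =>
    let ⟨a, b, c⟩ := mem_cen_three.1 hx; mem_cen.2 ((a.mul_right b).mul_right c).symm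
  have le : B ≤ CL := hB ▸ hCL ▸ inf_le_inf_left _ lj
  have lE : E ≤ B := hB ▸ hEV ▸ inf_le_inf_left _ l.le
  have hBE : B = commutator G ⊓ centralizer (E : Set G) := by
    refine le_antisymm (fun x hx => ⟨(hB.le hx).1, fun y hy => (centralizer_closure _).ge (lB hx) y
      (hEV.le hy).2⟩) fun x hx => hB.ge ⟨hx.1, ?_⟩
    obtain ⟨i, a2⟩ := (perm_two hD h.sep (h.tm.tr.mono (by decide)) (by decide) h₁ m₂).2.2.1 x
      (mem_cen.2 (hx.2 _ e₂)) 0
    obtain ⟨j, a3⟩ := (perm_two hD h.sep (h.tm.tr.mono (by decide)) (by decide) h₁ m₃).2.2.1 x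
      (mem_cen.2 (hx.2 _ e₃)) 0
    have a1 : Commute x d₁ := by
      fin_cases i
      · exact cj_eq_self_iff.1 a2
      fin_cases j
      · exact cj_eq_self_iff.1 a3
      exact absurd (a2.symm.trans a3) h23
    refine mem_cen_three.2 ⟨a1, ?_, ?_⟩
    · exact s.mul_self_mul h₁ d₂ ▸ a1.mul_right (hx.2 _ e₂).symm
    · exact s.mul_self_mul h₁ d₃ ▸ a1.mul_right (hx.2 _ e₃).symm
  have nj : d₁ * d₂ * d₃ ∉ commutator G := fun k => h.not_mem_commutator h₃
    ((mul_mem_cancel_left (mul_mem_commutator h.fis.cls h₁ h₂)).1 k)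
  have mj := l.le (mul_mem (mul_mem v₁ v₂) v₃)
  obtain ⟨hn, ⟨ε⟩⟩ := exists_perm_quot (H := CL) (A := B) k1 (fun g hg => k3 g (hCL.le hg).2)
    (fun σ => by
      obtain ⟨g, hg, k⟩ := k4 σ
      exact (h.mem_or nj g).elim (fun a => ⟨g, hCL.ge ⟨a, hg⟩, k⟩) fun a =>
        ⟨_, hCL.ge ⟨a, mul_mem hg (lj mj)⟩, fun i => by
          rw [← cj_cj, cj_of_commute ((k2 _).1 mj i), k]⟩)
    fun g hg => ⟨fun a => (k2 g).1 (lB a), fun a => hB.ge ⟨(hCL.le hg).1, (k2 g).2 a⟩⟩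
  have hn' : (E.subgroupOf CL).Normal := by
    have a1 : ∀ g ∈ CL, ∀ t ∈ ({d₁, d₂, d₃} : Set G), cj g t ∈ closure ({d₁, d₂, d₃} : Set G) :=
      fun g hg t ht => by
        obtain ⟨i, rfl⟩ : ∃ i, ![d₁, d₂, d₃] i = t := by
          rcases ht with rfl | rfl | rfl
          exacts [⟨0, rfl⟩, ⟨1, rfl⟩, ⟨2, rfl⟩]
        obtain ⟨j, e⟩ := k3 g (hCL.le hg).2 i
        rw [e]
        fin_cases j
        exacts [v₁, v₂, v₃]
    exact ⟨fun x hx g => hEV.ge ⟨cj_mem_of_normal _ (hEV.le hx).1, cj_mem_of_normalizer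
      (mem_normalizer_closure (a1 g g.2) (a1 _ (inv_mem g.2))) (hEV.le hx).2⟩⟩
  let φ := θ.comp (inclusion lB)
  have sφ : Function.Surjective φ := fun y => by
    obtain ⟨x, rfl⟩ := l.surj y
    rcases h.mem_or n₁ x with a | a
    · exact ⟨⟨x, hB.ge ⟨a, x.2⟩⟩, rfl⟩
    · refine ⟨⟨_, hB.ge ⟨a, mul_mem x.2 (l.le v₁)⟩⟩, ?_⟩
      rw [← mul_one (θ x), ← (l.ker ⟨d₁, l.le v₁⟩).2 v₁, ← map_mul]
      rfl
  have kφ : ∀ x, φ x = 1 ↔ (x : G) ∈ E := fun x =>
    (l.ker _).trans (hEV ▸ (and_iff_right (hB.le x.2).1).symm)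
  have hz : φ.ker = center B := le_antisymm (fun x hx => mem_center_iff.2 fun y =>
      Subtype.ext ((hBE.le y.2).2 _ ((kφ x).1 hx)).symm)
    fun a ha => mem_bot.1 (fis_tvP.center_eq_bot ▸ mem_center_iff.2 fun b => by
      obtain ⟨n, rfl⟩ := sφ b
      rw [← map_mul, ← map_mul, mem_center_iff.1 ha])
  have hz' : φ.ker = E.subgroupOf B := Subgroup.ext kφ
  let ι := subgroupOfEquivOfLe le
  have : Group.IsPerfect B := isPerfect_iff.2 p
  have := Group.IsPerfect.ofSurjective (f := ι.symm.toMonoidHom) ι.symm.surjective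
  obtain ⟨q1, q0, Φ, q2, q3⟩ := aut_of_central fis_tvP.center_eq_bot
    (Z := E.subgroupOf CL) (φ.comp ι.toMonoidHom)
    (sφ.comp ι.surjective) (fun a => kφ _) (fun x hx => lE hx)
    (fun x hx => mem_center_iff.2 fun y => ι.injective (by
      rw [map_mul, map_mul]; exact mem_center_iff.1 (hz.le hx) _))
    fun x hx => hBE.ge ⟨(hCL.le x.2).1, fun y hy =>
      congrArg Subtype.val (hx ⟨y, le (lE hy)⟩ (lE hy))⟩
  rw [q0, map_subgroupOf_eq_of_le le] at hK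
  subst hK
  obtain ⟨e⟩ := nonempty_PSU_equiv Cl.GF4 Cl.card_GF4
  have hn'' : (E.subgroupOf K).Normal := hz' ▸ φ.normal_ker
  refine ⟨q1.of_mulEquiv ι, by rw [← hz, hz', map_subgroupOf_eq_of_le lE], hBE,
    ⟨hn'', Cl.GF4, _, _, Cl.card_GF4, ⟨((QuotientGroup.quotientMulEquivOfEq hz'.symm).trans
      (QuotientGroup.quotientKerEquivOfSurjective φ sφ)).trans e.symm⟩⟩, hn, ⟨ε⟩, lE.trans le, hn',
    Cl.GF4, _, _, Cl.card_GF4, ⟨((QuotientGroup.quotientMulEquivOfEq q2.symm).trans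
      (QuotientGroup.quotientKerEquivOfSurjective Φ ?_)).trans (MulAut.congr e.symm)⟩⟩
  have c1 := φ.ker.card_mul_index
  have c2 := Φ.ker.card_mul_index
  have c3 := (K.subgroupOf CL).card_mul_index
  rw [index_ker, MonoidHom.range_eq_top.2 sφ, card_top, hz',
    Nat.card_congr (subgroupOfEquivOfLe lE).toEquiv] at c1
  rw [index_ker, q2, Nat.card_congr (subgroupOfEquivOfLe (lE.trans le)).toEquiv] at c2
  rw [index, Nat.card_congr ε.toEquiv, Nat.card_perm, Nat.card_fin, Nat.card_congr ι.toEquiv, ← c1,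
    ← c2, mul_assoc] at c3
  have : Finite (MulAut PU6) := Nat.finite_of_card_ne_zero (by rw [card_aut_PU6, card_PU6]; decide)
  refine MonoidHom.range_eq_top.1 (eq_top_of_card_eq _ ?_)
  rw [← Nat.eq_of_mul_eq_mul_left Nat.card_pos c3, card_aut_PU6, mul_comm]
  rfl

end Cfsg.Agent.S5466
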