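import Mathlib
import Cfsg.Statements.S5468
import Cfsg.Agent.Spor.FiTwo

set_option autoImplicit false
open Cfsg

namespace Cfsg.Agent.S5468

open Cfsg.Agent.Spor.TT Cfsg.Agent.GT

/-- Let G be a finite group with trivial centre generated by a conjugation-invariant set D of 3-transpositions on which it acts primitively, such that for some d in D the subgroup generated by the members of D other than d commuting with d has central largest normal 2- and 3-subgroups, and suppose G with D is of type M(23). Let d₁, d₂ be distinct commuting members of D, j = d₁ d₂, K the joint centralizer of d₁ and d₂ and C the centralizer of j. Then K has index 2 in C, the centre of K is the subgroup generated by d₁ and d₂, K is quasisimple with K modulo its centre isomorphic to the projective special unitary group of dimension 6 over the field with four elements, and C modulo the subgroup generated by d₁ and d₂ has trivial centre (so it is that unitary group extended by an outer involution).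 -/
theorem result {G : Type*} [Group G] [Finite G] {D : Set G} (hD : Cfsg.IsThreeTranspositionGroup D) (hprim : Cfsg.IsPrimitiveUnderConj D) (d₀ : G) (hd₀ : d₀ ∈ D) (h3 : Cfsg.pCore 3 ↥(Subgroup.closure {y : G | y ∈ D ∧ y ≠ d₀ ∧ Commute d₀ y}) ≤ Subgroup.center ↥(Subgroup.closure {y : G | y ∈ D ∧ y ≠ d₀ ∧ Commute d₀ y})) (h2 : Cfsg.pCore 2 ↥(Subgroup.closure {y : G | y ∈ D ∧ y ≠ d₀ ∧ Commute d₀ y}) ≤ Subgroup.center ↥(Subgroup.closure {y : G | y ∈ D ∧ y ≠ d₀ ∧ Commute d₀ y})) (h23 : Cfsg.IsOfTypeM23 G D) (d₁ d₂ : G) (h₁ : d₁ ∈ D) (h₂ : d₂ ∈ D) (hne : d₁ ≠ d₂) (hc : Commute d₁ d₂) (K C V : Subgroup G) (hK : K = Subgroup.centralizer ({d₁, d₂} : Set G)) (hC : C = Subgroup.centralizer ({d₁ * d₂} : Set G)) (hV : V = Subgroup.closure ({d₁, d₂} : Set G)) [hn : (V.subgroupOf C).Normal] : K ≤ C ∧ (K.subgroupOf C).index = 2 ∧ (Subgroup.center ↥K).map K.subtype = V ∧ Cfsg.IsQuasisimple ↥K ∧ (∃ (F : Type) (_ : Field F) (_ : Fintype F), Fintype.card F = 4 ∧ Nonempty (↥K ⧸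 Subgroup.center ↥K ≃* Cfsg.PSU 6 F 2)) ∧ Subgroup.center (↥C ⧸ V.subgroupOf C) = ⊥ := by
  have h := g23_of_type hD hprim h23
  have m : d₂ ∈ Dx D d₁ := ⟨h₂, hne.symm, hc⟩
  obtain ⟨k1, k2, k3, k4⟩ := perm_two hD (h.is.sep hD.isTT) (h.tm.tr.mono (by decide)) (by decide) h₁ m
  obtain ⟨θ, l⟩ := h.toFG.locS_two g22_E22.toFG h₁ m
  have p := h.perfect_two h₁ m hK
  subst hK hC hV
  obtain ⟨_, ⟨ε⟩⟩ := exists_perm_quot k1 k3 k4 fun g _ => k2 g
  have le : Subgroup.centralizer ({d₁, d₂} : Set G) ≤ Subgroup.centralizer {d₁ * d₂} := fun x hx =>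
    let ⟨a, b⟩ := mem_cen_pair.1 hx; mem_cen.2 (a.mul_right b).symm
  let ι := Subgroup.subgroupOfEquivOfLe le
  have : Group.IsPerfect (Subgroup.centralizer ({d₁, d₂} : Set G)) := Subgroup.isPerfect_iff.2 p
  have := Group.IsPerfect.ofSurjective (f := ι.symm.toMonoidHom) ι.symm.surjective
  have hz : θ.ker = Subgroup.center _ := le_antisymm (fun x hx => Subgroup.mem_center_iff.2 fun y =>
      Subtype.ext ((Subgroup.centralizer_closure _).ge y.2 _ ((l.ker x).1 hx)).symm)
    fun a ha => Subgroup.mem_bot.1 (fis_tvP.center_eq_bot ▸ Subgroup.mem_center_iff.2 fun b => by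
      obtain ⟨n, rfl⟩ := l.surj b
      rw [← map_mul, ← map_mul, Subgroup.mem_center_iff.1 ha])
  obtain ⟨q1, -, Φ, q2, q3⟩ := aut_of_central fis_tvP.center_eq_bot
    (Z := (Subgroup.closure {d₁, d₂}).subgroupOf _) (θ.comp ι.toMonoidHom)
    (l.surj.comp ι.surjective) (fun a => l.ker _) (fun x hx => l.le hx)
    (fun x hx => Subgroup.mem_center_iff.2 fun y => ι.injective (by
      rw [map_mul, map_mul]; exact Subgroup.mem_center_iff.1 (hz.le hx) _))
    fun x hx => mem_cen_pair.2 ⟨(congrArg Subtype.val (hx ⟨d₁, le (l.le (Subgroup.subset_closure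
      (Or.inl rfl)))⟩ (l.le (Subgroup.subset_closure (Or.inl rfl))))).symm, (congrArg Subtype.val
      (hx ⟨d₂, le (l.le (Subgroup.subset_closure (Or.inr rfl)))⟩
      (l.le (Subgroup.subset_closure (Or.inr rfl))))).symm⟩
  obtain ⟨e⟩ := nonempty_PSU_equiv Cl.GF4 Cl.card_GF4
  refine ⟨le, ?_, ?_, q1.of_mulEquiv ι, ⟨Cl.GF4, _, _, Cl.card_GF4,
    ⟨((QuotientGroup.quotientMulEquivOfEq hz.symm).trans
      (QuotientGroup.quotientKerEquivOfSurjective θ l.surj)).trans e.symm⟩⟩, eq_bot_iff.2 fun x hx => ?_⟩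
  · rw [Subgroup.index, Nat.card_congr ε.toEquiv, Nat.card_perm, Nat.card_fin]
    rfl
  · rw [← hz, show θ.ker = (Subgroup.closure {d₁, d₂}).subgroupOf _ from Subgroup.ext l.ker,
      Subgroup.map_subgroupOf_eq_of_le l.le]
  · obtain ⟨x, rfl⟩ := QuotientGroup.mk_surjective x
    refine (QuotientGroup.eq_one_iff x).2 (q2.le (MulEquiv.ext fun b => ?_))
    obtain ⟨n, rfl⟩ := (l.surj.comp ι.surjective) b
    have a1 := Subgroup.mem_center_iff.1 hx (n : Subgroup.centralizer ({d₁ * d₂} : Set G))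
    rw [← QuotientGroup.mk_mul, ← QuotientGroup.mk_mul, QuotientGroup.eq, ← q2, MonoidHom.mem_ker,
      map_mul, map_inv, inv_mul_eq_one, map_mul, map_mul, q3] at a1
    refine (inv_mul_eq_one.1 (Subgroup.mem_bot.1 (fis_tvP.center_eq_bot ▸
      Subgroup.mem_center_iff.2 fun y => ?_))).symm
    have a2 := DFunLike.congr_fun a1 ((Φ x).symm y)
    simp only [MulAut.mul_apply, MulAut.conj_apply, map_mul, map_inv,
      MulEquiv.apply_symm_apply] at a2
    rw [mul_assoc _ _ y, eq_inv_mul_iff_mul_eq, ← mul_assoc, ← mul_assoc]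
    exact eq_mul_inv_iff_mul_eq.1 a2

end Cfsg.Agent.S5468
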