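import Mathlib
import Cfsg.Statements.S5514
import Cfsg.Agent.Spor.FiThree2
import Cfsg.Agent.Spor.F23.O7
import Cfsg.Agent.S0292
-- import your own Cfsg.Agent.* helpers here

set_option autoImplicit false
open Cfsg

namespace Cfsg.Agent.S5514

/-- The commutator subgroup of the isometry group of a non-degenerate 7-dimensional quadratic form over the field with three elements, modulo its (trivial) centre — the simple group Ω(7, 3) — has exactly seven conjugacy classes of subgroups of order 3. -/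
theorem result : ∃ Y : Fin 7 → Subgroup (Cfsg.POmega (ZMod 3) (Cfsg.quadFormOdd 3 (ZMod 3))), (∀ i, Nat.card (Y i) = 3) ∧ (∀ i j, (∃ g : Cfsg.POmega (ZMod 3) (Cfsg.quadFormOdd 3 (ZMod 3)), (Y i).map (MulAut.conj g).toMonoidHom = Y j) → i = j) ∧ (∀ X : Subgroup (Cfsg.POmega (ZMod 3) (Cfsg.quadFormOdd 3 (ZMod 3))), Nat.card X = 3 → ∃ i, ∃ g : Cfsg.POmega (ZMod 3) (Cfsg.quadFormOdd 3 (ZMod 3)), X.map (MulAut.conj g).toMonoidHom = Y i) := by
  obtain ⟨M, hM, hD⟩ := Spor.F23.exists_good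
  have := M.fin
  obtain ⟨h1, ⟨e⟩⟩ := Spor.TT.g23_E23.mu_gen (a := M.x 10331) (d := M.x 6249) (hD.le (M.mem_D (by decide)))
    ⟨hD.le (M.mem_D (by decide)), fun h => absurd ((M.commute_x_iff (by decide) (by decide)).1 h) (by decide +kernel)⟩
  have h2 := S0292.result (ZMod.card 3) (by decide) 3 le_rfl
  rw [show 3 ^ 3 ^ 2 * ∏ i ∈ Finset.range 3, (3 ^ (2 * (i + 1)) - 1) = 2 * 4585351680 by decide +kernel] at h2
  obtain ⟨Y, k1, k2, k3⟩ := Spor.F23.o7_main M
    (e.symm.trans (MulEquiv.subgroupCongr (h1.trans (Spor.F23.o7_cen M).symm))) (by omega)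
  exact ⟨Y, fun i => (k1 i).2, k2, fun X => k3 X le_top⟩

end Cfsg.Agent.S5514
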