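import Mathlib
import Cfsg.Statements.S5515
import Cfsg.Agent.Cl.AutOD4
import Cfsg.Agent.Cl.QuadBal
import Cfsg.Agent.GT.FStar
import Cfsg.Agent.Sym.Index

set_option autoImplicit false
open Cfsg

namespace Cfsg.Agent.S5515

open Cfsg.Agent.Cl

theorem exists_emb {S G : Type*} [Group S] (hS : Subgroup.center S = ⊥)
    [Group G] [Finite G] (e : generalizedFittingSubgroup G ≃* S)
    [(generalizedFittingSubgroup G).Normal] :
    ∃ H : Subgroup (Out S), Nat.card H = Nat.card (G ⧸ generalizedFittingSubgroup G) ∧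
      Nonempty (G ≃* H.comap (QuotientGroup.mk' (Inn S))) := by
  let φ : G →* MulAut S := (MulAut.congr e).toMonoidHom.comp MulAut.conjNormal
  have h1 : ∀ l : generalizedFittingSubgroup G, φ l = MulAut.conj (e l) := fun l => by
    ext s
    obtain ⟨s, rfl⟩ := e.surjective s
    simp only [φ, MulEquiv.toMonoidHom_eq_coe, MonoidHom.comp_apply, MonoidHom.coe_coe,
      MulAut.congr_apply, MulEquiv.trans_apply, MulEquiv.symm_apply_apply, MulAut.conj_apply,
      ← map_inv, ← map_mul]
    rfl
  have h2 : ∀ g, φ g = 1 → g ∈ generalizedFittingSubgroup G := fun g hg =>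
    GT.centralizer_genFitting_le fun l hl => by
      have := congrArg Subtype.val (e.injective (by
        simpa [φ] using DFunLike.congr_fun hg (e ⟨l, hl⟩)) : MulAut.conjNormal g ⟨l, hl⟩ = ⟨l, hl⟩)
      rw [MulAut.conjNormal_apply, mul_inv_eq_iff_eq_mul] at this
      exact this.symm
  have h3 : Function.Injective φ := (injective_iff_map_eq_one φ).2 fun g hg => by
    have h4 := h1 ⟨g, h2 g hg⟩
    have h5 : e ⟨g, h2 g hg⟩ ∈ Subgroup.center S := Subgroup.mem_center_iff.2 fun s => by
      have := DFunLike.congr_fun (h4.symm.trans hg) s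
      rw [MulAut.conj_apply, MulAut.one_apply, mul_inv_eq_iff_eq_mul] at this
      exact this.symm
    rw [hS, Subgroup.mem_bot, map_eq_one_iff _ e.injective] at h5
    exact congrArg Subtype.val h5
  let ψ := (QuotientGroup.mk' (Inn S)).comp φ
  have h4 : ψ.ker = generalizedFittingSubgroup G := by
    ext g
    refine (QuotientGroup.eq_one_iff _).trans ⟨fun ⟨s, hs⟩ => ?_, fun hg => ⟨_, (h1 ⟨g, hg⟩).symm⟩⟩
    obtain ⟨l, rfl⟩ := e.surjective s
    rw [h3 ((h1 l).trans hs).symm]
    exact l.2
  refine ⟨ψ.range, ?_, ⟨(MonoidHom.ofInjective h3).trans (MulEquiv.subgroupCongr ?_)⟩⟩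
  · rw [← Nat.card_congr (QuotientGroup.quotientKerEquivRange ψ).toEquiv]
    exact congrArg Subgroup.index h4
  · rw [MonoidHom.range_comp _ φ, Subgroup.comap_map_eq_self]
    rw [QuotientGroup.ker_mk']
    rintro _ ⟨s, rfl⟩
    obtain ⟨l, rfl⟩ := e.surjective s
    exact ⟨l, h1 l⟩

theorem exists_conj {O : Type*} [Group O] (e : O ≃* Equiv.Perm (Fin 4) × Multiplicative (ZMod 1))
    {H K : Subgroup O} (hH : Nat.card H = 6) (hK : Nat.card K = 6) :
    ∃ x : O, K = H.map (MulAut.conj x).toMonoidHom := by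
  let f : O ≃* Equiv.Perm (Fin 4) := e.trans MulEquiv.prodUnique
  have key : ∀ H : Subgroup O, Nat.card H = 6 → ∃ i : Fin 4, ∀ x, x ∈ H ↔ f x i = i :=
    fun H hH => by
      obtain ⟨i, hi⟩ := Sym.exists_eq_stabilizer_of_index_eq (α := Fin 4) (by simp)
        (H := H.map f.toMonoidHom) (by
          have := (H.map f.toMonoidHom).index_mul_card
          rw [Subgroup.card_map_of_injective f.injective, hH] at this
          simp [Fintype.card_perm, Nat.factorial] at this ⊢
          omega)
      exact ⟨i, fun x => (Subgroup.mem_map_iff_mem (f := f.toMonoidHom) f.injective).symm.trans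
        (by rw [hi]; rfl)⟩
  obtain ⟨i, hi⟩ := key H hH
  obtain ⟨j, hj⟩ := key K hK
  refine ⟨f.symm (Equiv.swap i j), Subgroup.ext fun x => ?_⟩
  rw [Subgroup.mem_map_equiv, hi, hj]
  simp [Equiv.swap_apply_eq_iff]

/-- Let G and G′ be finite groups whose generalized Fitting subgroups are isomorphic to PΩ⁺(8, 3) (the commutator subgroup of the isometry group of the hyperbolic quadratic form in dimension 8 over the field with three elements, modulo its centre) with quotients isomorphic to the symmetric group of degree 3. Then G and G′ are isomorphic. -/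
theorem result {G G' : Type*} [Group G] [Finite G] [Group G'] [Finite G'] (hF : Nonempty (↥(Cfsg.generalizedFittingSubgroup G) ≃* Cfsg.POmega (ZMod 3) (Cfsg.quadFormPlus 4 (ZMod 3)))) (hF' : Nonempty (↥(Cfsg.generalizedFittingSubgroup G') ≃* Cfsg.POmega (ZMod 3) (Cfsg.quadFormPlus 4 (ZMod 3)))) [hn : (Cfsg.generalizedFittingSubgroup G).Normal] [hn' : (Cfsg.generalizedFittingSubgroup G').Normal] (hq : Nonempty (G ⧸ Cfsg.generalizedFittingSubgroup G ≃* Equiv.Perm (Fin 3))) (hq' : Nonempty (G' ⧸ Cfsg.generalizedFittingSubgroup G' ≃* Equiv.Perm (Fin 3))) : Nonempty (G ≃* G') := by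
  have : Fact (Nat.Prime 3) := ⟨Nat.prime_three⟩
  obtain ⟨e⟩ := o_out_plus_four_odd (F := ZMod 3) (p := 3) (f := 1) le_rfl (by simp) (by decide)
  have hc : Subgroup.center (POmega (ZMod 3) (quadFormPlus 4 (ZMod 3))) = ⊥ :=
    quad_center_pomega (P := quad_plus 4 (ZMod 3)) quad_plus_nondeg (by simp)
  obtain ⟨H, h1, ⟨a⟩⟩ := exists_emb hc hF.some
  obtain ⟨K, h2, ⟨b⟩⟩ := exists_emb hc hF'.some
  obtain ⟨x, rfl⟩ := exists_conj e (h1.trans (by simpa [Fintype.card_perm, Nat.factorial] using Nat.card_congr hq.some.toEquiv))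
    (h2.trans (by simpa [Fintype.card_perm, Nat.factorial] using Nat.card_congr hq'.some.toEquiv))
  obtain ⟨x, rfl⟩ := QuotientGroup.mk'_surjective _ x
  refine ⟨(a.trans (((MulAut.conj x).subgroupMap _).trans (MulEquiv.subgroupCongr ?_))).trans
    b.symm⟩
  ext y
  refine Subgroup.mem_map_equiv.trans ?_
  rw [Subgroup.mem_comap, Subgroup.mem_comap, Subgroup.mem_map_equiv]
  simp

end Cfsg.Agent.S5515
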