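import Mathlib
import Cfsg.Statements.S5516
import Cfsg.Agent.Spor.F23.O8d
import Cfsg.Agent.S5515
-- import your own Cfsg.Agent.* helpers here

set_option autoImplicit false
open Cfsg

namespace Cfsg.Agent.S5516

/-- PΩ⁺(8, 3) (the commutator subgroup of the isometry group of the hyperbolic quadratic form in dimension 8 over the field with three elements, modulo its centre) has exactly 13 conjugacy classes of subgroups of order 3; and a finite group G whose generalized Fitting subgroup L is isomorphic to PΩ⁺(8, 3) with G/L the symmetric group of degree 3 has exactly 7 orbits, under conjugation, on the subgroups of L of order 3. -/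
theorem result {G : Type*} [Group G] [Finite G] (L : Subgroup G) (hL : L = Cfsg.generalizedFittingSubgroup G) (hF : Nonempty (↥L ≃* Cfsg.POmega (ZMod 3) (Cfsg.quadFormPlus 4 (ZMod 3)))) [hn : L.Normal] (hq : Nonempty (G ⧸ L ≃* Equiv.Perm (Fin 3))) : (∃ Y : Fin 13 → Subgroup (Cfsg.POmega (ZMod 3) (Cfsg.quadFormPlus 4 (ZMod 3))), (∀ i, Nat.card (Y i) = 3) ∧ (∀ i j, (∃ g : Cfsg.POmega (ZMod 3) (Cfsg.quadFormPlus 4 (ZMod 3)), (Y i).map (MulAut.conj g).toMonoidHom = Y j) → i = j) ∧ (∀ X : Subgroup (Cfsg.POmega (ZMod 3) (Cfsg.quadFormPlus 4 (ZMod 3))), Nat.card X = 3 → ∃ i, ∃ g : Cfsg.POmega (ZMod 3) (Cfsg.quadFormPlus 4 (ZMod 3)), X.map (MulAut.conj g).toMonoidHom = Y i)) ∧ ∃ Y : Fin 7 → Subgroup G, (∀ i, Y i ≤ L ∧ Nat.card (Y i) = 3) ∧ (∀ i j, (∃ g : G, (Y i).map (MulAut.conj g).toMonoidHom = Y j) → i = j) ∧ ∀ X : Subgroup G, X ≤ L → Nat.card X = 3 → ∃ i, ∃ g : G, X.map (MulAut.conj g).toMonoidHom = Y i := by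
  subst hL
  obtain ⟨M, hM, -⟩ := Spor.F23.exists_good
  have := M.fin
  have := GT.genFitting_normal (G := Spor.genLt (M.wl Spor.F23.o8_t) 10)
  obtain ⟨h1, ⟨e⟩⟩ := Spor.F23.o8_tri M hM
  obtain ⟨ψ⟩ := S5515.result hF ⟨e⟩ hq h1
  obtain ⟨Y, k1, k2, k3⟩ := Spor.F23.o8_13 M hM (e.symm.trans (((generalizedFittingSubgroup _).equivMapOfInjective _
    (Subgroup.subtype_injective _)).trans (MulEquiv.subgroupCongr (Spor.F23.o8_L M hM).1)))
  exact ⟨⟨Y, fun i => (k1 i).2, k2, fun X => k3 X le_top⟩, Spor.F23.o8_7 M hM ψ⟩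

end Cfsg.Agent.S5516
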