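import Mathlib
import Cfsg.Statements.S5517
import Cfsg.Agent.Spor.FiTwo
import Cfsg.Agent.Spor.FiThree2

set_option autoImplicit false
open Cfsg

namespace Cfsg.Agent.S5517

open Cfsg.Agent.Spor.TT Cfsg.Agent.GT

open Subgroup

/-- Let G be a finite group with trivial centre generated by a conjugation-invariant set D of 3-transpositions on which it acts primitively, such that for some d in D the subgroup generated by the members of D other than d commuting with d has central largest normal 2- and 3-subgroups, and suppose G with D is of type M(22). Then G has a subgroup L generated by the members of D it contains and isomorphic to Ω(7, 3) (the commutator subgroup of the isometry group of a non-degenerate 7-dimensional quadratic form over the field with three elements, modulo its centre), and every Sylow 3-subgroup of L is a Sylow 3-subgroup of G. -/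
theorem result {G : Type*} [Group G] [Finite G] {D : Set G} (hD : Cfsg.IsThreeTranspositionGroup D) (hprim : Cfsg.IsPrimitiveUnderConj D) (d₀ : G) (hd₀ : d₀ ∈ D) (h3 : Cfsg.pCore 3 ↥(Subgroup.closure {y : G | y ∈ D ∧ y ≠ d₀ ∧ Commute d₀ y}) ≤ Subgroup.center ↥(Subgroup.closure {y : G | y ∈ D ∧ y ≠ d₀ ∧ Commute d₀ y})) (h2 : Cfsg.pCore 2 ↥(Subgroup.closure {y : G | y ∈ D ∧ y ≠ d₀ ∧ Commute d₀ y}) ≤ Subgroup.center ↥(Subgroup.closure {y : G | y ∈ D ∧ y ≠ d₀ ∧ Commute d₀ y})) (h22 : Cfsg.IsOfTypeM22 G D) : ∃ L : Subgroup G, Cfsg.IsDSubgroup D L ∧ Nonempty (↥L ≃* Cfsg.POmega (ZMod 3) (Cfsg.quadFormOdd 3 (ZMod 3))) ∧ ∀ P : Sylow 3 ↥L, ∃ P' : Sylow 3 G, (P : Subgroup ↥L).map L.subtype = (P' : Subgroup G) := by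
  have h := g22_of_type hD hprim h22
  obtain ⟨e, he⟩ := h.iso
  obtain ⟨a, ha⟩ := fis_E23.cls.nonempty
  obtain ⟨c, hc⟩ := fis_E23.exists_mem_Ax ha
  obtain ⟨θ, l⟩ := g23_E23.loc a ha
  have le : centralizer {a, c} ≤ centralizer ({a} : Set Cfsg.Spor.Fi23) :=
    fun x hx => mem_cen.2 (mem_cen_pair.1 hx).1.symm
  let φ := (e.symm.toMonoidHom.comp θ).comp (inclusion le)
  have hφ : Function.Injective φ := (injective_iff_map_eq_one _).2 fun x hx => Subtype.ext
    (((l.ker _).1 (e.symm.map_eq_one_iff.1 hx)).resolve_right fun k =>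
      hc.2 (k ▸ (mem_cen_pair.1 x.2).2))
  have ε := MonoidHom.ofInjective hφ
  have key : ∀ y : centralizer ({a, c} : Set Cfsg.Spor.Fi23), (y : Cfsg.Spor.Fi23) ∈ Dx E23 a → φ y ∈ D := fun y k => by
    obtain ⟨x, hx, k1⟩ := he.ge (l.mem (inclusion le y) k)
    exact (e.symm_apply_eq.2 k1.symm : φ y = x) ▸ hx
  obtain ⟨k1, ⟨e1⟩⟩ := g23_E23.mu_gen ha hc
  refine ⟨φ.range, le_antisymm ((closure_le _).2 fun x hx => hx.2) ?_,
    ⟨ε.symm.trans ((MulEquiv.subgroupCongr k1.symm).trans e1)⟩, fun P => ?_⟩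
  · rintro _ ⟨y, rfl⟩
    obtain ⟨z, k2, k3⟩ := (closure_le (((closure {d | d ∈ D ∧ d ∈ φ.range}).comap φ).map
      (Subgroup.subtype _))).2 (fun x hx => ⟨⟨x, k1.le (subset_closure hx)⟩,
        subset_closure ⟨key _ hx.1, _, rfl⟩, rfl⟩) (k1.ge y.2)
    exact Subtype.ext k3 ▸ k2
  · have : Fact (Nat.Prime 3) := ⟨Nat.prime_three⟩
    refine ⟨Sylow.ofCard ((P : Subgroup φ.range).map φ.range.subtype) ?_, rfl⟩
    rw [card_map_of_injective (subtype_injective _), P.card_eq_multiplicity,
      ← Nat.card_congr ε.toEquiv, g23_E23.card_cen_pair ha hc, h.card]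
    congr 1
    rw [Nat.factorization_def _ Nat.prime_three, Nat.factorization_def _ Nat.prime_three]
    decide +kernel

end Cfsg.Agent.S5517
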