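import Mathlib
import Cfsg.Statements.S5518
import Cfsg.Agent.Spor.F24.N13

set_option autoImplicit false
open Cfsg

namespace Cfsg.Agent.S5518

/-- Let G be a finite group with trivial centre generated by a conjugation-invariant set D of 3-transpositions on which it acts primitively, such that for some d in D the subgroup generated by the members of D other than d commuting with d has central largest normal 2- and 3-subgroups, and suppose G with D is of type M(24). Then any two subgroups of order 13 are conjugate; and there are members a, b, c, d of D generating the direct product T of two symmetric groups of degree 3 (a, d non-commuting; b, c non-commuting; b and c commuting with a and d) whose centralizer K is isomorphic to the Chevalley group G₂(3), such that for every subgroup B of K of order 13: the normalizer of B lies in the normalizer of K, the normalizer F of B in K is a Frobenius group of order 78 with kernel B (order 78, centralizer of B in it equal to B), and the subgroup generated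 by F and T has index 2 in the normalizer of B. -/
theorem result {G : Type*} [Group G] [Finite G] {D : Set G} (hD : Cfsg.IsThreeTranspositionGroup D) (hprim : Cfsg.IsPrimitiveUnderConj D) (d₀ : G) (hd₀ : d₀ ∈ D) (h3 : Cfsg.pCore 3 ↥(Subgroup.closure {y : G | y ∈ D ∧ y ≠ d₀ ∧ Commute d₀ y}) ≤ Subgroup.center ↥(Subgroup.closure {y : G | y ∈ D ∧ y ≠ d₀ ∧ Commute d₀ y})) (h2 : Cfsg.pCore 2 ↥(Subgroup.closure {y : G | y ∈ D ∧ y ≠ d₀ ∧ Commute d₀ y}) ≤ Subgroup.center ↥(Subgroup.closure {y : G | y ∈ D ∧ y ≠ d₀ ∧ Commute d₀ y})) (h24 : Cfsg.IsOfTypeM24 G D) : (∀ X Y : Subgroup G, Nat.card X = 13 → Nat.card Y = 13 → ∃ g : G, X.map (MulAut.conj g).toMonoidHom = Y) ∧ ∃ (a b c d : G) (T K : Subgroup G), (∀ x ∈ [a, b, c, d], x ∈ D) ∧ ¬ Commute a d ∧ ¬ Commute b c ∧ Commute a b ∧ Commute a c ∧ Commute d b ∧ Commute d c ∧ T = Subgroup.closure ({a, b, c, d} : Set G) ∧ K = Subgroup.centralizer (T : Set G) ∧ Nonempty (↥K ≃* ↥(Cfsg.Lie.chevG2.group (ZMod 3))) ∧ ∀ B : Subgroup G, B ≤ K → Nat.card B = 13 → Subgroup.normalizer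 ((B : Subgroup G) : Set G) ≤ Subgroup.normalizer ((K : Subgroup G) : Set G) ∧ Nat.card ↥(K ⊓ Subgroup.normalizer ((B : Subgroup G) : Set G)) = 78 ∧ K ⊓ Subgroup.centralizer ((B : Subgroup G) : Set G) = B ∧ (((K ⊓ Subgroup.normalizer ((B : Subgroup G) : Set G)) ⊔ T).subgroupOf (Subgroup.normalizer ((B : Subgroup G) : Set G))).index = 2 := by
  have hG := Agent.Spor.TT.g24_of_type hD hprim h24
  obtain ⟨e, he⟩ := hG.iso
  obtain ⟨M, -, rfl⟩ := Agent.Spor.F24.exists_mod e he
  have : Fact (Nat.Prime 13) := ⟨by norm_num⟩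
  obtain ⟨k1, k2⟩ := Agent.Spor.F24.k2_spec M hG
  have hK : Subgroup.centralizer (Subgroup.closure ({M.x 0, M.x 1307, M.x 263774, M.x 3} : Set G) : Set G) =
      Subgroup.centralizer {M.x 0, M.x 3, M.x 1307, M.x 263774} := by
    rw [Subgroup.centralizer_closure]
    ext a
    simp only [Agent.Spor.FL.mem_cen_four]
    tauto
  refine ⟨Agent.Spor.FL.conj_of_forall_eq fun X hX => Agent.Spor.FL.exists_eq_zpowers_conj (Agent.Spor.F24.n13_ord M)
    hG.card (by norm_num) hX, M.x 0, M.x 1307, M.x 263774, M.x 3, _, _, fun x hx => ?_, (Agent.Spor.F24.s3_ax M).2,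
    Agent.Spor.F24.s3_ncomm M (by decide +kernel), Agent.Spor.F24.s3_comm M (by decide +kernel),
    Agent.Spor.F24.s3_comm M (by decide +kernel), Agent.Spor.F24.s3_comm M (by decide +kernel),
    Agent.Spor.F24.s3_comm M (by decide +kernel), rfl, rfl, hK ▸ k2, fun B hB hc => ?_⟩
  · simp only [List.mem_cons, List.not_mem_nil, or_false] at hx
    rcases hx with rfl | rfl | rfl | rfl <;> exact M.mem_D (by decide)
  rw [hK] at hB
  obtain ⟨g, hg⟩ := Agent.Spor.FL.exists_eq_zpowers_conj
    ((Subgroup.orderOf_mk _ (Agent.Spor.F24.n13_mem M)).trans (Agent.Spor.F24.n13_ord M)) k1 (by norm_num)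
    ((Agent.Spor.FL.card_subgroupOf hB).trans hc)
  obtain ⟨a1, a2, a3, a4⟩ := Agent.Spor.FL.mem_cen_four.1 g.2
  refine Agent.Spor.F24.n13_main (M.conj g) (M.conj_D g ▸ hG) ?_ rfl ?_
  · simp only [Agent.Spor.FL.TM.conj_x, a1.eq, a2.eq, a3.eq, a4.eq, mul_inv_cancel_right]
  · rw [← Subgroup.map_subgroupOf_eq_of_le hB, hg, MonoidHom.map_zpowers, M.conj_wl]
    rfl

end Cfsg.Agent.S5518
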