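import Mathlib
import Cfsg.Statements.S5519
import Cfsg.Agent.Spor.FiQuad3
import Cfsg.Agent.Spor.ESFstar

set_option autoImplicit false
open Cfsg

namespace Cfsg.Agent.S5519

open Cfsg.Agent.Spor.TT Cfsg.Agent.GT

open Subgroup Cfsg.Agent.Spor

/-- A subgroup of index two missing a central involution. -/
theorem exists_compl {G : Type*} [Group G] [Finite G] {E : Subgroup G} {j d : G} (hj : j ∈ E)
    (jj : j * j = 1) (h1 : d ≠ 1) (h2 : d ≠ j) (hc : ∀ x ∈ E, ∀ y ∈ E, cj x y = y ∨ cj x y = j * y)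
    (hs : ∀ x ∈ E, x * x = 1 ∨ x * x = j) :
    ∃ M ≤ E, j ∈ M ∧ d ∉ M ∧ ∀ x ∈ E, x ∈ M ∨ x * d ∈ M := by
  obtain ⟨M, ⟨a, b, c⟩, hM⟩ := exists_maximal_of_wellFoundedGT (fun M => M ≤ E ∧ j ∈ M ∧ d ∉ M)
    ⟨zpowers j, zpowers_le.2 hj, mem_zpowers j, fun k => ((mem_zpowers_iff_of_sq jj).1 k).elim h1 h2⟩
  refine ⟨M, a, b, c, fun x hx => ?_⟩
  obtain ⟨K, hK⟩ := exists_ext2 M x (fun y hy => (hc x hx y (a hy)).elim
    (fun k => (cj_def x y ▸ k).symm ▸ hy) fun k => (cj_def x y ▸ k).symm ▸ mul_mem b hy)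
    ((hs x hx).elim (fun k => k ▸ one_mem _) fun k => k ▸ b)
  by_cases k : d ∈ K
  · exact Or.inr (((hK d).1 k).resolve_left c)
  · refine Or.inl (hM ⟨fun w hw => ((hK w).1 hw).elim (fun k => a k) fun k => ?_, (hK j).2 (Or.inl b), k⟩
      (fun w hw => (hK w).2 (Or.inl hw)) ((hK x).2 (Or.inr ((hs x hx).elim (fun k => k ▸ one_mem _)
        fun k => k ▸ b))))
    simpa using mul_mem (inv_mem hx) (a k)

theorem prod_equiv {G : Type*} [Group G] {E M : Subgroup G} {d : G} (le : M ≤ E) (hd : d ∈ E)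
    (h2 : orderOf d = 2) (hn : d ∉ M) (hc : ∀ x ∈ E, Commute d x) (h : ∀ x ∈ E, x ∈ M ∨ x * d ∈ M) :
    Nonempty (E ≃* Multiplicative (ZMod 2) × M) := by
  have dd : d * d = 1 := (orderOf_eq_two_iff'.1 h2).2
  have e : zpowers d ≃* Multiplicative (ZMod 2) :=
    mulEquivOfPrimeCardEq (p := 2) (by rw [Nat.card_zpowers, h2]) (by simp)
  let φ : zpowers d × M →* E := (inclusion (zpowers_le.2 hd)).noncommCoprod (inclusion le)
    fun a b => Subtype.ext (by
      rcases (mem_zpowers_iff_of_sq dd).1 a.2 with k | k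
      · simp [k]
      · simpa [k] using (hc b (le b.2)).eq)
  have : Function.Bijective φ := ⟨(injective_iff_map_eq_one _).2 fun ⟨a, b⟩ k => by
      have k : (a : G) * b = 1 := congrArg Subtype.val k
      rcases (mem_zpowers_iff_of_sq dd).1 a.2 with l | l <;> rw [l] at k
      · exact Prod.ext (Subtype.ext l) (Subtype.ext ((one_mul _).symm.trans k))
      · exact absurd (eq_inv_of_mul_eq_one_left k ▸ inv_mem b.2) hn,
    fun x => (h x x.2).elim (fun k => ⟨(1, ⟨x, k⟩), Subtype.ext (one_mul _)⟩) fun k =>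
      ⟨(⟨d, mem_zpowers d⟩, ⟨_, k⟩), Subtype.ext (show d * (x * d) = x by
        rw [← mul_assoc, (hc x x.2).eq, mul_assoc, dd, mul_one])⟩⟩
  exact ⟨(MulEquiv.ofBijective φ this).symm.trans (e.prodCongr (MulEquiv.refl _))⟩

/-- Let G be a finite group with trivial centre generated by a conjugation-invariant set D of 3-transpositions on which it acts primitively, such that for some d in D the subgroup generated by the members of D other than d commuting with d has central largest normal 2- and 3-subgroups, and suppose G with D is of type M(22). Let d₁, d₂ be distinct commuting members of D and C the centralizer of their product. Then the generalized Fitting subgroup of C is the direct product of a group of order 2 and an extraspecial 2-group of order 2^9, and C modulo it is isomorphic to the full isometry group of the elliptic quadratic form in dimension 6 over the field with two elements. -/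
theorem result {G : Type*} [Group G] [Finite G] {D : Set G} (hD : Cfsg.IsThreeTranspositionGroup D) (hprim : Cfsg.IsPrimitiveUnderConj D) (d₀ : G) (hd₀ : d₀ ∈ D) (h3 : Cfsg.pCore 3 ↥(Subgroup.closure {y : G | y ∈ D ∧ y ≠ d₀ ∧ Commute d₀ y}) ≤ Subgroup.center ↥(Subgroup.closure {y : G | y ∈ D ∧ y ≠ d₀ ∧ Commute d₀ y})) (h2 : Cfsg.pCore 2 ↥(Subgroup.closure {y : G | y ∈ D ∧ y ≠ d₀ ∧ Commute d₀ y}) ≤ Subgroup.center ↥(Subgroup.closure {y : G | y ∈ D ∧ y ≠ d₀ ∧ Commute d₀ y})) (h22 : Cfsg.IsOfTypeM22 G D) (d₁ d₂ : G) (h₁ : d₁ ∈ D) (h₂ : d₂ ∈ D) (hne : d₁ ≠ d₂) (hc : Commute d₁ d₂) (C : Subgroup G) (hC : C = Subgroup.centralizer ({d₁ * d₂} : Set G)) [hn : (Cfsg.generalizedFittingSubgroup ↥C).Normal] : (∃ (E : Type) (_ : Group E) (_ : Finite E), Cfsg.IsExtraspecial 2 E ∧ Nat.card E = 2 ^ 9 ∧ Nonempty (↥(Cfsg.generalizedFittingSubgroup ↥C) ≃* Multiplicative (ZMod 2) × E)) ∧ Nonempty (↥C ⧸ Cfsg.generalizedFittingSubgroup ↥C ≃* Cfsg.isometryGroup (ZMod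 2) (Cfsg.quadFormMinus 2 (ZMod 2) 1 1)) := by
  have h := g22_of_type hD hprim h22
  have m : d₂ ∈ Dx D d₁ := ⟨h₂, hne.symm, hc⟩
  subst hC
  obtain ⟨Φ, k1, k2⟩ := h.exists_phi_cen h₁ m
  obtain ⟨n, ⟨e⟩⟩ := Spor.FL.quot_of_ker_surj Φ k1 k2
  obtain ⟨e'⟩ := aut_U42_equiv
  have F := h.fstar_cen h₁ m
  refine ⟨?_, ⟨((QuotientGroup.quotientMulEquivOfEq F).trans e).trans e'⟩⟩
  have j := mul_mem left_mem_E2 (h.right_mem_E2 h₁ m)
  have s := hD.set.mul_self h₁
  obtain ⟨M, a, b, c, k⟩ := exists_compl j (h.jj h₁ m) (hD.set.ne_one h₁)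
    (fun k => hD.set.ne_one h₂ (left_eq_mul.1 k)) (fun _ a _ => h.cj_E2 h₁ m a) fun _ => h.sq_E2 h₁ m
  have d : ∀ x ∈ E2 D d₁ d₂, Commute d₁ x := fun x hx => (mem_cen_pair.1 (E2_le hc hx)).1.symm
  obtain ⟨ε⟩ := prod_equiv a left_mem_E2 (hD.set.orderOf_eq h₁) c d k
  have z : ∀ x, (∀ q ∈ M, x * q = q * x) → Commute x d₁ → x ∈ closure ({d₁, d₂} : Set G) :=
    fun x hx l => h.mem_pair_of_cen h₁ m fun e he => (k e he).elim (hx e) fun k => by
      simpa [mul_assoc, s] using Commute.mul_right (hx _ k) l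
  have es : ES2 M (d₁ * d₂) := ⟨b, fun k => hne ((hD.set.mul_eq_one_iff h₁).1 k), h.jj h₁ m,
    fun q hq => mem_cen.1 (h.cen_le h₁ m (E2_le hc (a hq))), fun x hx y hy =>
      (h.cj_E2 h₁ m (a hx) (a hy)).imp mul_inv_eq_iff_eq_mul.1 fun k =>
        (mul_inv_eq_iff_eq_mul.1 k).trans (mul_assoc _ _ _), fun x hx l => by
      rcases (mem_closure_pair_sq s (hD.set.mul_self h₂) hc).1 (z x l (d x (a hx)).symm) with
        rfl | rfl | rfl | rfl
      · exact Or.inl rfl
      · exact absurd hx c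
      · exact absurd (by simpa using mul_mem b (inv_mem hx)) c
      · exact Or.inr rfl, by
      by_contra! l
      have le : M ≤ closure {d₁, d₂} := fun x hx => z x (l x hx) (d x (a hx)).symm
      have c1 := Nat.card_congr ε.toEquiv
      have c2 := card_le_of_le le
      have c3 : Nat.card (closure ({d₁, d₂} : Set G)) ≤ 4 := by
        rw [show Nat.card (closure ({d₁, d₂} : Set G)) = ({1, d₁, d₂, d₁ * d₂} : Set G).ncard from
          Nat.card_congr (Equiv.setCongr (Set.ext fun x =>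
            mem_closure_pair_sq s (hD.set.mul_self h₂) hc))]
        exact (Set.ncard_insert_le _ _).trans (Nat.succ_le_succ ((Set.ncard_insert_le _ _).trans
          (Nat.succ_le_succ ((Set.ncard_insert_le _ _).trans (by simp)))))
      rw [h.card_E2 h₁ m, Nat.card_prod] at c1
      simp at c1
      omega⟩
  have c1 := Nat.card_congr ε.toEquiv
  rw [h.card_E2 h₁ m, Nat.card_prod] at c1
  refine ⟨Shrink.{0} M, inferInstance, inferInstance, isExtraspecial_congr (Shrink.mulEquiv).symm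
    es.isExtraspecial, ?_, ⟨(((MulEquiv.subgroupCongr F).trans (subgroupOfEquivOfLe
      ((E2_le hc).trans (h.cen_le h₁ m)))).trans ε).trans
        ((MulEquiv.refl _).prodCongr Shrink.mulEquiv.symm)⟩⟩
  rw [Nat.card_congr (equivShrink.{0} M).symm]
  simp at c1
  omega

end Cfsg.Agent.S5519
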