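import Mathlib
import Cfsg.Statements.S5520
import Cfsg.Agent.Spor.FiMit5

set_option autoImplicit false
open Cfsg

namespace Cfsg.Agent.S5520

open Cfsg.Agent.Spor.TT Cfsg.Agent.GT

open Subgroup Cfsg.Agent.Cl Cfsg.Agent.Spor.TT.Mit

theorem tri_congr {H H' U : Type*} [Group H] [Group H'] [Group U] (e : H ≃* H')
    (h : Nat.card (center H) = 3 ∧ Nonempty (H ⧸ center H ≃* U)) :
    Nat.card (center H') = 3 ∧ Nonempty (H' ⧸ center H' ≃* U) :=
  ⟨by rw [← map_center_mulEquiv e, card_map_of_injective e.injective, h.1],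
    h.2.map (centerQuotCongr e).symm.trans⟩

theorem tri_K0 : Nat.card (center K0) = 3 ∧ Nonempty (K0 ⧸ center K0 ≃* U43) := by
  obtain ⟨ι, φ, P, e, r⟩ := exists_emb
  have k : φ.ker = center _ := le_antisymm (fun a ha => mem_center_iff.2 fun b => e.inj (by
    rw [map_mul, map_mul, mem_center_iff.1 (ZZ_le_center ((e.ker a).1 ha))])) fun a ha =>
    mem_bot.1 (center_U43 ▸ mem_center_iff.2 fun s => by
      obtain ⟨b, rfl⟩ := e.surj s
      rw [← map_mul, mem_center_iff.1 ha, map_mul])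
  refine tri_congr ((MonoidHom.ofInjective e.inj).trans (MulEquiv.subgroupCongr r)) ⟨?_, ⟨
    (QuotientGroup.quotientMulEquivOfEq k.symm).trans (QuotientGroup.quotientKerEquivOfSurjective φ e.surj)⟩⟩
  rw [← k, ← MonoidHom.comap_bot, e.card_comap, card_bot]

/-- Diagonal maps with one entry different from one. -/
noncomputable def dd (a : F4ˣ) : GL6 := dg (Pi.mulSingle 0 a)

theorem det_dd (a : F4ˣ) : LinearEquiv.det (dd a) = a := by simp [dd, det_dg]

/-- The three subgroups. -/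
noncomputable def KK (a : F4ˣ) : Subgroup GL6 := K0.map (MulAut.conj (dd a)).toMonoidHom

theorem KK_le (a : F4ˣ) : KK a ≤ USG B6 := map_le_iff_le_comap.2 fun g hg =>
  have k := closure_le_USG (K0_le_closure hg)
  ⟨(UG B6).mul_mem ((UG B6).mul_mem (dg_mem _) k.1) (inv_mem (dg_mem _)), slAut_normal.conj_mem g k.2 _⟩

theorem map_conj_mul {G : Type*} [Group G] (K : Subgroup G) (a b : G) : K.map (MulAut.conj (a * b)).toMonoidHom =
    (K.map (MulAut.conj b).toMonoidHom).map (MulAut.conj a).toMonoidHom := by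
  rw [map_map, map_mul]; rfl

theorem map_conj {G G' : Type*} [Group G] [Group G'] (f : G →* G') (K : Subgroup G) (g : G) :
    (K.map (MulAut.conj g).toMonoidHom).map f = (K.map f).map (MulAut.conj (f g)).toMonoidHom := by
  rw [map_map, map_map]
  exact congrArg (K.map ·) (MonoidHom.ext fun x => by simp)

theorem eq_of_conj {a b : F4ˣ} {g : GL6} (hg : g ∈ USG B6)
    (h : (KK a).map (MulAut.conj g).toMonoidHom = KK b) : a = b := by
  have := det_eq_one (g := (dd b)⁻¹ * (g * dd a)) (mem_normalizer_iff_map_conj_eq.2 (by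
    have := congrArg (map (MulAut.conj (dd b)⁻¹).toMonoidHom) h
    rw [KK, KK, ← map_conj_mul, ← map_conj_mul, ← map_conj_mul, inv_mul_cancel, mul_assoc, map_one] at this
    exact this.trans (map_id _)))
  rw [map_mul, map_mul, map_inv, det_dd, det_dd, show LinearEquiv.det g = 1 from hg.2, one_mul,
    inv_mul_eq_one] at this
  exact this.symm

/-- In the special unitary group of dimension 6 over the field with four elements (determinant-one matrices preserving the standard Hermitian form), the subgroups K whose centre has order 3 with K modulo its centre isomorphic to the projective special unitary group of dimension 4 over the field with nine elements fall into exactly three conjugacy classes. -/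
theorem result (F : Type) [Field F] [Fintype F] (hF : Fintype.card F = 4) (F9 : Type) [Field F9] [Fintype F9] (hF9 : Fintype.card F9 = 9) : ∃ K₁ K₂ K₃ : Subgroup ↥(Cfsg.SU 6 F 2), (∀ K ∈ [K₁, K₂, K₃], Nat.card ↥(Subgroup.center ↥K) = 3 ∧ Nonempty (↥K ⧸ Subgroup.center ↥K ≃* Cfsg.PSU 4 F9 3)) ∧ (¬ ∃ g : ↥(Cfsg.SU 6 F 2), K₁.map (MulAut.conj g).toMonoidHom = K₂) ∧ (¬ ∃ g : ↥(Cfsg.SU 6 F 2), K₁.map (MulAut.conj g).toMonoidHom = K₃) ∧ (¬ ∃ g : ↥(Cfsg.SU 6 F 2), K₂.map (MulAut.conj g).toMonoidHom = K₃) ∧ ∀ K : Subgroup ↥(Cfsg.SU 6 F 2), Nat.card ↥(Subgroup.center ↥K) = 3 → Nonempty (↥K ⧸ Subgroup.center ↥K ≃* Cfsg.PSU 4 F9 3) → ∃ g : ↥(Cfsg.SU 6 F 2), K.map (MulAut.conj g).toMonoidHom = K₁ ∨ K.map (MulAut.conj g).toMonoidHom = K₂ ∨ K.map (MulAut.conj g).toMonoidHom = K₃ := by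
  obtain ⟨σ⟩ := nonempty_ringEquiv_of_natCard_eq (F := F) (K := F4)
    (by rw [Nat.card_eq_fintype_card, hF, natCard_GF4])
  obtain ⟨σ9⟩ := nonempty_ringEquiv_of_natCard_eq (F := F9) (K := GF9)
    (by rw [Nat.card_eq_fintype_card, hF9, Nat.card_eq_fintype_card, card_GF9])
  let ε := (suMapEquiv 6 2 σ).trans (uf4.suEquiv 6)
  let ι := (USG B6).subtype.comp ε.toMonoidHom
  have i : Function.Injective ι := (subtype_injective _).comp ε.injective
  have r : ι.range = USG B6 := by
    rw [MonoidHom.range_comp, MonoidHom.range_eq_top.2 ε.surjective, ← MonoidHom.range_eq_map, range_subtype]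
  have m : ∀ a, ((KK a).comap ι).map ι = KK a := fun a => map_comap_eq_self (r ▸ KK_le a)
  have t : ∀ a, Nat.card (center ((KK a).comap ι)) = 3 ∧
      Nonempty ((KK a).comap ι ⧸ center ((KK a).comap ι) ≃* PSU 4 F9 3) := fun a =>
    tri_congr ((equivMapOfInjective _ _ (MulAut.conj (dd a)).injective).trans
      ((equivMapOfInjective _ _ i).trans (MulEquiv.subgroupCongr (m a))).symm)
      ⟨tri_K0.1, tri_K0.2.map fun e => e.trans (psuMapEquiv 4 3 σ9).symm⟩
  have n : ∀ a b, a ≠ b → ¬ ∃ g, ((KK a).comap ι).map (MulAut.conj g).toMonoidHom = (KK b).comap ι :=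
    fun a b n ⟨g, e⟩ => n (eq_of_conj (ε g).2 (by rw [← m a, ← m b, ← e, map_conj]; rfl))
  refine ⟨_, _, _, by simpa using ⟨t 1, t ou, t ou⁻¹⟩, n _ _ (by decide), n _ _ (by decide), n _ _ (by decide),
    fun K h1 ⟨e⟩ => ?_⟩
  obtain ⟨g, g1, g2⟩ := exists_conj (ι := ι.comp K.subtype) (i.comp (subtype_injective _))
    ((MonoidHom.range_comp _ _).trans_le ((map_le_range _ _).trans r.le)) h1 (e.trans (psuMapEquiv 4 3 σ9))
  obtain ⟨k, hk⟩ := r.ge (show dd (LinearEquiv.det g)⁻¹ * g ∈ USG B6 from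
    ⟨mul_mem (dg_mem _) g1, show LinearEquiv.det _ = 1 by rw [map_mul, det_dd, inv_mul_cancel]⟩)
  have e : K.map (MulAut.conj k).toMonoidHom = (KK (LinearEquiv.det g)⁻¹).comap ι := map_injective i (by
    rw [m, map_conj, hk, map_conj_mul, KK, ← g2, MonoidHom.range_comp, range_subtype])
  refine ⟨k, ?_⟩
  rw [e]
  exact ((by decide : ∀ a : F4ˣ, a = 1 ∨ a = ou ∨ a = ou⁻¹) (LinearEquiv.det g)⁻¹).imp (fun k => by rw [k])
    (Or.imp (fun k => by rw [k]) fun k => by rw [k])

end Cfsg.Agent.S5520
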