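import Mathlib
import Cfsg.Statements.S5541

set_option autoImplicit false
open Cfsg

namespace Cfsg.Agent.S5541

/-- Let ρ be a representation of a group H on a finite-dimensional real vector space U whose only ρ-invariant subspaces are the zero subspace and U, and suppose U carries a non-zero ρ-invariant symmetric bilinear form. Then the following are equivalent: (1) there is a non-zero ρ-equivariant commutative bilinear product on U of which every ρ-equivariant bilinear product is a scalar multiple; (2) there is a non-zero ρ-invariant trilinear form on U that is symmetric under all permutations of its arguments and of which every ρ-invariant trilinear form is a scalar multiple. -/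
theorem result {H : Type*} [Group H] {U : Type*} [AddCommGroup U] [Module ℝ U] [FiniteDimensional ℝ U] (ρ : Representation ℝ H U) (hirr : ∀ W : Submodule ℝ U, (∀ g : H, W.map (ρ g) ≤ W) → W = ⊥ ∨ W = ⊤) (B : LinearMap.BilinForm ℝ U) (hB0 : B ≠ 0) (hBs : ∀ u v, B u v = B v u) (hBi : ∀ (g : H) (u v : U), B (ρ g u) (ρ g v) = B u v) : (∃ m : U →ₗ[ℝ] U →ₗ[ℝ] U, m ≠ 0 ∧ (∀ u v, m u v = m v u) ∧ (∀ (g : H) (u v : U), m (ρ g u) (ρ g v) = ρ g (m u v)) ∧ ∀ m' : U →ₗ[ℝ] U →ₗ[ℝ] U, (∀ (g : H) (u v : U), m' (ρ g u) (ρ g v) = ρ g (m' u v)) → ∃ c : ℝ, m' = c • m) ↔ (∃ t : U →ₗ[ℝ] U →ₗ[ℝ] U →ₗ[ℝ] ℝ, t ≠ 0 ∧ (∀ u v w, t u v w = t v u w ∧ t u v w = t u w v) ∧ (∀ (g : H) (u v w : U), t (ρ g u) (ρ g v) (ρ g w) = t u v w) ∧ ∀ t' : U →ₗ[ℝ] U →ₗ[ℝ] U →ₗ[ℝ] ℝ, (∀ (g : H) (u v w : U), t' (ρ g u) (ρ g v) (ρ g w) = t' u v w) → ∃ c : ℝ, t' = c • t) := by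
  have hinv : ∀ (g : H) (u : U), ρ g (ρ g⁻¹ u) = u := fun g u => by
    rw [← Module.End.mul_apply, ← map_mul, mul_inv_cancel, map_one, Module.End.one_apply]
  have hsep : ∀ u, (∀ v, B u v = 0) → u = 0 := by
    rcases hirr (LinearMap.ker B) (by
      rintro g _ ⟨u, hu, rfl⟩
      refine LinearMap.mem_ker.2 (LinearMap.ext fun v => ?_)
      rw [← hinv g v, hBi, LinearMap.mem_ker.1 hu]; rfl) with h | h
    · intro u hu
      have : u ∈ LinearMap.ker B := LinearMap.mem_ker.2 (LinearMap.ext hu)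
      rwa [h, Submodule.mem_bot] at this
    · exact absurd (LinearMap.ker_eq_top.1 h) hB0
  have hnd : B.Nondegenerate := ⟨hsep, fun u hu => hsep u fun v => by rw [hBs, hu]⟩
  have hext : ∀ u u', (∀ v, B u v = B u' v) → u = u' := fun u u' h =>
    sub_eq_zero.1 (hsep _ fun v => by rw [map_sub, LinearMap.sub_apply, h, sub_self])
  have hT : ∀ m : U →ₗ[ℝ] U →ₗ[ℝ] U, ∃ t : U →ₗ[ℝ] U →ₗ[ℝ] U →ₗ[ℝ] ℝ, ∀ u v w, t u v w = B (m u v) w :=
    fun m => ⟨m.compr₂ B, fun _ _ _ => rfl⟩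
  have hM : ∀ t : U →ₗ[ℝ] U →ₗ[ℝ] U →ₗ[ℝ] ℝ, ∃ m : U →ₗ[ℝ] U →ₗ[ℝ] U, ∀ u v w, t u v w = B (m u v) w :=
    fun t => ⟨t.compr₂ (B.toDual hnd).symm.toLinearMap, fun u v w =>
      (LinearMap.BilinForm.apply_toDual_symm_apply (hB := hnd) (t u v) w).symm⟩
  have hI : ∀ (m : U →ₗ[ℝ] U →ₗ[ℝ] U) (t : U →ₗ[ℝ] U →ₗ[ℝ] U →ₗ[ℝ] ℝ), (∀ u v w, t u v w = B (m u v) w) →
      ((∀ (g : H) (u v : U), m (ρ g u) (ρ g v) = ρ g (m u v)) ↔
        ∀ (g : H) (u v w : U), t (ρ g u) (ρ g v) (ρ g w) = t u v w) := by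
    intro m t h
    refine ⟨fun hm g u v w => by rw [h, h, hm, hBi], fun ht g u v => hext _ _ fun w => ?_⟩
    rw [← hinv g w, ← h, ht, hBi, h]
  have h0 : ∀ (m : U →ₗ[ℝ] U →ₗ[ℝ] U) (t : U →ₗ[ℝ] U →ₗ[ℝ] U →ₗ[ℝ] ℝ), (∀ u v w, t u v w = B (m u v) w) →
      (m = 0 ↔ t = 0) := by
    intro m t h
    refine ⟨fun e => ?_, fun e => ?_⟩
    · ext u v w; simp [h, e]
    · ext u v; exact hsep _ fun w => by rw [← h, e]; rfl
  constructor
  · rintro ⟨m, m0, m1, m2, m3⟩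
    obtain ⟨t, ht⟩ := hT m
    have t2 := (hI m t ht).1 m2
    have t3 : ∀ t' : U →ₗ[ℝ] U →ₗ[ℝ] U →ₗ[ℝ] ℝ,
        (∀ (g : H) (u v w : U), t' (ρ g u) (ρ g v) (ρ g w) = t' u v w) → ∃ c : ℝ, t' = c • t := by
      intro t' ht'
      obtain ⟨m', hm'⟩ := hM t'
      obtain ⟨c, hc⟩ := m3 m' ((hI m' t' hm').2 ht')
      exact ⟨c, by ext u v w; simp [hm', hc, ht]⟩
    have t0 : t ≠ 0 := fun e => m0 ((h0 m t ht).2 e)
    have t1 : ∀ u v w, t u v w = t v u w := fun u v w => by rw [ht, ht, m1]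
    refine ⟨t, t0, fun u v w => ⟨t1 u v w, ?_⟩, t2, t3⟩
    obtain ⟨c, hc⟩ := t3 ((LinearMap.lflip (R := ℝ) (R₀ := ℝ) (M := U) (N := U) (P := ℝ)).toLinearMap ∘ₗ t)
      (fun g u v w => t2 g u w v)
    have hc' : ∀ u v w, t u w v = c * t u v w := fun u v w =>
      LinearMap.congr_fun (LinearMap.congr_fun (LinearMap.congr_fun hc u) v) w
    obtain ⟨x, y, z, hxyz⟩ : ∃ x y z, t x y z ≠ 0 := by
      by_contra hh
      push Not at hh
      exact t0 (by ext x y z; exact hh x y z)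
    have e1 : t x y z = c * c * t x y z := by rw [mul_assoc, ← hc', ← hc']
    have e2 : t x y z = c * c * c * t x y z := by
      rw [mul_assoc, ← hc', t1 x z y, mul_assoc, ← hc', t1 z y x, ← hc', t1]
    have e3 : c = 1 := by
      have : c * c = 1 := by
        have := mul_right_cancel₀ hxyz (e1.symm.trans (one_mul _).symm); exact this
      rw [this, one_mul] at e2
      exact (mul_right_cancel₀ hxyz ((one_mul _).trans e2)).symm
    rw [hc' u w v, e3, one_mul]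
  · rintro ⟨t, t0, t1, t2, t3⟩
    obtain ⟨m, hm⟩ := hM t
    refine ⟨m, fun e => t0 ((h0 m t hm).1 e), fun u v => hext _ _ fun w => by
      rw [← hm, ← hm, (t1 u v w).1], (hI m t hm).2 t2, fun m' hm' => ?_⟩
    obtain ⟨t', ht'⟩ := hT m'
    obtain ⟨c, hc⟩ := t3 t' ((hI m' t' ht').1 hm')
    refine ⟨c, ?_⟩
    ext u v
    exact hext _ _ fun w => by rw [← ht', hc]; simp [hm]

end Cfsg.Agent.S5541
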