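import Mathlib
import Cfsg.Statements.S5543
import Cfsg.Agent.Spor.Majorana

set_option autoImplicit false
open Cfsg

namespace Cfsg.Agent.S5543

open Cfsg.Agent.Spor.Maj

/-- Let V be a finite-dimensional real vector space with a commutative bilinear product and a positive-definite symmetric bilinear form that associates with the product and satisfies the Norton inequality (the Majorana setting of the definitions). Let X be a group of linear automorphisms of V in which every element squares to the identity, and suppose every non-identity element x of X is a Majorana involution with an axial vector a(x) of squared length 1, such that for any two distinct non-identity x, y the product a(x) ∘ a(y) equals (1/8)(a(x) + a(y) − a(xy)) (the dihedral subalgebra of type 2A whose third axis belongs to the involution xy). Then X has order at most 4. -/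
theorem result {V : Type*} [AddCommGroup V] [Module ℝ V] [FiniteDimensional ℝ V] (mul : V →ₗ[ℝ] V →ₗ[ℝ] V) (B : LinearMap.BilinForm ℝ V) (hV : Cfsg.Axial.IsMajoranaAmbient mul B) (X : Subgroup (V ≃ₗ[ℝ] V)) (hX : ∀ x ∈ X, x * x = 1) (ax : (V ≃ₗ[ℝ] V) → V) (hax : ∀ x ∈ X, x ≠ 1 → Cfsg.Axial.IsMajoranaPair mul B x (ax x)) (h1 : ∀ x ∈ X, x ≠ 1 → B (ax x) (ax x) = 1) (h2A : ∀ x ∈ X, ∀ y ∈ X, x ≠ 1 → y ≠ 1 → x ≠ y → mul (ax x) (ax y) = (1 / 8 : ℝ) • (ax x + ax y - ax (x * y))) : Nat.card ↥X ≤ 4 := by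
  classical
  by_contra hlt
  haveI : Finite X := Nat.finite_of_card_ne_zero (by omega)
  haveI := Fintype.ofFinite X
  have key : ∀ s : Finset X, s.card ≤ 4 → ∃ x, x ∉ s := fun s hs => by
    obtain ⟨x, -, hx⟩ := Finset.exists_mem_notMem_of_card_lt_card (s := s) (t := Finset.univ)
      (by rw [Finset.card_univ, ← Nat.card_eq_fintype_card]; omega)
    exact ⟨x, hx⟩
  obtain ⟨x, hx⟩ := key {1} (by simp)
  obtain ⟨y, hy⟩ := key {1, x} (Finset.card_le_two.trans (by norm_num))
  obtain ⟨z, hz⟩ := key {1, x, y, x * y} Finset.card_le_four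
  simp only [Finset.mem_insert, Finset.mem_singleton, not_or] at hx hy hz
  have sq : ∀ u : X, u * u = 1 := fun u => Subtype.ext (hX u u.2)
  have hi : ∀ u : X, u⁻¹ = u := fun u => inv_eq_of_mul_eq_one_right (sq u)
  have cm : ∀ u v : X, u * v = v * u := fun u v => by
    rw [← hi (u * v), mul_inv_rev, hi, hi]
  have A : ∀ u v : X, u ≠ 1 → v ≠ 1 → u ≠ v → mul (ax u) (ax v) =
      (1 / 8 : ℝ) • (ax u + ax v - ax (u * v : X)) := fun u v h1 h2 h3 =>
    h2A u u.2 v v.2 (fun e => h1 (Subtype.ext e)) (fun e => h2 (Subtype.ext e))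
      (fun e => h3 (Subtype.ext e))
  have can : ∀ u v : X, u * (u * v) = v := fun u v => by rw [← mul_assoc, sq, one_mul]
  have ne1 : ∀ u v : X, u ≠ v → u * v ≠ 1 := fun u v h e => h (by rw [← can u v, e, mul_one])
  have ne2 : ∀ u v : X, v ≠ 1 → u ≠ u * v := fun u v h e => h (by simpa using e)
  have b4 : ∀ v : X, v ≠ 1 → v ≠ x → mul (ax x) (ax v - ax (x * v : X)) =
      (1 / 4 : ℝ) • (ax v - ax (x * v : X)) := fun v h1 h2 => by
    rw [map_sub, A x v hx h1 h2.symm, A x (x * v) hx (ne1 _ _ h2.symm) (ne2 _ _ h1), can]; module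
  have H := ax_of_pair hV (hax x x.2 fun e => hx (Subtype.ext e)) (h1 x x.2 fun e => hx (Subtype.ext e))
  have hyz : y ≠ z := fun e => hz.2.2.1 e.symm
  have hxyz : y * z ≠ x := fun e => hz.2.2.2 (by rw [cm, ← e, can])
  have e1 : y * (x * z) = x * (y * z) := by rw [← mul_assoc, cm y, mul_assoc]
  have e2 : (x * y) * (x * z) = y * z := by rw [cm x y, mul_assoc, can]
  have hp : mul (ax y - ax (x * y : X)) (ax z - ax (x * z : X)) =
      (-1 / 4 : ℝ) • (ax (y * z : X) - ax (x * (y * z) : X)) := by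
    simp only [map_sub, LinearMap.sub_apply]
    rw [A y z hy.1 hz.1 hyz, A (x * y) z (ne1 _ _ (Ne.symm hy.2)) hz.1 (Ne.symm hz.2.2.2),
      A y (x * z) hy.1 (ne1 _ _ (Ne.symm hz.2.1)) (fun e => hz.2.2.2 (by rw [e, can])),
      A (x * y) (x * z) (ne1 _ _ (Ne.symm hy.2)) (ne1 _ _ (Ne.symm hz.2.1)) (by simpa using hyz),
      e1, e2, mul_assoc]
    module
  have h3 := H.f44 _ _ (b4 y hy.1 hy.2) (b4 z hz.1 hz.2.1)
  have h4 := b4 (y * z) (ne1 _ _ hyz) hxyz
  have h5 := congrArg (mul (ax x)) h3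
  rw [map_smul, H.aa, ← h3, hp, map_smul, map_smul, h4, map_smul, h4] at h5
  have h6 : ax (y * z : X) = ax (x * (y * z) : X) := by
    linear_combination (norm := module) (64 / 3 : ℝ) • h5
  have n1 : y * z ≠ 1 := ne1 _ _ hyz
  have n2 : x * (y * z) ≠ 1 := ne1 _ _ hxyz.symm
  have H1 := ax_of_pair hV (hax _ (y * z).2 fun e => n1 (Subtype.ext e)) (h1 _ (y * z).2 fun e => n1 (Subtype.ext e))
  have H2 := ax_of_pair hV (hax _ (x * (y * z)).2 fun e => n2 (Subtype.ext e))
    (h1 _ (x * (y * z)).2 fun e => n2 (Subtype.ext e))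
  rw [h6] at H1
  exact hx (by simpa using Subtype.ext (p := fun u => u ∈ X) (H1.unique H2))

end Cfsg.Agent.S5543
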