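import Mathlib
import Cfsg.Statements.S5545
import Cfsg.Agent.Spor.Majorana

set_option autoImplicit false
open Cfsg

namespace Cfsg.Agent.S5545

open Cfsg.Agent.Spor.Maj Cfsg.Axial

theorem aux {V : Type*} [AddCommGroup V] [Module ℝ V] {mul : V →ₗ[ℝ] V →ₗ[ℝ] V}
    {B : LinearMap.BilinForm ℝ V} (hc : ∀ u v, mul u v = mul v u) {μ ν : V ≃ₗ[ℝ] V} {a b : V}
    (H : Ax mul B μ a) (K : Ax mul B ν b) (h1 : μ b = b) (h2 : ν a = a) (hs : B b a = B a b) :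
    (1 / 2 - 4 * B a b) • (mul a b - B a b • a) = 0 ∧
      (B a b = 1 / 8 → mul (mul a b) (mul a b) = (3 / 128 : ℝ) • (a + b) - (1 / 32 : ℝ) • mul a b) := by
  have e0 := H.even b h1
  have e1 := K.even a h2
  rw [hc b a, hs] at e1
  have aa := H.aa
  have bb := K.aa
  have ba := hc b a
  have e0' := (hc (mul a b) a).trans e0
  have e1' := (hc (mul a b) b).trans e1
  generalize hl : B a b = l at *
  generalize hs : mul a b = s at *
  have hα : mul a (b + (3 * l) • a - (4 : ℝ) • s) = 0 := by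
    simp only [map_add, map_sub, map_smul, aa, hs, e0]; module
  have hβ : mul a ((4 : ℝ) • s - (4 * l) • a) = (1 / 4 : ℝ) • ((4 : ℝ) • s - (4 * l) • a) := by
    simp only [map_add, map_sub, map_smul, aa, hs, e0]; module
  have f1 := H.f00 _ _ hα hα
  have f2 := H.f44 _ _ hβ hβ
  have f3 := H.f04 _ _ hα hβ
  generalize B a (mul ((4 : ℝ) • s - (4 * l) • a) ((4 : ℝ) • s - (4 * l) • a)) = c at f2
  simp only [map_add, map_sub, map_smul, LinearMap.add_apply, LinearMap.sub_apply, LinearMap.smul_apply,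
    aa, bb, hs, ba, e0, e1, e0', e1'] at f1 f2 f3
  constructor
  · have f4 : (1 / 2 - 4 * l) • s + (5 * l ^ 2 - 3 / 2 * l + c) • a = 0 := by
      linear_combination (norm := module) f1 - f2
    have f5 := congrArg (mul a) f4
    simp only [map_add, map_smul, aa, e0, map_zero] at f5
    linear_combination (norm := module) (4 / 3 : ℝ) • f4 - (4 / 3 : ℝ) • f5
  · rintro rfl
    linear_combination (norm := module) (1 / 4 : ℝ) • f1 + (1 / 4 : ℝ) • f3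

/-- Let V be a finite-dimensional real vector space with a commutative bilinear product and a positive-definite symmetric bilinear form that associates with the product and satisfies the Norton inequality (the Majorana setting of the definitions). Let μ₀, μ₁ be commuting Majorana involutions with distinct axial vectors a₀ ≠ a₁ of squared length 1, each involution having no other axial vector. Then either a₀ and a₁ are orthogonal with a₀ ∘ a₁ = 0 (type 2B), or their inner product is 1/8 and, with a₂ = a₀ + a₁ − 8 a₀ ∘ a₁, the vector a₂ is an idempotent and a₀ ∘ a₂ = (1/8)(a₀ + a₂ − a₁), a₁ ∘ a₂ = (1/8)(a₁ + a₂ − a₀) (type 2A: the three idempotents span a subalgebra with aᵢ ∘ aⱼ = (1/8)(aᵢ + aⱼ − aₖ)). -/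
theorem result {V : Type*} [AddCommGroup V] [Module ℝ V] [FiniteDimensional ℝ V] (mul : V →ₗ[ℝ] V →ₗ[ℝ] V) (B : LinearMap.BilinForm ℝ V) (hV : Cfsg.Axial.IsMajoranaAmbient mul B) (μ₀ μ₁ : V ≃ₗ[ℝ] V) (a₀ a₁ : V) (h₀ : Cfsg.Axial.IsMajoranaPair mul B μ₀ a₀) (h₁ : Cfsg.Axial.IsMajoranaPair mul B μ₁ a₁) (hu₀ : ∀ a : V, Cfsg.Axial.IsMajoranaPair mul B μ₀ a → a = a₀) (hu₁ : ∀ a : V, Cfsg.Axial.IsMajoranaPair mul B μ₁ a → a = a₁) (hn₀ : B a₀ a₀ = 1) (hn₁ : B a₁ a₁ = 1) (hc : μ₀ * μ₁ = μ₁ * μ₀) (hne : a₀ ≠ a₁) : (B a₀ a₁ = 0 ∧ mul a₀ a₁ = 0) ∨ (B a₀ a₁ = 1 / 8 ∧ mul (a₀ + a₁ - (8 : ℝ) • mul a₀ a₁) (a₀ + a₁ - (8 : ℝ) • mul a₀ a₁) = a₀ + a₁ - (8 : ℝ) • mul a₀ a₁ ∧ mul a₀ (a₀ + a₁ - (8 : ℝ) • mul a₀ a₁) = (1 / 8 : ℝ) • (a₀ + (a₀ + a₁ - (8 : ℝ) • mul a₀ a₁) - a₁) ∧ mul a₁ (a₀ + a₁ - (8 : ℝ) • mul a₀ a₁) = (1 / 8 : ℝ) • (a₁ + (a₀ + a₁ - (8 : ℝ) • mul a₀ a₁) - a₀)) := by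
  have H := ax_of_pair hV h₀ hn₀
  have K := ax_of_pair hV h₁ hn₁
  have m0 : μ₀ a₁ = a₁ := hu₁ _ (by
    have := pair_conj h₁ μ₀ h₀.1 h₀.2.1
    rwa [hc, mul_inv_cancel_right] at this)
  have m1 : μ₁ a₀ = a₀ := hu₀ _ (by
    have := pair_conj h₀ μ₁ h₁.1 h₁.2.1
    rwa [← hc, mul_inv_cancel_right] at this)
  obtain ⟨p1, p2⟩ := aux hV.1 H K m0 m1 (hV.2.1 _ _)
  obtain ⟨q1, -⟩ := aux hV.1 K H m1 m0 (hV.2.1 _ _)
  rw [hV.1 a₁ a₀, hV.2.1 a₁ a₀] at q1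
  by_cases hl : B a₀ a₁ = 1 / 8
  · right
    have e0 := H.even a₁ m0
    have e1 := K.even a₀ m1
    rw [hV.1 a₁ a₀, hV.2.1 a₁ a₀] at e1
    have p3 := p2 hl
    have e0' := (hV.1 (mul a₀ a₁) a₀).trans e0
    have e1' := (hV.1 (mul a₀ a₁) a₁).trans e1
    have ba := hV.1 a₁ a₀
    rw [hl] at e0 e1 e0' e1'
    refine ⟨hl, ?_, ?_, ?_⟩ <;>
      simp only [map_add, map_sub, map_smul, LinearMap.add_apply, LinearMap.sub_apply,
        LinearMap.smul_apply, H.aa, K.aa, ba, e0, e1, e0', e1', p3] <;> module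
  · left
    have hne' : 1 / 2 - 4 * B a₀ a₁ ≠ 0 := fun e => hl (by linarith)
    have r1 := sub_eq_zero.1 ((smul_eq_zero.1 p1).resolve_left hne')
    have r2 := sub_eq_zero.1 ((smul_eq_zero.1 q1).resolve_left hne')
    have r3 : B a₀ a₁ • (a₀ - a₁) = 0 := by rw [smul_sub, ← r1, ← r2, sub_self]
    have r4 := (smul_eq_zero.1 r3).resolve_right (sub_ne_zero.2 hne)
    exact ⟨r4, by rw [r1, r4, zero_smul]⟩

end Cfsg.Agent.S5545
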