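import Mathlib
import Cfsg.Statements.S5546
import Cfsg.Agent.Spor.LeechBridge

set_option autoImplicit false
open Cfsg

namespace Cfsg.Agent.S5546

section
open Cfsg.Agent.Spor.Leech

instance : Fact (Nat.Prime 13) := ⟨by norm_num⟩

/-- The inverse of eight modulo 13. -/
local instance : Invertible (8 : ZMod 13) := ⟨5, by decide, by decide⟩

/-- The representation of Co2 on the coordinate space modulo 13. -/
noncomputable def rho : Representation (ZMod 13) Spor.Co2 (GolayPt → ZMod 13) :=
  (Matrix.toLinAlgEquiv' (R := ZMod 13) (n := GolayPt)).toMonoidHom.comp ((matHom (ZMod 13)).comp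
    ((MulAction.stabilizer Co0 Spor.leechU).subtype.comp co2Equiv.toMonoidHom))

theorem rho_apply (g : Spor.Co2) (v : Λ) : rho g (fun i => ((v : Vec) i : ZMod 13)) =
    fun i => ((((co2Equiv g : Co0) • v : Λ) : Vec) i : ZMod 13) := matR_mulVec _ _ _

/-- The fixed line. -/
def W : Submodule (ZMod 13) (GolayPt → ZMod 13) :=
  Submodule.span _ {fun i => ((Spor.leechU : Vec) i : ZMod 13)}

theorem W_le (g : Spor.Co2) : W ≤ W.comap (rho g) := by
  rw [W, Submodule.span_le, Set.singleton_subset_iff, SetLike.mem_coe, Submodule.mem_comap, rho_apply,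
    (co2Equiv g).2]
  exact Submodule.mem_span_singleton_self _

theorem finrank_quot : Module.finrank (ZMod 13) ((GolayPt → ZMod 13) ⧸ W) = 23 := by
  have h1 := W.finrank_quotient_add_finrank
  have h2 : Module.finrank (ZMod 13) W = 1 := finrank_span_singleton fun h => by
    have := congrFun h none
    revert this; decide
  rw [h2, Module.finrank_fintype_fun_eq_card, card_pt] at h1
  omega

theorem main : ∃ f : Spor.Co2 →* GL (Fin 23) (ZMod 13), Function.Injective f := by
  let b := Module.finBasisOfFinrankEq _ _ finrank_quot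
  let f0 := (LinearMap.toMatrixAlgEquiv b).toMonoidHom.comp (rho.quotient W W_le)
  refine ⟨f0.toHomUnits, ?_⟩
  have := simple_Co2
  rw [← MonoidHom.ker_eq_bot_iff]
  refine (MonoidHom.normal_ker _).eq_bot_or_eq_top.resolve_right fun h => ?_
  obtain ⟨o, ho, -, h1, h2⟩ := exists_octad_sup_disj (a := {some 1}) (b := {none, some 0})
    (by decide) (by decide)
  have a : some 1 ∈ o := h1 (by simp)
  have a1 : none ∉ o := fun hh => Finset.disjoint_left.1 h2 hh (by simp)
  have a2 : some 0 ∉ o := fun hh => Finset.disjoint_left.1 h2 hh (by simp)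
  let g : Spor.Co2 := co2Equiv.symm ⟨sign o ho, by
    rw [MulAction.mem_stabilizer_iff, leechU_eq, sign_v44, if_neg a1, if_neg a2]⟩
  have h3 : f0 g = 1 := congrArg Units.val (h ▸ Subgroup.mem_top g : g ∈ f0.toHomUnits.ker)
  have h4 : rho.quotient W W_le g = 1 := (LinearMap.toMatrixAlgEquiv b).injective (h3.trans (map_one _).symm)
  have h5 := LinearMap.congr_fun h4 (W.mkQ fun i => ((e8 (some 1) : Vec) i : ZMod 13))
  change W.mkQ (rho g _) = W.mkQ _ at h5
  rw [rho_apply, Submodule.mkQ_apply, Submodule.mkQ_apply, Submodule.Quotient.eq, W,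
    Submodule.mem_span_singleton] at h5
  obtain ⟨t, ht⟩ := h5
  have h6 := congrFun ht (some 1)
  simp only [g, MulEquiv.apply_symm_apply, sign_e8, if_pos a, Pi.smul_apply, Pi.sub_apply,
    AddSubgroup.coe_neg, Pi.neg_apply, e8_apply, if_true] at h6
  rw [show ((Spor.leechU : Vec) (some 1)) = 0 by decide] at h6
  simp only [Int.cast_zero, smul_zero] at h6
  revert h6; decide

end

/-- The second Conway group (the stabilizer in the Leech lattice automorphism group of the short vector fixed in the definitions) is isomorphic to a subgroup of the general linear group of degree 23 over the field with 13 elements: there is an injective homomorphism into it. -/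
theorem result : ∃ f : ↥Cfsg.Spor.Co2 →* GL (Fin 23) (ZMod 13), Function.Injective f := by
  open Cfsg.Agent.Spor.Leech in
  exact main

end Cfsg.Agent.S5546
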