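import Mathlib
import Cfsg.Agent.Spor.MB.Mod
import Cfsg.Statements.S5548
-- import your own Cfsg.Agent.* helpers here

set_option autoImplicit false
open Cfsg

namespace Cfsg.Agent.S5548

open Cfsg.Agent.Spor Cfsg.Agent.Spor.MB MulAction

open Cfsg.Agent.Spor.BinCode

/-- For the automorphism group of the length-24 binary Golay code of the definitions (the Mathieu group of degree 24) acting on binary words of length 24 by permuting coordinates, the only invariant subspaces of the space of all words are: zero, the span of the all-ones word, the code itself, the even-weight words, and the whole space. (So the permutation module has a unique composition series.) -/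
theorem result (W : Submodule (ZMod 2) (Cfsg.GolayPt → ZMod 2)) (hW : ∀ σ ∈ Cfsg.M24, ∀ w ∈ W, (fun p => w (σ.symm p)) ∈ W) : W = ⊥ ∨ W = Submodule.span (ZMod 2) {fun _ => (1 : ZMod 2)} ∨ W = Cfsg.golayCode ∨ (W : Set (Cfsg.GolayPt → ZMod 2)) = {w | ∑ p, w p = 0} ∨ W = ⊤ := by
  have h : MB.Inv W := hW
  by_cases hle : W ≤ golayCode
  · rcases h.cases_of_le hle with e | e | e
    exacts [Or.inl e, Or.inr (Or.inl e), Or.inr (Or.inr (Or.inl e))]
  have hev : ∀ w : GolayPt → ZMod 2, ∑ p, w p = 0 → w ∈ W := by
    intro w hw
    obtain ⟨n, hn⟩ := (sum_eq_zero_iff w).1 hw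
    rw [← ind_support w]
    exact even_mem_of_duads (fun d hd => h.duads_of_not_le hle hd) n _ (by omega)
  right; right; right
  by_cases ho : ∀ w ∈ W, ∑ p, w p = 0
  · exact Or.inl (Set.ext fun w => ⟨ho w, hev w⟩)
  · right
    push Not at ho
    obtain ⟨w, hw, hw'⟩ := ho
    refine eq_top_iff.2 fun v _ => ?_
    by_cases hv : ∑ p, v p = 0
    · exact hev v hv
    · have := W.add_mem (hev (v + w) (by
        rw [zmod2_ne_zero_iff] at hw'
        rw [← Ne, zmod2_ne_zero_iff] at hv
        simp only [Pi.add_apply, Finset.sum_add_distrib, hw', hv]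
        decide)) hw
      rwa [add_assoc, word_add_self, add_zero] at this

end Cfsg.Agent.S5548
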