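import Mathlib
import Cfsg.Agent.Spor.MB.Mod
import Cfsg.Agent.Spor.WittAut
import Cfsg.Statements.S5549
-- import your own Cfsg.Agent.* helpers here

set_option autoImplicit false
open Cfsg

namespace Cfsg.Agent.S5549

open Cfsg.Agent.Spor Cfsg.Agent.Spor.MB MulAction

open Cfsg.Agent.Spor.BinCode
open scoped Pointwise

/-- Number of octads meeting `t` oddly. -/
noncomputable def N (t : Finset GolayPt) : ℕ := {o | o ∈ octads ∧ Odd (o ∩ t).card}.ncard

theorem N_smul {g : PG} (hg : g ∈ M24) (t : Finset GolayPt) : N (g • t) = N t :=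
  ncard_smul_eq g fun y => by
    simp only [Set.mem_ofPred_eq, smul_mem_octads_iff hg, card_smul_inter]

theorem N_unmask {m : ℕ} (hm : m < 2 ^ 24) :
    N (unmask m) = cntL (fun o => Nat.beq (Nat.mod (pc (Nat.land o m)) 2) 1) octL 0 :=
  ncard_octads_filter _ _ fun o _ => by
    rw [Nat.beq_eq, Nat.odd_iff, card_eq_pc, mask_inter, mask_unmask hm]; rfl

theorem N_two {t : Finset GolayPt} (h : t.card = 2) : N t = 352 := by
  obtain ⟨g, hg, rfl⟩ := exists_smul_small (by norm_num) h
  rw [N_smul hg]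
  exact (N_unmask (m := 8388609) (by norm_num)).trans (by decide +kernel)

theorem N_four {t : Finset GolayPt} (h : t.card = 4) : N t = 384 := by
  obtain ⟨g, hg, rfl⟩ := exists_smul_small (by norm_num) h
  rw [N_smul hg]
  exact (N_unmask (m := 8388615) (by norm_num)).trans (by decide +kernel)

theorem N_empty : N ∅ = 0 := by simp [N]

theorem exists_rep (φ : golayCode →ₗ[ZMod 2] ZMod 2) :
    ∃ t : Finset GolayPt, t.card ≤ 4 ∧ ∀ c : golayCode, φ c = ∑ p, c.1 p * ind t p := by
  obtain ⟨ψ, hψ⟩ := LinearMap.exists_extend φ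
  obtain ⟨t, ht, h⟩ := Golay.isGolay.exists_small fun i => ψ fun j => if i = j then 1 else 0
  refine ⟨t, ht, fun c => ?_⟩
  have h1 := Golay.golay_orth c.1 c.2 _ h
  simp only [Pi.add_apply, mul_add, Finset.sum_add_distrib] at h1
  rw [← hψ, LinearMap.comp_apply, Submodule.subtype_apply, LinearMap.pi_apply_eq_sum_univ]
  simp only [smul_eq_mul]
  exact (by decide : ∀ a b : ZMod 2, a + b = 0 → a = b) _ _ h1

theorem dot_pair (w : GolayPt → ZMod 2) {a b : GolayPt} (h : a ≠ b) :
    ∑ p, w p * ind {a, b} p = w a + w b := by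
  simp only [ind_apply, mul_ite, mul_one, mul_zero]
  rw [Finset.sum_ite_mem, Finset.univ_inter, Finset.sum_pair h]

theorem odd_iff (w : GolayPt → ZMod 2) (t : Finset GolayPt) :
    Odd (support₂ w ∩ t).card ↔ ∑ p, w p * ind t p = 1 := by
  rw [← Nat.not_even_iff_odd, ← zmod2_ne_zero_iff, Ne, dot_eq_zero_iff, support_ind]

/-- The all-ones code word. -/
def one : golayCode := ⟨1, Golay.isGolay.one_mem⟩

section
variable (x : golayCode ≃ₗ[ZMod 2] golayCode) (h1 : x one = one)
  (h8 : ∀ c : golayCode, (support₂ c.1).card = 8 →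
    (support₂ (x c).1).card = 8 ∨ (support₂ (x c + one).1).card = 8)
include h1 h8

theorem N_le {t d : Finset GolayPt} (hd : d.card = 2)
    (h : ∀ c : golayCode, ∑ p, (x c).1 p * ind d p = ∑ p, c.1 p * ind t p) : N t ≤ N d := by
  classical
  have hone : ∑ p, one.1 p * ind d p = 0 := by
    rw [dot_eq_zero_iff, support_ind]
    change Even (support₂ 1 ∩ d).card
    rw [← ind_univ, support_ind, Finset.univ_inter, hd]; norm_num
  let F : Finset GolayPt → golayCode := fun o =>
    if ho : ind o ∈ golayCode then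
      if (support₂ (x ⟨_, ho⟩).1).card = 8 then x ⟨_, ho⟩ else x ⟨_, ho⟩ + one else 0
  have hF : ∀ o (ho : o ∈ octads), (support₂ (F o).1).card = 8 ∧
      (F o = x ⟨_, mem_CW_iff_ind.1 ho.1⟩ ∨ F o = x ⟨_, mem_CW_iff_ind.1 ho.1⟩ + one) := by
    intro o ho
    simp only [F, dif_pos (mem_CW_iff_ind.1 ho.1)]
    split_ifs with h
    · exact ⟨h, Or.inl rfl⟩
    · exact ⟨(h8 ⟨_, mem_CW_iff_ind.1 ho.1⟩ (by rw [support_ind]; exact ho.2)).resolve_left h,
        Or.inr rfl⟩
  refine Set.ncard_le_ncard_of_injOn (fun o => support₂ (F o).1) ?_ ?_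
  · rintro o ⟨ho, hodd⟩
    refine ⟨⟨support₂_mem_CW.2 (F o).2, (hF o ho).1⟩, ?_⟩
    rw [← support_ind o, odd_iff] at hodd
    rw [odd_iff]
    rcases (hF o ho).2 with e | e
    · rw [e, h, hodd]
    · rw [e]
      simp only [Submodule.coe_add, Pi.add_apply, add_mul, Finset.sum_add_distrib]
      rw [h, hodd, hone, add_zero]
  · rintro o ⟨ho, -⟩ o' ⟨ho', -⟩ e
    have e' : F o = F o' := Subtype.ext (support_injective e)
    have key : ∀ u u' (hu : u ∈ octads) (hu' : u' ∈ octads),
        x ⟨_, mem_CW_iff_ind.1 hu.1⟩ ≠ x ⟨_, mem_CW_iff_ind.1 hu'.1⟩ + one := by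
      intro u u' hu hu' e
      rw [← h1, ← map_add] at e
      have := congrArg Subtype.val (x.injective e)
      change ind u = ind u' + 1 at this
      rw [add_comm, ← ind_compl] at this
      have h2 := hu.2
      rw [ind_injective this, card_compl, hu'.2] at h2
      omega
    rcases (hF o ho).2 with e1 | e1 <;> rcases (hF o' ho').2 with e2 | e2 <;> rw [e1, e2] at e'
    · exact ind_injective (congrArg Subtype.val (x.injective e'))
    · exact absurd e' (key _ _ ho ho')
    · exact absurd e'.symm (key _ _ ho' ho)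
    · exact ind_injective (congrArg Subtype.val (x.injective (add_right_cancel e')))

omit h8 in
theorem ne_of_dot {t : Finset GolayPt} {a b : GolayPt} (hab : a ≠ b)
    (h : ∀ c : golayCode, (x c).1 a + (x c).1 b = ∑ p, c.1 p * ind t p) : t ≠ ∅ ∧ Even t.card := by
  constructor
  · rintro rfl
    obtain ⟨o, ho, h1, h2⟩ := Golay.exists_octad_mem_notMem hab
    have := h (x.symm ⟨_, mem_CW_iff_ind.1 ho.1⟩)
    simp [ind_apply, h1, h2] at this
  · have := h one
    rw [h1] at this
    change (1 : ZMod 2) + 1 = ∑ p, (1 : GolayPt → ZMod 2) p * ind t p at this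
    have h2 := (dot_eq_zero_iff _ _).1 (this.symm.trans (by decide))
    rwa [← ind_univ, support_ind, support_ind, Finset.univ_inter] at h2

theorem exists_duad {a b : GolayPt} (hab : a ≠ b) : ∃ t : Finset GolayPt, t.card = 2 ∧
    ∀ c : golayCode, (x c).1 a + (x c).1 b = ∑ p, c.1 p * ind t p := by
  obtain ⟨t, ht, h⟩ := exists_rep (((LinearMap.proj (R := ZMod 2) (φ := fun _ => ZMod 2) a +
    LinearMap.proj (R := ZMod 2) (φ := fun _ => ZMod 2) b :
    (GolayPt → ZMod 2) →ₗ[ZMod 2] ZMod 2).comp golayCode.subtype).comp x.toLinearMap)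
  have h' : ∀ c : golayCode, (x c).1 a + (x c).1 b = ∑ p, c.1 p * ind t p := h
  obtain ⟨h0, hev⟩ := ne_of_dot x h1 hab h'
  refine ⟨t, ?_, h'⟩
  have h2 := N_le x h1 h8 (t := t) (Finset.card_pair hab) fun c => by rw [dot_pair _ hab, h']
  rw [N_two (Finset.card_pair hab)] at h2
  have h4 : t.card ≠ 4 := fun e => by rw [N_four e] at h2; omega
  rw [Ne, ← Finset.card_eq_zero] at h0
  obtain ⟨k, hk⟩ := hev
  omega

theorem exists_star : ∃ F : GolayPt → Finset GolayPt, (∀ a ≠ none, (F a).card = 2) ∧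
    (∀ a ≠ none, ∀ c : golayCode, (x c).1 none + (x c).1 a = ∑ p, c.1 p * ind (F a) p) ∧
    ∀ a ≠ none, ∀ b ≠ none, a ≠ b → (F a ∩ F b).card = 1 := by
  have : ∀ a : GolayPt, ∃ t : Finset GolayPt, a ≠ none → t.card = 2 ∧
      ∀ c : golayCode, (x c).1 none + (x c).1 a = ∑ p, c.1 p * ind t p := by
    intro a
    by_cases ha : a = none
    · exact ⟨∅, fun h => absurd ha h⟩
    · obtain ⟨t, ht⟩ := exists_duad x h1 h8 (Ne.symm ha)
      exact ⟨t, fun _ => ht⟩
  choose F hF using this
  refine ⟨F, fun a ha => (hF a ha).1, fun a ha => (hF a ha).2, fun a ha b hb hab => ?_⟩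
  obtain ⟨t, ht, h⟩ := exists_duad x h1 h8 hab
  have hc : ind (symmDiff (symmDiff (F a) (F b)) t) ∈ golayCode := by
    apply Golay.isGolay.mem_of_orth
    intro v hv
    simp only [ind_symmDiff, Pi.add_apply, mul_add, Finset.sum_add_distrib]
    rw [← (hF a ha).2 ⟨v, hv⟩, ← (hF b hb).2 ⟨v, hv⟩, ← h ⟨v, hv⟩]
    exact (by decide : ∀ u a b : ZMod 2, u + a + (u + b) + (a + b) = 0) _ _ _
  have e1 := MB.card_symmDiff_add (F a) (F b)
  have e2 := MB.card_symmDiff_add (symmDiff (F a) (F b)) t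
  have e3 := card_cases (mem_CW_iff_ind.2 hc)
  rw [(hF a ha).1, (hF b hb).1] at e1
  have e4 : symmDiff (F a) (F b) = t := symmDiff_eq_bot.1 (Finset.card_eq_zero.1 (by omega))
  rw [e4] at e1
  omega

end

theorem common {F : GolayPt → Finset GolayPt} (h2 : ∀ a ≠ none, (F a).card = 2)
    (h1 : ∀ a ≠ none, ∀ b ≠ none, a ≠ b → (F a ∩ F b).card = 1) : ∃ p, ∀ a ≠ none, p ∈ F a := by
  have hne : ∀ a ≠ none, ∀ b ≠ none, a ≠ b → F a ≠ F b := by
    intro a ha b hb hab e
    have := h1 a ha b hb hab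
    rw [e, Finset.inter_self, h2 b hb] at this
    omega
  have meet : ∀ a ≠ none, ∀ b ≠ none, a ≠ b → ∃ z, z ∈ F a ∧ z ∈ F b := by
    intro a ha b hb hab
    obtain ⟨z, hz⟩ := Finset.card_eq_one.1 (h1 a ha b hb hab)
    exact ⟨z, Finset.mem_inter.1 (hz ▸ Finset.mem_singleton_self z)⟩
  have other : ∀ a ≠ none, ∀ p ∈ F a, ∃ q, q ≠ p ∧ F a = {p, q} := by
    intro a ha p hp
    obtain ⟨u, v, huv, e⟩ := Finset.card_eq_two.1 (h2 a ha)
    rw [e, Finset.mem_insert, Finset.mem_singleton] at hp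
    rcases hp with rfl | rfl
    · exact ⟨v, huv.symm, e⟩
    · exact ⟨u, huv, e.trans (Finset.pair_comm _ _)⟩
  obtain ⟨p, hp0, hp1⟩ := meet (some 0) (by simp) (some 1) (by simp) (by decide)
  obtain ⟨q, hq, e0⟩ := other _ (by simp) p hp0
  obtain ⟨r, hr, e1⟩ := other _ (by simp) p hp1
  have hqr : q ≠ r := fun e => hne (some 0) (by simp) (some 1) (by simp) (by decide)
    (by rw [e0, e1, e])
  have key : ∀ a ≠ none, p ∉ F a → F a = {q, r} := by
    intro a ha hp
    have n0 : a ≠ some 0 := by rintro rfl; exact hp hp0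
    have n1 : a ≠ some 1 := by rintro rfl; exact hp hp1
    obtain ⟨z, hz, hz'⟩ := meet a ha _ (by simp) n0
    obtain ⟨w, hw, hw'⟩ := meet a ha _ (by simp) n1
    rw [e0, Finset.mem_insert, Finset.mem_singleton] at hz'
    rw [e1, Finset.mem_insert, Finset.mem_singleton] at hw'
    have z1 : z = q := hz'.resolve_left (by rintro rfl; exact hp hz)
    have w1 : w = r := hw'.resolve_left (by rintro rfl; exact hp hw)
    subst z1 w1
    symm
    apply Finset.eq_of_subset_of_card_le
    · intro y hy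
      rw [Finset.mem_insert, Finset.mem_singleton] at hy
      rcases hy with rfl | rfl <;> assumption
    · rw [h2 a ha, Finset.card_pair hqr]
  refine ⟨p, fun a ha => ?_⟩
  by_contra hp
  have ea := key a ha hp
  obtain ⟨d, -, hd⟩ := Finset.exists_mem_notMem_of_card_lt_card
    (s := ({none, some 0, some 1, a} : Finset GolayPt)) (t := Finset.univ) (by
      have := Finset.card_le_four (a := (none : GolayPt)) (b := some 0) (c := some 1) (d := a)
      rw [Finset.card_univ, card_golayPt]; omega)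
  simp only [Finset.mem_insert, Finset.mem_singleton, not_or] at hd
  by_cases hpd : p ∈ F d
  · obtain ⟨s, hs, ed⟩ := other d hd.1 p hpd
    obtain ⟨z, hz, hz'⟩ := meet d hd.1 a ha hd.2.2.2
    rw [ed, Finset.mem_insert, Finset.mem_singleton] at hz
    have z1 : z = s := hz.resolve_left (by rintro rfl; exact hp hz')
    rw [z1, ea, Finset.mem_insert, Finset.mem_singleton] at hz'
    rcases hz' with rfl | rfl
    · exact hne d hd.1 _ (by simp) hd.2.1 (ed.trans e0.symm)
    · exact hne d hd.1 _ (by simp) hd.2.2.1 (ed.trans e1.symm)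
  · exact hne d hd.1 a ha hd.2.2.2 ((key d hd.1 hpd).trans ea.symm)

/-- Let X be a group of linear automorphisms of the length-24 binary Golay code of the definitions that fix the all-ones word, containing the coordinate-permutation action of every element of the code's automorphism group (the Mathieu group of degree 24), and such that every element of X sends each codeword into its orbit under that Mathieu group up to adding the all-ones word (X has the same orbits as the Mathieu group on the code modulo the all-ones word). Then every element of X agrees, modulo the all-ones word, with the action of a single element of the Mathieu group: X induces exactly the Mathieu group on the code modulo the all-ones word. -/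
theorem result (X : Subgroup (↥Cfsg.golayCode ≃ₗ[ZMod 2] ↥Cfsg.golayCode)) (h1 : ∀ x ∈ X, ∀ e : ↥Cfsg.golayCode, (e : (Cfsg.GolayPt → ZMod 2)) = (fun _ => (1 : ZMod 2)) → x e = e) (hM : ∀ σ ∈ Cfsg.M24, ∃ x ∈ X, ∀ c : ↥Cfsg.golayCode, ((x c : ↥Cfsg.golayCode) : (Cfsg.GolayPt → ZMod 2)) = fun p => (c : (Cfsg.GolayPt → ZMod 2)) (σ.symm p)) (horb : ∀ x ∈ X, ∀ c : ↥Cfsg.golayCode, ∃ σ ∈ Cfsg.M24, ((x c : ↥Cfsg.golayCode) : (Cfsg.GolayPt → ZMod 2)) = (fun p => (c : (Cfsg.GolayPt → ZMod 2)) (σ.symm p)) ∨ ((x c : ↥Cfsg.golayCode) : (Cfsg.GolayPt → ZMod 2)) = (fun p => (c : (Cfsg.GolayPt → ZMod 2)) (σ.symm p)) + fun _ => (1 : ZMod 2)) (x : ↥Cfsg.golayCode ≃ₗ[ZMod 2] ↥Cfsg.golayCode) (hx : x ∈ X) : ∃ σ ∈ Cfsg.M24, ∀ c : ↥Cfsg.golayCode, ((x c : ↥Cfsg.golayCode) : (Cfsg.GolayPt → ZMod 2)) = (fun p => (c : (Cfsg.GolayPt → ZMod 2)) (σ.symm p)) ∨ ((x c : ↥Cfsg.golayCode) : (Cfsg.GolayPt → ZMod 2)) = (fun p => (c : (Cfsg.GolayPt → ZMod 2)) (σ.symm p)) + fun _ => (1 : ZMod 2) := by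
  have hone : x one = one := h1 x hx one rfl
  have h8 : ∀ c : golayCode, (support₂ c.1).card = 8 →
      (support₂ (x c).1).card = 8 ∨ (support₂ (x c + one).1).card = 8 := by
    intro c hc
    obtain ⟨σ, -, h⟩ := horb x hx c
    have e : (support₂ fun p => c.1 (σ.symm p)).card = 8 := by
      rw [← ind_support c.1, ← ind_smul', support_ind, Finset.card_smul_finset, hc]
    rcases h with h | h
    · left; rw [h, e]
    · right
      rw [Submodule.coe_add, h]
      change (support₂ (_ + 1 + 1)).card = 8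
      rw [add_assoc, word_add_self, add_zero, e]
  obtain ⟨F, f2, fd, f1⟩ := exists_star x hone h8
  obtain ⟨p, hp⟩ := common f2 f1
  have : ∀ a : GolayPt, ∃ q, (a = none → q = p) ∧ (a ≠ none → q ≠ p ∧ F a = {p, q}) := by
    intro a
    by_cases ha : a = none
    · exact ⟨p, fun _ => rfl, fun h => absurd ha h⟩
    · obtain ⟨u, v, huv, e⟩ := Finset.card_eq_two.1 (f2 a ha)
      have hp' := hp a ha
      rw [e, Finset.mem_insert, Finset.mem_singleton] at hp'
      rcases hp' with rfl | rfl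
      · exact ⟨v, fun h => absurd h ha, fun _ => ⟨huv.symm, e⟩⟩
      · exact ⟨u, fun h => absurd h ha, fun _ => ⟨huv, e.trans (Finset.pair_comm _ _)⟩⟩
  choose τ t0 t1 using this
  have hinj : Function.Injective τ := by
    intro a b e
    by_contra hab
    by_cases ha : a = none
    · have hb : b ≠ none := fun h => hab (ha.trans h.symm)
      exact (t1 b hb).1 (e.symm.trans (t0 a ha))
    · by_cases hb : b = none
      · exact (t1 a ha).1 (e.trans (t0 b hb))
      · have := f1 a ha b hb hab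
        rw [(t1 a ha).2, (t1 b hb).2, e, Finset.inter_self, Finset.card_pair (t1 b hb).1.symm] at this
        omega
  let ρ : PG := Equiv.ofBijective τ (Finite.injective_iff_bijective.1 hinj)
  have key : ∀ (c : golayCode) (a : GolayPt),
      (x c).1 a = c.1 (τ a) + ((x c).1 none + c.1 p) := by
    intro c a
    by_cases ha : a = none
    · rw [t0 a ha, ha]
      exact (by decide : ∀ u v : ZMod 2, u = v + (u + v)) _ _
    · have := fd a ha c
      rw [(t1 a ha).2, dot_pair _ (t1 a ha).1.symm] at this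
      exact (by decide : ∀ u v w z : ZMod 2, u + v = w + z → v = z + (u + w)) _ _ _ _ this
  have key2 : ∀ c : golayCode, (x c).1 = (fun a => c.1 (τ a)) ∨
      (x c).1 = (fun a => c.1 (τ a)) + fun _ => (1 : ZMod 2) := by
    intro c
    by_cases h : (x c).1 none + c.1 p = 0
    · left; funext a; rw [key, h, add_zero]
    · right; funext a; rw [key, (zmod2_ne_zero_iff _).1 h]; rfl
  refine ⟨ρ⁻¹, M24.inv_mem ((Golay.mem_M24_iff ρ).2 fun w hw => ?_), key2⟩
  rcases key2 ⟨w, hw⟩ with e | e
  · exact e ▸ (x ⟨w, hw⟩).2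
  · have := golayCode.add_mem (x ⟨w, hw⟩).2 Golay.isGolay.one_mem
    rw [e] at this
    change _ + 1 + 1 ∈ _ at this
    rwa [add_assoc, word_add_self, add_zero] at this

end Cfsg.Agent.S5549
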