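import Mathlib
import Cfsg.Agent.Spor.MB.Mod
import Cfsg.Statements.S5550
-- import your own Cfsg.Agent.* helpers here

set_option autoImplicit false
open Cfsg

namespace Cfsg.Agent.S5550

open Cfsg.Agent.Spor Cfsg.Agent.Spor.MB MulAction

open Cfsg.Agent.Spor.BinCode
open scoped Pointwise

theorem stab_compl (s : Finset GolayPt) : stabilizer PG sᶜ = stabilizer PG s := by
  ext g
  rw [mem_stabilizer_iff, mem_stabilizer_iff, ← smul_compl, compl_inj_iff]

theorem card_stab {s : Finset GolayPt} (hs : s ∈ CW) :
    322560 ∣ Nat.card ↥(M24 ⊓ stabilizer PG s) ∨ 95040 ∣ Nat.card ↥(M24 ⊓ stabilizer PG s) := by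
  have h0 : M24 ⊓ stabilizer PG (∅ : Finset GolayPt) = M24 :=
    inf_eq_left.2 fun g _ => Finset.smul_finset_empty g
  rcases card_cases hs with e | e | e | e | e
  · rw [Finset.card_eq_zero.1 e, h0, card_M24]; norm_num
  · rw [card_stab_octad ⟨hs, e⟩]; norm_num
  · rw [card_stab_dodecad ⟨hs, e⟩]; norm_num
  · rw [← stab_compl, card_stab_octad ⟨compl_mem_CW hs, by rw [card_compl, e]⟩]; norm_num
  · rw [Finset.eq_univ_of_card s (by rw [e, card_golayPt]), ← Finset.compl_empty, stab_compl, h0,
      card_M24]
    norm_num

/-- Let u be a word of the length-24 binary Golay code of the definitions (possibly zero or all-ones) and w any binary word of length 24 outside the code. Then some automorphism of the code (a coordinate permutation preserving it) fixes u but moves w to a word not congruent to w modulo the code: the stabilizer of a codeword fixes no non-zero element of the quotient of the space of all words by the code. -/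
theorem result (u : (Cfsg.GolayPt → ZMod 2)) (hu : u ∈ Cfsg.golayCode) (w : (Cfsg.GolayPt → ZMod 2)) (hw : w ∉ Cfsg.golayCode) : ∃ σ ∈ Cfsg.M24, (fun p => u (σ.symm p)) = u ∧ (fun p => w (σ.symm p)) - w ∉ Cfsg.golayCode := by
  by_contra hn
  push Not at hn
  obtain ⟨t, ht, hc⟩ := Golay.isGolay.exists_small w
  have h0 : t.card ≠ 0 := by
    rw [Ne, Finset.card_eq_zero]; rintro rfl; exact hw (by simpa using hc)
  have key : ∀ g ∈ M24 ⊓ stabilizer PG (support₂ u), symmDiff (g • t) t ∈ CW := by
    intro g hg
    have h1 := hn g hg.1 (by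
      have : g • support₂ u = support₂ u := hg.2
      rw [← ind_support u, ← ind_smul', this])
    have h2 := golayCode.add_mem (golayCode.add_mem (inv_golay g hg.1 _ hc) hc) h1
    rw [mem_CW_iff_ind, ind_symmDiff, ind_smul']
    convert h2 using 1
    funext p
    simp only [Pi.add_apply, Pi.sub_apply]
    exact (by decide : ∀ a b c d : ZMod 2, c + d = a + c + (b + d) + (a - b)) _ _ _ _
  have hd := card_stab (support₂_mem_CW.2 hu)
  by_cases h4 : t.card = 4
  · have : M24 ⊓ stabilizer PG (support₂ u) ≤ M24 ⊓ stabilizer PG (sextetOf t) := fun g hg =>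
      ⟨hg.1, sextet_eq_of_mem (smul_mem_sextets hg.1 (sextetOf_mem h4)) (sextetOf_mem h4)
        (Finset.smul_mem_smul_finset (self_mem_sextetOf h4))
        (mem_sextetOf.2 ⟨by rw [Finset.card_smul_finset, h4], by
          rw [symmDiff_comm]; exact key g hg⟩)⟩
    have h := Subgroup.card_dvd_of_le this
    rw [card_stab_sextet (sextetOf_mem h4)] at h
    rcases hd with hd | hd <;> exact absurd (hd.trans h) (by norm_num)
  · have : M24 ⊓ stabilizer PG (support₂ u) ≤ M24 ⊓ stabilizer PG t := fun g hg => by
      refine ⟨hg.1, ?_⟩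
      have h1 := MB.card_symmDiff_add (g • t) t
      rw [Finset.card_smul_finset] at h1
      have h2 := card_cases (key g hg)
      exact symmDiff_eq_bot.1 (Finset.card_eq_zero.1 (by omega))
    have h := Subgroup.card_dvd_of_le this
    have h2 := card_stab_small (k := t.card) (by omega) rfl
    have h3 : t.card = 1 ∨ t.card = 2 ∨ t.card = 3 := by omega
    rcases h3 with e | e | e <;> rw [e] at h2
    · rw [eq_of_eq_mul (b := 10200960) h2.symm (by decide) (by decide)] at h
      rcases hd with hd | hd <;> exact absurd (hd.trans h) (by norm_num)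
    · rw [eq_of_eq_mul (b := 887040) h2.symm (by decide) (by decide)] at h
      rcases hd with hd | hd <;> exact absurd (hd.trans h) (by norm_num)
    · rw [eq_of_eq_mul (b := 120960) h2.symm (by decide) (by decide)] at h
      rcases hd with hd | hd <;> exact absurd (hd.trans h) (by norm_num)

end Cfsg.Agent.S5550
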