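import Mathlib
import Cfsg.Statements.S5552
import Cfsg.Agent.Spor.LeechSimple

set_option autoImplicit false
open Cfsg

namespace Cfsg.Agent.S5552

section
open Cfsg.Agent.Spor.Leech

theorem triple1 : ∃ u v w : Λ, nm u = 32 ∧ nm v = 32 ∧ nm w = 32 ∧ ip u v = -16 ∧ ip v w = -16 ∧
    ip u w = 0 :=
  ⟨v44 none (some 0) 1 (-1), v44 (some 0) (some 1) 1 (-1), v44 (some 1) (some 2) 1 (-1),
    nm_v44 (by decide) _ _, nm_v44 (by decide) _ _, nm_v44 (by decide) _ _,
    by rw [ip_v44, v44_apply, v44_apply]; decide, by rw [ip_v44, v44_apply, v44_apply]; decide,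
    by rw [ip_v44, v44_apply, v44_apply]; decide⟩

theorem triple2 : ∃ u v w : Λ, nm u = 32 ∧ nm v = 32 ∧ nm w = 32 ∧ ip u v = 8 ∧ ip v w = -16 ∧
    ip u w = -16 := by
  obtain ⟨o, ho, h8, h1, h2⟩ := exists_octad_not_mem (s := {none, some 0}) (j := some 1)
    (by decide) (by decide)
  have a : none ∈ o := h1 (by simp)
  have b : some 0 ∈ o := h1 (by simp)
  refine ⟨v44 none (some 1) (-1) 1, -two o ho, v44 none (some 0) 1 1, nm_v44 (by decide) _ _,
    by rw [nm_neg, nm_two, h8]; rfl, nm_v44 (by decide) _ _, ?_, ?_,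
    by rw [ip_v44, v44_apply, v44_apply]; decide⟩
  · rw [ip_neg_right, ip_comm, ip_v44, two_apply, two_apply, if_pos a, if_neg h2]; rfl
  · rw [ip_neg_left, ip_v44, two_apply, two_apply, if_pos a, if_pos b]; rfl

end

/-- On the Leech lattice of the definitions, let Q be a function to the field with two elements that is constant on cosets of twice the lattice, is a quadratic form there (Q(u+v+w) + Q(u) + Q(v) + Q(w) = Q(u+v) + Q(u+w) + Q(v+w) for all u, v, w), is invariant under every lattice automorphism, and is not identically zero. Then Q(v) is the squared length of v divided by 16, reduced modulo 2, for every lattice vector v (squared lengths of lattice vectors are multiples of 16). -/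
theorem result (Q : ↥Cfsg.leechLattice → ZMod 2) (hcoset : ∀ v w : ↥Cfsg.leechLattice, Q (v + (w + w)) = Q v) (hquad : ∀ u v w : ↥Cfsg.leechLattice, Q (u + v + w) + Q u + Q v + Q w = Q (u + v) + Q (u + w) + Q (v + w)) (hinv : ∀ (g : ↥Cfsg.Co0) (v : ↥Cfsg.leechLattice), Q (g • v) = Q v) (hne : ∃ v : ↥Cfsg.leechLattice, Q v ≠ 0) (v : ↥Cfsg.leechLattice) : Q v = ((Cfsg.sqNorm (v : Cfsg.GolayPt → ℤ) / 16 : ℤ) : ZMod 2) := by
  open Cfsg.Agent.Spor.Leech in
  have h0 : Q 0 = 0 := by
    have := hquad 0 0 0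
    simp only [add_zero] at this
    generalize Q 0 = a at this; revert a; decide
  have hneg : ∀ x, Q (-x) = Q x := fun x => by rw [← negOne_smul, hinv]
  obtain ⟨a2, h2⟩ : ∃ a, ∀ x, nm x = 32 → Q x = a := ⟨_, fun x hx => by
    obtain ⟨g, rfl⟩ := trans32 (nm_v44 none_ne_zero 1 1) hx; exact hinv _ _⟩
  obtain ⟨a3, h3⟩ : ∃ a, ∀ x, nm x = 48 → Q x = a := ⟨_, fun x hx => by
    obtain ⟨g, rfl⟩ := trans48 (nm_odd1 none 5 rfl) hx; exact hinv _ _⟩
  obtain ⟨a4, h4⟩ : ∃ a, ∀ x, nm x = 64 → Q x = a := ⟨_, fun x hx => by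
    obtain ⟨g, rfl⟩ := exists_smul_eq_of_64 (nm_e8 none) hx; exact hinv _ _⟩
  have e4 : a4 = 0 := by
    obtain ⟨u, v, w, hu, hv, hw, a, b, c⟩ := triple1
    have := hquad u v w
    rw [h2 u hu, h2 v hv, h2 w hw, h2 (u + v) (by rw [nm_add]; omega), h2 (v + w) (by rw [nm_add]; omega),
      h4 (u + w) (by rw [nm_add]; omega), h2 (u + v + w) (by rw [nm_add, nm_add, ip_add_left]; omega)] at this
    revert this; generalize a2 = x; generalize a4 = y; revert x y; decide
  have e2 : a2 = 0 := by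
    obtain ⟨u, v, w, hu, hv, hw, a, b, c⟩ := triple2
    have := hquad u v w
    rw [h2 u hu, h2 v hv, h2 w hw, show u + v = u - v + (v + v) by abel, hcoset,
      h3 (u - v) (by rw [nm_sub]; omega), h2 (v + w) (by rw [nm_add]; omega),
      h2 (u + w) (by rw [nm_add]; omega), show u - v + (v + v) = u + v by abel,
      h3 (u + v + w) (by rw [nm_add, nm_add, ip_add_left]; omega)] at this
    revert this; generalize a2 = x; generalize a3 = y; revert x y; decide
  have key : ∀ x, ∃ y, Q x = Q y ∧ nm y ≤ 64 ∧ ((nm x / 16 : ℤ) : ZMod 2) = ((nm y / 16 : ℤ) : ZMod 2) := by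
    intro x
    obtain ⟨y, z, hy, e⟩ := exists_short x
    have e' : x = y + (z + z) := by rw [← two_nsmul, ← e]; abel
    refine ⟨y, by rw [e', hcoset], hy, (ZMod.intCast_eq_intCast_iff' _ _ 2).2 ?_⟩
    have := sixteen_dvd_nm y; have := sixteen_dvd_nm z; have := eight_dvd_ip y z
    rw [e', nm_add, nm_add, ip_add_right, ip_self]; push_cast; omega
  have e3 : a3 = 1 := by
    obtain ⟨x, hx⟩ := hne
    obtain ⟨y, h5, h6, -⟩ := key x
    rw [h5] at hx
    rcases nm_cases_of_le h6 with rfl | h | h | h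
    · exact absurd h0 hx
    · exact absurd ((h2 y h).trans e2) hx
    · rw [h3 y h] at hx; exact (zmod2_cases a3).resolve_left hx
    · exact absurd ((h4 y h).trans e4) hx
  obtain ⟨y, h5, h6, h7⟩ := key v
  rw [h5, ← nm_def, h7]
  rcases nm_cases_of_le h6 with rfl | h | h | h
  · rw [h0, nm_zero]; rfl
  · rw [h2 y h, e2, h]; rfl
  · rw [h3 y h, e3, h]; rfl
  · rw [h4 y h, e4, h]; rfl

end Cfsg.Agent.S5552
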