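import Mathlib
import Cfsg.Statements.S5553
import Cfsg.Agent.Spor.LeechIndex

set_option autoImplicit false
open Cfsg

namespace Cfsg.Agent.S5553

/-- The Leech lattice of the definitions has an additive subgroup A containing twice the lattice, of index 2^12 in the lattice, all of whose vectors have squared length divisible by 32: the invariant quadratic form 'squared length over 16 modulo 2' on the lattice modulo twice the lattice (a 24-dimensional space over the field with two elements) vanishes on a 12-dimensional subspace, so it is of plus type. -/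
theorem result : ∃ A : AddSubgroup (Cfsg.GolayPt → ℤ), A ≤ Cfsg.leechLattice ∧ (∀ v ∈ Cfsg.leechLattice, (2 : ℤ) • v ∈ A) ∧ (A.addSubgroupOf Cfsg.leechLattice).index = 2 ^ 12 ∧ ∀ v ∈ A, (32 : ℤ) ∣ Cfsg.sqNorm v := by
  open Cfsg.Agent.Spor.Leech in
  let A : AddSubgroup Vec :=
    { carrier := {x | ∃ k : ℤ, (∀ i, (x i - 2 * k) % 4 = 0) ∧ (∑ i, x i) % 8 = 0}
      zero_mem' := ⟨0, by simp, by simp⟩
      add_mem' := by
        rintro x y ⟨k, h1, h2⟩ ⟨l, h3, h4⟩
        refine ⟨k + l, fun i => ?_, ?_⟩
        · have := h1 i; have := h3 i; rw [Pi.add_apply]; omega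
        · simp only [Pi.add_apply, Finset.sum_add_distrib]; omega
      neg_mem' := by
        rintro x ⟨k, h1, h2⟩
        refine ⟨-k, fun i => ?_, ?_⟩
        · have := h1 i; rw [Pi.neg_apply]; omega
        · simp only [Pi.neg_apply, Finset.sum_neg_distrib]; omega }
  have hA : A ≤ leechLattice := by
    rintro x ⟨k, h1, h2⟩
    exact mem_leech_iff_set.2 (mem_leechSet_iff.2 ⟨2 * k, ∅, isCode_empty, by simpa using h1, by omega⟩)
  have hD : D4 ≤ A := fun x hx => ⟨0, by simpa using (mem_D4.1 hx).1, (mem_D4.1 hx).2⟩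
  have h2 : D4.relIndex A = 2 := by
    rw [AddSubgroup.relIndex_eq_two_iff]
    refine ⟨fun _ => 2, ⟨1, by simp, by simp⟩, ?_⟩
    rintro b ⟨k, h1, h2⟩
    have h3 : (∑ i, (b i + 2)) % 8 = 0 := by
      rw [Finset.sum_add_distrib, Finset.sum_const, card_univ_pt]; simp only [nsmul_eq_mul]; omega
    simp only [mem_D4, Pi.add_apply, h2, h3, and_true, Xor]
    by_cases hk : k % 2 = 0
    · exact Or.inr ⟨fun i => by have := h1 i; omega, fun h => by have := h none; have := h1 none; omega⟩
    · exact Or.inl ⟨fun i => by have := h1 i; omega, fun h => by have := h none; have := h1 none; omega⟩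
  refine ⟨A, hA, fun v hv => ⟨v none, fun i => ?_, ?_⟩, ?_, ?_⟩
  · have := parity_eq hv i none; simp only [Pi.smul_apply, smul_eq_mul]; omega
  · simp only [Pi.smul_apply, smul_eq_mul, ← Finset.mul_sum]
    rcases mem_leech_iff.1 hv with ⟨c, hc⟩ | ⟨c, hc⟩ <;> have := hc.2.2 <;> omega
  · have := AddSubgroup.relIndex_mul_relIndex _ _ _ hD hA
    rw [h2, relIndex_D4_leech] at this
    change A.relIndex leechLattice = _
    omega
  · rintro x ⟨k, h1, h2⟩
    by_cases hk : k % 2 = 0
    · exact EvenL.dvd_of_empty ⟨isCode_empty, fun i => by have := h1 i; simp; omega, h2⟩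
    · have h3 : EvenL (x - fun _ => 2) ∅ := ⟨isCode_empty, fun i => by have := h1 i; simp; omega, by
        simp only [Pi.sub_apply]
        rw [Finset.sum_sub_distrib, Finset.sum_const, card_univ_pt]; simp only [nsmul_eq_mul]; omega⟩
      have h4 := h3.dvd_of_empty
      rw [sqNorm_sub, dotInt_def, ← Finset.sum_mul, sqNorm_def (fun _ => 2), Finset.sum_const,
        card_univ_pt] at h4
      simp only [nsmul_eq_mul] at h4; omega

end Cfsg.Agent.S5553
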