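import Mathlib
import Cfsg.Statements.S5566
import Cfsg.Agent.J4T.Hyp
import Cfsg.Agent.J4T.Frame
import Cfsg.Agent.J4T.Letters
import Cfsg.Agent.J4T.Unique

set_option autoImplicit false
open Cfsg

namespace Cfsg.Agent.S5566

open Subgroup Cfsg.Agent.GT
open scoped commutatorElement Pointwise

/-- Let G be a finite non-abelian simple group of Janko-four type (an involution z whose centralizer H has an extraspecial largest normal 2-subgroup E of order 2^13 containing its centralizer in H, a normal subgroup N ≥ E of H with N/E of order 3 and H/N the automorphism group of M₂₂, and a subgroup P ≤ N of order 3 with C_E(P) = ⟨z⟩, N_H(P) ≠ C_H(P) and P ≤ C_H(P)′). Then a Sylow 2-subgroup of G has exactly one elementary abelian subgroup of order 2^11. -/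
theorem result {G : Type*} [Group G] [Finite G] [IsSimpleGroup G] (hG : ¬ IsMulCommutative G) (hJ : Cfsg.IsOfJankoFourType G) (T : Sylow 2 G) :
    ∃! V : Subgroup G, V ≤ (T : Subgroup G) ∧ Cfsg.IsElementaryAbelian 2 V ∧ Nat.card ↥V = 2 ^ 11 := by
  obtain ⟨z, P, hP⟩ := hJ
  obtain ⟨p, π, -, h2⟩ := J4T.st0_of_with hP
  obtain ⟨g, p', a, b, -, -, h3⟩ := h2.exists_frame
  obtain ⟨g', l, -, -, s⟩ := h3.exists_stX
  obtain ⟨x, -, hx⟩ := (Inv.Fz.isSylIn_top T).exists_cj_eq s.syl_T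
  refine ⟨Inv.Fz.cj x (J4T.VG z g' l), ⟨hx ▸ Inv.Fz.cj_mono s.V_le_T, J4T.TS.elem_map s.elem_V _,
    by rw [Inv.Fz.card_cj, s.card_V]⟩, ?_⟩
  rintro F ⟨h4, h5, h6⟩
  have h7 : Inv.Fz.cj x⁻¹ F ≤ J4T.TG g' l := by
    rw [← Inv.Fz.cj_inv_cj x (J4T.TG g' l), hx]
    exact Inv.Fz.cj_mono h4
  rw [← s.eq_V h7 (J4T.TS.elem_map h5 _) (by rw [Inv.Fz.card_cj, h6]), Inv.Fz.cj_cj_inv]

end Cfsg.Agent.S5566
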