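import Cfsg.Statements.S5567
import Cfsg.Agent.J4T.TopS

set_option autoImplicit false
open Cfsg

namespace Cfsg.Agent.S5567

/-- Let G be a finite non-abelian simple group of Janko-four type (an involution z whose centralizer H has an extraspecial largest normal 2-subgroup E of order 2^13 containing its centralizer in H, a normal subgroup N ≥ E of H with N/E of order 3 and H/N the automorphism group of M₂₂, and a subgroup P ≤ N of order 3 with C_E(P) = ⟨z⟩, N_H(P) ≠ C_H(P) and P ≤ C_H(P)′). Then every elementary abelian subgroup V of G of order 2^11 contains its centralizer, and its normalizer is a split extension of V by a complement isomorphic to the Mathieu group M₂₄. -/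
theorem result {G : Type*} [Group G] [Finite G] [IsSimpleGroup G] (hG : ¬ IsMulCommutative G) (hJ : Cfsg.IsOfJankoFourType G) (V : Subgroup G) (hV : Cfsg.IsElementaryAbelian 2 V) (hcard : Nat.card ↥V = 2 ^ 11) :
    Subgroup.centralizer (V : Set G) ≤ V ∧ ∃ K : Subgroup G, K ≤ Subgroup.normalizer (V : Set G) ∧ K ⊓ V = ⊥ ∧ K ⊔ V = Subgroup.normalizer (V : Set G) ∧ Cfsg.Spor.IsoM24 ↥K := by
  obtain ⟨z, π, g, l, ψ, s⟩ := J4T.exists_stJ_of_type hJ
  obtain ⟨ψ', σ, Z, h⟩ := s.t.m.ctx.fr V ⟨hV, hcard⟩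
  obtain ⟨x, e⟩ := s.x.exists_conj_V hV hcard.ge
  have hinj : ∀ y, ψ' y ∈ V → y = 1 := fun y hy =>
    Subtype.ext ((h.psi y).2.symm.trans ((h.ker _ (h.psi y).1).2 hy))
  have hle : ψ'.range ≤ Subgroup.normalizer (V : Set G) := by
    rintro _ ⟨y, rfl⟩
    exact (h.psi y).1
  refine ⟨fun a ha => ?_, ψ'.range, hle, eq_bot_iff.2 ?_, le_antisymm (sup_le hle Subgroup.le_normalizer)
    fun a ha => ?_, ⟨(MonoidHom.ofInjective ((injective_iff_map_eq_one _).2 fun y hy =>
      hinj y (hy ▸ one_mem _))).symm⟩⟩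
  · rw [e]
    refine ⟨x⁻¹ * a * x, s.x.cent_V fun v hv => ?_, by simp [mul_assoc]⟩
    have := ha (x * v * x⁻¹) (e ▸ ⟨v, hv, rfl⟩)
    calc v * (x⁻¹ * a * x) = x⁻¹ * (x * v * x⁻¹ * a) * x := by group
      _ = _ := by rw [this]; group
  · rintro _ ⟨⟨y, rfl⟩, hy⟩
    rw [hinj y hy, map_one]
    exact one_mem _
  · let y : M24 := ⟨σ a, h.m24 a⟩
    have h1 := Subgroup.inv_mem _ (h.psi y).1
    have h2 : (ψ' y)⁻¹ * a ∈ V := (h.ker _ (mul_mem h1 ha)).1 (by
      rw [h.hom _ h1 _ ha, h.sg_inv (h.psi y).1, (h.psi y).2, inv_mul_cancel])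
    simpa using Subgroup.mul_mem_sup (show ψ' y ∈ ψ'.range from ⟨y, rfl⟩) h2

end Cfsg.Agent.S5567
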