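import Mathlib
import Cfsg.Statements.S5568
import Cfsg.Agent.J4T.Main

set_option autoImplicit false
open Cfsg

namespace Cfsg.Agent.S5568

open Cfsg.Agent.J4T Cfsg.Agent.Spor Cfsg.Agent.Spor.MB Cfsg.Agent.Spor.J4C in
theorem orbit_eq {G : Type*} [Group G] {z : G} {W : Subgroup G} {ψ : M24 →* G} {σ : G → PG}
    {Z : Finset GolayPt → G} (h : Fr z W ψ σ Z) {s : Finset GolayPt} (h1 : Even s.card) (h2 : s.card ≤ 5) :
    {v : G | ∃ n ∈ Subgroup.normalizer (W : Set G), n * Z s * n⁻¹ = v} = Z '' {u | u.card = s.card} := by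
  ext v
  constructor
  · rintro ⟨n, hn, rfl⟩
    exact ⟨_, Finset.card_smul_finset _ _, (h.act n hn s h1).symm⟩
  · rintro ⟨u, hu, rfl⟩
    obtain ⟨g, hg, rfl⟩ := Golay.exists_smul_finset_eq (Eq.symm hu) h2
    exact ⟨_, (h.psi ⟨g, hg⟩).1, by rw [h.act _ (h.psi _).1 s h1, (h.psi _).2]⟩


/-- Let G be a finite non-abelian simple group of Janko-four type (an involution z whose centralizer H has an extraspecial largest normal 2-subgroup E of order 2^13 containing its centralizer in H, a normal subgroup N ≥ E of H with N/E of order 3 and H/N the automorphism group of M₂₂, and a subgroup P ≤ N of order 3 with C_E(P) = ⟨z⟩, N_H(P) ≠ C_H(P) and P ≤ C_H(P)′). Let V be an elementary abelian subgroup of G of order 2^11. Then under conjugation by the normalizer of V the non-identity elements of V fall into an orbit of length 1771 consisting of conjugates of z and an orbit of length 276 consisting of involutions t not conjugate to z, and for such t the centralizer of t in G lies in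 the normalizer of V. -/
theorem result {G : Type*} [Group G] [Finite G] [IsSimpleGroup G] (hG : ¬ IsMulCommutative G) (z : G) (hJ : Cfsg.IsOfJankoFourTypeAt z) (V : Subgroup G) (hV : Cfsg.IsElementaryAbelian 2 V) (hcard : Nat.card ↥V = 2 ^ 11) :
    ∃ z' t : G, z' ∈ V ∧ t ∈ V ∧ t ≠ 1 ∧ IsConj z z' ∧ ¬ IsConj z t ∧
    Set.ncard {v : G | ∃ n ∈ Subgroup.normalizer (V : Set G), n * z' * n⁻¹ = v} = 1771 ∧
    Set.ncard {v : G | ∃ n ∈ Subgroup.normalizer (V : Set G), n * t * n⁻¹ = v} = 276 ∧
    Subgroup.centralizer ({t} : Set G) ≤ Subgroup.normalizer (V : Set G) := by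
  classical
  obtain ⟨π, g, l, ψ0, s⟩ := J4T.exists_stJ_of_at hJ
  have c := s.t.m.ctx
  obtain ⟨ψ, σ, Z, f⟩ := c.fr V ⟨hV, hcard⟩
  have h4 := Spor.J4C.card_tet
  have h2 : ({none, some 0} : Finset GolayPt).card = 2 := by decide
  have e2 : (Z '' {u | u.card = 2}).ncard = 276 := by
    rw [Set.InjOn.ncard_image (s := {u : Finset GolayPt | u.card = 2}) fun a ha b hb e => f.two_inj ha hb e,
      show {u : Finset GolayPt | u.card = 2} = ↑(Finset.univ.powersetCard 2 : Finset (Finset GolayPt)) by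
        ext u; simp, Set.ncard_coe_finset, Finset.card_powersetCard, Finset.card_univ, Spor.MB.card_golayPt]
    rfl
  have e1 : (1 : G) ∉ Z '' {u | u.card = 2} := fun ⟨u, hu, e⟩ => f.two_ne hu e
  have e4 : Z '' {u | u.card = 4} = (V : Set G) \ insert 1 (Z '' {u | u.card = 2}) := by
    ext v
    constructor
    · rintro ⟨u, hu, rfl⟩
      refine ⟨f.Z_mem (J4T.even_of_four hu), ?_⟩
      rintro (e | ⟨w, hw, e⟩)
      · exact s.x.q.z_ne (isConj_one_left.1 (e ▸ f.four u hu))
      · exact f.two w hw (e ▸ f.four u hu)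
    · rintro ⟨k1, k2⟩
      rcases f.small k1 with e | ⟨u, hu | hu, e⟩
      · exact absurd (Or.inl e) k2
      · exact absurd (Or.inr ⟨u, hu, e⟩) k2
      · exact ⟨u, hu, e⟩
  refine ⟨_, _, f.Z_mem (J4T.even_of_four h4), f.Z_mem (J4T.even_of_two h2), f.two_ne h2, f.four _ h4, f.two _ h2,
    ?_, ?_, c.cent_le (f.two_ne h2) (f.two _ h2) ⟨hV, hcard⟩ (f.Z_mem (J4T.even_of_two h2))⟩
  · rw [orbit_eq f (J4T.even_of_four h4) (by omega), h4, e4, Set.ncard_sdiff, Set.ncard_insert_of_notMem e1, e2,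
      ← Nat.card_coe_set_eq, SetLike.coe_sort_coe, hcard]
    · norm_num
    · rintro v (rfl | ⟨u, hu, rfl⟩)
      · exact V.one_mem
      · exact f.Z_mem (J4T.even_of_two hu)
  · rw [orbit_eq f (J4T.even_of_two h2) (by omega), h2, e2]

end Cfsg.Agent.S5568
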