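import Mathlib
import Cfsg.Statements.S5569
import Cfsg.Agent.J4T.Main

set_option autoImplicit false
open Cfsg

namespace Cfsg.Agent.S5569

/-- Let G be a finite non-abelian simple group of Janko-four type (an involution z whose centralizer H has an extraspecial largest normal 2-subgroup E of order 2^13 containing its centralizer in H, a normal subgroup N ≥ E of H with N/E of order 3 and H/N the automorphism group of M₂₂, and a subgroup P ≤ N of order 3 with C_E(P) = ⟨z⟩, N_H(P) ≠ C_H(P) and P ≤ C_H(P)′). Then the centralizer of an involution t of G that is not conjugate to z is a split extension of an elementary abelian normal subgroup of order 2^11 by a complement isomorphic to the automorphism group of M₂₂. -/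
theorem result {G : Type*} [Group G] [Finite G] [IsSimpleGroup G] (hG : ¬ IsMulCommutative G) (z : G) (hJ : Cfsg.IsOfJankoFourTypeAt z) (t : G) (ht : orderOf t = 2) (hnc : ¬ IsConj z t) :
    ∃ V K : Subgroup G, V ≤ Subgroup.centralizer ({t} : Set G) ∧ K ≤ Subgroup.centralizer ({t} : Set G) ∧
    Subgroup.centralizer ({t} : Set G) ≤ Subgroup.normalizer (V : Set G) ∧ Cfsg.IsElementaryAbelian 2 V ∧ Nat.card ↥V = 2 ^ 11 ∧
    K ⊓ V = ⊥ ∧ K ⊔ V = Subgroup.centralizer ({t} : Set G) ∧ Nonempty (↥K ≃* MulAut ↥Cfsg.Spor.M22) := by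
  classical
  obtain ⟨π, g, l, ψ0, s⟩ := J4T.exists_stJ_of_at hJ
  have c := s.t.m.ctx
  have t1 : t ≠ 1 := by rintro rfl; simp at ht
  have h2 : ({none, some 0} : Finset GolayPt).card = 2 := by decide
  obtain ⟨W, ψ, σ, Z, hW, f, rfl⟩ : ∃ W ψ σ Z, J4T.EV W ∧ J4T.Fr z W ψ σ Z ∧ Z {none, some 0} = t := by
    obtain ⟨e, rfl⟩ := isConj_iff.1 ((s.cls t (by rw [← pow_two, ← ht, pow_orderOf_eq_one]) t1).resolve_left hnc)
    have k1 := s.t.m.ev.conj e
    obtain ⟨ψ, σ, Z, f⟩ := c.fr _ k1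
    have k2 : l 6 ∈ J4T.VG z g l := Subgroup.subset_closure ⟨6, by norm_num, rfl⟩
    obtain ⟨p, q, hpq, k3⟩ := f.exists_duad (Spor.conj_mem_map_conj e k2) t1 hnc
    obtain ⟨x, hx, k4⟩ := Spor.Golay.exists_smul_finset_eq (h2.trans (Finset.card_pair hpq).symm) (by omega)
    refine ⟨_, _, _, _, k1.conj (ψ ⟨x, hx⟩), f.conj _, ?_⟩
    rw [f.act _ (f.psi _).1 _ (J4T.even_of_two h2), (f.psi _).2, k4, k3]
  have n1 := c.cent_le t1 hnc hW (f.Z_mem (J4T.even_of_two h2))
  have n2 : W ≤ Subgroup.centralizer {Z {none, some 0}} := fun a ha =>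
    Subgroup.mem_centralizer_singleton_iff.2 (hW.comm ha (f.Z_mem (J4T.even_of_two h2)))
  have n3 : (J4T.D22.subgroupOf M24).map ψ ≤ Subgroup.centralizer {Z {none, some 0}} := by
    rintro _ ⟨x, hx, rfl⟩
    rw [Subgroup.mem_centralizer_singleton_iff, f.fix_iff (f.psi x).1 h2, (f.psi x).2]
    exact hx.2
  have n4 : Function.Injective ψ := fun x y e => Subtype.ext (by rw [← (f.psi x).2, e, (f.psi y).2])
  obtain ⟨ε, -⟩ := J4T.exists_equiv_D22
  refine ⟨W, _, n2, n3, n1, hW.1, hW.2, eq_bot_iff.2 ?_, le_antisymm (sup_le n3 n2) fun a ha => ?_,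
    ⟨((Subgroup.equivMapOfInjective _ ψ n4).symm.trans (Subgroup.subgroupOfEquivOfLe inf_le_left)).trans ε⟩⟩
  · rintro _ ⟨⟨x, -, rfl⟩, k⟩
    have k1 := (f.ker _ (f.psi x).1).2 k
    rw [(f.psi x).2] at k1
    rw [show x = 1 from Subtype.ext k1, map_one]
    exact Subgroup.one_mem _
  · have k1 := f.psi ⟨σ a, f.m24 a⟩
    rw [← mul_inv_cancel_left (ψ ⟨σ a, f.m24 a⟩) a]
    refine Subgroup.mul_mem_sup ⟨_, ⟨f.m24 a, ?_⟩, rfl⟩ ?_
    · exact (f.fix_iff (n1 ha) h2).1 (Subgroup.mem_centralizer_singleton_iff.1 ha)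
    · rw [← f.ker _ (mul_mem (inv_mem k1.1) (n1 ha)), f.hom _ (inv_mem k1.1) _ (n1 ha), f.sg_inv k1.1, k1.2,
        inv_mul_cancel]

end Cfsg.Agent.S5569
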