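import Cfsg.Statements.S5578
import Cfsg.Agent.J4T.Main
import Cfsg.Agent.J4T.Slp
import Cfsg.Agent.J4T.GL2Pres

set_option autoImplicit false
open Cfsg

namespace Cfsg.Agent.S5578

theorem pow5 : ∀ a : ZMod 23, a ≠ 0 → ∃ n : Fin 22, (5 : ZMod 23) ^ (n : ℕ) = a := by decide +kernel

theorem pow11 : (5 : ZMod 23) ^ 11 = -1 := by decide +kernel

/-- A primitive root. -/
def r5 : (ZMod 23)ˣ := ⟨5, 14, by decide +kernel, by decide +kernel⟩

theorem mem_r5 (a : (ZMod 23)ˣ) : a ∈ Subgroup.zpowers r5 := by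
  have : Fact (Nat.Prime 23) := ⟨by norm_num⟩
  obtain ⟨n, hn⟩ := pow5 a a.ne_zero
  exact ⟨(n : ℕ), Units.ext (by rw [← hn]; simp [r5])⟩

/-- Let G be a finite non-abelian simple group of Janko-four type (an involution z whose centralizer H has an extraspecial largest normal 2-subgroup E of order 2^13 containing its centralizer in H, a normal subgroup N ≥ E of H with N/E of order 3 and H/N the automorphism group of M₂₂, and a subgroup P ≤ N of order 3 with C_E(P) = ⟨z⟩, N_H(P) ≠ C_H(P) and P ≤ C_H(P)′). Then G has a subgroup isomorphic to PGL₂(23) (the general linear group of degree 2 over the integers modulo 23, modulo its centre). -/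
theorem result {G : Type*} [Group G] [Finite G] [IsSimpleGroup G] (hG : ¬ IsMulCommutative G) (hJ : Cfsg.IsOfJankoFourType G) :
    ∃ K : Subgroup G, Nonempty (↥K ≃* GL (Fin 2) (ZMod 23) ⧸ Subgroup.center (GL (Fin 2) (ZMod 23))) := by
  obtain ⟨z, π, g, l, ψ, s⟩ := J4T.exists_stJ_of_type hJ
  obtain ⟨e, -⟩ := s.exists_equiv
  obtain ⟨u, h, w, h1, h2, h3, h4, h5, h6, h7⟩ := J4T.exists_23 e
  have : Fact (Nat.Prime 23) := ⟨by norm_num⟩
  exact GL2P.exists_PGL2 mem_r5 (k := 5) (m := 11) rfl pow11 h1 h2 h3 h4 h5 h6 h7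

end Cfsg.Agent.S5578
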