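import Mathlib
import Cfsg.Statements.S5594
import Cfsg.Agent.Spor.LeechCo0
import Cfsg.Agent.S0372

set_option autoImplicit false
open Cfsg

namespace Cfsg.Agent.S5594

/-- The automorphism group of the Leech lattice contains the negation map, and the subgroup of order 2 it generates has no complement: the automorphism group is a non-split extension of its quotient by that subgroup (it is not the direct product of a group of order 2 with the first Conway group). -/
theorem result :
    ∃ n : ↥Cfsg.Co0, (∀ v : ↥Cfsg.leechLattice, ((n • v : ↥Cfsg.leechLattice) : Cfsg.GolayPt → ℤ) = -(v : Cfsg.GolayPt → ℤ)) ∧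
    ∀ K : Subgroup ↥Cfsg.Co0, ¬ (Subgroup.zpowers n).IsComplement' K := by
  open Cfsg.Agent.Spor.Leech in
  refine ⟨negOne, fun v => by rw [negOne_smul]; rfl, fun K hK => ?_⟩
  have hD : IsCode (support₂ (qrWord 0)) :=
    isCode_support.2 (Submodule.subset_span (Set.mem_union_left _ ⟨0, rfl⟩))
  let σ : M24 := ⟨projInv, S0372.result⟩
  have hσ : σ * σ = 1 := Subtype.ext (Equiv.ext (by decide))
  have hsq : (sign _ hD * perm σ) * (sign _ hD * perm σ) = negOne := by
    rw [mul_assoc, ← mul_assoc (perm σ), perm_mul_sign, mul_assoc, ← map_mul, hσ, map_one, mul_one,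
      sign_mul_sign]
    refine sign_congr _ ?_
    ext i
    simp only [Finset.mem_symmDiff, mem_smul_iff, mem_support₂, Finset.mem_univ, iff_true]
    revert i; decide
  have h2 : K.index = 2 := by
    rw [hK.index_eq_card, Nat.card_zpowers]
    exact orderOf_eq_prime (by rw [sq, negOne_mul_self]) negOne_ne_one
  have h3 : negOne ∈ K := hsq ▸ Subgroup.mul_self_mem_of_index_two h2 _
  exact negOne_ne_one (Subgroup.disjoint_def.1 hK.disjoint (Subgroup.mem_zpowers _) h3)

end Cfsg.Agent.S5594
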