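import Mathlib
import Cfsg.Agent.Spor.MB.Res
import Cfsg.Agent.Spor.WittAut
import Cfsg.Statements.S5599
-- import your own Cfsg.Agent.* helpers here

set_option autoImplicit false
open scoped Pointwise
open Cfsg

namespace Cfsg.Agent.S5599

open Cfsg.Agent.Spor Cfsg.Agent.Spor.MB MulAction



/-- In the automorphism group of the length-24 code, the two-point Mathieu group (permutations of the code's group fixing the extra point and the residue 0) has index 2 in the setwise stabiliser of that pair of points, and an element of the code's group interchanging the two points normalises the two-point group and induces on it, by conjugation, an automorphism that is not inner. -/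
theorem result (g : Equiv.Perm Cfsg.GolayPt) (hg : g ∈ Cfsg.M24) (h₁ : g none = some 0) (h₂ : g (some 0) = none) : Cfsg.Spor.M22.relIndex (Cfsg.M24 ⊓ MulAction.stabilizer (Equiv.Perm Cfsg.GolayPt) ({none, some 0} : Finset Cfsg.GolayPt)) = 2 ∧ (∀ x ∈ Cfsg.Spor.M22, g * x * g⁻¹ ∈ Cfsg.Spor.M22) ∧ ¬ ∃ h ∈ Cfsg.Spor.M22, ∀ x ∈ Cfsg.Spor.M22, g * x * g⁻¹ = h * x * h⁻¹ := by
  have hc : ({none, some 0} : Finset GolayPt).card = 2 := rfl
  have hm : ∀ x : PG, x ∈ Spor.M22 ↔ x ∈ M24 ∧ x none = none ∧ x (some 0) = some 0 := by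
    intro x
    rw [Golay.M22_eq_Fix, Golay.mem_Fix]
    simp
  refine ⟨?_, fun x hx => ?_, ?_⟩
  · rw [Golay.M22_eq_Fix]
    exact Golay.index_Fix_StabSet (T := {none, some 0}) (by rw [hc]; norm_num)
  · rw [hm] at hx ⊢
    refine ⟨conj_mem_M24 hg hx.1, ?_, ?_⟩
    · conv_lhs => rw [← h₂]
      rw [conj_apply_apply g hx.2.2, h₂]
    · conv_lhs => rw [← h₁]
      rw [conj_apply_apply g hx.2.1, h₁]
  · rintro ⟨h, hh, e⟩
    have hh' := (hm h).1 hh
    have hcm : ∀ x ∈ Spor.M22, ∀ p, (h⁻¹ * g) (x p) = x ((h⁻¹ * g) p) := by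
      intro x hx p
      have : h⁻¹ * g * x = x * (h⁻¹ * g) := by
        calc h⁻¹ * g * x = h⁻¹ * (g * x * g⁻¹) * g := by group
          _ = _ := by rw [e x hx]; group
      exact congrArg (fun f : PG => f p) this
    have c1 : (h⁻¹ * g) none = some 0 := by
      rw [Equiv.Perm.mul_apply, h₁, Equiv.Perm.inv_eq_iff_eq, hh'.2.2]
    have c2 : (h⁻¹ * g) (some 0) = none := by
      rw [Equiv.Perm.mul_apply, h₂, Equiv.Perm.inv_eq_iff_eq, hh'.2.1]
    have : h⁻¹ * g = 1 := by
      refine Golay.eq_one_of_fix_compl (T := {none, some 0}) (by rw [hc]; norm_num)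
        (M24.mul_mem (M24.inv_mem hh'.1) hg) fun p hp => ?_
      generalize h⁻¹ * g = c at *
      by_contra hne
      have hp' : c p ∉ ({none, some 0} : Finset GolayPt) := by
        simp only [Finset.mem_insert, Finset.mem_singleton, not_or] at hp ⊢
        exact ⟨fun e => hp.2 (c.injective (e.trans c2.symm)),
          fun e => hp.1 (c.injective (e.trans c1.symm))⟩
      obtain ⟨q, -, hq⟩ := Finset.exists_mem_notMem_of_card_lt_card
        (s := insert p (insert (c p) ({none, some 0} : Finset GolayPt))) (t := Finset.univ) (by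
          have h1 := Finset.card_insert_le p (insert (c p) ({none, some 0} : Finset GolayPt))
          have h2 := Finset.card_insert_le (c p) ({none, some 0} : Finset GolayPt)
          rw [Finset.card_univ, card_golayPt]; omega)
      rw [Finset.mem_insert, Finset.mem_insert, not_or, not_or] at hq
      obtain ⟨x, hx, e⟩ := Golay.exists_Fix_map_list {none, some 0} [p, c p] [p, q]
        (by simpa using Ne.symm hne) (by simpa using Ne.symm hq.1)
        (by simpa using ⟨by simpa using hp, by simpa using hp'⟩)
        (by simpa using ⟨by simpa using hp, by simpa using hq.2.2⟩) rfl (by rw [hc]; simp)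
      simp only [List.map_cons, List.map_nil, List.cons.injEq, and_true] at e
      have := hcm x (Golay.M22_eq_Fix ▸ hx) p
      rw [e.1, e.2] at this
      exact hq.2.1 this.symm
    rw [this] at c1
    exact absurd c1 (by decide)

end Cfsg.Agent.S5599
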