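import Mathlib
import Cfsg.Agent.Spor.MB.Res
import Cfsg.Statements.S5600
-- import your own Cfsg.Agent.* helpers here

set_option autoImplicit false
open scoped Pointwise
open Cfsg

namespace Cfsg.Agent.S5600

open Cfsg.Agent.Spor Cfsg.Agent.Spor.MB MulAction

theorem card_eq (E : Finset GolayPt) :
    Nat.card {g : PG // g ∈ M24 ∧ ∀ p ∈ E, g p = p} = Nat.card (Golay.Fix E) :=
  Nat.card_congr (Equiv.subtypeEquivRight fun _ => Golay.mem_Fix.symm)

/-- Although the group of the length-24 code is only 5-transitive on the 24 points, it induces the full symmetric group on every 6-element subset: every permutation of a 6-set E is the restriction of an element of the group mapping E to itself. The pointwise stabiliser of E has order 16 when E lies in an octad and order 3 otherwise; in the latter case the setwise stabiliser of E has order 2160. -/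
theorem result (E : Finset Cfsg.GolayPt) (hE : E.card = 6) : (∀ σ : Equiv.Perm ↥E, ∃ g ∈ Cfsg.M24, ∀ p : ↥E, g p = σ p) ∧ ((∃ o ∈ Cfsg.octads, E ⊆ o) → Nat.card {g : Equiv.Perm Cfsg.GolayPt // g ∈ Cfsg.M24 ∧ ∀ p ∈ E, g p = p} = 16) ∧ ((¬ ∃ o ∈ Cfsg.octads, E ⊆ o) → Nat.card {g : Equiv.Perm Cfsg.GolayPt // g ∈ Cfsg.M24 ∧ ∀ p ∈ E, g p = p} = 3 ∧ Nat.card ↥(MulAction.stabilizer Cfsg.M24 E) = 2160) := by
  refine ⟨exists_extend_six hE, ?_, fun h => ⟨?_, ?_⟩⟩
  · rintro ⟨o, ho, h⟩
    rw [card_eq, Golay.mem_Fix_octad_of_six ho h hE, Golay.card_Fix_octad ho]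
  · rw [card_eq, card_Fix_six_out hE h]
  · rw [card_stabilizer_M24, card_eq_factorial_mul (H := M24 ⊓ stabilizer PG E) (s := E) (fun _ h => h.2)
      mem_Fix_iff_stab, hE,
      card_Fix_six_out hE h]
    · rfl
    · intro σ
      obtain ⟨g, hg, e⟩ := exists_extend_six hE σ
      exact ⟨⟨g, hg, smul_eq_of_forall_mem fun p hp => by
        rw [e ⟨p, hp⟩]; exact (σ ⟨p, hp⟩).2⟩, Equiv.ext fun x => Subtype.ext (e x)⟩

end Cfsg.Agent.S5600
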