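import Mathlib
import Cfsg.Agent.Spor.MB.Classes
import Cfsg.Statements.S5601
-- import your own Cfsg.Agent.* helpers here

set_option autoImplicit false
open scoped Pointwise
open Cfsg

namespace Cfsg.Agent.S5601

open Cfsg.Agent.Spor Cfsg.Agent.Spor.MB MulAction

theorem exists_gen {X : Subgroup M24} (h : Nat.card X = 3) :
    ∃ x : M24, orderOf (x : PG) = 3 ∧ Subgroup.zpowers x = X := by
  have : Fact (Nat.Prime 3) := ⟨by norm_num⟩
  have := isCyclic_of_prime_card h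
  obtain ⟨x, hx⟩ := X.isCyclic_iff_exists_zpowers_eq_top.1 this
  refine ⟨x, ?_, hx⟩
  rw [Subgroup.orderOf_coe, ← Nat.card_zpowers, hx, h]

theorem ncard_fix (x : M24) :
    {p : GolayPt | ∀ y ∈ Subgroup.zpowers x, ((y : M24) : PG) p = p}.ncard =
      (fixSet x).card := by
  rw [← Set.ncard_coe_finset]
  congr 1
  ext p
  simp only [Set.mem_ofPred_eq, Finset.mem_coe, mem_fixSet]
  exact ⟨fun h => h x (Subgroup.mem_zpowers x),
    fun h y hy => (Subgroup.zpowers_le (H := stabilizer M24 p)).2 h hy⟩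

theorem ncard_fix' {x : PG} (hx : x ∈ M24) :
    {p : GolayPt | ∀ y ∈ Subgroup.zpowers (⟨x, hx⟩ : M24), ((y : M24) : PG) p = p}.ncard =
      (fixSet x).card := ncard_fix _

theorem card_zp (x : M24) : Nat.card (Subgroup.zpowers x) = orderOf (x : PG) := by
  rw [Subgroup.orderOf_coe, Nat.card_zpowers]

theorem conj_zp {x y k : M24} (h : (k : PG) * x * (k : PG)⁻¹ = y) :
    MulAut.conj k • Subgroup.zpowers x = Subgroup.zpowers y := by
  have : k * x * k⁻¹ = y := Subtype.ext h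
  rw [← this]
  exact MonoidHom.map_zpowers _ _

/-- The group of the length-24 code has exactly two conjugacy classes of subgroups of order 3: a subgroup of order 3 fixes either exactly 6 of the 24 points or none of them, both cases occur, and two subgroups of order 3 with the same number of fixed points are conjugate. -/
theorem result : (∀ X : Subgroup ↥Cfsg.M24, Nat.card X = 3 → {p : Cfsg.GolayPt | ∀ x ∈ X, ((x : ↥Cfsg.M24) : Equiv.Perm Cfsg.GolayPt) p = p}.ncard = 6 ∨ {p : Cfsg.GolayPt | ∀ x ∈ X, ((x : ↥Cfsg.M24) : Equiv.Perm Cfsg.GolayPt) p = p}.ncard = 0) ∧ (∃ X : Subgroup ↥Cfsg.M24, Nat.card X = 3 ∧ {p : Cfsg.GolayPt | ∀ x ∈ X, ((x : ↥Cfsg.M24) : Equiv.Perm Cfsg.GolayPt) p = p}.ncard = 6) ∧ (∃ X : Subgroup ↥Cfsg.M24, Nat.card X = 3 ∧ {p : Cfsg.GolayPt | ∀ x ∈ X, ((x : ↥Cfsg.M24) : Equiv.Perm Cfsg.GolayPt) p = p}.ncard = 0) ∧ ∀ X Y : Subgroup ↥Cfsg.M24, Nat.card X = 3 → Nat.card Y = 3 → {p : Cfsg.GolayPt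 | ∀ x ∈ X, ((x : ↥Cfsg.M24) : Equiv.Perm Cfsg.GolayPt) p = p}.ncard = {p : Cfsg.GolayPt | ∀ x ∈ Y, ((x : ↥Cfsg.M24) : Equiv.Perm Cfsg.GolayPt) p = p}.ncard → ∃ k : ↥Cfsg.M24, MulAut.conj k • X = Y := by
  refine ⟨fun X hX => ?_, ⟨Subgroup.zpowers ⟨tA, tA_mem⟩, ?_, ?_⟩,
    ⟨Subgroup.zpowers ⟨tB, tB_mem⟩, ?_, ?_⟩, fun X Y hX hY e => ?_⟩
  · obtain ⟨x, hx, rfl⟩ := exists_gen hX
    rw [ncard_fix]
    exact card_fixSet_three x.2 hx
  · exact (card_zp _).trans orderOf_tA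
  · exact (ncard_fix' _).trans card_fixSet_tA
  · exact (card_zp _).trans orderOf_tB
  · exact (ncard_fix' _).trans card_fixSet_tB
  · obtain ⟨x, hx, rfl⟩ := exists_gen hX
    obtain ⟨y, hy, rfl⟩ := exists_gen hY
    rw [ncard_fix, ncard_fix] at e
    by_cases h0 : (fixSet x).card = 0
    · obtain ⟨a, ha, e1⟩ := conj_tB_of_card x.2 hx (by omega)
      obtain ⟨b, hb, e2⟩ := conj_tB_of_card y.2 hy (by omega)
      exact ⟨⟨b * a⁻¹, M24.mul_mem hb (M24.inv_mem ha)⟩, conj_zp (by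
        rw [← e1, ← e2]; simp only; group)⟩
    · obtain ⟨a, ha, e1⟩ := conj_tA_of_card x.2 hx h0
      obtain ⟨b, hb, e2⟩ := conj_tA_of_card y.2 hy (by omega)
      exact ⟨⟨b * a⁻¹, M24.mul_mem hb (M24.inv_mem ha)⟩, conj_zp (by
        rw [← e1, ← e2]; simp only; group)⟩

end Cfsg.Agent.S5601
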