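import Mathlib
import Cfsg.Agent.Spor.MB.Cent
import Cfsg.Statements.S5604
-- import your own Cfsg.Agent.* helpers here

set_option autoImplicit false
open scoped Pointwise
open Cfsg

namespace Cfsg.Agent.S5604

open Cfsg.Agent.Spor Cfsg.Agent.Spor.MB MulAction

theorem mem_zp {x y : M24} : x ∈ Subgroup.zpowers y ↔ (x : PG) ∈ Subgroup.zpowers (y : PG) := by
  simp only [Subgroup.mem_zpowers_iff, Subtype.ext_iff, Subgroup.coe_zpow]

theorem mem_N {y n : M24} :
    n ∈ Subgroup.normalizer (Subgroup.zpowers y : Set M24) ↔ (n : PG) ∈ NZ y := by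
  rw [mem_normalizer_zpowers_iff, mem_NZ, mem_zp]
  simp

theorem mem_C {y n : M24} :
    n ∈ Subgroup.centralizer (Subgroup.zpowers y : Set M24) ↔ (n : PG) ∈ CZ y := by
  rw [Subgroup.zpowers_eq_closure, Subgroup.centralizer_closure,
    Subgroup.mem_centralizer_singleton_iff, mem_CZ, Subtype.ext_iff]
  simp

theorem noncomm : ∃ a ∈ CZ x7, ∃ b ∈ CZ x7, a * b ≠ b * a := by
  have h := gens_CZ code_x7 (gs := [51402648165853364499955257763247840, 975281115872276426867823831058535425]) (by decide +kernel)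
  obtain ⟨a, ha, e1⟩ := h 51402648165853364499955257763247840 (by simp)
  obtain ⟨b, hb, e2⟩ := h 975281115872276426867823831058535425 (by simp)
  refine ⟨a, ha, b, hb, ?_⟩
  rw [Ne, ← comm_iff, e1, e2]
  decide +kernel

/-- For a subgroup S of order 7 of the group of the length-24 code (a Sylow 7-subgroup): the normaliser of S has order 126, the centraliser of S has order 42 and is non-abelian, and the whole normaliser leaves some trio invariant. (These are the orders of a Frobenius group of order 21 times a symmetric group of degree 3; the isomorphism type itself is not asserted here.) -/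
theorem result (S : Subgroup ↥Cfsg.M24) (hS : Nat.card S = 7) : Nat.card ↥(Subgroup.normalizer (S : Set ↥Cfsg.M24)) = 126 ∧ Nat.card ↥(Subgroup.centralizer (S : Set ↥Cfsg.M24)) = 42 ∧ (∃ x ∈ Subgroup.centralizer (S : Set ↥Cfsg.M24), ∃ y ∈ Subgroup.centralizer (S : Set ↥Cfsg.M24), x * y ≠ y * x) ∧ ∃ T ∈ Cfsg.trios, ∀ n ∈ Subgroup.normalizer (S : Set ↥Cfsg.M24), ((n : ↥Cfsg.M24) : Equiv.Perm Cfsg.GolayPt) • T = T := by
  obtain ⟨y, hy, rfl⟩ := exists_generator (by norm_num) hS
  rw [← Subgroup.orderOf_coe] at hy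
  obtain ⟨k, hk, h⟩ := exists_conj_mem_zpowers_x7 y.2 hy
  have hz : Subgroup.zpowers (y : PG) = Subgroup.zpowers (k⁻¹ * x7 * k⁻¹⁻¹) := by
    apply zpowers_eq_of_mem
    · rw [← conj_mem_zpowers_conj_iff k]
      convert h using 2
      group
    · rw [orderOf_conj', hy, orderOf_x7]
  have hk' := M24.inv_mem hk
  generalize k⁻¹ = j at hz hk'
  refine ⟨?_, ?_, ?_, j • T7, smul_mem_trios hk' T7_mem, fun n hn => ?_⟩
  · rw [card_eq_of_M24 _ _ (NZ_le _) fun _ => mem_N, NZ_eq_of_zpowers_eq hz, card_NZ_conj hk',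
      card_NZ_x7]
  · rw [card_eq_of_M24 _ _ (CZ_le _) fun _ => mem_C, CZ_eq_of_zpowers_eq hz, card_CZ_conj hk',
      card_CZ_x7]
  · obtain ⟨a, ha, b, hb, hne⟩ := noncomm
    refine ⟨⟨_, conj_mem_M24 hk' ha.1⟩, mem_C.2 ?_, ⟨_, conj_mem_M24 hk' hb.1⟩, mem_C.2 ?_, ?_⟩
    · rw [CZ_eq_of_zpowers_eq hz]; exact (conj_mem_CZ_iff hk' _ _).2 ha
    · rw [CZ_eq_of_zpowers_eq hz]; exact (conj_mem_CZ_iff hk' _ _).2 hb
    · intro e
      have := congrArg Subtype.val e
      simp only [Subgroup.coe_mul, conj_mul, mul_left_inj, mul_right_inj] at this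
      exact hne this
  · rw [mem_N, NZ_eq_of_zpowers_eq hz] at hn
    have e : (n : PG) = j * (j⁻¹ * n * j) * j⁻¹ := by group
    rw [e] at hn ⊢
    exact conj_smul_smul j (NZ_x7_le ((conj_mem_NZ_iff hk' _ _).1 hn)).2

end Cfsg.Agent.S5604
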