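import Mathlib
import Cfsg.Agent.Spor.MB.Cent
import Cfsg.Statements.S5607
-- import your own Cfsg.Agent.* helpers here

set_option autoImplicit false
open scoped Pointwise
open Cfsg

namespace Cfsg.Agent.S5607

open Cfsg.Agent.Spor Cfsg.Agent.Spor.MB MulAction



/-- For a fixed-point-free involution t of the group of the length-24 code: its centraliser in that group has order 7680, is transitive on the 24 points, and is contained, together with t, in the stabiliser of some sextet. -/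
theorem result (t : Equiv.Perm Cfsg.GolayPt) (ht : t ∈ Cfsg.M24) (h₂ : orderOf t = 2) (h₀ : ∀ p, t p ≠ p) : Nat.card {c : Equiv.Perm Cfsg.GolayPt // c ∈ Cfsg.M24 ∧ c * t = t * c} = 7680 ∧ (∀ p q : Cfsg.GolayPt, ∃ c ∈ Cfsg.M24, c * t = t * c ∧ c p = q) ∧ ∃ S ∈ Cfsg.sextets, t • S = S ∧ ∀ c ∈ Cfsg.M24, c * t = t * c → c • S = S := by
  obtain ⟨k, hk, rfl⟩ := conj_zB_of_card ht h₂ (by rw [fixSet_eq_empty_iff.2 h₀]; simp)
  refine ⟨?_, fun p q => ?_, k • S0, smul_mem_sextets hk S0_mem, ?_, fun c hc h => ?_⟩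
  · rw [← card_CZ_zB, ← card_CZ_conj hk]
    exact Nat.card_congr (Equiv.subtypeEquivRight fun _ => mem_CZ.symm)
  · have h := pt_trans gens_gCB (i := 0) (by norm_num) 24 16777215 (by decide +kernel)
    rw [unmask_full] at h
    obtain ⟨p, rfl⟩ := exists_eq_apply k p
    obtain ⟨q, rfl⟩ := exists_eq_apply k q
    obtain ⟨a, ha, rfl⟩ := h p (Finset.mem_univ _)
    obtain ⟨b, hb, rfl⟩ := h q (Finset.mem_univ _)
    have := mem_CZ.1 ((conj_mem_CZ_iff hk zB _).2 ((CZ zB).mul_mem hb ((CZ zB).inv_mem ha)))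
    exact ⟨_, this.1, this.2, conj_apply_apply k (by simp)⟩
  · exact conj_smul_smul k (CZ_zB_le (mem_CZ.2 ⟨zB_mem, rfl⟩)).2
  · have e : c = k * (k⁻¹ * c * k) * k⁻¹ := by group
    have h' : c ∈ CZ (k * zB * k⁻¹) := mem_CZ.2 ⟨hc, h⟩
    rw [e] at h' ⊢
    exact conj_smul_smul k (CZ_zB_le ((conj_mem_CZ_iff hk zB _).1 h')).2

end Cfsg.Agent.S5607
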