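import Mathlib
import Cfsg.Agent.Spor.MB.Cent
import Cfsg.Statements.S5608
-- import your own Cfsg.Agent.* helpers here

set_option autoImplicit false
open scoped Pointwise
open Cfsg

namespace Cfsg.Agent.S5608

open Cfsg.Agent.Spor Cfsg.Agent.Spor.MB MulAction

theorem fix_A {x : PG} (hx : x ∈ CZ zA) (h : orderOf x = 3) :
    (fixSet x).card = 6 := by
  have : Fact (Nat.Prime 3) := ⟨by norm_num⟩
  obtain ⟨y, hy, e⟩ := gens_CZ code_zA (gs := [732985217612123065637850834012375075]) (by decide +kernel) _
    (List.mem_singleton_self _)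
  rw [card_fixSet_of_sylow (by norm_num) hy
    (orderOf_of_code (by rw [e]; decide +kernel) (by rw [e]; decide +kernel))
    (by rw [card_CZ_zA]; exact factorization_eq_of (by norm_num) (by norm_num) (by norm_num)) hx h,
    fixSet_eq (m := 2162774) (by rw [e]; decide +kernel)]
  decide +kernel

theorem fix_B {x : PG} (hx : x ∈ CZ zB) (h : orderOf x = 3) :
    (fixSet x).card = 0 := by
  have : Fact (Nat.Prime 3) := ⟨by norm_num⟩
  obtain ⟨y, hy, e⟩ := gens_CZ code_zB (gs := [186112110010558132126273556174264845]) (by decide +kernel) _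
    (List.mem_singleton_self _)
  rw [card_fixSet_of_sylow (by norm_num) hy
    (orderOf_of_code (by rw [e]; decide +kernel) (by rw [e]; decide +kernel))
    (by rw [card_CZ_zB]; exact factorization_eq_of (by norm_num) (by norm_num) (by norm_num)) hx h,
    fixSet_eq (m := 0) (by rw [e]; decide +kernel)]
  decide +kernel


/-- If an element of order 3 and an involution of the group of the length-24 code commute, then either the element of order 3 has exactly 6 fixed points and the involution exactly 8, or both are fixed-point-free. -/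
theorem result (x s : Equiv.Perm Cfsg.GolayPt) (hx : x ∈ Cfsg.M24) (hs : s ∈ Cfsg.M24) (h₃ : orderOf x = 3) (h₂ : orderOf s = 2) (hc : Commute x s) : ((Finset.univ.filter fun p => x p = p).card = 6 ∧ (Finset.univ.filter fun p => s p = p).card = 8) ∨ ((Finset.univ.filter fun p => x p = p).card = 0 ∧ (Finset.univ.filter fun p => s p = p).card = 0) := by
  have e : ∀ k : PG, x = k * (k⁻¹ * x * k) * k⁻¹ := fun k => by group
  have h' : x ∈ CZ s := mem_CZ.2 ⟨hx, hc.eq⟩
  rcases involution_classes hs h₂ with ⟨k, hk, rfl⟩ | ⟨k, hk, rfl⟩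
  · left
    rw [e k] at h' h₃
    rw [orderOf_conj'] at h₃
    refine ⟨?_, (card_fixSet_conj k zA).trans card_fixSet_zA⟩
    rw [e k]
    exact (card_fixSet_conj k _).trans (fix_A ((conj_mem_CZ_iff hk _ _).1 h') h₃)
  · right
    rw [e k] at h' h₃
    rw [orderOf_conj'] at h₃
    refine ⟨?_, (card_fixSet_conj k zB).trans card_fixSet_zB⟩
    rw [e k]
    exact (card_fixSet_conj k _).trans (fix_B ((conj_mem_CZ_iff hk _ _).1 h') h₃)

end Cfsg.Agent.S5608
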