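import Mathlib
import Cfsg.Agent.Spor.MB.SmallOrb
import Cfsg.Statements.S5609
-- import your own Cfsg.Agent.* helpers here

set_option autoImplicit false
open scoped Pointwise
open Cfsg

namespace Cfsg.Agent.S5609

open Cfsg.Agent.Spor Cfsg.Agent.Spor.MB MulAction

theorem disj_iff {s t : Finset GolayPt} : Disjoint s t ↔ (s ∩ t).card = 0 := by
  rw [Finset.card_eq_zero, Finset.disjoint_iff_inter_eq_empty]

theorem adj_iff {a b : octads} : (blockGraph octads).Adj a b ↔ Disjoint a.1 b.1 := by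
  rw [blockGraph, SimpleGraph.fromRel_adj]
  constructor
  · rintro ⟨-, h | h⟩
    exacts [h, h.symm]
  · intro h
    exact ⟨fun e => octad_ne_of_disjoint a.2 h (congrArg Subtype.val e), Or.inl h⟩

theorem exists_pair {o o' r : Finset GolayPt} (ho : o ∈ octads) (ho' : o' ∈ octads)
    (hr : r ∈ octads) (h : (O0 ∩ r).card = (o ∩ o').card) :
    ∃ g ∈ M24, g • O0 = o ∧ g • r = o' := by
  obtain ⟨g, hg, rfl⟩ := exists_smul_O0 ho
  obtain ⟨k, hk, e1, e2⟩ := octad_pair_trans ho ((smul_mem_octads_iff hg).2 hr) ho'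
    (by rw [card_smul_inter, h])
  exact ⟨k * g, M24.mul_mem hk hg, by rw [mul_smul, e1], by rw [mul_smul, e2]⟩

theorem mid_four {o o' : Finset GolayPt} (ho : o ∈ octads) (ho' : o' ∈ octads)
    (h : (o ∩ o').card = 4) : ∃ m ∈ octads, Disjoint o m ∧ Disjoint o' m := by
  obtain ⟨g, hg, rfl, rfl⟩ := exists_pair ho ho' (r := unmask 13062145)
    (unmask_mem_octads (by decide +kernel) (by decide +kernel)) (by rw [h]; decide +kernel)
  exact ⟨g • unmask 3704512, (smul_mem_octads_iff hg).2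
    (unmask_mem_octads (by decide +kernel) (by decide +kernel)),
    (disjoint_smul_iff g).2 (by decide +kernel), (disjoint_smul_iff g).2 (by decide +kernel)⟩

theorem mid_two {o o' : Finset GolayPt} (ho : o ∈ octads) (ho' : o' ∈ octads)
    (h : (o ∩ o').card = 2) : ∃ m ∈ octads, Disjoint o m ∧ (m ∩ o').card = 4 := by
  obtain ⟨g, hg, rfl, rfl⟩ := exists_pair ho ho' (r := unmask 4845570)
    (unmask_mem_octads (by decide +kernel) (by decide +kernel)) (by rw [h]; decide +kernel)
  exact ⟨g • unmask 6889680, (smul_mem_octads_iff hg).2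
    (unmask_mem_octads (by decide +kernel) (by decide +kernel)),
    (disjoint_smul_iff g).2 (by decide +kernel), by rw [card_smul_inter]; decide +kernel⟩

theorem no_mid_two {o o' m : Finset GolayPt} (ho : o ∈ octads) (ho' : o' ∈ octads)
    (hm : m ∈ octads) (h : (o ∩ o').card = 2) (h1 : Disjoint o m) (h2 : Disjoint o' m) :
    False := by
  have h3 := compl_union_mem_octads ho hm h1
  have h4 : o' \ o ⊆ o' ∩ (o ∪ m)ᶜ := by
    intro p hp
    rw [Finset.mem_sdiff] at hp
    simp [hp.1, hp.2, Finset.disjoint_left.1 h2 hp.1]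
  have h5 := Finset.card_sdiff_add_card_inter o' o
  rw [Finset.inter_comm, h, ho'.2] at h5
  have h6 := Finset.card_le_card h4
  have e := octad_unique ho' h3 (by omega)
  have : o ∩ o' = ∅ := by
    rw [e]; ext p; simp +contextual
  rw [this] at h
  simp at h

theorem walk_two {a b : octads} (h : (a.1 ∩ b.1).card = 4) :
    ∃ w : (blockGraph octads).Walk a b, w.length = 2 := by
  obtain ⟨m, hm, h1, h2⟩ := mid_four a.2 b.2 h
  exact ⟨.cons (adj_iff.2 h1 : (blockGraph octads).Adj a ⟨m, hm⟩)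
    (.cons (adj_iff.2 h2.symm : (blockGraph octads).Adj ⟨m, hm⟩ b) .nil), rfl⟩

theorem walk_three {a b : octads} (h : (a.1 ∩ b.1).card = 2) :
    ∃ w : (blockGraph octads).Walk a b, w.length = 3 := by
  obtain ⟨m, hm, h1, h2⟩ := mid_two a.2 b.2 h
  obtain ⟨w, hw⟩ := walk_two (a := ⟨m, hm⟩) (b := b) h2
  exact ⟨.cons (adj_iff.2 h1 : (blockGraph octads).Adj a ⟨m, hm⟩) w, by simp [hw]⟩

theorem conn : (blockGraph octads).Connected := by
  have : Nonempty octads := ⟨⟨O0, O0_mem⟩⟩
  refine ⟨fun a b => ?_⟩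
  rcases octad_inter_cases a.2 b.2 with h | h | h | h
  · exact (adj_iff.2 (disj_iff.2 h)).reachable
  · exact (walk_three h).elim fun w _ => ⟨w⟩
  · exact (walk_two h).elim fun w _ => ⟨w⟩
  · rw [Subtype.ext h]

theorem dist_four {a b : octads} (hne : a ≠ b) (h : (a.1 ∩ b.1).card = 4) :
    (blockGraph octads).dist a b = 2 := by
  obtain ⟨w, hw⟩ := walk_two h
  have h1 := SimpleGraph.dist_le w
  have h2 := conn.one_lt_dist_of_ne_of_not_adj hne (by rw [adj_iff, disj_iff, h]; norm_num)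
  omega

theorem dist_two {a b : octads} (hne : a ≠ b) (h : (a.1 ∩ b.1).card = 2) :
    (blockGraph octads).dist a b = 3 := by
  obtain ⟨w, hw⟩ := walk_three h
  have h1 := SimpleGraph.dist_le w
  have h2 := conn.one_lt_dist_of_ne_of_not_adj hne (by rw [adj_iff, disj_iff, h]; norm_num)
  have h3 : (blockGraph octads).dist a b ≠ 2 := by
    intro e
    have := (conn.preconnected a b).coe_dist_eq_edist
    rw [e] at this
    obtain ⟨-, -, m, hm⟩ := SimpleGraph.edist_eq_two_iff.1 this.symm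
    rw [SimpleGraph.mem_commonNeighbors, adj_iff, adj_iff] at hm
    exact no_mid_two a.2 b.2 m.2 h hm.1 hm.2
  omega

/-- In the graph on the 759 octads of the length-24 code in which two octads are adjacent when they are disjoint, the graph is connected (of diameter 3) and two distinct octads are at distance 1, 2 or 3 exactly when they meet in 0, 4 or 2 points respectively. -/
theorem result (o o' : Finset Cfsg.GolayPt) (ho : o ∈ Cfsg.octads) (ho' : o' ∈ Cfsg.octads) (hne : o ≠ o') : (Cfsg.blockGraph Cfsg.octads).Connected ∧ ((Cfsg.blockGraph Cfsg.octads).dist ⟨o, ho⟩ ⟨o', ho'⟩ = 1 ↔ (o ∩ o').card = 0) ∧ ((Cfsg.blockGraph Cfsg.octads).dist ⟨o, ho⟩ ⟨o', ho'⟩ = 2 ↔ (o ∩ o').card = 4) ∧ ((Cfsg.blockGraph Cfsg.octads).dist ⟨o, ho⟩ ⟨o', ho'⟩ = 3 ↔ (o ∩ o').card = 2) := by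
  have hne' : (⟨o, ho⟩ : octads) ≠ ⟨o', ho'⟩ := fun e => hne (congrArg Subtype.val e)
  refine ⟨conn, ?_⟩
  rcases octad_inter_cases ho ho' with h | h | h | h
  · have : (blockGraph octads).dist ⟨o, ho⟩ ⟨o', ho'⟩ = 1 :=
      SimpleGraph.dist_eq_one_iff_adj.2 (adj_iff.2 (disj_iff.2 h))
    simp [this, h]
  · simp [dist_two hne' h, h]
  · simp [dist_four hne' h, h]
  · exact absurd h hne

end Cfsg.Agent.S5609
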