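import Mathlib
import Cfsg.Agent.Spor.MB.OctOrb
import Cfsg.Statements.S5613
-- import your own Cfsg.Agent.* helpers here

set_option autoImplicit false
open scoped Pointwise
open Cfsg

namespace Cfsg.Agent.S5613

open Cfsg.Agent.Spor Cfsg.Agent.Spor.MB MulAction

theorem card_inf_eq (o o' : Finset GolayPt) :
    Nat.card ↥(stabilizer M24 o ⊓ stabilizer M24 o') =
      Nat.card ↥((M24 ⊓ stabilizer PG o) ⊓ stabilizer PG o') := by
  have : stabilizer M24 o ⊓ stabilizer M24 o' =
      ((M24 ⊓ stabilizer PG o) ⊓ stabilizer PG o').subgroupOf M24 := by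
    ext h; simp [Subgroup.mem_subgroupOf, Subgroup.smul_def]
  rw [this]
  exact Nat.card_congr (Subgroup.subgroupOfEquivOfLe (inf_le_left.trans inf_le_left)).toEquiv

theorem key {o o' : Finset GolayPt} (ho : o ∈ octads) (ho' : o' ∈ octads) (i : Fin 4)
    (h : (o ∩ o').card = ![0, 2, 4, 8] i) :
    322560 = ![30, 448, 280, 1] i * Nat.card ↥(stabilizer M24 o ⊓ stabilizer M24 o') := by
  rw [card_inf_eq, ← octad_inter_count ho i, ← card_stab_octad ho]
  refine card_inf_stabilizer (fun g hg => ⟨(smul_mem_octads_iff hg.1).2 ho', ?_⟩) ?_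
  · rw [card_inter_of_fix hg.2, h]
  · intro y hy
    obtain ⟨g, h1, h2, h3⟩ := octad_pair_trans ho ho' hy.1 (h.trans hy.2.symm)
    exact ⟨g, ⟨h1, h2⟩, h3⟩

/-- In the group of the length-24 code, the joint stabiliser of two octads has order 10752, 1152 or 720 according as the octads meet in 0, 4 or 2 points. -/
theorem result (o o' : Finset Cfsg.GolayPt) (ho : o ∈ Cfsg.octads) (ho' : o' ∈ Cfsg.octads) : ((o ∩ o').card = 0 → Nat.card ↥(MulAction.stabilizer Cfsg.M24 o ⊓ MulAction.stabilizer Cfsg.M24 o') = 10752) ∧ ((o ∩ o').card = 4 → Nat.card ↥(MulAction.stabilizer Cfsg.M24 o ⊓ MulAction.stabilizer Cfsg.M24 o') = 1152) ∧ ((o ∩ o').card = 2 → Nat.card ↥(MulAction.stabilizer Cfsg.M24 o ⊓ MulAction.stabilizer Cfsg.M24 o') = 720) := by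
  exact ⟨fun h => eq_of_eq_mul (key ho ho' 0 h) (by decide) (by decide),
    fun h => eq_of_eq_mul (key ho ho' 2 h) (by decide) (by decide),
    fun h => eq_of_eq_mul (key ho ho' 1 h) (by decide) (by decide)⟩

end Cfsg.Agent.S5613
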