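import Mathlib
import Cfsg.Agent.Spor.MB.Res
import Cfsg.Agent.S5613
import Cfsg.Statements.S5614
-- import your own Cfsg.Agent.* helpers here

set_option autoImplicit false
open scoped Pointwise
open Cfsg

namespace Cfsg.Agent.S5614

open Cfsg.Agent.Spor Cfsg.Agent.Spor.MB MulAction

theorem base : Nonempty (↥(stabilizer M24 O0 ⊓ stabilizer M24 (unmask 4845570)) ≃* Equiv.Perm (Fin 6)) := by
  have h1 : unmask 4845570 ∈ octads := unmask_mem_octads (by decide +kernel) (by decide +kernel)
  have e := equivOfM24 (stabilizer M24 O0 ⊓ stabilizer M24 (unmask 4845570))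
    (Stab [8536111, 4845570]) (Stab_le _) (fun x => by
      simp [mem_Stab, mem_stabilizer_iff, Subgroup.smul_def])
  have hc : Nat.card (Stab [8536111, 4845570]) = 720 := by
    rw [← Nat.card_congr e.toEquiv]
    exact (S5613.result O0 _ O0_mem h1).2.2 (by decide +kernel)
  have hs : ∀ g ∈ Stab [8536111, 4845570], g • unmask 8519725 = unmask 8519725 := by
    intro g hg
    have : unmask 8519725 = unmask 8536111 \ unmask 4845570 := by decide +kernel
    rw [this, ← smul_sdiff, Stab_smul hg (by simp), Stab_smul hg (by simp)]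
  have hb := bsgs_mul_le ptD (H := Stab [8536111, 4845570]) (gs := [726075268152137572429320894380345792, 722183687820921496863493162820274208, 140481819098549004829856108969626048, 726361758854800082251207655762400288, 236622954091462387382469670920543281])
    (gens_Stab (by decide +kernel)) [(0, 5, 0x53315), (2, 5, 0x30124), (3, 3, 0x123), (5, 2, 0x12), (17, 1, 0x1)] 720 (by decide +kernel)
  have hb' : Stab [8536111, 4845570] ⊓ fixAll ptD [0, 2, 3, 5, 17] = ⊥ :=
    Subgroup.eq_bot_of_card_le _ (Nat.le_of_mul_le_mul_left (hb.trans (by rw [hc])) (by norm_num))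
  have hinj : Function.Injective (resH _ _ hs) := by
    rw [← MonoidHom.ker_eq_bot_iff, eq_bot_iff]
    intro g hg
    rw [mem_ker_resH] at hg
    have : (g : PG) ∈ Stab [8536111, 4845570] ⊓ fixAll ptD [0, 2, 3, 5, 17] :=
      ⟨g.2, fun m hm => hg _ (by revert m; decide +kernel)⟩
    rw [hb'] at this
    exact Subtype.ext this
  have h6 : (unmask 8519725).card = 6 := by decide +kernel
  have hbij : Function.Bijective (resH _ _ hs) :=
    (Nat.bijective_iff_injective_and_card _).2 ⟨hinj, by
      rw [hc, Nat.card_perm, Nat.card_eq_fintype_card, Fintype.card_coe, h6]; rfl⟩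
  exact ⟨(e.trans (MulEquiv.ofBijective _ hbij)).trans
    (Finset.equivFinOfCardEq h6).permCongrHom⟩

/-- In the group of the length-24 code, the joint stabiliser of two octads meeting in exactly two points is isomorphic to the symmetric group of degree 6. -/
theorem result (o o' : Finset Cfsg.GolayPt) (ho : o ∈ Cfsg.octads) (ho' : o' ∈ Cfsg.octads) (h₂ : (o ∩ o').card = 2) : Nonempty (↥(MulAction.stabilizer Cfsg.M24 o ⊓ MulAction.stabilizer Cfsg.M24 o') ≃* Equiv.Perm (Fin 6)) := by
  have h1 : unmask 4845570 ∈ octads := unmask_mem_octads (by decide +kernel) (by decide +kernel)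
  obtain ⟨a, ha, rfl⟩ := exists_smul_O0 ho
  obtain ⟨b, hb, e1, e2⟩ := octad_pair_trans ho ((smul_mem_octads_iff ha).2 h1) ho'
    (by rw [card_smul_inter, h₂]; decide +kernel)
  obtain ⟨e⟩ := base
  refine ⟨(equivOfConj (⟨b * a, M24.mul_mem hb ha⟩ : M24) fun x => ?_).symm.trans e⟩
  simp only [Subgroup.mem_inf, mem_stabilizer_iff, Subgroup.smul_def, Subgroup.coe_mul,
    Subgroup.coe_inv]
  rw [← e1, ← e2, ← mul_smul b a, ← mul_smul b a, conj_smul_smul_iff, conj_smul_smul_iff]

end Cfsg.Agent.S5614
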