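import Mathlib
import Cfsg.Agent.Spor.MB.Fam
import Cfsg.Statements.S5615
-- import your own Cfsg.Agent.* helpers here

set_option autoImplicit false
open scoped Pointwise
open Cfsg

namespace Cfsg.Agent.S5615

open Cfsg.Agent.Spor Cfsg.Agent.Spor.MB MulAction

theorem mem_smul_of_fix {g : PG} {o : Finset GolayPt} (h : g • o = o)
    {T : Finset (Finset GolayPt)} (ho : o ∈ T) : o ∈ g • T := by
  rw [← h]; exact Finset.smul_mem_smul_finset ho

theorem O0_mem_T0 : O0 ∈ T0 := mem_fam.2 ⟨_, by simp, rfl⟩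

theorem trans1 : ∀ T ∈ {T | T ∈ trios ∧ O0 ∈ T}, ∃ g ∈ M24 ⊓ stabilizer PG O0, g • T0 = T :=
  trioM.trans inf_le_left gens_gO0 (trioM_R (by decide +kernel)) 15 22 0x2000000001111112111111
    (by decide +kernel) (Set.toFinite _)
    (fun g hg => ⟨smul_mem_trios hg.1 T0_mem, mem_smul_of_fix hg.2 O0_mem_T0⟩)
    (ncard_trios_mem O0_mem).le

theorem trans2 : ∀ T ∈ {T | T ∈ trios ∧ O0 ∈ T} \ {T0},
    ∃ g ∈ M24 ⊓ stabilizer PG O0 ⊓ stabilizer PG T0, g • fam [8536111, 337856, 7903248] = T :=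
  trioM.trans (inf_le_left.trans inf_le_left) (gs := [217640926117511501400368412245476386, 234282533549738230156440647530251267])
    ((gens_stabSet (by decide +kernel)).inf_stabFam (by decide +kernel))
    (trioM_R (by decide +kernel)) 14 16 0x1121120002112211
    (by decide +kernel) (Set.toFinite _)
    (fun g hg => ⟨⟨smul_mem_trios hg.1.1 (fam_mem_trios (by decide +kernel)),
      mem_smul_of_fix hg.1.2 (mem_fam.2 ⟨_, by simp, rfl⟩)⟩, fun e => by
        have e' : g • fam [8536111, 337856, 7903248] = g • T0 := e.trans hg.2.symm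
        exact absurd (smul_left_cancel g e') (by decide +kernel)⟩)
    (by
      rw [Set.ncard_sdiff_singleton_of_mem (show T0 ∈ {T | T ∈ trios ∧ O0 ∈ T} from
        ⟨T0_mem, O0_mem_T0⟩), ncard_trios_mem O0_mem])

theorem pair {T T' : Finset (Finset GolayPt)} (hT : T ∈ trios) (hT' : T' ∈ trios) (h : O0 ∈ T)
    (h' : O0 ∈ T') (hne : T ≠ T') :
    ∃ g ∈ M24 ⊓ stabilizer PG O0, g • T0 = T ∧ g • fam [8536111, 337856, 7903248] = T' := by
  obtain ⟨a, ha, rfl⟩ := trans1 T ⟨hT, h⟩
  have ha' := Subgroup.inv_mem _ ha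
  obtain ⟨b, hb, e⟩ := trans2 (a⁻¹ • T') ⟨⟨smul_mem_trios ha'.1 hT', mem_smul_of_fix ha'.2 h'⟩,
    fun e => hne (by rw [← Set.mem_singleton_iff.1 e, smul_inv_smul])⟩
  exact ⟨a * b, Subgroup.mul_mem _ ha hb.1, by rw [mul_smul, hb.2],
    by rw [mul_smul, e, smul_inv_smul]⟩

theorem card_le : Nat.card (StabF [[8536111, 2141072, 6100032], [8536111, 628112, 7612992], [8536111, 337856, 7903248], [8536111, 6889680, 1351424], [8536111]]) ≤ 16 := by
  have h1 := stepF trioM (Ls := [[8536111]]) (L := [8536111, 6889680, 1351424])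
    [137899326714708662474344931568826913, 591057830312879124925765614933087267] (by decide +kernel)
    (trioM_R (by decide +kernel)) 15 14 0x11111111111111 (by decide +kernel)
  have h2 := stepF trioM (Ls := [[8536111, 6889680, 1351424], [8536111]]) (L := [8536111, 337856, 7903248])
    [217640926117511501400368412245476386, 234282533549738230156440647530251267] (by decide +kernel)
    (trioM_R (by decide +kernel)) 14 16 0x1121120002112211 (by decide +kernel)
  have h3 := stepF trioM (Ls := [[8536111, 337856, 7903248], [8536111, 6889680, 1351424], [8536111]]) (L := [8536111, 628112, 7612992])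
    [136630656134956892087061908182696686, 144601712896076980985759928471969313, 26436077282608793593742678503241847] (by decide +kernel)
    (trioM_R (by decide +kernel)) 12 12 0x120111212111 (by decide +kernel)
  have h4 := stepF trioM (Ls := [[8536111, 628112, 7612992], [8536111, 337856, 7903248], [8536111, 6889680, 1351424], [8536111]]) (L := [8536111, 2141072, 6100032])
    [28166109638943914996476167295383671, 144597913669110246154177390696961025, 111243442290627869455883608975924782, 130594249274328817032373311031186433, 716963259472417517261281706958586949, 968708902336673183175954409307867168] (by decide +kernel)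
    (trioM_R (by decide +kernel)) 8 7 0x1213121 (by decide +kernel)
  rw [StabF_single_single, card_stab_octad O0_mem] at h1
  omega

theorem fix_trio {g : PG} (hg : g ∈ Golay.Fix O0) {T : Finset (Finset GolayPt)} (hT : T ∈ trios)
    (h : O0 ∈ T) : g • T = T := by
  obtain ⟨a, ha, rfl⟩ := trans1 T ⟨hT, h⟩
  have h1 := (conj_mem_Fix_iff (M24.inv_mem ha.1) O0 g).2 hg
  rw [show a⁻¹ • O0 = O0 from (Subgroup.inv_mem _ ha).2] at h1
  have h2 : (a⁻¹ * g * a⁻¹⁻¹) • T0 = T0 := (Fix_O0_le (gens_gE0.inf_stabFam (L := [8536111, 6889680, 1351424])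
    (by decide +kernel)) h1).2
  rwa [inv_inv, mul_smul, mul_smul, inv_smul_eq_iff] at h2

theorem ker {g : PG} (hg : g ∈ M24) (ho : g • O0 = O0) :
    (∀ T ∈ trios, O0 ∈ T → g • T = T) ↔ ∀ p ∈ O0, g p = p := by
  refine ⟨fun h => ?_, fun h T hT h' => fix_trio (Golay.mem_Fix.2 ⟨hg, h⟩) hT h'⟩
  have key : ∀ g ∈ M24, g • O0 = O0 → (∀ T ∈ trios, O0 ∈ T → g • T = T) →
      g ∈ StabF [[8536111, 2141072, 6100032], [8536111, 628112, 7612992], [8536111, 337856, 7903248], [8536111, 6889680, 1351424], [8536111]] := by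
    intro g hg ho h
    refine ⟨hg, ?_⟩
    simp only [List.forall_mem_cons]
    exact ⟨h _ (fam_mem_trios (by decide +kernel)) (mem_fam.2 ⟨_, by simp, rfl⟩),
      h _ (fam_mem_trios (by decide +kernel)) (mem_fam.2 ⟨_, by simp, rfl⟩),
      h _ (fam_mem_trios (by decide +kernel)) (mem_fam.2 ⟨_, by simp, rfl⟩),
      h _ (fam_mem_trios (by decide +kernel)) (mem_fam.2 ⟨_, by simp, rfl⟩),
      smul_fam_single_iff.2 ho, by simp⟩
  have e : Golay.Fix O0 = StabF [[8536111, 2141072, 6100032], [8536111, 628112, 7612992], [8536111, 337856, 7903248], [8536111, 6889680, 1351424], [8536111]] :=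
    Subgroup.eq_of_le_of_card_ge (fun x hx => key x (Golay.mem_Fix.1 hx).1
      (smul_eq_of_fix (Golay.mem_Fix.1 hx).2) fun T hT h => fix_trio hx hT h)
      (by rw [Golay.card_Fix_octad O0_mem]; exact card_le)
  exact (Golay.mem_Fix.1 (e ▸ key g hg ho h)).2

/-- An octad of the length-24 code lies in exactly 15 trios; the stabiliser of the octad in the code's group acts doubly transitively on these 15 trios, and the kernel of this action is the pointwise stabiliser of the octad. -/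
theorem result (o : Finset Cfsg.GolayPt) (ho : o ∈ Cfsg.octads) : {T : Finset (Finset Cfsg.GolayPt) | T ∈ Cfsg.trios ∧ o ∈ T}.ncard = 15 ∧ (∀ T₁ T₂ T₁' T₂' : Finset (Finset Cfsg.GolayPt), T₁ ∈ Cfsg.trios → T₂ ∈ Cfsg.trios → T₁' ∈ Cfsg.trios → T₂' ∈ Cfsg.trios → o ∈ T₁ → o ∈ T₂ → o ∈ T₁' → o ∈ T₂' → T₁ ≠ T₂ → T₁' ≠ T₂' → ∃ g ∈ Cfsg.M24, g • o = o ∧ g • T₁ = T₁' ∧ g • T₂ = T₂') ∧ ∀ g ∈ Cfsg.M24, g • o = o → ((∀ T ∈ Cfsg.trios, o ∈ T → g • T = T) ↔ ∀ p ∈ o, g p = p) := by
  refine ⟨ncard_trios_mem ho, ?_⟩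
  obtain ⟨k, hk, rfl⟩ := exists_smul_O0 ho
  constructor
  · intro T₁ T₂ T₁' T₂' h1 h2 h1' h2' m1 m2 m1' m2' n n'
    obtain ⟨T₁, rfl⟩ := exists_eq_smul k T₁
    obtain ⟨T₂, rfl⟩ := exists_eq_smul k T₂
    obtain ⟨T₁', rfl⟩ := exists_eq_smul k T₁'
    obtain ⟨T₂', rfl⟩ := exists_eq_smul k T₂'
    rw [smul_mem_trios_iff hk] at h1 h2 h1' h2'
    rw [Finset.smul_mem_smul_finset_iff] at m1 m2 m1' m2'
    obtain ⟨a, ha, rfl, rfl⟩ := pair h1 h2 m1 m2 fun e => n (by rw [e])
    obtain ⟨b, hb, rfl, rfl⟩ := pair h1' h2' m1' m2' fun e => n' (by rw [e])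
    have hc := Subgroup.mul_mem _ hb (Subgroup.inv_mem _ ha)
    exact ⟨k * (b * a⁻¹) * k⁻¹, conj_mem_M24 hk hc.1, conj_smul_smul k hc.2,
      conj_smul_smul k (by rw [mul_smul, inv_smul_smul]),
      conj_smul_smul k (by rw [mul_smul, inv_smul_smul])⟩
  · intro g hg h
    obtain ⟨x, rfl⟩ : ∃ x, g = k * x * k⁻¹ := ⟨k⁻¹ * g * k, by group⟩
    rw [conj_mem_M24_iff hk] at hg
    rw [conj_smul_smul_iff] at h
    have := ker hg h
    constructor
    · intro h1 p hp
      obtain ⟨q, hq, rfl⟩ := Finset.mem_smul_finset.1 hp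
      exact conj_apply_apply k (this.1 (fun T hT h' => (conj_smul_smul_iff k x T T).1
        (h1 _ (smul_mem_trios hk hT) (Finset.smul_mem_smul_finset h'))) q hq)
    · intro h1 T hT h'
      obtain ⟨T, rfl⟩ := exists_eq_smul k T
      rw [smul_mem_trios_iff hk] at hT
      rw [Finset.smul_mem_smul_finset_iff] at h'
      exact conj_smul_smul k (this.2 (fun p hp => (conj_apply_apply_iff k x p p).1
        (h1 _ (Finset.smul_mem_smul_finset hp))) T hT h')

end Cfsg.Agent.S5615
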