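import Mathlib
import Cfsg.Statements.S5619
import Cfsg.Agent.Spor.M11Local
-- import your own Cfsg.Agent.* helpers here

set_option autoImplicit false
open scoped Pointwise
open Cfsg

namespace Cfsg.Agent.S5619

open Cfsg.Agent.Spor Cfsg.Agent.Spor.MB Cfsg.Agent.Spor.Dod MulAction


/-- In the group of the length-24 code, the subgroup fixing a dodecad setwise and three of its points individually (a group of order 72) has a normal Sylow 3-subgroup that is elementary abelian of order 9, and its Sylow 2-subgroups are quaternion of order 8. -/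
theorem result (d : Finset Cfsg.GolayPt) (hd : d ∈ Cfsg.dodecads) (p q r : Cfsg.GolayPt) (hp : p ∈ d) (hq : q ∈ d) (hr : r ∈ d) (hpq : p ≠ q) (hpr : p ≠ r) (hqr : q ≠ r) : (∀ Q : Sylow 3 ↥(MulAction.stabilizer Cfsg.M24 d ⊓ MulAction.stabilizer Cfsg.M24 p ⊓ MulAction.stabilizer Cfsg.M24 q ⊓ MulAction.stabilizer Cfsg.M24 r), (Q : Subgroup ↥(MulAction.stabilizer Cfsg.M24 d ⊓ MulAction.stabilizer Cfsg.M24 p ⊓ MulAction.stabilizer Cfsg.M24 q ⊓ MulAction.stabilizer Cfsg.M24 r)).Normal ∧ Nat.card ↥Q = 9 ∧ ∀ x ∈ (Q : Subgroup ↥(MulAction.stabilizer Cfsg.M24 d ⊓ MulAction.stabilizer Cfsg.M24 p ⊓ MulAction.stabilizer Cfsg.M24 q ⊓ MulAction.stabilizer Cfsg.M24 r)), x ^ 3 = 1) ∧ ∀ P : Sylow 2 ↥(MulAction.stabilizer Cfsg.M24 d ⊓ MulAction.stabilizer Cfsg.M24 p ⊓ MulAction.stabilizer Cfsg.M24 q ⊓ MulAction.stabilizer Cfsg.M24 r), Nonempty (↥P ≃* QuaternionGroup 2) := by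
  have hl : [r, q, p].Nodup := by simp [hpq.symm, hpr.symm, hqr.symm]
  have hld : ∀ x ∈ [r, q, p], x ∈ d := by simp [hp, hq, hr]
  have e := conjEquiv (stabilizer M24 d ⊓ stabilizer M24 p ⊓ stabilizer M24 q ⊓ stabilizer M24 r)
    (Fx d [r, q, p]) M24.one_mem (Fx_le _ _) (fun x => by
      rw [conj_mem_Fx M24.one_mem]
      simp [and_assoc]
      tauto)
  have hc := (Nat.card_congr e.toEquiv).trans (card_Fx hd _ hl hld (by simp))
  have h72 : [95040, 7920, 720, 72, 8, 1].getD [r, q, p].length 0 = 72 := rfl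
  rw [h72] at hc
  constructor
  · intro Q
    obtain ⟨h1, h2⟩ := Fx_three_count hd hl hld rfl e
    exact sylow_three_of_count hc h1 h2 Q
  · intro P
    obtain ⟨s, hs, hs'⟩ := Finset.exists_mem_notMem_of_card_lt_card (s := [r, q, p].toFinset)
      (t := d) (by rw [List.toFinset_card_of_nodup hl, hd.2]; simp)
    rw [List.mem_toFinset] at hs'
    obtain ⟨f⟩ := nonempty_Fx_four_equiv hd (l := [s, r, q, p]) (List.nodup_cons.2 ⟨hs', hl⟩)
      (by simp [hp, hq, hr, hs]) rfl
    have hle : Fx d [s, r, q, p] ≤ Fx d [r, q, p] := fun g hg => (mem_Fx_cons.1 hg).1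
    let K := ((Fx d [s, r, q, p]).subgroupOf (Fx d [r, q, p])).comap e.toMonoidHom
    have f' : K ≃* QuaternionGroup 2 :=
      ((e.subgroupMap K).trans (MulEquiv.subgroupCongr
        (Subgroup.map_comap_eq_self_of_surjective e.surjective _))).trans
        ((Subgroup.subgroupOfEquivOfLe hle).trans f)
    have hK : Nat.card K = 2 ^ (Nat.card ↥(stabilizer M24 d ⊓ stabilizer M24 p ⊓ stabilizer M24 q ⊓
        stabilizer M24 r)).factorization 2 := by
      rw [hc, Nat.card_congr f'.toEquiv, Nat.card_eq_fintype_card, QuaternionGroup.card,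
        show 72 = 2 ^ 3 * 9 by norm_num, Nat.factorization_mul (by norm_num) (by norm_num),
        Nat.Prime.factorization_pow (by norm_num)]
      simp [Nat.factorization_eq_zero_of_not_dvd (show ¬ 2 ∣ 9 by norm_num)]
    exact ⟨(Sylow.equiv P (Sylow.ofCard K hK)).trans f'⟩

end Cfsg.Agent.S5619
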