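import Mathlib
import Cfsg.Statements.S5620
import Cfsg.Agent.Spor.M12Mixed
-- import your own Cfsg.Agent.* helpers here

set_option autoImplicit false
open scoped Pointwise
open Cfsg

namespace Cfsg.Agent.S5620

open Cfsg.Agent.Spor Cfsg.Agent.Spor.MB Cfsg.Agent.Spor.Dod MulAction


/-- Inside the stabiliser of the dodecad of squares (a Mathieu group of degree 12), the stabiliser of the residue 0 (a point of the dodecad) and the stabiliser of the extra point (a point outside the dodecad) are isomorphic but not conjugate; conjugation by a suitable element of the code's group that maps the dodecad of squares onto its complement carries the first onto the second. -/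
theorem result : Nonempty (↥(Cfsg.Spor.M12 ⊓ MulAction.stabilizer (Equiv.Perm Cfsg.GolayPt) (none : Cfsg.GolayPt)) ≃* ↥Cfsg.Spor.M11) ∧ (¬ ∃ k ∈ Cfsg.Spor.M12, MulAut.conj k • Cfsg.Spor.M11 = Cfsg.Spor.M12 ⊓ MulAction.stabilizer (Equiv.Perm Cfsg.GolayPt) (none : Cfsg.GolayPt)) ∧ ∃ g ∈ Cfsg.M24, g • Cfsg.Spor.squareDodecad = Finset.univ \ Cfsg.Spor.squareDodecad ∧ MulAut.conj g • Cfsg.Spor.M11 = Cfsg.Spor.M12 ⊓ MulAction.stabilizer (Equiv.Perm Cfsg.GolayPt) (none : Cfsg.GolayPt) := by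
  have hd := squareDodecad_mem
  have hc : Finset.univ \ Cfsg.Spor.squareDodecad = Cfsg.Spor.squareDodecadᶜ := rfl
  obtain ⟨g, hg, h1, h2⟩ := exists_map_one hd (compl_mem_dodecads hd) zero_mem_squareDodecad
    (Finset.mem_compl.2 none_notMem_squareDodecad)
  have key : MulAut.conj g • Cfsg.Spor.M11 =
      Cfsg.Spor.M12 ⊓ stabilizer (Equiv.Perm GolayPt) (none : GolayPt) := by
    ext x
    rw [Subgroup.mem_pointwise_smul_iff_inv_smul_mem, Subgroup.mem_inf, mem_M11, mem_M12,
      ← map_inv, MulAut.smul_def, MulAut.conj_apply, inv_inv, Subgroup.mul_mem_cancel_right _ hg,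
      Subgroup.mul_mem_cancel_left _ (M24.inv_mem hg), conj_smul_eq_iff,
      conj_apply_eq_iff, h1, h2, smul_compl_eq_iff]
    rfl
  refine ⟨⟨?_⟩, ?_, g, hg, h1, key⟩
  · rw [← key]
    exact (Subgroup.equivSMul _ _).symm
  · rintro ⟨k, hk, e⟩
    have h0 : k⁻¹ none ∉ Cfsg.Spor.squareDodecad := by
      rw [apply_mem_iff (Cfsg.Spor.M12.inv_mem hk).2]
      exact none_notMem_squareDodecad
    obtain ⟨y, hy, hy1, -⟩ := exists_third (compl_mem_dodecads hd) (k⁻¹ none) (k⁻¹ none)
    obtain ⟨x, hx, h3, h4, h5⟩ := exists_map_one_one hd hd zero_mem_squareDodecad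
      zero_mem_squareDodecad h0 (Finset.mem_compl.1 hy)
    have h6 : MulAut.conj k • x ∈ MulAut.conj k • Cfsg.Spor.M11 :=
      Subgroup.smul_mem_pointwise_smul _ _ _ (mem_M11.2 ⟨⟨hx, h3⟩, h4⟩)
    rw [e] at h6
    have h7 : k (x (k⁻¹ none)) = none := h6.2
    rw [h5] at h7
    exact hy1 (by rw [← h7]; simp)

end Cfsg.Agent.S5620
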