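import Mathlib
import Cfsg.Statements.S5625
import Cfsg.Agent.Spor.Steiner
-- import your own Cfsg.Agent.* helpers here

set_option autoImplicit false
open Cfsg

namespace Cfsg.Agent.S5625

/-- In any Steiner system S(5, 8, 24) and for any set Y of three points, the blocks meeting Y in exactly 3, 2, 1 and 0 points number 21, 168, 360 and 210 respectively (so there are 759 blocks in all). -/
theorem result (α : Type*) [Fintype α] [DecidableEq α] (hα : Fintype.card α = 24) (B : Set (Finset α)) (hB : Cfsg.IsSteinerSystem 5 8 B) (Y : Finset α) (hY : Y.card = 3) : {b : Finset α | b ∈ B ∧ (b ∩ Y).card = 3}.ncard = 21 ∧ {b : Finset α | b ∈ B ∧ (b ∩ Y).card = 2}.ncard = 168 ∧ {b : Finset α | b ∈ B ∧ (b ∩ Y).card = 1}.ncard = 360 ∧ {b : Finset α | b ∈ B ∧ (b ∩ Y).card = 0}.ncard = 210 := by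
  obtain ⟨h0, h1, h2, h3, -⟩ := Spor.Steiner.moments_24 hα hB Y 3
    (fun b _ => hY ▸ Finset.card_le_card Finset.inter_subset_right)
  simp only [Finset.sum_range_succ, Finset.sum_range_zero, hY, Nat.choose] at h0 h1 h2 h3
  simp only [Spor.Steiner.ncard_eq_card_filter]
  change Spor.Steiner.nb _ Y 3 = 21 ∧ Spor.Steiner.nb _ Y 2 = 168 ∧ Spor.Steiner.nb _ Y 1 = 360 ∧
    Spor.Steiner.nb _ Y 0 = 210
  omega

end Cfsg.Agent.S5625
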