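import Mathlib
import Cfsg.Statements.S5628
import Cfsg.Agent.Spor.WittAut
-- import your own Cfsg.Agent.* helpers here

set_option autoImplicit false
open Cfsg

namespace Cfsg.Agent.S5628

open Finset Spor.Golay Spor.Plane4
open scoped Pointwise

theorem eq_one_of_fix {α : Type*} [Fintype α] [DecidableEq α] (hα : Fintype.card α = 21)
    {L : Set (Finset α)} (hL : Cfsg.IsSteinerSystem 2 5 L) {h : Fin 6 → α}
    (hh : Function.Injective h) (hH : IsArc L (univ.image h)) {g : Equiv.Perm α}
    (hg : g ∈ setSystemAut L) (hfix : ∀ i, g (h i) = h i) : g = 1 := by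
  ext x
  by_cases hx : ∃ i, h i = x
  · obtain ⟨i, rfl⟩ := hx
    exact hfix i
  push Not at hx
  choose s hs _ using fun i => existsUnique_partner hα hL hh hH hx i
  refine eq_of_col hL hh hH s (fun i => (hs i).1) (fun i => ?_) (fun i => (hs i).2)
  obtain ⟨l, hl, h1, h2, h3⟩ := (hs i).2
  refine ⟨g • l, (mem_setSystemAut_iff L g).1 hg l hl, Finset.smul_mem_smul_finset h1, ?_, ?_⟩
  · rw [← hfix]; exact Finset.smul_mem_smul_finset h2
  · rw [← hfix]; exact Finset.smul_mem_smul_finset h3

/-- In a projective plane of order 4 (a Steiner system S(2, 5, 21)), every permutation of the six points of a hyperoval (a 6-set met by no line in more than two points) is the restriction of exactly one automorphism of the plane. In particular the stabiliser of a hyperoval in the automorphism group is isomorphic to the symmetric group of degree 6 acting faithfully on the hyperoval. -/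
theorem result {α : Type*} [Fintype α] [DecidableEq α] (hα : Fintype.card α = 21) (L : Set (Finset α)) (hL : Cfsg.IsSteinerSystem 2 5 L) (H : Finset α) (hH : (H.card = 6 ∧ ∀ l ∈ L, (l ∩ H).card ≤ 2)) (σ : Equiv.Perm ↥H) : ∃! g : Equiv.Perm α, g ∈ Cfsg.setSystemAut L ∧ ∀ p : ↥H, g p = σ p := by
  obtain ⟨h, hh, hhH⟩ := exists_labelling hH.1
  have hm : ∀ i, h i ∈ H := fun i => hhH ▸ mem_image_of_mem _ (mem_univ i)
  let h' : Fin 6 → α := fun i => σ ⟨h i, hm i⟩
  have hh' : Function.Injective h' := fun i j e =>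
    hh (congrArg Subtype.val (σ.injective (Subtype.ext e)))
  have hhH' : univ.image h' = H := by
    apply eq_of_subset_of_card_le
    · intro x hx
      obtain ⟨i, -, rfl⟩ := mem_image.1 hx
      exact Subtype.property _
    · rw [card_image_of_injective _ hh', hH.1]; simp
  have hA : IsArc L (univ.image h) := hhH ▸ hH.2
  obtain ⟨f, hf, e⟩ := exists_emb_of_hyperoval hα hL hh hA
  obtain ⟨f', hf', e'⟩ := exists_emb_of_hyperoval hα hL hh' (hhH' ▸ hH.2)
  obtain ⟨g, hg, hg'⟩ := hf.exists_equiv hf'
  have hgA : g ∈ setSystemAut L := (mem_setSystemAut_iff L g).2 fun b hb => (hg' b).1 hb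
  have hgh : ∀ i, g (h i) = h' i := fun i => f'.injective (by rw [hg, e, e'])
  refine ⟨g, ⟨hgA, fun p => ?_⟩, ?_⟩
  · obtain ⟨p, hp⟩ := p
    obtain ⟨i, -, rfl⟩ := mem_image.1 (hhH ▸ hp : p ∈ univ.image h)
    exact hgh i
  · rintro g' ⟨hg'A, hg'h⟩
    have := eq_one_of_fix hα hL hh hA (mul_mem (inv_mem hgA) hg'A) fun i => by
      rw [Equiv.Perm.mul_apply, Equiv.Perm.inv_eq_iff_eq, hgh]
      exact hg'h ⟨h i, hm i⟩
    rw [inv_mul_eq_one] at this
    exact this.symm

end Cfsg.Agent.S5628
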