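import Cfsg.Statements.S5629
import Cfsg.Agent.J4T.TopS

set_option autoImplicit false
open Cfsg

namespace Cfsg.Agent.S5629

/-- Let G be a finite non-abelian simple group of Janko-four type (an involution z whose centralizer H has an extraspecial largest normal 2-subgroup E of order 2^13 containing its centralizer in H, a normal subgroup N ≥ E of H with N/E of order 3 and H/N the automorphism group of M₂₂, and a subgroup P ≤ N of order 3 with C_E(P) = ⟨z⟩, N_H(P) ≠ C_H(P) and P ≤ C_H(P)′), and let V be an elementary abelian subgroup of G of order 2^11. Then the normalizer of V has index 173067389 in G, and in the action of G on the cosets of this normalizer the normalizer itself has exactly seven orbits, of sizes 1, 15180, 28336, 3400320, 32643072, 54405120 and 82575360 (a rank-7 permutation representation). -/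
theorem result {G : Type*} [Group G] [Finite G] [IsSimpleGroup G] (hG : ¬ IsMulCommutative G) (z : G) (hJ : Cfsg.IsOfJankoFourTypeAt z) (V : Subgroup G) (hV : Cfsg.IsElementaryAbelian 2 V) (hcard : Nat.card ↥V = 2 ^ 11) : (Subgroup.normalizer (V : Set G)).index = 173067389 ∧ ∃ c : Fin 7 → G ⧸ Subgroup.normalizer (V : Set G), (∀ i j : Fin 7, i ≠ j → MulAction.orbit ↥(Subgroup.normalizer (V : Set G)) (c i) ≠ MulAction.orbit ↥(Subgroup.normalizer (V : Set G)) (c j)) ∧ (∀ q : G ⧸ Subgroup.normalizer (V : Set G), ∃ i : Fin 7, q ∈ MulAction.orbit ↥(Subgroup.normalizer (V : Set G)) (c i)) ∧ (List.ofFn fun i => (MulAction.orbit ↥(Subgroup.normalizer (V : Set G)) (c i)).ncard) = [1, 15180, 28336, 3400320, 32643072, 54405120, 82575360] := by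
  obtain ⟨π, g, l, ψ, s⟩ := J4T.exists_stJ_of_at hJ
  obtain ⟨x, rfl⟩ := s.x.exists_conj_V hV hcard.ge
  have he : ∀ a, MulAut.conj x a ∈ Subgroup.normalizer
      (((J4T.VG z g l).map (MulAut.conj x).toMonoidHom : Subgroup G) : Set G) ↔ a ∈ s.full.H := fun a => by
    rw [J4T.mem_norm_map_conj, s.full_H, MulAut.conj_apply]
    simp only [mul_assoc, inv_mul_cancel, mul_one, inv_mul_cancel_left]
  refine ⟨?_, (J4T.rankData_of_full s.full).map (MulAut.conj x) he⟩
  rw [← s.full.index, ← Subgroup.index_comap_of_surjective _
    (f := (MulAut.conj x).toMonoidHom) (MulAut.conj x).surjective]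
  exact congrArg Subgroup.index (Subgroup.ext he)

end Cfsg.Agent.S5629
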