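import Cfsg.Statements.S5632
import Cfsg.Agent.Cl.MxLin4

set_option autoImplicit false
open Cfsg

namespace Cfsg.Agent.S5632

/-- For a finite field F and subspaces 0 < W < U of F^n with dim W + dim U = n, the elements of SL_n(F) stabilising both W and U form a subgroup that is not maximal in SL_n(F): some subgroup lies strictly between it and SL_n(F). -/
theorem result {F : Type*} [Field F] [Fintype F] (n : ℕ) (W U : Submodule F (Fin n → F)) (hW0 : W ≠ ⊥) (hWU : W < U) (hdim : Module.finrank F W + Module.finrank F U = n) : ∃ K : Subgroup (Matrix.GeneralLinearGroup (Fin n) F), Cfsg.Geo.subspaceStabilizer W ⊓ Cfsg.Geo.subspaceStabilizer U ⊓ Cfsg.Geo.specialLinear (Fin n) F < K ∧ K < Cfsg.Geo.specialLinear (Fin n) F := by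
  obtain ⟨x, hx, hxW⟩ := SetLike.exists_of_lt hWU
  have hU : U ≠ ⊤ := by
    rintro rfl
    have h1 := Submodule.finrank_eq_zero.not.2 hW0
    simp at hdim
    exact hW0 hdim
  obtain ⟨y, -, hy⟩ := SetLike.exists_of_lt (lt_top_iff_ne_top.2 hU)
  refine Cl.Mx.sl_pair_between hW0 (ne_top_of_lt hWU) hx (fun h => ?_) hy
  obtain ⟨w, hw, z, hz, e⟩ := Submodule.mem_sup.1 h
  obtain ⟨c, rfl⟩ := Submodule.mem_span_singleton.1 hz
  have hc : c ≠ 0 := by
    rintro rfl
    exact hxW (by simpa [← e] using hw)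
  have : c • y ∈ U := by
    rw [← e] at hx
    exact (U.add_mem_iff_right (hWU.le hw)).1 hx
  exact hy ((U.smul_mem_iff hc).1 this)

end Cfsg.Agent.S5632
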