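import Cfsg.Statements.S5633
import Cfsg.Agent.Cl.MxLin4

set_option autoImplicit false
open Cfsg

namespace Cfsg.Agent.S5633

/-- For a finite field F and complementary non-zero subspaces W ⊕ U = F^n with dim W < dim U, the elements of SL_n(F) stabilising both W and U form a subgroup that is not maximal in SL_n(F): some subgroup lies strictly between it and SL_n(F). -/
theorem result {F : Type*} [Field F] [Fintype F] (n : ℕ) (W U : Submodule F (Fin n → F)) (hW0 : W ≠ ⊥) (hWU : W ⊓ U = ⊥) (hWU' : W ⊔ U = ⊤) (hdim : Module.finrank F W < Module.finrank F U) : ∃ K : Subgroup (Matrix.GeneralLinearGroup (Fin n) F), Cfsg.Geo.subspaceStabilizer W ⊓ Cfsg.Geo.subspaceStabilizer U ⊓ Cfsg.Geo.specialLinear (Fin n) F < K ∧ K < Cfsg.Geo.specialLinear (Fin n) F := by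
  have hU : U ≠ ⊥ := by
    rintro rfl
    simp at hdim
  have hW : W ≠ ⊤ := by
    rintro rfl
    exact absurd (Submodule.finrank_mono le_top) (not_le.2 hdim)
  obtain ⟨x, hx, hx0⟩ := Submodule.exists_mem_ne_zero_of_ne_bot hU
  obtain ⟨y, hy, hy0⟩ := Submodule.exists_mem_ne_zero_of_ne_bot hW0
  have hd := Submodule.disjoint_def.1 (disjoint_iff.2 hWU)
  refine Cl.Mx.sl_pair_between hW0 hW hx (y := y) (fun h => ?_) fun h => hy0 (hd y hy h)
  rw [sup_eq_left.2 ((Submodule.span_singleton_le_iff_mem _ _).2 hy)] at h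
  exact hx0 (hd x h hx)

end Cfsg.Agent.S5633
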