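import Cfsg.Statements.S5675
import Cfsg.Agent.Cl.MaxOND

set_option autoImplicit false
open Cfsg

namespace Cfsg.Agent.S5675

/-- Let F be a finite field of odd order q, m ≥ 6, Q the standard quadratic form on F^(2m+1) and Ω the commutator subgroup of its isometry group. Let W be a non-zero subspace of even dimension on which the polar form of Q is non-degenerate; exclude the case q = 3, dim W = 2 with Q vanishing on some line of W (a plus-type plane). Then the elements of Ω stabilising W (equivalently, stabilising its orthogonal complement, of odd dimension) form a maximal subgroup of Ω. -/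
theorem result {F : Type*} [Field F] [Fintype F] (hodd : Odd (Fintype.card F)) (m : ℕ) (hm : 6 ≤ m) (W : Submodule F (Unit ⊕ (Fin m ⊕ Fin m) → F)) (hW0 : W ≠ ⊥) (hev : Even (Module.finrank F W)) (hW : Cfsg.Geo.IsNondegenerateOn (QuadraticMap.polar (Cfsg.quadFormOdd m F)) W) (hex : ¬ (Fintype.card F = 3 ∧ Module.finrank F W = 2 ∧ Cfsg.Geo.IsPlusTypeOn (Cfsg.quadFormOdd m F) W)) : Cfsg.Geo.IsMaximalIn (Cfsg.Geo.omegaGL (Cfsg.quadFormOdd m F)) (Cfsg.Geo.subspaceStabilizer W ⊓ Cfsg.Geo.omegaGL (Cfsg.quadFormOdd m F)) := by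
  have hd := Cl.o_finrank_odd (m := m) (F := F)
  have h2 := Cl.o_two_ne_zero_of_odd_card hodd
  have hQ := Cl.quad_odd_nondeg (m := m) h2
  have h3 := Cl.finrank_operp hQ W
  obtain ⟨k, hk⟩ := hev
  refine Cl.MaxO.isMaximalIn_subspace (Cl.quad_odd m F) W (Cl.MaxO.omax_nondeg_ne hQ (by omega)
    (Cl.MaxO.nd_of_isNondegenerateOn hW) hW0 (fun H => ?_) (by omega) (fun H => hex ⟨?_, H.2⟩)
    (by omega))
  · rw [H, finrank_top] at hk; omega
  · have h4 := H.1
    have h5 := Cl.MaxO.two_le_card (F := F)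
    obtain ⟨j, hj⟩ := hodd
    rw [Nat.card_eq_fintype_card] at h4 h5
    omega

end Cfsg.Agent.S5675
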