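import Cfsg.Statements.S5677
import Cfsg.Agent.Cl.MaxOND

set_option autoImplicit false
open Cfsg

namespace Cfsg.Agent.S5677

/-- Let F be a finite field of odd order q, m ≥ 6, Q the standard quadratic form on F^(2m+1) and Ω the commutator subgroup of its isometry group. Let D be a decomposition of F^(2m+1) into t ≥ 2 pairwise orthogonal, pairwise Q-isometric subspaces of equal dimension k > 1 on which the polar form is non-degenerate. Unless q = 3 and k = 3, the elements of Ω permuting the members of D form a maximal subgroup of Ω. -/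
theorem result {F : Type*} [Field F] [Fintype F] (hodd : Odd (Fintype.card F)) (m : ℕ) (hm : 6 ≤ m) {t : ℕ} (k : ℕ) (hk : 1 < k) (D : Fin t → Submodule F (Unit ⊕ (Fin m ⊕ Fin m) → F)) (hD : Cfsg.Geo.IsOrthogonalMDecomposition (Cfsg.quadFormOdd m F) k D) (hex : ¬ (Fintype.card F = 3 ∧ k = 3)) : Cfsg.Geo.IsMaximalIn (Cfsg.Geo.omegaGL (Cfsg.quadFormOdd m F)) (Cfsg.Geo.decompositionStabilizer D ⊓ Cfsg.Geo.omegaGL (Cfsg.quadFormOdd m F)) := by
  have hQ := Cl.quad_odd_nondeg (m := m) (Cl.o_two_ne_zero_of_odd_card hodd)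
  have h1 := Cl.Max.IsMDecomposition.mul_eq hD.decomp.decomp
  have h2 := hD.decomp.decomp.two_le
  have h3 := hD.decomp.decomp.finrank_eq
  simp only [Fintype.card_sum, Fintype.card_unique, Fintype.card_fin] at h1
  have hko : Odd k := (Nat.odd_mul.1 (show Odd (t * k) from ⟨m, by omega⟩)).2
  obtain ⟨j, hj⟩ := hko
  refine Cl.MaxO.isMaximalIn_dec (Cl.quad_odd m F) D (Cl.MaxO.omax_dec_three hQ
    (Cl.MaxO.odec_of_geo hD.decomp) hD.isometric (fun i => ?_) h3 (by omega) (by simpa using h2) ?_)
  · by_cases h5 : 5 ≤ k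
    · exact .inl (by rwa [h3])
    · exact .inr (.inr (.inl ⟨by rw [h3]; omega, fun H =>
        hex ⟨Nat.card_eq_fintype_card (α := F) ▸ H, by omega⟩⟩))
  · by_cases h5 : 5 ≤ k
    · exact .inl h5
    · right
      rw [Fintype.card_fin]
      obtain rfl : k = 3 := by omega
      omega

end Cfsg.Agent.S5677
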