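import Cfsg.Statements.S5688
import Cfsg.Agent.Cl.MaxOND

set_option autoImplicit false
open Cfsg

namespace Cfsg.Agent.S5688

/-- Let F be a finite field with q elements, n ≥ 13 even, Q a non-degenerate quadratic form on F^n of plus type (some subspace of dimension n/2 is totally singular), and Ω the commutator subgroup of the isometry group of Q, viewed inside GL_n(F). Let W be a non-zero proper subspace with dim W ≠ n/2 on which the polar form of Q is non-degenerate. Exclude the case q ≤ 3 in which W, or its orthogonal complement, is a plane containing a line on which Q vanishes. Then the elements of Ω stabilising W form a maximal subgroup of Ω. -/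
theorem result {F : Type*} [Field F] [Fintype F] {n : ℕ} (hn : 13 ≤ n) (heven : Even n) (Q : (Fin n → F) → F) (hQ : Cfsg.Geo.IsNondegenerateQuadraticForm Q) (hplus : Cfsg.Geo.IsPlusTypeOn Q ⊤) (W : Submodule F (Fin n → F)) (hW0 : W ≠ ⊥) (hW1 : W ≠ ⊤) (hdim : 2 * Module.finrank F W ≠ n) (hW : Cfsg.Geo.IsNondegenerateOn (QuadraticMap.polar Q) W) (hex : ¬ (Fintype.card F ≤ 3 ∧ (∃ U : Submodule F (Fin n → F), Module.finrank F U = 2 ∧ Cfsg.Geo.IsNondegenerateOn (QuadraticMap.polar Q) U ∧ Cfsg.Geo.IsPlusTypeOn Q U ∧ (U = W ∨ (Cfsg.Geo.AreOrthogonalFor (QuadraticMap.polar Q) U W ∧ Module.finrank F U + Module.finrank F W = n))))) : Cfsg.Geo.IsMaximalIn (Cfsg.Geo.omegaGL Q) (Cfsg.Geo.subspaceStabilizer W ⊓ Cfsg.Geo.omegaGL Q) := by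
  have hd : Module.finrank F (Fin n → F) = n := by simp
  have hP := Cl.Max.toQF_nondeg hQ
  have hW' : Cl.MaxO.ND (Cl.Max.toQF hQ) W := Cl.MaxO.nd_of_isNondegenerateOn hW
  have h3 := Cl.finrank_operp hP W
  have key : 2 * Module.finrank F W ≠ n → Cl.MaxO.OMax (Cl.quad_stab (Cl.Max.toQF hQ) W) :=
    fun h => Cl.MaxO.omax_nondeg_ne hP (by omega) hW' hW0 hW1 (by omega)
      (fun H => hex ⟨Nat.card_eq_fintype_card (α := F) ▸ H.1, W, H.2.1, hW, H.2.2, .inl rfl⟩)
      fun H => hex ⟨Nat.card_eq_fintype_card (α := F) ▸ H.1, _, H.2.1,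
        Cl.MaxO.isNondegenerateOn_of_nd (hW'.perp hP), H.2.2, .inr ⟨fun u hu v hv => by
          rw [QuadraticMap.polar_comm]; exact Cl.mem_operp.1 hu v hv, by omega⟩⟩
  exact Cl.MaxO.isMaximalIn_subspace (Cl.Max.toQF hQ) W (key hdim)

end Cfsg.Agent.S5688
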