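import Cfsg.Statements.S5697
import Cfsg.Agent.Cl.MaxOSing

set_option autoImplicit false
open Cfsg

namespace Cfsg.Agent.S5697

/-- Let F be a finite field with q elements, n ≥ 13 even, Q a non-degenerate quadratic form on F^n of plus type (some subspace of dimension n/2 is totally singular), and Ω the commutator subgroup of the isometry group of Q, viewed inside GL_n(F). Suppose n/2 is even and let D be a decomposition of F^n into two complementary subspaces of dimension n/2 on each of which Q vanishes. Then the elements of Ω preserving or interchanging the two subspaces form a maximal subgroup of Ω. -/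
theorem result {F : Type*} [Field F] [Fintype F] {n : ℕ} (hn : 13 ≤ n) (heven : Even n) (Q : (Fin n → F) → F) (hQ : Cfsg.Geo.IsNondegenerateQuadraticForm Q) (hplus : Cfsg.Geo.IsPlusTypeOn Q ⊤) (k : ℕ) (hk : 2 * k = n) (hke : Even k) (D : Fin 2 → Submodule F (Fin n → F)) (hD : Cfsg.Geo.IsMDecomposition k D) (hts : ∀ i, Cfsg.Geo.IsTotallySingularQuad Q (D i)) : Cfsg.Geo.IsMaximalIn (Cfsg.Geo.omegaGL Q) (Cfsg.Geo.decompositionStabilizer D ⊓ Cfsg.Geo.omegaGL Q) := by
  refine Cl.MaxO.isMaximalIn_dec (Cl.Max.toQF hQ) D (Cl.MaxO.omax_pair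
    (Cl.Max.toQF_nondeg hQ) hts ?_ hD.finrank_eq (by omega) hke)
  rw [← hD.iSup_eq_top]
  exact le_antisymm (sup_le (le_iSup D 0) (le_iSup D 1)) (iSup_le fun i => by
    fin_cases i
    exacts [le_sup_left, le_sup_right])

end Cfsg.Agent.S5697
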