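import Cfsg.Statements.S5699
import Cfsg.Agent.Cl.MaxOND

set_option autoImplicit false
open Cfsg

namespace Cfsg.Agent.S5699

/-- Let F be a finite field with q elements, n ≥ 13 even, Q a non-degenerate quadratic form on F^n (of either type), and Ω the commutator subgroup of the isometry group of Q, viewed inside GL_n(F). Let D be a decomposition of F^n into two orthogonal subspaces of odd dimension n/2 on which the polar form is non-degenerate and which are not Q-isometric to each other. Then the elements of Ω permuting (necessarily fixing) the two subspaces form a maximal subgroup of Ω. -/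
theorem result {F : Type*} [Field F] [Fintype F] {n : ℕ} (hn : 13 ≤ n) (heven : Even n) (Q : (Fin n → F) → F) (hQ : Cfsg.Geo.IsNondegenerateQuadraticForm Q) (k : ℕ) (hk : 2 * k = n) (hko : Odd k) (D : Fin 2 → Submodule F (Fin n → F)) (hD : Cfsg.Geo.IsNondegenerateMDecomposition (QuadraticMap.polar Q) k D) (hni : ¬ Cfsg.Geo.AreIsometricFor Q (D 0) (D 1)) : Cfsg.Geo.IsMaximalIn (Cfsg.Geo.omegaGL Q) (Cfsg.Geo.decompositionStabilizer D ⊓ Cfsg.Geo.omegaGL Q) := by
  have hd : Module.finrank F (Fin n → F) = n := by simp
  have h0 := hD.decomp.finrank_eq 0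
  have h1 := hD.decomp.finrank_eq 1
  exact Cl.MaxO.isMaximalIn_dec (Cl.Max.toQF hQ) D (Cl.MaxO.omax_two (Cl.Max.toQF_nondeg hQ)
    (by omega) (Cl.MaxO.odec_of_geo hD) (i := 0) (j := 1) (by simp) Cl.MaxO.fin_two_cases
    (.inl (by omega)) (by omega) (by omega) (Cl.MaxO.ne_bot_of_finrank (by omega))
    (fun g H => hni (Cl.MaxO.exists_isom_of_maps (by omega) g H)) (by omega))

end Cfsg.Agent.S5699
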