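import Cfsg.Statements.S5787
import Cfsg.Agent.Cl.MxSp2

set_option autoImplicit false
open Cfsg

namespace Cfsg.Agent.S5787

/-- Every maximal subgroup of Sp_4(q), q odd, is of one of the listed geometric types or lies in the residual class. Let F be a finite field of odd order q, f the standard alternating form on F^4 (coordinates Fin 2 ⊕ Fin 2), and H a maximal subgroup of the isometry group Sp_4(F) (inside GL_4(F)). Then H is the intersection with Sp_4(F) of one of: the stabiliser of a non-zero totally isotropic subspace; the stabiliser of a decomposition into two orthogonal non-degenerate 2-spaces; for q ≥ 5, of a decomposition into two totally isotropic 2-spaces; the normaliser of a degree-2 subfield K of the matrix algebra, self-adjoint with f(k v, v) = 0; for q ≥ 5, the normaliser of a degree-2 subfield closed under adjoints but not self-adjoint; a subfield group whose F₀-structure carries a non-zero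 multiple of f, |F| = |F₀|^r with r prime; for q = p prime, the normaliser of an absolutely irreducible symplectic-type 2-group of exponent 4, order 32, centre of order 2 and minus type inside the similarity group of f — or else H lies in the residual class of the symplectic case. -/
theorem result {F : Type*} [Field F] [Fintype F] (hodd : Odd (Fintype.card F)) (H : Subgroup (Matrix.GeneralLinearGroup (Fin 2 ⊕ Fin 2) F)) (hH : Cfsg.Geo.IsMaximalIn (Cfsg.spGL 2 F) H) :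
    (∃ W : Submodule F (Fin 2 ⊕ Fin 2 → F), W ≠ ⊥ ∧ Cfsg.Geo.IsTotallySingularFor (Cfsg.sympForm 2 F) W ∧ H = Cfsg.Geo.subspaceStabilizer W ⊓ Cfsg.spGL 2 F) ∨
    (∃ D : Fin 2 → Submodule F (Fin 2 ⊕ Fin 2 → F), Cfsg.Geo.IsNondegenerateMDecomposition (Cfsg.sympForm 2 F) 2 D ∧ H = Cfsg.Geo.decompositionStabilizer D ⊓ Cfsg.spGL 2 F) ∨
    (5 ≤ Fintype.card F ∧ ∃ D : Fin 2 → Submodule F (Fin 2 ⊕ Fin 2 → F), Cfsg.Geo.IsMDecomposition 2 D ∧ (∀ i, Cfsg.Geo.IsTotallySingularFor (Cfsg.sympForm 2 F) (D i)) ∧ H = Cfsg.Geo.decompositionStabilizer D ⊓ Cfsg.spGL 2 F) ∨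
    (∃ K : Subalgebra F (Matrix (Fin 2 ⊕ Fin 2) (Fin 2 ⊕ Fin 2) F), Cfsg.Geo.IsFieldSubalgebra 2 K ∧ Cfsg.Geo.IsSelfAdjointFor (Cfsg.sympForm 2 F) K ∧ (∀ k ∈ K, ∀ v : (Fin 2 ⊕ Fin 2 → F), (Cfsg.sympForm 2 F) (Matrix.mulVec k v) v = 0) ∧ H = Cfsg.Geo.subalgebraNormalizer K ⊓ Cfsg.spGL 2 F) ∨
    (5 ≤ Fintype.card F ∧ ∃ K : Subalgebra F (Matrix (Fin 2 ⊕ Fin 2) (Fin 2 ⊕ Fin 2) F), Cfsg.Geo.IsFieldSubalgebra 2 K ∧ Cfsg.Geo.IsAdjointClosedFor (Cfsg.sympForm 2 F) K ∧ ¬ Cfsg.Geo.IsSelfAdjointFor (Cfsg.sympForm 2 F) K ∧ H = Cfsg.Geo.subalgebraNormalizer K ⊓ Cfsg.spGL 2 F) ∨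
    (∃ (F₀ : Subfield F) (r : ℕ) (P : Matrix.GeneralLinearGroup (Fin 2 ⊕ Fin 2) F) (ζ : F), r.Prime ∧ Fintype.card F = Nat.card F₀ ^ r ∧ ζ ≠ 0 ∧ Cfsg.Geo.IsFormRationalStructure (Cfsg.sympForm 2 F) F₀ ζ P ∧ H = Cfsg.Geo.subfieldSubgroup F₀ P ⊓ Cfsg.spGL 2 F) ∨
    (∃ (p : ℕ) (R : Subgroup (Matrix.GeneralLinearGroup (Fin 2 ⊕ Fin 2) F)), p.Prime ∧ Fintype.card F = p ∧ Cfsg.Geo.IsSymplecticTypeGroup 2 R ∧ Cfsg.Geo.ActsAbsolutelyIrreducibly (Cfsg.Geo.matrixSet R) ∧ R ≤ Cfsg.Geo.similarityGroup (Cfsg.sympForm 2 F) ∧ Nat.card R = 32 ∧ Nat.card (Subgroup.center R) = 2 ∧ Cfsg.Geo.IsOfMinusType 2 R ∧ H = Cfsg.Geo.subgroupNormalizer R ⊓ Cfsg.spGL 2 F) ∨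
    Cfsg.Geo.InSymplecticResidualClass H := by
  rcases Cl.Mx.sp_cases (by norm_num)
    (Or.inr (by have := Cl.Mx.two_le_card (F := F); obtain ⟨k, hk⟩ := hodd; omega)) hH with
    h | ⟨hm, h⟩ | ⟨t, k, D, hD, hc, ht, h1, he⟩ | ⟨ho, h1, h⟩ | ⟨r, K, hr, hd, h⟩ | ⟨ho, h1, h⟩ |
    ⟨ho, a, b, e, P, f₁, f₂, hc, hb, h1, hf₁, hf₂, h2, hT, he⟩ | h |
    ⟨p, k, R, hk, hp, ho, hc, h1, h2, h3, h4, h5, h6, he⟩ |
    ⟨ho, k, t, e, P, f₁, hc, h1, ht, h2, hf₁, hT, he⟩ | ⟨ho, h⟩ | h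
  · exact Or.inl h
  · omega
  · have hm : k ≤ 1 := by nlinarith
    obtain ⟨rfl, rfl⟩ : (k = 1 ∧ t = 2) := by
      interval_cases k <;> omega
    · iterate 1 right
      exact Or.inl ⟨D, hD, he⟩
  · iterate 2 right
    exact Or.inl ⟨h1 rfl, h⟩
  · have hr2 := Nat.le_of_dvd (by norm_num) hd
    obtain rfl : r = 2 := by
      interval_cases r <;> first | decide | exact absurd hd (by decide) | exact absurd hr (by decide)
    · iterate 3 right
      exact Or.inl ⟨K, h⟩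
  · iterate 4 right
    exact Or.inl ⟨h1 rfl, h⟩
  · have hm : a ≤ 2 := by nlinarith
    interval_cases a <;> omega
  · iterate 5 right
    exact Or.inl h
  · have hk4 : k < 4 := by
      by_contra h7
      have : 2 ^ 4 ≤ 2 ^ k := Nat.pow_le_pow_right (by omega) (by omega)
      omega
    obtain rfl : k = 2 := by interval_cases k <;> omega
    iterate 6 right
    exact Or.inl ⟨p, R, hp, hc, h1, h2, h3, h4, h5, h6, he⟩
  · exact absurd (Cl.Mx.pow_cases_three ht hc (by norm_num) (by norm_num)).2.2 (by norm_num)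
  · exact absurd hodd ho
  · iterate 7 right
    exact h

end Cfsg.Agent.S5787
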