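import Cfsg.Statements.S5826
import Cfsg.Agent.Cl.MxO5

set_option autoImplicit false
open Cfsg

namespace Cfsg.Agent.S5826

/-- Every maximal subgroup of Ω_8^-(q) is of one of the listed geometric types or lies in the residual class. Let F be a finite field with q elements, Q a non-degenerate quadratic form on F^8 of minus type (no totally singular 4-space), Ω the commutator subgroup of its isometry group, and H a maximal subgroup of Ω (inside GL_8(F)). Then H is the intersection with Ω of one of: the stabiliser of a non-zero totally singular subspace; for q odd, the stabiliser of a non-degenerate subspace of odd dimension; the stabiliser of a non-degenerate 2-space of minus type; for q ≥ 4, the stabiliser of a non-degenerate 2-space of plus type; the stabiliser of a non-degenerate 4-space; for q even, the stabiliser of the span of a non-singular vector; the normaliser of a degree-2 subfield of the matrix algebra; a subfield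 group of odd prime index whose F₀-structure carries a non-zero multiple of Q — or else H lies in the residual class of the orthogonal case (modulo scalars H is almost simple, with absolutely irreducible perfect socle preimage realisable over no proper subfield and fixing no non-degenerate unitary form). -/
theorem result {F : Type*} [Field F] [Fintype F] (Q : (Fin 8 → F) → F) (hQ : Cfsg.Geo.IsNondegenerateQuadraticForm Q) (hminus : ¬ Cfsg.Geo.IsPlusTypeOn Q ⊤) (H : Subgroup (Matrix.GeneralLinearGroup (Fin 8) F)) (hH : Cfsg.Geo.IsMaximalIn (Cfsg.Geo.omegaGL Q) H) :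
    (∃ W : Submodule F (Fin 8 → F), W ≠ ⊥ ∧ Cfsg.Geo.IsTotallySingularQuad Q W ∧ H = Cfsg.Geo.subspaceStabilizer W ⊓ Cfsg.Geo.omegaGL Q) ∨
    (Odd (Fintype.card F) ∧ ∃ W : Submodule F (Fin 8 → F), W ≠ ⊥ ∧ W ≠ ⊤ ∧ Odd (Module.finrank F W) ∧ Cfsg.Geo.IsNondegenerateOn (QuadraticMap.polar Q) W ∧ H = Cfsg.Geo.subspaceStabilizer W ⊓ Cfsg.Geo.omegaGL Q) ∨
    (∃ W : Submodule F (Fin 8 → F), Module.finrank F W = 2 ∧ Cfsg.Geo.IsNondegenerateOn (QuadraticMap.polar Q) W ∧ ¬ Cfsg.Geo.IsPlusTypeOn Q W ∧ H = Cfsg.Geo.subspaceStabilizer W ⊓ Cfsg.Geo.omegaGL Q) ∨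
    (4 ≤ Fintype.card F ∧ ∃ W : Submodule F (Fin 8 → F), Module.finrank F W = 2 ∧ Cfsg.Geo.IsNondegenerateOn (QuadraticMap.polar Q) W ∧ Cfsg.Geo.IsPlusTypeOn Q W ∧ H = Cfsg.Geo.subspaceStabilizer W ⊓ Cfsg.Geo.omegaGL Q) ∨
    (∃ W : Submodule F (Fin 8 → F), Module.finrank F W = 4 ∧ Cfsg.Geo.IsNondegenerateOn (QuadraticMap.polar Q) W ∧ H = Cfsg.Geo.subspaceStabilizer W ⊓ Cfsg.Geo.omegaGL Q) ∨
    (¬ Odd (Fintype.card F) ∧ ∃ v : (Fin 8 → F), Q v ≠ 0 ∧ H = Cfsg.Geo.subspaceStabilizer (Submodule.span F {v}) ⊓ Cfsg.Geo.omegaGL Q) ∨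
    (∃ K : Subalgebra F (Matrix (Fin 8) (Fin 8) F), Cfsg.Geo.IsFieldSubalgebra 2 K ∧ H = Cfsg.Geo.subalgebraNormalizer K ⊓ Cfsg.Geo.omegaGL Q) ∨
    (∃ (F₀ : Subfield F) (r : ℕ) (P : Matrix.GeneralLinearGroup (Fin 8) F) (ζ : F), r.Prime ∧ Odd r ∧ Fintype.card F = Nat.card F₀ ^ r ∧ ζ ≠ 0 ∧ Cfsg.Geo.IsQuadFormRationalStructure (fun v : Fin 8 → F => ζ * Q v) F₀ P ∧ H = Cfsg.Geo.subfieldSubgroup F₀ P ⊓ Cfsg.Geo.omegaGL Q) ∨
    Cfsg.Geo.InOrthogonalResidualClass H := by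
  rcases Cl.Mx.o_cases (Q := Cl.Max.toQF hQ) (m := 4) (Cl.Max.toQF_nondeg hQ) (by simp)
    (by norm_num) hH with
    ⟨W, h0, h1, h2, he⟩ | ⟨ho, W, h0, h1, h2, h3, h4, he⟩ | ⟨W, h0, h1, h2, h3, h4, h5, he⟩ | h |
    ⟨t, k, D, hD, h1, hc, ht, h2, h3, h4, h5, h6, h7, h8, he⟩ | ⟨h1, ho, h2, h⟩ | ⟨h1, h2, h⟩ |
    ⟨r, K, hr, h1, h2, h3, hK, h4, he⟩ | ⟨h1, K, hK, h2, h3, h4, he⟩ |
    ⟨a, b, e, P, f₁, f₂, hc, ⟨a₁, ha⟩, ⟨b₁, hb⟩, hab, h1, h⟩ |
    ⟨ho, a, b, e, P, f₁, f₂, hc, ha, hab, h1, h2, hf₁, hf₂, hT, he⟩ |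
    ⟨F₀, r, P, ζ, hr, h1, h⟩ | ⟨k, t, ht, hc, h1⟩ | h
  all_goals try simp only [Cl.Max.coe_toQF] at *
  · exact Or.inl ⟨W, h0, h1, he⟩
  · iterate 1 right
    exact Or.inl ⟨ho, W, h0, h1, h2, h4, he⟩
  · obtain ⟨c, hc⟩ := h0
    obtain h6 | h6 : Module.finrank F W = 2 ∨ Module.finrank F W = 4 := by omega
    · by_cases hp : Cfsg.Geo.IsPlusTypeOn Q W
      · iterate 3 right
        exact Or.inl ⟨h4 h6 hp, W, h6, h3, hp, he⟩
      · iterate 2 right
        exact Or.inl ⟨W, h6, h3, hp, he⟩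
    · iterate 4 right
      exact Or.inl ⟨W, h6, h3, he⟩
  · iterate 5 right
    exact Or.inl h
  · have hm : k ≤ 4 := by nlinarith
    obtain ⟨rfl, rfl⟩ | ⟨rfl, rfl⟩ | ⟨rfl, rfl⟩ :
        (k = 1 ∧ t = 8) ∨ (k = 2 ∧ t = 4) ∨ (k = 4 ∧ t = 2) := by
      interval_cases k <;> omega
    · obtain ⟨ho, h9⟩ := h2 (by decide)
      exact absurd (h9.2 (Or.inl (by decide))) hminus
    · exact absurd ((h3 (by decide) 0).2 (Or.inr (by decide))) hminus
    · exact absurd ((h3 (by decide) 0).2 (Or.inr (by decide))) hminus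
  · exact absurd h1 (by decide)
  · exact absurd h1 hminus
  · have h5 : r ≤ 2 := by omega
    obtain rfl : r = 2 := by
      interval_cases r <;> first | decide | exact absurd h2 (by decide) | exact absurd hr (by decide)
    iterate 6 right
    exact Or.inl ⟨K, hK, he⟩
  · iterate 6 right
    exact Or.inl ⟨K, hK, he⟩
  · have h2 : a ≤ 3 := by nlinarith
    obtain ⟨rfl, rfl⟩ : a = 2 ∧ b = 4 := by interval_cases a <;> omega
    exact absurd (h1 rfl).1 hminus
  · obtain rfl : a = 3 := by nlinarith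
    omega
  · iterate 7 right
    exact Or.inl ⟨F₀, r, P, ζ, hr, hr.odd_of_ne_two fun h2 => hminus (h1 h2), h⟩
  · have := Cl.Mx.pow_cases (h1.resolve_left hminus) ht hc (by norm_num)
    omega
  · iterate 8 right
    exact h

end Cfsg.Agent.S5826
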