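import Cfsg.Statements.S5858
import Cfsg.Agent.Cl.MaxOFrB
import Cfsg.Agent.Cl.MaxOSubM

set_option autoImplicit false
open Cfsg

namespace Cfsg.Agent.S5858

/-- Maximal subgroups of Ω_11(q) of geometric type, q odd. Let F be a finite field of odd order q, Q the standard quadratic form x₀² + Σ x_i y_i on F^11 (coordinates Unit ⊕ (Fin 5 ⊕ Fin 5)), and Ω = Ω_11(q) the commutator subgroup of its isometry group, inside GL_11(F). Each of the following, intersected with Ω, is a maximal subgroup of Ω: (1) the stabiliser of any non-zero subspace on which Q vanishes identically (totally singular 1- to 5-spaces); (2) the stabiliser of any non-zero even-dimensional subspace W (dimension 2 to 10) on which the polar form of Q is non-degenerate (equivalently of its odd-dimensional orthogonal complement), except when q = 3 and W is a 2-space containing a non-zero singular vector (a plus-type plane); (3) for q = p prime, the stabiliser of any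 decomposition of F^11 into eleven pairwise orthogonal, pairwise Q-isometric non-degenerate 1-spaces; (4) every subfield group for a subfield F₀ with |F| = |F₀|^r, r prime, whose F₀-structure carries Q. -/
theorem result {F : Type*} [Field F] [Fintype F] (hodd : Odd (Fintype.card F)) :
    (∀ W : Submodule F (Unit ⊕ (Fin 5 ⊕ Fin 5) → F), W ≠ ⊥ → Cfsg.Geo.IsTotallySingularQuad (Cfsg.quadFormOdd 5 F) W → Cfsg.Geo.IsMaximalIn (Cfsg.Geo.omegaGL (Cfsg.quadFormOdd 5 F)) (Cfsg.Geo.subspaceStabilizer W ⊓ Cfsg.Geo.omegaGL (Cfsg.quadFormOdd 5 F))) ∧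
    (∀ W : Submodule F (Unit ⊕ (Fin 5 ⊕ Fin 5) → F), W ≠ ⊥ → Even (Module.finrank F W) → Cfsg.Geo.IsNondegenerateOn (QuadraticMap.polar (Cfsg.quadFormOdd 5 F)) W → ¬ (Fintype.card F = 3 ∧ Module.finrank F W = 2 ∧ Cfsg.Geo.IsPlusTypeOn (Cfsg.quadFormOdd 5 F) W) → Cfsg.Geo.IsMaximalIn (Cfsg.Geo.omegaGL (Cfsg.quadFormOdd 5 F)) (Cfsg.Geo.subspaceStabilizer W ⊓ Cfsg.Geo.omegaGL (Cfsg.quadFormOdd 5 F))) ∧
    ((Fintype.card F).Prime → ∀ D : Fin 11 → Submodule F (Unit ⊕ (Fin 5 ⊕ Fin 5) → F), Cfsg.Geo.IsOrthogonalMDecomposition (Cfsg.quadFormOdd 5 F) 1 D → Cfsg.Geo.IsMaximalIn (Cfsg.Geo.omegaGL (Cfsg.quadFormOdd 5 F)) (Cfsg.Geo.decompositionStabilizer D ⊓ Cfsg.Geo.omegaGL (Cfsg.quadFormOdd 5 F))) ∧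
    (∀ (F₀ : Subfield F) (r : ℕ) (P : Matrix.GeneralLinearGroup (Unit ⊕ (Fin 5 ⊕ Fin 5)) F), r.Prime → Fintype.card F = Nat.card F₀ ^ r → Cfsg.Geo.IsQuadFormRationalStructure (Cfsg.quadFormOdd 5 F) F₀ P → Cfsg.Geo.IsMaximalIn (Cfsg.Geo.omegaGL (Cfsg.quadFormOdd 5 F)) (Cfsg.Geo.subfieldSubgroup F₀ P ⊓ Cfsg.Geo.omegaGL (Cfsg.quadFormOdd 5 F))) := by
  have hd := Cl.o_finrank_odd (m := 5) (F := F)
  have h2 := Cl.o_two_ne_zero_of_odd_card hodd
  have hQ := Cl.quad_odd_nondeg (m := 5) h2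
  refine ⟨fun W hW0 hW => Cl.MaxO.isMaximalIn_subspace (Cl.quad_odd 5 F) W
    (Cl.MaxO.omax_singular hQ (by omega) hW0 hW (by omega)), fun W hW0 hev hW hex => ?_,
    fun hp D hD => Cl.MaxO.isMaximalIn_dec (Cl.quad_odd 5 F) D (Cl.MaxO.omax_frame hQ h2
      (by rwa [Nat.card_eq_fintype_card]) (Cl.MaxO.odec_of_geo hD.decomp) hD.isometric
      hD.decomp.decomp.finrank_eq (by simp) (by simp)),
    fun F₀ r P hr hcard hP => Cl.MaxO.isMaximalIn_subfield (Cl.quad_odd 5 F) hQ (by simp) F₀ r hr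
      hcard P 1 one_ne_zero (fun u hu => F₀.mul_mem F₀.one_mem (hP u hu))⟩
  have h3 := Cl.finrank_operp hQ W
  obtain ⟨k, hk⟩ := hev
  refine Cl.MaxO.isMaximalIn_subspace (Cl.quad_odd 5 F) W (Cl.MaxO.omax_nondeg_ne hQ (by omega)
    (Cl.MaxO.nd_of_isNondegenerateOn hW) hW0 (fun H => ?_) (by omega) (fun H => hex ⟨?_, H.2⟩)
    (by omega))
  · rw [H, finrank_top] at hk; omega
  · have h4 := H.1
    have h5 := Cl.MaxO.two_le_card (F := F)
    obtain ⟨j, hj⟩ := hodd
    rw [Nat.card_eq_fintype_card] at h4 h5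
    omega

end Cfsg.Agent.S5858
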