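import Mathlib
import Cfsg.Statements.S5876
import Cfsg.Agent.FG.PrimFix

set_option autoImplicit false
open Cfsg

namespace Cfsg.Agent.S5876

open Cfsg.Agent.FG


/-- Fixed-point spaces in primitive soluble linear groups. Let F be a finite field and G a soluble subgroup of GL_n(F) that acts irreducibly on F^n and primitively (G preserves no decomposition of F^n into two or more independent subspaces of equal dimension). Then every non-identity element g of G has fixed-point space {v : g v = v} of dimension at most 3n/4. -/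
theorem result {F : Type*} [Field F] [Fintype F] {n : ℕ} (G : Subgroup (Matrix.GeneralLinearGroup (Fin n) F)) (hsol : IsSolvable G) (hirr : Cfsg.Geo.ActsIrreducibly (Cfsg.Geo.matrixSet G)) (hprim : ∀ (m t : ℕ) (D : Fin t → Submodule F (Fin n → F)), 2 ≤ t → Cfsg.Geo.IsMDecomposition m D → ¬ G ≤ Cfsg.Geo.decompositionStabilizer D) (g : Matrix.GeneralLinearGroup (Fin n) F) (hg : g ∈ G) (hg1 : g ≠ 1) :
    4 * Module.finrank F (Module.End.eigenspace (Matrix.toLin' (g : Matrix (Fin n) (Fin n) F)) 1) ≤ 3 * n := by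
  have : Group.IsSolvable G := hsol
  have hfaith : FaithfulSMul G (Fin n → F) := ⟨fun {a b} h =>
    Subtype.ext (Units.ext (Matrix.ext_iff_mulVec.mpr h))⟩
  have hnt : Nontrivial (Fin n → F) := by
    by_contra hc
    rw [not_nontrivial_iff_subsingleton] at hc
    exact hg1 (Units.ext (Matrix.ext_iff_mulVec.mpr fun v => Subsingleton.elim _ _))
  obtain ⟨U, hUn, hUc, hmax⟩ := BS.exists_max_abelian (G := G)
  rcases PF.fpf_or_decomp (F := F) (V := Fin n → F) (G := G) (fun W hW => hirr W (by
      rintro _ ⟨x, hx, rfl⟩ _ ⟨v, hv, rfl⟩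
      exact hW ⟨x, hx⟩ v hv)) U hUc with hfpf | ⟨t, D, ht, hind, hsup, hne, hrk, hperm⟩
  · obtain ⟨P⟩ := BS.exists_prim (V := Fin n → F) U hUn hUc hmax hfpf
    have h := PF.prim_bound (F := F) P (g := ⟨g, hg⟩) (fun e => hg1 (congrArg Subtype.val e))
    have e : Module.End.eigenspace (Matrix.toLin' (g : Matrix (Fin n) (Fin n) F)) 1 =
        PF.eig F (Fin n → F) (⟨g, hg⟩ : G) 1 := by
      ext v
      rw [Module.End.mem_eigenspace_iff]
      rfl
    rw [e]
    simpa using h
  · exfalso
    let i0 : Fin t := ⟨0, by omega⟩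
    refine hprim (Module.finrank F (D i0)) t D ht ⟨ht, ?_, fun i => hrk i i0, hind, hsup⟩ ?_
    · exact Module.finrank_pos_iff.mpr (Submodule.nontrivial_iff_ne_bot.mpr (hne i0))
    · intro x hx
      exact hperm ⟨x, hx⟩

end Cfsg.Agent.S5876
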