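import Mathlib
import Cfsg.Statements.S5877
import Cfsg.Agent.FG.PrimEig

set_option autoImplicit false
open Cfsg

namespace Cfsg.Agent.S5877

open Cfsg.Agent.FG
open scoped commutatorElement


/-- Eigenspaces of elements normalising an absolutely irreducible extraspecial group. Let F be a finite field, r a prime, and R ≤ GL_n(F) an absolutely irreducible extraspecial r-group (an r-group whose centre equals its derived subgroup and has order r) of exponent r or 4. Let g ∈ GL_n(F) normalise the product of R with the scalar matrices, have prime order ϖ and not be scalar, and let W be the eigenspace of g for any c ∈ F (W may be the zero subspace). Then dim W ≤ 3n/4 if ϖ = 2, dim W ≤ 2n/3 if ϖ = 3, and dim W ≤ n/2 if ϖ > 3; moreover if ϖ = 3 and 3 does not divide n then dim W ≤ n/2. -/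
theorem result {F : Type*} [Field F] [Fintype F] {n r ϖ : ℕ} (R : Subgroup (Matrix.GeneralLinearGroup (Fin n) F)) (hr : r.Prime) (hR : IsPGroup r R) (hZ : Nat.card (Subgroup.center R) = r) (hext : commutator R = Subgroup.center R) (hexp : Monoid.exponent R = r ∨ Monoid.exponent R = 4) (hirr : Cfsg.Geo.ActsAbsolutelyIrreducibly (Cfsg.Geo.matrixSet R)) (g : Matrix.GeneralLinearGroup (Fin n) F) (hg : g ∈ Cfsg.Geo.subgroupNormalizer (R ⊔ Cfsg.Geo.scalars (Fin n) F)) (hϖ : ϖ.Prime) (hord : orderOf g = ϖ) (hns : g ∉ Cfsg.Geo.scalars (Fin n) F) (c : F) :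
    (ϖ = 2 → 4 * Module.finrank F (Module.End.eigenspace (Matrix.toLin' (g : Matrix (Fin n) (Fin n) F)) c) ≤ 3 * n) ∧
    (ϖ = 3 → 3 * Module.finrank F (Module.End.eigenspace (Matrix.toLin' (g : Matrix (Fin n) (Fin n) F)) c) ≤ 2 * n) ∧
    (3 < ϖ → 2 * Module.finrank F (Module.End.eigenspace (Matrix.toLin' (g : Matrix (Fin n) (Fin n) F)) c) ≤ n) ∧
    (ϖ = 3 → ¬ 3 ∣ n → 2 * Module.finrank F (Module.End.eigenspace (Matrix.toLin' (g : Matrix (Fin n) (Fin n) F)) c) ≤ n) := by
  have hfaith : FaithfulSMul (Matrix.GeneralLinearGroup (Fin n) F) (Fin n → F) := ⟨fun {a b} h =>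
    Units.ext (Matrix.ext_iff_mulVec.mpr h)⟩
  have hsc : ∀ (h : Matrix.GeneralLinearGroup (Fin n) F) (d : F),
      (∀ v : Fin n → F, h • v = d • v) ↔ (h : Matrix (Fin n) (Fin n) F) = d • 1 := fun h d => by
    rw [Matrix.ext_iff_mulVec]
    simp only [Matrix.smul_mulVec, Matrix.one_mulVec]
    rfl
  have hnt : Nontrivial (Fin n → F) := by
    by_contra hc
    rw [not_nontrivial_iff_subsingleton] at hc
    have : g = 1 := Units.ext (Matrix.ext_iff_mulVec.mpr fun v => Subsingleton.elim _ _)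
    exact hns (this ▸ Subgroup.one_mem _)
  have hS : ∀ h : Matrix.GeneralLinearGroup (Fin n) F,
      h ∈ Cfsg.Geo.scalars (Fin n) F ↔ ∃ d : F, ∀ v : Fin n → F, h • v = d • v := fun h => by
    rw [Cfsg.Geo.mem_scalars_iff]
    refine ⟨fun ⟨d, hd⟩ => ⟨d, (hsc h d).mpr hd⟩, fun ⟨d, hd⟩ => ⟨Units.mk0 d ?_, (hsc h d).mp hd⟩⟩
    rintro rfl
    obtain ⟨v, hv⟩ := exists_ne (0 : Fin n → F)
    exact hv ((smul_eq_zero_iff_eq h).mp (by rw [hd, zero_smul]))
  have hcenR : ∀ h : Matrix.GeneralLinearGroup (Fin n) F, (∀ x ∈ R, h * x = x * h) →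
      ∃ d : F, ∀ v : Fin n → F, h • v = d • v := fun h hh => by
    obtain ⟨d, hd⟩ := hirr.2 h (by
      rintro _ ⟨x, hx, rfl⟩
      exact congrArg Units.val (hh x hx))
    exact ⟨d, (hsc h d).mpr hd⟩
  have hcR : ∀ x ∈ R, ∀ y ∈ R, ⁅x, y⁆ ^ r = 1 ∧ ∃ d : F, ∀ v : Fin n → F, ⁅x, y⁆ • v = d • v := by
    intro x hx y hy
    have h1 : ⁅(⟨x, hx⟩ : R), (⟨y, hy⟩ : R)⁆ ∈ Subgroup.center R :=
      hext ▸ Subgroup.commutator_mem_commutator (Subgroup.mem_top _) (Subgroup.mem_top _)
    refine ⟨?_, hcenR _ fun z hz =>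
      congrArg Subtype.val (Subgroup.mem_center_iff.mp h1 ⟨z, hz⟩).symm⟩
    have := pow_card_eq_one' (x := (⟨_, h1⟩ : Subgroup.center R))
    rw [hZ] at this
    exact congrArg (fun z : Subgroup.center R => ((z : R) : Matrix.GeneralLinearGroup (Fin n) F)) this
  have hSn : (Cfsg.Geo.scalars (Fin n) F).Normal := ⟨fun s hs x => by
    obtain ⟨d, hd⟩ := (hS s).mp hs
    rwa [PF.scal_comm hd x, mul_inv_cancel_right]⟩
  have hdec : ∀ x ∈ R ⊔ Cfsg.Geo.scalars (Fin n) F, ∃ a ∈ R, ∃ s, (∀ y, y * s = s * y) ∧ x = a * s := by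
    intro x hx
    have hx' : x ∈ ((R ⊔ Cfsg.Geo.scalars (Fin n) F : Subgroup _) : Set _) := hx
    rw [Subgroup.mul_normal] at hx'
    obtain ⟨a, ha, s, hs, rfl⟩ := hx'
    obtain ⟨d, hd⟩ := (hS s).mp hs
    exact ⟨a, ha, s, PF.scal_comm hd, rfl⟩
  have key := PF.extra_bound (F := F) (V := Fin n → F) (R ⊔ Cfsg.Geo.scalars (Fin n) F) hr hϖ
    (fun h hh => hcenR h fun x hx => hh x (Subgroup.mem_sup_left hx)) (fun x hx y hy => by
      obtain ⟨a, ha, s, hs, rfl⟩ := hdec x hx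
      obtain ⟨b, hb, t, ht, rfl⟩ := hdec y hy
      have : ⁅a * s, b * t⁆ = ⁅a, b⁆ := by
        have e1 : s * (b * t) * s⁻¹ = b * t := by rw [← hs, mul_inv_cancel_right]
        have e2 : t * a⁻¹ * t⁻¹ = a⁻¹ := by rw [← ht, mul_inv_cancel_right]
        calc ⁅a * s, b * t⁆ = a * (s * (b * t) * s⁻¹) * a⁻¹ * (b * t)⁻¹ := by
              rw [commutatorElement_def]; group
          _ = a * b * (t * a⁻¹ * t⁻¹) * b⁻¹ := by rw [e1]; group
          _ = _ := by rw [e2, commutatorElement_def]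
      rw [this]
      exact hcR a ha b hb) hg (hord ▸ pow_orderOf_eq_one g) (fun h => hns ((hS g).mpr h)) c
  have e : Module.End.eigenspace (Matrix.toLin' (g : Matrix (Fin n) (Fin n) F)) c =
      PF.eig F (Fin n → F) g c := by
    ext v
    rw [Module.End.mem_eigenspace_iff]
    rfl
  have hrn : r ∣ n := by
    have hne : commutator R ≠ ⊥ := fun h => by
      rw [← hext, h, Subgroup.card_bot] at hZ
      exact hr.one_lt.ne hZ
    obtain ⟨x, y, hxy⟩ : ∃ x y : R, ⁅x, y⁆ ≠ 1 := by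
      by_contra hc
      push Not at hc
      exact hne (eq_bot_iff.mpr (Subgroup.commutator_le.mpr fun x _ y _ => hc x y))
    obtain ⟨h1, d, hd⟩ := hcR x x.2 y y.2
    have hp := PF.scal_prim hd (fun e => hxy (Subtype.ext e)) hr h1
    have h2 := congrArg Matrix.det ((hsc _ d).mp hd)
    have h3 : Matrix.GeneralLinearGroup.det ⁅(x : Matrix.GeneralLinearGroup (Fin n) F), (y : Matrix.GeneralLinearGroup (Fin n) F)⁆ = 1 := by
      rw [map_commutatorElement]
      exact commutatorElement_eq_one_iff_mul_comm.mpr (mul_comm _ _)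
    have h4 := congrArg Units.val h3
    rw [Matrix.GeneralLinearGroup.val_det_apply, h2, Matrix.det_smul, Matrix.det_one, mul_one,
      Fintype.card_fin] at h4
    exact hp.dvd_of_pow_eq_one n h4
  rw [e]
  simp only [Module.finrank_fintype_fun_eq_card, Fintype.card_fin] at key
  obtain ⟨k1, k2⟩ := key
  have h2r := hr.two_le
  refine ⟨fun _ => ?_, fun h3 => ?_, fun h3 => k2 (by omega) (Or.inr (hϖ.five_le_of_ne_two_of_ne_three
    (by omega) (by omega))), fun h3 hn => k2 (by omega) (Or.inl fun e => hn (h3 ▸ e ▸ hrn))⟩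
  · have e1 : r * (4 * Module.finrank F (PF.eig F (Fin n → F) g c)) ≤ r * (3 * n) := by nlinarith
    exact Nat.le_of_mul_le_mul_left e1 hr.pos
  · by_cases h : ϖ = r
    · rw [← h, h3] at k1
      omega
    · have := k2 (by omega) (Or.inl h)
      omega

end Cfsg.Agent.S5877
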