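import Mathlib
import Cfsg.Statements.S5938
import Cfsg.Agent.Cl.PSL2Max

set_option autoImplicit false
open Cfsg

set_option linter.unusedVariables false

namespace Cfsg.Agent.S5938

open Cfsg.Agent.Cl.L2 Matrix MulAction
open scoped MatrixGroups

/-- Let p be a prime with p ≡ ±1 (mod 8) and F a field with p elements. Then PSL_2(F) has a maximal subgroup isomorphic to the symmetric group S_4. -/
theorem result {F : Type*} [Field F] [Fintype F] (p : ℕ) [Fact p.Prime] (hF : Fintype.card F = p) (hp : p % 8 = 1 ∨ p % 8 = 7) : ∃ H : Subgroup (Matrix.ProjectiveSpecialLinearGroup (Fin 2) F), IsCoatom H ∧ Nonempty (H ≃* Equiv.Perm (Fin 4)) := by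
  have hq : Nat.card F = p := by rw [Nat.card_eq_fintype_card, hF]
  obtain ⟨H, ⟨e⟩⟩ := (exists_S4S_iff (F := F)).2 (hq ▸ hp)
  exact ⟨H, isCoatom_of_S4 (hq ▸ Fact.out) e, ⟨e⟩⟩

end Cfsg.Agent.S5938
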