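import Mathlib
import Cfsg.Statements.S5942
import Cfsg.Agent.Cl.PSL2Max

set_option autoImplicit false
open Cfsg

set_option linter.unusedVariables false

namespace Cfsg.Agent.S5942

open Cfsg.Agent.Cl.L2 Matrix MulAction
open scoped MatrixGroups

/-- Let K and F be finite fields of odd characteristic with #F = (#K)^r for an odd prime r. Then PSL_2(F) has a maximal subgroup isomorphic to PSL_2(K). -/
theorem result {F K : Type*} [Field F] [Fintype F] [Field K] [Fintype K] (q r : ℕ) (hK : Fintype.card K = q) (hF : Fintype.card F = q ^ r) (hq : Odd q) (hr : r.Prime) (hr2 : r ≠ 2) : ∃ H : Subgroup (Matrix.ProjectiveSpecialLinearGroup (Fin 2) F), IsCoatom H ∧ Nonempty (H ≃* Matrix.ProjectiveSpecialLinearGroup (Fin 2) K) := by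
  rw [← Nat.card_eq_fintype_card] at hK hF
  obtain ⟨f⟩ := nonempty_ringHom_of_card (F := F) K (m := r) (by rw [hK, hF])
  have h2 : (2 : F) ≠ 0 := two_ne_zero_iff_odd.2 (hF ▸ Nat.odd_iff.1 hq.pow)
  have h3 : Nat.card f.fieldRange ^ r = Nat.card F := by rw [card_fieldRange, hK, hF]
  obtain ⟨H, hH⟩ := exists_map_emb_eq (subPSL_le_psl f.fieldRange)
  have h4 := hH.trans (cj_one _).symm
  exact ⟨H, isCoatom_subPSL h2 hr hr2 h3 h4, nonempty_equiv_of_map_eq_subPSL f h4⟩

end Cfsg.Agent.S5942
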