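import Mathlib
import Cfsg.Statements.S5943
import Cfsg.Agent.Cl.PSL2Max

set_option autoImplicit false
open Cfsg

set_option linter.unusedVariables false

namespace Cfsg.Agent.S5943

open Cfsg.Agent.Cl.L2 Matrix MulAction
open scoped MatrixGroups

/-- Let K and F be finite fields of characteristic 2 with #K = q > 2 and #F = q^r for a prime r. Then PSL_2(F) has a maximal subgroup isomorphic to PSL_2(K) (which equals PGL_2(K) in characteristic 2). -/
theorem result {F K : Type*} [Field F] [Fintype F] [Field K] [Fintype K] (q r : ℕ) (hK : Fintype.card K = q) (hF : Fintype.card F = q ^ r) (hq : Even q) (hq2 : q ≠ 2) (hr : r.Prime) : ∃ H : Subgroup (Matrix.ProjectiveSpecialLinearGroup (Fin 2) F), IsCoatom H ∧ Nonempty (H ≃* Matrix.ProjectiveSpecialLinearGroup (Fin 2) K) := by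
  rw [← Nat.card_eq_fintype_card] at hK hF
  obtain ⟨f⟩ := nonempty_ringHom_of_card (F := F) K (m := r) (by rw [hK, hF])
  have h2 : (2 : F) = 0 :=
    two_eq_zero_iff_even.2 (hF ▸ Nat.even_iff.1 (hq.pow_of_ne_zero hr.ne_zero))
  have h3 : Nat.card f.fieldRange ^ r = Nat.card F := by rw [card_fieldRange, hK, hF]
  obtain ⟨H, hH⟩ := exists_map_emb_eq (subPSL_le_psl f.fieldRange)
  have h4 := hH.trans (cj_one _).symm
  have := two_le_card (F := K)
  exact ⟨H, isCoatom_subPGL (by rw [card_fieldRange]; omega) hr h3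
    (by rw [subPGL_eq_subPSL h2]; exact h4), nonempty_equiv_of_map_eq_subPSL f h4⟩

end Cfsg.Agent.S5943
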