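import Cfsg.Statements.S5950
import Cfsg.Agent.Cl.DerLinCore

set_option autoImplicit false
open scoped MatrixGroups
open Cfsg

namespace Cfsg.Agent.S5950

/-- Elements of prime order of PSL_n(q) fixing no decomposition `F^n = U ⊕ W` with `dim U = m`. Here `T = PSL_n(F)` for a field `F` with `q = p^f` elements (`n ≥ 2`, `(n, q) ≠ (2, 2), (2, 3)`); an element of `T` of prime order `r` is represented by a matrix `x` of determinant 1 with `x^r` scalar and `x` not scalar; `i` denotes the multiplicative order of `q` modulo `r` (when `r ≠ p`), and `(a)_r` the `r`-part of `a`. Let `n ≥ 3`, `1 ≤ m < n/2`, and let `r` be a prime dividing the number of such decompositions (unordered pairs `{U, W}` of complementary subspaces with `dim U = m`; since `m ≠ n − m` these are the ordered pairs with `dim U = m`). Then every element of `T` of order `r` fixes such a pair (fixes both `U` and `W` for some complementary `U, W` with `dim U = m`) if and only if one of: (i) `r = p > 2` and every partition of `n` into parts of size at most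 `p` contains, as a sub-multiset, a partition of `m`; (ii) `r = p = 2` and `n` is odd or `m` is even; (iii) `r ≠ p`, `i = 1`, and `r ∣ m` or `(q−1)_r ≥ (n)_r` (with `q ≡ 1 (mod 4)` required when `r = 2` and `n` is even); (iv) `r ≠ p`, `2 ≤ i ≤ m` and `n mod i ≥ m mod i`. -/
theorem result {F : Type*} [Field F] [Fintype F] {p : ℕ} [Fact p.Prime] [CharP F p] {q : ℕ} (hq : Fintype.card F = q)
    (n m : ℕ) (hn : 3 ≤ n) (hm : 1 ≤ m) (hmn : 2 * m < n)
    (r : ℕ) [Fact r.Prime]
    (hrΩ : r ∣ Nat.card {P : Submodule F (Fin n → F) × Submodule F (Fin n → F) // IsCompl P.1 P.2 ∧ Module.finrank F ↥P.1 = m}) :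
    (∀ x : Matrix.SpecialLinearGroup (Fin n) F,
      (∃ c : F, ((x ^ r : Matrix.SpecialLinearGroup (Fin n) F) : Matrix (Fin n) (Fin n) F) = c • (1 : Matrix (Fin n) (Fin n) F)) →
      (∀ c : F, (x : Matrix (Fin n) (Fin n) F) ≠ c • (1 : Matrix (Fin n) (Fin n) F)) →
      ∃ U W : Submodule F (Fin n → F), IsCompl U W ∧ Module.finrank F ↥U = m ∧
        U.map (Matrix.toLin' (x : Matrix (Fin n) (Fin n) F)) ≤ U ∧ W.map (Matrix.toLin' (x : Matrix (Fin n) (Fin n) F)) ≤ W) ↔
    ((r = p ∧ 2 < p ∧ (∀ μ : Multiset ℕ, (∀ a ∈ μ, 0 < a ∧ a ≤ p) → μ.sum = n → ∃ ν : Multiset ℕ, ν ≤ μ ∧ ν.sum = m)) ∨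
     (r = p ∧ p = 2 ∧ (Odd n ∨ Even m)) ∨
     (r ≠ p ∧
      ((orderOf (q : ZMod r) = 1 ∧ (r ∣ m ∨ (padicValNat r n ≤ padicValNat r (q - 1) ∧ (r = 2 → Even n → q % 4 = 1)))) ∨
       (2 ≤ orderOf (q : ZMod r) ∧ orderOf (q : ZMod r) ≤ m ∧ m % orderOf (q : ZMod r) ≤ n % orderOf (q : ZMod r))))) := by
  open Polynomial Module Cfsg.Agent.Cl.Cls Cfsg.Agent.Cl.Der in
  focus
    subst hq
    have hfr : finrank F (Fin n → F) = n := by simp
    by_cases hrp : r = p
    · subst hrp
      have hA : (∀ x : Matrix.SpecialLinearGroup (Fin n) F,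
          (∃ c : F, ((x ^ r : Matrix.SpecialLinearGroup (Fin n) F) : Matrix (Fin n) (Fin n) F) =
            c • (1 : Matrix (Fin n) (Fin n) F)) →
          (∀ c : F, (x : Matrix (Fin n) (Fin n) F) ≠ c • (1 : Matrix (Fin n) (Fin n) F)) →
          ∃ U W : Submodule F (Fin n → F), IsCompl U W ∧ Module.finrank F ↥U = m ∧
            U.map (Matrix.toLin' (x : Matrix (Fin n) (Fin n) F)) ≤ U ∧
            W.map (Matrix.toLin' (x : Matrix (Fin n) (Fin n) F)) ≤ W) ↔
          ∀ μ : Multiset ℕ, (∀ a ∈ μ, 0 < a ∧ a ≤ r) → μ.sum = n →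
            ∃ ν : Multiset ℕ, ν ≤ μ ∧ ν.sum = m := by
        constructor
        · intro h μ hμ hs
          by_cases h1 : ∀ a ∈ μ, a = 1
          · have h2 : μ = Multiset.replicate (Multiset.card μ) 1 := Multiset.eq_replicate.2 ⟨rfl, h1⟩
            have h3 : Multiset.card μ = n := by rw [← hs]; conv_rhs => rw [h2]; simp
            refine ⟨Multiset.replicate m 1, ?_, by simp⟩
            rw [h2, h3]
            exact (Multiset.replicate_le_replicate 1).2 (by omega)
          · push Not at h1
            obtain ⟨a, ha, ha1⟩ := h1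
            obtain ⟨x, h1, -, h2⟩ := exists_SL_unip (F := F) (ι := Fin n) hμ (by simpa using hs)
            rw [← h2, ← exists_isCompl_iff]
            exact h x ⟨1, by rw [one_smul]; exact h1⟩ (not_scalar_of_mem_degs' (h2.symm ▸ ha) ha1)
        · rintro h x ⟨z, hz⟩ -
          obtain ⟨c, hc, h1⟩ := pow_cases_char _ (isUnit_toLin'_SL x) (toLin'_pow_eq_smul.2 hz)
          obtain ⟨U, W, h2, h3, h4, h5⟩ := (exists_isCompl_iff _ m).2
            (h _ (fun a ha => ⟨pos_of_mem_degs ha, le_of_mem_degs_char h1 ha⟩)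
              (by rw [sum_degs, hfr]))
          exact ⟨U, W, h2, h3, map_smul_inv _ hc U ▸ h4, map_smul_inv _ hc W ▸ h5⟩
      rw [hA]
      rcases (Fact.out : r.Prime).two_le.eq_or_lt with h2 | h2
      · subst h2
        simp only [lt_irrefl, false_and, and_false, false_or, true_and, ne_eq, not_true_eq_false,
          or_false]
        constructor
        · intro h
          by_contra hc
          rw [not_or, Nat.not_odd_iff_even, Nat.not_even_iff_odd] at hc
          obtain ⟨⟨k, hk⟩, hm'⟩ := hc
          have := (exists_sum_oneA_iff (k := 0) (s := k) (a := 2) (m := m) (by omega)).1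
            (h _ (fun a ha => by
              rw [oneA_zero_left] at ha
              rw [Multiset.eq_of_mem_replicate ha]
              exact ⟨two_pos, le_rfl⟩) (by rw [sum_oneA]; omega))
          rw [Nat.odd_iff] at hm'
          omega
        · intro h μ hμ hs
          obtain ⟨k, s, rfl⟩ : ∃ k s, μ = oneA k s 2 :=
            eq_replicate_add_of_mem fun a ha => by have := hμ a ha; omega
          rw [sum_oneA] at hs
          rw [exists_sum_oneA_iff (by omega)]
          rw [Nat.odd_iff, Nat.even_iff] at h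
          omega
      · simp only [h2, h2.ne', true_and, false_and, ne_eq, not_true_eq_false, or_false]
    · rw [card_compl_pairs (by omega), hfr, (Fact.out : r.Prime).dvd_mul] at hrΩ
      have hrΩ' := hrΩ.resolve_right fun h =>
        hrp ((dvd_card_iff (F := F)).1 ((Fact.out : r.Prime).dvd_of_dvd_pow h))
      have h := lin_core hrp (n := n) (m := m) (t := 1) one_pos hm (by omega)
        (fun f => ∃ U W : Submodule F (Fin n → F), IsCompl U W ∧ finrank F U = m ∧
          U.map f ≤ U ∧ W.map f ≤ W)
        (fun f c hc ⟨U, W, h1, h2, h4, h5⟩ =>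
          ⟨U, W, h1, h2, map_smul_inv f hc U ▸ h4, map_smul_inv f hc W ▸ h5⟩)
        (fun f _ k s a _ hd => by
          have h3 := sum_degs f
          rw [hd, sum_oneA, hfr] at h3
          rw [exists_isCompl_iff, hd, exists_sum_oneA_iff (by omega), one_mul])
        (fun h => not_dvd_nsub hrp (by rwa [one_mul] at h) hrΩ')
      simp only [one_mul] at h
      rw [h]
      simp only [hrp, ne_eq, not_false_eq_true, true_and, false_and, false_or]

end Cfsg.Agent.S5950
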