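import Cfsg.Statements.S5952
import Cfsg.Agent.Cl.DerLinCore

set_option autoImplicit false
open Cfsg

namespace Cfsg.Agent.S5952

/-- Which dimensions of invariant subspaces a semisimple linear map has. Let `V` be a finite-dimensional vector space over a field `F` and `f` an invertible semisimple linear map of `V`. Suppose `V` is the internal direct sum of the fixed space `C_V(f)` (the eigenspace for 1) and subspaces `U_1, …, U_s`, each `f`-invariant of dimension `a ≥ 1` on which `f` acts irreducibly (no `f`-invariant subspaces other than 0 and `U_j`). Let `0 < m < dim V` and `ℓ = m mod a`. Then `f` leaves some `m`-dimensional subspace invariant if and only if `dim C_V(f) ≥ m`, or `a ≤ m` and `dim C_V(f) ≥ ℓ`. -/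
theorem result {F V : Type*} [Field F] [AddCommGroup V] [Module F V]
    [FiniteDimensional F V] (f : V →ₗ[F] V) (hf : Function.Bijective f) (hss : Module.End.IsSemisimple f)
    {s a : ℕ} (ha : 1 ≤ a) (U : Fin s → Submodule F V)
    (hUinv : ∀ j, (U j).map f ≤ U j) (hUdim : ∀ j, Module.finrank F ↥(U j) = a)
    (hUirr : ∀ j, ∀ W : Submodule F V, W ≤ U j → W.map f ≤ W → W = ⊥ ∨ W = U j)
    (hdec : DirectSum.IsInternal (fun o : Option (Fin s) => o.elim (Module.End.eigenspace f 1) U))
    (m : ℕ) (hm : 0 < m) (hmV : m < Module.finrank F V) :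
    (∃ W : Submodule F V, Module.finrank F ↥W = m ∧ W.map f ≤ W) ↔
    (m ≤ Module.finrank F ↥(Module.End.eigenspace f 1) ∨
      (a ≤ m ∧ m % a ≤ Module.finrank F ↥(Module.End.eigenspace f 1))) := by
  open Polynomial Module Cfsg.Agent.Cl.Cls Cfsg.Agent.Cl.Der in
  focus
    classical
    obtain ⟨h1, h2⟩ := (DirectSum.isInternal_submodule_iff_iSupIndep_and_iSup_eq_top _).1 hdec
    have hinv : ∀ o : Option (Fin s), ∀ v ∈ (o.elim (Module.End.eigenspace f 1) U : Submodule F V),
        f v ∈ (o.elim (Module.End.eigenspace f 1) U : Submodule F V) := by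
      rintro (_ | j) v hv
      · have : f v = v := by simpa using Module.End.mem_eigenspace_iff.1 hv
        rwa [this]
      · exact map_le_iff.1 (hUinv j) v hv
    have hd := degs_eq_sum_restrict f h1 h2 hinv
    rw [Fintype.sum_option] at hd
    have hC : degs (f.restrict (hinv none)) =
        Multiset.replicate (finrank F (Module.End.eigenspace f 1)) 1 :=
      degs_of_scalar (c := 1) fun v => Subtype.ext (Module.End.mem_eigenspace_iff.1 v.2)
    have hU : ∀ j, degs (f.restrict (hinv (some j))) = {a} := fun j =>
      (degs_restrict_of_irreducible (U := U j) (hinv (some j)) (hUirr j)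
        (by rw [hUdim]; exact ha)).trans (by rw [hUdim])
    rw [hC, Finset.sum_congr rfl fun j _ => hU j, Finset.sum_const, Finset.card_univ,
      Fintype.card_fin, Multiset.nsmul_singleton] at hd
    have h3 := sum_degs f
    change degs f = oneA _ _ _ at hd
    rw [hd, sum_oneA] at h3
    rw [exists_inv_iff hss, hd, exists_sum_oneA_iff (by omega)]
    have := Nat.mod_le m a
    rcases lt_or_ge m a with h | h
    · rw [Nat.mod_eq_of_lt h]
      omega
    · omega

end Cfsg.Agent.S5952
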