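import Cfsg.Statements.S5953
import Cfsg.Agent.Cl.DerU3

set_option autoImplicit false
open scoped MatrixGroups
open Cfsg

namespace Cfsg.Agent.S5953

/-- Elements of prime order of PSU_n(q) with no fixed totally isotropic `m`-space. Here `T = PSU_n(q)` (`n ≥ 3`, `(n, q) ≠ (3, 2)`), realised through the matrices of determinant 1 over the field `F` with `q²` elements preserving the Hermitian form `h(u, v) = Σ u_i v_i^q`; an element of `T` of prime order `r` is such a matrix `x` with `x^r` scalar and `x` not scalar. For `r ≠ p` let `i` be the multiplicative order of `q` modulo `r`, `b = i/2` for `i` even and `b = i` for `i` odd, `c = i, i/2, 2i` according as `i ≡ 0, 2 (mod 4)` or `i` odd, and write `k = n mod c`, `ℓ = m mod b`, `ℓ' = m mod c`, `n' = ⌊n/b⌋`, `m' = ⌊m/b⌋`, `s = (r−1)/b`; `(a)_r` is the `r`-part of `a`. Let `1 ≤ m ≤ n/2` and let `r` be a prime dividing the number of totally isotropic `m`-spaces. Then every element of `T` of order `r` fixes a totally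 isotropic `m`-space if and only if either (i) `r = 2`, `p ≠ 2`, and (`m < n/2` or `(q+1)_2 ≤ (n)_2`); or (ii) `r ≠ p`, `r > 2`, `b ≤ m`, `k ≥ 2ℓ`, and either `i ≢ 2 (mod 4)`, or `i ≡ 2 (mod 4)`, `n' − 2m' ≥ s` and (`i > 2`, or `i = 2` and (`r ∣ m` or `(q+1)_r ≥ (n)_r`)). -/
theorem result {F : Type*} [Field F] [Fintype F] {p : ℕ} [Fact p.Prime] [CharP F p] {q : ℕ} (hq : Fintype.card F = q ^ 2)
    (n m : ℕ) (hn : 3 ≤ n) (hT : (n, q) ≠ (3, 2)) (hm : 1 ≤ m) (hmn : 2 * m ≤ n)
    (r : ℕ) [Fact r.Prime]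
    (hrΩ : r ∣ Nat.card {W : Submodule F (Fin n → F) // Module.finrank F ↥W = m ∧ (∀ u ∈ W, ∀ v ∈ W, Cfsg.hermForm n F q u v = 0)})
    (i b c : ℕ) (hi : i = orderOf (q : ZMod r)) (hb : b = if Even i then i / 2 else i)
    (hc : c = if i % 4 = 0 then i else if i % 4 = 2 then i / 2 else 2 * i) :
    (∀ x : Matrix.SpecialLinearGroup (Fin n) F, x ∈ Cfsg.SU n F q →
      (∃ z : F, ((x ^ r : Matrix.SpecialLinearGroup (Fin n) F) : Matrix (Fin n) (Fin n) F) = z • (1 : Matrix (Fin n) (Fin n) F)) →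
      (∀ z : F, (x : Matrix (Fin n) (Fin n) F) ≠ z • (1 : Matrix (Fin n) (Fin n) F)) →
      ∃ W : Submodule F (Fin n → F), Module.finrank F ↥W = m ∧ (∀ u ∈ W, ∀ v ∈ W, Cfsg.hermForm n F q u v = 0) ∧
        W.map (Matrix.toLin' (x : Matrix (Fin n) (Fin n) F)) ≤ W) ↔
    ((r = 2 ∧ p ≠ 2 ∧ (2 * m < n ∨ padicValNat 2 (q + 1) ≤ padicValNat 2 n)) ∨
     (r ≠ p ∧ 2 < r ∧ b ≤ m ∧ 2 * (m % b) ≤ n % c ∧
       (i % 4 ≠ 2 ∨ (i % 4 = 2 ∧ (r - 1) / b + 2 * (m / b) ≤ n / b ∧
         (2 < i ∨ (i = 2 ∧ (r ∣ m ∨ padicValNat r n ≤ padicValNat r (q + 1)))))))) := by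
  open Polynomial Module Cfsg.Agent.Cl.Cls Cfsg.Agent.Cl.Der in
  focus
    obtain ⟨σ, hσ⟩ := Cl.exists_uField hq
    have hG : GeomU (uB σ n) q := geomU_uB hσ
    have hV : finrank F (Fin n → F) = n := finrank_fin_fun F
    have : Nontrivial (Fin n → F) := Module.nontrivial_of_finrank_pos (R := F) (by omega)
    have hr := (Fact.out : r.Prime)
    simp only [ts_uB_iff hσ, map_le_iff] at hrΩ ⊢
    refine (su_forall_iff hσ fun f => ∃ W : Submodule F _, finrank F W = m ∧
      TSU (uB σ n) W ∧ ∀ v ∈ W, f v ∈ W).trans ?_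
    have hrp : r ≠ p := by
      rintro rfl
      exact hG.not_dvd_card_ts (by omega) hrΩ
    have hP : ∀ (f : End F (Fin n → F)) (c : F), c ≠ 0 → (∃ W : Submodule F _, finrank F W = m ∧
        TSU (uB σ n) W ∧ ∀ v ∈ W, f v ∈ W) → ∃ W : Submodule F _, finrank F W = m ∧
        TSU (uB σ n) W ∧ ∀ v ∈ W, (c • f) v ∈ W := fun f c _ ⟨W, h1, h2, h3⟩ =>
      ⟨W, h1, h2, smul_inv_of h3⟩
    obtain ⟨g, hg⟩ := hG.exists_primitiveRoot
    by_cases hr2 : r = 2
    · subst hr2
      have hD := hG.dt_two hrp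
      have hb1 := orderOf_card_two (F := F) hrp
      have h2 : (-1 : F) ≠ 1 := fun h => two_ne_zero_of_ne (F := F) hrp.symm (by
        linear_combination -h)
      simp only [hG.forall_iff hP, true_and, lt_irrefl, false_and, and_false, or_false, ne_eq,
        hrp.symm, not_false_eq_true]
      constructor
      · rintro ⟨H, -⟩
        by_contra! H1
        obtain ⟨f, f1, f2, f3, f4⟩ := hG.exists_model hD (w := 0) (o := 1) (by rw [hb1]; omega)
          (by rw [hb1]) (by simp)
        have f5 := hG.geom.finrank_fixS_add f1 hrp f2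
        rw [hb1, f3] at f5
        obtain ⟨c, hc1, hc2⟩ := exists_pow_eq_of_lt hg (by omega) (by omega) H1.2 (ω := -1) neg_one_sq
        obtain ⟨a, v, h3, h4, h5⟩ := (hG.exists_ts_iff hD f1 f2 (w := 0) (by omega) m).1
          (H f f1 f2 (ne_smul_of_movE (by omega) (ne_one_of_finrank_fixS (by omega)))
            ⟨c, hc1, by rw [hV, hc2, det_of_sq_eq_one hrp f2, f3]; simp⟩)
        obtain rfl : v = 0 := by omega
        omega
      · intro H
        refine ⟨fun f f1 f2 _ ⟨c, hc1, hc2⟩ => ?_, fun f z f1 _ f2 f3 =>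
          hG.NP_exists_ts f1 f3 f2 (by omega) (Or.inl rfl)⟩
        obtain ⟨w, hw⟩ := hG.geom.exists_card_movE' hD f1 f2
        have f5 := hG.geom.finrank_fixS_add f1 hrp f2
        have f6 := oG_le (D := True) hrp f2
        rw [hG.exists_ts_iff hD f1 f2 hw, hb1]
        rw [hb1] at f5 f6
        have f7 : 2 * m + oG True f ≤ n := by
          by_contra f7
          have h3 : c ^ n = -1 := by
            rw [hV, det_of_sq_eq_one hrp f2, hw, show oG True f = 1 by omega, pow_succ, pow_mul,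
              neg_one_sq, one_pow, one_mul] at hc2
            linear_combination -hc2
          have := lt_of_pow_eq (r := 2) (by omega) hc1 (h3 ▸ h2) (by rw [h3, neg_one_sq])
          omega
        exact ⟨m - min m w, min m w, by omega, by omega, by omega⟩
    have hD := hG.dt hrp hr2
    have hr3 := two_lt_of_ne hr2
    have hb' := hG.orderOf_card (r := r)
    have hc' := hG.cG_eq (r := r)
    rw [← hi] at hD hb' hc'
    rw [← hb] at hb'
    rw [← hc, hb'] at hc'
    simp only [hr2, false_and, false_or, ne_eq, hrp, not_false_eq_true, hr3, true_and]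
    by_cases hi2 : i = 2
    · have hb1 : b = 1 := by rw [hb, hi2]; rfl
      have hc1 : c = 1 := by rw [hc, hi2]; rfl
      have hD2 : i % 4 = 2 := by omega
      have hq1 := (dvd_add_one_iff hr2 q).2 (hi ▸ hi2)
      have hodd := Nat.odd_iff.1 (hr.odd_of_ne_two hr2)
      simp only [hG.forall_iff hP, hb1, hc1, Nat.mod_one, Nat.div_one, hm, hi2, lt_irrefl, false_or,
        true_and, mul_zero, le_refl, not_true_eq_false]
      rw [hb1] at hb'
      constructor
      · rintro ⟨H1, H2⟩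
        refine ⟨?_, ?_⟩
        · by_contra! h1
          obtain ⟨f, f1, f2, f3, f4, f5⟩ := hG.exists_model_one hD hD2 hr2 hb' (k := n / 2 - m + 1)
            (by omega) (by omega)
          have f6 := hG.geom.finrank_fixS_add f1 hrp f2
          obtain ⟨a, v, h3, h4, h5⟩ := (hG.exists_ts_iff hD f1 f2 (w := 0) (by omega) m).1
            (H1 f f1 f2 (ne_smul_of_oddc (by rw [← oG_pos hD2]; omega))
              ⟨1, one_pow _, by rw [one_pow, f3, one_mul]⟩)
          obtain rfl : v = 0 := by omega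
          rw [hb'] at f6
          omega
        · by_contra! h1
          obtain ⟨f, z, f1, f2, f3, f4⟩ := hG.exists_NP_iff.2 ⟨hq1, fun h => by rw [hV] at h; omega⟩
          obtain ⟨W, h3, -, h4⟩ := H2 f z f1 f2 f3 f4
          exact h1.1 (h3 ▸ hG.NP_dvd_of_ne hr2 f4 f3 h4)
      · rintro ⟨H1, H2⟩
        refine ⟨fun f f1 f2 _ _ => ?_, fun f z f1 f2 f3 f4 => hG.NP_exists_ts f1 f4 f3 (by omega)
          (Or.inr (H2.resolve_right fun h => (hG.exists_NP_iff.1 ⟨f, z, f1, f2, f3, f4⟩).2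
            ⟨hV.symm ▸ h, fun h => absurd h hr2⟩))⟩
        obtain ⟨w, hw⟩ := hG.geom.exists_card_movE' hD f1 f2
        have f5 := hG.geom.finrank_fixS_add f1 hrp f2
        have f6 := oG_le (D := i % 4 = 2) hrp f2
        rw [hG.exists_ts_iff hD f1 f2 hw, hb']
        rw [hb'] at f5 f6
        exact ⟨m - min m w, min m w, by omega, by omega, by omega⟩
    rw [hG.forall_iff_of_not_dvd hP fun h => hi2 (hi ▸ (dvd_add_one_iff hr2 q).1 h)]
    have hq0 := natCast_ne_zero_of_card (F := F) hrp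
    have hT := one_le_div_orderOf hq0
    have hb0 := orderOf_pos_of_ne_zero hq0
    rw [hb'] at hT hb0
    have key : b ≤ m → _ := ts_arith (n := n) (ε := 0) (D := i % 4 = 2) hb0 hT hmn
    simp only [add_zero, hc'] at key
    have h1 : (¬ i % 4 = 2 ∨ i % 4 = 2 ∧ (r - 1) / b + 2 * (m / b) ≤ n / b ∧
        (2 < i ∨ i = 2 ∧ (r ∣ m ∨ padicValNat r n ≤ padicValNat r (q + 1)))) ↔
        (¬ i % 4 = 2 ∨ (r - 1) / b + 2 * (m / b) ≤ n / b) :=
      ⟨fun h => h.imp_right fun h => h.2.1, fun h => or_iff_not_imp_left.2 fun h' =>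
        ⟨not_not.1 h', h.resolve_left h', Or.inl (by omega)⟩⟩
    rw [h1]
    constructor
    · intro H
      have h2 : b ≤ m := hb' ▸ hG.geom.le_of_forall_ts hrp
        ((hG.hasTS_iff hG.geom.nd_top).2 (by rwa [finrank_top, hV])) hrΩ H
      refine ⟨h2, (key h2).1 fun w o k h3 h4 h5 h6 => ?_⟩
      obtain ⟨f, f1, f2, f3, f4⟩ := hG.exists_model hD (w := w) (o := o) (by rw [hb']; omega)
        (hb' ▸ h5) h6
      have f5 := hG.geom.finrank_fixS_add f1 hrp f2
      have f6 := (hG.exists_ts_iff hD f1 f2 (w := w) (by omega) m).1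
        (H f f1 f2 (hG.geom.ne_one_of_card f1 hrp f2 (by omega)))
      rw [hb', f3, hV] at f5
      rwa [hb', show finrank F (fixS f) = k by omega] at f6
    · rintro ⟨h2, H⟩ f f1 f2 f3
      obtain ⟨w, hw⟩ := hG.geom.exists_card_movE' hD f1 f2
      have f5 := hG.geom.finrank_fixS_add f1 hrp f2
      have f6 := oG_le (D := i % 4 = 2) hrp f2
      rw [hG.exists_ts_iff hD f1 f2 hw, hb']
      rw [hb'] at f5 f6
      exact (key h2).2 H w _ _ (by rw [← hw, f5, hV])
        (hw ▸ hG.geom.card_pos_of_ne_one f1 hrp f2 f3) f6 oG_neg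

end Cfsg.Agent.S5953
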