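import Cfsg.Statements.S5954
import Cfsg.Agent.Cl.DerU3

set_option autoImplicit false
open scoped MatrixGroups
open Cfsg

namespace Cfsg.Agent.S5954

/-- Elements of prime order of PSU_n(q) with no fixed nondegenerate `m`-space. Here `T = PSU_n(q)` (`n ≥ 3`, `(n, q) ≠ (3, 2)`), realised through the matrices of determinant 1 over the field `F` with `q²` elements preserving the Hermitian form `h(u, v) = Σ u_i v_i^q`; an element of `T` of prime order `r` is such a matrix `x` with `x^r` scalar and `x` not scalar. For `r ≠ p` let `i` be the multiplicative order of `q` modulo `r`, `b = i/2` for `i` even and `b = i` for `i` odd, `c = i, i/2, 2i` according as `i ≡ 0, 2 (mod 4)` or `i` odd, and write `k = n mod c`, `ℓ = m mod b`, `ℓ' = m mod c`, `n' = ⌊n/b⌋`, `m' = ⌊m/b⌋`, `s = (r−1)/b`; `(a)_r` is the `r`-part of `a`. Let `1 ≤ m < n/2` and let `r` be a prime dividing the number of nondegenerate `m`-spaces. Then every element of `T` of order `r` fixes a nondegenerate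 `m`-space if and only if one of: (i) `r = p > 2` and every partition of `n` into parts of size at most `p` contains (as a sub-multiset) a partition of `m`; (ii) `r = p = 2` and (`n` is odd or `m` is even); (iii) `r = 2 ≠ p` and (`n` is odd, or `m` is even, or `(q+1)_2 ≥ (n)_2` and `q ≡ 3 (mod 4)`); (iv) `r ≠ p`, `r > 2`, and either `i ≠ 2`, `c ≤ m` and `k ≥ ℓ'`, or `i = 2` and (`r ∣ m` or `(q+1)_r ≥ (n)_r`). -/
theorem result {F : Type*} [Field F] [Fintype F] {p : ℕ} [Fact p.Prime] [CharP F p] {q : ℕ} (hq : Fintype.card F = q ^ 2)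
    (n m : ℕ) (hn : 3 ≤ n) (hT : (n, q) ≠ (3, 2)) (hm : 1 ≤ m) (hmn : 2 * m < n)
    (r : ℕ) [Fact r.Prime]
    (hrΩ : r ∣ Nat.card {W : Submodule F (Fin n → F) // Module.finrank F ↥W = m ∧ (∀ u ∈ W, u ≠ 0 → ∃ v ∈ W, Cfsg.hermForm n F q u v ≠ 0)})
    (i b c : ℕ) (hi : i = orderOf (q : ZMod r)) (hb : b = if Even i then i / 2 else i)
    (hc : c = if i % 4 = 0 then i else if i % 4 = 2 then i / 2 else 2 * i) :
    (∀ x : Matrix.SpecialLinearGroup (Fin n) F, x ∈ Cfsg.SU n F q →
      (∃ z : F, ((x ^ r : Matrix.SpecialLinearGroup (Fin n) F) : Matrix (Fin n) (Fin n) F) = z • (1 : Matrix (Fin n) (Fin n) F)) →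
      (∀ z : F, (x : Matrix (Fin n) (Fin n) F) ≠ z • (1 : Matrix (Fin n) (Fin n) F)) →
      ∃ W : Submodule F (Fin n → F), Module.finrank F ↥W = m ∧ (∀ u ∈ W, u ≠ 0 → ∃ v ∈ W, Cfsg.hermForm n F q u v ≠ 0) ∧
        W.map (Matrix.toLin' (x : Matrix (Fin n) (Fin n) F)) ≤ W) ↔
    ((r = p ∧ 2 < p ∧ (∀ μ : Multiset ℕ, (∀ a ∈ μ, 0 < a ∧ a ≤ p) → μ.sum = n → ∃ ν : Multiset ℕ, ν ≤ μ ∧ ν.sum = m)) ∨
     (r = p ∧ p = 2 ∧ (Odd n ∨ Even m)) ∨
     (r = 2 ∧ p ≠ 2 ∧ (Odd n ∨ Even m ∨ (padicValNat 2 n ≤ padicValNat 2 (q + 1) ∧ q % 4 = 3))) ∨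
     (r ≠ p ∧ 2 < r ∧ ((i ≠ 2 ∧ c ≤ m ∧ m % c ≤ n % c) ∨ (i = 2 ∧ (r ∣ m ∨ padicValNat r n ≤ padicValNat r (q + 1)))))) := by
  open Polynomial Module Cfsg.Agent.Cl.Cls Cfsg.Agent.Cl.Der in
  focus
    obtain ⟨σ, hσ⟩ := Cl.exists_uField hq
    have hG : GeomU (uB σ n) q := geomU_uB hσ
    have hV : finrank F (Fin n → F) = n := finrank_fin_fun F
    have : Nontrivial (Fin n → F) := Module.nontrivial_of_finrank_pos (R := F) (by omega)
    have hr := (Fact.out : r.Prime)
    simp only [nd_uB_iff hσ, map_le_iff] at hrΩ ⊢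
    refine (su_forall_iff hσ fun f => ∃ W : Submodule F _, finrank F W = m ∧
      ND (uB σ n) W ∧ ∀ v ∈ W, f v ∈ W).trans ?_
    have hP : ∀ (f : End F (Fin n → F)) (c : F), c ≠ 0 → (∃ W : Submodule F _, finrank F W = m ∧
        ND (uB σ n) W ∧ ∀ v ∈ W, f v ∈ W) → ∃ W : Submodule F _, finrank F W = m ∧
        ND (uB σ n) W ∧ ∀ v ∈ W, (c • f) v ∈ W := fun f c _ ⟨W, h1, h2, h3⟩ =>
      ⟨W, h1, h2, smul_inv_of h3⟩
    by_cases hrp : r = p
    · subst hrp
      have h1 : (∀ f, IsoU (uB σ n) f → f ^ r = 1 → f ≠ 1 → ∃ W : Submodule F _, finrank F W = m ∧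
          ND (uB σ n) W ∧ ∀ v ∈ W, f v ∈ W) ↔ ∀ μ : Multiset ℕ, (∀ a ∈ μ, 0 < a ∧ a ≤ r) →
          μ.sum = n → ∃ ν : Multiset ℕ, ν ≤ μ ∧ ν.sum = m := by
        constructor
        · intro H μ h3 h5
          by_cases h6 : ∀ a ∈ μ, a = 1
          · exact ⟨_, exists_le_sum_eq_of_forall_eq_one h6 (m := m) (by omega), by simp⟩
          push Not at h6
          obtain ⟨a, ha, ha1⟩ := h6
          obtain ⟨f, f1, f2, f3⟩ := hG.exists_unip h3 (h5.trans hV.symm)
          have f4 := degs_of_ed_eq_map f3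
          exact f4 ▸ (hG.exists_nd_unip_iff f1 f2 m).1 (H f f1 f2 (ne_one_of_mem_degs (f4 ▸ ha) ha1))
        · intro H f h hf _
          exact (hG.exists_nd_unip_iff h hf m).2 (H _
            (fun a ha => ⟨pos_of_mem_degs ha, le_of_mem_degs_char hf ha⟩) (by rw [sum_degs, hV]))
      rw [hG.forall_iff_of_not_dvd hP hG.not_char_dvd, h1]
      by_cases hr2 : r = 2
      · subst hr2
        simp only [true_and, lt_irrefl, false_and, false_or, ne_eq, not_true_eq_false, or_false]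
        constructor
        · intro H
          by_contra! H1
          rw [Nat.not_odd_iff_even, Nat.not_even_iff_odd] at H1
          obtain ⟨k, hk⟩ := H1.1
          obtain ⟨ν, h3, h4⟩ := H (Multiset.replicate k 2) (fun a ha => by
            rw [Multiset.eq_of_mem_replicate ha]
            omega) (by simp; omega)
          obtain ⟨l, -, rfl⟩ := Multiset.le_replicate_iff.1 h3
          have := Nat.odd_iff.1 H1.2
          simp at h4
          omega
        · intro H μ h3 h4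
          exact exists_le_of_one_two h3 (by omega) (h4 ▸ H)
      simp only [hr2, false_and, or_false, ne_eq, not_true_eq_false, two_lt_of_ne hr2, true_and]
    have key : ∀ D, DT σ r p D → cG D (orderOf ((Fintype.card F : ℕ) : ZMod r)) = 1 →
        ((∀ f, IsoU (uB σ n) f → LinearMap.det f = 1 → (∃ z : F, f ^ r = z • 1) →
          (∀ z : F, f ≠ z • 1) → ∃ W : Submodule F _, finrank F W = m ∧
          ND (uB σ n) W ∧ ∀ v ∈ W, f v ∈ W) ↔ r ∣ m ∨ ¬ r ∣ q + 1 ∨
          (padicValNat r n ≤ padicValNat r (q + 1) ∧ (r = 2 → Even n → (q + 1) % 4 = 0))) := by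
      intro D hD h1
      have h2 := hG.exists_NP_iff (r := r)
      rw [hV] at h2
      rw [hG.forall_iff hP, ← not_and_or.trans (or_congr_right not_not), ← h2]
      constructor
      · rintro ⟨-, H⟩
        refine or_iff_not_imp_right.2 fun h3 => ?_
        obtain ⟨f, z, f1, f2, f3, f4⟩ := not_not.1 h3
        obtain ⟨W, h4, h5, h6⟩ := H f z f1 f2 f3 f4
        exact h4 ▸ hG.NP_dvd f1 f4 f3 h6 h5
      · intro H
        exact ⟨fun f f1 f2 _ _ => hG.exists_nd_of_mod hD f1 f2 (by omega) (by rw [h1]; omega),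
          fun f z f1 f2 f3 f4 => hG.NP_exists_nd f1 f4 f3 (by omega)
            (H.resolve_right (not_not.2 ⟨f, z, f1, f2, f3, f4⟩))⟩
    by_cases hr2 : r = 2
    · subst hr2
      rw [key _ (hG.dt_two hrp) (by rw [cG_pos trivial, orderOf_card_two hrp])]
      have h1 := hG.odd_of_ne hrp
      have h2 : 1 ≤ padicValNat 2 (q + 1) := one_le_padicValNat_of_dvd (by omega) (by omega)
      have h3 : Odd n → padicValNat 2 n = 0 := fun h =>
        padicValNat.eq_zero_of_not_dvd (by have := Nat.odd_iff.1 h; omega)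
      simp only [hrp, Ne.symm hrp, false_and, false_or, true_and, lt_irrefl, and_false, or_false,
        ne_eq, not_false_eq_true, forall_const, Nat.even_iff, Nat.odd_iff] at h3 ⊢
      omega
    have hD := hG.dt hrp hr2
    have hr3 := two_lt_of_ne hr2
    have hc' := hG.cG_eq (r := r)
    rw [← hi] at hD hc'
    rw [← hc] at hc'
    simp only [hr2, false_and, false_or, ne_eq, hrp, not_false_eq_true, hr3, true_and] at key ⊢
    by_cases hi2 : i = 2
    · rw [key _ hD (by rw [hc', hc, hi2]; rfl)]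
      simp [hi2, (dvd_add_one_iff hr2 q).2 (hi ▸ hi2)]
    rw [hG.forall_iff_of_not_dvd hP fun h => hi2 (hi ▸ (dvd_add_one_iff hr2 q).1 h)]
    simp only [hi2, false_and, or_false, not_false_eq_true, true_and]
    constructor
    · intro H
      have h1 : c ≤ m := by
        by_contra! h1
        obtain ⟨Y, -, y1, y2⟩ := hG.exists_nd hG.geom.nd_top (a := m) (by rw [finrank_top]; omega)
        obtain ⟨f, f1, f2, f3, f4⟩ := hG.geom.exists_der_of_small hrp
          (fun W => finrank F W = m ∧ ND (uB σ n) W)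
          (fun f W h hW => ⟨(hG.geom.finrank_map h W).trans hW.1, h.nd_map hW.2⟩)
          (fun W W' h h' => hG.isom h.2 h'.2 (h.1.trans h'.1.symm))
          (fun f W h hf hW hW' => hG.geom.le_fixS_of_lt_cG hD h hf hW' hW.2 (hc' ▸ hW.1 ▸ h1)) hrΩ
          ⟨Y, y2, y1⟩
        obtain ⟨W, h3, h4, h5⟩ := H f f1 f2 f3
        exact f4 W ⟨h3, h4⟩ h5
      refine ⟨h1, ?_⟩
      have hq0 := natCast_ne_zero_of_card (F := F) hrp
      have h2 : 0 < c := hc' ▸ lt_cG (orderOf_pos_of_ne_zero hq0)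
      have h3 := Nat.div_add_mod' n c
      have h4 := Nat.mod_lt n h2
      obtain ⟨w, o, h5, h6, h7⟩ := exists_mul_cG (D := i % 4 = 2)
        (b := orderOf ((Fintype.card F : ℕ) : ZMod r)) (one_le_div_orderOf hq0) (n / c)
      rw [hc'] at h5
      obtain ⟨f, f1, f2, f3, -⟩ := hG.exists_model hD (w := w) (o := o) (by omega) h6 h7
      have f5 := hG.geom.finrank_fixS_add f1 hrp f2
      rw [f3] at f5
      obtain ⟨W, rfl, h8, h9⟩ := H f f1 f2 (ne_one_of_finrank_fixS (by omega))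
      have h10 := hG.geom.mod_cG_le hD f1 f2 h9 h8
      rw [hc'] at h10
      omega
    · rintro ⟨-, H⟩ f h hf -
      exact hG.exists_nd_of_mod hD h hf (by omega) (by rwa [hc', hV])

end Cfsg.Agent.S5954
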