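import Cfsg.Statements.S5955
import Cfsg.Agent.Cl.DerNum

set_option autoImplicit false
open scoped MatrixGroups
open Cfsg

namespace Cfsg.Agent.S5955

/-- Elements of prime order of PSp_n(q) with no fixed totally isotropic `m`-space. Here `T = PSp_n(q)` with `n = 2d ≥ 4`, `(n, q) ≠ (4, 2)`, realised through the symplectic matrices over the field `F` with `q` elements (preserving the standard alternating form); an element of `T` of prime order `r` is such a matrix `x` with `x^r` scalar and `x` not scalar. For `r ≠ p` let `i` be the multiplicative order of `q` modulo `r`, `c = i` for `i` even and `c = 2i` for `i` odd, and write `k = n mod c`, `ℓ = m mod i`, `ℓ' = m mod c`, `n' = ⌊n/i⌋`, `m' = ⌊m/i⌋`, `t = (r−1)/i`. Let `1 ≤ m ≤ n/2` and let `r` be a prime dividing the number of totally isotropic `m`-spaces. Then every element of `T` of order `r` fixes a totally isotropic `m`-space if and only if either (i) `r = 2 ≠ p` and (`m` is even or `q ≡ 1 (mod 4)`); or (ii) `r ≠ p`, `r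 > 2`, `i ≤ m`, `k ≥ 2ℓ`, and (`i` is odd or `n' − 2m' ≥ t`). -/
theorem result {F : Type*} [Field F] [Fintype F] {p : ℕ} [Fact p.Prime] [CharP F p] {q : ℕ} (hq : Fintype.card F = q)
    (d m : ℕ) (hd : 2 ≤ d) (hT : (d, q) ≠ (2, 2)) (hm : 1 ≤ m) (hmd : m ≤ d)
    (r : ℕ) [Fact r.Prime]
    (hrΩ : r ∣ Nat.card {W : Submodule F (Fin d ⊕ Fin d → F) // Module.finrank F ↥W = m ∧ (∀ u ∈ W, ∀ v ∈ W, Cfsg.sympForm d F u v = 0)})
    (i c : ℕ) (hi : i = orderOf (q : ZMod r)) (hc : c = if Even i then i else 2 * i) :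
    (∀ x : ↥(Matrix.symplecticGroup (Fin d) F),
      (∃ z : F, ((x ^ r : ↥(Matrix.symplecticGroup (Fin d) F)) : Matrix (Fin d ⊕ Fin d) (Fin d ⊕ Fin d) F) = z • (1 : Matrix (Fin d ⊕ Fin d) (Fin d ⊕ Fin d) F)) →
      (∀ z : F, (x : Matrix (Fin d ⊕ Fin d) (Fin d ⊕ Fin d) F) ≠ z • (1 : Matrix (Fin d ⊕ Fin d) (Fin d ⊕ Fin d) F)) →
      ∃ W : Submodule F (Fin d ⊕ Fin d → F), Module.finrank F ↥W = m ∧ (∀ u ∈ W, ∀ v ∈ W, Cfsg.sympForm d F u v = 0) ∧
        W.map (Matrix.toLin' (x : Matrix (Fin d ⊕ Fin d) (Fin d ⊕ Fin d) F)) ≤ W) ↔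
    ((r = 2 ∧ p ≠ 2 ∧ (Even m ∨ q % 4 = 1)) ∨
     (r ≠ p ∧ 2 < r ∧ i ≤ m ∧ 2 * (m % i) ≤ (2 * d) % c ∧ (Odd i ∨ (r - 1) / i + 2 * (m / i) ≤ (2 * d) / i))) := by
  open Polynomial Module Cfsg.Agent.Cl.Cls Cfsg.Agent.Cl.Der in
  focus
    subst hq hi
    change c = cOf _ at hc
    subst hc
    have hG : GeomA (Cl.spB d F) := geomA_spB
    have hV : finrank F (Fin d ⊕ Fin d → F) = 2 * d := Cl.sp_finrank_std
    have : Nontrivial (Fin d ⊕ Fin d → F) := Module.nontrivial_of_finrank_pos (R := F) (by omega)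
    simp only [ts_spB_iff, map_le_iff] at hrΩ ⊢
    refine (sp_forall_iff fun f => ∃ W : Submodule F _, finrank F W = m ∧
      TS (Cl.spB d F) (fun _ => (0 : F)) W ∧ ∀ v ∈ W, f v ∈ W).trans ?_
    obtain ⟨j, hj, hj'⟩ := (prime_dvd_prod_iff _ _).1
      (sp_ts_count (F := F) hmd ▸ hrΩ.mul_right (qfac (Fintype.card F) m))
    rw [Finset.mem_range] at hj
    have hrp : r ≠ p := fun h =>
      not_dvd_pow_sub_one (dvd_card_iff.2 h) Fintype.card_pos (by omega) hj'
    rw [dvd_pow_two_mul_sub_one_iff Fintype.card_pos] at hj'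
    by_cases hr2 : r = 2
    · subst hr2
      have h2 : (2 : F) ≠ 0 := two_ne_zero_of_ne hrp.symm
      simp only [hG.forall_two_iff h2, true_and, lt_irrefl, false_and, and_false, or_false, ne_eq,
        hrp.symm, not_false_eq_true, ← isSquare_neg_one_iff h2]
      constructor
      · rintro ⟨-, H⟩
        obtain ⟨f, h1, h3⟩ := hG.exists_sq_eq_neg_one h2
        obtain ⟨W, rfl, -, h4⟩ := H f h1 trivial h3
        exact or_iff_not_imp_right.2 fun h5 => even_of_sq_eq_neg_one h5 h3 h4
      · intro H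
        refine ⟨fun f h _ h1 _ _ => (hG.exists_ts_iff_sq h2 h h1 m).2 ?_, fun f h _ h1 => ?_⟩
        · have h3 := hG.nd_fixS h (isSemisimple_of_sq_eq_one h2 h1)
          obtain ⟨a, ha⟩ := hG.even h3
          have := hG.finrank_add_perp (fixS f)
          exact ⟨min a m, m - min a m, (hG.hasTS_iff h3).2 (by omega),
            (hG.hasTS_iff (hG.nd_perp h3)).2 (by omega), by omega⟩
        · by_cases h3 : IsSquare (-1 : F)
          · exact hG.exists_ts_of_isSquare h2 h h3 h1 (by omega)
          · obtain ⟨v, rfl⟩ := H.resolve_right h3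
            rw [← two_mul]
            exact hG.exists_ts_of_not_isSquare h2 h h3 h1 (by omega)
    rw [hG.forall_odd_iff ((Fact.out : r.Prime).odd_of_ne_two hr2) (fun _ _ _ => trivial)
      (fun f h => by simpa using h)]
    simp only [hr2, false_and, false_or, ne_eq, hrp, not_false_eq_true, two_lt_of_ne hr2, true_and]
    have hq := natCast_ne_zero_of_card (F := F) hrp
    have hT := one_le_div_orderOf hq
    have hi := orderOf_pos_of_ne_zero hq
    have key : ∀ w o, (2 * w + o) * orderOf ((Fintype.card F : ℕ) : ZMod r) ≤ 2 * d →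
        0 < 2 * w + o → o ≤ (r - 1) / orderOf ((Fintype.card F : ℕ) : ZMod r) →
        (Odd (orderOf ((Fintype.card F : ℕ) : ZMod r)) → o = 0) →
        (∀ f, IsoA (Cl.spB d F) f → f ^ r = 1 → f ≠ 1 → ∃ W : Submodule F _, finrank F W = m ∧
          TS (Cl.spB d F) (fun _ => (0 : F)) W ∧ ∀ v ∈ W, f v ∈ W) →
        ∃ a v, 2 * a + (2 * w + o) * orderOf ((Fintype.card F : ℕ) : ZMod r) ≤ 2 * d ∧ v ≤ w ∧
          m = a + v * orderOf ((Fintype.card F : ℕ) : ZMod r) := by
      intro w o h1 h2 h3 h4 H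
      obtain ⟨Y, -, h5, h6⟩ := hG.exists_nd hG.nd_top ((even_cOf _).trans_dvd (cOf_dvd_mul h4))
        (by rwa [finrank_top, hV])
      obtain ⟨f, f1, f2, f3, f4, f5⟩ := hG.exists_model hrp hr2 h5 h6 h3 h4
      have h7 := hG.finrank_add_perp Y
      obtain ⟨a, v, h8, h9, h10⟩ := (hG.exists_ts_iff_oInv f1 hrp hr2 f2 m).1 (H f f1 f2 (by
        rw [Ne, ← fixS_eq_top, f3]
        intro h8
        rw [h8, finrank_top] at h7
        have := Nat.mul_pos h2 hi
        omega))
      rw [f3, hG.hasTS_iff (hG.nd_perp h5)] at h8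
      exact ⟨a, v, by omega, by omega, h10⟩
    generalize hi' : orderOf ((Fintype.card F : ℕ) : ZMod r) = i at *
    generalize hT' : (r - 1) / i = T at *
    have hm1 := Nat.div_add_mod m i
    have hc := cOf_pos hi
    constructor
    · intro H
      have h1 : 2 * (m % i) ≤ 2 * d % cOf i := by
        obtain ⟨w, o, h1, h2, h3, -⟩ := exists_mul_cOf (i := i) hT (2 * d / cOf i)
        have h4 := Nat.div_add_mod' (2 * d) (cOf i)
        have h5 : 0 < 2 * d / cOf i := Nat.div_pos ((Nat.le_of_dvd (by omega) hj').trans (by omega)) hc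
        obtain ⟨a, v, h6, -, h7⟩ := key w o (by omega) (Nat.pos_of_mul_pos_right
          (h1 ▸ Nat.mul_pos h5 hc)) h2 h3 H
        have := mod_le_of_add_mul h7.symm
        omega
      have h2 : i ≤ m := by
        by_contra h2
        rw [Nat.mod_eq_of_lt (by omega)] at h1
        exact not_dvd_sub_of_lt_mod (c := cOf i) (n := 2 * d) (j := 2 * j) (by omega) (by rwa [← Nat.mul_sub])
      refine ⟨h2, h1, (Nat.even_or_odd i).symm.imp_right fun h3 => ?_⟩
      by_contra h4
      have h5 : 1 ≤ m / i := (Nat.one_le_div_iff hi).2 h2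
      have h6 : 2 * (m / i) ≤ 2 * d / i := (Nat.le_div_iff_mul_le hi).2 (by
        have := Nat.div_mul_le_self m i
        rw [mul_assoc]
        omega)
      have h7 := Nat.div_add_mod (2 * d) i
      have h8 := Nat.mod_lt (2 * d) hi
      obtain ⟨o, ho⟩ : ∃ o, 2 * d / i + 1 = 2 * (m / i) + o := ⟨_, (Nat.add_sub_cancel' (by omega)).symm⟩
      obtain ⟨a, v, h9, h10, h11⟩ := key 0 o ((Nat.le_div_iff_mul_le hi).1 (by omega)) (by omega)
        (by omega) (fun h => absurd h (Nat.not_odd_iff_even.2 h3)) H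
      obtain rfl : v = 0 := by omega
      have : i * (2 * d / i) + i = 2 * (i * (m / i)) + (2 * 0 + o) * i := by
        rw [← mul_add_one, ho]
        ring
      omega
    · rintro ⟨h1, h2, h3⟩ f h hf -
      have h4 := hG.finrank_fixS_add h hrp hf
      obtain ⟨w, h5⟩ := hG.exists_card_movE h hrp hr2 hf
      have h6 := oInv_le hrp hf
      have h7 := oInv_of_odd (r := r) (f := f)
      simp only [hG.exists_ts_iff_oInv h hrp hr2 hf,
        hG.hasTS_iff (hG.nd_fixS h (isSemisimple_of_pow_eq_one hrp hf))]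
      rw [hi', hT'] at h6
      rw [hi'] at h4 h7 ⊢
      rw [h5, hV] at h4
      rw [h5]
      generalize oInv r f = o at *
      have h8 := mod_le_of_dvd h4 (cOf_dvd_mul h7)
      rcases le_total (m / i) w with h9 | h9
      · exact ⟨m % i, m / i, by omega, by omega, by rw [mul_comm]; omega⟩
      · have h10 := Nat.mul_le_mul_left i h9
        refine ⟨m - w * i, w, ?_, le_rfl, by rw [mul_comm]; omega⟩
        suffices 2 * m + o * i ≤ 2 * d by
          rw [add_mul, mul_assoc] at h4
          omega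
        rcases Nat.even_or_odd i with h11 | h11
        · have h12 := Nat.mul_le_mul_left i (h3.resolve_left (Nat.not_odd_iff_even.2 h11))
          have h13 := Nat.mul_le_mul_left i h6
          have h14 := Nat.div_add_mod (2 * d) i
          rw [cOf_even h11] at h2
          nlinarith
        · rw [h7 h11]
          omega

end Cfsg.Agent.S5955
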