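import Cfsg.Statements.S5956
import Cfsg.Agent.Cl.DerSp2

set_option autoImplicit false
open scoped MatrixGroups
open Cfsg

namespace Cfsg.Agent.S5956

/-- Elements of prime order of PSp_n(q) with no fixed nondegenerate `m`-space. Here `T = PSp_n(q)` with `n = 2d ≥ 4`, `(n, q) ≠ (4, 2)`, realised through the symplectic matrices over the field `F` with `q` elements (preserving the standard alternating form); an element of `T` of prime order `r` is such a matrix `x` with `x^r` scalar and `x` not scalar. For `r ≠ p` let `i` be the multiplicative order of `q` modulo `r`, `c = i` for `i` even and `c = 2i` for `i` odd, and write `k = n mod c`, `ℓ = m mod i`, `ℓ' = m mod c`, `n' = ⌊n/i⌋`, `m' = ⌊m/i⌋`, `t = (r−1)/i`. Let `m` be even with `2 ≤ m < n/2` and let `r` be a prime dividing the number of nondegenerate `m`-spaces. Then every element of `T` of order `r` fixes a nondegenerate `m`-space if and only if one of: (i) `r = p > 2` and every partition of `n` into parts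 of size at most `p` in which every odd part has even multiplicity contains (as a sub-multiset) a partition of `m` in which every odd part has even multiplicity; (ii) `r = p = 2` and (`n ≡ 2 (mod 4)` or `m ≡ 0 (mod 4)`); (iii) `r = 2 ≠ p`; (iv) `r ≠ p`, `r > 2`, `c ≤ m` and `k ≥ ℓ'`. -/
theorem result {F : Type*} [Field F] [Fintype F] {p : ℕ} [Fact p.Prime] [CharP F p] {q : ℕ} (hq : Fintype.card F = q)
    (d m : ℕ) (hd : 2 ≤ d) (hT : (d, q) ≠ (2, 2)) (hm : 2 ≤ m) (hme : Even m) (hmd : m < d)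
    (r : ℕ) [Fact r.Prime]
    (hrΩ : r ∣ Nat.card {W : Submodule F (Fin d ⊕ Fin d → F) // Module.finrank F ↥W = m ∧ (∀ u ∈ W, u ≠ 0 → ∃ v ∈ W, Cfsg.sympForm d F u v ≠ 0)})
    (i c : ℕ) (hi : i = orderOf (q : ZMod r)) (hc : c = if Even i then i else 2 * i) :
    (∀ x : ↥(Matrix.symplecticGroup (Fin d) F),
      (∃ z : F, ((x ^ r : ↥(Matrix.symplecticGroup (Fin d) F)) : Matrix (Fin d ⊕ Fin d) (Fin d ⊕ Fin d) F) = z • (1 : Matrix (Fin d ⊕ Fin d) (Fin d ⊕ Fin d) F)) →
      (∀ z : F, (x : Matrix (Fin d ⊕ Fin d) (Fin d ⊕ Fin d) F) ≠ z • (1 : Matrix (Fin d ⊕ Fin d) (Fin d ⊕ Fin d) F)) →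
      ∃ W : Submodule F (Fin d ⊕ Fin d → F), Module.finrank F ↥W = m ∧ (∀ u ∈ W, u ≠ 0 → ∃ v ∈ W, Cfsg.sympForm d F u v ≠ 0) ∧
        W.map (Matrix.toLin' (x : Matrix (Fin d ⊕ Fin d) (Fin d ⊕ Fin d) F)) ≤ W) ↔
    ((r = p ∧ 2 < p ∧ (∀ μ : Multiset ℕ, (∀ a ∈ μ, 0 < a ∧ a ≤ p) → (∀ a : ℕ, Odd a → Even (μ.count a)) → μ.sum = 2 * d →
        ∃ ν : Multiset ℕ, ν ≤ μ ∧ ν.sum = m ∧ ∀ a : ℕ, Odd a → Even (ν.count a))) ∨
     (r = p ∧ p = 2 ∧ ((2 * d) % 4 = 2 ∨ m % 4 = 0)) ∨
     (r = 2 ∧ p ≠ 2) ∨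
     (r ≠ p ∧ 2 < r ∧ c ≤ m ∧ m % c ≤ (2 * d) % c)) := by
  open Polynomial Module Cfsg.Agent.Cl.Cls Cfsg.Agent.Cl.Der in
  focus
    subst hq hi
    change c = cOf _ at hc
    subst hc
    have hG : GeomA (Cl.spB d F) := geomA_spB
    have hV : finrank F (Fin d ⊕ Fin d → F) = 2 * d := Cl.sp_finrank_std
    have : Nontrivial (Fin d ⊕ Fin d → F) := Module.nontrivial_of_finrank_pos (R := F) (by omega)
    simp only [nd_spB_iff, map_le_iff] at hrΩ ⊢
    refine (sp_forall_iff fun f => ∃ W : Submodule F _, finrank F W = m ∧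
      ND (Cl.spB d F) W ∧ ∀ v ∈ W, f v ∈ W).trans ?_
    have hr := (Fact.out : r.Prime)
    by_cases hrp : r = p
    · subst hrp
      by_cases hr2 : r = 2
      · subst hr2
        have h2 : (2 : F) = 0 := two_eq_zero_of_eq rfl
        simp only [hG.forall_char_two_iff h2, true_and, lt_irrefl, false_and, false_or, ne_eq,
          not_true_eq_false, or_false]
        obtain ⟨b, rfl⟩ := hme
        constructor
        · intro H
          by_contra! H1
          obtain ⟨U, -, h3, h4⟩ := (hG.hasTS_iff hG.nd_top (a := d)).2 (by rw [finrank_top, hV])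
          obtain ⟨f, hf⟩ := hG.exists_aType (hG.symm_of_two h2) h3
            (Nat.even_iff.2 (by omega))
          obtain ⟨W, h5, h6, h7⟩ := H f hf.iso trivial (hf.pow_char hG)
            (by simpa using hf.ne_smul hG (by omega) 1)
          obtain ⟨a, a', h8, h9, h10⟩ := hf.exists_hasTS hG h7 h6
          rw [hG.hasTS_iff h6] at h8
          rw [hG.hasTS_iff (hG.nd_perp h6)] at h9
          have := hG.finrank_add_perp W
          omega
        · intro H f h _ hf _
          obtain ⟨Y, -, h3, h4, h5⟩ := hG.exists_nd_of_two h2 h hf (W := ⊤) (fun _ _ => trivial) hG.nd_top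
            (a := d) (b := b) (by rw [finrank_top, hV]) (by omega)
            (by rw [Nat.even_iff, Nat.odd_iff]; omega)
          exact ⟨Y, by omega, h4, h3⟩
      have h2 : (2 : F) ≠ 0 := two_ne_zero_of_ne hr2
      rw [hG.forall_odd_iff (hr.odd_of_ne_two hr2) (fun _ _ _ => trivial)
        (fun f h => by simpa using h)]
      simp only [hr2, false_and, or_false, ne_eq, not_true_eq_false, two_lt_of_ne hr2, true_and]
      constructor
      · intro H μ h3 h4 h5
        by_cases h6 : ∀ a ∈ μ, a = 1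
        · exact ⟨_, exists_le_sum_eq_of_forall_eq_one h6 (m := m) (by omega), by simp,
            fun a _ => even_count_replicate hme _ _⟩
        push Not at h6
        obtain ⟨a, ha, ha1⟩ := h6
        obtain ⟨f, f1, f2⟩ := (hG.realOn_unip hG.nd_top (fun a ha => (h3 a ha).1) h4
          (by rw [finrank_top, hV, h5])).top
        have f3 := pow_char_eq_one_of_ed f2 fun a ha => (h3 a ha).2
        have f4 := degs_of_ed_eq_map f2
        obtain ⟨W, h6, h7, h8⟩ := H f f1 f3 (ne_one_of_mem_degs (f4 ▸ ha) ha1)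
        exact ⟨_, f4 ▸ hG.degs_restrict_le f1 h8 h7, by rw [sum_degs, h6], fun a ha =>
          (hG.unip_eps h2 hG.eps f1 (sub_one_pow_char' f3) h8 h7).1 a ha.add_one⟩
      · intro H f h hf _
        obtain ⟨h3, h4⟩ := hG.unip_eps h2 hG.eps h (sub_one_pow_char' hf) (W := ⊤)
          (fun _ _ => Submodule.mem_top) hG.nd_top
        rw [degs_restrict_top] at h3 h4
        obtain ⟨ν, h5, h6, h7⟩ := H (degs f)
          (fun a ha => ⟨pos_of_mem_degs ha, le_of_mem_degs_char hf ha⟩)
          (fun a ha => h3 a ha.add_one) (by rw [sum_degs, hV])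
        obtain ⟨Y, y1, -, y2, y3⟩ := h4 ν h5 fun a ha => h7 a (by simpa [Nat.even_add_one] using ha)
        exact ⟨Y, by rw [finrank_eq_sum_degs y1, y3, h6], y2, y1⟩
    by_cases hr2 : r = 2
    · subst hr2
      have h2 : (2 : F) ≠ 0 := two_ne_zero_of_ne (Ne.symm hrp)
      refine iff_of_true (fun f h _ ⟨z, hz⟩ _ => ?_) (Or.inr (Or.inr (Or.inl ⟨rfl, Ne.symm hrp⟩)))
      exact hG.exists_nd_of_sq_top h2 h (hG.sq_cases h hz) hme (by omega)
    rw [hG.forall_odd_iff (hr.odd_of_ne_two hr2) (fun _ _ _ => trivial)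
      (fun f h => by simpa using h)]
    simp only [hr2, false_and, false_or, ne_eq, hrp, not_false_eq_true, two_lt_of_ne hr2, true_and]
    constructor
    · intro H
      have h1 : cOf (orderOf ((Fintype.card F : ℕ) : ZMod r)) ≤ m := by
        by_contra! h1
        obtain ⟨Y, -, y1, y2⟩ := hG.exists_nd hG.nd_top hme (by rw [finrank_top]; omega)
        obtain ⟨f, f1, f2, f3, f4⟩ := hG.exists_der_of_small hrp
          (fun W => finrank F W = m ∧ ND (Cl.spB d F) W)
          (fun f W h hW => ⟨(hG.finrank_map h W).trans hW.1, h.nd_map hW.2⟩)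
          (fun W W' h h' => hG.isom h.2 h'.2 (h.1.trans h'.1.symm))
          (fun f W h hf hW hW' => hG.le_fixS_of_nd_lt h hrp hr2 hf hW' hW.2 (hW.1 ▸ h1)) hrΩ
          ⟨Y, y2, y1⟩
        obtain ⟨W, h3, h4, h5⟩ := H f f1 f2 f3
        exact f4 W ⟨h3, h4⟩ h5
      refine ⟨h1, ?_⟩
      have h3 := Nat.div_add_mod' (2 * d) (cOf (orderOf ((Fintype.card F : ℕ) : ZMod r)))
      have h4 := Nat.mod_lt (2 * d)
        (cOf_pos (orderOf_pos_of_ne_zero (natCast_ne_zero_of_card (F := F) hrp)))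
      obtain ⟨f, f1, f2, f3⟩ := hG.exists_blocks hrp hr2
        (s := 2 * d / cOf (orderOf ((Fintype.card F : ℕ) : ZMod r))) (by omega)
      obtain ⟨W, rfl, h5, h6⟩ := H f f1 f2 (ne_one_of_finrank_fixS (by omega))
      have h7 := (hG.mod_le_inf_fixS f1 hrp hr2 f2 h6 h5).trans (Submodule.finrank_mono inf_le_right)
      omega
    · rintro ⟨-, H⟩ f h hf -
      have h3 := hG.mod_le_inf_fixS h hrp hr2 hf (W := ⊤) (fun _ _ => trivial) hG.nd_top
      rw [finrank_top, hV] at h3
      obtain ⟨Y, -, y1, y2, y3, -⟩ := hG.exists_nd_of_mod h hrp hr2 hf (W := ⊤) (fun _ _ => trivial)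
        hG.nd_top hme (k := 0) (by rw [finrank_top]; omega) (by omega)
      exact ⟨Y, y3, y2, y1⟩

end Cfsg.Agent.S5956
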