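import Cfsg.Statements.S5957
import Cfsg.Agent.Cl.DerPerm

set_option autoImplicit false
open scoped MatrixGroups
open Cfsg

namespace Cfsg.Agent.S5957

/-- Involutions of PSL_n(q) and imprimitive subgroups. Here `T = PSL_n(F)` for a field `F` with `q = p^f` elements (`n ≥ 2`, `(n, q) ≠ (2, 2), (2, 3)`), `n = a·t` with `t ≥ 2`, and Ω is the set of direct-sum decompositions of `F^n` into `t` subspaces of dimension `a` (unordered; their number is the number of ordered ones divided by `t!`), whose stabilizers are the imprimitive subgroups of type GL_a(q) ≀ S_t (maximal except in some small cases; maximality is not assumed); an element of `T` of prime order `r` (a matrix `x` of determinant 1 with `x^r` scalar, `x` not scalar) fixes a point of Ω when it permutes the summands of some such decomposition. If the number of such decompositions is even, then every involution of `T` stabilizes one of them (the action is 2-elusive). -/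
theorem result {F : Type*} [Field F] [Fintype F] {p : ℕ} [Fact p.Prime] [CharP F p] {q : ℕ} (hq : Fintype.card F = q)
    (n a t : ℕ) (hn : 2 ≤ n) (hT : (n, q) ≠ (2, 2) ∧ (n, q) ≠ (2, 3)) (hat : n = a * t) (ha : 1 ≤ a) (ht : 2 ≤ t)
    (hΩ : 2 ∣ Nat.card {D : Fin t → Submodule F (Fin n → F) // Cfsg.Geo.IsMDecomposition a D} / Nat.factorial t)
    (x : Matrix.SpecialLinearGroup (Fin n) F)
    (hx1 : ∃ z : F, ((x ^ 2 : Matrix.SpecialLinearGroup (Fin n) F) : Matrix (Fin n) (Fin n) F) = z • (1 : Matrix (Fin n) (Fin n) F))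
    (hx2 : ∀ z : F, (x : Matrix (Fin n) (Fin n) F) ≠ z • (1 : Matrix (Fin n) (Fin n) F)) :
    ∃ D : Fin t → Submodule F (Fin n → F), Cfsg.Geo.IsMDecomposition a D ∧
        ∃ σ : Equiv.Perm (Fin t), ∀ j, (D j).map (Matrix.toLin' (x : Matrix (Fin n) (Fin n) F)) = D (σ j) := by
  open Polynomial Module Cfsg.Agent.Cl.Cls Cfsg.Agent.Cl.Der in
  focus
    obtain ⟨z, hz⟩ := hx1
    have hf : (Matrix.toLin' (x : Matrix (Fin n) (Fin n) F) : End F (Fin n → F)) ^ 2 = z • 1 :=
      toLin'_pow_eq_smul.2 hz
    have hu := isUnit_toLin'_SL x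
    generalize Matrix.toLin' (x : Matrix (Fin n) (Fin n) F) = f at hf hu
    have hfr : finrank F (Fin n → F) = a * t := by simp [hat]
    suffices h : PDon f ⊤ a t by
      obtain ⟨D, h1, h2, h3, h4⟩ := h.exists_decomp hu hfr
      exact ⟨D, ⟨ht, ha, h1, h2, h3⟩, h4⟩
    obtain ⟨k, s, hd⟩ : ∃ k s, degs f = oneA k s 2 := eq_replicate_add_of_mem fun b hb => by
      have h1 := pos_of_mem_degs hb
      obtain ⟨e, he, rfl⟩ := Multiset.mem_map.1 hb
      have h2 := natDegree_le_of_dvd (dvd_of_mem_ed (aeval_X_pow_sub_C_eq_zero.2 hf) he)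
        (X_pow_sub_C_ne_zero two_pos z)
      rw [natDegree_X_pow_sub_C] at h2
      omega
    by_cases hk : t * (a % 2) ≤ k
    · exact PDon.of_oneA two_pos hd hfr hk
    have hs := sum_degs f
    rw [hd, sum_oneA, hfr] at hs
    obtain ⟨b, rfl⟩ : ∃ b, a = 2 * b + 1 := by
      refine ⟨a / 2, ?_⟩
      rcases Nat.mod_two_eq_zero_or_one a with h | h
      · simp [h] at hk
      · omega
    rw [show (2 * b + 1) % 2 = 1 by omega, mul_one, not_le] at hk
    obtain ⟨w, rfl⟩ : ∃ w, t = k + w * 2 := ⟨(t - k) / 2, by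
      rw [add_mul, mul_assoc, one_mul] at hs
      omega⟩
    obtain rfl : s = b * k + w * (2 * b + 1) := by nlinarith
    rw [← add_zero k, oneA_add] at hd
    obtain ⟨P, Q, hP, hQ, hc, h1, h2⟩ := exists_isCompl_of_degs_eq_add hd
    refine hc.sup_eq_top ▸ (PDon.of_restrict hP (PDon.of_oneA two_pos h1 ?_ ?_)).sup
      (PDon.of_restrict hQ (PDon.of_card_ed_mul two_pos (restrict_pow_eq hf hQ) ?_))
    · rw [← sum_degs (f.restrict hP), h1, sum_oneA]
      ring
    · rw [show (2 * b + 1) % 2 = 1 by omega, mul_one]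
    · have h3 := congrArg Multiset.card h2
      rw [degs, Multiset.card_map, oneA_zero_left, Multiset.card_replicate] at h3
      exact h3.le

end Cfsg.Agent.S5957
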