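import Cfsg.Statements.S5958
import Cfsg.Agent.Cl.DerPerm

set_option autoImplicit false
open scoped MatrixGroups
open Cfsg

namespace Cfsg.Agent.S5958

/-- Elements of odd prime order of PSL_n(q) and imprimitive subgroups. Here `T = PSL_n(F)` for a field `F` with `q = p^f` elements (`n ≥ 2`, `(n, q) ≠ (2, 2), (2, 3)`), `n = a·t` with `t ≥ 2`, and Ω is the set of direct-sum decompositions of `F^n` into `t` subspaces of dimension `a` (unordered; their number is the number of ordered ones divided by `t!`), whose stabilizers are the imprimitive subgroups of type GL_a(q) ≀ S_t (maximal except in some small cases; maximality is not assumed); an element of `T` of prime order `r` (a matrix `x` of determinant 1 with `x^r` scalar, `x` not scalar) fixes a point of Ω when it permutes the summands of some such decomposition. Let `r ≠ p` be an odd prime dividing the number of such decompositions, let `c` be the multiplicative order of `q` modulo `r`, and write `k = n mod c`, `ℓ = a mod c`. Then every element of `T` of order `r` stabilizes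 such a decomposition if and only if either `a = 1`, `c = r − 1 > 1` and `n ≤ k·r`, or `c ≤ a` and `k = t·ℓ`. -/
theorem result {F : Type*} [Field F] [Fintype F] {p : ℕ} [Fact p.Prime] [CharP F p] {q : ℕ} (hq : Fintype.card F = q)
    (n a t : ℕ) (hn : 2 ≤ n) (hT : (n, q) ≠ (2, 2) ∧ (n, q) ≠ (2, 3)) (hat : n = a * t) (ha : 1 ≤ a) (ht : 2 ≤ t)
    (r : ℕ) [Fact r.Prime] (hr2 : r ≠ 2) (hrp : r ≠ p) (hΩ : r ∣ Nat.card {D : Fin t → Submodule F (Fin n → F) // Cfsg.Geo.IsMDecomposition a D} / Nat.factorial t)
    (c : ℕ) (hc : c = orderOf (q : ZMod r)) :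
    (∀ x : Matrix.SpecialLinearGroup (Fin n) F,
      (∃ z : F, ((x ^ r : Matrix.SpecialLinearGroup (Fin n) F) : Matrix (Fin n) (Fin n) F) = z • (1 : Matrix (Fin n) (Fin n) F)) →
      (∀ z : F, (x : Matrix (Fin n) (Fin n) F) ≠ z • (1 : Matrix (Fin n) (Fin n) F)) →
      ∃ D : Fin t → Submodule F (Fin n → F), Cfsg.Geo.IsMDecomposition a D ∧
        ∃ σ : Equiv.Perm (Fin t), ∀ j, (D j).map (Matrix.toLin' (x : Matrix (Fin n) (Fin n) F)) = D (σ j)) ↔
    ((a = 1 ∧ 1 < c ∧ c = r - 1 ∧ n ≤ (n % c) * r) ∨ (c ≤ a ∧ n % c = t * (a % c))) := by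
  open Polynomial Module Cfsg.Agent.Cl.Cls Cfsg.Agent.Cl.Der in
  focus
    classical
    subst hq
    have hr := (Fact.out : r.Prime)
    have hfr : finrank F (Fin n → F) = a * t := by simp [hat]
    have hF : (r : F) ≠ 0 := natCast_ne_zero_of_ne hrp
    have hc0 : 0 < c := hc ▸ orderOf_pos_of_ne_zero (natCast_ne_zero_of_card (F := F) hrp)
    have hcr : c ≤ r - 1 := hc ▸ orderOf_le_sub_one (natCast_ne_zero_of_card (F := F) hrp)
    have hne : ∀ D : Fin t → Submodule F (Fin n → F), (∀ j, finrank F (D j) = a) → ∀ j, D j ≠ ⊥ :=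
      fun D h3 j h0 => by have := h3 j; rw [h0, finrank_bot] at this; omega
    constructor
    · intro h
      by_cases hc1 : c = 1
      · exact Or.inr ⟨by omega, by simp [hc1, Nat.mod_one]⟩
      have hcn : c ≤ n := by
        obtain ⟨D, h1, h2, h3, -⟩ := (PDon.of_oneA (f := (1 : End F (Fin n → F))) (k := a * t) (s := 0)
          one_pos (by rw [degs_of_scalar (c := 1) (by simp), hfr]; simp [oneA]) hfr
          (by simp [Nat.mod_one])).exists_decomp isUnit_one hfr
        have h4 := dvd_of_dvd_div (factorial_dvd_card _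
          (fun D σ hD => ⟨hD.1, hD.2, fun j => hD.3 _, hD.4.comp σ.injective,
            σ.iSup_comp.trans hD.5⟩) fun D hD => hD.4.injective (hne D hD.3)) hΩ
        rw [card_family_eq_index (Units.coeHom (End F (Fin n → F))) _ D] at h4
        · rw [hc]
          refine orderOf_le_of_dvd_card_GL hrp (h4.trans ?_)
          rw [Nat.card_congr Matrix.GeneralLinearGroup.toLin.toEquiv]
          exact Subgroup.index_dvd_card _
        · intro E
          constructor
          · intro hE
            obtain ⟨g, -, hg⟩ := exists_equiv_map_eq h2 h3 hE.4 hE.5 fun j =>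
              LinearEquiv.ofFinrankEq _ _ ((h1 j).trans (hE.3 j).symm)
            exact ⟨LinearMap.GeneralLinearGroup.ofLinearEquiv g, hg⟩
          · rintro ⟨g, hg⟩
            let e := LinearMap.GeneralLinearGroup.toLinearEquiv g
            have h5 : E = (Submodule.orderIsoMapComap e) ∘ D := funext fun j => (hg j).symm
            refine ⟨ht, ha, fun j => ?_, h5 ▸ h2.map_orderIso _, ?_⟩
            · rw [← hg j, ← h1 j]
              exact LinearEquiv.finrank_map_eq e _
            · rw [h5]
              change ⨆ j, Submodule.orderIsoMapComap e (D j) = ⊤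
              rw [← OrderIso.map_iSup, show ⨆ j, D j = ⊤ from h3, map_top]
      have key : ∀ k s, s ≠ 0 → k + s * c = n → ∃ (f : End F (Fin n → F))
          (D : Fin t → Submodule F (Fin n → F)) (σ : Equiv.Perm (Fin t)), f ^ r = 1 ∧
          Function.Injective f ∧ finrank F (LinearMap.ker (f - 1)) = k ∧
          (∀ j, finrank F (D j) = a) ∧ iSupIndep D ∧
          iSup D = ⊤ ∧ (∀ j, ∀ v ∈ D j, f v ∈ D (σ j)) ∧ σ ^ r = 1 ∧
          ((∀ j, σ j = j) → c ≤ a ∧ t * (a % c) ≤ k) := fun k s hs hks => by
        obtain ⟨x, h1, h2⟩ := exists_SL_oneA (ι := Fin n) hrp (hc ▸ hc1) (k := k) (s := s)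
          (by rw [← hc, hks, Fintype.card_fin])
        obtain ⟨D, ⟨-, -, h3, h4, h6⟩, σ, hσ⟩ := h x ⟨1, by rw [one_smul]; exact h1⟩
          (not_scalar_of_mem_degs' (h2 ▸ mem_oneA hs) (hc ▸ hc1))
        rw [← toLin'_pow_eq_one] at h1
        have hu := isUnit_toLin'_SL x
        generalize Matrix.toLin' (x : Matrix (Fin n) (Fin n) F) = f at h1 h2 hσ hu
        have hσ' : ∀ j, ∀ v ∈ D j, f v ∈ D (σ j) := fun j v hv => hσ j ▸ ⟨v, hv, rfl⟩
        refine ⟨f, D, σ, h1, LinearMap.ker_eq_bot.1 ((LinearMap.isUnit_iff_ker_eq_bot f).1 hu),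
          finrank_ker_of_degs_eq_oneA hrp h1 (hc ▸ hc1) h2, h3, h4, h6, hσ',
          perm_pow_eq_one h4 (hne D h3) hσ' one_ne_zero (h1.trans (one_smul F _).symm),
          fun hfix => ?_⟩
        have hσ'' : ∀ j, ∀ v ∈ D j, f v ∈ D j := fun j v hv => hfix j ▸ hσ' j v hv
        have h7 := degs_eq_sum_restrict f h4 h6 hσ''
        rw [h2, ← hc] at h7
        have h8 := le_of_split_oneA (m := a) hc1 h7.symm fun j => by rw [sum_degs, h3]
        rw [Fintype.card_fin] at h8
        refine ⟨not_lt.1 fun hlt => ?_, h8⟩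
        rw [Nat.mod_eq_of_lt hlt, mul_comm, ← hat] at h8
        have := Nat.mul_pos (Nat.pos_of_ne_zero hs) hc0
        omega
      obtain ⟨f, D, σ, h1, h2, h3, h4, h5, h6, h7, h8, h9⟩ := key (n % c) (n / c)
        (Nat.div_pos hcn hc0).ne' (Nat.mod_add_div' n c)
      have hlt := Nat.mod_lt n hc0
      by_cases hfix : ∀ j, σ j = j
      · obtain ⟨h10, h11⟩ := h9 hfix
        refine Or.inr ⟨h10, ?_⟩
        rw [← Nat.mod_eq_of_lt (h11.trans_lt hlt), Nat.mul_mod_mod, hat, mul_comm]
      push Not at hfix
      obtain ⟨j, hj⟩ := hfix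
      have h10 := finrank_le_ker_of_moved h5 h6 h7 hr h8 h1 hj
      rw [h4, h3] at h10
      obtain ⟨f', D', σ', -, h2', h3', h4', h5', h6', h7', h8', h9'⟩ := key (n - c) 1 one_ne_zero
        (by omega)
      have hfix' : ¬ ∀ j, σ' j = j := fun hfix => by have := (h9' hfix).1; omega
      push Not at hfix'
      obtain ⟨j', hj'⟩ := hfix'
      have h11 := finrank_mul_le_of_moved h5' h6' h7' hr h8' h2' hj'
      rw [h4', h3', finrank_fin_fun] at h11
      have ha1 : a = 1 := by
        by_contra ha1
        have : (r - 1) * 2 ≤ (r - 1) * a := Nat.mul_le_mul_left _ (by omega)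
        omega
      subst ha1
      refine Or.inl ⟨rfl, by omega, by omega, ?_⟩
      obtain ⟨R, hR, hR'⟩ := exists_orbit_reps σ hr.pos h8
      have h12 := (sum_finrank_le_range h5 h6 h7 hr h8 R hR fun j _ hj => ⟨hF, fun v hv => ?_⟩).trans
        (Submodule.finrank_mono (range_geom_sum_le_ker h1))
      · rw [Finset.sum_congr rfl fun j _ => h4 j, Finset.sum_const, smul_eq_mul, mul_one, h3] at h12
        rw [hat, one_mul] at h12 ⊢
        exact hR'.trans (Nat.mul_le_mul_right r h12)
      · have hD : ∀ v ∈ D j, f v ∈ D j := fun v hv => hj ▸ h7 j v hv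
        have h13 : f.restrict hD ^ r = 1 :=
          (restrict_pow_eq (h1.trans (one_smul F _).symm) hD).trans (one_smul F _)
        obtain ⟨k, s, h14⟩ := exists_degs_eq_oneA hrp h13
        have h15 := finrank_ker_of_degs_eq_oneA hrp h13 (hc ▸ hc1) h14
        have h16 := sum_degs (f.restrict hD)
        rw [h14, sum_oneA, h4, ← hc] at h16
        have hs : s = 0 := by
          by_contra hs
          have : 1 * c ≤ s * c := Nat.mul_le_mul_right _ (Nat.pos_of_ne_zero hs)
          omega
        have h17 : LinearMap.ker (f.restrict hD - 1) = ⊤ :=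
          Submodule.eq_top_of_finrank_eq (by rw [h15, h4]; simpa [hs] using h16)
        have h18 : (⟨v, hv⟩ : D j) ∈ LinearMap.ker (f.restrict hD - 1) := h17 ▸ Submodule.mem_top
        rw [LinearMap.mem_ker, LinearMap.sub_apply, sub_eq_zero] at h18
        exact congrArg Subtype.val h18
    · rintro h x ⟨z, hz⟩ -
      have hf := toLin'_pow_eq_smul.2 hz
      have hu := isUnit_toLin'_SL x
      rw [Matrix.SpecialLinearGroup.coe_pow, ← toLin'_pow_eq_smul] at hz
      generalize Matrix.toLin' (x : Matrix (Fin n) (Fin n) F) = f at hz hu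
      suffices h : PDon f ⊤ a t by
        obtain ⟨D, h1, h2, h3, h4⟩ := h.exists_decomp hu hfr
        exact ⟨D, ⟨ht, ha, h1, h2, h3⟩, h4⟩
      rcases pow_cases f hu hz with ⟨d, hd, h1⟩ | ⟨-, h1, k, h2, h3, -⟩
      · refine PDon.of_smul hd ?_
        generalize d⁻¹ • f = g at h1
        rcases h with ⟨rfl, hc1, hc2, h⟩ | ⟨-, h⟩
        · have hΦ : ∀ e ∈ ed g, e = X - C 1 ∨ e = cyclotomic r F := fun e he => by
            obtain ⟨h2, h3 | h3⟩ := mem_ed_of_pow_eq_one hF h1 he
            · exact Or.inl h3
            · refine Or.inr (eq_of_monic_of_dvd_of_natDegree_le (isPP_of_mem_ed he).monic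
                (cyclotomic.monic r F) h3 ?_).symm
              rw [natDegree_of_dvd_cyclotomic hrp h2 h3, ← hc, natDegree_cyclotomic,
                Nat.totient_prime hr, hc2]
          obtain ⟨k, s, h2⟩ := eq_replicate_add_of_mem hΦ
          have h3 := sum_natDegree_ed g
          rw [h2, Multiset.map_add, Multiset.map_replicate, Multiset.map_replicate, natDegree_X_sub_C,
            natDegree_cyclotomic, Nat.totient_prime hr, ← hc2, finrank_fin_fun] at h3
          change (oneA k s c).sum = n at h3
          rw [sum_oneA] at h3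
          have h4 : n ≤ k * r := h.trans (Nat.mul_le_mul_right r (mod_le_of_add_mul h3))
          have hrc : r = c + 1 := by omega
          have h5 : s ≤ k := by
            rw [hrc, mul_add, mul_one] at h4
            exact Nat.le_of_mul_le_mul_right (by omega : s * c ≤ k * c) hc0
          obtain ⟨u, rfl⟩ := Nat.exists_eq_add_of_le h5
          have h6 : t = u + s * r := by rw [hrc, mul_add]; omega
          rw [h6]
          refine PDon.of_ed_eq_add (s := Multiset.replicate u (X - C 1))
            (s' := ∑ _j : Fin s, {X - C 1, cyclotomic r F}) ?_ (fun U hU he => ?_) (fun U hU he => ?_)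
          · rw [h2, Finset.sum_const, Finset.card_univ, Fintype.card_fin, Multiset.insert_eq_cons,
              ← Multiset.singleton_add, smul_add, Multiset.nsmul_singleton, Multiset.nsmul_singleton,
              Multiset.replicate_add]
            abel
          · have h7 : degs (g.restrict hU) = oneA u 0 1 := by
              rw [degs, he, Multiset.map_replicate, natDegree_X_sub_C]
              simp [oneA]
            refine PDon.of_restrict hU (PDon.of_oneA one_pos h7 ?_ (by simp))
            rw [← sum_degs (g.restrict hU), h7, sum_oneA]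
            simp
          · refine PDon.of_restrict hU (PDon.of_ed_eq_sum he fun _ W hW he' => PDon.of_restrict hW
              (PDon.of_ed_pair hr.pos (restrict_pow_eq (restrict_pow_eq
                (h1.trans (one_smul F _).symm) hU) hW) he' ?_))
            refine (irreducible_X_sub_C (1 : F)).coprime_iff_not_dvd.2 fun h7 => hF ?_
            rw [← eval_one_cyclotomic_prime]
            exact dvd_iff_isRoot.1 h7
        · obtain ⟨k, s, h2⟩ := exists_degs_eq_oneA hrp h1
          rw [← hc] at h2
          have h3 := sum_degs g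
          rw [h2, sum_oneA, finrank_fin_fun] at h3
          exact PDon.of_oneA hc0 h2 hfr (h ▸ mod_le_of_add_mul h3)
      · rw [hfr] at h2
        rcases hr.dvd_mul.1 (h2 ▸ dvd_mul_left r k : r ∣ a * t) with h4 | ⟨w, rfl⟩
        · refine PDon.of_oneA (k := 0) (s := k) hr.pos ?_ hfr
            (by rw [Nat.mod_eq_zero_of_dvd h4, mul_zero])
          rw [degs, h3, Multiset.map_replicate, natDegree_X_pow_sub_C, oneA_zero_left]
        · rw [mul_comm r w]
          refine PDon.of_card_ed_mul hr.pos hz ?_
          rw [h3, Multiset.card_replicate]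
          exact (Nat.eq_of_mul_eq_mul_right hr.pos (by rw [h2]; ring)).le

end Cfsg.Agent.S5958
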