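import Cfsg.Statements.S5959
import Cfsg.Agent.Cl.DerPerm

set_option autoImplicit false
open scoped MatrixGroups
open Cfsg

namespace Cfsg.Agent.S5959

/-- Elements of order `p` of PSL_n(q) and imprimitive subgroups: a necessary condition. Here `T = PSL_n(F)` for a field `F` with `q = p^f` elements (`n ≥ 2`, `(n, q) ≠ (2, 2), (2, 3)`), `n = a·t` with `t ≥ 2`, and Ω is the set of direct-sum decompositions of `F^n` into `t` subspaces of dimension `a` (unordered; their number is the number of ordered ones divided by `t!`), whose stabilizers are the imprimitive subgroups of type GL_a(q) ≀ S_t (maximal except in some small cases; maximality is not assumed); an element of `T` of prime order `r` (a matrix `x` of determinant 1 with `x^r` scalar, `x` not scalar) fixes a point of Ω when it permutes the summands of some such decomposition. Suppose `p > 2` divides the number of such decompositions. If every element of `T` of order `p` stabilizes such a decomposition, then every partition of `n` into parts of size at most `p` in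 which the part `p` occurs fewer than `a` times contains (as a sub-multiset) a partition of `a`. -/
theorem result {F : Type*} [Field F] [Fintype F] {p : ℕ} [Fact p.Prime] [CharP F p] {q : ℕ} (hq : Fintype.card F = q)
    (n a t : ℕ) (hn : 2 ≤ n) (hT : (n, q) ≠ (2, 2) ∧ (n, q) ≠ (2, 3)) (hat : n = a * t) (ha : 1 ≤ a) (ht : 2 ≤ t)
    (hp : 2 < p) (hΩ : p ∣ Nat.card {D : Fin t → Submodule F (Fin n → F) // Cfsg.Geo.IsMDecomposition a D} / Nat.factorial t)
    (h : ∀ x : Matrix.SpecialLinearGroup (Fin n) F,
      (∃ z : F, ((x ^ p : Matrix.SpecialLinearGroup (Fin n) F) : Matrix (Fin n) (Fin n) F) = z • (1 : Matrix (Fin n) (Fin n) F)) →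
      (∀ z : F, (x : Matrix (Fin n) (Fin n) F) ≠ z • (1 : Matrix (Fin n) (Fin n) F)) →
      ∃ D : Fin t → Submodule F (Fin n → F), Cfsg.Geo.IsMDecomposition a D ∧
        ∃ σ : Equiv.Perm (Fin t), ∀ j, (D j).map (Matrix.toLin' (x : Matrix (Fin n) (Fin n) F)) = D (σ j)) :
    (∀ μ : Multiset ℕ, (∀ b ∈ μ, 0 < b ∧ b ≤ p) → μ.sum = n → μ.count p < a → ∃ ν : Multiset ℕ, ν ≤ μ ∧ ν.sum = a) := by
  open Polynomial Module Cfsg.Agent.Cl.Cls Cfsg.Agent.Cl.Der in
  focus
    classical
    intro μ hμ hs hc
    have hp0 := (Fact.out : p.Prime)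
    by_cases h1 : ∀ b ∈ μ, b = 1
    · have h2 : μ = Multiset.replicate (Multiset.card μ) 1 := Multiset.eq_replicate.2 ⟨rfl, h1⟩
      have h3 : Multiset.card μ = n := by rw [← hs]; conv_rhs => rw [h2]; simp
      refine ⟨Multiset.replicate a 1, ?_, by simp⟩
      rw [h2, h3, hat]
      exact (Multiset.replicate_le_replicate 1).2 (Nat.le_mul_of_pos_right a (by omega))
    push Not at h1
    obtain ⟨b, hb, hb1⟩ := h1
    obtain ⟨x, h1, h5, h2⟩ := exists_SL_unip (F := F) (ι := Fin n) hμ (by simpa using hs)
    obtain ⟨D, ⟨-, -, h3, h4, h6⟩, σ, hσ⟩ :=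
      h x ⟨1, by rw [one_smul]; exact h1⟩ (not_scalar_of_mem_degs' (h2.symm ▸ hb) hb1)
    rw [← toLin'_pow_eq_one] at h1
    rw [edM_def] at h5
    generalize Matrix.toLin' (x : Matrix (Fin n) (Fin n) F) = f at h1 h5 h2 hσ
    have hσ' : ∀ j, ∀ v ∈ D j, f v ∈ D (σ j) := fun j v hv => hσ j ▸ ⟨v, hv, rfl⟩
    have hσp : σ ^ p = 1 := perm_pow_eq_one h4
      (fun j h0 => by have := h3 j; rw [h0, finrank_bot] at this; omega) hσ' one_ne_zero
      (h1.trans (one_smul F _).symm)
    have hfix : ∀ j, σ j = j := fun j => by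
      by_contra hj
      have h7 := finrank_le_range_of_moved h4 h6 hσ' hp0 hσp hj
      have h8 : ∑ l ∈ Finset.range p, (X : F[X]) ^ l = (X - C 1) ^ (p - 1) := by
        refine mul_left_cancel₀ (X_sub_C_ne_zero (1 : F)) ?_
        rw [← pow_succ', Nat.sub_add_cancel hp0.pos, sub_pow_char, C_1, mul_geom_sum, one_pow]
      have h9 : (∑ l ∈ Finset.range p, f ^ l : End F (Fin n → F)) =
          aeval f ((X - C (1 : F)) ^ (p - 1)) := by
        rw [← h8]
        simp
      have h10 := (aeval f ((X - C (1 : F)) ^ (p - 1))).finrank_range_add_finrank_ker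
      rw [← nul_def, nul_eq_gcdDeg, h5, gcdDeg, Multiset.map_map, finrank_fin_fun] at h10
      have h11 : ∀ ν : Multiset ℕ, (∀ b ∈ ν, b ≤ p) → ν.sum =
          (ν.map ((fun e => (gcd e ((X - C (1 : F)) ^ (p - 1))).natDegree) ∘
            fun a => (X - C (1 : F)) ^ a)).sum + ν.count p := fun ν hν => by
        induction ν using Multiset.induction_on with
        | empty => simp
        | cons c ν ih =>
          rw [Multiset.sum_cons, Multiset.map_cons, Multiset.sum_cons, Multiset.count_cons,
            Function.comp_apply, natDegree_gcd_pow_pow, natDegree_X_sub_C,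
            ih fun b hb => hν b (Multiset.mem_cons_of_mem hb)]
          have := hν c (Multiset.mem_cons_self _ _)
          split_ifs <;> omega
      rw [h9, h3] at h7
      have h12 := h11 μ fun b hb => (hμ b hb).2
      omega
    have hσ'' : ∀ j, ∀ v ∈ D j, f v ∈ D j := fun j v hv => hfix j ▸ hσ' j v hv
    have h7 := degs_eq_sum_restrict f h4 h6 hσ''
    refine ⟨degs (f.restrict (hσ'' ⟨0, by omega⟩)), ?_, by rw [sum_degs, h3]⟩
    rw [← h2, h7]
    exact Finset.single_le_sum (f := fun j => degs (f.restrict (hσ'' j))) (fun _ _ => zero_le)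
      (Finset.mem_univ _)

end Cfsg.Agent.S5959
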