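import Cfsg.Statements.S5961
import Cfsg.Agent.Cl.DerSp2

set_option autoImplicit false
open scoped MatrixGroups
open Cfsg

namespace Cfsg.Agent.S5961

/-- Elements of odd prime order of PSp_n(q) and imprimitive subgroups. Here `T = PSp_n(q)`, `n = 2d ≥ 4`, `(n, q) ≠ (4, 2)`, realised through the symplectic matrices over the field `F` with `q` elements and the standard alternating form; `n = a·t` with `a` even and `t ≥ 2`, and Ω is the (nonempty) set of orthogonal decompositions of `F^n` into `t` nondegenerate subspaces of dimension `a` (unordered; counted as ordered ones divided by `t!`), whose stabilizers are the imprimitive subgroups of type Sp_a(q) ≀ S_t (maximality is not assumed); an element of `T` of prime order `r` (a symplectic matrix `x` with `x^r` scalar, `x` not scalar) fixes a point of Ω when it permutes the summands of some such decomposition. Let `r ≠ p` be an odd prime dividing the number of such decompositions, let `i` be the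 multiplicative order of `q` modulo `r`, `c = i` if `i` is even and `c = 2i` if `i` is odd, and write `k = n mod c`, `ℓ = a mod c`. Then every element of `T` of order `r` stabilizes such a decomposition if and only if `c ≤ a` and `k = t·ℓ`. -/
theorem result {F : Type*} [Field F] [Fintype F] {p : ℕ} [Fact p.Prime] [CharP F p] {q : ℕ} (hq : Fintype.card F = q)
    (d : ℕ) (hd : 2 ≤ d) (hT : (d, q) ≠ (2, 2))
    (a t : ℕ) (hat : 2 * d = a * t) (ha : 2 ≤ a) (hae : Even a) (ht : 2 ≤ t)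
    (r : ℕ) [Fact r.Prime] (hr2 : r ≠ 2) (hrp : r ≠ p) (hΩ : r ∣ Nat.card {D : Fin t → Submodule F (Fin d ⊕ Fin d → F) // (Cfsg.Geo.IsMDecomposition a D ∧ (∀ j, ∀ u ∈ D j, u ≠ 0 → ∃ v ∈ D j, Cfsg.sympForm d F u v ≠ 0) ∧
          (∀ j j', j ≠ j' → ∀ u ∈ D j, ∀ v ∈ D j', Cfsg.sympForm d F u v = 0))} / Nat.factorial t)
    (i c : ℕ) (hi : i = orderOf (q : ZMod r)) (hc : c = if Even i then i else 2 * i) :
    (∀ x : ↥(Matrix.symplecticGroup (Fin d) F),
      (∃ z : F, ((x ^ r : ↥(Matrix.symplecticGroup (Fin d) F)) : Matrix (Fin d ⊕ Fin d) (Fin d ⊕ Fin d) F) = z • (1 : Matrix (Fin d ⊕ Fin d) (Fin d ⊕ Fin d) F)) →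
      (∀ z : F, (x : Matrix (Fin d ⊕ Fin d) (Fin d ⊕ Fin d) F) ≠ z • (1 : Matrix (Fin d ⊕ Fin d) (Fin d ⊕ Fin d) F)) →
      ∃ D : Fin t → Submodule F (Fin d ⊕ Fin d → F), (Cfsg.Geo.IsMDecomposition a D ∧ (∀ j, ∀ u ∈ D j, u ≠ 0 → ∃ v ∈ D j, Cfsg.sympForm d F u v ≠ 0) ∧
          (∀ j j', j ≠ j' → ∀ u ∈ D j, ∀ v ∈ D j', Cfsg.sympForm d F u v = 0)) ∧
        ∃ σ : Equiv.Perm (Fin t), ∀ j, (D j).map (Matrix.toLin' (x : Matrix (Fin d ⊕ Fin d) (Fin d ⊕ Fin d) F)) = D (σ j)) ↔
    (c ≤ a ∧ (2 * d) % c = t * (a % c)) := by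
  open Polynomial Module Cfsg.Agent.Cl.Cls Cfsg.Agent.Cl.Der in
  focus
    subst hq hi
    change c = cOf _ at hc
    subst hc
    have hG : GeomA (Cl.spB d F) := geomA_spB
    have hV : finrank F (Fin d ⊕ Fin d → F) = a * t := hat ▸ Cl.sp_finrank_std
    have : Nontrivial (Fin d ⊕ Fin d → F) :=
      Module.nontrivial_of_finrank_pos (R := F) (by rw [Cl.sp_finrank_std]; omega)
    have hr := (Fact.out : r.Prime)
    simp only [nd_spB_iff, orth_spB_iff] at hΩ ⊢
    refine (sp_forall_iff fun f => ∃ D : Fin t → Submodule F _, (Cfsg.Geo.IsMDecomposition a D ∧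
      (∀ j, ND (Cl.spB d F) (D j)) ∧ ∀ j j', j ≠ j' → D j' ≤ perp (Cl.spB d F) (D j)) ∧
      ∃ σ : Equiv.Perm (Fin t), ∀ j, (D j).map f = D (σ j)).trans ?_
    rw [hG.forall_odd_iff (hr.odd_of_ne_two hr2) (fun _ _ _ => trivial)
      (fun f h => by simpa only [Submodule.map_neg] using h), hat]
    have hne : ∀ D : Fin t → Submodule F (Fin d ⊕ Fin d → F), (∀ j, finrank F (D j) = a) →
        ∀ j, D j ≠ ⊥ := fun D h3 j h0 => by have := h3 j; rw [h0, finrank_bot] at this; omega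
    have hc0 := cOf_pos (orderOf_pos_of_ne_zero (natCast_ne_zero_of_card (F := F) hrp))
    have hcr := cOf_le_sub_one (F := F) hrp hr2
    constructor
    · intro H
      have hcn : cOf (orderOf ((Fintype.card F : ℕ) : ZMod r)) ≤ a * t := by
        obtain ⟨D, h1, h2, h3, h4, h5, -⟩ := hG.exists_of_opd iso_one (hG.opd_of_forall iso_one
          (fun W _ h3 h4 => by
            obtain ⟨Y, y1, y2, y3⟩ := hG.exists_nd h3 hae h4
            exact ⟨Y, y1, fun _ h => h, y2, y3⟩) hV) hV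
        have h6 := dvd_of_dvd_div (factorial_dvd_card _
          (fun D σ hD => ⟨⟨hD.1.1, hD.1.2, fun j => hD.1.3 _, hD.1.4.comp σ.injective,
            σ.iSup_comp.trans hD.1.5⟩, fun j => hD.2.1 _,
            fun j j' hj => hD.2.2 _ _ (σ.injective.ne hj)⟩)
            fun D hD => hD.1.4.injective (hne D hD.1.3)) hΩ
        obtain ⟨f, f1, -, f2, f3⟩ := hG.exists_of_dvd_family (S := ⊥) _ D (fun E => ⟨fun hE => by
          obtain ⟨g, g1, g2⟩ := hG.exists_iso_family h2 h3 hE.1.4 hE.1.5 h5 hE.2.2 fun j =>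
            hG.isom (h4 j) (hE.2.1 j) ((h1 j).trans (hE.1.3 j).symm)
          exact ⟨g, g1, by simp, g2⟩, by
          rintro ⟨g, g1, -, g2⟩
          obtain rfl : E = fun j => (D j).map g := funext fun j => (g2 j).symm
          have h7 : ∀ j, finrank F ((D j).map g) = a := fun j => (hG.finrank_map g1 _).trans (h1 j)
          have h8 : ⨆ j, (D j).map g = ⊤ := by
            rw [← Submodule.map_iSup, show ⨆ j, D j = ⊤ from h3]
            exact hG.map_eq g1 fun _ _ => trivial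
          exact ⟨⟨ht, by omega, h7, iSupIndep_of_finrank (by rw [h8]; simp [h7, hV, mul_comm]), h8⟩,
            fun j => g1.nd_map (h4 j), fun j j' hj => g1.map_le_perp (h5 j j' hj)⟩⟩) h6
        exact hV ▸ hG.cOf_le f1 hrp hr2 f2 f3
      have key : ∀ s, 0 < s → s * cOf (orderOf ((Fintype.card F : ℕ) : ZMod r)) ≤ a * t → ∃ k,
          k + s * cOf (orderOf ((Fintype.card F : ℕ) : ZMod r)) = a * t ∧
          ((a ≤ k ∧ (r - 1) * a + k ≤ a * t) ∨ (cOf (orderOf ((Fintype.card F : ℕ) : ZMod r)) ≤ a ∧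
            t * (a % cOf (orderOf ((Fintype.card F : ℕ) : ZMod r))) ≤ k)) := fun s hs hs' => by
        obtain ⟨f, f1, f2, f3⟩ := hG.exists_blocks hrp hr2 (hV ▸ hs')
        have f4 : f ≠ 1 := ne_one_of_finrank_fixS (by have := Nat.mul_pos hs hc0; omega)
        obtain ⟨D, ⟨⟨-, -, h3, h4, h6⟩, h5, -⟩, σ, hσ⟩ := H f f1 f2 f4
        have hσ' : ∀ j, ∀ v ∈ D j, f v ∈ D (σ j) := fun j v hv => hσ j ▸ ⟨v, hv, rfl⟩
        have h7 := perm_pow_eq_one h4 (hne D h3) hσ' one_ne_zero (f2.trans (one_smul F _).symm)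
        refine ⟨_, hV ▸ f3, ?_⟩
        by_cases hfix : ∀ j, σ j = j
        · have h8 : ∀ j, ∀ v ∈ D j, f v ∈ D j := fun j v hv => hfix j ▸ hσ' j v hv
          refine Or.inr ⟨not_lt.1 fun hlt => f4 (fixS_eq_top.1 (top_le_iff.1 (h6 ▸ iSup_le fun j =>
            hG.le_fixS_of_nd_lt f1 hrp hr2 f2 (h8 j) (h5 j) (h3 j ▸ hlt)))),
            le_trans ?_ (sum_finrank_inf_le h4 _)⟩
          refine le_trans (by simp) (Finset.card_nsmul_le_sum Finset.univ _
            (a % cOf (orderOf ((Fintype.card F : ℕ) : ZMod r))) fun j _ => ?_)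
          exact h3 j ▸ hG.mod_le_inf_fixS f1 hrp hr2 f2 (h8 j) (h5 j)
        push Not at hfix
        obtain ⟨j, hj⟩ := hfix
        exact Or.inl ⟨h3 j ▸ finrank_le_ker_of_moved h4 h6 hσ' hr h7 f2 hj,
          hV ▸ h3 j ▸ finrank_mul_le_of_moved h4 h6 hσ' hr h7 (hG.injective f1) hj⟩
      obtain ⟨k, h1, h2⟩ := key 1 one_pos (by omega)
      have h3 : cOf (orderOf ((Fintype.card F : ℕ) : ZMod r)) ≤ a := by
        rcases h2 with ⟨-, h2⟩ | ⟨h2, -⟩
        · have := Nat.mul_le_mul_left (r - 1) ha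
          omega
        · exact h2
      have h4 := Nat.div_add_mod' (a * t) (cOf (orderOf ((Fintype.card F : ℕ) : ZMod r)))
      have h5 := Nat.mod_lt (a * t) hc0
      obtain ⟨k', h6, h7⟩ := key _ (Nat.div_pos hcn hc0) (by omega)
      refine ⟨h3, ?_⟩
      rw [← Nat.mod_eq_of_lt (a := t * _) (lt_of_le_of_lt (h7.resolve_left (by omega)).2
        (by omega : k' < cOf (orderOf ((Fintype.card F : ℕ) : ZMod r)))), Nat.mul_mod_mod, mul_comm]
    · rintro ⟨-, H⟩ f h hf -
      have h3 := hG.mod_le_inf_fixS h hrp hr2 hf (W := ⊤) (fun _ _ => trivial) hG.nd_top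
      rw [finrank_top, hV, top_inf_eq, H] at h3
      obtain ⟨D, h1, h2, h3, h4, h5, h6⟩ := hG.exists_of_opd h
        (hG.opd_of_mod h hrp hr2 hf hae hV h3) hV
      exact ⟨D, ⟨⟨ht, by omega, h1, h2, h3⟩, h4, h5⟩, h6⟩

end Cfsg.Agent.S5961
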