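import Cfsg.Statements.S5963
import Cfsg.Agent.Cl.DerSp2

set_option autoImplicit false
open scoped MatrixGroups
open Cfsg

namespace Cfsg.Agent.S5963

/-- Derangements of odd prime order of PSp_n(q), q odd, on pairs of complementary totally isotropic subspaces. Here `T = PSp_n(q)`, `n = 2d ≥ 4`, `q` odd, realised through the symplectic matrices over the field `F` with `q` elements; Ω is the set of unordered pairs `{U, W}` of complementary totally isotropic `d`-spaces (`F^n = U ⊕ W`), whose stabilizers are the subgroups of type GL_d(q).2 (maximal except in some small cases; maximality is not assumed); an element of `T` of prime order `r` (a symplectic matrix `x` with `x^r` scalar, `x` not scalar) fixes such a pair when it fixes or interchanges `U` and `W`. For every odd prime `r ≠ p` dividing the number of such pairs, some element of `T` of order `r` fixes no such pair (the action is never `r`-elusive for odd `r ≠ p`). -/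
theorem result {F : Type*} [Field F] [Fintype F] {p : ℕ} [Fact p.Prime] [CharP F p] {q : ℕ} (hq : Fintype.card F = q)
    (d : ℕ) (hd : 2 ≤ d) (hT : (d, q) ≠ (2, 2)) (hodd : Odd q)
    (r : ℕ) [Fact r.Prime] (hr2 : r ≠ 2) (hrp : r ≠ p) (hΩ : r ∣ Nat.card {P : Submodule F (Fin d ⊕ Fin d → F) × Submodule F (Fin d ⊕ Fin d → F) // IsCompl P.1 P.2 ∧ (∀ u ∈ P.1, ∀ v ∈ P.1, Cfsg.sympForm d F u v = 0) ∧ (∀ u ∈ P.2, ∀ v ∈ P.2, Cfsg.sympForm d F u v = 0)} / 2) :
    ∃ x : ↥(Matrix.symplecticGroup (Fin d) F),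
      (∃ z : F, ((x ^ r : ↥(Matrix.symplecticGroup (Fin d) F)) : Matrix (Fin d ⊕ Fin d) (Fin d ⊕ Fin d) F) = z • (1 : Matrix (Fin d ⊕ Fin d) (Fin d ⊕ Fin d) F)) ∧
      (∀ z : F, (x : Matrix (Fin d ⊕ Fin d) (Fin d ⊕ Fin d) F) ≠ z • (1 : Matrix (Fin d ⊕ Fin d) (Fin d ⊕ Fin d) F)) ∧
      ¬ (∃ U W : Submodule F (Fin d ⊕ Fin d → F), IsCompl U W ∧ (∀ u ∈ U, ∀ v ∈ U, Cfsg.sympForm d F u v = 0) ∧ (∀ u ∈ W, ∀ v ∈ W, Cfsg.sympForm d F u v = 0) ∧
        ((U.map (Matrix.toLin' (x : Matrix (Fin d ⊕ Fin d) (Fin d ⊕ Fin d) F)) = U ∧ W.map (Matrix.toLin' (x : Matrix (Fin d ⊕ Fin d) (Fin d ⊕ Fin d) F)) = W) ∨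
         (U.map (Matrix.toLin' (x : Matrix (Fin d ⊕ Fin d) (Fin d ⊕ Fin d) F)) = W ∧ W.map (Matrix.toLin' (x : Matrix (Fin d ⊕ Fin d) (Fin d ⊕ Fin d) F)) = U))) := by
  open Polynomial Module Cfsg.Agent.Cl.Cls Cfsg.Agent.Cl.Der in
  focus
    subst hq
    have hG : GeomA (Cl.spB d F) := geomA_spB
    have hV : finrank F (Fin d ⊕ Fin d → F) = 2 * d := Cl.sp_finrank_std
    have : Nontrivial (Fin d ⊕ Fin d → F) := Module.nontrivial_of_finrank_pos (R := F) (by omega)
    have hr := (Fact.out : r.Prime)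
    simp only [ts_spB_iff] at hΩ ⊢
    have hdim : ∀ U W : Submodule F (Fin d ⊕ Fin d → F), IsCompl U W →
        TS (Cl.spB d F) (fun _ => (0 : F)) U → TS (Cl.spB d F) (fun _ => (0 : F)) W →
        finrank F U = d := fun U W h1 h2 h3 => by
      have := hG.two_mul_le_of_ts h2
      have := hG.two_mul_le_of_ts h3
      have := Submodule.finrank_add_eq_of_isCompl h1
      omega
    have hne : ∀ U : Submodule F (Fin d ⊕ Fin d → F), ¬ IsCompl U U := fun U h =>
      top_ne_bot (α := Submodule F (Fin d ⊕ Fin d → F))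
        ((codisjoint_self.1 h.codisjoint).symm.trans (disjoint_self.1 h.disjoint))
    have h1 := dvd_of_dvd_div (two_dvd_card_pairs _ (fun _ _ h => ⟨h.1.symm, h.2.2, h.2.1⟩)
      fun U h => hne U h.1) hΩ
    obtain ⟨U, W, h2, h3, h4, -⟩ := hG.exists_of_tsPair iso_one (hG.tsPair_of_plus hG.nd_top
      (hG.plus hG.nd_top) (c := 1) fun v _ => (one_smul F v).symm)
    have h5 := hG.index_mul_qfac_dvd h3 h4 h2
    rw [← hG.card_pairs_eq_index h3 h4 h2, hG.card_isoFix hV, Nat.card_eq_fintype_card (α := F),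
      prod_pow_two_mul_sub_one, hdim U W h2 h3 h4, mul_left_comm, mul_comm,
      Nat.mul_dvd_mul_iff_left (qfac_pos Fintype.one_lt_card d)] at h5
    obtain ⟨j, hj, h6⟩ := (prime_dvd_prod_iff _ _).1 ((hr.dvd_mul.1 (h1.trans h5)).resolve_left
      fun h => hrp (dvd_card_iff.1 (hr.dvd_of_dvd_pow h)))
    rw [Finset.mem_range] at hj
    rw [dvd_pow_add_one_iff] at h6
    have h7 := even_orderOf_of_pow_eq_neg_one hr2 h6
    have h8 : orderOf ((Fintype.card F : ℕ) : ZMod r) ≤ 2 * d :=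
      (Nat.le_of_dvd (by omega) (orderOf_dvd_of_pow_eq_one (n := (j + 1) * 2)
        (by rw [pow_mul, h6, neg_one_sq]))).trans (by omega)
    have hq := natCast_ne_zero_of_card (F := F) hrp
    have hi := orderOf_pos_of_ne_zero hq
    obtain ⟨Y, -, y1, y2⟩ := hG.exists_nd hG.nd_top h7 (by rwa [finrank_top, hV])
    obtain ⟨f, f1, f2, f3, f4, f5⟩ := hG.exists_model hrp hr2 y1 (w := 0) (o := 1) (by omega)
      (one_le_div_orderOf hq) fun h => absurd h (Nat.not_odd_iff_even.2 h7)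
    have y3 := hG.finrank_add_perp Y
    by_contra H
    obtain ⟨U, W, h9, h10, h11, h12⟩ := (hG.forall_odd_iff (hr.odd_of_ne_two hr2)
      (fun _ _ _ => trivial) (fun f h => by simpa only [Submodule.map_neg] using h)).1
      ((sp_forall_iff fun f => ∃ U W : Submodule F _, IsCompl U W ∧
        TS (Cl.spB d F) (fun _ => (0 : F)) U ∧ TS (Cl.spB d F) (fun _ => (0 : F)) W ∧
        ((U.map f = U ∧ W.map f = W) ∨ (U.map f = W ∧ W.map f = U))).1
        fun x h1 h2 => not_not.1 fun h3 => H ⟨x, h1, h2, h3⟩) f f1 f2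
      (ne_one_of_finrank_fixS (by rw [f3]; omega))
    rcases h12 with ⟨h12, -⟩ | ⟨h12, h13⟩
    · obtain ⟨a, v, h13, h14, h15⟩ := (hG.exists_ts_iff_oInv f1 hrp hr2 f2 d).1
        ⟨U, hdim U W h9 h10 h11, h10, map_le_iff.1 h12.le⟩
      rw [f3, hG.hasTS_iff (hG.nd_perp y1)] at h13
      obtain rfl : v = 0 := by omega
      omega
    · have h14 := map_pow_of_swap h12 h13 (hr.odd_of_ne_two hr2)
      rw [f2, End.one_eq_id, Submodule.map_id] at h14
      exact hne U (h14 ▸ h9)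

end Cfsg.Agent.S5963
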