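import Cfsg.Statements.S5966
import Cfsg.Agent.Cl.DerSub

set_option autoImplicit false
open scoped MatrixGroups
open Cfsg

namespace Cfsg.Agent.S5966

/-- Elements of order 3 of PSL_n(q) in characteristic 3 and subfield subgroups. Here `T = PSL_n(F)` for a field `F` with `q` elements, `q` a power of 3 (`n ≥ 2`, `(n, q) ≠ (2, 2), (2, 3)`), `F₀` is the subfield with `q₀` elements where `q = q₀^k` for a prime `k`, and `H` is the subgroup of matrices of determinant 1 lying in the subfield group of `F₀` (invertible matrices over `F₀` times scalars) — a maximal subgroup of type GL_n(q₀) (the case `n = 2`, `q₀ = 2` is excluded); Ω is the set of `T`-conjugates of `H` (cosets of `H`), so an element of `T` of prime order `r` (a matrix `x` of determinant 1 with `x^r` scalar, `x` not scalar) fixes a point of Ω when some conjugate of `x` by a matrix of determinant 1 lies in `H`. Suppose 3 divides the index of `H`. Then every element of `T` of order 3 is conjugate in `T` into `H`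 if and only if `n` is odd, or `n` is even and `k > 2`. -/
theorem result {F : Type*} [Field F] [Fintype F] [CharP F 3] {q : ℕ} (hq : Fintype.card F = q)
    (n : ℕ) (hn : 2 ≤ n) (hT : (n, q) ≠ (2, 3))
    (F₀ : Subfield F) (k q₀ : ℕ) (hk : k.Prime) (hF₀ : Nat.card ↥F₀ = q₀) (hqk : q = q₀ ^ k) (hC5 : ¬ (n = 2 ∧ q₀ = 2)) (hΩ : 3 ∣ ((Cfsg.Geo.subfieldSubgroup F₀ 1).comap (Matrix.SpecialLinearGroup.toGL : Matrix.SpecialLinearGroup (Fin n) F →* GL (Fin n) F)).index) :
    (∀ x : Matrix.SpecialLinearGroup (Fin n) F,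
      (∃ z : F, ((x ^ 3 : Matrix.SpecialLinearGroup (Fin n) F) : Matrix (Fin n) (Fin n) F) = z • (1 : Matrix (Fin n) (Fin n) F)) →
      (∀ z : F, (x : Matrix (Fin n) (Fin n) F) ≠ z • (1 : Matrix (Fin n) (Fin n) F)) →
      ∃ P : Matrix.SpecialLinearGroup (Fin n) F, P⁻¹ * x * P ∈ ((Cfsg.Geo.subfieldSubgroup F₀ 1).comap (Matrix.SpecialLinearGroup.toGL : Matrix.SpecialLinearGroup (Fin n) F →* GL (Fin n) F))) ↔
    (Odd n ∨ (Even n ∧ 2 < k)) := by
  open Polynomial Module Cfsg.Agent.Cl.Cls Cfsg.Agent.Cl.Der in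
  focus
    subst hq hF₀
    have : Nonempty (Fin n) := ⟨⟨0, by omega⟩⟩
    have := Fintype.ofFinite F₀
    have : Fact (Nat.Prime 3) := ⟨Nat.prime_three⟩
    rw [Nat.card_eq_fintype_card] at hqk
    rw [sl_type_iff]
    refine ⟨fun H => (Nat.even_or_odd n).symm.imp_right fun h => ⟨h, lt_of_le_of_ne hk.two_le ?_⟩,
      fun h x _ ⟨z, hz⟩ _ => exists_conj_three hqk (h.imp (by simp) fun h =>
        hk.odd_of_ne_two h.2.ne') (glRep_pow_eq_smul.2 hz)⟩
    rintro rfl
    obtain ⟨m, rfl⟩ := h.two_dvd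
    obtain ⟨x, h1, h2, h3, h4⟩ := exists_not_conj (ι := Fin (2 * m)) (p := 3) (m := m) (by omega)
      (by omega) (by simp) hqk
    obtain ⟨g, h5, h6⟩ := H x h1 ⟨1, glRep_pow_eq_smul.1 (h2.trans (one_smul F _).symm)⟩
      fun z hz => h3 z (glRep_eq_smul.2 hz)
    exact h4 g h5 h6

end Cfsg.Agent.S5966
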