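import Cfsg.Statements.S5971
import Cfsg.Agent.Cl.DerExt1

set_option autoImplicit false
open scoped MatrixGroups
open Cfsg

namespace Cfsg.Agent.S5971

/-- Elements of order 3 of PSL_3(q) and the normalizer of a Singer cycle. Here `T = PSL_n(F)` for a field `F` with `q = p^f` elements (`n ≥ 2`, `(n, q) ≠ (2, 2), (2, 3)`), `k` is a prime dividing `n`, `K` is a subalgebra of the `n × n` matrices that is a field of degree `k` over `F` (an extension-field structure F_{q^k} on `F^n`), and `H` is the subgroup of matrices of determinant 1 normalizing `K` — a subgroup of type GL_{n/k}(q^k) (maximal except in some small cases; maximality is not assumed); Ω is the set of cosets of `H` in `T`, so an element of `T` of prime order `r` (a matrix `x` of determinant 1 with `x^r` scalar, `x` not scalar) fixes a point of Ω when some conjugate of `x` by a matrix of determinant 1 normalizes `K`. Take `n = k = 3` and suppose 3 divides the index of `H`. Then every element of `T` of order 3 is conjugate in `T` into `H` if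 and only if `q ≡ 4, 7` or `8 (mod 9)`. -/
theorem result {F : Type*} [Field F] [Fintype F] {p : ℕ} [Fact p.Prime] [CharP F p] {q : ℕ} (hq : Fintype.card F = q)
    (n : ℕ) (hn : n = 3) (k : ℕ) (hk : k.Prime) (hkn : k ∣ n) (K : Subalgebra F (Matrix (Fin n) (Fin n) F)) (hK : Cfsg.Geo.IsFieldSubalgebra k K) (hk3 : k = 3) (hΩ : 3 ∣ ((Cfsg.Geo.subalgebraNormalizer K).comap (Matrix.SpecialLinearGroup.toGL : Matrix.SpecialLinearGroup (Fin n) F →* GL (Fin n) F)).index) :
    (∀ x : Matrix.SpecialLinearGroup (Fin n) F,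
      (∃ z : F, ((x ^ 3 : Matrix.SpecialLinearGroup (Fin n) F) : Matrix (Fin n) (Fin n) F) = z • (1 : Matrix (Fin n) (Fin n) F)) →
      (∀ z : F, (x : Matrix (Fin n) (Fin n) F) ≠ z • (1 : Matrix (Fin n) (Fin n) F)) →
      ∃ P : Matrix.SpecialLinearGroup (Fin n) F, P⁻¹ * x * P ∈ ((Cfsg.Geo.subalgebraNormalizer K).comap (Matrix.SpecialLinearGroup.toGL : Matrix.SpecialLinearGroup (Fin n) F →* GL (Fin n) F))) ↔
    (q % 9 = 4 ∨ q % 9 = 7 ∨ q % 9 = 8) := by
  open Polynomial Module Cfsg.Agent.Cl.Cls Cfsg.Agent.Cl.Der in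
  focus
    subst hq hk3 hn
    have := Fact.mk Nat.prime_three
    obtain ⟨L, _, _, _, _, _, h1, h2, -⟩ := exists_ext hK
    have H := (allP_fixG_iff h2).trans (allP_ext_three (p := p) h1 (by simp))
    rw [sl_type_iff]
    refine ⟨fun h => ?_, fun h => (sl_forall_iff (p := p) (Or.inl fun h3 => ?_)).2 (H.2 (by omega))⟩
    swap
    · have := (dvd_card_iff (F := F) (r := 3)).2 h3
      omega
    refine (H.1 (sl_forall_imp h)).elim (fun h3 => Or.inr (Or.inr ?_)) (by omega)
    obtain ⟨σ, g, g1, g2, -, g3⟩ := exists_semi (Fin 3 → F) (L := L) (F := F) (by omega)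
    rw [h1] at g2
    obtain ⟨y, rfl⟩ := exists_glRep (isUnit_of_pow_eq_one three_ne_zero g2)
    have h4 := relIndex_mul_card_dvd_top (S := Cfsg.Geo.specialLinear (Fin 3) F)
      ((Subgroup.zpowers_le (g := y)).2 ((h2 y).2 ⟨σ, g1⟩))
    rw [Nat.card_zpowers, orderOf_eq_prime (glRep_injective (by rw [map_pow, g2, map_one]))
      fun e => g3 1 (by rw [e, map_one, one_smul]), card_gl_eq] at h4
    rw [index_comap_toGL] at hΩ
    have h5 := (ZMod.natCast_eq_zero_iff _ 9).2 ((Nat.mul_dvd_mul_right hΩ 3).trans h4)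
    have h6 := Fintype.card_pos (α := F)
    simp only [qfac, Fintype.card_fin, Finset.prod_range_succ, Finset.range_zero, Finset.prod_empty,
      Nat.cast_mul, Nat.cast_pow, Nat.cast_sub (Nat.one_le_pow _ _ h6)] at h5
    rw [← ZMod.natCast_mod] at h5
    by_contra h7
    have h8 : Fintype.card F % 9 = 2 ∨ Fintype.card F % 9 = 5 := by omega
    rcases h8 with h8 | h8 <;> rw [h8] at h5 <;> revert h5 <;> decide

end Cfsg.Agent.S5971
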