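import Cfsg.Statements.S5972
import Cfsg.Agent.Cl.DerQ5

set_option autoImplicit false
open scoped MatrixGroups
open Cfsg

namespace Cfsg.Agent.S5972

/-- Elements of prime order of Ω_n(q), n = 2d+1 ≥ 7, q odd, with no fixed totally singular `m`-space. Here `T = Ω_n(q)` is realised as the commutator subgroup of the isometry group of the quadratic form `x₀² + Σ xᵢyᵢ` over the field `F` with `q` elements (it has trivial centre, so its elements of prime order `r` are used directly); let `1 ≤ m ≤ d` and let `r` be a prime dividing the number of totally singular `m`-spaces. For `r ≠ p` let `i` be the multiplicative order of `q` modulo `r`, `c = i` for `i` even and `c = 2i` for `i` odd, and write `k = n mod c`, `ℓ = m mod i`, `n' = ⌊n/i⌋`, `m' = ⌊m/i⌋`, `t = (r−1)/i`. Then every element of `T` of order `r` fixes some totally singular `m`-space if and only if either (i) `r = 2` and (`m < (n−1)/2` or `q ≡ 1 (mod 4)`); or (ii) `r ≠ p` is odd, `i ≤ m`, `k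 > 2ℓ`, and (`i` is odd or `n' − 2m' ≥ t`). -/
theorem result {F : Type*} [Field F] [Fintype F] {p : ℕ} [Fact p.Prime] [CharP F p] {q : ℕ} (hq : Fintype.card F = q) (hqodd : Odd q)
    (d m : ℕ) (hd : 3 ≤ d) (hm : 1 ≤ m) (hmd : m ≤ d)
    (r : ℕ) [Fact r.Prime]
    (hrΩ : r ∣ Nat.card {W : Submodule F (Unit ⊕ (Fin d ⊕ Fin d) → F) // Module.finrank F ↥W = m ∧ (∀ w ∈ W, Cfsg.quadFormOdd d F w = 0)})
    (i c : ℕ) (hi : i = orderOf (q : ZMod r)) (hc : c = if Even i then i else 2 * i) :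
    (∀ x : GL (Unit ⊕ (Fin d ⊕ Fin d)) F, x ∈ Cfsg.Geo.omegaGL (Cfsg.quadFormOdd d F) → orderOf x = r →
      ∃ W : Submodule F (Unit ⊕ (Fin d ⊕ Fin d) → F), Module.finrank F ↥W = m ∧ (∀ w ∈ W, Cfsg.quadFormOdd d F w = 0) ∧
        W.map (Matrix.toLin' (x : Matrix (Unit ⊕ (Fin d ⊕ Fin d)) (Unit ⊕ (Fin d ⊕ Fin d)) F)) ≤ W) ↔
    ((r = 2 ∧ (m < d ∨ q % 4 = 1)) ∨
     (r ≠ p ∧ 2 < r ∧ i ≤ m ∧ 2 * (m % i) < (2 * d + 1) % c ∧ (Odd i ∨ (r - 1) / i + 2 * (m / i) ≤ (2 * d + 1) / i))) := by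
  open Polynomial Module Cfsg.Agent.Cl.Cls Cfsg.Agent.Cl.Der in
  focus
    subst hq
    have h2 : (2 : F) ≠ 0 := Cl.quad_two_ne_zero_of_odd hqodd
    have hG := geomQ_odd h2 d
    have hV : finrank F (Unit ⊕ (Fin d ⊕ Fin d) → F) = 2 * d + 1 := Cl.o_finrank_odd
    simp only [← Cl.coe_quad_odd, map_le_iff, ← tsQ_iff] at hrΩ ⊢
    refine (omega_forall_order_iff hG fun f => ∃ W : Submodule F _,
      finrank F W = m ∧ TSQ (Cl.quad_odd d F) W ∧ ∀ v ∈ W, f v ∈ W).trans ?_
    have hrp : r ≠ p := fun h => hG.not_dvd_card_ts (by omega) (h ▸ hrΩ)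
    by_cases hr2 : r = 2
    · subst hr2
      have h3 := hG.forall_sq_ts_iff h2 hm (by omega)
      have h4 : ∀ f, InO (Cl.quad_odd d F) f → f ≠ -1 := fun f h e => by
        obtain ⟨j, h5, -⟩ := (hG.inO_iff_of_sq h2 h.iso (by rw [e]; ext; simp [sq])).1 h
        have h6 : fixS f = ⊥ := eq_bot_iff.2 fun v hv => by
          have h7 := mem_fixS.1 hv
          rw [e, LinearMap.neg_apply, End.one_apply, neg_eq_iff_add_eq_zero, ← two_smul F] at h7
          exact (smul_eq_zero.1 h7).resolve_left h2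
        rw [h6, perp_bot, finrank_top] at h5
        omega
      refine Iff.trans ⟨fun H f f1 f2 f3 _ => H f f1 f2 f3,
        fun H f f1 f2 f3 => H f f1 f2 f3 (h4 f f1)⟩ (h3.trans ?_)
      rcases chi_cases h2 with h | h <;> simp [h, hV] <;> omega
    rw [hG.forall_odd' (by omega) hr2, hG.forall_ts_cases hrp hr2 hV hi hc (by omega) Iff.rfl hrΩ]
    have h3 := two_lt_of_ne hr2
    have h4 := Nat.mod_mod_of_dvd (2 * d + 1) (two_dvd_of_ite hc)
    clear hc hi hrΩ
    generalize (2 * d + 1) % c = k, m % i = l, (2 * d + 1) / i = n', m / i = m', (r - 1) / i = t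
      at h4 ⊢
    by_cases hE : tp (Cl.quad_odd d F) ⊤ = 1 <;>
      simp only [hE, Nat.odd_iff, Nat.even_iff, true_iff, false_iff, not_true, not_false_eq_true,
        and_true, and_false, false_or, or_false] <;> omega

end Cfsg.Agent.S5972
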