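import Cfsg.Statements.S5974
import Cfsg.Agent.Cl.DerQ5

set_option autoImplicit false
open scoped MatrixGroups
open Cfsg

namespace Cfsg.Agent.S5974

/-- Elements of prime order of PΩ⁺_n(q), n = 2d ≥ 8, with no fixed nondegenerate hyperbolic `m`-space. Here `T = PΩ⁺_n(q)` is realised through `Ω⁺_n(q)`, the commutator subgroup of the isometry group of `Q = Σ xᵢyᵢ` over the field `F` with `q` elements; an element of `T` of prime order `r` is an element `x` of `Ω⁺_n(q)` with `x^r` scalar and `x` not scalar. A hyperbolic `m`-space is a subspace `W` of even dimension `m` on which the polar form of `Q` is nondegenerate and which contains a totally singular subspace of dimension `m/2`. Let `m` be even with `2 ≤ m < n/2`, and let `r` be a prime dividing the number of hyperbolic `m`-spaces, with `r = 2` or `r ≠ p`. For `r ≠ p` let `i` be the multiplicative order of `q` modulo `r`, `c = i` for `i` even and `c = 2i` for `i` odd, and write `k = n mod c`, `ℓ' =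 m mod c`. Then every element of `T` of order `r` fixes some hyperbolic `m`-space if and only if one of: (i) `r = 2` and (`n ≡ 2 (mod 4)`, or `m ≡ 0 (mod 4)`, or `q ≡ 1 (mod 4)`); (ii) `r ≠ p` odd, `i` odd, `c ≤ m` and `k ≥ ℓ'`; (iii) `r ≠ p` odd, `i` even, and either `k = 0` and (`n/i` odd, or `ℓ' = 0` and `m/i` even), or `i ≤ m` and (`k > ℓ' > 0`, or `k = ℓ' > 0` and `(n + m − 2k)/i` even, or `k > ℓ' = 0` and `m/i` even). -/
theorem result {F : Type*} [Field F] [Fintype F] {p : ℕ} [Fact p.Prime] [CharP F p] {q : ℕ} (hq : Fintype.card F = q)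
    (d m : ℕ) (hd : 4 ≤ d) (hm : 2 ≤ m) (hme : Even m) (hmd : m < d)
    (r : ℕ) [Fact r.Prime] (hr : r = 2 ∨ r ≠ p)
    (hrΩ : r ∣ Nat.card {W : Submodule F (Fin d ⊕ Fin d → F) // (Module.finrank F ↥W = m ∧ (∀ u ∈ W, u ≠ 0 → ∃ v ∈ W, QuadraticMap.polar (Cfsg.quadFormPlus d F) u v ≠ 0) ∧
          ∃ U : Submodule F (Fin d ⊕ Fin d → F), U ≤ W ∧ 2 * Module.finrank F ↥U = m ∧ ∀ u ∈ U, Cfsg.quadFormPlus d F u = 0)})
    (i c : ℕ) (hi : i = orderOf (q : ZMod r)) (hc : c = if Even i then i else 2 * i) :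
    (∀ x : GL (Fin d ⊕ Fin d) F, x ∈ Cfsg.Geo.omegaGL (Cfsg.quadFormPlus d F) →
      (∃ z : F, ((x ^ r : GL (Fin d ⊕ Fin d) F) : Matrix (Fin d ⊕ Fin d) (Fin d ⊕ Fin d) F) = z • (1 : Matrix (Fin d ⊕ Fin d) (Fin d ⊕ Fin d) F)) →
      (∀ z : F, (x : Matrix (Fin d ⊕ Fin d) (Fin d ⊕ Fin d) F) ≠ z • (1 : Matrix (Fin d ⊕ Fin d) (Fin d ⊕ Fin d) F)) →
      ∃ W : Submodule F (Fin d ⊕ Fin d → F), (Module.finrank F ↥W = m ∧ (∀ u ∈ W, u ≠ 0 → ∃ v ∈ W, QuadraticMap.polar (Cfsg.quadFormPlus d F) u v ≠ 0) ∧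
          ∃ U : Submodule F (Fin d ⊕ Fin d → F), U ≤ W ∧ 2 * Module.finrank F ↥U = m ∧ ∀ u ∈ U, Cfsg.quadFormPlus d F u = 0) ∧
        W.map (Matrix.toLin' (x : Matrix (Fin d ⊕ Fin d) (Fin d ⊕ Fin d) F)) ≤ W) ↔
    ((r = 2 ∧ ((2 * d) % 4 = 2 ∨ m % 4 = 0 ∨ q % 4 = 1)) ∨
     (r ≠ p ∧ 2 < r ∧ Odd i ∧ c ≤ m ∧ m % c ≤ (2 * d) % c) ∨
     (r ≠ p ∧ 2 < r ∧ Even i ∧
       (((2 * d) % c = 0 ∧ (Odd ((2 * d) / i) ∨ (m % c = 0 ∧ Even (m / i)))) ∨
        (i ≤ m ∧ ((m % c < (2 * d) % c ∧ 0 < m % c) ∨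
                  ((2 * d) % c = m % c ∧ 0 < m % c ∧ Even ((2 * d + m - 2 * ((2 * d) % c)) / i)) ∨
                  (0 < (2 * d) % c ∧ m % c = 0 ∧ Even (m / i))))))) := by
  open Polynomial Module Cfsg.Agent.Cl.Cls Cfsg.Agent.Cl.Der in
  focus
    subst hq
    have hG := geomQ_plus (F := F) d
    have hV : finrank F (Fin d ⊕ Fin d → F) = 2 * d := Cl.o_finrank_plus
    have : Nontrivial (Fin d ⊕ Fin d → F) := Module.nontrivial_of_finrank_pos (R := F) (by omega)
    have hW : ∀ W : Submodule F (Fin d ⊕ Fin d → F), (finrank F W = m ∧ NDQ (Cl.quad_plus d F) W ∧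
        ∃ U : Submodule F (Fin d ⊕ Fin d → F), U ≤ W ∧ 2 * finrank F U = m ∧
          TSQ (Cl.quad_plus d F) U) ↔
        finrank F W = m ∧ NDQ (Cl.quad_plus d F) W ∧ tp (Cl.quad_plus d F) W = 1 := fun W => by
      rw [← plus_iff_tp hme]
      exact and_congr_right fun h => and_congr_right' (exists_congr fun U => and_congr_right'
        (by rw [h, and_comm]))
    simp only [← Cl.coe_quad_plus, map_le_iff, ← tsQ_iff, nd_polar_iff, hW] at hrΩ ⊢
    simp only [and_assoc]
    refine (omega_forall_iff hG fun f => ∃ W : Submodule F _, finrank F W = m ∧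
      NDQ (Cl.quad_plus d F) W ∧ tp (Cl.quad_plus d F) W = 1 ∧ ∀ v ∈ W, f v ∈ W).trans ?_
    have hm2 := Nat.even_iff.1 hme
    by_cases hr2 : r = 2
    · subst hr2
      by_cases h2 : (2 : F) = 0
      · have h3 := FiniteField.even_card_of_char_two
          (ringChar.eq_iff.2 (CharTwo.of_one_ne_zero_of_two_eq_zero one_ne_zero h2))
        obtain rfl : p = 2 := by
          by_contra h
          exact two_ne_zero_of_ne h h2
        simp only [true_and, ne_eq, not_true, false_and, or_false]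
        constructor
        · intro H
          by_contra! h4
          obtain ⟨f, f1, f2, f3, f4⟩ := hG.exists_aType_der (p := 2) (by omega) (u := d / 2)
            (by omega) (Or.inr ⟨by omega, tp_plus d⟩)
          obtain ⟨W, w1, w2, -, w3⟩ := H f f1.iso f1 ⟨1, by rw [f2, one_smul]⟩ f3
          obtain ⟨a, b, h5, h6, h7⟩ := f4 W w2 w3 (w1 ▸ hme)
          omega
        · rw [hG.forall_char_two_iff h2]
          intro H f f1 _ f2 _
          simpa only [Nat.two_mul_div_two_of_even hme] using hG.exists_plus_two h2 f1 f2 (a := d)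
            (b := m / 2) (Or.inl ⟨hV.symm, tp_plus d⟩) (by omega)
            (by rw [Nat.even_iff, Nat.odd_iff]; omega)
      · rw [hG.forall_two_tp_iff h2 hV (by omega) (by omega), tp_plus, isSquare_two_iff' h2,
          eq_comm (a := (1 : ℤˣ)) (b := chi F ^ d)]
        rcases chi_cases h2 with h | h <;>
          simp [h, neg_one_pow_eq_one_iff', Nat.even_iff] <;> omega
    have hrp := hr.resolve_left hr2
    rw [hG.forall_odd (by omega) hr2 fun f => by simp only [neg_inv_iff, imp_self],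
      hG.forall_tp_cases hrp hr2 hV hi hc (by omega) (by omega) (fun _ => hme) (tp_plus d) hrΩ]
    have h3 := two_lt_of_ne hr2
    have h4 : m % c = 0 → c ≤ m := fun h => Nat.le_of_dvd (by omega) (Nat.dvd_of_mod_eq_zero h)
    have h5 : i % 2 = 0 → c = i := fun h => by rw [hc, if_pos (Nat.even_iff.2 h)]
    clear hc hi hrΩ
    generalize (2 * d + m - 2 * (2 * d % c)) / i = x, 2 * d % c = k, m % c = l, 2 * d / i = n',
      m / i = m' at h4 ⊢
    simp only [Nat.odd_iff, Nat.even_iff, true_iff, and_true, and_false, false_or,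
      show (1 : ℤˣ) = -1 ↔ False by decide]
    omega

end Cfsg.Agent.S5974
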