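import Cfsg.Statements.S5976
import Cfsg.Agent.Cl.DerExt2

set_option autoImplicit false
open scoped MatrixGroups
open Cfsg

namespace Cfsg.Agent.S5976

/-- Elements of prime order of PSp_n(q), q odd, and the subgroups of type GU_{n/2}(q). Here `T = PSp_{2d}(F)` for a field `F` with `q` elements, `q` odd, `d ≥ 2`, realised through the matrices preserving the standard alternating form `f`; `K` is a subalgebra of the `2d × 2d` matrices that is a field of degree 2 over `F`, closed under taking adjoints for `f` but not consisting of self-adjoint elements (so `F^{2d}` becomes a `d`-dimensional space over `K ≅ F_{q²}` on which `f` is the trace of a multiple of a non-degenerate hermitian form); `H` is the subgroup of `T` normalizing `K` — the symplectic maps that are `K`-linear or `K`-semilinear, a subgroup of type GU_d(q) (maximality is not assumed). Ω is the set of cosets of `H` in `T`, so an element of `T` of prime order `r` (`x ∈ T` with `x^r` scalar, `x` not scalar) fixes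 a point of Ω exactly when some `T`-conjugate of `x` normalizes `K`. Let `r` be a prime dividing the index of `H`. Then every element of `T` of order `r` fixes a point of Ω if and only if `r = 2`. -/
theorem result {F : Type*} [Field F] [Fintype F] {p : ℕ} [Fact p.Prime] [CharP F p] {q : ℕ} (hq : Fintype.card F = q)
    (hodd : Odd q) (d : ℕ) (hd : 2 ≤ d)
    (K : Subalgebra F (Matrix (Fin d ⊕ Fin d) (Fin d ⊕ Fin d) F)) (hK : Cfsg.Geo.IsFieldSubalgebra 2 K)
    (hKf : Cfsg.Geo.IsAdjointClosedFor (Cfsg.sympForm d F) K) (hKns : ¬ Cfsg.Geo.IsSelfAdjointFor (Cfsg.sympForm d F) K)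
    (r : ℕ) [Fact r.Prime]
    (hΩ : r ∣ (Cfsg.Geo.subalgebraNormalizer K).relIndex (Cfsg.spGL d F)) :
    (∀ x ∈ Cfsg.spGL d F, (∃ z : F, ((x ^ r : GL (Fin d ⊕ Fin d) F) : Matrix (Fin d ⊕ Fin d) (Fin d ⊕ Fin d) F) = z • (1 : Matrix (Fin d ⊕ Fin d) (Fin d ⊕ Fin d) F)) →
      (∀ z : F, (x : Matrix (Fin d ⊕ Fin d) (Fin d ⊕ Fin d) F) ≠ z • (1 : Matrix (Fin d ⊕ Fin d) (Fin d ⊕ Fin d) F)) →
      ∃ g ∈ Cfsg.spGL d F, g⁻¹ * x * g ∈ Cfsg.Geo.subalgebraNormalizer K) ↔ r = 2 := by
  open Polynomial Module Cfsg.Agent.Cl.Cls Cfsg.Agent.Cl.Der in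
  focus
    subst hq
    have : Nonempty (Fin d ⊕ Fin d) := ⟨Sum.inl ⟨0, by omega⟩⟩
    obtain ⟨L, _, _, _, _, _, h1, h2, h3⟩ := exists_ext hK
    have hG := geomA_spB (F := F) (d := d)
    have hV : finrank F (Fin d ⊕ Fin d → F) = 2 * d := by simp [two_mul]
    obtain ⟨θ, β, δ, hβ, hδ, hθ, hU⟩ := hG.exists_lift_herm h1 (fun l => by
      obtain ⟨A, h5, h6⟩ := exists_mem_of_ext h3 l
      obtain ⟨A', h7, h8⟩ := hKf A h5
      obtain ⟨l', h9⟩ := (h3 A').1 h7
      exact ⟨l', fun u v => by rw [← h6, ← h9, Cl.spB_apply, Cl.spB_apply, h8]⟩)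
      fun h => hKns fun A hA u v => by
        obtain ⟨l, h5⟩ := (h3 A).1 hA
        rw [h5, h5, ← Cl.spB_apply, ← Cl.spB_apply, h]
    have hp2 := ne_two_of_odd_card (p := p) hodd
    rw [spGL_eq] at hΩ ⊢
    have H := hG.allA_gu_iff hβ hδ hθ hU hp2 h1 (by omega) hΩ (relIndex_mul_dvd_of_res
      le_rfl (fun s hs t ht => mul_mem (mul_mem ht hs) (inv_mem ht)) h2 fun g hg =>
        (hβ.isoU_iff hδ _).1 (mem_isoFix_bot.1 hg))
    rw [← hG.fixG_inf_eq h2] at H
    have h9 := two_ne_zero_of_ne (F := F) hp2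
    exact ⟨fun h => H.1 (allA_of_forall hG h),
      fun h => forall_of_allA hG h9 (by simpa [h] using h9) (H.2 h)⟩

end Cfsg.Agent.S5976
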