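import Cfsg.Statements.S5981
import Cfsg.Agent.Cl.DerSL3

set_option autoImplicit false
open scoped MatrixGroups
open Cfsg

namespace Cfsg.Agent.S5981

/-- Elements of prime order of PSL_n(q), q odd, and the subgroups of orthogonal type. Here `T = PSL_n(F)` for a field `F` with `q` elements, `q` odd, `n ≥ 3`; `Q` is a non-degenerate quadratic form on `F^n` (of either type when `n` is even) and `H` is the subgroup of matrices of determinant 1 that preserve `Q` up to a scalar — a subgroup of type O^ε_n(q) (maximality is not assumed); Ω is the set of cosets of `H` in `T`, so an element of `T` of prime order `r` (a matrix `x` of determinant 1 with `x^r` scalar, `x` not scalar) fixes a point of Ω exactly when some conjugate of `x` by a matrix of determinant 1 preserves `Q` up to a scalar. Let `r` be a prime dividing the index of `H`, with `(n, r) ≠ (6, 3)`. Then every element of `T` of order `r` fixes a point of Ω if and only if `r = 2`, or `r ∈ {3, 5}`, `n = r` and `(q − 1)_r = r` (the `r`-part of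 `q − 1` is exactly `r`). The case `(n, r) = (6, 3)` is not covered by this statement. -/
theorem result {F : Type*} [Field F] [Fintype F] {p : ℕ} [Fact p.Prime] [CharP F p] {q : ℕ} (hq : Fintype.card F = q)
    (hodd : Odd q) (n : ℕ) (hn : 3 ≤ n) (Q : (Fin n → F) → F) (hQ : Cfsg.Geo.IsNondegenerateQuadraticForm Q)
    (r : ℕ) [Fact r.Prime] (hgap : ¬ (n = 6 ∧ r = 3))
    (hΩ : r ∣ (Cfsg.Geo.quadSimilarityGroup Q).relIndex (Cfsg.Geo.specialLinear (Fin n) F)) :
    (∀ x ∈ Cfsg.Geo.specialLinear (Fin n) F, (∃ z : F, ((x ^ r : GL (Fin n) F) : Matrix (Fin n) (Fin n) F) = z • (1 : Matrix (Fin n) (Fin n) F)) →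
      (∀ z : F, (x : Matrix (Fin n) (Fin n) F) ≠ z • (1 : Matrix (Fin n) (Fin n) F)) →
      ∃ g ∈ Cfsg.Geo.specialLinear (Fin n) F, g⁻¹ * x * g ∈ Cfsg.Geo.quadSimilarityGroup Q) ↔
    (r = 2 ∨ ((r = 3 ∨ r = 5) ∧ n = r ∧ padicValNat r (q - 1) = 1)) := by
  open Polynomial Module Cfsg.Agent.Cl.Cls Cfsg.Agent.Cl.Der in
  focus
    subst hq
    obtain ⟨Q, hG, rfl⟩ := exists_geomQ hQ
    have : Nonempty (Fin n) := ⟨⟨0, by omega⟩⟩
    have hp := ne_two_of_odd_card (p := p) hodd
    have hH : ∀ x, x ∈ Cfsg.Geo.quadSimilarityGroup Q ↔ ∃ c : Fˣ,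
        SimB (σ := RingHom.id F) (QuadraticMap.polarBilin Q) c (glRep x) := fun x =>
      exists_congr fun c => (simB_polar_iff (g := glRep x) (two_ne_zero_of_ne hp)).symm
    by_cases h2 : r = 2
    · subst h2
      rw [sl_forall_iff (p := p) (Or.inr rfl), hG.fixG_eq hH]
      exact iff_of_true (hG.allP_two hp) (Or.inl rfl)
    have H := hG.allP_iff hp h2 (by simpa using hn) (by simpa using hgap) hΩ
      (relIndex_mul_isoFix_dvd fun x hx => (hH x).2 ⟨1, hx.simB⟩)
    rw [← hG.fixG_eq hH, finrank_fin_fun] at H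
    refine ⟨fun h => Or.inr (H.1 (sl_forall_imp h)), fun h => ?_⟩
    have h3 := h.resolve_left h2
    exact (sl_forall_iff (p := p) (Or.inl (ne_char_of_dvd (F := F)
      (dvd_of_lt_padicValNat (a := 0) (by omega))))).2 (H.2 h3)

end Cfsg.Agent.S5981
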