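import Cfsg.Statements.S5984
import Cfsg.Agent.Cl.DerU4

set_option autoImplicit false
open scoped MatrixGroups
open Cfsg

namespace Cfsg.Agent.S5984

/-- Elements of prime order of PSU_n(q) and the stabilizers of pairs of complementary totally singular subspaces. Here `T = PSU_n(q)` is realised through `SU_n(q)`, the matrices of determinant 1 over the field `F` with `q²` elements preserving the hermitian form `Σ uᵢ vᵢ^q`, with `n ≥ 4` even; `D` is a pair of complementary subspaces of dimension `n/2` on each of which the form vanishes identically, and `H` is the subgroup of `SU_n(q)` fixing or interchanging the two members — a subgroup of type GL_{n/2}(q²).2 (maximality is not assumed). Ω is the set of cosets of `H`, so an element of `T` of prime order `r` (`x ∈ SU_n(q)` with `x^r` scalar, `x` not scalar) fixes a point of Ω exactly when some `SU_n(q)`-conjugate of `x` lies in `H`. Let `r` be a prime dividing the index of `H`. Then every element of `T` of order `r` fixes a point of Ω if and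 only if `r = 2`, `q` is odd and `(q + 1)_2 ≤ (n)_2` (2-parts). -/
theorem result {F : Type*} [Field F] [Fintype F] {p : ℕ} [Fact p.Prime] [CharP F p] {q : ℕ} (hq : Fintype.card F = q ^ 2)
    (n : ℕ) (hn : 4 ≤ n) (he : Even n) (D : Fin 2 → Submodule F (Fin n → F)) (hD : Cfsg.Geo.IsMDecomposition (n / 2) D)
    (hDs : ∀ i, Cfsg.Geo.IsTotallySingularFor (Cfsg.hermForm n F q) (D i))
    (r : ℕ) [Fact r.Prime]
    (hΩ : r ∣ (Cfsg.Geo.decompositionStabilizer D).relIndex (Cfsg.GU n F q ⊓ Cfsg.Geo.specialLinear (Fin n) F)) :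
    (∀ x ∈ Cfsg.GU n F q ⊓ Cfsg.Geo.specialLinear (Fin n) F, (∃ z : F, ((x ^ r : GL (Fin n) F) : Matrix (Fin n) (Fin n) F) = z • (1 : Matrix (Fin n) (Fin n) F)) →
      (∀ z : F, (x : Matrix (Fin n) (Fin n) F) ≠ z • (1 : Matrix (Fin n) (Fin n) F)) →
      ∃ g ∈ Cfsg.GU n F q ⊓ Cfsg.Geo.specialLinear (Fin n) F, g⁻¹ * x * g ∈ Cfsg.Geo.decompositionStabilizer D) ↔
    (r = 2 ∧ Odd q ∧ padicValNat 2 (q + 1) ≤ padicValNat 2 n) := by
  open Polynomial Module Cfsg.Agent.Cl.Cls Cfsg.Agent.Cl.Der in
  focus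
    obtain ⟨σ, hσ⟩ := Cl.exists_uField hq
    have hG : GeomU (uB σ n) q := geomU_uB hσ
    have hV : finrank F (Fin n → F) = n := finrank_fin_fun F
    have : Nontrivial (Fin n → F) := Module.nontrivial_of_finrank_pos (R := F) (by omega)
    have hr := (Fact.out : r.Prime)
    have hc := isCompl_of_family hD.indep hD.iSup_eq_top
    have hT : ∀ i, TSU (uB σ n) (D i) := fun i => (ts_uB_iff hσ).1 (hDs i)
    have hS := mem_GU_inf_iff (n := n) hσ
    have htr : ∀ U W : Submodule F (Fin n → F), IsCompl U W ∧ TSU (uB σ n) U ∧ TSU (uB σ n) W ↔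
        ∃ g ∈ Cfsg.GU n F q ⊓ Cfsg.Geo.specialLinear (Fin n) F,
          (D 0).map (glRep g) = U ∧ (D 1).map (glRep g) = W := fun U W => by
      constructor
      · rintro ⟨h1, h2, h3⟩
        obtain ⟨g, g1, g2, g3⟩ := hG.exists_iso_pair (hT 0) (hT 1) hc h2 h3 h1
        obtain ⟨x, rfl⟩ := exists_glRep (hG.geom.isUnit g1)
        exact ⟨x, (hS x).2 ⟨g1, g2⟩, g3⟩
      · rintro ⟨g, hg, rfl, rfl⟩
        have h1 := ((hS g).1 hg).1
        refine ⟨hG.geom.isCompl_of_ts (h1.ts_map (hT 0)) (h1.ts_map (hT 1)) ?_, h1.ts_map (hT 0),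
          h1.ts_map (hT 1)⟩
        rw [← Submodule.map_sup, codisjoint_iff.1 hc.codisjoint]
        exact hG.geom.map_eq h1 fun _ _ => Submodule.mem_top
    refine (gl_forall_iff (R := fun f => IsoU (uB σ n) f ∧ LinearMap.det f = 1) hS
      (fun f h => hG.geom.isUnit h.1)
      (P := PairFix (uB σ n) fun x => uB σ n x x) fun x _ => ?_).trans ?_
    · simp only [conj_mem_decompositionStabilizer]
      constructor
      · rintro ⟨g, hg, h⟩
        obtain ⟨h1, h2, h3⟩ := (htr _ _).2 ⟨g, hg, rfl, rfl⟩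
        exact ⟨_, _, h1, h2, h3, (exists_perm_two_iff (E := fun j => (D j).map (glRep g))).1 h⟩
      · rintro ⟨U, W, h1, h2, h3, h4⟩
        obtain ⟨g, hg, rfl, rfl⟩ := (htr U W).1 ⟨h1, h2, h3⟩
        exact ⟨g, hg, (exists_perm_two_iff (E := fun j => (D j).map (glRep g))).2 h4⟩
    simp only [and_imp]
    have hP : ∀ (f : End F (Fin n → F)) (c : F), c ≠ 0 → PairFix (uB σ n) (fun x => uB σ n x x) f →
        PairFix (uB σ n) (fun x => uB σ n x x) (c • f) := fun f c hc h => h.smul hc
    obtain ⟨d, rfl⟩ := he.two_dvd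
    by_cases hrp : r = p
    · subst hrp
      refine iff_of_false (fun H => ?_) fun H => ?_
      · have h1 : ∀ a ∈ 2 ::ₘ Multiset.replicate (2 * d - 2) 1, 0 < a ∧ a ≤ r := fun a ha => by
          have := hr.two_le
          rcases Multiset.mem_cons.1 ha with rfl | ha
          · omega
          · rw [Multiset.eq_of_mem_replicate ha]
            omega
        obtain ⟨f, f1, f2, f3⟩ := hG.exists_unip h1 (by simp; omega)
        rcases hG.geom.pairFix_unip f1 (fun a ha => (h1 a ha).1) f3 (H f f1 (det_of_pow_char f2)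
          ⟨1, by rw [f2, one_smul]⟩ (not_scalar_of_mem_degs (a := 2)
            (by rw [degs_of_ed_eq_map f3]; simp) (by decide))) with h | h
        · simpa [Multiset.count_replicate] using h 2
        · simp at h
          omega
      · exact (Nat.not_even_iff_odd.2 H.2.1) (even_iff_two_dvd.2 (H.1 ▸ hG.dvd_iff.2 rfl))
    by_cases hr2 : r = 2
    · subst hr2
      have h1 := hG.odd_of_ne hrp
      have h2 : (2 : F) ≠ 0 := two_ne_zero_of_ne (Ne.symm hrp)
      have h3 := orderOf_card_two (F := F) hrp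
      have h4 : (-1 : F) ≠ 1 := fun h => h2 (by linear_combination -h)
      simp only [true_and, Nat.odd_iff, h1]
      rw [hG.forall_iff hP]
      constructor
      · rintro ⟨H, -⟩
        by_contra! h5
        obtain ⟨g, hg⟩ := hG.exists_primitiveRoot
        obtain ⟨c, c1, c2⟩ := exists_pow_eq_of_lt hg (by omega) (by omega) h5 (ω := -1) neg_one_sq
        obtain ⟨f, f1, f2, f3, f4⟩ := hG.exists_model (hG.dt_two hrp) (w := 0) (o := 1)
          (by rw [h3, hV]; omega) (by rw [h3]) fun h => absurd trivial h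
        have f5 := hG.geom.finrank_fixS_add f1 hrp f2
        rw [f3, h3, hV] at f5
        rcases hG.geom.pairFix_cases (H f f1 f2 (ne_smul_of_movE (by omega)
          (ne_one_of_finrank_fixS (by omega))) ⟨c, c1, by
            rw [hV, c2, det_of_sq_eq_one hrp f2, f3]
            simp⟩) with h | h
        · obtain ⟨a, v, h6, h7, h8⟩ := (hG.exists_ts_iff (hG.dt_two hrp) f1 f2 (w := 0)
            (by rw [f3, f4]) _).1 h
          obtain rfl : v = 0 := by omega
          omega
        · omega
      · refine fun H => ⟨fun f f1 f2 _ ⟨c, c1, c2⟩ => ?_, fun f z f1 _ f3 f4 => ?_⟩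
        · have f5 := hG.geom.finrank_fixS_add f1 hrp f2
          rw [h3, hV, mul_one] at f5
          rw [hV, det_of_sq_eq_one hrp f2] at c2
          have f6 : Even (Multiset.card (movE f)) := by
            by_contra f6
            rw [(Nat.not_even_iff_odd.1 f6).neg_one_pow, mul_neg_one, neg_eq_iff_eq_neg] at c2
            have := lt_of_pow_eq (r := 2) (by omega) c1 (c2 ▸ h4) (by rw [c2, neg_one_sq])
            omega
          have f7 := hG.geom.nd_fixS f1 (isSemisimple_of_pow_eq_one hrp f2)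
          have f8 := hG.geom.finrank_add_perp (fixS f)
          have f9 := Nat.even_iff.1 f6
          refine hG.geom.exists_of_tsPair f1 (b := true) ?_
          rw [← codisjoint_iff.1 (hG.geom.isCompl_perp f7).codisjoint]
          refine hG.geom.tsPair_sup (hG.geom.tsPair_of_plus f7 (hG.plus f7 (Nat.even_iff.2 (by omega)))
            (c := 1) fun v hv => by rw [one_smul, mem_fixS.1 hv]) (hG.geom.tsPair_of_plus
              (hG.geom.nd_perp f7) (hG.plus (hG.geom.nd_perp f7) (Nat.even_iff.2 (by omega)))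
              (c := -1) fun v hv => ?_) le_rfl
          obtain ⟨w, rfl⟩ := hG.geom.perp_fixS f1 ▸ hv
          simp [apply_apply_of_sq_eq_one f2]
        · obtain ⟨-, c, c1, rfl⟩ := hG.NP_two f4
          obtain ⟨U, W, h5, h6, h7, h8, h9, -⟩ := hG.exists_eig h2 f1 c1 f3
          exact ⟨U, W, h7, h5, h6, Or.inl ⟨hG.geom.map_eq f1 (inv_of_eq_smul h8 le_rfl),
            hG.geom.map_eq f1 (inv_of_eq_smul h9 le_rfl)⟩⟩
    refine iff_of_false (fun H => ?_) fun H => hr2 H.1
    have h1 := hΩ.trans (relIndex_dvd_card_pairs _ _ fun E => htr E.1 E.2)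
    have h5 := hG.geom.index_mul_qfac_dvd (hT 0) (hT 1) hc
    rw [← hG.geom.card_pairs_eq_index (hT 0) (hT 1) hc, hG.card_isoFix, hV, uOrd_two_mul,
      hD.finrank_eq, hG.card_eq, Nat.mul_div_cancel_left _ two_pos, mul_comm,
      Nat.mul_dvd_mul_iff_left (qfac_pos (hG.card_eq ▸ Fintype.one_lt_card) d)] at h5
    obtain ⟨j, hj, h6⟩ := (prime_dvd_prod_iff _ _).1 ((hr.dvd_mul.1 (h1.trans h5)).resolve_left
      fun h => hrp (hG.dvd_iff.1 (hr.dvd_of_dvd_pow h)))
    rw [Finset.mem_range] at hj
    obtain ⟨h7, h8⟩ := mod_four_of_odd_pow hr2 (odd_two_mul_add_one j)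
      ((dvd_pow_add_one_iff _ _).1 h6)
    have h9 := Nat.le_of_dvd (by omega) h8
    have hD' := hG.dt hrp hr2
    have h10 := hG.orderOf_card (r := r)
    rw [if_pos (Nat.even_iff.2 (by omega))] at h10
    have hq0 := natCast_ne_zero_of_card (F := F) hrp
    have key : ∀ f, IsoU (uB σ (2 * d)) f → f ^ r = 1 → LinearMap.det f = 1 → (∀ z : F, f ≠ z • 1) →
        Multiset.card (movE f) = oG (orderOf (q : ZMod r) % 4 = 2) f → f ≠ 1 → False := by
      intro f f1 f2 f3 f4 f5 f6
      obtain ⟨a, v, h11, h12, h13⟩ := (hG.exists_ts_iff hD' f1 f2 (w := 0) (by omega) _).1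
        (hG.geom.pairFix_odd (hr.odd_of_ne_two hr2) f2 (H f f1 f3 ⟨1, by rw [f2, one_smul]⟩ f4))
      obtain rfl : v = 0 := by omega
      refine f6 (fixS_eq_top.1 (Submodule.eq_top_of_finrank_eq ?_))
      have := (fixS f).finrank_le
      omega
    by_cases hi : r ∣ q + 1
    · have h11 := (dvd_add_one_iff hr2 q).1 hi
      have := two_lt_of_ne hr2
      obtain ⟨f, f1, f2, f3, f4, f5⟩ := hG.exists_model_one hD' h7 hr2 (by omega) (k := 1)
        (by omega) (by omega)
      have f6 := ne_smul_of_oddc (f := f) (by rw [← oG_pos h7, f5])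
      exact key f f1 f2 f3 f6 (f4.trans f5.symm) (by simpa using f6 1)
    · obtain ⟨f, f1, f2, f3, f4⟩ := hG.exists_model hD' (w := 0) (o := 1) (by omega)
        (one_le_div_orderOf hq0) fun h => absurd h7 h
      have f5 := hG.geom.ne_one_of_card f1 hrp f2 (by omega)
      exact key f f1 f2 (hG.det_eq_one f1 f2 hi) (hG.ne_smul f1 f2 hi f5) (by omega) f5

end Cfsg.Agent.S5984
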