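import Cfsg.Statements.S5988
import Cfsg.Agent.Cl.DerQ5

set_option autoImplicit false
open scoped MatrixGroups
open Cfsg

namespace Cfsg.Agent.S5988

/-- Elements of prime order of PΩ⁺_n(q) with no fixed elliptic `m`-space. Here `T = PΩ⁺_n(F)`, `n = 2d ≥ 8`, realised through `Ω⁺_n(q)`, the commutator subgroup of the isometry group of `Q = Σ xᵢyᵢ` over the field `F` with `q` elements; an element of `T` of prime order `r` is an element `x` of `Ω⁺_n(q)` with `x^r` scalar and `x` not scalar; a nondegenerate `m`-space (even `m`) is a subspace on which the polar form of `Q` is nondegenerate; it is hyperbolic if it contains an `m/2`-dimensional subspace on which `Q` vanishes, elliptic otherwise. Let `m` be even with `2 ≤ m < n/2` and let `r` be a prime dividing the number of elliptic `m`-spaces; for `r ≠ p` let `i` be the multiplicative order of `q` modulo `r`, `c = i` for `i` even and `c = 2i` for `i` odd, and write `k = n mod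 c`, `ℓ = m mod i`, `ℓ' = m mod c`, `n' = ⌊n/i⌋`, `m' = ⌊m/i⌋`, `t = (r−1)/i`. Then every element of `T` of order `r` fixes some elliptic `m`-space if and only if one of: (i) `r = 2 ≠ p` and either `n ≡ 0 (mod 4)`, `q ≡ 3 (mod 4)` and `m ≡ 2 (mod 4)`, or `n ≡ 2 (mod 4)` and `q ≢ 1 (mod 8)`; (ii) `r ≠ p` odd, `i` odd, `c ≤ m` and `k > ℓ' > 0`; (iii) `r ≠ p` odd, `i` even, and either `k = 0` and (`n/i` odd, or `ℓ' = 0` and `m/i` odd), or `i ≤ m` and (`k > ℓ' > 0`, or `k = ℓ' > 0` and `(n + m − 2k)/i` odd, or `k > ℓ' = 0` and `m/i` odd). (For `r = p` there is always an element of order `p` fixing no elliptic `m`-space.) -/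
theorem result {F : Type*} [Field F] [Fintype F] {p : ℕ} [Fact p.Prime] [CharP F p] {q : ℕ} (hq : Fintype.card F = q)
    (d m : ℕ) (hd : 4 ≤ d) (hm : 2 ≤ m) (hme : Even m) (hmd : m < d)
    (r : ℕ) [Fact r.Prime]
    (hrΩ : r ∣ Nat.card {W : Submodule F (Fin d ⊕ Fin d → F) // Module.finrank F ↥W = m ∧ Cfsg.Geo.IsNondegenerateOn (QuadraticMap.polar (Cfsg.quadFormPlus d F)) W ∧ ¬ Cfsg.Geo.IsPlusTypeOn (Cfsg.quadFormPlus d F) W})
    (i c : ℕ) (hi : i = orderOf (q : ZMod r)) (hc : c = if Even i then i else 2 * i) :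
    (∀ x : GL (Fin d ⊕ Fin d) F, x ∈ Cfsg.Geo.omegaGL (Cfsg.quadFormPlus d F) →
      (∃ z : F, ((x ^ r : GL (Fin d ⊕ Fin d) F) : Matrix (Fin d ⊕ Fin d) (Fin d ⊕ Fin d) F) = z • (1 : Matrix (Fin d ⊕ Fin d) (Fin d ⊕ Fin d) F)) →
      (∀ z : F, (x : Matrix (Fin d ⊕ Fin d) (Fin d ⊕ Fin d) F) ≠ z • (1 : Matrix (Fin d ⊕ Fin d) (Fin d ⊕ Fin d) F)) →
      ∃ W : Submodule F (Fin d ⊕ Fin d → F), (Module.finrank F ↥W = m ∧ Cfsg.Geo.IsNondegenerateOn (QuadraticMap.polar (Cfsg.quadFormPlus d F)) W ∧ ¬ Cfsg.Geo.IsPlusTypeOn (Cfsg.quadFormPlus d F) W) ∧ W.map (Matrix.toLin' (x : Matrix (Fin d ⊕ Fin d) (Fin d ⊕ Fin d) F)) ≤ W) ↔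
    ((r = 2 ∧ p ≠ 2 ∧ ((Even d ∧ q % 4 = 3 ∧ m % 4 = 2) ∨ (Odd d ∧ q % 8 ≠ 1))) ∨
     (r ≠ p ∧ 2 < r ∧ Odd i ∧ c ≤ m ∧ 0 < m % c ∧ m % c < (2 * d) % c) ∨
     (r ≠ p ∧ 2 < r ∧ Even i ∧
       (((2 * d) % c = 0 ∧ (Odd ((2 * d) / i) ∨ (m % c = 0 ∧ Odd (m / i)))) ∨
        (i ≤ m ∧ ((0 < m % c ∧ m % c < (2 * d) % c) ∨
                  (0 < m % c ∧ m % c = (2 * d) % c ∧ Odd ((2 * d + m - 2 * ((2 * d) % c)) / i)) ∨
                  (m % c = 0 ∧ 0 < (2 * d) % c ∧ Odd (m / i))))))) := by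
  open Polynomial Module Cfsg.Agent.Cl.Cls Cfsg.Agent.Cl.Der in
  focus
    subst hq
    have hG := geomQ_plus (F := F) d
    have hV : finrank F (Fin d ⊕ Fin d → F) = 2 * d := Cl.o_finrank_plus
    simp only [← Cl.coe_quad_plus, map_le_iff, isNondegenerateOn_iff, isPlusTypeOn_iff,
      not_plus_iff_tp hme] at hrΩ ⊢
    simp only [and_assoc]
    refine (omega_forall_iff hG fun f => ∃ W : Submodule F _, finrank F W = m ∧
      NDQ (Cl.quad_plus d F) W ∧ tp (Cl.quad_plus d F) W = -1 ∧ ∀ v ∈ W, f v ∈ W).trans ?_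
    have hm2 := Nat.even_iff.1 hme
    by_cases hrp : r = p
    · subst hrp
      refine iff_of_false (fun H => ?_) (by omega)
      obtain ⟨f, f1, f2, f3, f4⟩ := hG.exists_aType_der (p := r) (by omega) (u := d / 2)
        (by omega) (by rw [and_iff_left (tp_plus d)]; omega)
      obtain ⟨W, w1, w2, w3, w4⟩ := H f f1.iso f1 ⟨1, by rw [f2, one_smul]⟩ f3
      obtain ⟨a, b, h5, h6, h7⟩ := f4 W w2 w4 (w1 ▸ hme)
      simp only [w3, tp_plus, show (1 : ℤˣ) = -1 ↔ False by decide,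
        show (-1 : ℤˣ) = 1 ↔ False by decide, and_false, or_false] at h6 h7
      omega
    by_cases hr2 : r = 2
    · subst hr2
      have h2 : (2 : F) ≠ 0 := two_ne_zero_of_ne (Ne.symm hrp)
      rw [hG.forall_two_tp_iff h2 hV (by omega) (by omega), tp_plus, isSquare_two_iff' h2,
        eq_comm (a := (1 : ℤˣ)) (b := chi F ^ d)]
      rcases chi_cases h2 with h | h <;> simp [h, Ne.symm hrp, neg_one_pow_eq_one_iff',
        neg_one_pow_eq_neg_one_iff', Nat.even_iff, Nat.odd_iff] <;> omega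
    rw [hG.forall_odd (by omega) hr2 fun f => by simp only [neg_inv_iff, imp_self],
      hG.forall_tp_cases hrp hr2 hV hi hc (by omega) (by omega) (fun _ => hme) (tp_plus d) hrΩ]
    have h3 := two_lt_of_ne hr2
    have h4 : m % c = 0 → c ≤ m := fun h => Nat.le_of_dvd (by omega) (Nat.dvd_of_mod_eq_zero h)
    have h5 : i % 2 = 0 → c = i := fun h => by rw [hc, if_pos (Nat.even_iff.2 h)]
    clear hc hi hrΩ
    generalize (2 * d + m - 2 * (2 * d % c)) / i = x, 2 * d % c = k, m % c = l, 2 * d / i = n',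
      m / i = m' at h4 ⊢
    simp only [Nat.odd_iff, Nat.even_iff, true_iff, false_iff, and_false, false_or, or_false,
      show (1 : ℤˣ) = -1 ↔ False by decide, show (-1 : ℤˣ) = 1 ↔ False by decide]
    omega

end Cfsg.Agent.S5988
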