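import Cfsg.Statements.S5989
import Cfsg.Agent.Cl.DerQ5

set_option autoImplicit false
open scoped MatrixGroups
open Cfsg

namespace Cfsg.Agent.S5989

/-- Elements of prime order of PΩ⁺_n(q), q odd, with no fixed nondegenerate `m`-space of odd dimension. Here `T = PΩ⁺_n(F)`, `n = 2d ≥ 8`, realised through `Ω⁺_n(q)`, the commutator subgroup of the isometry group of `Q = Σ xᵢyᵢ` over the field `F` with `q` elements; an element of `T` of prime order `r` is an element `x` of `Ω⁺_n(q)` with `x^r` scalar and `x` not scalar; `q` and `m` are odd, `1 ≤ m < n/2`. The nondegenerate `m`-spaces (subspaces on which the polar form is nondegenerate) fall into two isometry classes, each an orbit of `T`, and the two actions are equivalent; fix one such space `W₀` and let Ω be the set of nondegenerate `m`-spaces isometric to `W₀` (some linear isomorphism preserves `Q`). Let `r` be a prime dividing the size of Ω; for `r ≠ p` let `i` be the multiplicative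 order of `q` modulo `r`, `c = i` for `i` even and `c = 2i` for `i` odd, and write `k = n mod c`, `ℓ = m mod i`, `ℓ' = m mod c`, `n' = ⌊n/i⌋`, `m' = ⌊m/i⌋`, `t = (r−1)/i`. Then every element of `T` of order `r` fixes a member of Ω if and only if one of: (i) `r = 2`, `n ≡ 2 (mod 4)` and `q ≢ 1 (mod 8)`; (ii) `r ≠ p` odd, `i` odd, `c ≤ m` and `k > ℓ' > 0`; (iii) `r ≠ p` odd, `i` even, and either `k = 0` and `n/i` odd, or `i ≤ m` and `k > ℓ' > 0`. (For `r = p` there is always an element of order `p` fixing no member of Ω.) -/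
theorem result {F : Type*} [Field F] [Fintype F] {p : ℕ} [Fact p.Prime] [CharP F p] {q : ℕ} (hq : Fintype.card F = q)
    (hodd : Odd q) (d m : ℕ) (hd : 4 ≤ d) (hm : Odd m) (hmd : m < d)
    (W₀ : Submodule F (Fin d ⊕ Fin d → F)) (hW₀ : Module.finrank F ↥W₀ = m ∧ Cfsg.Geo.IsNondegenerateOn (QuadraticMap.polar (Cfsg.quadFormPlus d F)) W₀)
    (r : ℕ) [Fact r.Prime]
    (hrΩ : r ∣ Nat.card {W : Submodule F (Fin d ⊕ Fin d → F) // Module.finrank F ↥W = m ∧ Cfsg.Geo.IsNondegenerateOn (QuadraticMap.polar (Cfsg.quadFormPlus d F)) W ∧ Cfsg.Geo.AreIsometricFor (Cfsg.quadFormPlus d F) W W₀})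
    (i c : ℕ) (hi : i = orderOf (q : ZMod r)) (hc : c = if Even i then i else 2 * i) :
    (∀ x : GL (Fin d ⊕ Fin d) F, x ∈ Cfsg.Geo.omegaGL (Cfsg.quadFormPlus d F) →
      (∃ z : F, ((x ^ r : GL (Fin d ⊕ Fin d) F) : Matrix (Fin d ⊕ Fin d) (Fin d ⊕ Fin d) F) = z • (1 : Matrix (Fin d ⊕ Fin d) (Fin d ⊕ Fin d) F)) →
      (∀ z : F, (x : Matrix (Fin d ⊕ Fin d) (Fin d ⊕ Fin d) F) ≠ z • (1 : Matrix (Fin d ⊕ Fin d) (Fin d ⊕ Fin d) F)) →
      ∃ W : Submodule F (Fin d ⊕ Fin d → F), (Module.finrank F ↥W = m ∧ Cfsg.Geo.IsNondegenerateOn (QuadraticMap.polar (Cfsg.quadFormPlus d F)) W ∧ Cfsg.Geo.AreIsometricFor (Cfsg.quadFormPlus d F) W W₀) ∧ W.map (Matrix.toLin' (x : Matrix (Fin d ⊕ Fin d) (Fin d ⊕ Fin d) F)) ≤ W) ↔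
    ((r = 2 ∧ Odd d ∧ q % 8 ≠ 1) ∨
     (r ≠ p ∧ 2 < r ∧ Odd i ∧ c ≤ m ∧ 0 < m % c ∧ m % c < (2 * d) % c) ∨
     (r ≠ p ∧ 2 < r ∧ Even i ∧ (((2 * d) % c = 0 ∧ Odd ((2 * d) / i)) ∨ (i ≤ m ∧ 0 < m % c ∧ m % c < (2 * d) % c)))) := by
  open Polynomial Module Cfsg.Agent.Cl.Cls Cfsg.Agent.Cl.Der in
  focus
    subst hq
    have h2 : (2 : F) ≠ 0 := Cl.quad_two_ne_zero_of_odd hodd
    have hG := geomQ_plus (F := F) d
    have hV : finrank F (Fin d ⊕ Fin d → F) = 2 * d := Cl.o_finrank_plus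
    simp only [← Cl.coe_quad_plus, map_le_iff, isNondegenerateOn_iff, areIsometricFor_iff] at hW₀ hrΩ ⊢
    simp only [hG.isom_iff_tp hW₀] at hrΩ ⊢
    simp only [and_assoc]
    generalize tp (Cl.quad_plus d F) W₀ = s at hrΩ ⊢
    refine (omega_forall_iff hG fun f => ∃ W : Submodule F _, finrank F W = m ∧
      NDQ (Cl.quad_plus d F) W ∧ tp (Cl.quad_plus d F) W = s ∧ ∀ v ∈ W, f v ∈ W).trans ?_
    have hm2 := Nat.odd_iff.1 hm
    by_cases hrp : r = p
    · subst hrp
      have h3 := two_lt_char (p := r) h2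
      refine iff_of_false (fun H => ?_) (by omega)
      have key : ∀ (μ : Multiset ℕ) (k : ℕ), (∀ a ∈ μ, a = 1 ∨ a = 3) → 4 * k + μ.sum = 2 * d →
          0 < k ∨ 3 ∈ μ → ∃ j ν, ν ≤ μ ∧ m = 4 * j + ν.sum := fun μ k h4 h5 h6 => by
        obtain ⟨f, f1, f2, f3, f4⟩ := hG.exists_two_type (p := r) h2 h4 (h5.trans hV.symm)
          (Or.inr (plusQ_quad_plus d)) h6
        obtain ⟨W, w1, w2, -, w4⟩ := H f f1.iso f1 ⟨1, by rw [f2, one_smul]⟩ f3
        obtain ⟨j, ν, h7, h8, -⟩ := f4 W w2 w4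
        exact ⟨j, ν, h7, w1 ▸ h8⟩
      rcases (by omega : d % 2 = 0 ∨ (d % 2 = 1 ∧ m % 4 = 3) ∨ (d % 2 = 1 ∧ m % 4 = 1))
        with h | h | h
      · obtain ⟨j, ν, h4, h5⟩ := key 0 (d / 2) (by simp) (by simp; omega) (Or.inl (by omega))
        rw [Multiset.le_zero.1 h4, Multiset.sum_zero] at h5
        omega
      · obtain ⟨j, ν, h4, h5⟩ := key {1, 1} (d / 2) (by simp) (by simp; omega) (Or.inl (by omega))
        rcases le_pair_cases h4 with rfl | rfl | rfl | rfl <;> simp at h5 <;> omega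
      · obtain ⟨j, ν, h4, h5⟩ := key {3, 3} (d / 2 - 1) (by simp) (by simp; omega) (Or.inr (by simp))
        rcases le_pair_cases h4 with rfl | rfl | rfl | rfl <;> simp at h5 <;> omega
    by_cases hr2 : r = 2
    · subst hr2
      rw [hG.forall_two_tp_iff h2 hV (by omega) (by omega), tp_plus, isSquare_two_iff' h2,
        eq_comm (a := (1 : ℤˣ)) (b := chi F ^ d)]
      rcases chi_cases h2 with h | h <;>
        simp [h, hm2, neg_one_pow_eq_one_iff', Nat.even_iff, Nat.odd_iff] <;> omega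
    rw [hG.forall_odd (by omega) hr2 fun f => by simp only [neg_inv_iff, imp_self],
      hG.forall_tp_cases hrp hr2 hV hi hc (by omega) (by omega) (fun h => absurd h h2) (tp_plus d) hrΩ]
    have h3 := two_lt_of_ne hr2
    have h4 := Nat.mod_mod_of_dvd m (two_dvd_of_ite hc)
    have h5 := Nat.mod_mod_of_dvd (2 * d) (two_dvd_of_ite hc)
    have h6 : m % c ≠ 0 := by omega
    have h7 : m % c ≠ 2 * d % c := by omega
    simp only [h6, h7, hr2, hrp, h3, Ne, not_false_eq_true, true_and, false_and, and_false, false_or,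
      or_false, true_iff, show (1 : ℤˣ) = -1 ↔ False by decide]

end Cfsg.Agent.S5989
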