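import Cfsg.Statements.S5990
import Cfsg.Agent.Cl.DerQ5

set_option autoImplicit false
open scoped MatrixGroups
open Cfsg

namespace Cfsg.Agent.S5990

/-- Elements of prime order of PΩ⁻_n(q) with no fixed elliptic `m`-space. Here `T = PΩ⁻_n(F)`, `n = 2d ≥ 8`, realised through `Ω⁻_n(q)`, the commutator subgroup of the isometry group of `Q = Σ_{i<d−1} xᵢyᵢ + z₁² + a z₁z₂ + b z₂²` with `z₁² + a z₁z₂ + b z₂²` anisotropic, over the field `F` with `q` elements; an element of `T` of prime order `r` is an element `x` of `Ω⁻_n(q)` with `x^r` scalar and `x` not scalar; a nondegenerate `m`-space (even `m`) is a subspace on which the polar form of `Q` is nondegenerate; it is hyperbolic if it contains an `m/2`-dimensional subspace on which `Q` vanishes, elliptic otherwise. Let `m` be even with `2 ≤ m ≤ n − 2` (no restriction `m < n/2`: fixing an elliptic `m`-space is the same as fixing its hyperbolic orthogonal complement) and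 let `r` be a prime dividing the number of elliptic `m`-spaces, with `r = 2` or `r ≠ p`; for `r ≠ p` let `i` be the multiplicative order of `q` modulo `r`, `c = i` for `i` even and `c = 2i` for `i` odd, and write `k = n mod c`, `ℓ = m mod i`, `ℓ' = m mod c`, `n' = ⌊n/i⌋`, `m' = ⌊m/i⌋`, `t = (r−1)/i`. Then every element of `T` of order `r` fixes some elliptic `m`-space if and only if one of: (i) `r = p = 2` and (`n ≡ 0 (mod 4)` or `m ≡ 2 (mod 4)`); (ii) `r = 2 ≠ p` and (`n ≡ 0 (mod 4)`, or `q ≢ 7 (mod 8)`, or `m ≡ 2 (mod 4)`); (iii) `r ≠ p` odd, `i` odd, and `k = 0` or (`c ≤ m` and `k ≥ ℓ' > 0`); (iv) `r ≠ p` odd, `i` even, and either `k = 0` and (`n/i` even, or `ℓ' = 0` and `m/i` odd), or `k > 0`, `i ≤ m` and (`k > ℓ' > 0`, or `ℓ' = 0` and `m/i` odd, or `k = ℓ'` and `(n + m − 2k)/i` even). (Odd `r = p` is not covered by this statement.) -/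
theorem result {F : Type*} [Field F] [Fintype F] {p : ℕ} [Fact p.Prime] [CharP F p] {q : ℕ} (hq : Fintype.card F = q)
    (d m : ℕ) (hd : 4 ≤ d) (hm : 2 ≤ m) (hme : Even m) (hmn : m + 2 ≤ 2 * d) (a b : F) (hab : ∀ x y : F, x ^ 2 + a * x * y + b * y ^ 2 = 0 → x = 0 ∧ y = 0)
    (r : ℕ) [Fact r.Prime] (hr : r = 2 ∨ r ≠ p)
    (hrΩ : r ∣ Nat.card {W : Submodule F ((Fin (d - 1) ⊕ Fin (d - 1)) ⊕ Fin 2 → F) // Module.finrank F ↥W = m ∧ Cfsg.Geo.IsNondegenerateOn (QuadraticMap.polar (Cfsg.quadFormMinus (d - 1) F a b)) W ∧ ¬ Cfsg.Geo.IsPlusTypeOn (Cfsg.quadFormMinus (d - 1) F a b) W})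
    (i c : ℕ) (hi : i = orderOf (q : ZMod r)) (hc : c = if Even i then i else 2 * i) :
    (∀ x : GL ((Fin (d - 1) ⊕ Fin (d - 1)) ⊕ Fin 2) F, x ∈ Cfsg.Geo.omegaGL (Cfsg.quadFormMinus (d - 1) F a b) →
      (∃ z : F, ((x ^ r : GL ((Fin (d - 1) ⊕ Fin (d - 1)) ⊕ Fin 2) F) : Matrix ((Fin (d - 1) ⊕ Fin (d - 1)) ⊕ Fin 2) ((Fin (d - 1) ⊕ Fin (d - 1)) ⊕ Fin 2) F) = z • (1 : Matrix ((Fin (d - 1) ⊕ Fin (d - 1)) ⊕ Fin 2) ((Fin (d - 1) ⊕ Fin (d - 1)) ⊕ Fin 2) F)) →
      (∀ z : F, (x : Matrix ((Fin (d - 1) ⊕ Fin (d - 1)) ⊕ Fin 2) ((Fin (d - 1) ⊕ Fin (d - 1)) ⊕ Fin 2) F) ≠ z • (1 : Matrix ((Fin (d - 1) ⊕ Fin (d - 1)) ⊕ Fin 2) ((Fin (d - 1) ⊕ Fin (d - 1)) ⊕ Fin 2) F)) →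
      ∃ W : Submodule F ((Fin (d - 1) ⊕ Fin (d - 1)) ⊕ Fin 2 → F), (Module.finrank F ↥W = m ∧ Cfsg.Geo.IsNondegenerateOn (QuadraticMap.polar (Cfsg.quadFormMinus (d - 1) F a b)) W ∧ ¬ Cfsg.Geo.IsPlusTypeOn (Cfsg.quadFormMinus (d - 1) F a b) W) ∧ W.map (Matrix.toLin' (x : Matrix ((Fin (d - 1) ⊕ Fin (d - 1)) ⊕ Fin 2) ((Fin (d - 1) ⊕ Fin (d - 1)) ⊕ Fin 2) F)) ≤ W) ↔
    ((r = 2 ∧ p = 2 ∧ (Even d ∨ m % 4 = 2)) ∨
     (r = 2 ∧ p ≠ 2 ∧ (Even d ∨ q % 8 ≠ 7 ∨ m % 4 = 2)) ∨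
     (r ≠ p ∧ 2 < r ∧ Odd i ∧ ((2 * d) % c = 0 ∨ (c ≤ m ∧ 0 < m % c ∧ m % c ≤ (2 * d) % c))) ∨
     (r ≠ p ∧ 2 < r ∧ Even i ∧
       (((2 * d) % c = 0 ∧ (Even ((2 * d) / i) ∨ (m % c = 0 ∧ Odd (m / i)))) ∨
        (0 < (2 * d) % c ∧ i ≤ m ∧ ((0 < m % c ∧ m % c < (2 * d) % c) ∨ (m % c = 0 ∧ Odd (m / i)) ∨
                                    (m % c = (2 * d) % c ∧ Even ((2 * d + m - 2 * ((2 * d) % c)) / i))))))) := by
  open Polynomial Module Cfsg.Agent.Cl.Cls Cfsg.Agent.Cl.Der in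
  focus
    subst hq
    have hG := geomQ_minus (d - 1) hab
    have hV : finrank F ((Fin (d - 1) ⊕ Fin (d - 1)) ⊕ Fin 2 → F) = 2 * d := by
      rw [Cl.o_finrank_minus]; omega
    have hE := tp_minus (d - 1) hab
    have : Nontrivial ((Fin (d - 1) ⊕ Fin (d - 1)) ⊕ Fin 2 → F) :=
      Module.nontrivial_of_finrank_pos (R := F) (by omega)
    simp only [← Cl.coe_quad_minus, map_le_iff, isNondegenerateOn_iff, isPlusTypeOn_iff,
      not_plus_iff_tp hme] at hrΩ ⊢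
    simp only [and_assoc]
    generalize Cl.quad_minus (d - 1) F a b = Q at hG hE hrΩ ⊢
    refine (omega_forall_iff hG fun f => ∃ W : Submodule F _, finrank F W = m ∧
      NDQ Q W ∧ tp Q W = -1 ∧ ∀ v ∈ W, f v ∈ W).trans ?_
    have hm2 := Nat.even_iff.1 hme
    by_cases hr2 : r = 2
    · subst hr2
      by_cases h2 : (2 : F) = 0
      · obtain rfl : p = 2 := by
          by_contra h
          exact two_ne_zero_of_ne h h2
        simp only [true_and, ne_eq, not_true, false_and, or_false, Nat.even_iff]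
        constructor
        · intro H
          by_contra! h4
          obtain ⟨f, f1, f2, f3, f4⟩ := hG.exists_aType_der (p := 2) (by omega) (u := d / 2)
            (by omega) (Or.inl (by omega))
          obtain ⟨W, w1, w2, w3, w4⟩ := H f f1.iso f1 ⟨1, by rw [f2, one_smul]⟩ f3
          obtain ⟨a, b, h5, h6, h7⟩ := f4 W w2 w4 (w1 ▸ hme)
          simp only [w3, show (-1 : ℤˣ) = 1 ↔ False by decide, and_false, or_false] at h6
          omega
        · rw [hG.forall_char_two_iff h2]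
          intro H f f1 _ f2 _
          obtain ⟨W, w1, w2, w3, w4⟩ := hG.exists_plus_two h2 f1 f2 (a := d - 1)
            (b := d - m / 2) (Or.inr ⟨by omega, hE⟩) (by omega)
            (by rw [Nat.even_iff, Nat.odd_iff]; omega)
          have := hG.finrank_add_perp W
          exact ⟨_, by omega, hG.nd_perp w2, by
            rw [hG.tp_perp w2 (Or.inl (w1 ▸ even_two_mul _)), hE, w3, mul_one], hG.perp_inv f1 w4⟩
      · have h3 := (two_lt_char (p := p) h2).ne'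
        rw [hG.forall_two_tp_iff h2 hV (by omega) (by omega), hE, isSquare_two_iff' h2,
          eq_comm (a := (-1 : ℤˣ)) (b := chi F ^ d)]
        rcases chi_cases h2 with h | h <;>
          simp [h, h3, neg_one_pow_eq_neg_one_iff', Nat.even_iff] <;> omega
    have hrp := hr.resolve_left hr2
    rw [hG.forall_odd (by omega) hr2 fun f => by simp only [neg_inv_iff, imp_self],
      hG.forall_tp_cases hrp hr2 hV hi hc (by omega) (by omega) (fun _ => hme) hE hrΩ]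
    have h3 := two_lt_of_ne hr2
    have h4 : m % c = 0 → c ≤ m := fun h => Nat.le_of_dvd (by omega) (Nat.dvd_of_mod_eq_zero h)
    have h5 : i % 2 = 0 → c = i := fun h => by rw [hc, if_pos (Nat.even_iff.2 h)]
    have h6 : i % 2 = 0 → 2 * d % c = 0 →
        (2 * d + m - 2 * (2 * d % c)) / i = 2 * d / i + m / i := fun h h' => by
      rw [h', ← h5 h, mul_zero, Nat.sub_zero, Nat.add_div_of_dvd_right (Nat.dvd_of_mod_eq_zero h')]
    clear hc hi hrΩ
    generalize (2 * d + m - 2 * (2 * d % c)) / i = x, 2 * d % c = k, m % c = l, 2 * d / i = n',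
      m / i = m' at h4 h6 ⊢
    simp only [Nat.odd_iff, Nat.even_iff, true_iff, false_iff, and_false, false_or, and_true,
      show (-1 : ℤˣ) = 1 ↔ False by decide]
    omega

end Cfsg.Agent.S5990
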