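import Cfsg.Statements.S5991
import Cfsg.Agent.Cl.DerQ5

set_option autoImplicit false
open scoped MatrixGroups
open Cfsg

namespace Cfsg.Agent.S5991

/-- Elements of prime order of PΩ⁻_n(q), q odd, with no fixed nondegenerate `m`-space of odd dimension. Here `T = PΩ⁻_n(F)`, `n = 2d ≥ 8`, realised through `Ω⁻_n(q)`, the commutator subgroup of the isometry group of `Q = Σ_{i<d−1} xᵢyᵢ + z₁² + a z₁z₂ + b z₂²` with `z₁² + a z₁z₂ + b z₂²` anisotropic, over the field `F` with `q` elements; an element of `T` of prime order `r` is an element `x` of `Ω⁻_n(q)` with `x^r` scalar and `x` not scalar; `q` and `m` are odd, `1 ≤ m < n/2`. The nondegenerate `m`-spaces fall into two isometry classes, each an orbit of `T`, with equivalent actions; fix one such space `W₀` and let Ω be the set of nondegenerate `m`-spaces isometric to `W₀`. Let `r` be a prime dividing the size of Ω; for `r ≠ p` let `i` be the multiplicative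 order of `q` modulo `r`, `c = i` for `i` even and `c = 2i` for `i` odd, and write `k = n mod c`, `ℓ = m mod i`, `ℓ' = m mod c`, `n' = ⌊n/i⌋`, `m' = ⌊m/i⌋`, `t = (r−1)/i`. Then every element of `T` of order `r` fixes a member of Ω if and only if one of: (i) `r = 2` and (`n ≡ 0 (mod 4)` or `q ≢ 7 (mod 8)`); (ii) `r ≠ p` odd, `i` odd, and `k = 0` or (`c ≤ m` and `k > ℓ' > 0`); (iii) `r ≠ p` odd, `i` even, and either `k = 0` and `n/i` even, or `k > 0`, `i ≤ m` and `k > ℓ' > 0`. (For `r = p` there is always an element of order `p` fixing no member of Ω.) -/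
theorem result {F : Type*} [Field F] [Fintype F] {p : ℕ} [Fact p.Prime] [CharP F p] {q : ℕ} (hq : Fintype.card F = q)
    (hodd : Odd q) (d m : ℕ) (hd : 4 ≤ d) (hm : Odd m) (hmd : m < d) (a b : F) (hab : ∀ x y : F, x ^ 2 + a * x * y + b * y ^ 2 = 0 → x = 0 ∧ y = 0)
    (W₀ : Submodule F ((Fin (d - 1) ⊕ Fin (d - 1)) ⊕ Fin 2 → F)) (hW₀ : Module.finrank F ↥W₀ = m ∧ Cfsg.Geo.IsNondegenerateOn (QuadraticMap.polar (Cfsg.quadFormMinus (d - 1) F a b)) W₀)
    (r : ℕ) [Fact r.Prime]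
    (hrΩ : r ∣ Nat.card {W : Submodule F ((Fin (d - 1) ⊕ Fin (d - 1)) ⊕ Fin 2 → F) // Module.finrank F ↥W = m ∧ Cfsg.Geo.IsNondegenerateOn (QuadraticMap.polar (Cfsg.quadFormMinus (d - 1) F a b)) W ∧ Cfsg.Geo.AreIsometricFor (Cfsg.quadFormMinus (d - 1) F a b) W W₀})
    (i c : ℕ) (hi : i = orderOf (q : ZMod r)) (hc : c = if Even i then i else 2 * i) :
    (∀ x : GL ((Fin (d - 1) ⊕ Fin (d - 1)) ⊕ Fin 2) F, x ∈ Cfsg.Geo.omegaGL (Cfsg.quadFormMinus (d - 1) F a b) →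
      (∃ z : F, ((x ^ r : GL ((Fin (d - 1) ⊕ Fin (d - 1)) ⊕ Fin 2) F) : Matrix ((Fin (d - 1) ⊕ Fin (d - 1)) ⊕ Fin 2) ((Fin (d - 1) ⊕ Fin (d - 1)) ⊕ Fin 2) F) = z • (1 : Matrix ((Fin (d - 1) ⊕ Fin (d - 1)) ⊕ Fin 2) ((Fin (d - 1) ⊕ Fin (d - 1)) ⊕ Fin 2) F)) →
      (∀ z : F, (x : Matrix ((Fin (d - 1) ⊕ Fin (d - 1)) ⊕ Fin 2) ((Fin (d - 1) ⊕ Fin (d - 1)) ⊕ Fin 2) F) ≠ z • (1 : Matrix ((Fin (d - 1) ⊕ Fin (d - 1)) ⊕ Fin 2) ((Fin (d - 1) ⊕ Fin (d - 1)) ⊕ Fin 2) F)) →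
      ∃ W : Submodule F ((Fin (d - 1) ⊕ Fin (d - 1)) ⊕ Fin 2 → F), (Module.finrank F ↥W = m ∧ Cfsg.Geo.IsNondegenerateOn (QuadraticMap.polar (Cfsg.quadFormMinus (d - 1) F a b)) W ∧ Cfsg.Geo.AreIsometricFor (Cfsg.quadFormMinus (d - 1) F a b) W W₀) ∧ W.map (Matrix.toLin' (x : Matrix ((Fin (d - 1) ⊕ Fin (d - 1)) ⊕ Fin 2) ((Fin (d - 1) ⊕ Fin (d - 1)) ⊕ Fin 2) F)) ≤ W) ↔
    ((r = 2 ∧ (Even d ∨ q % 8 ≠ 7)) ∨
     (r ≠ p ∧ 2 < r ∧ Odd i ∧ ((2 * d) % c = 0 ∨ (c ≤ m ∧ 0 < m % c ∧ m % c < (2 * d) % c))) ∨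
     (r ≠ p ∧ 2 < r ∧ Even i ∧ (((2 * d) % c = 0 ∧ Even ((2 * d) / i)) ∨ (0 < (2 * d) % c ∧ i ≤ m ∧ 0 < m % c ∧ m % c < (2 * d) % c)))) := by
  open Polynomial Module Cfsg.Agent.Cl.Cls Cfsg.Agent.Cl.Der in
  focus
    subst hq
    have h2 : (2 : F) ≠ 0 := Cl.quad_two_ne_zero_of_odd hodd
    have hG := geomQ_minus (d - 1) hab
    have hV : finrank F ((Fin (d - 1) ⊕ Fin (d - 1)) ⊕ Fin 2 → F) = 2 * d := by
      rw [Cl.o_finrank_minus]; omega
    have hE := tp_minus (d - 1) hab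
    simp only [← Cl.coe_quad_minus, map_le_iff, isNondegenerateOn_iff, areIsometricFor_iff]
      at hW₀ hrΩ ⊢
    simp only [hG.isom_iff_tp hW₀] at hrΩ ⊢
    simp only [and_assoc]
    generalize Cl.quad_minus (d - 1) F a b = Q at hG hE hrΩ hW₀ ⊢
    refine (omega_forall_iff hG fun f => ∃ W : Submodule F _, finrank F W = m ∧
      NDQ Q W ∧ tp Q W = tp Q W₀ ∧ ∀ v ∈ W, f v ∈ W).trans ?_
    have hm2 := Nat.odd_iff.1 hm
    by_cases hrp : r = p
    · subst hrp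
      have h3 := two_lt_char (p := r) h2
      refine iff_of_false (fun H => ?_) (by omega)
      have key : ∀ (μ : Multiset ℕ) (k : ℕ), (∀ a ∈ μ, a = 1 ∨ a = 3) → 4 * k + μ.sum = 2 * d →
          μ ≠ 0 → 0 < k ∨ 3 ∈ μ → ∃ j ν, ν ≤ μ ∧ m = 4 * j + ν.sum := fun μ k h4 h5 h0 h6 => by
        obtain ⟨f, f1, f2, f3, f4⟩ := hG.exists_two_type (p := r) h2 h4 (h5.trans hV.symm)
          (Or.inl h0) h6
        obtain ⟨W, w1, w2, -, w4⟩ := H f f1.iso f1 ⟨1, by rw [f2, one_smul]⟩ f3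
        obtain ⟨j, ν, h7, h8, -⟩ := f4 W w2 w4
        exact ⟨j, ν, h7, w1 ▸ h8⟩
      have hne : ∀ s : ℤˣ, s ≠ -s := by decide
      rcases (by omega : (d % 2 = 0 ∧ m % 4 = 1) ∨ (d % 2 = 0 ∧ m % 4 = 3) ∨
        (d % 2 = 1 ∧ m % 4 = 3) ∨ (d % 2 = 1 ∧ m % 4 = 1)) with h | h | h | h
      · obtain ⟨f, f1, f2, f3, f4⟩ := hG.exists_three_one (p := r) h2 (k := d / 2 - 1) (by omega)
          (-tp Q W₀)
        obtain ⟨W, w1, w2, w3, w4⟩ := H f f1.iso f1 ⟨1, by rw [f2, one_smul]⟩ f3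
        exact hne _ (w3.symm.trans (f4 W w2 w4 (by omega)))
      · obtain ⟨f, f1, f2, f3, f4⟩ := hG.exists_three_one (p := r) h2 (k := d / 2 - 1) (by omega)
          (-tp Q (perpQ Q W₀))
        obtain ⟨W, w1, w2, w3, w4⟩ := H f f1.iso f1 ⟨1, by rw [f2, one_smul]⟩ f3
        have := hG.finrank_add_perp W
        have h4 := hG.isom_perp ((hG.isom_iff w2 hW₀.2).2 ⟨w1.trans hW₀.1.symm, w3⟩)
        exact hne _ (((hG.isom_iff (hG.nd_perp w2) (hG.nd_perp hW₀.2)).1 h4).2.symm.trans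
          (f4 _ (hG.nd_perp w2) (hG.perp_inv f1.iso w4) (by omega)))
      · obtain ⟨j, ν, h4, h5⟩ := key {1, 1} (d / 2) (by simp) (by simp; omega) (by simp)
          (Or.inl (by omega))
        rcases le_pair_cases h4 with rfl | rfl | rfl | rfl <;> simp at h5 <;> omega
      · obtain ⟨j, ν, h4, h5⟩ := key {3, 3} (d / 2 - 1) (by simp) (by simp; omega) (by simp)
          (Or.inr (by simp))
        rcases le_pair_cases h4 with rfl | rfl | rfl | rfl <;> simp at h5 <;> omega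
    by_cases hr2 : r = 2
    · subst hr2
      rw [hG.forall_two_tp_iff h2 hV (by omega) (by omega), hE, isSquare_two_iff' h2,
        eq_comm (a := (-1 : ℤˣ)) (b := chi F ^ d)]
      rcases chi_cases h2 with h | h <;>
        simp [h, hm2, neg_one_pow_eq_neg_one_iff', Nat.even_iff] <;> omega
    rw [hG.forall_odd (by omega) hr2 fun f => by simp only [neg_inv_iff, imp_self],
      hG.forall_tp_cases hrp hr2 hV hi hc (by omega) (by omega) (fun h => absurd h h2) hE hrΩ]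
    have h3 := two_lt_of_ne hr2
    have h4 := Nat.mod_mod_of_dvd m (two_dvd_of_ite hc)
    have h5 := Nat.mod_mod_of_dvd (2 * d) (two_dvd_of_ite hc)
    have h6 : m % c ≠ 0 := by omega
    have h7 : m % c ≠ 2 * d % c := by omega
    simp only [h6, h7, hr2, hrp, h3, Ne, not_false_eq_true, true_and, false_and, and_false, false_or,
      or_false, false_iff, and_true, Nat.not_odd_iff_even, show (-1 : ℤˣ) = 1 ↔ False by decide]
    refine or_congr_right (and_congr_right' (or_congr_right ?_))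
    omega

end Cfsg.Agent.S5991
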