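import Cfsg.Statements.S5993
import Cfsg.Agent.Cl.DerQ5

set_option autoImplicit false
open scoped MatrixGroups
open Cfsg

namespace Cfsg.Agent.S5993

/-- Elements of prime order of Ω_n(q), nq odd, with no fixed elliptic `m`-space. Here `T = Ω_n(F)`, `n = 2d+1 ≥ 7`, `q` odd, realised as the commutator subgroup of the isometry group of `Q = x₀² + Σ xᵢyᵢ` over the field `F` with `q` elements (trivial centre, so its elements of prime order `r` are used directly); a nondegenerate `m`-space (even `m`) is a subspace on which the polar form of `Q` is nondegenerate; it is hyperbolic if it contains an `m/2`-dimensional subspace on which `Q` vanishes, elliptic otherwise. Let `m` be even with `2 ≤ m ≤ n − 1` (no restriction `m < n/2`) and let `r` be a prime dividing the number of elliptic `m`-spaces; for `r ≠ p` let `i` be the multiplicative order of `q` modulo `r`, `c = i` for `i` even and `c = 2i` for `i` odd, and write `k = n mod c`, `ℓ' = m mod c`. Then every element of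 `T` of order `r` fixes some elliptic `m`-space if and only if `r = 2`, or `r ≠ p` is odd and one of: (i) `i` odd, `c ≤ m` and `k > ℓ' > 0`; (ii) `i` even, `i ≤ m`, `k > ℓ'`, and `m/i` odd whenever `ℓ' = 0`. (For `r = p` there is always an element of order `p` fixing no elliptic `m`-space.) -/
theorem result {F : Type*} [Field F] [Fintype F] {p : ℕ} [Fact p.Prime] [CharP F p] {q : ℕ} (hq : Fintype.card F = q) (hqodd : Odd q)
    (d m : ℕ) (hd : 3 ≤ d) (hm : 2 ≤ m) (hme : Even m) (hmn : m ≤ 2 * d)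
    (r : ℕ) [Fact r.Prime]
    (hrΩ : r ∣ Nat.card {W : Submodule F (Unit ⊕ (Fin d ⊕ Fin d) → F) // Module.finrank F ↥W = m ∧ Cfsg.Geo.IsNondegenerateOn (QuadraticMap.polar (Cfsg.quadFormOdd d F)) W ∧ ¬ Cfsg.Geo.IsPlusTypeOn (Cfsg.quadFormOdd d F) W})
    (i c : ℕ) (hi : i = orderOf (q : ZMod r)) (hc : c = if Even i then i else 2 * i) :
    (∀ x : GL (Unit ⊕ (Fin d ⊕ Fin d)) F, x ∈ Cfsg.Geo.omegaGL (Cfsg.quadFormOdd d F) → orderOf x = r →
      ∃ W : Submodule F (Unit ⊕ (Fin d ⊕ Fin d) → F), (Module.finrank F ↥W = m ∧ Cfsg.Geo.IsNondegenerateOn (QuadraticMap.polar (Cfsg.quadFormOdd d F)) W ∧ ¬ Cfsg.Geo.IsPlusTypeOn (Cfsg.quadFormOdd d F) W) ∧ W.map (Matrix.toLin' (x : Matrix (Unit ⊕ (Fin d ⊕ Fin d)) (Unit ⊕ (Fin d ⊕ Fin d)) F)) ≤ W) ↔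
    (r = 2 ∨
     (r ≠ p ∧ 2 < r ∧ Odd i ∧ c ≤ m ∧ 0 < m % c ∧ m % c < (2 * d + 1) % c) ∨
     (r ≠ p ∧ 2 < r ∧ Even i ∧ i ≤ m ∧ m % c < (2 * d + 1) % c ∧ (0 < m % c ∨ Odd (m / i)))) := by
  open Polynomial Module Cfsg.Agent.Cl.Cls Cfsg.Agent.Cl.Der in
  focus
    subst hq
    have h2 : (2 : F) ≠ 0 := Cl.quad_two_ne_zero_of_odd hqodd
    have hG := geomQ_odd h2 d
    have hV : finrank F (Unit ⊕ (Fin d ⊕ Fin d) → F) = 2 * d + 1 := Cl.o_finrank_odd
    simp only [← Cl.coe_quad_odd, map_le_iff, isNondegenerateOn_iff, isPlusTypeOn_iff,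
      not_plus_iff_tp hme] at hrΩ ⊢
    simp only [and_assoc]
    generalize Cl.quad_odd d F = Q at hG hrΩ ⊢
    refine (omega_forall_order_iff hG fun f => ∃ W : Submodule F _, finrank F W = m ∧
      NDQ Q W ∧ tp Q W = -1 ∧ ∀ v ∈ W, f v ∈ W).trans ?_
    have hm2 := Nat.even_iff.1 hme
    by_cases hr2 : r = 2
    · subst hr2
      exact iff_of_true (fun f f1 f2 f3 => hG.exists_tp_of_sq h2 f1 f2 f3 (by omega) (by omega) _)
        (Or.inl rfl)
    by_cases hrp : r = p
    · subst hrp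
      refine iff_of_false (fun H => ?_) (by omega)
      have key : ∀ a k : ℕ, a = 1 ∨ a = 3 → 4 * k + a = 2 * d + 1 → False := fun a k h4 h5 => by
        obtain ⟨f, f1, f2, f3, f4⟩ := hG.exists_two_type (p := r) h2 (μ := {a}) (k := k)
          (by simpa using h4) (by simpa [hV] using h5) (Or.inl (by simp)) (Or.inl (by omega))
        obtain ⟨W, w1, w2, w3, w4⟩ := H f f1 f2 (by simpa using f3 1)
        obtain ⟨j, ν, h7, h8, h9⟩ := f4 W w2 w4
        rcases Multiset.le_singleton.1 h7 with rfl | rfl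
        · exact (tp_eq_neg_one_iff (w1 ▸ hme)).1 w3 (h9 rfl)
        · simp at h8
          omega
      rcases Nat.mod_two_eq_zero_or_one d with h | h
      · exact key 1 (d / 2) (Or.inl rfl) (by omega)
      · exact key 3 (d / 2) (Or.inr rfl) (by omega)
    rw [hG.forall_odd' (by omega) hr2,
      hG.forall_tp_cases hrp hr2 hV hi hc (by omega) (by omega) (fun h => absurd h h2) rfl hrΩ]
    have h3 := two_lt_of_ne hr2
    have h4 := Nat.mod_mod_of_dvd m (two_dvd_of_ite hc)
    have h5 := Nat.mod_mod_of_dvd (2 * d + 1) (two_dvd_of_ite hc)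
    have h6 : (2 * d + 1) % c ≠ 0 := by omega
    have h7 : m % c ≠ (2 * d + 1) % c := by omega
    simp only [h6, h7, hr2, hrp, h3, Ne, not_false_eq_true, true_and, false_and, and_false, false_or,
      or_false, false_iff, show (-1 : ℤˣ) = 1 ↔ False by decide]
    generalize (2 * d + 1) % c = k, m % c = l, m / i = m' at h6 ⊢
    simp only [Nat.odd_iff, Nat.even_iff]
    omega

end Cfsg.Agent.S5993
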