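import Cfsg.Statements.S5994
import Cfsg.Agent.Cl.DerQ5

set_option autoImplicit false
open scoped MatrixGroups
open Cfsg

namespace Cfsg.Agent.S5994

/-- A necessary condition for every element of order p of PΩ⁻_n(q), q odd, to fix an elliptic `m`-space. Here `T = PΩ⁻_n(F)`, `n = 2d ≥ 8`, realised through `Ω⁻_n(q)`, the commutator subgroup of the isometry group of `Q = Σ_{i<d−1} xᵢyᵢ + z₁² + a z₁z₂ + b z₂²` with `z₁² + a z₁z₂ + b z₂²` anisotropic, over the field `F` with `q` elements; an element of `T` of prime order `r` is an element `x` of `Ω⁻_n(q)` with `x^r` scalar and `x` not scalar; `q` is odd; a nondegenerate `m`-space (even `m`) is a subspace on which the polar form of `Q` is nondegenerate; it is hyperbolic if it contains an `m/2`-dimensional subspace on which `Q` vanishes, elliptic otherwise. Let `m` be even with `2 ≤ m ≤ n − 2` and suppose `p` divides the number of elliptic `m`-spaces. If every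 element of `T` of order `p` fixes some elliptic `m`-space, then `n ≡ m (mod 4)` and every partition of `n` into parts of size at most `p` in which every even part has even multiplicity contains (as a sub-multiset) a partition of `m` in which every even part has even multiplicity. -/
theorem result {F : Type*} [Field F] [Fintype F] {p : ℕ} [Fact p.Prime] [CharP F p] {q : ℕ} (hq : Fintype.card F = q) (hqodd : Odd q)
    (d m : ℕ) (hd : 4 ≤ d) (hm : 2 ≤ m) (hme : Even m) (hmn : m + 2 ≤ 2 * d) (a b : F) (hab : ∀ x y : F, x ^ 2 + a * x * y + b * y ^ 2 = 0 → x = 0 ∧ y = 0)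
    (hpΩ : p ∣ Nat.card {W : Submodule F ((Fin (d - 1) ⊕ Fin (d - 1)) ⊕ Fin 2 → F) // Module.finrank F ↥W = m ∧ Cfsg.Geo.IsNondegenerateOn (QuadraticMap.polar (Cfsg.quadFormMinus (d - 1) F a b)) W ∧ ¬ Cfsg.Geo.IsPlusTypeOn (Cfsg.quadFormMinus (d - 1) F a b) W}) :
    (∀ x : GL ((Fin (d - 1) ⊕ Fin (d - 1)) ⊕ Fin 2) F, x ∈ Cfsg.Geo.omegaGL (Cfsg.quadFormMinus (d - 1) F a b) →
      (∃ z : F, ((x ^ p : GL ((Fin (d - 1) ⊕ Fin (d - 1)) ⊕ Fin 2) F) : Matrix ((Fin (d - 1) ⊕ Fin (d - 1)) ⊕ Fin 2) ((Fin (d - 1) ⊕ Fin (d - 1)) ⊕ Fin 2) F) = z • (1 : Matrix ((Fin (d - 1) ⊕ Fin (d - 1)) ⊕ Fin 2) ((Fin (d - 1) ⊕ Fin (d - 1)) ⊕ Fin 2) F)) →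
      (∀ z : F, (x : Matrix ((Fin (d - 1) ⊕ Fin (d - 1)) ⊕ Fin 2) ((Fin (d - 1) ⊕ Fin (d - 1)) ⊕ Fin 2) F) ≠ z • (1 : Matrix ((Fin (d - 1) ⊕ Fin (d - 1)) ⊕ Fin 2) ((Fin (d - 1) ⊕ Fin (d - 1)) ⊕ Fin 2) F)) →
      ∃ W : Submodule F ((Fin (d - 1) ⊕ Fin (d - 1)) ⊕ Fin 2 → F), (Module.finrank F ↥W = m ∧ Cfsg.Geo.IsNondegenerateOn (QuadraticMap.polar (Cfsg.quadFormMinus (d - 1) F a b)) W ∧ ¬ Cfsg.Geo.IsPlusTypeOn (Cfsg.quadFormMinus (d - 1) F a b) W) ∧ W.map (Matrix.toLin' (x : Matrix ((Fin (d - 1) ⊕ Fin (d - 1)) ⊕ Fin 2) ((Fin (d - 1) ⊕ Fin (d - 1)) ⊕ Fin 2) F)) ≤ W) →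
    ((2 * d) % 4 = m % 4 ∧ (∀ μ : Multiset ℕ, (∀ e ∈ μ, 0 < e ∧ e ≤ p) → (∀ e : ℕ, Even e → Even (μ.count e)) → μ.sum = 2 * d →
        ∃ ν : Multiset ℕ, ν ≤ μ ∧ ν.sum = m ∧ ∀ e : ℕ, Even e → Even (ν.count e))) := by
  open Polynomial Module Cfsg.Agent.Cl.Cls Cfsg.Agent.Cl.Der in
  focus
    subst hq
    have h2 : (2 : F) ≠ 0 := Cl.quad_two_ne_zero_of_odd hqodd
    have hG := geomQ_minus (d - 1) hab
    have hV : finrank F ((Fin (d - 1) ⊕ Fin (d - 1)) ⊕ Fin 2 → F) = 2 * d := by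
      rw [Cl.o_finrank_minus]; omega
    simp only [← Cl.coe_quad_minus, map_le_iff, isNondegenerateOn_iff, isPlusTypeOn_iff, and_assoc]
    generalize Cl.quad_minus (d - 1) F a b = Q at hG ⊢
    intro H'
    have H := (omega_forall_iff hG fun f => ∃ W : Submodule F _, finrank F W = m ∧
      NDQ Q W ∧ ¬ PlusQ Q W ∧ ∀ v ∈ W, f v ∈ W).1 H'
    have hm2 := Nat.even_iff.1 hme
    refine ⟨?_, fun μ h3 h4 h5 => hG.exists_part h2 (by omega) hme (fun f f1 f2 f3 => ?_) μ h3 h4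
      (h5.trans hV.symm)⟩
    · have key : ∀ a k : ℕ, a = 1 ∨ a = 3 → 4 * k + a + 1 = 2 * d → 2 * d % 4 = m % 4 := by
        intro a k h4 h5
        obtain ⟨f, f1, f2, f3, f4⟩ := hG.exists_two_type (p := p) h2 (μ := {a, 1}) (k := k)
          (by simpa using h4) (by simpa [hV, add_assoc] using h5) (Or.inl (by simp))
          (Or.inl (by omega))
        obtain ⟨W, w1, w2, w3, w4⟩ := H f f1.iso f1 ⟨1, by rw [f2, one_smul]⟩ f3
        obtain ⟨j, ν, h7, h8, h9⟩ := f4 W w2 w4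
        rcases le_pair_cases h7 with rfl | rfl | rfl | rfl
        · exact absurd (h9 rfl) w3
        all_goals
          simp at h8
          omega
      rcases Nat.mod_two_eq_zero_or_one d with h | h
      · exact key 3 (d / 2 - 1) (Or.inr rfl) (by omega)
      · exact key 1 (d / 2) (Or.inl rfl) (by omega)
    · obtain ⟨W, w1, w2, -, w4⟩ := H f f1.iso f1 ⟨1, by rw [f2, one_smul]⟩ f3
      exact ⟨W, w1, w2, w4⟩

end Cfsg.Agent.S5994
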