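import Cfsg.Statements.S5995
import Cfsg.Agent.Cl.DerQ5

set_option autoImplicit false
open scoped MatrixGroups
open Cfsg

namespace Cfsg.Agent.S5995

/-- A necessary condition for every element of order p of Ω_n(q), nq odd, to fix a hyperbolic `m`-space. Here `T = Ω_n(F)`, `n = 2d+1 ≥ 7`, `q` odd, realised as the commutator subgroup of the isometry group of `Q = x₀² + Σ xᵢyᵢ` over the field `F` with `q` elements (trivial centre, so its elements of prime order `r` are used directly); a nondegenerate `m`-space (even `m`) is a subspace on which the polar form of `Q` is nondegenerate; it is hyperbolic if it contains an `m/2`-dimensional subspace on which `Q` vanishes, elliptic otherwise. Let `m` be even with `2 ≤ m ≤ n − 1` and suppose `p` divides the number of hyperbolic `m`-spaces. If every element of `T` of order `p` fixes some hyperbolic `m`-space, then `m ≡ 0 (mod 4)` and every partition of `n` into parts of size at most `p` in which every even part has even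 multiplicity contains (as a sub-multiset) a partition of `m` in which every even part has even multiplicity. -/
theorem result {F : Type*} [Field F] [Fintype F] {p : ℕ} [Fact p.Prime] [CharP F p] {q : ℕ} (hq : Fintype.card F = q) (hqodd : Odd q)
    (d m : ℕ) (hd : 3 ≤ d) (hm : 2 ≤ m) (hme : Even m) (hmn : m ≤ 2 * d)
    (hpΩ : p ∣ Nat.card {W : Submodule F (Unit ⊕ (Fin d ⊕ Fin d) → F) // Module.finrank F ↥W = m ∧ Cfsg.Geo.IsNondegenerateOn (QuadraticMap.polar (Cfsg.quadFormOdd d F)) W ∧ Cfsg.Geo.IsPlusTypeOn (Cfsg.quadFormOdd d F) W}) :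
    (∀ x : GL (Unit ⊕ (Fin d ⊕ Fin d)) F, x ∈ Cfsg.Geo.omegaGL (Cfsg.quadFormOdd d F) → orderOf x = p →
      ∃ W : Submodule F (Unit ⊕ (Fin d ⊕ Fin d) → F), (Module.finrank F ↥W = m ∧ Cfsg.Geo.IsNondegenerateOn (QuadraticMap.polar (Cfsg.quadFormOdd d F)) W ∧ Cfsg.Geo.IsPlusTypeOn (Cfsg.quadFormOdd d F) W) ∧ W.map (Matrix.toLin' (x : Matrix (Unit ⊕ (Fin d ⊕ Fin d)) (Unit ⊕ (Fin d ⊕ Fin d)) F)) ≤ W) →
    (m % 4 = 0 ∧ (∀ μ : Multiset ℕ, (∀ e ∈ μ, 0 < e ∧ e ≤ p) → (∀ e : ℕ, Even e → Even (μ.count e)) → μ.sum = 2 * d + 1 →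
        ∃ ν : Multiset ℕ, ν ≤ μ ∧ ν.sum = m ∧ ∀ e : ℕ, Even e → Even (ν.count e))) := by
  open Polynomial Module Cfsg.Agent.Cl.Cls Cfsg.Agent.Cl.Der in
  focus
    subst hq
    have h2 : (2 : F) ≠ 0 := Cl.quad_two_ne_zero_of_odd hqodd
    have hG := geomQ_odd h2 d
    have hV : finrank F (Unit ⊕ (Fin d ⊕ Fin d) → F) = 2 * d + 1 := Cl.o_finrank_odd
    simp only [← Cl.coe_quad_odd, map_le_iff, isNondegenerateOn_iff, isPlusTypeOn_iff, and_assoc]
    generalize Cl.quad_odd d F = Q at hG ⊢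
    intro H'
    have H := (omega_forall_order_iff hG fun f => ∃ W : Submodule F _, finrank F W = m ∧
      NDQ Q W ∧ PlusQ Q W ∧ ∀ v ∈ W, f v ∈ W).1 H'
    have hm2 := Nat.even_iff.1 hme
    refine ⟨?_, fun μ h3 h4 h5 => hG.exists_part h2 (by omega) hme (fun f f1 f2 f3 => ?_) μ h3 h4
      (h5.trans hV.symm)⟩
    · have key : ∀ a k : ℕ, a = 1 ∨ a = 3 → 4 * k + a = 2 * d + 1 → m % 4 = 0 := fun a k h4 h5 => by
        obtain ⟨f, f1, f2, f3, f4⟩ := hG.exists_two_type (p := p) h2 (μ := {a}) (k := k)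
          (by simpa using h4) (by simpa [hV] using h5) (Or.inl (by simp)) (Or.inl (by omega))
        obtain ⟨W, w1, w2, -, w4⟩ := H f f1 f2 (by simpa using f3 1)
        obtain ⟨j, ν, h7, h8, -⟩ := f4 W w2 w4
        rcases Multiset.le_singleton.1 h7 with rfl | rfl <;> simp at h8 <;> omega
      rcases Nat.mod_two_eq_zero_or_one d with h | h
      · exact key 1 (d / 2) (Or.inl rfl) (by omega)
      · exact key 3 (d / 2) (Or.inr rfl) (by omega)
    · obtain ⟨W, w1, w2, -, w4⟩ := H f f1 f2 (by simpa using f3 1)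
      exact ⟨W, w1, w2, w4⟩

end Cfsg.Agent.S5995
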