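import Cfsg.Statements.S5997
import Cfsg.Agent.Cl.DerSix4

set_option autoImplicit false
open scoped MatrixGroups
open Cfsg

namespace Cfsg.Agent.S5997

/-- Elements of prime order of PSL_2(p) and the normalizer of a quaternion subgroup. Here `T = PSL_2(F)` for the field `F` with `p` elements, `p ≥ 5` prime; `R` is a subgroup of GL_2(F) isomorphic to the quaternion group of order 8 (an absolutely irreducible 2-group of symplectic type), and `H` is the subgroup of matrices of determinant 1 normalizing `R` — a subgroup of type 2^{1+2}.O₂⁻(2), isomorphic modulo scalars to A₄ or S₄ (maximality is not assumed). Ω is the set of cosets of `H` in `T`, so an element of `T` of prime order `r` (a matrix `x` of determinant 1 with `x^r` scalar, `x` not scalar) fixes a point of Ω exactly when some conjugate of `x` by a matrix of determinant 1 normalizes `R`. Let `r` be a prime dividing the index of `H`. Then every element of `T` of order `r` fixes a point of Ω if and only if `r = 2` or `r = 3`. -/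
theorem result {F : Type*} [Field F] [Fintype F] {p : ℕ} [Fact p.Prime] [CharP F p] (hF : Fintype.card F = p) (hp : 5 ≤ p)
    (R : Subgroup (GL (Fin 2) F)) (hR : Nonempty (↥R ≃* QuaternionGroup 2))
    (r : ℕ) [Fact r.Prime]
    (hΩ : r ∣ (Cfsg.Geo.subgroupNormalizer R).relIndex (Cfsg.Geo.specialLinear (Fin 2) F)) :
    (∀ x ∈ Cfsg.Geo.specialLinear (Fin 2) F, (∃ z : F, ((x ^ r : GL (Fin 2) F) : Matrix (Fin 2) (Fin 2) F) = z • (1 : Matrix (Fin 2) (Fin 2) F)) →
      (∀ z : F, (x : Matrix (Fin 2) (Fin 2) F) ≠ z • (1 : Matrix (Fin 2) (Fin 2) F)) →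
      ∃ g ∈ Cfsg.Geo.specialLinear (Fin 2) F, g⁻¹ * x * g ∈ Cfsg.Geo.subgroupNormalizer R) ↔ (r = 2 ∨ r = 3) := by
  open Polynomial Module Cfsg.Agent.Cl.Cls Cfsg.Agent.Cl.Der in
  focus
    obtain ⟨e⟩ := hR
    have hodd := (Fact.out : p.Prime).eq_two_or_odd
    have hc : Nat.card R = 2 ^ 3 := by
      rw [Nat.card_congr e.toEquiv, Nat.card_eq_fintype_card, QuaternionGroup.card]; rfl
    have h := extraData_of_cube (p := p) Nat.prime_two hc (fun h => absurd (e.symm.injective (by
      rw [map_mul, map_mul, h.is_comm.comm]) : QuaternionGroup.a 1 * .xa 0 = .xa 0 * .a 1)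
      (by decide)) (Fintype.card_fin 2) (by omega)
    refine ⟨fun H => AllC.two_or_three H h (Fintype.card_fin 2) (by omega) le_rfl hΩ, fun h23 => ?_⟩
    have hP := pau_of (σ := RingHom.id F) (B := 0) h (by simp) (fun x hx => congrArg Subtype.val
      (e.injective (by rw [map_pow, map_one, (by decide : ∀ x : QuaternionGroup 2, x ^ 4 = 1)]) :
        (⟨x, hx⟩ : R) ^ 4 = 1)) fun _ _ _ _ => by simp
    have h1 : ∀ c ∈ Sm R, ∀ d ∈ Sm R, d * c = -(c * d) → c * c = -1 := by
      rintro _ ⟨c, hc, rfl⟩ _ ⟨d, hd, rfl⟩ h1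
      refine (hP.sq _ (mem_Sm.2 hc)).resolve_left fun h2 => ne_of_anti hP.two (isUnit_glRep c)
        (isUnit_glRep d) h1 ?_
      rw [← map_mul, ← map_mul]
      refine congrArg (fun x : R => glRep x.1) (e.injective ?_ : (⟨d, hd⟩ * ⟨c, hc⟩ : R) = ⟨c, hc⟩ * ⟨d, hd⟩)
      rw [map_mul, map_mul]
      refine (by decide : ∀ x y : QuaternionGroup 2, x * x = 1 → y * x = x * y) _ _ ?_
      rw [← map_mul, ← map_one e]
      exact congrArg e (Subtype.ext (glRep_injective (by simpa using h2)))
    obtain ⟨c, hc, d, hd, h2⟩ := hP.exists_pair (by simp)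
    exact (sl_forall_iff (p := p) (Or.inl (by omega))).2 fun f f1 ⟨z, f2⟩ f3 =>
      (hP.fixM_dim_two (p := p) (by simp) hc hd (h1 c hc d hd h2)
        (h1 d hd c hc (neg_eq_iff_eq_neg.1 h2.symm)) h2 h23 (by omega) f1 f2 f3).fixG'

end Cfsg.Agent.S5997
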