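import Cfsg.Statements.S5998
import Cfsg.Agent.Cl.DerSix4

set_option autoImplicit false
open scoped MatrixGroups
open Cfsg

namespace Cfsg.Agent.S5998

/-- Elements of prime order of PSL_3(p), p ≡ 1 (mod 3), and the normalizer of an extraspecial subgroup of order 27. Here `T = PSL_3(F)` for the field `F` with `p` elements, `p` a prime with `p ≡ 1 (mod 3)`; `R` is a non-abelian subgroup of GL_3(F) of order 27 and exponent 3 (an extraspecial group 3^{1+2}, acting absolutely irreducibly), and `H` is the subgroup of matrices of determinant 1 normalizing `R` — a subgroup of type 3^{1+2}.Sp₂(3) (maximality is not assumed). Ω is the set of cosets of `H` in `T`, so an element of `T` of prime order `r` (a matrix `x` of determinant 1 with `x^r` scalar, `x` not scalar) fixes a point of Ω exactly when some conjugate of `x` by a matrix of determinant 1 normalizes `R`. Let `r` be a prime dividing the index of `H`. Then every element of `T` of order `r` fixes a point of Ω if and only if `r = 2`, or `r = 3` and `p ≡ 1 (mod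 9)`. -/
theorem result {F : Type*} [Field F] [Fintype F] {p : ℕ} [Fact p.Prime] [CharP F p] (hF : Fintype.card F = p) (hp3 : p % 3 = 1)
    (R : Subgroup (GL (Fin 3) F)) (hR : Nat.card R = 27) (hRe : Monoid.exponent R = 3) (hRna : ¬ IsMulCommutative R)
    (r : ℕ) [Fact r.Prime]
    (hΩ : r ∣ (Cfsg.Geo.subgroupNormalizer R).relIndex (Cfsg.Geo.specialLinear (Fin 3) F)) :
    (∀ x ∈ Cfsg.Geo.specialLinear (Fin 3) F, (∃ z : F, ((x ^ r : GL (Fin 3) F) : Matrix (Fin 3) (Fin 3) F) = z • (1 : Matrix (Fin 3) (Fin 3) F)) →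
      (∀ z : F, (x : Matrix (Fin 3) (Fin 3) F) ≠ z • (1 : Matrix (Fin 3) (Fin 3) F)) →
      ∃ g ∈ Cfsg.Geo.specialLinear (Fin 3) F, g⁻¹ * x * g ∈ Cfsg.Geo.subgroupNormalizer R) ↔ (r = 2 ∨ (r = 3 ∧ p % 9 = 1)) := by
  open Polynomial Module Cfsg.Agent.Cl.Cls Cfsg.Agent.Cl.Der in
  focus
    have hp := (Fact.out : p.Prime).two_le
    have hq : 3 ∣ Fintype.card F - 1 := by omega
    have h := extraData_of_cube (p := p) Nat.prime_three hR hRna (Fintype.card_fin 3) hq
    obtain ⟨ω, a, b, h1, hH⟩ := exists_hei (σ := RingHom.id F) (B := 0) h (by simp) hR (fun x hx =>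
      congrArg Subtype.val (hRe ▸ Monoid.pow_exponent_eq_one (⟨x, hx⟩ : R) :)) fun _ _ _ _ => by simp
    have hV : finrank F (Fin 3 → F) = 3 := by simp
    refine ⟨fun H => (AllC.two_or_three H h (Fintype.card_fin 3) le_rfl le_rfl hΩ).imp_right
      fun e => ⟨e, mod_nine_one hp3 ?_⟩, ?_⟩
    · have := (mul_dvd_mul_right hΩ _).trans (relIndex_mul_card_dvd Subgroup.le_normalizer
        (h1 _ (mem_specialLinear_iff.2 (hH.det_eq (p := p) hq hV))
          (mem_specialLinear_iff.2 (hH.symm.det_eq (p := p) hq hV))))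
      rwa [hR, e, card_specialLinear, Cl.card_sl_three, Nat.card_eq_fintype_card, hF] at this
    rintro (rfl | ⟨rfl, -⟩)
    · exact allC_sl (p := p) (by omega) (fun _ => ⟨by simp [padicValNat.eq_zero_of_not_dvd],
        fun _ e => absurd e (by decide)⟩)
        fun f f1 f2 => hH.fixM_two (p := p) (by omega) hV f1 f2
    · exact allC_sl (p := p) (by omega) (fun _ => ⟨by
        simpa using one_le_padicValNat_of_dvd (by omega) hq, by simp⟩)
        fun f f1 f2 => hH.fixM_three (p := p) (by omega) hq hV f1 f2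

end Cfsg.Agent.S5998
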