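import Cfsg.Statements.S5999
import Cfsg.Agent.Cl.DerSix4

set_option autoImplicit false
open scoped MatrixGroups
open Cfsg

namespace Cfsg.Agent.S5999

/-- Elements of prime order of PSU_3(p), p ≡ 2 (mod 3), and the normalizer of an extraspecial subgroup of order 27. Here `T = PSU_3(p)` for a prime `p ≥ 5` with `p ≡ 2 (mod 3)`, realised through `SU_3(p)`, the matrices of determinant 1 over the field `F` with `p²` elements preserving the hermitian form `Σ uᵢvᵢ^p`; `R` is a non-abelian subgroup of order 27 and exponent 3 of the full unitary group of that form (an extraspecial group 3^{1+2}, acting absolutely irreducibly), and `H` is the subgroup of `SU_3(p)` normalizing `R` — a subgroup of type 3^{1+2}.Sp₂(3) (maximality is not assumed). Ω is the set of cosets of `H`, so an element of `T` of prime order `r` (`x ∈ SU_3(p)` with `x^r` scalar, `x` not scalar) fixes a point of Ω exactly when some `SU_3(p)`-conjugate of `x` normalizes `R`. Let `r` be a prime dividing the index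 of `H`. Then every element of `T` of order `r` fixes a point of Ω if and only if `r = 2`, or `r = 3` and `p ≡ 8 (mod 9)`. -/
theorem result {F : Type*} [Field F] [Fintype F] {p : ℕ} [Fact p.Prime] [CharP F p] (hF : Fintype.card F = p ^ 2) (hp : 5 ≤ p) (hp3 : p % 3 = 2)
    (R : Subgroup (GL (Fin 3) F)) (hRU : R ≤ Cfsg.GU 3 F p) (hR : Nat.card R = 27) (hRe : Monoid.exponent R = 3) (hRna : ¬ IsMulCommutative R)
    (r : ℕ) [Fact r.Prime]
    (hΩ : r ∣ (Cfsg.Geo.subgroupNormalizer R).relIndex (Cfsg.GU 3 F p ⊓ Cfsg.Geo.specialLinear (Fin 3) F)) :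
    (∀ x ∈ Cfsg.GU 3 F p ⊓ Cfsg.Geo.specialLinear (Fin 3) F, (∃ z : F, ((x ^ r : GL (Fin 3) F) : Matrix (Fin 3) (Fin 3) F) = z • (1 : Matrix (Fin 3) (Fin 3) F)) →
      (∀ z : F, (x : Matrix (Fin 3) (Fin 3) F) ≠ z • (1 : Matrix (Fin 3) (Fin 3) F)) →
      ∃ g ∈ Cfsg.GU 3 F p ⊓ Cfsg.Geo.specialLinear (Fin 3) F, g⁻¹ * x * g ∈ Cfsg.Geo.subgroupNormalizer R) ↔ (r = 2 ∨ (r = 3 ∧ p % 9 = 8)) := by
  open Polynomial Module Cfsg.Agent.Cl.Cls Cfsg.Agent.Cl.Der in
  focus
    obtain ⟨σ, hσ⟩ := Cl.exists_uField hF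
    have hodd := (Fact.out : p.Prime).eq_two_or_odd
    have hq : 3 ∣ Fintype.card F - 1 := hF ▸ (Nat.modEq_iff_dvd' (Nat.one_le_pow _ _ (by omega))).1
      ((Nat.ModEq.pow 2 (show p ≡ 2 [MOD 3] from hp3)).trans (by decide)).symm
    have h := extraData_of_cube (p := p) Nat.prime_three hR hRna (Fintype.card_fin 3) hq
    obtain ⟨ω, a, b, h1, hH⟩ := exists_hei h (by simp) hR (fun x hx =>
      congrArg Subtype.val (hRe ▸ Monoid.pow_exponent_eq_one (⟨x, hx⟩ : R) :)) (simB_of_le_GU hσ hRU)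
    have hV : finrank F (Fin 3 → F) = 3 := by simp
    refine ⟨fun H => (AllC.two_or_three H h (Fintype.card_fin 3) le_rfl inf_le_right hΩ).imp_right
      fun e => ⟨e, mod_nine_eight hp3 ?_⟩, ?_⟩
    · have := mul_dvd_mul_left (p + 1) ((mul_dvd_mul_right hΩ _).trans (relIndex_mul_card_dvd
        Subgroup.le_normalizer (le_inf hRU (h1 _ (mem_specialLinear_iff.2 (hH.det_eq (p := p) hq hV))
          (mem_specialLinear_iff.2 (hH.symm.det_eq (p := p) hq hV))))))
      rw [hR, e, card_GU_inf hσ (by omega), show Cl.uOrd p 3 = (p + 1) * (p ^ 3 * ((p ^ 2 - 1) *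
        (p ^ 3 + 1))) by simp [Cl.uOrd, Finset.prod_range_succ]; ring] at this
      exact (Nat.mul_dvd_mul_iff_left p.succ_pos).1 this
    rintro (rfl | ⟨rfl, -⟩)
    · exact allC_su (p := p) hσ (by omega) (fun _ => ⟨by simp [padicValNat.eq_zero_of_not_dvd],
        fun _ e => absurd e (by decide)⟩) fun f _ f1 f2 => hH.fixM_two (p := p) (by omega) hV f1 f2
    · exact allC_su (p := p) hσ (by omega) (fun e => ⟨by
        simpa using one_le_padicValNat_of_dvd (by omega) e, by simp⟩)
        fun f _ f1 f2 => hH.fixM_three (p := p) (by omega) hq hV f1 f2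

end Cfsg.Agent.S5999
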