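import Cfsg.Statements.S6000
import Cfsg.Agent.Cl.DerSix4

set_option autoImplicit false
open scoped MatrixGroups
open Cfsg

namespace Cfsg.Agent.S6000

/-- Elements of prime order of PSL_4(p), p ≡ 1 (mod 4), and the normalizer of a 2-group of symplectic type of order 2⁶. Here `T = PSL_4(F)` for the field `F` with `p` elements, `p` a prime with `p ≡ 1 (mod 4)`; `R` is an absolutely irreducible subgroup of GL_4(F) of order 2⁶ that is a 2-group of symplectic type of exponent 4 with centre of order 4 (the central product of the scalars of order 4 with an extraspecial group 2^{1+4}), and `H` is the subgroup of matrices of determinant 1 normalizing `R` — a subgroup of type 2⁴.Sp₄(2) (maximality is not assumed). Ω is the set of cosets of `H` in `T`, so an element of `T` of prime order `r` (a matrix `x` of determinant 1 with `x^r` scalar, `x` not scalar) fixes a point of Ω exactly when some conjugate of `x` by a matrix of determinant 1 normalizes `R`. Let `r` be a prime dividing the index of `H`. Then every element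 of `T` of order `r` fixes a point of Ω if and only if `r = 2`, or `r = 3` and `p ≡ 2 (mod 3)`, or `r = 5` and `p ≡ ±2 (mod 5)` (`p` has multiplicative order 4 modulo 5). -/
theorem result {F : Type*} [Field F] [Fintype F] {p : ℕ} [Fact p.Prime] [CharP F p] (hF : Fintype.card F = p) (hp4 : p % 4 = 1)
    (R : Subgroup (GL (Fin 4) F)) (hR : Cfsg.Geo.IsLinearSymplecticTypeData 2 R) (hR6 : Nat.card R = 2 ^ 6)
    (r : ℕ) [Fact r.Prime]
    (hΩ : r ∣ (Cfsg.Geo.subgroupNormalizer R).relIndex (Cfsg.Geo.specialLinear (Fin 4) F)) :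
    (∀ x ∈ Cfsg.Geo.specialLinear (Fin 4) F, (∃ z : F, ((x ^ r : GL (Fin 4) F) : Matrix (Fin 4) (Fin 4) F) = z • (1 : Matrix (Fin 4) (Fin 4) F)) →
      (∀ z : F, (x : Matrix (Fin 4) (Fin 4) F) ≠ z • (1 : Matrix (Fin 4) (Fin 4) F)) →
      ∃ g ∈ Cfsg.Geo.specialLinear (Fin 4) F, g⁻¹ * x * g ∈ Cfsg.Geo.subgroupNormalizer R) ↔ (r = 2 ∨ (r = 3 ∧ p % 3 = 2) ∨ (r = 5 ∧ orderOf (p : ZMod 5) = 4)) := by
  open Polynomial Module Cfsg.Agent.Cl.Cls Cfsg.Agent.Cl.Der in
  focus
    have hp := (Fact.out : p.Prime).two_le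
    have hs := Cl.Mx.spans_of_acts hR.absIrred
    have h := Cl.Mx.extraData_of_sympl hR.symplecticType hs
    have hP := pau_of (σ := RingHom.id F) (B := 0) h (by simp) (pow_four_of_sympl hR.symplecticType)
      fun _ _ _ _ => by simp
    obtain ⟨i, i1, i2⟩ := exists_i hs (by
      have := (Cl.Mx.sympl_degree hR.symplecticType hR.absIrred).2
      rw [hR6, Fintype.card_fin] at this
      omega)
    have hV : finrank F (Fin 4 → F) = 4 := by simp
    have h4 : padicValNat 2 4 = 2 := padicValNat.prime_pow 2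
    by_cases h2 : r = 2
    · subst h2
      refine iff_of_true (allC_sl (p := p) (by omega) (fun _ => ⟨?_, fun _ _ => hF ▸ hp4⟩)
        fun f f1 f2 => hP.fixM_two (p := p) hV i1 i2 (by omega) f1 f2) (Or.inl rfl)
      rw [Fintype.card_fin, h4]
      exact (padicValNat_dvd_iff_le (by omega)).1 (by omega)
    have key : r = 3 ∨ r = 5 → ((r = 3 ∧ p % 3 = 2) ∨ (r = 5 ∧ orderOf (p : ZMod 5) = 4) ↔
        ¬ (r = p ∨ orderOf ((Fintype.card F : ℕ) : ZMod r) ≠ r - 1)) := fun h35 => by
      rw [hF]
      by_cases e : r = p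
      · subst e
        have := orderOf_cast_five
        rcases h35 with rfl | rfl <;> omega
      have := orderOf_cases (hF ▸ not_dvd_card (F := F) e) h35
      rcases h35 with rfl | rfl <;> omega
    refine ⟨fun H => Or.inr ?_, fun h3 => ?_⟩
    · have h35 := AllC.three_or_five H h (Fintype.card_fin 4) (sl_scalar le_rfl) hΩ h2
      refine (key h35).2 fun e => ?_
      obtain ⟨f, hf⟩ := exists_big (ι := Fin 4) (Fintype.card_fin 4) h35 e
      exact AllC.not_big H h (Fintype.card_fin 4) h35 hf fun _ _ _ e => e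
    have h35 : r = 3 ∨ r = 5 := (h3.resolve_left h2).imp And.left And.left
    obtain ⟨h5, h6⟩ := not_or.1 ((key h35).1 (h3.resolve_left h2))
    exact allC_sl h5 (fun _ => ⟨by rcases h35 with rfl | rfl <;> simp [padicValNat.eq_zero_of_not_dvd],
      fun e => absurd e h2⟩) fun f f1 f2 => hP.fixM_odd hV i1 i2 h35 h5 (fun g _ =>
        cy_of_order h5 (not_not.1 h6)) (cy_of_order h5 (not_not.1 h6) f1) fun e => f2 1 (by simp [e])

end Cfsg.Agent.S6000
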