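import Cfsg.Statements.S6001
import Cfsg.Agent.Cl.DerSix4

set_option autoImplicit false
open scoped MatrixGroups
open Cfsg

namespace Cfsg.Agent.S6001

/-- Elements of prime order of PSU_4(p), p ≡ 3 (mod 4), and the normalizer of a 2-group of symplectic type of order 2⁶. Here `T = PSU_4(p)` for a prime `p ≡ 3 (mod 4)`, realised through `SU_4(p)`, the matrices of determinant 1 over the field `F` with `p²` elements preserving the hermitian form `f = Σ uᵢvᵢ^p`; `R` is an absolutely irreducible subgroup of the full unitary group of `f` of order 2⁶ that is a 2-group of symplectic type of exponent 4 with centre of order 4, and `H` is the subgroup of `SU_4(p)` normalizing `R` — a subgroup of type 2⁴.Sp₄(2) (maximality is not assumed). Ω is the set of cosets of `H`, so an element of `T` of prime order `r` (`x ∈ SU_4(p)` with `x^r` scalar, `x` not scalar) fixes a point of Ω exactly when some `SU_4(p)`-conjugate of `x` normalizes `R`. Let `r` be a prime dividing the index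 of `H`. Then every element of `T` of order `r` fixes a point of Ω if and only if `r = 2`, or `r = 3` and `p ≡ 1 (mod 3)`, or `r = 5` and `p ≡ ±2 (mod 5)` (`p` has multiplicative order 4 modulo 5). -/
theorem result {F : Type*} [Field F] [Fintype F] {p : ℕ} [Fact p.Prime] [CharP F p] (hF : Fintype.card F = p ^ 2) (hp4 : p % 4 = 3)
    (R : Subgroup (GL (Fin 4) F)) (hRs : Cfsg.Geo.IsSymplecticTypeGroup 2 R) (hRi : Cfsg.Geo.ActsAbsolutelyIrreducibly (Cfsg.Geo.matrixSet R))
    (hRU : R ≤ Cfsg.GU 4 F p) (hR6 : Nat.card R = 2 ^ 6) (hRZ : Nat.card (Subgroup.center R) = 4)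
    (r : ℕ) [Fact r.Prime]
    (hΩ : r ∣ (Cfsg.Geo.subgroupNormalizer R).relIndex (Cfsg.GU 4 F p ⊓ Cfsg.Geo.specialLinear (Fin 4) F)) :
    (∀ x ∈ Cfsg.GU 4 F p ⊓ Cfsg.Geo.specialLinear (Fin 4) F, (∃ z : F, ((x ^ r : GL (Fin 4) F) : Matrix (Fin 4) (Fin 4) F) = z • (1 : Matrix (Fin 4) (Fin 4) F)) →
      (∀ z : F, (x : Matrix (Fin 4) (Fin 4) F) ≠ z • (1 : Matrix (Fin 4) (Fin 4) F)) →
      ∃ g ∈ Cfsg.GU 4 F p ⊓ Cfsg.Geo.specialLinear (Fin 4) F, g⁻¹ * x * g ∈ Cfsg.Geo.subgroupNormalizer R) ↔ (r = 2 ∨ (r = 3 ∧ p % 3 = 1) ∨ (r = 5 ∧ orderOf (p : ZMod 5) = 4)) := by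
  open Polynomial Module Cfsg.Agent.Cl.Cls Cfsg.Agent.Cl.Der in
  focus
    obtain ⟨σ, hσ⟩ := Cl.exists_uField hF
    have hG := geomU_uB (n := 4) hσ
    have hs := Cl.Mx.spans_of_acts hRi
    have h := Cl.Mx.extraData_of_sympl hRs hs
    have hP := pau_of h (by simp) (pow_four_of_sympl hRs) (simB_of_le_GU hσ hRU)
    obtain ⟨i, i1, i2⟩ := exists_i hs hRZ
    have hV : finrank F (Fin 4 → F) = 4 := by simp
    have h4 : padicValNat 2 4 = 2 := padicValNat.prime_pow 2
    by_cases h2 : r = 2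
    · subst h2
      refine iff_of_true (allC_su (p := p) hσ (by omega) (fun _ => ⟨?_, fun _ _ => by omega⟩)
        fun f _ f1 f2 => hP.fixM_two (p := p) hV i1 i2 (by omega) f1 f2) (Or.inl rfl)
      rw [h4]
      exact (padicValNat_dvd_iff_le (by omega)).1 (by omega)
    refine ⟨fun H => Or.inr (by_contra fun h3 => ?_), fun h3 => ?_⟩
    · have h35 := AllC.three_or_five H h (Fintype.card_fin 4) (sl_scalar inf_le_right) hΩ h2
      obtain ⟨f, f1, hf⟩ := hG.exists_big (p := p) (Fintype.card_fin 4) h35 (by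
        rcases h35 with rfl | rfl <;> omega)
      exact AllC.not_big H h (Fintype.card_fin 4) h35 hf fun k x e e' => (mem_GU_inf_iff hσ x).2
        ⟨e ▸ hG.iso_smul f1 (by rw [← pow_mul, mul_comm, pow_mul, hG.det_pow f1, one_pow]),
          mem_specialLinear_iff.1 e'⟩
    have h35 : r = 3 ∨ r = 5 := (h3.resolve_left h2).imp And.left And.left
    have h5 : r ≠ p := by omega
    have h6 := orderOf_cases (mt hG.dvd_iff.1 h5) h35
    have h7 := hG.orderOf_card (r := r)
    have h8 : orderOf (p : ZMod r) % 4 ≠ 2 ∧ 2 * orderOf ((Fintype.card F : ℕ) : ZMod r) = r - 1 := by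
      rcases h3.resolve_left h2 with ⟨rfl, e⟩ | ⟨rfl, e⟩
      · rw [h7, show orderOf (p : ZMod 3) = 1 by omega]; decide
      · rw [h7, e]; decide
    exact allC_su hσ h5 (fun _ => ⟨by
      rcases h35 with rfl | rfl <;> simp [padicValNat.eq_zero_of_not_dvd], fun e => absurd e h2⟩)
      fun f f0 f1 f2 => hP.fixM_odd hV i1 i2 h35 h5 (fun g hg => hG.cy h5 h2 h8.1 h8.2
        (isoU_of fun u v => (hg u v).trans (one_mul _))) (hG.cy h5 h2 h8.1 h8.2 f0 f1)
        fun e => f2 1 (by simp [e])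

end Cfsg.Agent.S6001
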