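import Cfsg.Statements.S6002
import Cfsg.Agent.Cl.DerSix4

set_option autoImplicit false
open scoped MatrixGroups
open Cfsg

namespace Cfsg.Agent.S6002

/-- Elements of prime order of PSp_4(p), p odd, and the normalizer of an extraspecial 2-group of order 2⁵ of minus type. Here `T = PSp_4(F)` for the field `F` with `p` elements, `p` an odd prime, realised through the matrices preserving the standard alternating form `f`; `R` is an absolutely irreducible subgroup of `T` (it preserves `f`) that is a 2-group of symplectic type of exponent 4, order 2⁵ and centre of order 2, of minus type (no elementary abelian subgroup of order 2³), and `H` is the subgroup of `T` normalizing `R` — a subgroup of type 2^{1+4}.O₄⁻(2) (maximality is not assumed). Ω is the set of cosets of `H` in `T`, so an element of `T` of prime order `r` (`x ∈ T` with `x^r` scalar, `x` not scalar) fixes a point of Ω exactly when some `T`-conjugate of `x` normalizes `R`. Let `r` be a prime dividing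 the index of `H`. Then every element of `T` of order `r` fixes a point of Ω if and only if `r = 2`, or `r = 5` and `p` has multiplicative order 4 modulo 5. -/
theorem result {F : Type*} [Field F] [Fintype F] {p : ℕ} [Fact p.Prime] [CharP F p] (hF : Fintype.card F = p) (hodd : Odd p)
    (R : Subgroup (GL (Fin 2 ⊕ Fin 2) F)) (hRs : Cfsg.Geo.IsSymplecticTypeGroup 2 R) (hRi : Cfsg.Geo.ActsAbsolutelyIrreducibly (Cfsg.Geo.matrixSet R))
    (hRf : R ≤ Cfsg.spGL 2 F) (hR5 : Nat.card R = 2 ^ 5) (hRZ : Nat.card (Subgroup.center R) = 2) (hRm : Cfsg.Geo.IsOfMinusType 2 R)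
    (r : ℕ) [Fact r.Prime]
    (hΩ : r ∣ (Cfsg.Geo.subgroupNormalizer R).relIndex (Cfsg.spGL 2 F)) :
    (∀ x ∈ Cfsg.spGL 2 F, (∃ z : F, ((x ^ r : GL (Fin 2 ⊕ Fin 2) F) : Matrix (Fin 2 ⊕ Fin 2) (Fin 2 ⊕ Fin 2) F) = z • (1 : Matrix (Fin 2 ⊕ Fin 2) (Fin 2 ⊕ Fin 2) F)) →
      (∀ z : F, (x : Matrix (Fin 2 ⊕ Fin 2) (Fin 2 ⊕ Fin 2) F) ≠ z • (1 : Matrix (Fin 2 ⊕ Fin 2) (Fin 2 ⊕ Fin 2) F)) →
      ∃ g ∈ Cfsg.spGL 2 F, g⁻¹ * x * g ∈ Cfsg.Geo.subgroupNormalizer R) ↔ (r = 2 ∨ (r = 5 ∧ orderOf (p : ZMod 5) = 4)) := by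
  open Polynomial Module Cfsg.Agent.Cl.Cls Cfsg.Agent.Cl.Der in
  focus
    rw [spGL_eq] at hRf hΩ ⊢
    have hG := geomA_spB (F := F) (d := 2)
    generalize Cl.spB 2 F = B at *
    obtain ⟨k, hk⟩ := hodd
    have h := Cl.Mx.extraData_of_sympl hRs (Cl.Mx.spans_of_acts hRi)
    have hP := pau_of h (by simp) (pow_four_of_sympl hRs) fun x hx => (mem_isoGL.1 (hRf hx)).simB
    have hm := minus_of hP hRm hR5
    have hn : Fintype.card (Fin 2 ⊕ Fin 2) = 4 := rfl
    have hV := (finrank_fintype_fun_eq_card F).trans hn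
    obtain ⟨a, b, c, d, H, a1, b1, c1, d1⟩ := hP.exists_quad_minus (by omega) hm
    have hI : ∀ x, SimB B 1 (glRep x) → x ∈ isoGL B fun _ => (0 : F) := fun x hx => mem_isoGL.2 hx.isoA
    refine ⟨fun H => or_iff_not_imp_left.2 fun h2 => by_contra fun h3 => ?_, ?_⟩
    · have h35 := AllC.three_or_five H h hn (fun x hx z e => by
        rcases hG.eq_or_eq_neg (e ▸ mem_isoGL.1 hx) with rfl | rfl <;> norm_num) hΩ h2
      have h4 := allA_of_forall hG H
      obtain ⟨f, f1, f2, f3⟩ : ∃ f, IsoA B f ∧ f ^ r = 1 ∧ (mult f 1 = 3 ∨ (r ≠ p ∧ mult f 1 = 2)) := by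
        by_cases e : r = p
        · obtain ⟨f, f1, f2, f3⟩ := hG.exists_transv p (by omega)
          exact ⟨f, f1, e ▸ f2, by omega⟩
        have := orderOf_cases (hF ▸ not_dvd_card (F := F) e) h35
        obtain ⟨f, f1, f2, f3⟩ := hG.exists_mult_two hn e h35 (by
          rw [hF]; rcases h35 with rfl | rfl <;> omega)
        exact ⟨f, f1, f2, Or.inr ⟨e, f3⟩⟩
      have h5 := h4.of_mult f1 f2 (by omega) (by omega)
      obtain ⟨x, x1, x2⟩ := id h5
      rcases FixG.cases h hn h2 ⟨x, x1.1, x2⟩ ⟨1, f2.trans (one_smul F _).symm⟩ (ne_smul_of_movE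
        (by rw [← mult_one]; omega) (ne_one_of_finrank_fixS (by rw [← mult_one]; omega))) with
        ⟨rfl, e⟩ | ⟨-, e⟩ <;> have := e 1
      · exact hG.not_allA_three (p := p) h hP hm hn (by omega) f2 (by omega) h5
      · omega
    rintro (rfl | ⟨rfl, h5⟩)
    · refine forall_of_allA hG hP.two (by simpa using hP.two) fun f f1 ⟨z, f2⟩ f3 => FixM.fixG ?_ hI
      rcases hG.sq_cases f1 f2 with e | e
      · have := mult_pos_of_sq e (f3 _)
        have := mult_lt (f3 1)
        obtain ⟨m, hm⟩ := hG.even_mult f1 (isSemisimple_of_sq_eq_one hP.two e)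
        exact (hP.md H.ha).fixM_of_sq (p := p) (by omega) a1 e
          (Or.inl ((hP.mult_two hV H.ha H.hb H.ba a1).trans (by omega)))
      · exact ⟨c, hP.md H.hc, hG.ed_eq_of_sq_neg (p := p) (by omega) (hP.iso c H.hc).isoA f1
          ((pow_two c).trans c1) e⟩
    have h6 : 5 ≠ p := fun e => orderOf_cast_five (e ▸ h5)
    refine forall_of_allA hG hP.two (natCast_ne_zero_of_ne h6) fun f f1 => (hG.forall_odd_iff
      (R := fun _ => True) (by decide) (fun _ _ _ => trivial) fun f hf => ?_).2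
        (fun f _ f2 f3 => (hP.fixM_five hV H a1 b1 c1 d1 h6 (fun g _ => cy_of_order h6 (hF ▸ h5))
          (cy_of_order h6 (hF ▸ h5) f2) f3).fixG hI) f f1 trivial
    obtain ⟨x, ⟨x1, x2⟩, x3⟩ := hf
    have := FixM.smul (S := Sm R) (B := B) ⟨glRep x, ⟨isUnit_glRep x, ?_, (mem_isoGL.1 x2).simB⟩,
      x3.ed_eq⟩ (s := -1) (by simp) (by simp)
    · exact FixM.fixG (((neg_one_smul F (-f)).trans (neg_neg f)) ▸ this) hI
    rintro _ ⟨y, hy, rfl⟩
    exact conj_mem_iff.1 (Cl.Max.normsG_subgroupNormalizer R x x1 y hy)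

end Cfsg.Agent.S6002
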